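import Cfsg.Statements.S4701
import Cfsg.Agent.Screen.BrauerP.Reduce

set_option autoImplicit false
set_option linter.style.haveILetI false
open Cfsg Cfsg.Agent Cfsg.Agent.Screen.BrauerP

namespace Cfsg.Agent.S4701

/-- Let G be a finite perfect group and p a prime dividing the order of G with p^3 larger than the order of G. Suppose a Sylow p-subgroup of G is not normal and G has no normal subgroup of order 2. Then p > 3 and G is isomorphic to PSL(2, p), or to SL(2, 2^m) with p = 2^m + 1. -/
theorem result {G : Type*} [Group G] [Finite G] (hperf : commutator G = ⊤) (p : ℕ) [Fact p.Prime] (hdvd : p ∣ Nat.card G) (hbig : Nat.card G < p ^ 3) (P : Sylow p G) (hP : ¬ (P : Subgroup G).Normal) (h2 : ∀ N : Subgroup G, N.Normal → Nat.card N ≠ 2) : (∃ (F : Type) (_ : Field F) (_ : Fintype F), Fintype.card F = p ∧ 3 < p ∧ Nonempty (G ≃* Matrix.ProjectiveSpecialLinearGroup (Fin 2) F)) ∨ (∃ (m : ℕ) (F : Type) (_ : Field F) (_ : Fintype F), Fintype.card F = 2 ^ m ∧ p = 2 ^ m + 1 ∧ 3 < p ∧ Nonempty (G ≃*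 Matrix.SpecialLinearGroup (Fin 2) F)) := by
  haveI := Fintype.ofFinite G
  have hp : p.Prime := Fact.out
  have hp2 := hp.two_le
  haveI : NeZero p := ⟨hp.ne_zero⟩
  have hidx := card_sylow_eq P
  have hGN := (Subgroup.normalizer ((P : Subgroup G) : Set G)).card_mul_index
  rw [← hidx] at hGN
  have hNmod : Nat.card (Sylow p G) % p = 1 := by
    have h := card_sylow_modEq_one p G
    rwa [Nat.ModEq, Nat.mod_eq_of_lt hp.one_lt] at h
  have hN : p + 1 ≤ Nat.card (Sylow p G) := by
    have h1 := Nat.div_add_mod (Nat.card (Sylow p G)) p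
    rcases Nat.eq_zero_or_pos (Nat.card (Sylow p G) / p) with h0 | h0
    · exfalso
      refine hP ?_
      rw [← Subgroup.normalizer_eq_top_iff, ← Subgroup.index_eq_one, ← hidx]
      rw [h0, mul_zero] at h1
      omega
    · have : p ≤ p * (Nat.card (Sylow p G) / p) := Nat.le_mul_of_pos_right p h0
      omega
  have hPle : Nat.card P ≤ Nat.card (Subgroup.normalizer ((P : Subgroup G) : Set G)) :=
    Subgroup.card_le_of_le Subgroup.le_normalizer
  have hPc : Nat.card P = p := by
    show Nat.card (P : Subgroup G) = p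
    obtain ⟨k, hk⟩ := IsPGroup.iff_card.1 P.2
    have hpP : p ∣ Nat.card (P : Subgroup G) := P.dvd_card_of_dvd_card hdvd
    rcases k with _ | _ | k
    · rw [hk, pow_zero] at hpP
      exact absurd (Nat.le_of_dvd one_pos hpP) (by omega)
    · rw [hk, zero_add, pow_one]
    · exfalso
      have h2 : p ^ 2 ≤ Nat.card (P : Subgroup G) := by
        rw [hk]; exact Nat.pow_le_pow_right hp.pos (by omega)
      have h3 : p ^ 2 * (p + 1) ≤ Nat.card G := by
        rw [← hGN]; exact Nat.mul_le_mul (h2.trans hPle) hN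
      nlinarith
  have he2 := two_le_relIndex_of_perfect hperf P hPc
  have hNP : 2 * p ≤ Nat.card (Subgroup.normalizer ((P : Subgroup G) : Set G)) := by
    set C := Subgroup.centralizer ((P : Subgroup G) : Set G)
    set NP := Subgroup.normalizer ((P : Subgroup G) : Set G)
    have h := Subgroup.relIndex_mul_relIndex ⊥ C NP bot_le (Subgroup.centralizer_le_normalizer _)
    rw [Subgroup.relIndex_bot_left, Subgroup.relIndex_bot_left] at h
    rw [← h, mul_comm (Nat.card C)]
    refine Nat.mul_le_mul he2 (Nat.le_of_dvd Nat.card_pos ?_)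
    refine (dvd_of_eq hPc.symm).trans (Subgroup.card_dvd_of_le ?_)
    haveI : IsCyclic (P : Subgroup G) := isCyclic_of_prime_card hPc
    intro y hy
    rw [Subgroup.mem_centralizer_iff]
    intro w hw
    exact congrArg Subtype.val (mul_comm' (⟨w, hw⟩ : (P : Subgroup G)) ⟨y, hy⟩)
  have h2N : 2 * Nat.card (Sylow p G) < p ^ 2 := by
    have h : 2 * p * Nat.card (Sylow p G) ≤ Nat.card G := by
      rw [← hGN]; exact Nat.mul_le_mul_right _ hNP
    refine Nat.lt_of_mul_lt_mul_left (a := p) ?_
    calc p * (2 * Nat.card (Sylow p G)) = 2 * p * Nat.card (Sylow p G) := by ring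
      _ ≤ Nat.card G := h
      _ < p ^ 3 := hbig
      _ = p * p ^ 2 := by ring
  have hF : ¬ Formula p (Nat.card (Sylow p G)) := fun h => by
    have := h.bound hp hNmod
    nlinarith
  set K := pPrimeCore p G with hKdef
  have hKp : ¬ p ∣ Nat.card K := Core.not_dvd_card_pPrimeCore p G
  have hcardKG : Nat.card (G ⧸ K) * Nat.card K = Nat.card G :=
    (Subgroup.card_eq_card_quotient_mul_card_subgroup K).symm
  have hsmall : ∀ m, p ^ 3 ≤ 3 * m → Nat.card (G ⧸ K) = m → K = ⊥ := by
    intro m hm hm'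
    by_contra hne
    have h1 : Nat.card K ≠ 1 := fun h => hne (Subgroup.card_eq_one.1 h)
    have h2' : Nat.card K ≠ 2 := h2 K inferInstance
    have h3 : 3 ≤ Nat.card K := by
      have := Nat.card_pos (α := K)
      omega
    have : 3 * m ≤ Nat.card G := by
      rw [← hcardKG, hm', mul_comm 3]; exact Nat.mul_le_mul_left _ h3
    omega
  rcases core_quotient hperf P hPc hF with ⟨h3, ⟨e⟩⟩ | ⟨a, F, iF, iFt, hpa, h3, hcF, ⟨e⟩⟩
  · have hb : K = ⊥ := by
      have hc := two_mul_card_psl (p := p) (by omega)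
      refine hsmall _ ?_ (Nat.card_congr e.toEquiv)
      have h4 : 3 ≤ p ^ 2 := by nlinarith
      have h5 : 2 * p ^ 2 ≤ 3 * (p ^ 2 - 1) := by omega
      have h6 := Nat.mul_le_mul_left p h5
      nlinarith
    exact Or.inl ⟨ZMod p, inferInstance, inferInstance, ZMod.card p, h3,
      ⟨((QuotientGroup.quotientMulEquivOfEq hb).trans QuotientGroup.quotientBot).symm.trans e⟩⟩
  · have ha : 1 ≤ a := by
      rcases Nat.eq_zero_or_pos a with h | h
      · subst h; simp at hpa; omega
      · exact h
    have hb : K = ⊥ := by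
      refine hsmall _ ?_ (Nat.card_congr e.toEquiv)
      rw [(card_sl2_even ha hcF).1]
      set q := 2 ^ a
      have hq3 : 3 ≤ q := by omega
      subst hpa
      obtain ⟨m, hm⟩ : ∃ m, q ^ 2 = m + 1 := ⟨q ^ 2 - 1, by
        have : 1 ≤ q ^ 2 := Nat.one_le_pow _ _ (by omega)
        omega⟩
      rw [hm, Nat.add_sub_cancel]
      nlinarith [Nat.mul_le_mul_left q (Nat.mul_le_mul hq3 hq3)]
    exact Or.inr ⟨a, F, iF, iFt, hcF, hpa, h3,
      ⟨((QuotientGroup.quotientMulEquivOfEq hb).trans QuotientGroup.quotientBot).symm.trans e⟩⟩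

end Cfsg.Agent.S4701
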