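import Cfsg.Statements.S4432
import Cfsg.Agent.Chars.CoveringBlocks

set_option autoImplicit false
set_option linter.style.haveILetI false
open Cfsg

namespace Cfsg.Agent.S4432

/-- Let N be a normal subgroup of the finite group G, b a block of N and B a block of G (relative to a maximal ideal M of the algebraic integers containing p) such that B covers b: some member of B has a constituent in b on restriction to N. Then every θ ∈ b is a constituent of the restriction of some χ ∈ B. -/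
theorem result {G : Type*} [Group G] [Fintype G] (p : ℕ) [Fact p.Prime] (M : Ideal Cfsg.AlgInt) (hM : Cfsg.IsPModular p M) (N : Subgroup G) [hN : N.Normal] [Fintype N] (B : Set (Cfsg.IrrCharacter G)) (hB : Cfsg.IsPBlock M B) (b : Set (Cfsg.IrrCharacter N)) (hb : Cfsg.IsPBlock M b) (hcov : (∃ χ ∈ B, ∃ θ ∈ b, Cfsg.classInner (fun n : N => (χ : G → ℂ) n) (θ : N → ℂ) ≠ 0)) (θ : Cfsg.IrrCharacter N) (hθ : θ ∈ b) : ∃ χ ∈ B, Cfsg.classInner (fun n : N => (χ : G → ℂ) n) (θ : N → ℂ) ≠ 0 := by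
  classical
  haveI : M.IsMaximal := hM.2.1
  have hpM : (p : Cfsg.AlgInt) ∈ M := hM.2.2
  by_contra hall
  push Not at hall
  have hβ := Cfsg.Agent.BlockChar.isBlk_idemS hpM hb
  have hBblk := Cfsg.Agent.BlockChar.isBlk_idemG hpM hB
  set β := Cfsg.Agent.BlockChar.idemS M b with hβdef
  set E := Cfsg.Agent.BlockChar.idemG M B with hE
  have hcomm : β * E = E * β :=
    Cfsg.Agent.Chars.Coset.supported_fixed_comm hβ.supp (hBblk.fixed.mono le_top)
  obtain ⟨q, y, hy, hyf, hnil⟩ := Cfsg.Agent.Chars.Coset.exists_unit_component hβ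
    (z := E * β)
    (by rw [mul_assoc, ← mul_assoc β, hcomm, mul_assoc, hβ.idem, ← mul_assoc, hBblk.idem])
    (Cfsg.Agent.Chars.Coset.idemG_mul_idemS_ne_zero hpM hB hb hcov)
    ((hBblk.fixed.mono le_top).mul hβ.fixed) (by rw [mul_assoc, hβ.idem])
  rw [Cfsg.Agent.Chars.Coset.comp_mul_supported hβ.supp, ← mul_assoc, mul_assoc _ β, hβ.idem] at hnil
  set w := y * Cfsg.Agent.Chars.Coset.comp q E with hw
  have hwc : Cfsg.Agent.BlockChar.CentralIn N w := by
    refine ⟨Cfsg.Agent.Chars.Coset.hasDeg_one_iff.1 ?_,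
      hyf.mul (Cfsg.Agent.Chars.Coset.fixed_comp (hBblk.fixed.mono le_top) q)⟩
    have := Cfsg.Agent.Chars.Coset.hasDeg_mul hy (Cfsg.Agent.Chars.Coset.hasDeg_comp q E)
    rwa [inv_mul_cancel] at this
  obtain ⟨f, hf, hfR, hfred⟩ := Cfsg.Agent.BlockChar.exists_red_eq (M := M) N.subtype_injective
    (z := w) (by rwa [Subgroup.range_subtype])
  -- lift the two factors
  choose s hs using Cfsg.Agent.BlockChar.res_surjective (M := M)
  let Y : G → ℂ := fun g => if (g : G ⧸ N) = q⁻¹ then (s (y.coeff g) : ℂ) else 0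
  let Bt : G → ℂ := fun g => if (g : G ⧸ N) = q then Cfsg.blockCoeff B g else 0
  have hYR : Cfsg.Agent.Blocks.RFun M Y := fun g => by
    show Cfsg.MemLocalRing M (if _ then _ else _)
    split_ifs
    exacts [Cfsg.Agent.Blocks.memR_of_algInt _, Cfsg.Agent.Blocks.memR_zero]
  have hBtR : Cfsg.Agent.Blocks.RFun M Bt := fun g => by
    show Cfsg.MemLocalRing M (if _ then _ else _)
    split_ifs
    exacts [Cfsg.Agent.Blocks.rFun_blockCoeff hpM hB g, Cfsg.Agent.Blocks.memR_zero]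
  have hidinj : Function.Injective (MonoidHom.id G) := Function.injective_id
  have hredY : Cfsg.Agent.BlockChar.red M (MonoidHom.id G) Y = y := by
    refine Cfsg.Agent.BlockChar.red_ext hidinj (fun g hg => absurd ⟨g, rfl⟩ hg) fun g => ?_
    show y.coeff g = _
    simp only [Y]
    split_ifs with h
    · exact (hs _).symm
    · rw [Cfsg.Agent.BlockChar.res_zero, hy g h]
  have hredB : Cfsg.Agent.BlockChar.red M (MonoidHom.id G) Bt = Cfsg.Agent.Chars.Coset.comp q E := by
    refine Cfsg.Agent.BlockChar.red_ext hidinj (fun g hg => absurd ⟨g, rfl⟩ hg) fun g => ?_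
    show (Cfsg.Agent.Chars.Coset.comp q E).coeff g = _
    rw [Cfsg.Agent.Chars.Coset.coeff_comp, hE, Cfsg.Agent.BlockChar.coeff_idemG]
    simp only [Bt]
    split_ifs
    exacts [rfl, Cfsg.Agent.BlockChar.res_zero.symm]
  set U := Cfsg.Agent.Blocks.conv Y Bt with hU
  have hredU : Cfsg.Agent.BlockChar.red M (MonoidHom.id G) U = w := by
    rw [hU, Cfsg.Agent.BlockChar.red_conv hYR hBtR, hredY, hredB]
  have hUR : Cfsg.Agent.Blocks.RFun M U := Cfsg.Agent.Blocks.rFun_conv hYR hBtR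
  have hUs : ∀ g, g ∉ N → U g = 0 := by
    intro g hg
    refine Finset.sum_eq_zero fun x _ => ?_
    simp only [Y, Bt]
    split_ifs with h1 h2
    · exfalso
      apply hg
      rw [← QuotientGroup.eq_one_iff, ← mul_inv_cancel_left x g, QuotientGroup.mk_mul, h1, h2,
        inv_mul_cancel]
    all_goals simp
  -- the orbit of `θ` is killed by the block
  set A : Set (Cfsg.IrrCharacter N) := Cfsg.Agent.Blocks.orbitSet (G := G) ({θ} : Set _) with hA
  have hAinv : Cfsg.Agent.Blocks.ConjInv (G := G) A := Cfsg.Agent.Blocks.conjInv_orbitSet _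
  set L := Cfsg.Agent.Blocks.liftCoeff (G := G) A with hL
  have hkill : Cfsg.Agent.Blocks.conv (Cfsg.blockCoeff B) L = 0 := by
    refine Cfsg.Agent.Blocks.omega_ext (Cfsg.Agent.Blocks.isClassFunction_conv
      (Cfsg.Agent.Blocks.isClassFunction_blockCoeff B)
      (Cfsg.Agent.Blocks.isClassFunction_liftCoeff hAinv))
      Cfsg.Agent.Blocks.isClassFunction_zero' fun ψ => ?_
    rw [Cfsg.Agent.Blocks.omega_conv ψ.2 (Cfsg.Agent.Blocks.isClassFunction_blockCoeff B)
      (Cfsg.Agent.Blocks.isClassFunction_liftCoeff hAinv),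
      show Cfsg.Agent.Blocks.omega (ψ : G → ℂ) 0 = 0 by simp [Cfsg.Agent.Blocks.omega]]
    by_cases hψ : ψ ∈ B
    · obtain ⟨φ, hφ⟩ := Cfsg.Agent.Blocks.exists_constituent (N := N) ψ
      rw [Cfsg.Agent.Blocks.omega_liftCoeff hφ hAinv, if_neg, mul_zero]
      rintro ⟨g, hg⟩
      apply hall ψ hψ |> fun h => hφ ?_
      rw [← Cfsg.Agent.Blocks.constituent_conjIrr ψ φ g, Set.mem_singleton_iff.1 hg]
      exact hall ψ hψ
    · rw [Cfsg.Agent.Blocks.omega_blockCoeff_not_mem hψ, zero_mul]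
  have hBtL : Cfsg.Agent.Blocks.conv Bt L = 0 := by
    funext g
    show ∑ x, Bt x * L (x⁻¹ * g) = 0
    by_cases hg : (g : G ⧸ N) = q
    · refine Eq.trans (Finset.sum_congr rfl fun x _ => ?_) (congrFun hkill g)
      by_cases hx : x⁻¹ * g ∈ N
      · have e : (x : G ⧸ N) = q := hg ▸ QuotientGroup.eq.2 hx
        simp [Bt, e]
      · rw [hL, Cfsg.Agent.Blocks.liftCoeff_supported A _ hx, mul_zero, mul_zero]
    · refine Finset.sum_eq_zero fun x _ => ?_
      by_cases hx : x⁻¹ * g ∈ N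
      · have e : (x : G ⧸ N) ≠ q := fun e => hg (e ▸ (QuotientGroup.eq.2 hx).symm)
        simp [Bt, e]
      · rw [hL, Cfsg.Agent.Blocks.liftCoeff_supported A _ hx, mul_zero]
  have hUL : Cfsg.Agent.Blocks.conv U L = 0 := by
    rw [hU, Cfsg.Agent.Chars.Coset.conv_assoc, hBtL]
    funext g
    simp [Cfsg.Agent.Blocks.conv]
  set U' : N → ℂ := Cfsg.Agent.Blocks.resFun N U with hU'
  have hU'L : Cfsg.Agent.Blocks.conv U' (Cfsg.blockCoeff A) = 0 := by
    funext n
    refine Eq.trans ?_ (congrFun hUL n)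
    show ∑ x : N, U' x * Cfsg.blockCoeff A (x⁻¹ * n) = ∑ x : G, U x * L (x⁻¹ * n)
    rw [← Finset.sum_subset (Finset.subset_univ (Finset.univ.filter fun x : G => x ∈ N))
      (fun x _ hx => by rw [hUs x (fun h => hx (by simp [h])), zero_mul])]
    rw [Finset.sum_subtype (Finset.univ.filter fun x : G => x ∈ N) (p := fun x => x ∈ N)
      (fun x => by simp)]
    refine Finset.sum_congr rfl fun x _ => ?_
    rw [← Cfsg.Agent.Blocks.resFun_liftCoeff (G := G) A]
    rfl
  obtain ⟨m, ρ, hm, h1, htr, hρR, hscal⟩ := Cfsg.Agent.Blocks.exists_locRep hpM θ.2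
  have hact : Cfsg.Agent.Blocks.act ρ U' = 0 := by
    have hθA : θ ∈ A := Cfsg.Agent.Blocks.subset_orbitSet _ rfl
    have h := Cfsg.Agent.Blocks.act_conv ρ U' (Cfsg.blockCoeff A)
    rw [hU'L, Cfsg.Agent.Blocks.act_eq_omega ρ htr hscal hm h1
      (Cfsg.Agent.Blocks.isClassFunction_blockCoeff A),
      Cfsg.Agent.Blocks.omega_blockCoeff_mem hθA, one_smul, mul_one] at h
    rw [← h]
    simp [Cfsg.Agent.Blocks.act]
  have hdiff : Cfsg.Agent.Blocks.IFun M (U' - f) := by
    intro n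
    show Cfsg.MemLocalIdeal M (U n - f n)
    rw [← Cfsg.Agent.BlockChar.res_eq_iff (hUR _) (hfR _),
      ← Cfsg.Agent.BlockChar.coeff_red N.subtype_injective f n, hfred, ← hredU]
    exact (Cfsg.Agent.BlockChar.coeff_red hidinj U (n : G)).symm
  have hωI : Cfsg.MemLocalIdeal M (Cfsg.Agent.Blocks.omega (θ : N → ℂ) f) := by
    have h := Cfsg.Agent.Blocks.act_memI ρ hρR hdiff ⟨0, hm⟩ ⟨0, hm⟩
    rw [Cfsg.Agent.Blocks.act_sub, hact, Cfsg.Agent.Blocks.act_eq_omega ρ htr hscal hm h1 hf] at h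
    simpa using Cfsg.Agent.Blocks.memI_neg h
  apply hnil
  have h := Cfsg.Agent.BlockChar.isNilpotent_red_mul_idem N.subtype_injective hpM hb hθ hf hfR
  rwa [(Cfsg.Agent.BlockChar.res_eq_zero_iff
    (Cfsg.Agent.Blocks.memI_memR hωI)).2 hωI, zero_smul, sub_zero, hfred] at h

end Cfsg.Agent.S4432
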