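import Cfsg.Statements.S4503
import Cfsg.Agent.Chars2.SmallDegreeOnce
import Cfsg.Agent.DegreeGraph.AbelianNormal

set_option autoImplicit false
open Cfsg Cfsg.Agent Cfsg.Agent.Blocks Cfsg.Agent.BlockChar Cfsg.Agent.Chars2.Cyc Function

namespace Cfsg.Agent.S4503

/-- Let G be a finite group whose order is divisible by the prime p exactly once and which has no normal subgroup of order p. Then every faithful character χ of G has degree at least (p − 1)/2: 2·χ(1) + 1 ≥ p. -/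
theorem result {G : Type*} [Group G] [Finite G] (p : ℕ) (hp : p.Prime) (hdiv : p ∣ Nat.card G) (hsq : ¬ p ^ 2 ∣ Nat.card G) (hnn : ∀ H : Subgroup G, H.Normal → Nat.card H ≠ p) (χ : G → ℂ) (hχ : Cfsg.IsCharacter G χ) (hfaith : ∀ g : G, χ g = χ 1 → g = 1) : p ≤ 2 * Cfsg.charDegree χ + 1 := by
  classical
  by_contra hlt
  push Not at hlt
  haveI : Fact p.Prime := ⟨hp⟩
  haveI := Fintype.ofFinite G
  obtain ⟨M, hMmax, hpM⟩ : ∃ M : Ideal AlgInt, M.IsMaximal ∧ (p : AlgInt) ∈ M :=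
    DegreeGraph.exists_isMaximal_mem p
  haveI := hMmax
  let N : Subgroup G := Subgroup.closure {g : G | orderOf g = p}
  have hNn : N.Normal := by
    refine ⟨fun a ha g => ?_⟩
    have hle : N ≤ N.comap (MulAut.conj g).toMonoidHom := by
      refine (Subgroup.closure_le _).2 fun y hy => Subgroup.mem_comap.2 (Subgroup.subset_closure ?_)
      show orderOf ((MulAut.conj g) y) = p
      rw [MulEquiv.orderOf_eq]; exact hy
    exact hle ha
  haveI := Fintype.ofFinite N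
  obtain ⟨x, hx⟩ := exists_prime_orderOf_dvd_card' p hdiv
  have hxN : x ∈ N := Subgroup.subset_closure hx
  have hx' : orderOf (⟨x, hxN⟩ : N) = p := by rw [← Subgroup.orderOf_coe]; exact hx
  have hdN : p ∣ Nat.card N := by
    have h := orderOf_dvd_natCard (⟨x, hxN⟩ : N)
    rwa [hx'] at h
  obtain ⟨K, σ, S⟩ := exists_once hpM hdN
    (fun h => hsq (h.trans (Subgroup.card_subgroup_dvd_card N))) hx'
  haveI : Fintype (Subgroup.centralizer ({(⟨x, hxN⟩ : N)} : Set N)) := Fintype.ofFinite _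
  have hconj : ∀ y : N, orderOf (y : G) = p →
      ∃ a : N, a * y * a⁻¹ ∈ Subgroup.zpowers (⟨x, hxN⟩ : N) := fun y hy =>
    S.exists_conj_of_order (by rw [← Subgroup.orderOf_coe]; exact hy)
  have hall : ∀ (D : Subgroup N), D.Normal → (⟨x, hxN⟩ : N) ∈ D → ∀ y : N, y ∈ D := by
    intro D hD hxD
    have hle : N ≤ D.map N.subtype := by
      refine (Subgroup.closure_le _).2 fun y hy => ?_
      obtain ⟨a, ha⟩ := hconj ⟨y, Subgroup.subset_closure hy⟩ hy
      refine ⟨⟨y, Subgroup.subset_closure hy⟩, ?_, rfl⟩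
      have h := hD.conj_mem _ (Subgroup.zpowers_le.2 hxD ha) a⁻¹
      rwa [show a⁻¹ * (a * (⟨y, Subgroup.subset_closure hy⟩ : N) * a⁻¹) * a⁻¹⁻¹ = ⟨y, Subgroup.subset_closure hy⟩ by group] at h
    intro y
    obtain ⟨z, hz, he⟩ := hle y.2
    rwa [← Subtype.ext he]
  have hgen : ∀ ψ : IrrCharacter N, (ψ : N → ℂ) ⟨x, hxN⟩ = (ψ : N → ℂ) 1 → ψ = Blocks.oneChar N := by
    intro ψ hψ
    have hc := fun y => (Chars.mem_charKer (Chars.irr_isCharacter ψ)).1
      (hall _ (Chars.charKer_normal (Chars.irr_isCharacter ψ))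
        ((Chars.mem_charKer (Chars.irr_isCharacter ψ)).2 hψ) y)
    by_contra hne
    have h := Chars.classInner_irrCharacter ψ (Blocks.oneChar N)
    rw [if_neg hne, Chars.classInner_def, Finset.sum_congr rfl fun y _ => by rw [hc y]] at h
    simp [Blocks.coe_oneChar, Chars.irr_apply_one_ne_zero ψ.2] at h
  have hres : IsCharacter N (fun g : N => χ g) := Chars.isCharacter_restrict hχ N
  choose mm hmm using fun ψ : IrrCharacter N =>
    Chars.exists_classInner_eq_nat hres (Chars.irr_isCharacter ψ)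
  have hdec : ∀ g : N, χ g = ∑ ψ, (mm ψ : ℂ) * (ψ : N → ℂ) g := fun g => by
    refine (congrFun (Chars.eq_sum_classInner (Chars.isClassFunction_of_isCharacter hres)) g).trans ?_
    rw [Finset.sum_apply]
    exact Finset.sum_congr rfl fun ψ _ => by rw [Pi.smul_apply, smul_eq_mul, hmm ψ]
  have hdeg : (charDegree χ : ℕ) = ∑ ψ, mm ψ * charDegree (ψ : N → ℂ) := by
    have h := hdec 1
    rw [OneMemClass.coe_one, Finset.sum_congr rfl fun ψ _ => by
      rw [(Blocks.charDegree_eq ψ.2).1]] at h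
    have h' : χ 1 = ((∑ ψ, mm ψ * charDegree (ψ : N → ℂ) : ℕ) : ℂ) := by
      push_cast
      exact h
    rw [charDegree, h', Complex.natCast_re, Nat.floor_natCast]
  have hscal : ∀ ψ : IrrCharacter N, mm ψ ≠ 0 → ∀ g : N,
      (ψ : N → ℂ) (⟨x, hxN⟩ * g * (⟨x, hxN⟩ : N)⁻¹ * g⁻¹) = (ψ : N → ℂ) 1 := by
    intro ψ hψ g
    have hle : charDegree (ψ : N → ℂ) ≤ charDegree χ := by
      rw [hdeg]
      exact le_trans (Nat.le_mul_of_pos_left _ (Nat.pos_of_ne_zero hψ))
        (Finset.single_le_sum (f := fun ψ => mm ψ * charDegree (ψ : N → ℂ))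
          (fun _ _ => Nat.zero_le _) (Finset.mem_univ ψ))
    have hnorm : ‖(ψ : N → ℂ) ⟨x, hxN⟩‖ = charDegree (ψ : N → ℂ) := by
      by_contra hne
      have := S.le_of_nonscalar hgen hne
      omega
    obtain ⟨n, ρ, hρ⟩ := Chars.irr_isCharacter ψ
    have h1 : ρ.character 1 = (charDegree (ψ : N → ℂ) : ℂ) := by
      rw [show ρ.character 1 = (ψ : N → ℂ) 1 from congrFun hρ 1, (Blocks.charDegree_eq ψ.2).1]
    rw [Representation.char_one, Nat.cast_inj] at h1
    obtain ⟨c, hc⟩ := (Chars.rep_norm_char_eq_iff ρ ⟨x, hxN⟩).1 (by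
      rw [show ρ.character ⟨x, hxN⟩ = _ from congrFun hρ _, hnorm, h1])
    rw [← show ρ.character (⟨x, hxN⟩ * g * (⟨x, hxN⟩ : N)⁻¹ * g⁻¹) = _ from congrFun hρ _,
      ← show ρ.character 1 = _ from congrFun hρ 1]
    have e : ρ (⟨x, hxN⟩ * g) = ρ (g * ⟨x, hxN⟩) := by rw [map_mul, map_mul, hc]; simp
    have e2 : ρ (⟨x, hxN⟩ * g * (⟨x, hxN⟩ : N)⁻¹ * g⁻¹) = ρ 1 := by
      rw [mul_assoc (⟨x, hxN⟩ * g), map_mul, e, ← map_mul]
      congr 1
      group
    simp only [Representation.character, e2]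
  have hcentral : ∀ g : N, (⟨x, hxN⟩ : N) * g = g * ⟨x, hxN⟩ := by
    intro g
    have h := hdec (⟨x, hxN⟩ * g * (⟨x, hxN⟩ : N)⁻¹ * g⁻¹)
    rw [Finset.sum_congr rfl (g := fun ψ => (mm ψ : ℂ) * (ψ : N → ℂ) 1) fun ψ _ => by
      rcases Nat.eq_zero_or_pos (mm ψ) with e | e
      · simp [e]
      · rw [hscal ψ e.ne' g], ← hdec, OneMemClass.coe_one] at h
    have h' : (⟨x, hxN⟩ : N) * g * (⟨x, hxN⟩ : N)⁻¹ * g⁻¹ = 1 := Subtype.ext (hfaith _ h)
    rwa [mul_inv_eq_one, mul_inv_eq_iff_eq_mul] at h'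
  have hsub : N = Subgroup.zpowers x := by
    refine le_antisymm ((Subgroup.closure_le _).2 fun y hy => ?_) (Subgroup.zpowers_le.2 hxN)
    obtain ⟨a, j, hj⟩ := hconj ⟨y, Subgroup.subset_closure hy⟩ hy
    have hcomm : Commute ((⟨x, hxN⟩ : N) ^ j) a⁻¹ := (show Commute (⟨x, hxN⟩ : N) a⁻¹ from
      hcentral a⁻¹).zpow_left j
    have he : (⟨y, Subgroup.subset_closure hy⟩ : N) = (⟨x, hxN⟩ : N) ^ j := by
      have h2 := hcomm.symm.eq
      have hj' : (⟨x, hxN⟩ : N) ^ j = a * ⟨y, Subgroup.subset_closure hy⟩ * a⁻¹ := hj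
      calc (⟨y, Subgroup.subset_closure hy⟩ : N)
          = a⁻¹ * (a * ⟨y, Subgroup.subset_closure hy⟩ * a⁻¹) * a := by group
        _ = a⁻¹ * (⟨x, hxN⟩ : N) ^ j * a := by rw [hj']
        _ = _ := by rw [h2, inv_mul_cancel_right]
    exact ⟨j, by simpa using (congrArg Subtype.val he).symm⟩
  exact hnn N hNn (by rw [hsub, Nat.card_zpowers, hx])

end Cfsg.Agent.S4503
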