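import Cfsg.Statements.S0188
import Cfsg.Agent.Chars.Orth

set_option autoImplicit false
set_option linter.style.haveILetI false
open Cfsg

namespace Cfsg.Agent.S0188

/-- The irreducible complex characters of G × H are precisely the functions (g, h) ↦ φ g * ψ h with φ, ψ irreducible characters of G and H. -/
theorem result {G : Type*} [Group G] [Finite G] {H : Type*} [Group H] [Finite H] (θ : G × H → ℂ) : Cfsg.IsIrrCharacter (G × H) θ ↔ ∃ (φ : G → ℂ) (ψ : H → ℂ), Cfsg.IsIrrCharacter G φ ∧ Cfsg.IsIrrCharacter H ψ ∧ θ = fun x => φ x.1 * ψ x.2 := by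
  classical
  haveI := Fintype.ofFinite G
  haveI := Fintype.ofFinite H
  have hmk : ∀ (φ : IrrCharacter G) (ψ : IrrCharacter H),
      IsIrrCharacter (G × H) (fun x : G × H => (φ : G → ℂ) x.1 * (ψ : H → ℂ) x.2) ∧
      ∀ (φ' : IrrCharacter G) (ψ' : IrrCharacter H),
        classInner (fun x : G × H => (φ : G → ℂ) x.1 * (ψ : H → ℂ) x.2)
          (fun x : G × H => (φ' : G → ℂ) x.1 * (ψ' : H → ℂ) x.2) =
        classInner (φ : G → ℂ) (φ' : G → ℂ) * classInner (ψ : H → ℂ) (ψ' : H → ℂ) := by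
    intro φ ψ
    have hin : ∀ (φ' : IrrCharacter G) (ψ' : IrrCharacter H),
        classInner (fun x : G × H => (φ : G → ℂ) x.1 * (ψ : H → ℂ) x.2)
          (fun x : G × H => (φ' : G → ℂ) x.1 * (ψ' : H → ℂ) x.2) =
        classInner (φ : G → ℂ) (φ' : G → ℂ) * classInner (ψ : H → ℂ) (ψ' : H → ℂ) := by
      intro φ' ψ'
      rw [Cfsg.Agent.Chars.classInner_def, Cfsg.Agent.Chars.classInner_def,
        Cfsg.Agent.Chars.classInner_def, Nat.card_prod, Nat.cast_mul, mul_inv,
        Fintype.sum_prod_type, mul_mul_mul_comm, Finset.sum_mul_sum]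
      congr 1
      refine Finset.sum_congr rfl fun a _ => Finset.sum_congr rfl fun b _ => ?_
      rw [map_mul]; ring
    refine ⟨Cfsg.Agent.Chars.isIrrCharacter_of_norm_one ?_ ?_, hin⟩
    · exact Cfsg.Agent.Chars.isCharacter_mul
        (Cfsg.Agent.Chars.isCharacter_comp (Cfsg.Agent.Chars.irr_isCharacter φ) (MonoidHom.fst G H))
        (Cfsg.Agent.Chars.isCharacter_comp (Cfsg.Agent.Chars.irr_isCharacter ψ) (MonoidHom.snd G H))
    · rw [hin, Cfsg.Agent.Chars.classInner_self_irr φ.2, Cfsg.Agent.Chars.classInner_self_irr ψ.2,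
        mul_one]
  constructor
  · intro hθ
    by_contra hno
    push Not at hno
    let F : IrrCharacter G × IrrCharacter H → IrrCharacter (G × H) := fun p => ⟨_, (hmk p.1 p.2).1⟩
    have hF : Function.Injective F := by
      intro p q hpq
      have h1 := (hmk p.1 p.2).2 q.1 q.2
      rw [show (fun x : G × H => (q.1 : G → ℂ) x.1 * (q.2 : H → ℂ) x.2) =
          (fun x : G × H => (p.1 : G → ℂ) x.1 * (p.2 : H → ℂ) x.2) from (congrArg Subtype.val hpq).symm,
        Cfsg.Agent.Chars.classInner_self_irr (hmk p.1 p.2).1,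
        Cfsg.Agent.Chars.classInner_irrCharacter, Cfsg.Agent.Chars.classInner_irrCharacter] at h1
      by_contra hne
      by_cases ha : p.1 = q.1
      · rw [if_neg (fun hb : p.2 = q.2 => hne (Prod.ext ha hb)), mul_zero] at h1
        exact one_ne_zero h1
      · rw [if_neg ha, zero_mul] at h1
        exact one_ne_zero h1
    let deg : IrrCharacter (G × H) → ℕ := fun χ =>
      (Cfsg.Agent.Chars.exists_irr_apply_one_eq χ.2).choose
    have hdeg : ∀ χ : IrrCharacter (G × H), 0 < deg χ ∧ (χ : G × H → ℂ) 1 = deg χ := fun χ =>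
      (Cfsg.Agent.Chars.exists_irr_apply_one_eq χ.2).choose_spec
    have hsum : ∑ χ ∈ Finset.univ.image F, deg χ ^ 2 = ∑ χ, deg χ ^ 2 := by
      have h : ((∑ χ ∈ Finset.univ.image F, deg χ ^ 2 : ℕ) : ℂ) = (∑ χ, deg χ ^ 2 : ℕ) := by
        push_cast
        simp only [← (hdeg _).2]
        rw [Cfsg.Agent.Chars.sum_sq_apply_one, Finset.sum_image hF.injOn, Fintype.sum_prod_type,
          Nat.card_prod, Nat.cast_mul, ← Cfsg.Agent.Chars.sum_sq_apply_one (G := G),
          ← Cfsg.Agent.Chars.sum_sq_apply_one (G := H), Finset.sum_mul_sum]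
        exact Finset.sum_congr rfl fun a _ => Finset.sum_congr rfl fun b _ => by
          show ((a : G → ℂ) 1 * (b : H → ℂ) 1) ^ 2 = _
          ring
      exact_mod_cast h
    have hnot : (⟨θ, hθ⟩ : IrrCharacter (G × H)) ∈ Finset.univ \ Finset.univ.image F := by
      simp only [Finset.mem_sdiff, Finset.mem_univ, Finset.mem_image, true_and, not_exists]
      exact fun p hp => hno p.1 p.2 p.1.2 p.2.2 (congrArg Subtype.val hp).symm
    have h2 := Finset.sum_sdiff (f := fun χ => deg χ ^ 2) (Finset.subset_univ (Finset.univ.image F))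
    have h3 := Finset.single_le_sum (f := fun χ => deg χ ^ 2) (fun _ _ => Nat.zero_le _) hnot
    have h4 : 0 < deg ⟨θ, hθ⟩ ^ 2 := pow_pos (hdeg _).1 2
    omega
  · rintro ⟨φ, ψ, hφ, hψ, rfl⟩
    exact (hmk ⟨φ, hφ⟩ ⟨ψ, hψ⟩).1

end Cfsg.Agent.S0188
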