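import Cfsg.Statements.S0292
import Cfsg.Agent.Forms.OrthCard

set_option autoImplicit false
open Cfsg

namespace Cfsg.Agent.S0292

/-- 2 |PΩ_{2m+1}(q)| = q^(m^2) prod_{i=1}^{m} (q^(2i) - 1), for q odd and m at least 3 (type B_m). -/
theorem result {F : Type*} [Field F] [Fintype F] {q : ℕ} (hF : Fintype.card F = q) (hodd : Odd q) (m : ℕ) (hm : 3 ≤ m) : 2 * Nat.card (Cfsg.POmega F (Cfsg.quadFormOdd m F)) = q ^ (m ^ 2) * ∏ i ∈ Finset.range m, (q ^ (2 * (i + 1)) - 1) := by
  have h2 : (2 : F) ≠ 0 := fun h => by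
    have h1 := Forms.card_field_parity.1 h
    rw [Nat.odd_iff, ← hF] at hodd
    omega
  have hQ := Forms.qOdd_nondegenerate (m := m) h2
  have hd : Module.finrank F (Unit ⊕ (Fin m ⊕ Fin m) → F) = 1 + (m + m) := by simp
  have h := Forms.card_pomega_mul (Forms.qOdd m F)
    (Forms.commutator_eq_ker h2 hQ (by omega)).2
    (Forms.card_center_omega_odd hQ (by omega) h2 (by rw [hd]; exact ⟨m, by ring⟩))
  rw [Forms.coe_qOdd, Forms.card_isometryGroup_odd m hF h2] at h
  rw [mul_one, mul_assoc 2] at h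
  omega

end Cfsg.Agent.S0292
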