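import Cfsg.Statements.S0662
import Cfsg.Agent.Screen.MaxClass
import Cfsg.Agent.Core.Frattini
-- import your own Cfsg.Agent.* helpers here

set_option autoImplicit false
open Cfsg

namespace Cfsg.Agent.S0662


/-- A finite nilpotent group with cyclic abelianisation is cyclic. -/
theorem isCyclic_top' {G : Type*} [Group G] [Finite G] [Group.IsNilpotent G]
    (hc : IsCyclic (G ⧸ commutator G)) : IsCyclic G := by
  obtain ⟨q, hq⟩ := hc.exists_generator
  obtain ⟨g, rfl⟩ := QuotientGroup.mk_surjective q
  refine ⟨g, fun x => ?_⟩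
  suffices h : Subgroup.zpowers g = ⊤ from (h ▸ Subgroup.mem_top x : x ∈ Subgroup.zpowers g)
  by_contra hne
  obtain ⟨M, hM, hgM⟩ := (eq_top_or_exists_le_coatom (Subgroup.zpowers g)).resolve_left hne
  haveI : M.Normal := Subgroup.NormalizerCondition.normal_of_coatom M Group.normalizerCondition_of_isNilpotent hM
  refine hM.1 (eq_top_iff.2 fun y _ => ?_)
  obtain ⟨k, hk⟩ := hq (y : G ⧸ commutator G)
  have hk' : ((g ^ k : G) : G ⧸ commutator G) = (y : G ⧸ commutator G) := by
    rw [QuotientGroup.mk_zpow]; exact hk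
  rw [QuotientGroup.eq] at hk'
  have hcM : commutator G ≤ M :=
    Core.commutator_le_frattini_of_isNilpotent.trans (frattini_le_coatom hM)
  have := M.mul_mem (hgM ⟨k, rfl⟩) (hcM hk')
  simpa using this

/-- In a p-group of maximal class of order at least p³ the normal subgroups of index at least p² are exactly the terms of the lower central series, and there are exactly p + 1 normal subgroups of index p. -/
theorem result {G : Type*} [Group G] [Finite G] {p : ℕ} [Fact p.Prime] (n : ℕ) (hG : Nat.card G = p ^ n) (hcl : Group.nilpotencyClass G = n - 1) (hn : 3 ≤ n) : (∀ (N : Subgroup G) [N.Normal] (r : ℕ), 2 ≤ r → N.index = p ^ r → N = (⊤ : Subgroup G).lowerCentralSeries (r - 1)) ∧ Nat.card {N : Subgroup G // N.Normal ∧ N.index = p} = p + 1 := by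
  classical
  have hp : p.Prime := Fact.out
  refine ⟨fun N _ r hr hN => Screen.normal_eq_lcs hG hcl hn N r hr hN, ?_⟩
  have hL := Screen.lcs_index hG hcl hn 1 le_rfl (by omega)
  rw [Screen.lcs_one_eq_commutator] at hL
  have hQ : Nat.card (G ⧸ commutator G) = p ^ 2 := by rw [← Subgroup.index_eq_card, hL]
  have hncyc : ¬ IsCyclic (G ⧸ commutator G) := by
    intro hc
    haveI := hc
    haveI := (IsPGroup.of_card hG).isNilpotent
    haveI : IsCyclic G := isCyclic_top' hc
    have h1 : Group.nilpotencyClass G ≤ 1 := by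
      letI : CommGroup G := IsCyclic.commGroup
      exact CommGroup.nilpotencyClass_le_one
    omega
  have hexp : ∀ q : G ⧸ commutator G, q ^ p = 1 := by
    intro q
    obtain ⟨j, hj, hje⟩ := (Nat.dvd_prime_pow hp).mp (hQ ▸ orderOf_dvd_natCard q)
    rw [← orderOf_dvd_iff_pow_eq_one, hje]
    rcases Nat.lt_or_ge j 2 with h | h
    · conv_rhs => rw [← pow_one p]
      exact pow_dvd_pow p (by omega)
    · exact absurd (isCyclic_of_orderOf_eq_card q (by rw [hje, show j = 2 by omega, hQ])) hncyc
  rw [← Screen.count_index_p hp hQ hexp]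
  have hle : ∀ N : Subgroup G, N.Normal → N.index = p → commutator G ≤ N := by
    intro N hN hNi
    haveI := hN
    haveI : IsCyclic (G ⧸ N) := isCyclic_of_prime_card (p := p) (by rw [← Subgroup.index_eq_card, hNi])
    exact Subgroup.Normal.quotient_commutative_iff_commutator_le.1
      ⟨⟨fun a b => (IsCyclic.commGroup (α := G ⧸ N)).mul_comm a b⟩⟩
  refine Nat.card_congr
    { toFun := fun N => ⟨N.1.map (QuotientGroup.mk' (commutator G)), ?_⟩
      invFun := fun H => ⟨H.1.comap (QuotientGroup.mk' (commutator G)), ?_, ?_⟩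
      left_inv := fun N => Subtype.ext ?_
      right_inv := fun H => Subtype.ext
        (Subgroup.map_comap_eq_self_of_surjective (QuotientGroup.mk'_surjective _) H.1) }
  · rw [Subgroup.index_map_eq _ (QuotientGroup.mk'_surjective _)
      (by rw [QuotientGroup.ker_mk']; exact hle N.1 N.2.1 N.2.2)]
    exact N.2.2
  · exact Subgroup.Normal.of_commutator_le G ((QuotientGroup.ker_mk' (commutator G)).ge.trans (MonoidHom.ker_le_comap _ _))
  · rw [Subgroup.index_comap_of_surjective _ (QuotientGroup.mk'_surjective _)]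
    exact H.2
  · simp only
    rw [Subgroup.comap_map_eq, QuotientGroup.ker_mk', sup_eq_left.2 (hle N.1 N.2.1 N.2.2)]

end Cfsg.Agent.S0662
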