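import Cfsg.Statements.S0157
import Cfsg.Agent.S0190
import Mathlib.GroupTheory.GroupAction.MultipleTransitivity

set_option autoImplicit false
set_option linter.style.haveILetI false
open Cfsg

namespace Cfsg.Agent.S0157

/-- For a transitive action of a finite group on a finite set with at least two points: the action is 2-transitive if and only if the function sending g to (number of fixed points of g) − 1 is an irreducible character. -/
theorem result {G : Type*} [Group G] [Finite G] (X : Type*) [MulAction G X] [Finite X] [MulAction.IsPretransitive G X] (hX : 2 ≤ Nat.card X) : Cfsg.IsIrrCharacter G (fun g => (Nat.card (MulAction.fixedBy X g) : ℂ) - 1) ↔ MulAction.IsMultiplyPretransitive G X 2 := by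
  classical
  haveI := Fintype.ofFinite G
  haveI := Fintype.ofFinite X
  obtain ⟨x, y, hxy⟩ : ∃ x y : X, x ≠ y := by
    haveI : Nontrivial X := Finite.one_lt_card_iff_nontrivial.1 hX
    exact exists_pair_ne X
  haveI := Fintype.ofFinite (MulAction.stabilizer G x)
  set π : G → ℂ := fun g => (Nat.card (MulAction.fixedBy X g) : ℂ) with hπ
  have hind : π = indFun (MulAction.stabilizer G x) (fun _ => 1) := Cfsg.Agent.S0190.result X x
  have hπc : IsCharacter G π := hind ▸ Cfsg.Agent.Chars.isCharacter_indFun _
    Cfsg.Agent.Chars.isCharacter_one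
  have hπ1 : classInner π (fun _ => 1) = 1 := by
    rw [hind, Cfsg.Agent.Chars.classInner_indFun _ _ (fun _ _ => rfl)]
    exact Cfsg.Agent.Chars.classInner_self_irr Cfsg.Agent.Chars.isIrrCharacter_one
  have h1 : classInner (fun _ : G => (1 : ℂ)) (fun _ => 1) = 1 :=
    Cfsg.Agent.Chars.classInner_self_irr Cfsg.Agent.Chars.isIrrCharacter_one
  have hchar : IsCharacter G (π - fun _ => 1) := by
    refine Cfsg.Agent.Chars.isCharacter_of_classInner_nat (Cfsg.Agent.Chars.isClassFunction_sub
      (Cfsg.Agent.Chars.isClassFunction_of_isCharacter hπc) (fun _ _ => rfl)) fun χ hχ => ?_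
    rw [Cfsg.Agent.Chars.classInner_sub_left]
    by_cases he : χ = fun _ => 1
    · exact ⟨0, by rw [he, hπ1, h1, sub_self, Nat.cast_zero]⟩
    · rw [Cfsg.Agent.Chars.classInner_irr_of_ne Cfsg.Agent.Chars.isIrrCharacter_one hχ (Ne.symm he),
        sub_zero]
      exact Cfsg.Agent.Chars.exists_classInner_eq_nat hπc (Cfsg.Agent.Chars.isCharacter_of_isIrr hχ)
  let Q := MulAction.orbitRel.Quotient G (X × X)
  haveI : Fintype Q := Fintype.ofFinite Q
  have hππ : classInner π π = (Nat.card Q : ℂ) := by
    have hb := MulAction.sum_card_fixedBy_eq_card_orbits_mul_card_group G (X × X)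
    have hfix : ∀ g : G, Nat.card (MulAction.fixedBy (X × X) g) =
        Nat.card (MulAction.fixedBy X g) * Nat.card (MulAction.fixedBy X g) := fun g => by
      rw [← Nat.card_prod]
      exact Nat.card_congr
        { toFun := fun p => (⟨p.1.1, congrArg Prod.fst p.2⟩, ⟨p.1.2, congrArg Prod.snd p.2⟩)
          invFun := fun p => ⟨(p.1.1, p.2.1), Prod.ext p.1.2 p.2.2⟩
          left_inv := fun _ => rfl
          right_inv := fun _ => rfl }
    simp only [← Nat.card_eq_fintype_card, hfix] at hb
    rw [Cfsg.Agent.Chars.classInner_def]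
    simp only [hπ, Complex.conj_natCast, ← Nat.cast_mul, ← Nat.cast_sum, hb]
    push_cast
    rw [mul_left_comm, inv_mul_cancel₀ Cfsg.Agent.Chars.card_ne_zero, mul_one]
  have hnorm : classInner (π - fun _ => 1) (π - fun _ => 1) = (Nat.card Q : ℂ) - 1 := by
    rw [Cfsg.Agent.Chars.classInner_sub_left, Cfsg.Agent.Chars.classInner_sub_right,
      Cfsg.Agent.Chars.classInner_sub_right, hππ, hπ1, h1,
      ← Cfsg.Agent.Chars.classInner_conj_symm π, hπ1, map_one]
    ring
  have hfun : (fun g => (Nat.card (MulAction.fixedBy X g) : ℂ) - 1) = π - fun _ => 1 := rfl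
  rw [hfun, Cfsg.Agent.Chars.isIrrCharacter_iff, and_iff_right hchar, hnorm, sub_eq_iff_eq_add,
    one_add_one_eq_two, MulAction.is_two_pretransitive_iff]
  let q : X × X → Q := Quotient.mk''
  have hdiag : ∀ a : X, q (a, a) = q (x, x) := fun a => by
    obtain ⟨g, rfl⟩ := MulAction.exists_smul_eq G x a
    exact Quotient.sound' ⟨g, rfl⟩
  have hoff : ∀ a b : X, a ≠ b → q (a, b) ≠ q (x, x) := fun a b hab he => by
    obtain ⟨g, hg⟩ := Quotient.exact' he
    exact hab ((congrArg Prod.fst hg).symm.trans (congrArg Prod.snd hg))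
  constructor
  · intro hc a b c d hab hcd
    have hcard : Fintype.card Q = 2 := by
      rw [← Nat.card_eq_fintype_card]; exact_mod_cast hc
    have hall : ∀ z : Q, z = q (x, x) ∨ z = q (a, b) := by
      intro z
      have := Finset.eq_univ_of_card ({q (x, x), q (a, b)} : Finset Q) (by
        rw [Finset.card_pair (hoff a b hab).symm, hcard])
      have hz := Finset.mem_univ z
      rw [← this, Finset.mem_insert, Finset.mem_singleton] at hz
      exact hz
    obtain ⟨g, hg⟩ := Quotient.exact' ((hall (q (c, d))).resolve_left (hoff c d hcd))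
    exact ⟨g, congrArg Prod.fst hg, congrArg Prod.snd hg⟩
  · intro h
    have hu : ({q (x, x), q (x, y)} : Finset Q) = Finset.univ := by
      refine Finset.eq_univ_of_forall fun z => ?_
      induction z using Quotient.inductionOn' with
      | h p =>
        obtain ⟨a, b⟩ := p
        rw [Finset.mem_insert, Finset.mem_singleton]
        by_cases hab : a = b
        · subst hab; exact Or.inl (hdiag a)
        · obtain ⟨g, hg1, hg2⟩ := h hxy hab
          exact Or.inr (Quotient.sound' ⟨g, Prod.ext hg1 hg2⟩)
    have : Nat.card Q = 2 := by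
      rw [Nat.card_eq_fintype_card, ← Finset.card_univ, ← hu,
        Finset.card_pair (hoff x y hxy).symm]
    rw [this]; norm_num

end Cfsg.Agent.S0157
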