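import Cfsg.Statements.S0878
import Mathlib.GroupTheory.GroupAction.MultipleTransitivity

set_option autoImplicit false
open Cfsg

namespace Cfsg.Agent.S0878

/-- Let G be a Zassenhaus group on the finite set Ω, a a point, and let H be the subgroup of the stabilizer of a consisting of the identity and the elements fixing no point other than a (given here as a subgroup of the stabilizer of order one less than the number of points whose non-identity elements fix only a; it is the Frobenius kernel of the stabilizer). Then an element outside the stabilizer of a conjugates no non-identity element of H into H, and the normalizer of H is exactly the stabilizer of a. -/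
theorem result {G Ω : Type*} [Group G] [Finite G] [MulAction G Ω] [Fintype Ω] (hZ : Cfsg.IsZassenhausGroup G Ω) (a : Ω) (H : Subgroup G) (hHa : H ≤ MulAction.stabilizer G a) (hHcard : Nat.card H + 1 = Fintype.card Ω) (hHfix : ∀ u ∈ H, u ≠ 1 → ∀ c : Ω, u • c = c → c = a) : (∀ g : G, g ∉ MulAction.stabilizer G a → ∀ u ∈ H, g * u * g⁻¹ ∈ H → u = 1) ∧ Subgroup.normalizer (H : Set G) = MulAction.stabilizer G a := by
  classical
  obtain ⟨hfaith, h2t, h3, hex, -⟩ := hZ
  have hmap : ∀ {x y z w : Ω}, x ≠ y → z ≠ w → ∃ g : G, g • x = z ∧ g • y = w :=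
    MulAction.is_two_pretransitive_iff.1 h2t
  have hfix : ∀ {x : G}, x ∈ H → x • a = a := fun hx => hHa hx
  have h1 : ∀ g : G, g ∉ MulAction.stabilizer G a → ∀ u ∈ H, g * u * g⁻¹ ∈ H → u = 1 := by
    intro g hg u hu hgu
    by_contra hne
    refine hg (hHfix (g * u * g⁻¹) hgu (fun e => hne ?_) (g • a) ?_)
    · simpa using e
    · rw [mul_smul, mul_smul, inv_smul_smul, hfix hu]
  refine ⟨h1, ?_⟩
  obtain ⟨g₀, hg₀, a₀, b₀, hab₀, ha₀, hb₀⟩ := hex
  have hn : 3 ≤ Fintype.card Ω := by
    by_contra hlt
    refine hg₀ (hfaith.eq_of_smul_eq_smul fun c : Ω => ?_)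
    rw [one_smul]
    by_contra hc
    have hs : ({a₀, b₀, c} : Finset Ω).card = 3 := by
      rw [Finset.card_insert_of_notMem, Finset.card_insert_of_notMem, Finset.card_singleton]
      · simp only [Finset.mem_singleton]
        rintro rfl; exact hc hb₀
      · simp only [Finset.mem_insert, Finset.mem_singleton, not_or]
        refine ⟨hab₀, ?_⟩
        rintro rfl; exact hc ha₀
    have := Finset.card_le_univ ({a₀, b₀, c} : Finset Ω)
    omega
  haveI : Fintype G := Fintype.ofFinite G
  obtain ⟨b₁, hb₁⟩ : ∃ b : Ω, b ≠ a := Fintype.exists_ne_of_one_lt_card (by omega) a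
  set St := MulAction.stabilizer G a
  set S₁ := Finset.univ.filter fun x : G => x • a = a ∧ ∀ c : Ω, x • c = c → c = a
  set Et : Ω → Finset G := fun b => Finset.univ.filter fun x : G => x • a = a ∧ x • b = b
  have hEt : ∀ b, b ≠ a → (Et b).card = (Et b₁).card := by
    intro b hb
    obtain ⟨t, hta, htb⟩ := hmap (Ne.symm hb₁) (Ne.symm hb)
    refine Finset.card_bij' (fun x _ => t⁻¹ * x * t) (fun x _ => t * x * t⁻¹) ?_ ?_ ?_ ?_
    · intro x hx
      simp only [Et, Finset.mem_filter, Finset.mem_univ, true_and, mul_smul, hta, htb] at hx ⊢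
      rw [hx.1, hx.2]
      exact ⟨inv_smul_eq_iff.2 hta.symm, inv_smul_eq_iff.2 htb.symm⟩
    · intro x hx
      simp only [Et, Finset.mem_filter, Finset.mem_univ, true_and, mul_smul] at hx ⊢
      rw [inv_smul_eq_iff.2 hta.symm, inv_smul_eq_iff.2 htb.symm, hx.1, hx.2]
      exact ⟨hta, htb⟩
    · intro x _; group
    · intro x _; group
  set SF := Finset.univ.filter fun x : G => x • a = a
  have hSF : SF.card = (Fintype.card Ω - 1) * (Et b₁).card := by
    rw [Finset.card_eq_sum_card_fiberwise (f := fun x : G => x • b₁)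
      (t := Finset.univ.erase a) (fun x hx => ?_)]
    · rw [Finset.sum_const_nat (m := (Et b₁).card), Finset.card_erase_of_mem (Finset.mem_univ a),
        Finset.card_univ]
      intro b hb
      obtain ⟨t, hta, htb⟩ := hmap (Ne.symm hb₁) (Ne.symm (Finset.mem_erase.1 hb).1)
      refine Finset.card_bij' (fun x _ => t⁻¹ * x) (fun x _ => t * x) ?_ ?_ ?_ ?_
      · intro x hx
        simp only [SF, Et, Finset.mem_filter, Finset.mem_univ, true_and, mul_smul] at hx ⊢
        rw [hx.1, hx.2]
        exact ⟨inv_smul_eq_iff.2 hta.symm, inv_smul_eq_iff.2 htb.symm⟩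
      · intro x hx
        simp only [SF, Et, Finset.mem_filter, Finset.mem_univ, true_and, mul_smul] at hx ⊢
        rw [hx.1, hx.2]
        exact ⟨hta, htb⟩
      · intro x _; group
      · intro x _; group
    · simp only [SF, Finset.mem_filter, Finset.mem_univ, true_and, Finset.mem_coe,
        Finset.mem_erase, and_true] at hx ⊢
      exact fun e => hb₁ (MulAction.injective x (by simp only [e, hx]))
  have hcount : SF.card + (Fintype.card Ω - 1) = 1 + S₁.card + (Fintype.card Ω - 1) * (Et b₁).card := by
    have hsum : ∑ b ∈ Finset.univ.erase a, (Et b).card =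
        ∑ x ∈ SF, ((Finset.univ.erase a).filter fun b => x • b = b).card := by
      simp only [Et, Finset.card_filter, Finset.sum_filter, SF]
      rw [Finset.sum_comm]
      refine Finset.sum_congr rfl fun x _ => ?_
      by_cases hx : x • a = a <;> simp [hx]
    rw [Finset.sum_congr rfl fun b hb => hEt b (Finset.mem_erase.1 hb).1, Finset.sum_const,
      smul_eq_mul, Finset.card_erase_of_mem (Finset.mem_univ a), Finset.card_univ] at hsum
    rw [hsum]
    have h1SF : (1 : G) ∈ SF := by simp [SF]
    have hS₁ : S₁ = (SF.erase 1).filter fun x => ∀ c : Ω, x • c = c → c = a := by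
      ext x
      simp only [S₁, SF, Finset.mem_filter, Finset.mem_erase, Finset.mem_univ, true_and]
      constructor
      · rintro ⟨hx, hx'⟩
        exact ⟨⟨fun e => hb₁ (hx' b₁ (by rw [e, one_smul])), hx⟩, hx'⟩
      · exact fun h => ⟨h.1.2, h.2⟩
    rw [hS₁, ← Finset.add_sum_erase SF _ h1SF]
    have hterm : ∀ x ∈ SF.erase 1,
        ((Finset.univ.erase a).filter fun b => x • b = b).card +
          (if ∀ c : Ω, x • c = c → c = a then 1 else 0) = 1 := by
      intro x hx
      obtain ⟨hx1, hxa⟩ := Finset.mem_erase.1 hx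
      have hxa' : x • a = a := (Finset.mem_filter.1 hxa).2
      split_ifs with h
      · rw [Nat.add_eq_right, Finset.card_eq_zero, Finset.filter_eq_empty_iff]
        exact fun b hb e => (Finset.mem_erase.1 hb).1 (h b e)
      · push Not at h
        obtain ⟨c, hc, hca⟩ := h
        rw [add_zero, Finset.card_eq_one]
        refine ⟨c, Finset.eq_singleton_iff_unique_mem.2 ⟨by simp [hc, hca], fun b hb => ?_⟩⟩
        by_contra hbc
        obtain ⟨hb1, hb2⟩ := Finset.mem_filter.1 hb
        exact hx1 (h3 x a c b (Ne.symm hca) (Ne.symm hbc) (Ne.symm (Finset.mem_erase.1 hb1).1)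
          hxa' hc hb2)
    have h := Finset.sum_congr rfl hterm
    rw [Finset.sum_add_distrib, ← Finset.card_filter, Finset.sum_const, smul_eq_mul, mul_one,
      Finset.card_erase_of_mem h1SF] at h
    have h0 : ((Finset.univ.erase a).filter fun b => (1 : G) • b = b).card = Fintype.card Ω - 1 := by
      rw [Finset.filter_true_of_mem (fun b _ => one_smul G b),
        Finset.card_erase_of_mem (Finset.mem_univ a), Finset.card_univ]
    rw [h0]
    have : 1 ≤ SF.card := Finset.card_pos.2 ⟨1, h1SF⟩
    omega
  have hHS : (Finset.univ.filter fun x : G => x ∈ H ∧ x ≠ 1) = S₁ := by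
    refine Finset.eq_of_subset_of_card_le (fun x hx => ?_) ?_
    · simp only [S₁, Finset.mem_filter, Finset.mem_univ, true_and] at hx ⊢
      exact ⟨hfix hx.1, hHfix x hx.1 hx.2⟩
    · have e : (Finset.univ.filter fun x : G => x ∈ H ∧ x ≠ 1) =
          (Finset.univ.filter (· ∈ H)).erase 1 := by ext x; simp [and_comm]
      rw [e, Finset.card_erase_of_mem (by simp)]
      have : (Finset.univ.filter (· ∈ H)).card = Nat.card H := by
        rw [Nat.card_eq_fintype_card, Fintype.card_subtype]
      omega
  have hmem : ∀ x : G, x ∈ H ↔ x = 1 ∨ x ∈ S₁ := fun x => by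
    rw [← hHS]
    by_cases hx : x = 1 <;> simp [hx]
  apply le_antisymm
  · intro g hg
    by_contra hgs
    obtain ⟨u, hu, hu1⟩ : ∃ u ∈ H, u ≠ 1 := by
      by_contra hall
      push Not at hall
      have : H = ⊥ := (Subgroup.eq_bot_iff_forall H).2 hall
      rw [this, Subgroup.card_bot] at hHcard
      omega
    exact hu1 (h1 g hgs u hu ((Subgroup.mem_normalizer_iff.1 hg u).1 hu))
  · intro g hg
    have hga : g • a = a := hg
    have key : ∀ g : G, g • a = a → ∀ x ∈ H, g * x * g⁻¹ ∈ H := by
      intro g hga x hx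
      rw [hmem] at hx ⊢
      rcases hx with rfl | hx
      · left; group
      · right
        simp only [S₁, Finset.mem_filter, Finset.mem_univ, true_and, mul_smul] at hx ⊢
        have hga' : g⁻¹ • a = a := inv_smul_eq_iff.2 hga.symm
        refine ⟨by rw [hga', hx.1, hga], fun c hc => ?_⟩
        have e := hx.2 (g⁻¹ • c) ((inv_smul_eq_iff.2 hc.symm).symm)
        rw [inv_smul_eq_iff] at e
        rw [e, hga]
    rw [Subgroup.mem_normalizer_iff]
    refine fun x => ⟨key g hga x, fun hx => ?_⟩
    have := key g⁻¹ (inv_smul_eq_iff.2 hga.symm) _ hx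
    simpa [mul_assoc] using this

end Cfsg.Agent.S0878
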