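import Cfsg.Statements.S0882
import Cfsg.Agent.PermGroups.ZassenhausOdd
import Mathlib.Combinatorics.Enumerative.DoubleCounting

set_option autoImplicit false
open Cfsg

namespace Cfsg.Agent.S0882

/-- Let G be a finite simple Zassenhaus group on Ω with n = h + 1 points whose two-point stabilizer E has odd order e with 2e < h - 1. Then any two involutions of G are conjugate, and the number of involutions is e * (h + 1) if h is even and e * h if h is odd. -/
theorem result {G Ω : Type*} [Group G] [Finite G] [MulAction G Ω] [Fintype Ω] (hZ : Cfsg.IsZassenhausGroup G Ω) {a b : Ω} (hab : a ≠ b) [IsSimpleGroup G] (h e : ℕ) (hh : Fintype.card Ω = h + 1) (he : Nat.card ↥(MulAction.stabilizer G a ⊓ MulAction.stabilizer G b : Subgroup G) = e) (hodd : Odd e) (hlt : 2 * e < h - 1) : (∀ x y : G, orderOf x = 2 → orderOf y = 2 → IsConj x y) ∧ Nat.card {x : G // orderOf x = 2} = (if Even h then e * (h + 1) else e * h) := by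
  classical
  haveI : Fintype G := Fintype.ofFinite G
  subst he
  set e := Nat.card ↥(MulAction.stabilizer G a ⊓ MulAction.stabilizer G b) with hedef
  refine ⟨fun x y hx hy => PermGroups.involution_isConj hZ hab hodd hx hy, ?_⟩
  have hmov : ∀ z : Ω, Nat.card {t : G // orderOf t = 2 ∧ t • z ≠ z} = h * e := by
    intro z
    obtain ⟨w, hw⟩ : ∃ w : Ω, w ≠ z := by
      by_cases haz : a = z
      · exact ⟨b, fun e' => hab (haz.trans e'.symm)⟩
      · exact ⟨a, haz⟩
    obtain ⟨k, hk1, hk2⟩ := MulAction.is_two_pretransitive_iff.1 hZ.2.1 hw.symm hab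
    have hcard : Nat.card ↥(MulAction.stabilizer G z ⊓ MulAction.stabilizer G w) = e := by
      rw [hedef, ← Subgroup.card_map_of_injective (f := (MulAut.conj k).toMonoidHom) (MulAut.conj k).injective]
      refine (congrArg (fun S : Subgroup G => Nat.card S) ?_).symm
      rw [Subgroup.map_inf _ _ _ (MulAut.conj k).injective, ← MulAction.stabilizer_smul_eq_stabilizer_map_conj,
        ← MulAction.stabilizer_smul_eq_stabilizer_map_conj, hk1, hk2]
    rw [PermGroups.card_involution_moving hZ hw.symm (hcard ▸ hodd), hcard, hh, Nat.add_sub_cancel]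
  set I := (Finset.univ : Finset G).filter fun t => orderOf t = 2 with hI
  have hI' : ∀ z : Ω, (I.filter fun t => t • z ≠ z).card = h * e := fun z => by
    rw [← hmov z, hI, Finset.filter_filter, Nat.card_eq_fintype_card, Fintype.card_subtype]
  have hsum : ∀ z : Ω, (I.filter fun t => t • z = z).card + h * e = I.card := fun z => by
    rw [← hI' z]; exact Finset.card_filter_add_card_filter_not _
  rw [Nat.card_eq_fintype_card, Fintype.card_subtype, ← hI]
  have hdouble := Finset.sum_card_bipartiteAbove_eq_sum_card_bipartiteBelow (fun (t : G) (z : Ω) => t • z = z)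
    (s := I) (t := Finset.univ)
  simp only [Finset.bipartiteAbove, Finset.bipartiteBelow] at hdouble
  split_ifs with heven
  · have hone : ∀ t ∈ I, (Finset.univ.filter fun z : Ω => t • z = z).card = 1 := by
      intro t ht
      have ho : orderOf t = 2 := (Finset.mem_filter.1 ht).2
      have hle : (Finset.univ.filter fun z : Ω => t • z = z).card ≤ 1 :=
        Finset.card_le_one.2 fun y hy z hz => PermGroups.involution_one_fixed hZ hab hodd ho
          (Finset.mem_filter.1 hy).2 (Finset.mem_filter.1 hz).2
      haveI : Fact (Nat.Prime 2) := ⟨Nat.prime_two⟩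
      have hP : IsPGroup 2 (Subgroup.zpowers t) := IsPGroup.of_card (n := 1) (by rw [Nat.card_zpowers, ho, pow_one])
      have hmod := hP.card_modEq_card_fixedPoints Ω
      rw [show (MulAction.fixedPoints (Subgroup.zpowers t) Ω) = ↑(Finset.univ.filter fun z : Ω => t • z = z) from
        Set.ext fun w => ⟨fun h' => Finset.mem_coe.2 (Finset.mem_filter.2 ⟨Finset.mem_univ _, h' ⟨t, Subgroup.mem_zpowers t⟩⟩),
          fun h' u => by
            obtain ⟨i, hi⟩ := Subgroup.mem_zpowers_iff.1 u.2
            show (u : G) • w = w
            rw [← hi]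
            exact MulAction.mem_stabilizer_iff.1 (zpow_mem
              (MulAction.mem_stabilizer_iff.2 (Finset.mem_filter.1 (Finset.mem_coe.1 h')).2) i)⟩,
        Nat.card_coe_set_eq, Set.ncard_coe_finset, Nat.card_eq_fintype_card, hh] at hmod
      unfold Nat.ModEq at hmod
      obtain ⟨r, hr⟩ := heven
      omega
    rw [Finset.sum_congr rfl hone, Finset.sum_const, smul_eq_mul, mul_one] at hdouble
    obtain ⟨r, hr⟩ : ∃ r, ∀ z : Ω, (I.filter fun t => t • z = z).card = r :=
      ⟨I.card - h * e, fun z => by have := hsum z; omega⟩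
    rw [Finset.sum_congr rfl (fun z _ => hr z), Finset.sum_const, smul_eq_mul, Finset.card_univ, hh] at hdouble
    have h1 := hsum a
    rw [hr a, hdouble] at h1
    have hre : r = e := Nat.eq_of_mul_eq_mul_left (show 0 < h by omega) (by nlinarith)
    rw [hdouble, hre, mul_comm]
  · have hnone : ∀ z : Ω, (I.filter fun t => t • z = z) = ∅ := by
      intro z
      refine Finset.filter_eq_empty_iff.2 fun {t} ht htz => ?_
      have ho : orderOf t = 2 := (Finset.mem_filter.1 ht).2
      haveI : Fact (Nat.Prime 2) := ⟨Nat.prime_two⟩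
      have hP : IsPGroup 2 (Subgroup.zpowers t) := IsPGroup.of_card (n := 1) (by rw [Nat.card_zpowers, ho, pow_one])
      have hmod := hP.card_modEq_card_fixedPoints Ω
      rw [show (MulAction.fixedPoints (Subgroup.zpowers t) Ω) = {z} from
        Set.ext fun w => ⟨fun h' => PermGroups.involution_one_fixed hZ hab hodd ho (h' ⟨t, Subgroup.mem_zpowers t⟩) htz,
          fun h' u => by
            obtain ⟨i, hi⟩ := Subgroup.mem_zpowers_iff.1 u.2
            show (u : G) • w = w
            rw [Set.mem_singleton_iff.1 h', ← hi]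
            exact MulAction.mem_stabilizer_iff.1 (zpow_mem (MulAction.mem_stabilizer_iff.2 htz) i)⟩,
        Nat.card_coe_set_eq, Set.ncard_singleton, Nat.card_eq_fintype_card, hh] at hmod
      unfold Nat.ModEq at hmod
      obtain ⟨r, hr⟩ := Nat.not_even_iff_odd.1 heven
      omega
    have h1 := hsum a
    rw [hnone a, Finset.card_empty, zero_add] at h1
    rw [← h1, mul_comm]

end Cfsg.Agent.S0882
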