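import Cfsg.Statements.S1533
import Cfsg.Agent.OddChar.SibleyCase
import Cfsg.Agent.OddChar.FrobEven
import Cfsg.Agent.OddChar.FrobAbelian

set_option autoImplicit false
open Cfsg

namespace Cfsg.Agent.S1533

/-- Let G be a finite group, p an odd prime, and P a nontrivial Sylow p-subgroup whose underlying set is a TI-subset of G, with P properly contained in its set normaliser N and C_G(x) ≤ P for every non-identity x ∈ P. Let S be the set of irreducible characters χ of N with χ x ≠ χ 1 for some x ∈ P. Then either S has exactly one member, P is elementary abelian and Nat.card P = [N:P] + 1; or (S, N minus 1, induction to G) is coherent. -/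
theorem result {G : Type*} [Group G] [Fintype G] (p : ℕ) [Fact p.Prime] (hp : p ≠ 2) (P : Sylow p G) (hP1 : (P : Subgroup G) ≠ ⊥) (hTI : Cfsg.IsTISubset ((P : Subgroup G) : Set G)) (hlt : (P : Subgroup G) < Subgroup.normalizer ((P : Subgroup G) : Set G)) (hC : ∀ k ∈ (P : Subgroup G), k ≠ 1 → Subgroup.centralizer ({k} : Set G) ≤ (P : Subgroup G)) [Fintype ↥(Subgroup.normalizer ((P : Subgroup G) : Set G))] : (Nat.card {χ : ↥(Subgroup.normalizer ((P : Subgroup G) : Set G)) → ℂ // Cfsg.IsIrrCharacter ↥(Subgroup.normalizer ((P : Subgroup G) : Set G)) χ ∧ ∃ x : ↥(Subgroup.normalizer ((P : Subgroup G) : Set G)), (x : G) ∈ (P : Subgroup G) ∧ χ x ≠ χ 1} = 1 ∧ Cfsg.IsElementaryAbelian p (P : Subgroup G) ∧ Nat.card (P : Subgroup G) = ((P : Subgroup G).subgroupOf (Subgroup.normalizer ((P : Subgroup G) : Set G))).index + 1) ∨ Cfsg.IsCoherent {χ : ↥(Subgroup.normalizer ((P : Subgroup G) : Set G)) → ℂ | Cfsg.IsIrrCharacter ↥(Subgroup.normalizer ((P : Subgroup G) : Set G)) χ ∧ ∃ x : ↥(Subgroup.normalizer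 ((P : Subgroup G) : Set G)), (x : G) ∈ (P : Subgroup G) ∧ χ x ≠ χ 1} {1}ᶜ (fun α => Cfsg.indFun (Subgroup.normalizer ((P : Subgroup G) : Set G)) α) := by
  classical
  have hset : {χ : ↥(Subgroup.normalizer ((P : Subgroup G) : Set G)) → ℂ |
      Cfsg.IsIrrCharacter ↥(Subgroup.normalizer ((P : Subgroup G) : Set G)) χ ∧
        ∃ x : ↥(Subgroup.normalizer ((P : Subgroup G) : Set G)), (x : G) ∈ (P : Subgroup G) ∧ χ x ≠ χ 1} =
      Cfsg.inducedIrrAbove ((P : Subgroup G).subgroupOf (Subgroup.normalizer ((P : Subgroup G) : Set G))) ⊥ := by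
    haveI : ((P : Subgroup G).subgroupOf (Subgroup.normalizer ((P : Subgroup G) : Set G))).Normal :=
      Subgroup.normal_in_normalizer
    refine (OddChar.frob_indAbove_eq (K := (P : Subgroup G).subgroupOf
      (Subgroup.normalizer ((P : Subgroup G) : Set G))) ?_).symm
    intro k hk hk1 x hx
    exact hC k hk (fun e => hk1 (Subtype.ext e)) (Subgroup.mem_centralizer_singleton_iff.mpr
      (congrArg Subtype.val (Subgroup.mem_centralizer_singleton_iff.mp hx)))
  haveI : ((P : Subgroup G).subgroupOf (Subgroup.normalizer ((P : Subgroup G) : Set G))).Normal :=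
    Subgroup.normal_in_normalizer
  set K := (P : Subgroup G).subgroupOf (Subgroup.normalizer ((P : Subgroup G) : Set G)) with hK
  have hKle : (P : Subgroup G) ≤ Subgroup.normalizer ((P : Subgroup G) : Set G) := Subgroup.le_normalizer
  have hCN : ∀ k ∈ K, k ≠ 1 → Subgroup.centralizer ({k} : Set _) ≤ K := by
    intro k hk hk1 x hx
    exact hC k hk (fun e => hk1 (Subtype.ext e)) (Subgroup.mem_centralizer_singleton_iff.mpr
      (congrArg Subtype.val (Subgroup.mem_centralizer_singleton_iff.mp hx)))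
  have hKcard : Nat.card K = Nat.card (P : Subgroup G) :=
    Nat.card_congr (Subgroup.subgroupOfEquivOfLe hKle).toEquiv
  have hKne : K ≠ ⊥ := fun h => hP1 (by
    rw [← Subgroup.map_subgroupOf_eq_of_le hKle, ← hK, h, Subgroup.map_bot])
  rw [hset]
  by_cases hcm : ∀ a ∈ K, ∀ b ∈ K, a * b = b * a
  · obtain ⟨h1, h2⟩ := OddChar.ti_isometry (P : Subgroup G) _ hKle hTI rfl
    rcases OddChar.frob_abelian_case K hKne hCN hcm _ h1 h2 with ⟨c1, c2⟩ | h
    · left
      refine ⟨(Nat.card_congr (Equiv.setCongr hset)).trans c1, ?_, by rw [← hKcard]; exact c2⟩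
      have hpK : p ∣ Nat.card K := by
        haveI : Nontrivial K := (Subgroup.nontrivial_iff_ne_bot K).mpr hKne
        have hKp : IsPGroup p K := P.isPGroup'.comap_subtype
        obtain ⟨a, ha0, ha⟩ := hKp.nontrivial_iff_card.mp inferInstance
        rw [ha]; exact dvd_pow_self p ha0.ne'
      obtain ⟨-, he⟩ := OddChar.frob_elementary K hCN hcm c2 hpK
      refine ⟨⟨⟨fun a b => Subtype.ext (congrArg
        (Subtype.val : ↥(Subgroup.normalizer ((P : Subgroup G) : Set G)) → G)
        (hcm ⟨a, hKle a.2⟩ a.2 ⟨b, hKle b.2⟩ b.2))⟩⟩, fun a ha => ?_⟩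
      exact congrArg Subtype.val (he ⟨a, hKle ha⟩ ha)
    · exact Or.inr h
  right
  obtain ⟨m, hm⟩ := IsPGroup.iff_card.mp P.isPGroup'
  have hKodd : Odd (Nat.card K) := by
    rw [hKcard, hm]; exact ((Fact.out : p.Prime).odd_of_ne_two hp).pow
  have hidx : Odd K.index := by
    by_contra h
    exact hcm (OddChar.frob_even_index hCN hKodd (Nat.not_odd_iff_even.mp h))
  refine OddChar.sibley_sylow P hTI (by rw [← K.index_mul_card]; exact hidx.mul hKodd)
    (lt_top_iff_ne_top.mpr fun h => hlt.not_ge (Subgroup.subgroupOf_eq_top.mp h)) hCN fun h => ?_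
  apply hcm
  intro a ha b hb
  have h' := Subgroup.commutator_mem_commutator ha hb
  rw [← hK] at h
  rw [h, Subgroup.mem_bot] at h'
  exact mul_inv_eq_iff_eq_mul.mp (mul_inv_eq_one.mp h')

end Cfsg.Agent.S1533
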