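import Cfsg.Statements.S1534
import Cfsg.Agent.OddChar.FeitCoherent
import Cfsg.Agent.OddChar.FrobAbelian
import Cfsg.Agent.OddChar.FrobCoprime
import Cfsg.Agent.S1533

set_option autoImplicit false
open Cfsg

namespace Cfsg.Agent.S1534

/-- Let G be a finite group and K a nontrivial nilpotent subgroup whose underlying set is a TI-subset of G, properly contained in its set normaliser N, with C_G(k) ≤ K for every non-identity k ∈ K; let e be the index of K in N and S the set of irreducible characters χ of N with χ k ≠ χ 1 for some k ∈ K. Then one of: S has exactly one member, Nat.card K = e + 1 and K is an elementary abelian p-group for some prime p; or K is a Sylow 2-subgroup of G (Nat.card K is the largest power of 2 dividing Nat.card G) and [K : [K,K]] < 4e²; or (S, N minus 1, induction to G) is coherent. -/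
theorem result {G : Type*} [Group G] [Fintype G] (K : Subgroup G) (hK1 : K ≠ ⊥) (hnil : Group.IsNilpotent K) (hTI : Cfsg.IsTISubset (K : Set G)) (hlt : K < Subgroup.normalizer (K : Set G)) (hC : ∀ k ∈ K, k ≠ 1 → Subgroup.centralizer ({k} : Set G) ≤ K) [Fintype ↥(Subgroup.normalizer (K : Set G))] : (Nat.card {χ : ↥(Subgroup.normalizer (K : Set G)) → ℂ // Cfsg.IsIrrCharacter ↥(Subgroup.normalizer (K : Set G)) χ ∧ ∃ k : ↥(Subgroup.normalizer (K : Set G)), (k : G) ∈ K ∧ χ k ≠ χ 1} = 1 ∧ Nat.card K = (K.subgroupOf (Subgroup.normalizer (K : Set G))).index + 1 ∧ ∃ p : ℕ, p.Prime ∧ Cfsg.IsElementaryAbelian p K) ∨ (Nat.card K = 2 ^ (Nat.card G).factorization 2 ∧ (⁅K, K⁆.subgroupOf K).index < 4 * (K.subgroupOf (Subgroup.normalizer (K : Set G))).index ^ 2) ∨ Cfsg.IsCoherent {χ : ↥(Subgroup.normalizer (K : Set G)) → ℂ | Cfsg.IsIrrCharacter ↥(Subgroup.normalizer (K : Set G)) χ ∧ ∃ k : ↥(Subgroup.normalizer (K : Set G)), (k : G) ∈ K ∧ χ k ≠ χ 1} {1}ᶜ (fun α => Cfsg.indFun (Subgroup.normalizer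 (K : Set G)) α) := by
  classical
  haveI : (K.subgroupOf (Subgroup.normalizer (K : Set G))).Normal := Subgroup.normal_in_normalizer
  have hKle : K ≤ Subgroup.normalizer (K : Set G) := Subgroup.le_normalizer
  have hCN : ∀ k ∈ K.subgroupOf (Subgroup.normalizer (K : Set G)), k ≠ 1 →
      Subgroup.centralizer ({k} : Set ↥(Subgroup.normalizer (K : Set G))) ≤
        K.subgroupOf (Subgroup.normalizer (K : Set G)) := by
    intro k hk hk1 x hx
    exact hC k hk (fun e => hk1 (Subtype.ext e)) (Subgroup.mem_centralizer_singleton_iff.mpr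
      (congrArg Subtype.val (Subgroup.mem_centralizer_singleton_iff.mp hx)))
  have hset : {χ : ↥(Subgroup.normalizer (K : Set G)) → ℂ |
      Cfsg.IsIrrCharacter ↥(Subgroup.normalizer (K : Set G)) χ ∧
        ∃ k : ↥(Subgroup.normalizer (K : Set G)), (k : G) ∈ K ∧ χ k ≠ χ 1} =
      Cfsg.inducedIrrAbove (K.subgroupOf (Subgroup.normalizer (K : Set G))) ⊥ :=
    (OddChar.frob_indAbove_eq (K := K.subgroupOf (Subgroup.normalizer (K : Set G))) hCN).symm
  have hKcard : Nat.card (K.subgroupOf (Subgroup.normalizer (K : Set G))) = Nat.card K :=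
    Nat.card_congr (Subgroup.subgroupOfEquivOfLe hKle).toEquiv
  have hKne : K.subgroupOf (Subgroup.normalizer (K : Set G)) ≠ ⊥ := fun h => hK1 (by
    rw [← Subgroup.map_subgroupOf_eq_of_le hKle, h, Subgroup.map_bot])
  have hnil' : Group.IsNilpotent (K.subgroupOf (Subgroup.normalizer (K : Set G))) := by
    haveI := hnil
    exact Group.nilpotent_of_mulEquiv (Subgroup.subgroupOfEquivOfLe hKle).symm
  obtain ⟨h1, h2⟩ := OddChar.ti_isometry K _ hKle hTI rfl
  rw [hset]
  by_cases hcm : ∀ a ∈ K, ∀ b ∈ K, a * b = b * a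
  · have hcm' : ∀ a ∈ K.subgroupOf (Subgroup.normalizer (K : Set G)),
        ∀ b ∈ K.subgroupOf (Subgroup.normalizer (K : Set G)), a * b = b * a :=
      fun a ha b hb => Subtype.ext (hcm a ha b hb)
    rcases OddChar.frob_abelian_case _ hKne hCN hcm' _ h1 h2 with ⟨c1, c2⟩ | h
    · left
      refine ⟨(Nat.card_congr (Equiv.setCongr hset)).trans c1, by rw [← hKcard]; exact c2, ?_⟩
      have hne : Nat.card (K.subgroupOf (Subgroup.normalizer (K : Set G))) ≠ 1 :=
        fun h => hKne (Subgroup.card_eq_one.mp h)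
      haveI : Fact (Nat.card (K.subgroupOf (Subgroup.normalizer (K : Set G)))).minFac.Prime :=
        ⟨Nat.minFac_prime hne⟩
      obtain ⟨-, he⟩ := OddChar.frob_elementary _ hCN hcm' c2 (Nat.minFac_dvd _)
      refine ⟨_, Nat.minFac_prime hne, ⟨⟨fun a b => Subtype.ext (hcm a a.2 b b.2)⟩⟩, fun a ha => ?_⟩
      exact congrArg Subtype.val (he ⟨a, hKle ha⟩ ha)
    · exact Or.inr (Or.inr h)
  by_cases hpp : ∃ p m : ℕ, p.Prime ∧ Nat.card K = p ^ m
  swap
  · exact Or.inr (Or.inr (OddChar.feit_coherent hCN hnil' (Or.inr (by rwa [hKcard])) _ h1 h2))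
  obtain ⟨p, m, hp, hm⟩ := hpp
  haveI : Fact p.Prime := ⟨hp⟩
  have hcop := OddChar.frob_coprime _ hCN
  rw [hKcard, hm] at hcop
  have hm0 : m ≠ 0 := fun h => hK1 (Subgroup.card_eq_one.mp (by rw [hm, h, pow_zero]))
  have hpi : ¬ p ∣ (K.subgroupOf (Subgroup.normalizer (K : Set G))).index := fun h =>
    hp.not_dvd_one (hcop.gcd_eq_one ▸ Nat.dvd_gcd (dvd_pow_self p hm0) h)
  obtain ⟨P, hP⟩ := OddChar.exists_sylow_eq K (IsPGroup.iff_card.mpr ⟨m, hm⟩) hpi
  by_cases hp2 : p = 2
  · subst hp2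
    have hcard : Nat.card K = 2 ^ (Nat.card G).factorization 2 := by
      rw [← hP]; exact P.card_eq_multiplicity
    have hrel : (⁅K.subgroupOf (Subgroup.normalizer (K : Set G)),
        K.subgroupOf (Subgroup.normalizer (K : Set G))⁆).relIndex
          (K.subgroupOf (Subgroup.normalizer (K : Set G))) = (⁅K, K⁆.subgroupOf K).index := by
      have h' : ⁅K.subgroupOf (Subgroup.normalizer (K : Set G)),
          K.subgroupOf (Subgroup.normalizer (K : Set G))⁆ =
          ⁅K, K⁆.subgroupOf (Subgroup.normalizer (K : Set G)) := by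
        apply Subgroup.map_injective (Subgroup.subtype_injective _)
        rw [Subgroup.map_commutator, Subgroup.map_subgroupOf_eq_of_le hKle,
          Subgroup.map_subgroupOf_eq_of_le ((Subgroup.commutator_le_self K).trans hKle)]
      rw [h', Subgroup.relIndex_subgroupOf hKle]
      rfl
    rw [← hrel]
    set e := (K.subgroupOf (Subgroup.normalizer (K : Set G))).index with he
    set h := (⁅K.subgroupOf (Subgroup.normalizer (K : Set G)),
        K.subgroupOf (Subgroup.normalizer (K : Set G))⁆).relIndex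
          (K.subgroupOf (Subgroup.normalizer (K : Set G))) with hh
    rcases Nat.lt_or_ge h (4 * e ^ 2) with hlt' | hge
    · exact Or.inr (Or.inl ⟨hcard, hlt'⟩)
    refine Or.inr (Or.inr (OddChar.feit_coherent hCN hnil'
      (Or.inl ⟨2, m, hp, hKcard.trans hm, ?_⟩) _ h1 h2))
    rw [← he, ← hh]
    obtain ⟨j, -, hj⟩ := (Nat.dvd_prime_pow hp).mp
      (show h ∣ 2 ^ m by rw [← hm, ← hKcard, hh]; exact Subgroup.relIndex_dvd_card _ _)
    have he0 : 0 < e := Nat.pos_of_ne_zero Subgroup.index_ne_zero_of_finite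
    have he1 : e ≠ 1 := fun h => hlt.not_ge (Subgroup.subgroupOf_eq_top.mp (Subgroup.index_eq_one.mp h))
    have hne : h ≠ 4 * e ^ 2 := by
      intro heq
      obtain ⟨i, -, hi⟩ := (Nat.dvd_prime_pow hp).mp
        (show e ∣ 2 ^ j from hj ▸ heq ▸ ((dvd_pow_self e two_ne_zero).mul_left 4))
      rcases Nat.eq_zero_or_pos i with hi0 | hi0
      · exact he1 (by rw [hi, hi0, pow_zero])
      · exact hpi (hi ▸ dvd_pow_self 2 hi0.ne')
    have hne' : h ≠ 4 * e ^ 2 + 1 := by
      intro heq
      rcases Nat.eq_zero_or_pos j with hj0 | hj0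
      · rw [hj0, pow_zero] at hj
        nlinarith
      · have h2 : 2 ∣ h := hj ▸ dvd_pow_self 2 hj0.ne'
        omega
    omega
  subst hP
  rcases S1533.result p hp2 P hK1 hTI hlt hC with ⟨-, hab, -⟩ | h
  · exact absurd (fun a ha b hb => congrArg Subtype.val (hab.1.is_comm.comm ⟨a, ha⟩ ⟨b, hb⟩)) hcm
  · rw [hset] at h
    exact Or.inr (Or.inr h)

end Cfsg.Agent.S1534
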