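import Cfsg.Statements.S0738
import Cfsg.Agent.Core.ThompsonFPF
import Mathlib.GroupTheory.GroupAction.MultipleTransitivity

set_option autoImplicit false
open Cfsg

namespace Cfsg.Agent.S0738

/-- Let a finite Zassenhaus group of degree `n + 1` have two-point stabilisers of order `d` with `2d ≥ n - 1`. Then a normal subgroup of a point stabiliser acting regularly on the remaining points is elementary abelian, and the degree is a prime power plus one. -/
theorem result {G Ω : Type*} [Group G] [Finite G] [MulAction G Ω] [Fintype Ω] (hZ : Cfsg.IsZassenhausGroup G Ω) {a b : Ω} (hab : a ≠ b) (hd : Fintype.card Ω - 2 ≤ 2 * Nat.card ↥(MulAction.stabilizer G a ⊓ MulAction.stabilizer G b)) (F : Subgroup G) (hFle : F ≤ MulAction.stabilizer G a) (hFn : (F.subgroupOf (MulAction.stabilizer G a)).Normal) (hreg : ∀ y z : Ω, y ≠ a → z ≠ a → ∃! u : F, (u : G) • y = z) : IsMulCommutative F ∧ ∃ p f : ℕ, p.Prime ∧ (∀ u ∈ F, u ^ p = 1) ∧ Fintype.card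 Ω = p ^ f + 1 := by
  classical
  obtain ⟨hfaith, h2, hthree, ⟨g₀, hg₀, x₀, y₀, hxy₀, hgx₀, hgy₀⟩, -⟩ := hZ
  set H := MulAction.stabilizer G a ⊓ MulAction.stabilizer G b with hH
  -- the two-point stabiliser is not trivial
  obtain ⟨h₁, h₁H, h₁1⟩ : ∃ h ∈ H, h ≠ 1 := by
    obtain ⟨g, hga, hgb⟩ := MulAction.is_two_pretransitive_iff.1 h2 hxy₀ hab
    refine ⟨g * g₀ * g⁻¹, ⟨MulAction.mem_stabilizer_iff.2 ?_, MulAction.mem_stabilizer_iff.2 ?_⟩,
      fun h => hg₀ (conj_eq_one_iff.1 h)⟩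
    · rw [← hga, mul_smul, mul_smul, inv_smul_smul, hgx₀]
    · rw [← hgb, mul_smul, mul_smul, inv_smul_smul, hgy₀]
  have hba : b ≠ a := hab.symm
  have hFconj : ∀ g ∈ MulAction.stabilizer G a, ∀ u ∈ F, g * u * g⁻¹ ∈ F := fun g hg u hu =>
    hFn.conj_mem ⟨u, hFle hu⟩ hu ⟨g, hg⟩
  -- translations
  have hub : ∀ u ∈ F, u ≠ 1 → u • b ≠ a ∧ u • b ≠ b := fun u hu hu1 =>
    ⟨fun e => hab (smul_left_cancel u (e.trans (MulAction.mem_stabilizer_iff.1 (hFle hu)).symm)).symm,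
      fun e => hu1 (congrArg Subtype.val ((hreg b b hba hba).unique (y₁ := ⟨u, hu⟩) (y₂ := 1) e (one_smul G b)))⟩
  have hsemi : ∀ h ∈ H, ∀ u ∈ F, u ≠ 1 → h * u * h⁻¹ = u → h = 1 := by
    intro h hh u hu hu1 e
    obtain ⟨hua, hub'⟩ := hub u hu hu1
    refine hthree h a b (u • b) hab hub'.symm hua.symm (MulAction.mem_stabilizer_iff.1 hh.1)
      (MulAction.mem_stabilizer_iff.1 hh.2) ?_
    conv_rhs => rw [← e]
    rw [mul_smul, mul_smul, inv_smul_eq_iff.2 (MulAction.mem_stabilizer_iff.1 hh.2).symm]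
  have hcardF : Nat.card F + 1 = Fintype.card Ω := by
    have hbij : Function.Bijective (fun u : F => (⟨(u : G) • b, fun e => hab
        (smul_left_cancel (u : G) (e.trans (MulAction.mem_stabilizer_iff.1 (hFle u.2)).symm)).symm⟩ : {z : Ω // z ≠ a})) := by
      refine ⟨fun u v e => (hreg b _ hba (fun e' => hab (smul_left_cancel (v : G)
        (e'.trans (MulAction.mem_stabilizer_iff.1 (hFle v.2)).symm)).symm)).unique (congrArg Subtype.val e) rfl,
        fun z => ?_⟩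
      obtain ⟨u, hu, -⟩ := hreg b z.1 hba z.2
      exact ⟨u, Subtype.ext hu⟩
    rw [Nat.card_eq_of_bijective _ hbij, Nat.card_eq_fintype_card, Fintype.card_subtype_compl, Fintype.card_subtype_eq]
    have : 0 < Fintype.card Ω := Fintype.card_pos_iff.2 ⟨a⟩
    omega
  -- an invariant subgroup of the kernel is trivial or everything
  have hinvK : ∀ K : Subgroup G, K ≤ F → (∀ h ∈ H, ∀ u ∈ K, h * u * h⁻¹ ∈ K) → (∃ u ∈ K, u ≠ 1) → K = F := by
    intro K hKF hK ⟨u, hu, hu1⟩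
    by_contra hne
    have hdK : Nat.card H ≤ Nat.card {v : K // v ≠ 1} := by
      refine Nat.card_le_card_of_injective (fun h : H => (⟨⟨(h : G) * u * (h : G)⁻¹, hK h h.2 u hu⟩,
        fun e => hu1 (conj_eq_one_iff.1 (congrArg Subtype.val e))⟩ : {v : K // v ≠ 1})) (fun h h' e => ?_)
      have e' : (h : G) * u * (h : G)⁻¹ = h' * u * (h' : G)⁻¹ := congrArg (fun v : {v : K // v ≠ 1} => ((v : K) : G)) e
      refine Subtype.ext (inv_mul_eq_one.1 (hsemi _ (mul_mem (inv_mem h.2) h'.2) u (hKF hu) hu1 ?_))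
      calc (h : G)⁻¹ * h' * u * ((h : G)⁻¹ * h')⁻¹ = (h : G)⁻¹ * (h' * u * (h' : G)⁻¹) * h := by group
        _ = u := by rw [← e']; group
    have hK1 : Nat.card {v : K // v ≠ 1} + 1 = Nat.card K := by
      rw [← Finite.card_option, Nat.card_congr (Equiv.optionSubtypeNe (1 : K))]
    obtain ⟨c, hc⟩ := Subgroup.card_dvd_of_le hKF
    have hlt : Nat.card K < Nat.card F := by
      by_contra hge
      exact hne (Subgroup.eq_of_le_of_card_ge hKF (not_lt.1 hge))
    have hc2 : 2 ≤ c := by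
      rcases c with _ | _ | c
      · rw [Nat.mul_zero] at hc; omega
      · rw [Nat.mul_one] at hc; omega
      · omega
    have : Nat.card K * 2 ≤ Nat.card F := hc ▸ Nat.mul_le_mul_left _ hc2
    omega
  have hFne : Nontrivial F := by
    obtain ⟨z, hz⟩ : ∃ z, z ≠ a ∧ z ≠ b := by
      by_contra hcon
      push Not at hcon
      refine h₁1 (hfaith.eq_of_smul_eq_smul fun z => ?_)
      rw [one_smul]
      by_cases hz : z = a
      · rw [hz]; exact MulAction.mem_stabilizer_iff.1 h₁H.1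
      · rw [hcon z hz]; exact MulAction.mem_stabilizer_iff.1 h₁H.2
    obtain ⟨u, hu, -⟩ := hreg b z hba hz.1
    exact ⟨⟨u, 1, fun e => hz.2 (hu.symm.trans (by rw [e]; exact one_smul G b))⟩⟩
  -- nilpotency
  obtain ⟨r, hr, hrd⟩ := Nat.exists_prime_and_dvd (n := Nat.card H) (by
    intro h
    exact h₁1 (congrArg Subtype.val ((Nat.card_eq_one_iff_unique.1 h).1.elim (⟨h₁, h₁H⟩ : H) 1)))
  haveI : Fact r.Prime := ⟨hr⟩
  obtain ⟨h₂, hh₂⟩ := exists_prime_orderOf_dvd_card' (G := H) r hrd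
  have h₂a : (h₂ : G) ∈ MulAction.stabilizer G a := h₂.2.1
  let φ : F ≃* F :=
    { toFun := fun u => ⟨(h₂ : G) * u * (h₂ : G)⁻¹, hFconj _ h₂a _ u.2⟩
      invFun := fun u => ⟨(h₂ : G)⁻¹ * u * (h₂ : G)⁻¹⁻¹, hFconj _ (inv_mem h₂a) _ u.2⟩
      left_inv := fun u => Subtype.ext (by
        show (h₂ : G)⁻¹ * ((h₂ : G) * u * (h₂ : G)⁻¹) * (h₂ : G)⁻¹⁻¹ = u; group)
      right_inv := fun u => Subtype.ext (by
        show (h₂ : G) * ((h₂ : G)⁻¹ * u * (h₂ : G)⁻¹⁻¹) * (h₂ : G)⁻¹ = u; group)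
      map_mul' := fun u v => Subtype.ext (by
        show (h₂ : G) * (u * v : G) * (h₂ : G)⁻¹ = (h₂ : G) * u * (h₂ : G)⁻¹ * ((h₂ : G) * v * (h₂ : G)⁻¹); group) }
  haveI : Group.IsNilpotent F := by
    refine Agent.Core.ThompsonFPF.isNilpotent_of_fpf hr φ (fun u hu => ?_) (fun u => ?_)
    · by_contra hu1
      have := hsemi _ h₂.2 u u.2 (fun e => hu1 (Subtype.ext e)) (congrArg Subtype.val hu)
      rw [← Subgroup.orderOf_coe, this, orderOf_one] at hh₂
      exact hr.ne_one hh₂.symm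
    · have key : ∀ n : ℕ, (((φ : F → F)^[n] u : F) : G) = (h₂ : G) ^ n * u * ((h₂ : G) ^ n)⁻¹ := by
        intro n
        induction n with
        | zero => simp
        | succ n ih =>
          rw [Function.iterate_succ_apply']
          show (h₂ : G) * _ * (h₂ : G)⁻¹ = _
          rw [ih, pow_succ']
          group
      refine Subtype.ext ?_
      rw [key, ← hh₂, ← Subgroup.orderOf_coe, pow_orderOf_eq_one]
      group
  -- the centre is everything
  have hZ : (Subgroup.center F).map F.subtype = F := by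
    refine hinvK _ (Subgroup.map_subtype_le _) ?_ ?_
    · rintro h hh _ ⟨z, hz, rfl⟩
      refine ⟨⟨h * z * h⁻¹, hFconj h hh.1 _ z.2⟩, Subgroup.mem_center_iff.2 fun v => Subtype.ext ?_, rfl⟩
      have hv := congrArg Subtype.val (Subgroup.mem_center_iff.1 hz ⟨h⁻¹ * v * h⁻¹⁻¹, hFconj _ (inv_mem hh.1) _ v.2⟩)
      calc (v : G) * (h * z * h⁻¹) = h * ((h⁻¹ * v * h⁻¹⁻¹) * z) * h⁻¹ := by group
        _ = h * ((z : G) * (h⁻¹ * v * h⁻¹⁻¹)) * h⁻¹ := by
          simp only [Subgroup.coe_mul] at hv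
          rw [hv]
        _ = h * z * h⁻¹ * v := by group
    · obtain ⟨⟨z, hz⟩, hz1⟩ := Subgroup.ne_bot_iff_exists_ne_one.1 (Group.IsNilpotent.center_ne_bot (G := F))
      exact ⟨(z : G), ⟨z, hz, rfl⟩, fun e => hz1 (Subtype.ext (Subtype.ext e))⟩
  have hcomm : ∀ u ∈ F, ∀ v ∈ F, u * v = v * u := by
    intro u hu v hv
    rw [← hZ] at hu
    obtain ⟨z, hz, rfl⟩ := hu
    exact (congrArg Subtype.val (Subgroup.mem_center_iff.1 hz ⟨v, hv⟩)).symm
  refine ⟨⟨⟨fun u v => Subtype.ext (hcomm u u.2 v v.2)⟩⟩, ?_⟩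
  obtain ⟨p, hp, hpd⟩ := Nat.exists_prime_and_dvd (n := Nat.card F) (Finite.one_lt_card).ne'
  haveI : Fact p.Prime := ⟨hp⟩
  let K : Subgroup G :=
    { carrier := {u | u ∈ F ∧ u ^ p = 1}
      one_mem' := ⟨one_mem _, one_pow _⟩
      mul_mem' := fun {u v} hu hv => ⟨mul_mem hu.1 hv.1, by
        rw [(show Commute u v from hcomm u hu.1 v hv.1).mul_pow, hu.2, hv.2, one_mul]⟩
      inv_mem' := fun {u} hu => ⟨inv_mem hu.1, by rw [inv_pow, hu.2, inv_one]⟩ }
  have hKeq : K = F := by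
    refine hinvK K (fun u hu => hu.1) (fun h hh u hu => ⟨hFconj h hh.1 u hu.1, ?_⟩) ?_
    · rw [← MulAut.conj_apply, ← map_pow, hu.2, map_one]
    · obtain ⟨u, hu⟩ := exists_prime_orderOf_dvd_card' p hpd
      refine ⟨u, ⟨u.2, ?_⟩, fun e => ?_⟩
      · rw [← hu, ← Subgroup.orderOf_coe, pow_orderOf_eq_one]
      · rw [← Subgroup.orderOf_coe, e, orderOf_one] at hu
        exact hp.ne_one hu.symm
  have hexp : ∀ u ∈ F, u ^ p = 1 := fun u hu => by rw [← hKeq] at hu; exact hu.2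
  obtain ⟨f, hf⟩ := IsPGroup.iff_card.1 (show IsPGroup p F from fun u => ⟨1, Subtype.ext (by simpa using hexp u u.2)⟩)
  exact ⟨p, f, hp, hexp, by rw [← hcardF, hf]⟩

end Cfsg.Agent.S0738
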