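import Cfsg.Statements.S1137
import Cfsg.Agent.Suzuki.TwoGroupTypeA

set_option autoImplicit false
open Cfsg

namespace Cfsg.Agent.S1137

/-- In a Suzuki 2-group `P` (a finite non-abelian 2-group with more than one involution admitting a cyclic group of automorphisms regular on its involutions) the involutions are exactly the non-identity central elements, and `Z(P)` is elementary abelian. -/
theorem result {P : Type*} [Group P] (hP : Cfsg.IsSuzukiTwoGroup P) :
    (∀ x : P, (x ≠ 1 ∧ x * x = 1) ↔ (x ∈ Subgroup.center P ∧ x ≠ 1)) ∧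
      ∀ z ∈ Subgroup.center P, z * z = 1 := by
  obtain ⟨F, _, _, _, ⟨d⟩⟩ := Cfsg.Agent.Suzuki.TwoGroup.exists_data hP
  have : Finite P := hP.1
  refine ⟨fun x => ⟨fun ⟨h1, h2⟩ => ⟨Subgroup.mem_center_iff.2 fun p => d.sq_central h2 p, h1⟩,
    fun ⟨hz, h1⟩ => ⟨h1, d.center_sq hP.2.2.1 hz⟩⟩, fun z hz => d.center_sq hP.2.2.1 hz⟩

end Cfsg.Agent.S1137
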