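import Cfsg.Statements.S1138
import Cfsg.Agent.Suzuki.TwoGroupOrder
-- import your own Cfsg.Agent.* helpers here

set_option autoImplicit false
open Cfsg

namespace Cfsg.Agent.S1138

/-- Let `P` be a Suzuki 2-group with `|Z(P)| = q`. Then every square lies in `Z(P)` and `P/Z(P)` is abelian (so elementary abelian), `|P| = q²` or `|P| = q³`, and `P` has exponent 4. -/
theorem result {P : Type*} [Group P] (hP : Cfsg.IsSuzukiTwoGroup P) :
    (∀ x : P, x * x ∈ Subgroup.center P) ∧ (∀ x y : P, x⁻¹ * y⁻¹ * x * y ∈ Subgroup.center P) ∧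
      (Nat.card P = Nat.card (Subgroup.center P) ^ 2 ∨ Nat.card P = Nat.card (Subgroup.center P) ^ 3) ∧
      Monoid.exponent P = 4 := by
  obtain ⟨F, _, _, _, ⟨d⟩⟩ := Cfsg.Agent.Suzuki.TwoGroup.exists_data hP
  obtain ⟨hfin, hpg, hnc, ⟨a, b, hab, ha1, haa, hb1, hbb⟩, -⟩ := hP
  have := Fact.mk Nat.prime_two
  have hk : ∃ k : Fˣ, k ≠ 1 := by
    obtain ⟨k, hk⟩ := d.exists_μ (fun e => hb1 (d.eq_one_of_co hbb e)) haa ha1
    rw [d.e_co hbb] at hk
    exact ⟨k, fun e => hab (by rw [← hk, e, map_one, MulAut.one_apply])⟩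
  obtain ⟨hsq, hdl⟩ := d.sq_dl_central hk hnc
  have hq : Nat.card (Subgroup.center P) = Nat.card F := d.center_card hnc
  obtain ⟨n, hn⟩ := IsPGroup.iff_card.1 (hpg.to_subgroup (Subgroup.center P))
  obtain ⟨t, ht⟩ := IsPGroup.iff_card.1 hpg
  have hnt : n ≤ t := (Nat.pow_le_pow_iff_right one_lt_two).1 (hn ▸ ht ▸ Nat.le_of_dvd Nat.card_pos
    (Subgroup.card_subgroup_dvd_card (Subgroup.center P)))
  have hm : Nat.card P = Nat.card (Subgroup.center P) * 2 ^ (t - n) := by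
    rw [hn, ht, ← pow_add, Nat.add_sub_cancel' hnt]
  have h1 := d.index_le hsq hdl hnc (hq ▸ hn) hm
  have h2 : Nat.card Fˣ ∣ 2 ^ (t - n) - 1 := d.dvd_index hm
  rw [Nat.card_units, ← hq, hn] at h2
  have h3 : n ∣ t - n := by
    have h4 := Nat.pow_sub_one_gcd_pow_sub_one 2 n (t - n)
    rw [Nat.gcd_eq_left h2] at h4
    have h5 : 2 ^ n = 2 ^ Nat.gcd n (t - n) := by
      have := Nat.one_le_two_pow (n := n)
      have := Nat.one_le_two_pow (n := Nat.gcd n (t - n))
      omega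
    have h6 := Nat.gcd_dvd_right n (t - n)
    rwa [← Nat.pow_right_injective le_rfl h5] at h6
  have h6 : t - n ≠ 0 := by
    intro e
    obtain ⟨x, y, hxy⟩ := hnc
    have : Subgroup.center P = ⊤ := Subgroup.eq_top_of_card_eq _ (by rw [hm, e, pow_zero, mul_one])
    exact hxy (Subgroup.mem_center_iff.1 (this ▸ Subgroup.mem_top y : y ∈ Subgroup.center P) x)
  refine ⟨hsq, fun x y => ?_, ?_, ?_⟩
  · have := hdl x⁻¹ y⁻¹
    simpa [Cfsg.Agent.Suzuki.TwoGroup.Data.dl] using this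
  · obtain ⟨j, hj⟩ := h3
    have hn0 : 0 < n := Nat.pos_of_ne_zero fun e => h6 (by omega)
    have hj2 : j ≤ 2 := Nat.le_of_mul_le_mul_left (by rw [← hj]; omega) hn0
    rcases (show j = 0 ∨ j = 1 ∨ j = 2 by omega) with rfl | rfl | rfl
    · exact absurd (by rw [hj, mul_zero]) h6
    · left; rw [hm, hj, mul_one, ← hn, pow_two]
    · right; rw [hm, hj, mul_comm n 2, pow_mul', ← hn]; ring
  · have h4 : ∀ x : P, x ^ 4 = 1 := fun x => by
      rw [show (4 : ℕ) = 2 + 2 from rfl, pow_add, pow_two]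
      exact d.center_sq hnc (hsq x)
    have hdvd : Monoid.exponent P ∣ 2 ^ 2 := Monoid.exponent_dvd_of_forall_pow_eq_one h4
    obtain ⟨i, hi, he⟩ := (Nat.dvd_prime_pow Nat.prime_two).1 hdvd
    rcases (show i ≤ 1 ∨ i = 2 by omega) with hi' | rfl
    · exfalso
      obtain ⟨x, y, hxy⟩ := hnc
      have h2' : ∀ z : P, z * z = 1 := fun z => by
        have := Monoid.pow_exponent_eq_one z
        rw [he] at this
        rw [← pow_two, show (2 : ℕ) = 2 ^ i * 2 ^ (1 - i) by rw [← pow_add, Nat.add_sub_cancel' hi', pow_one],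
          pow_mul, this, one_pow]
      exact hxy (d.sq_central (h2' y) x)
    · exact he

end Cfsg.Agent.S1138
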