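import Cfsg.Statements.S1054
import Cfsg.Agent.Chev.Certs
import Cfsg.Agent.Chev.Simple
-- import your own Cfsg.Agent.* helpers here

set_option autoImplicit false
open Cfsg

namespace Cfsg.Agent.S1054

/-- The Chevalley groups of types D₄, F₄, E₆, E₇, E₈ are simple over every field. -/
theorem result {F : Type*} [Field F] (D : Cfsg.Lie.ChevalleyDatum)
    (hD : D ∈ [Cfsg.Lie.chevD4, Cfsg.Lie.chevF4, Cfsg.Lie.chevE6, Cfsg.Lie.chevE7, Cfsg.Lie.chevE8]) :
    IsSimpleGroup ↥(D.group F) ∧ ¬ IsMulCommutative ↥(D.group F) := by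
  have hD' : D ∈ [Cfsg.Lie.chevG2, Cfsg.Lie.chevB2, Cfsg.Lie.chevD4, Cfsg.Lie.chevF4, Cfsg.Lie.chevE6, Cfsg.Lie.chevE7, Cfsg.Lie.chevE8] :=
    List.mem_cons_of_mem _ (List.mem_cons_of_mem _ hD)
  obtain ⟨C⟩ := Cfsg.Agent.Chev.nonempty_cert hD'
  obtain ⟨M, hM⟩ := Cfsg.Agent.Chev.exists_cox hD'
  obtain ⟨pa, hpa⟩ := Cfsg.Agent.Chev.exists_tree hD'
  have hr : 0 < D.rank := by
    simp only [List.mem_cons, List.not_mem_nil, or_false] at hD
    rcases hD with rfl | rfl | rfl | rfl | rfl <;> decide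
  exact C.isSimple_group hM hpa hr (C.commutator_eq_top (C.group_perfect fun r hr hd =>
    Or.inl (Cfsg.Agent.Chev.sumUnit_of_dom hD r hr hd)))

end Cfsg.Agent.S1054
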