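import Cfsg.Statements.S0225
import Cfsg.Agent.S0201
import Cfsg.Agent.Blocks.ZStar

set_option autoImplicit false
open Cfsg

namespace Cfsg.Agent.S0225

/-- If a finite group G has even order but contains no Klein four-subgroup (2-rank 1), then some involution z of G is central modulo a normal subgroup of odd order: there is a normal subgroup N of odd order containing every commutator z g z⁻¹ g⁻¹. -/
theorem result {G : Type*} [Group G] [Finite G] (heven : Even (Nat.card G)) (hrank : ∀ E : Subgroup G, ¬ IsKleinFour E) : ∃ z : G, orderOf z = 2 ∧ ∃ N : Subgroup G, N.Normal ∧ Odd (Nat.card N) ∧ ∀ g : G, z * g * z⁻¹ * g⁻¹ ∈ N := by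
  haveI : Fact (Nat.Prime 2) := ⟨Nat.prime_two⟩
  obtain ⟨z, hz⟩ := exists_prime_orderOf_dvd_card' (G := G) 2 (even_iff_two_dvd.1 heven)
  have hz2 : z * z = 1 := by rw [← sq, ← hz, pow_orderOf_eq_one]
  have huniq : ∀ t : G, orderOf t = 2 → Commute z t → t = z := by
    intro t ht hc
    by_contra hne
    have ht2 : t * t = 1 := by rw [← sq, ← ht, pow_orderOf_eq_one]
    have hz1 : z ≠ 1 := fun e => by rw [e, orderOf_one] at hz; omega
    have ht1 : t ≠ 1 := fun e => by rw [e, orderOf_one] at ht; omega
    have hzt : z * t ≠ 1 := fun e => hne (mul_left_cancel (a := z) (e.trans hz2.symm))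
    let E : Subgroup G :=
      { carrier := {x | x = 1 ∨ x = z ∨ x = t ∨ x = z * t}
        one_mem' := Or.inl rfl
        mul_mem' := by
          have a1 : t * z = z * t := hc.eq.symm
          have a2 : ∀ w, z * (z * w) = w := fun w => by rw [← mul_assoc, hz2, one_mul]
          have a3 : ∀ w, t * (t * w) = w := fun w => by rw [← mul_assoc, ht2, one_mul]
          have a4 : ∀ w, t * (z * w) = z * (t * w) := fun w => by
            rw [← mul_assoc, a1, mul_assoc]
          rintro a b (rfl | rfl | rfl | rfl) (rfl | rfl | rfl | rfl) <;>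
            simp [mul_assoc, hz2, ht2, a1, a2, a3, a4]
        inv_mem' := by
          have i1 : z⁻¹ = z := inv_eq_of_mul_eq_one_right hz2
          have i2 : t⁻¹ = t := inv_eq_of_mul_eq_one_right ht2
          rintro a (rfl | rfl | rfl | rfl) <;> simp [i1, i2, hc.eq] }
    have hzE : z ∈ E := Or.inr (Or.inl rfl)
    haveI : Nontrivial E := ⟨⟨⟨z, hzE⟩, 1, fun e => hz1 (congrArg Subtype.val e)⟩⟩
    refine hrank E ⟨?_, ?_⟩
    · show Nat.card ({x | x = 1 ∨ x = z ∨ x = t ∨ x = z * t} : Set G) = 4
      rw [Nat.card_coe_set_eq, show ({x | x = 1 ∨ x = z ∨ x = t ∨ x = z * t} : Set G) =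
        {1, z, t, z * t} from rfl, Set.ncard_insert_of_notMem, Set.ncard_insert_of_notMem,
        Set.ncard_pair]
      · exact fun e => hz1 (by simpa using e.symm)
      · simp only [Set.mem_insert_iff, Set.mem_singleton_iff, not_or]
        exact ⟨Ne.symm hne, fun e => ht1 (by simpa using e.symm)⟩
      · simp only [Set.mem_insert_iff, Set.mem_singleton_iff, not_or]
        exact ⟨Ne.symm hz1, Ne.symm ht1, Ne.symm hzt⟩
    · rw [Monoid.exponent_eq_prime_iff Nat.prime_two]
      rintro ⟨x, hx⟩ hx1
      rw [Subgroup.orderOf_mk]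
      have hx1' : x ≠ 1 := fun e => hx1 (Subtype.ext e)
      refine orderOf_eq_prime ?_ hx1'
      rcases hx with rfl | rfl | rfl | rfl
      exacts [one_pow _, by rw [sq, hz2], by rw [sq, ht2], by
        rw [hc.mul_pow, sq, sq, hz2, ht2, one_mul]]
  have hiso : IsIsolatedInvolution z :=
    ⟨hz, fun g hg => huniq _ (by rw [← MulAut.conj_apply, MulEquiv.orderOf_eq, hz]) hg⟩
  exact ⟨z, hz, oddCore G, inferInstance, Blocks.odd_card_oddCore G,
    Blocks.zstar (fun H _ _ S n e hO => S0201.result S n e hO) hiso⟩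

end Cfsg.Agent.S0225
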