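import Cfsg.Statements.S3765
import Cfsg.Agent.Transfer.HHGroup

set_option autoImplicit false
open Cfsg

namespace Cfsg.Agent.S3765

/-- Let p, q, r be distinct primes and let X, Q, V be subgroups of a finite group with X of order r normalizing the q-group Q and acting faithfully on it (X ∩ C(Q) = 1), and V a nontrivial elementary abelian p-group normalized by X and Q on which XQ acts faithfully. If q = 2 and r has the form 2^n + 1, assume in addition that Q is abelian. Then C_V(X) ≠ 1. -/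
theorem result {G : Type*} [Group G] [Finite G] {p q r : ℕ} (hp : p.Prime) (hq : q.Prime) (hr : r.Prime) (hpq : p ≠ q) (hpr : p ≠ r) (hqr : q ≠ r) (X Q V : Subgroup G) (hX : Nat.card X = r) (hQ : IsPGroup q Q) (hXQ : X ≤ Subgroup.normalizer (Q : Set G)) (hXfaith : X ⊓ Subgroup.centralizer (Q : Set G) = ⊥) (hV : Cfsg.IsElementaryAbelian p V) (hV1 : V ≠ ⊥) (hXV : X ≤ Subgroup.normalizer (V : Set G)) (hQV : Q ≤ Subgroup.normalizer (V : Set G)) (hfaith : (X ⊔ Q) ⊓ Subgroup.centralizer (V : Set G) = ⊥) (hexc : q = 2 → (∃ n : ℕ, r = 2 ^ n + 1) → IsMulCommutative Q) : V ⊓ Subgroup.centralizer (X : Set G) ≠ ⊥ := by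
  haveI := Fact.mk hp
  haveI := Fact.mk hq
  intro hCV
  have hpq' : ¬ p ∣ q := fun h => hpq ((Nat.prime_dvd_prime_iff_eq hp hq).mp h)
  have hpr' : ¬ p ∣ r := fun h => hpr ((Nat.prime_dvd_prime_iff_eq hp hr).mp h)
  obtain ⟨K, _, _, W, _, _, _, _, ρ, T, σ, hqK, hrK, hρ, hσ, hfix, hT, hTρ⟩ :=
    Cfsg.Agent.Transfer.HHGroup.exists_setup hr hpq' hpr' X Q V hX hXQ hV hV1 hXV hQV hfaith hCV
  have hne : ∃ y, σ y ≠ y := by
    by_contra h
    push Not at h
    have hXb : X ≤ X ⊓ Subgroup.centralizer (Q : Set G) := fun z hz =>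
      ⟨hz, Subgroup.mem_centralizer_iff.mpr fun y hy =>
        (Subgroup.mem_centralizer_iff.mp ((hfix ⟨y, hy⟩).mp (h _)) z hz).symm⟩
    rw [hXfaith, le_bot_iff] at hXb
    rw [hXb, Subgroup.card_bot] at hX
    exact hr.ne_one hX.symm
  obtain ⟨h2, n, hn, hrn, a, b, hab⟩ := Cfsg.Agent.Transfer.HHExceptional.exceptional_of_action hr
    (Ne.symm hqr) hqK hrK hQ ρ hρ T σ hσ hne hT hTρ
  exact hab ((hexc h2 ⟨n, hrn⟩).1.1 a b)

end Cfsg.Agent.S3765
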