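import Cfsg.Statements.S1640
import Cfsg.Agent.Golay.LeechStabSimple

set_option autoImplicit false
open Cfsg

namespace Cfsg.Agent.S1640

/-- The stabiliser of a vector of customary norm 6 is transitive on the 11178 minimal vectors of customary inner product −2 with it. -/
theorem result (u : ↥Cfsg.leechLattice) (hu : Cfsg.sqNorm (u : Cfsg.GolayPt → ℤ) = 48) : {x : ↥Cfsg.leechLattice | Cfsg.sqNorm (x : Cfsg.GolayPt → ℤ) = 32 ∧ Cfsg.dotInt (u : Cfsg.GolayPt → ℤ) (x : Cfsg.GolayPt → ℤ) = -16}.ncard = 11178 ∧ ∀ x ∈ {x : ↥Cfsg.leechLattice | Cfsg.sqNorm (x : Cfsg.GolayPt → ℤ) = 32 ∧ Cfsg.dotInt (u : Cfsg.GolayPt → ℤ) (x : Cfsg.GolayPt → ℤ) = -16}, ∀ x' ∈ {x : ↥Cfsg.leechLattice | Cfsg.sqNorm (x : Cfsg.GolayPt → ℤ) = 32 ∧ Cfsg.dotInt (u : Cfsg.GolayPt → ℤ) (x : Cfsg.GolayPt → ℤ) = -16}, ∃ g : ↥Cfsg.Co0, g • u = u ∧ g • x = x' := by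

  have dc : ∀ a b : GolayPt → ℤ, dotInt a b = dotInt b a := fun a b => by simp only [dotInt, mul_comm]
  have htr : ∀ x x' : ↥leechLattice, sqNorm (x : GolayPt → ℤ) = 32 → dotInt (u : GolayPt → ℤ) x = -16 →
      sqNorm (x' : GolayPt → ℤ) = 32 → dotInt (u : GolayPt → ℤ) x' = -16 →
      ∃ g : ↥Co0, g • u = u ∧ g • x = x' := by
    intro x x' hx hd hx' hd'
    obtain ⟨h, hh⟩ := Cfsg.Agent.Golay.co0_transitive (Or.inl rfl) hx hx'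
    have h1 := Cfsg.Agent.Golay.co0_dot h x u
    rw [hh, dc x u, hd] at h1
    obtain ⟨k, k1, k2⟩ := Cfsg.Agent.Golay.mixed_transitive hx' ((Cfsg.Agent.Golay.co0_norm h u).trans hu) hu h1
      ((dc _ _).trans hd')
    exact ⟨k * h, by rw [mul_smul, k2], by rw [mul_smul, hh, k1]⟩
  refine ⟨?_, fun x hx x' hx' => htr x x' hx.1 hx.2 hx'.1 hx'.2⟩
  obtain ⟨-, hvm, -, hwm, -, hvn, -, hwn, -, hd0⟩ := Cfsg.Agent.Golay.tgt_facts
  obtain ⟨hz, hzd⟩ := Cfsg.Agent.Golay.hs_third (v := ⟨_, hvm⟩) (w := ⟨_, hwm⟩) hvn hwn hd0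
  obtain ⟨g, hg⟩ := Cfsg.Agent.Golay.co0_transitive (Or.inr (Or.inl rfl)) (v := ⟨_, hvm⟩) hvn hu
  obtain ⟨x, hxdef⟩ : ∃ x, x = g • (-((⟨_, hvm⟩ : ↥leechLattice) + ⟨_, hwm⟩)) := ⟨_, rfl⟩
  have hxn : sqNorm (x : GolayPt → ℤ) = 32 := by rw [hxdef, Cfsg.Agent.Golay.co0_norm]; exact hz
  have hxd : dotInt (u : GolayPt → ℤ) x = -16 := by
    rw [hxdef, ← hg, Cfsg.Agent.Golay.co0_dot, dc]; exact hzd
  have h1 := Cfsg.Agent.Golay.pair_stab_card (v := u) (w := x) hxn hxd (fun a a1 a2 => htr x a hxn hxd a1 a2)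
  have h2 := Cfsg.Agent.Golay.pair_stab_card (v := x) (w := u) hu ((dc _ _).trans hxd)
    (fun a a1 a2 => Cfsg.Agent.Golay.mixed_transitive hxn hu a1 ((dc _ _).trans hxd) a2)
  have hc := Cfsg.Agent.Golay.dot_count (n := 48) (by norm_num) hxn (-4)
  rw [Cfsg.Agent.Golay.sum_values.2.2.2] at hc
  simp only [Nat.cast_ofNat, show (4 : ℤ) * -4 = -16 by norm_num] at hc
  rw [hc, inf_comm, Cfsg.Agent.Golay.stab32_card hxn] at h2
  rw [Cfsg.Agent.Golay.stab48_card hu] at h1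
  have h3 : Nat.card ↥(MulAction.stabilizer ↥Co0 u ⊓ MulAction.stabilizer ↥Co0 x) = 44352000 := by omega
  rw [h3] at h1
  omega

end Cfsg.Agent.S1640
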