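import Cfsg.Statements.S5029
import Cfsg.Agent.Fischer.RootLine

set_option autoImplicit false
open Cfsg Cfsg.Agent.Fischer
open scoped commutatorElement

namespace Cfsg.Agent.S5029

/-- Let S be a set of abstract root subgroups of G, A ∈ S having a rank one partner in S, and B ∈ S with C = ⁅A, B⁆ ∈ S. Then the members of S contained in AC are the conjugates of A by elements of B together with C, they partition AC, the members of S inside AC partition AC so that A is a line partner of C, and for every non-identity a ∈ A the map b ↦ a⁻¹ b⁻¹ a b is an isomorphism from B onto C. -/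
theorem result {G : Type*} [Group G] {S : Set (Subgroup G)} (hS : Cfsg.IsRootSubgroupSet S)
    {A B : Subgroup G} (hA : ¬ Cfsg.IsIsolatedIn (Cfsg.FAdj S) S A) (hAS : A ∈ S) (hB : B ∈ S) (hC : ⁅A, B⁆ ∈ S) :
    Cfsg.membersIn S (A ⊔ ⁅A, B⁆) = (fun b : G => Cfsg.conjBy A b) '' (B : Set G) ∪ {⁅A, B⁆} ∧
    Cfsg.IsSubgroupPartition (A ⊔ ⁅A, B⁆) (Cfsg.membersIn S (A ⊔ ⁅A, B⁆)) ∧
    A ∈ Cfsg.linePartners S ⁅A, B⁆ ∧
    ∀ a ∈ A, a ≠ 1 → ∃ φ : ↥B ≃* ↥⁅A, B⁆, ∀ b : ↥B, (φ b : G) = a⁻¹ * (b : G)⁻¹ * a * b := by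
  set C := ⁅A, B⁆ with hCdef
  obtain ⟨F, hF, hAF⟩ := exists_partner hS hAS hA
  have hn : ¬ IsRankOnePair A B := by
    intro hR
    have hnorm : ∀ x ∈ A ⊔ B, conjBy C x = C := fun x hx =>
      cb_eq_self.2 (sup_le (Subgroup.normalizer_commutator_ge_left _ _)
        (Subgroup.normalizer_commutator_ge_right _ _) hx)
    have hle : C ≤ A ⊔ B := Subgroup.commutator_le.2 fun x hx y hy => by
      have hx' : x ∈ A ⊔ B := le_sup_left (α := Subgroup G) hx
      have hy' : y ∈ A ⊔ B := le_sup_right (α := Subgroup G) hy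
      rw [commutatorElement_def]
      exact mul_mem (mul_mem (mul_mem hx' hy') (inv_mem hx')) (inv_mem hy')
    have hcent : ∀ {X Y : Subgroup G}, X ∈ S → Y ∈ unipotentSubgroups A B →
        X ∈ unipotentSubgroups A B → X ≠ Y → (∀ x ∈ X, x ∈ A ⊔ B) →
        (∀ c ∈ C, conjBy X c = X) → (∀ c ∈ C, conjBy Y c = Y) → ⁅C, X⁆ = ⊥ := by
      intro X Y hX hY hXu hne hXle hfX hfY
      refine bot_of_commute fun c hc x hx => ?_
      have h1 : ⁅c, x⁆ ∈ X := by
        have := mul_mem (hfX c hc ▸ cb_mem c hx) (inv_mem hx)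
        rwa [commutatorElement_def]
      have h2 : ⁅c, x⁆ ∈ C := by
        have := mul_mem hc (hnorm x (hXle x hx) ▸ cb_mem x (inv_mem hc))
        simpa [commutatorElement_def, mul_assoc] using this
      exact commutatorElement_eq_one_iff_mul_comm.1
        (eq_one_of_normalize' hR hXu hY hne h1 (cb_eq_self.1 (hfY _ h2)))
    have hfix : ∀ {X : Subgroup G}, X ∈ S → X ∈ unipotentSubgroups A B →
        (∀ x ∈ X, x ∈ A ⊔ B) → ∀ c ∈ C, conjBy X c = X := by
      intro X hX hXu hXle c hc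
      refine eq_of_commute hR (unipotent_conj hXu (hle hc)) hXu (cb_commute hS hC hX (fun h => ?_) hc)
      obtain ⟨y, hy, hy1⟩ := exists_ne_one (RankOnePair_symm h)
      exact hy1 (eq_one_of_normalize (RankOnePair_symm h) hy (cb_eq_self.1 (hnorm y (hXle y hy))))
    have hAle : ∀ x ∈ A, x ∈ A ⊔ B := fun x hx => le_sup_left (α := Subgroup G) hx
    have hBle : ∀ x ∈ B, x ∈ A ⊔ B := fun x hx => le_sup_right (α := Subgroup G) hx
    have hcA := hcent hAS (right_mem hR) self_mem hR.ne hAle (hfix hAS self_mem hAle)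
      (hfix hB (right_mem hR) hBle)
    obtain ⟨b, hb, hb1⟩ := exists_ne_one (RankOnePair_symm hR)
    refine hb1 (eq_one_of_normalize (RankOnePair_symm hR) hb (cb_eq_self.1
      (eq_of_commute hR (unipotent_conj self_mem (hBle b hb)) self_mem (bot_of_commute fun x hx y hy => ?_))))
    rw [mem_cb] at hx
    have e' : x = ⁅b, b⁻¹ * x * b⁆ * (b⁻¹ * x * b) := by simp [commutatorElement_def, mul_assoc]
    have hm : ⁅b, b⁻¹ * x * b⁆ ∈ C := by
      rw [hCdef, Subgroup.commutator_comm]; exact Subgroup.commutator_mem_commutator hb hx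
    rw [e']
    exact ((show Commute _ y from commute_cb_right hcA hm hy).mul_left
      (show Commute _ y from member_comm hS hAS hx hy)).eq
  have hcase : RootCommutatorCase S A B := pair_case hS hAS hB hn (hS.ne_bot _ hC)
  have hAC : ⁅A, C⁆ = ⊥ := bot_symm (case_comm_left hcase)
  have hsub : ∀ b ∈ B, conjBy A b ≤ A ⊔ C := by
    intro b hb
    have := case_cb_le (case_symm hcase) hb
    rwa [Subgroup.commutator_comm B A] at this
  have hni : ∀ b : G, ¬ IsIsolatedIn (FAdj S) S (conjBy A b) := fun b => not_isolated_cb hS hAS hA b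
  have hel : ∀ a ∈ A, a ≠ 1 → ∀ c ∈ C, ∃ b ∈ B, a * c ∈ conjBy A b := by
    intro a ha ha1 c hc
    obtain ⟨b, hb, e⟩ := case_surj hcase ha ha1 (inv_mem hc)
    refine ⟨b, hb, ?_⟩
    have he : c = ⁅b, a⁆ := by rw [← commutatorElement_inv, e, inv_inv]
    have hcom : a * c = c * a := commute_cb_right hAC ha hc
    rw [hcom, he, commutatorElement_def, inv_mul_cancel_right]
    exact cb_mem b ha
  obtain ⟨a₀, ha₀, ha₀1⟩ := exists_mem_ne_one hS hAS
  have hne1 : ∀ {a c : G}, a ∈ A → a ≠ 1 → c ∈ C → a * c ≠ 1 := by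
    intro a c ha ha1 hc e
    have hAeq := eq_of_inter hS hAS hA hC ha ((eq_inv_of_mul_eq_one_left e).symm ▸ inv_mem hc) ha1
    exact hS.ne_bot C hC (bot_of_commute fun x hx y hy =>
      case_comm hcase (show x ∈ C from hAeq ▸ hx) (le_sup_right (α := Subgroup G) hy))
  have hmem : membersIn S (A ⊔ C) = (fun b : G => conjBy A b) '' (B : Set G) ∪ {C} := by
    ext T
    constructor
    · rintro ⟨hT, hle⟩
      by_cases hTC : ∃ x ∈ T, x ∉ C
      · left
        obtain ⟨x, hx, hxC⟩ := hTC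
        obtain ⟨a, ha, c, hc, rfl⟩ := mem_sup_comm hAC (hle hx)
        have ha1 : a ≠ 1 := by rintro rfl; rw [one_mul] at hxC; exact hxC hc
        obtain ⟨b, hb, hab⟩ := hel a ha ha1 c hc
        exact ⟨b, hb, eq_of_inter hS (hS.conj_mem A hAS b) (hni b) hT hab hx (hne1 ha ha1 hc)⟩
      · push_neg at hTC
        right
        by_cases hCF : IsRankOnePair C F
        · exact (eq_of_le hS hC (not_isolated_of_pair hS hC hF hCF) hT hTC).symm
        · refine shift_le_eq hS hAS hC hT hF hAF hCF hAC hTC ha₀ ha₀1 fun t ht _ => ?_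
          obtain ⟨b, hb, hab⟩ := hel a₀ ha₀ ha₀1 t ht
          exact ⟨_, hS.conj_mem A hAS b,
            line_commute hS hAS hC hAC le_sup_left (hsub b hb), hab⟩
    · rintro (⟨b, hb, rfl⟩ | rfl)
      · exact ⟨hS.conj_mem A hAS b, hsub b hb⟩
      · exact ⟨hC, le_sup_right⟩
  have hpart : IsSubgroupPartition (A ⊔ C) (membersIn S (A ⊔ C)) := by
    refine ⟨fun T hT => hT.2, fun x hx hx1 => ?_, fun T hT U hU hTU => ?_⟩
    · obtain ⟨a, ha, c, hc, rfl⟩ := mem_sup_comm hAC hx
      by_cases ha1 : a = 1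
      · exact ⟨C, ⟨hC, le_sup_right⟩, by rw [ha1, one_mul]; exact hc⟩
      · obtain ⟨b, hb, hab⟩ := hel a ha ha1 c hc
        exact ⟨_, ⟨hS.conj_mem A hAS b, hsub b hb⟩, hab⟩
    · have key : ∀ {T U}, T ∈ membersIn S (A ⊔ C) → U ∈ membersIn S (A ⊔ C) → T ≠ C → T ≠ U →
          T ⊓ U = ⊥ := by
        intro T U hT hU hTC hTU
        rw [hmem] at hT
        obtain ⟨b, hb, rfl⟩ := hT.resolve_right hTC
        exact (isolated_or_eq hS (hni b) (hS.conj_mem A hAS b) hU.1).resolve_right hTU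
      by_cases hTC : T = C
      · rw [inf_comm]; exact key hU hT (fun e => hTU (hTC.trans e.symm)) hTU.symm
      · exact key hT hU hTC hTU
  have hne : A ≠ C := by
    intro e
    exact hne1 ha₀ ha₀1 (e ▸ inv_mem ha₀ : a₀⁻¹ ∈ C) (mul_inv_cancel a₀)
  refine ⟨hmem, hpart, ⟨⟨hAS, hne, bot_symm hAC⟩, by rwa [sup_comm]⟩, fun a ha ha1 => ?_⟩
  have hBc : ∀ {x y : G}, x ∈ B → y ∈ B → x * y = y * x := fun hx hy => member_comm hS hB hx hy
  let φ : ↥B →* ↥C :=
    { toFun := fun b => ⟨⁅a⁻¹, (b : G)⁻¹⁆,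
        Subgroup.commutator_mem_commutator (inv_mem ha) (inv_mem b.2)⟩
      map_one' := Subtype.ext (by simp [commutatorElement_def])
      map_mul' := fun b b' => Subtype.ext (by
        simp only [Subgroup.coe_mul]
        rw [mul_inv_rev, hBc (inv_mem b'.2) (inv_mem b.2)]
        exact case_mul_right hcase (inv_mem ha) (inv_mem b.2) (inv_mem b'.2)) }
  have hbij : Function.Bijective φ := by
    constructor
    · rw [injective_iff_map_eq_one]
      intro b hb
      have := case_injective hS hAS hA hcase (inv_mem ha) (by simpa using ha1) (inv_mem b.2)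
        (congrArg Subtype.val hb)
      exact Subtype.ext (by simpa using this)
    · rintro ⟨c, hc⟩
      obtain ⟨b, hb, e⟩ := case_surj hcase (inv_mem ha) (by simpa using ha1) hc
      exact ⟨⟨b⁻¹, inv_mem hb⟩, Subtype.ext (by simpa [φ] using e)⟩
  exact ⟨MulEquiv.ofBijective φ hbij, fun b => by simp [φ, commutatorElement_def]⟩

end Cfsg.Agent.S5029
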