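import Cfsg.Statements.S5032
import Cfsg.Agent.Fischer.RootBasic

set_option autoImplicit false
open Cfsg Cfsg.Agent.Fischer
open scoped commutatorElement

namespace Cfsg.Agent.S5032

/-- Let S be a set of abstract root subgroups of G with more than one member. Then the graph of rank one pairs on S is connected if and only if S is a single conjugacy class of G and some member of S has a rank one partner in S. -/
theorem result {G : Type*} [Group G] {S : Set (Subgroup G)} (hS : Cfsg.IsRootSubgroupSet S) (h2 : ∃ A ∈ S, ∃ B ∈ S, A ≠ B) :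
    Cfsg.IsConnectedFamily (Cfsg.FAdj S) S ↔
      (Cfsg.IsConjClassOfSubgroups S ∧ ∃ A ∈ S, ¬ Cfsg.IsIsolatedIn (Cfsg.FAdj S) S A) := by
  constructor
  · intro hc
    have hadj : ∀ {X Y}, Relation.ReflTransGen (FAdj S) X Y → ∃ g : G, Y = conjBy X g := by
      intro X Y h
      induction h with
      | refl => exact ⟨1, by simp⟩
      | tail _ h ih =>
        obtain ⟨g, rfl⟩ := ih
        obtain ⟨x, -, e⟩ := exists_conj h.2.2
        exact ⟨x * g, by rw [← e, cb_cb]⟩
    obtain ⟨A, hA, B, hB, hne⟩ := h2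
    refine ⟨⟨⟨A, hA⟩, fun X hX Y hY => hadj (hc X hX Y hY)⟩, A, hA, fun hi => ?_⟩
    rcases (hc A hA B hB).cases_head with e | ⟨F, hF, -⟩
    · exact hne e
    · exact (hi.2 F).1 hF
  · rintro ⟨⟨-, hcl⟩, A₀, hA₀, hni₀⟩
    have hni : ∀ A ∈ S, ¬ IsIsolatedIn (FAdj S) S A := by
      intro A hA
      obtain ⟨g, rfl⟩ := hcl A₀ hA₀ A hA
      exact not_isolated_cb hS hA₀ hni₀ g
    have e1 : ∀ {X Y : Subgroup G}, X ∈ S → Y ∈ S → IsRankOnePair X Y → Relation.ReflTransGen (FAdj S) X Y :=
      fun hX hY h => Relation.ReflTransGen.single ⟨hX, hY, h⟩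
    let P : G → Prop := fun g => ∀ A ∈ S, Relation.ReflTransGen (FAdj S) A (conjBy A g)
    have hP : ∀ T ∈ S, ∀ e ∈ T, P e := by
      intro T hT e he A hA
      by_cases hc : ⁅A, T⁆ = ⊥
      · rw [cb_of_commute fun a ha => (commute_cb_right hc ha he).symm]
      have hA' := hS.conj_mem A hA e
      by_cases hR : IsRankOnePair A T
      · have hR' : IsRankOnePair (conjBy A e) T := by
          have := rankOne_cb hR e
          rwa [cb_of_mem he] at this
        exact (e1 hA hT hR).trans (e1 hT hA' (RankOnePair_symm hR'))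
      have hcase := pair_case hS hA hT hR hc
      obtain ⟨F, hF, hAF⟩ := exists_partner hS hA (hni A hA)
      have heC : conjBy ⁅A, T⁆ e = ⁅A, T⁆ := cb_of_commute fun x hx =>
        (case_comm hcase hx (le_sup_right (α := Subgroup G) he)).symm
      by_cases hCF : IsRankOnePair ⁅A, T⁆ F
      · have hp : Relation.ReflTransGen (FAdj S) A ⁅A, T⁆ :=
          (e1 hA hF hAF).trans (e1 hF hcase.1 (RankOnePair_symm hCF))
        have hp' : Relation.ReflTransGen (FAdj S) ⁅A, T⁆ (conjBy A e) := by
          rw [← heC]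
          exact (e1 (hS.conj_mem _ hcase.1 e) (hS.conj_mem _ hF e) (rankOne_cb hCF e)).trans
            (e1 (hS.conj_mem _ hF e) hA' (RankOnePair_symm (rankOne_cb hAF e)))
        exact hp.trans hp'
      · obtain ⟨a, ha, ha1⟩ := exists_ne_one hAF
        have hac : a * ⁅a⁻¹, e⁆ ∈ conjBy A e := by
          have := cb_mem e ha
          simpa [commutatorElement_def, mul_assoc] using this
        have hR' := mixed_partner hS hcase.1 hA' hF hAF hCF (bot_symm (case_comm_left hcase)) ha ha1
          (Subgroup.commutator_mem_commutator (inv_mem ha) he) hac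
        exact (e1 hA hF hAF).trans (e1 hF hA' (RankOnePair_symm hR'))
    have hall : ∀ g, P g := by
      intro g
      have hg : g ∈ ⨆ T ∈ S, T := hS.generates ▸ Subgroup.mem_top g
      rw [show (⨆ T ∈ S, T) = ⨆ T : {T // T ∈ S}, (T : Subgroup G) from iSup_subtype'] at hg
      refine Subgroup.iSup_induction (C := P) _ hg (fun T e he => hP T.1 T.2 e he) ?_ ?_
      · intro A _; rw [cb_one]
      · intro x y hx hy A hA
        rw [← cb_cb]
        exact (hy A hA).trans (hx _ (hS.conj_mem A hA y))
    intro A hA B hB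
    obtain ⟨g, rfl⟩ := hcl A hA B hB
    exact hall g A hA

end Cfsg.Agent.S5032
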