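import Cfsg.Statements.S5036
import Cfsg.Agent.Fischer.RootLine
import Cfsg.Agent.Fischer.RootMember

set_option autoImplicit false
open Cfsg Cfsg.Agent.Fischer
open scoped commutatorElement

namespace Cfsg.Agent.S5036

/-- Let S be a set of abstract root subgroups of G, A, B ∈ S with C = ⁅A, B⁆ ∈ S, and D ∈ S with ⁅D, C⁆ = A. Put X = ⟨B, D⟩ and N = AC. Then B, D form a rank one pair; the conjugates of A under X are the conjugates of C under X, namely the conjugates of A by elements of B together with C, equally the conjugates of C by elements of D together with A, and they partition N; and the centralizer of N in X is central in X. -/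
theorem result {G : Type*} [Group G] {S : Set (Subgroup G)} (hS : Cfsg.IsRootSubgroupSet S)
    {A B D : Subgroup G} (hA : A ∈ S) (hB : B ∈ S) (hC : ⁅A, B⁆ ∈ S) (hD : D ∈ S) (hDC : ⁅D, ⁅A, B⁆⁆ = A) :
    Cfsg.IsRankOnePair B D ∧
    {E | ∃ x ∈ B ⊔ D, E = Cfsg.conjBy A x} = {E | ∃ x ∈ B ⊔ D, E = Cfsg.conjBy ⁅A, B⁆ x} ∧
    {E | ∃ x ∈ B ⊔ D, E = Cfsg.conjBy A x} = (fun b : G => Cfsg.conjBy A b) '' (B : Set G) ∪ {⁅A, B⁆} ∧
    {E | ∃ x ∈ B ⊔ D, E = Cfsg.conjBy A x} = (fun d : G => Cfsg.conjBy ⁅A, B⁆ d) '' (D : Set G) ∪ {A} ∧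
    Cfsg.IsSubgroupPartition (A ⊔ ⁅A, B⁆) {E | ∃ x ∈ B ⊔ D, E = Cfsg.conjBy A x} ∧
    ∀ x ∈ (B ⊔ D) ⊓ Subgroup.centralizer ((A ⊔ ⁅A, B⁆ : Subgroup G) : Set G), ∀ y ∈ B ⊔ D, x * y = y * x := by
  set C := ⁅A, B⁆ with hCdef
  set M := A ⊔ C with hMdef
  have hAB : RootCommutatorCase S A B := case_of_member hS hA hB hC
  have hDCeq : ⁅D, C⁆ = A := hDC
  have hDC : RootCommutatorCase S D C := case_of_member hS hD hC (hDCeq.symm ▸ hA)
  have hAC : ⁅A, C⁆ = ⊥ := bot_symm (case_comm_left hAB)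
  have hCB : ∀ c ∈ C, ∀ b ∈ B, c * b = b * c := fun c hc b hb =>
    case_comm hAB hc (le_sup_right (α := Subgroup G) hb)
  have hAD : ∀ a ∈ A, ∀ d ∈ D, a * d = d * a := fun a ha d hd =>
    case_comm hDC (by rwa [hDCeq]) (le_sup_left (α := Subgroup G) hd)
  have hkA : ∀ a ∈ A, (∀ b ∈ B, a * b = b * a) → a = 1 := by
    intro a ha h
    by_contra ha1
    refine hS.ne_bot C hC ?_
    rw [eq_bot_iff]
    intro c hc
    obtain ⟨b, hb, rfl⟩ := case_surj hAB ha ha1 hc
    exact Subgroup.mem_bot.2 (commutatorElement_eq_one_iff_mul_comm.2 (h b hb))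
  have hkC : ∀ c ∈ C, (∀ d ∈ D, c * d = d * c) → c = 1 := by
    intro c hc h
    by_contra hc1
    refine hS.ne_bot A hA ?_
    rw [eq_bot_iff]
    intro a ha
    obtain ⟨d, hd, e⟩ := case_surj (case_symm hDC) hc hc1 (show a ∈ ⁅C, D⁆ by
      rwa [Subgroup.commutator_comm, hDCeq])
    rw [← e]
    exact Subgroup.mem_bot.2 (commutatorElement_eq_one_iff_mul_comm.2 (h d hd))
  have hkB : ∀ b ∈ B, (∀ a ∈ A, a * b = b * a) → b = 1 := by
    intro b hb h
    by_contra hb1
    refine hS.ne_bot C hC ?_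
    rw [eq_bot_iff]
    intro c hc
    obtain ⟨a, ha, e⟩ := case_surj (case_symm hAB) hb hb1 (show c ∈ ⁅B, A⁆ by rwa [Subgroup.commutator_comm])
    rw [← e]
    exact Subgroup.mem_bot.2 (commutatorElement_eq_one_iff_mul_comm.2 (h a ha).symm)
  have hkD : ∀ d ∈ D, (∀ c ∈ C, c * d = d * c) → d = 1 := by
    intro d hd h
    by_contra hd1
    refine hS.ne_bot A hA ?_
    rw [eq_bot_iff]
    intro a ha
    obtain ⟨c, hc, e⟩ := case_surj hDC hd hd1 (show a ∈ ⁅D, C⁆ by rwa [hDCeq])
    rw [← e]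
    exact Subgroup.mem_bot.2 (commutatorElement_eq_one_iff_mul_comm.2 (h c hc).symm)
  have hinter : ∀ x, x ∈ A → x ∈ C → x = 1 := fun x hxA hxC => hkA x hxA (hCB x hxC)
  have hMB : ∀ m ∈ M, (∀ b ∈ B, m * b = b * m) → m ∈ C := by
    intro m hm h
    obtain ⟨a, ha, c, hc, rfl⟩ := mem_sup_comm hAC hm
    have : a = 1 := hkA a ha fun b hb => by
      have := ((show Commute (a * c) b from h b hb).mul_left
        (show Commute c b from hCB c hc b hb).inv_left).eq
      simpa using this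
    rw [this, one_mul]; exact hc
  have hMD : ∀ m ∈ M, (∀ d ∈ D, m * d = d * m) → m ∈ A := by
    intro m hm h
    obtain ⟨a, ha, c, hc, rfl⟩ := mem_sup_comm hAC hm
    have : c = 1 := hkC c hc fun d hd => by
      have := ((show Commute a d from hAD a ha d hd).inv_left.mul_left
        (show Commute (a * c) d from h d hd)).eq
      simpa [mul_assoc] using this
    rw [this, mul_one]; exact ha
  have hBn : ∀ b ∈ B, b ∈ Subgroup.normalizer (M : Set G) := by
    intro b hb
    have h1 : ∀ b ∈ B, conjBy A b ≤ M := fun b hb => by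
      have := case_cb_le (case_symm hAB) hb
      rwa [Subgroup.commutator_comm B A] at this
    have h2 : ∀ b ∈ B, conjBy C b ≤ M := fun b hb =>
      (cb_of_commute fun c hc => (hCB c hc b hb).symm).le.trans le_sup_right
    exact cb_sup_fix (h1 b hb) (h2 b hb) (h1 _ (inv_mem hb)) (h2 _ (inv_mem hb))
  have hDn : ∀ d ∈ D, d ∈ Subgroup.normalizer (M : Set G) := by
    intro d hd
    have h1 : ∀ d ∈ D, conjBy C d ≤ M := fun d hd => by
      have := case_cb_le hDC hd
      rwa [hDCeq, sup_comm] at this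
    have h2 : ∀ d ∈ D, conjBy A d ≤ M := fun d hd =>
      (cb_of_commute fun a ha => (hAD a ha d hd).symm).le.trans le_sup_left
    exact cb_sup_fix (h2 d hd) (h1 d hd) (h2 _ (inv_mem hd)) (h1 _ (inv_mem hd))
  have hXn : B ⊔ D ≤ Subgroup.normalizer (M : Set G) := sup_le hBn hDn
  have hR : IsRankOnePair B D := by
    by_contra hn
    obtain ⟨d, hd, hd1⟩ := exists_mem_ne_one hS hD
    obtain ⟨b, hb, hb1⟩ := exists_mem_ne_one hS hB
    have hcentral : ∀ x ∈ B, ⁅b, d⁆ * x = x * ⁅b, d⁆ := by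
      intro x hx
      by_cases hc : ⁅B, D⁆ = ⊥
      · rw [commutatorElement_eq_one_iff_mul_comm.2 (commute_cb_right hc hb hd)]; simp
      · exact case_comm (pair_case hS hB hD hn hc) (Subgroup.commutator_mem_commutator hb hd)
          (le_sup_left (α := Subgroup G) hx)
    refine hd1 (hkD d hd fun γ hγ => ?_)
    obtain ⟨α, hα, hαe⟩ := case_surj (case_symm hAB) (inv_mem hb) (by simpa using hb1)
      (show γ ∈ ⁅B, A⁆ by rwa [Subgroup.commutator_comm])
    obtain ⟨c, hc, hce⟩ := case_surj hDC (inv_mem hd) (by simpa using hd1)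
      (show α ∈ ⁅D, C⁆ by rwa [hDCeq])
    have hδ : ⁅d, c⁆ = α⁻¹ := by
      calc ⁅d, c⁆ = (d * ⁅d⁻¹, c⁆ * d⁻¹)⁻¹ := by rw [commutatorElement_def, commutatorElement_def]; group
        _ = (α * d * d⁻¹)⁻¹ := by rw [hce, hAD α hα d hd]
        _ = α⁻¹ := by rw [mul_inv_cancel_right]
    set ε := ⁅d, γ⁆ with hεdef
    have hε : ε ∈ A := by
      have := Subgroup.commutator_mem_commutator hd hγ
      rwa [hDCeq] at this
    set h := ⁅b, d⁆ with hhdef
    have hcomp : h * c * h⁻¹ = ⁅b, ε⁆ * ε * γ * c := by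
      have k1 : b⁻¹ * (⁅d⁻¹, c⁆ * c) * b = γ * α * c := by
        rw [hce, ← hαe, commutatorElement_def]
        have := (hCB c hc b hb)
        calc b⁻¹ * (α * c) * b = b⁻¹ * α * (c * b) := by group
          _ = b⁻¹ * α * (b * c) := by rw [this]
          _ = b⁻¹ * α * b⁻¹⁻¹ * α⁻¹ * α * c := by group
      have k2 : d * (γ * α * c) * d⁻¹ = ε * γ * c := by
        have hα' := hAD α hα d hd
        calc d * (γ * α * c) * d⁻¹ = (d * γ * d⁻¹) * (d * α * d⁻¹) * (d * c * d⁻¹) := by group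
          _ = (ε * γ) * α * (⁅d, c⁆ * c) := by
              rw [← hα', hεdef, commutatorElement_def, commutatorElement_def]; group
          _ = ε * γ * c := by rw [hδ]; group
      have k3 : b * (ε * γ * c) * b⁻¹ = ⁅b, ε⁆ * ε * γ * c := by
        have h1 : (γ * c) * b⁻¹ = b⁻¹ * (γ * c) :=
          hCB _ (mul_mem hγ hc) _ (inv_mem hb)
        calc b * (ε * γ * c) * b⁻¹ = b * ε * ((γ * c) * b⁻¹) := by group
          _ = b * ε * (b⁻¹ * (γ * c)) := by rw [h1]
          _ = ⁅b, ε⁆ * ε * γ * c := by rw [commutatorElement_def]; group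
      rw [← k3, ← k2, ← k1, hhdef, commutatorElement_def, commutatorElement_def]
      group
    have hmC : h * c * h⁻¹ ∈ C := by
      refine hMB _ ?_ fun x hx => ?_
      · have : h ∈ B ⊔ D := by
          rw [hhdef, commutatorElement_def]
          exact mul_mem (mul_mem (mul_mem (le_sup_left (α := Subgroup G) hb) (le_sup_right (α := Subgroup G) hd))
            (inv_mem (le_sup_left (α := Subgroup G) hb))) (inv_mem (le_sup_right (α := Subgroup G) hd))
        exact (Subgroup.mem_normalizer_iff.1 (hXn this) c).1 (le_sup_right (α := Subgroup G) hc)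
      · exact (((show Commute h x from hcentral x hx).mul_left (show Commute c x from hCB c hc x hx)).mul_left
          (show Commute h x from hcentral x hx).inv_left).eq
    rw [hcomp] at hmC
    have hbe : ⁅b, ε⁆ ∈ C := by
      rw [hCdef, Subgroup.commutator_comm]; exact Subgroup.commutator_mem_commutator hb hε
    have : ε ∈ C := by
      have h2 := mul_mem (inv_mem hbe) (mul_mem (mul_mem hmC (inv_mem hc)) (inv_mem hγ))
      have h3 : ⁅b, ε⁆⁻¹ * (⁅b, ε⁆ * ε * γ * c * c⁻¹ * γ⁻¹) = ε := by group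
      rwa [h3] at h2
    exact (commutatorElement_eq_one_iff_mul_comm.1 (hinter ε hε this)).symm
  have hfixC : ∀ x ∈ B ⊔ D, ∀ m, m ∈ conjBy C x ↔ (m ∈ M ∧ ∀ y ∈ conjBy B x, m * y = y * m) := by
    intro x hx m
    rw [mem_cb]
    constructor
    · intro h
      refine ⟨?_, fun y hy => ?_⟩
      · have := (Subgroup.mem_normalizer_iff.1 (hXn hx) _).1 (le_sup_right (α := Subgroup G) h : _ ∈ M)
        simpa [mul_assoc] using this
      · rw [mem_cb] at hy
        have := congrArg (fun t => x * t * x⁻¹) (hCB _ h _ hy)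
        simpa [mul_assoc] using this
    · rintro ⟨hm, h⟩
      refine hMB _ ?_ fun b hb => ?_
      · have := (Subgroup.mem_normalizer_iff.1 (hXn (inv_mem hx)) m).1 hm
        simpa using this
      · have := congrArg (fun t => x⁻¹ * t * x) (h _ (cb_mem x hb))
        simpa [mul_assoc] using this
  have hfixA : ∀ x ∈ B ⊔ D, ∀ m, m ∈ conjBy A x ↔ (m ∈ M ∧ ∀ y ∈ conjBy D x, m * y = y * m) := by
    intro x hx m
    rw [mem_cb]
    constructor
    · intro h
      refine ⟨?_, fun y hy => ?_⟩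
      · have := (Subgroup.mem_normalizer_iff.1 (hXn hx) _).1 (le_sup_left (α := Subgroup G) h : _ ∈ M)
        simpa [mul_assoc] using this
      · rw [mem_cb] at hy
        have := congrArg (fun t => x * t * x⁻¹) (hAD _ h _ hy)
        simpa [mul_assoc] using this
    · rintro ⟨hm, h⟩
      refine hMD _ ?_ fun d hd => ?_
      · have := (Subgroup.mem_normalizer_iff.1 (hXn (inv_mem hx)) m).1 hm
        simpa using this
      · have := congrArg (fun t => x⁻¹ * t * x) (h _ (cb_mem x hd))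
        simpa [mul_assoc] using this
  have hswap : ∀ {x y : G}, x ∈ B ⊔ D → y ∈ B ⊔ D → conjBy B x = conjBy D y → conjBy C x = conjBy A y := by
    intro x y hx hy e
    ext m
    rw [hfixC x hx, hfixA y hy, e]
  have hcbC : ∀ b ∈ B, conjBy C b = C := fun b hb => cb_of_commute fun c hc => (hCB c hc b hb).symm
  have hcbA : ∀ d ∈ D, conjBy A d = A := fun d hd => cb_of_commute fun a ha => (hAD a ha d hd).symm
  have hBA : ∀ b ∈ B, b ≠ 1 → ∃ d ∈ D, d ≠ 1 ∧ conjBy A b = conjBy C d := by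
    intro b hb hb1
    obtain ⟨d, hd, hd1, e⟩ := hR.cond_left b⁻¹ (inv_mem hb) (by simpa using hb1)
    rw [inv_inv] at e
    exact ⟨d⁻¹, inv_mem hd, by simpa using hd1,
      (hswap (le_sup_right (α := Subgroup G) (inv_mem hd)) (le_sup_left (α := Subgroup G) hb) e).symm⟩
  have hDA : ∀ d ∈ D, d ≠ 1 → ∃ b ∈ B, b ≠ 1 ∧ conjBy C d = conjBy A b := by
    intro d hd hd1
    obtain ⟨b, hb, hb1, e⟩ := hR.cond_right d⁻¹ (inv_mem hd) (by simpa using hd1)
    rw [inv_inv] at e
    exact ⟨b⁻¹, inv_mem hb, by simpa using hb1,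
      hswap (le_sup_right (α := Subgroup G) hd) (le_sup_left (α := Subgroup G) (inv_mem hb)) e.symm⟩
  set T1 := (fun b : G => conjBy A b) '' (B : Set G) ∪ {C} with hT1
  set T2 := (fun d : G => conjBy C d) '' (D : Set G) ∪ {A} with hT2
  have h12 : T1 = T2 := by
    ext E
    constructor
    · rintro (⟨b, hb, rfl⟩ | rfl)
      · by_cases hb1 : b = 1
        · exact Or.inr (by simp [hb1])
        · obtain ⟨d, hd, -, e⟩ := hBA b hb hb1
          exact Or.inl ⟨d, hd, e.symm⟩
      · exact Or.inl ⟨1, one_mem _, by simp⟩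
    · rintro (⟨d, hd, rfl⟩ | rfl)
      · by_cases hd1 : d = 1
        · exact Or.inr (by simp [hd1])
        · obtain ⟨b, hb, -, e⟩ := hDA d hd hd1
          exact Or.inl ⟨b, hb, e.symm⟩
      · exact Or.inl ⟨1, one_mem _, by simp⟩
  have hclosed : ∀ x ∈ B ⊔ D, ∀ E ∈ T1, conjBy E x ∈ T1 := by
    intro x hx
    rw [← Subgroup.closure_eq B, ← Subgroup.closure_eq D, ← Subgroup.closure_union] at hx
    have hb : ∀ y ∈ B, ∀ E ∈ T1, conjBy E y ∈ T1 := by
      rintro y hy E (⟨b, hb, rfl⟩ | rfl)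
      · exact Or.inl ⟨y * b, mul_mem hy hb, (cb_cb _ _ _).symm⟩
      · exact Or.inr (hcbC y hy)
    have hd : ∀ y ∈ D, ∀ E ∈ T1, conjBy E y ∈ T1 := by
      intro y hy E hE
      rw [h12] at hE ⊢
      rcases hE with ⟨d, hd, rfl⟩ | rfl
      · exact Or.inl ⟨y * d, mul_mem hy hd, (cb_cb _ _ _).symm⟩
      · exact Or.inr (hcbA y hy)
    refine Subgroup.closure_induction'' (p := fun x _ => ∀ E ∈ T1, conjBy E x ∈ T1) ?_ ?_ ?_ ?_ hx
    · rintro y (hy | hy)
      · exact hb y hy
      · exact hd y hy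
    · rintro y (hy | hy)
      · exact hb _ (inv_mem hy)
      · exact hd _ (inv_mem hy)
    · intro E hE; simpa using hE
    · intro y z _ _ ihy ihz E hE; rw [← cb_cb]; exact ihy _ (ihz E hE)
  obtain ⟨w, hw, hwC⟩ : ∃ w ∈ B ⊔ D, C = conjBy A w := by
    obtain ⟨b, hb, hb1⟩ := exists_mem_ne_one hS hB
    obtain ⟨d, hd, -, e⟩ := hBA b hb hb1
    exact ⟨d⁻¹ * b, mul_mem (le_sup_right (α := Subgroup G) (inv_mem hd)) (le_sup_left (α := Subgroup G) hb),
      by rw [← cb_cb, e, cb_cb]; simp⟩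
  have horb : {E | ∃ x ∈ B ⊔ D, E = conjBy A x} = T1 := by
    ext E
    constructor
    · rintro ⟨x, hx, rfl⟩
      exact hclosed x hx A (Or.inl ⟨1, one_mem _, by simp⟩)
    · rintro (⟨b, hb, rfl⟩ | rfl)
      · exact ⟨b, le_sup_left (α := Subgroup G) hb, rfl⟩
      · exact ⟨w, hw, hwC⟩
  have hdisjC : ∀ b ∈ B, conjBy A b ⊓ C = ⊥ := by
    intro b hb
    rw [Subgroup.eq_bot_iff_forall]
    rintro y ⟨hy, hyC⟩
    have hy' : y ∈ conjBy C b := by rw [hcbC b hb]; exact hyC
    replace hy := mem_cb.1 hy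
    replace hy' := mem_cb.1 hy'
    have := hinter _ hy hy'
    simpa [mul_assoc, mul_inv_eq_one, inv_mul_eq_one] using this
  have hAneC : A ≠ C := by
    intro e
    obtain ⟨a, ha, ha1⟩ := exists_mem_ne_one hS hA
    exact ha1 (hinter a ha (e ▸ ha))
  refine ⟨hR, ?_, horb, horb.trans h12, ?_, ?_⟩
  · ext E
    constructor
    · rintro ⟨x, hx, rfl⟩
      exact ⟨x * w⁻¹, mul_mem hx (inv_mem hw), by rw [hwC, cb_cb]; simp⟩
    · rintro ⟨x, hx, rfl⟩
      exact ⟨x * w, mul_mem hx hw, by rw [hwC, cb_cb]⟩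
  · rw [horb]
    refine ⟨?_, ?_, ?_⟩
    · rintro E (⟨b, hb, rfl⟩ | rfl)
      · exact (Subgroup.map_mono le_sup_left).trans (cb_eq_self.2 (hBn b hb)).le
      · exact le_sup_right
    · intro x hx hx1
      obtain ⟨a, ha, c, hc, rfl⟩ := mem_sup_comm hAC hx
      by_cases ha1 : a = 1
      · exact ⟨C, Or.inr rfl, by rw [ha1, one_mul]; exact hc⟩
      · obtain ⟨b, hb, e⟩ := case_surj hAB ha ha1 (inv_mem hc)
        refine ⟨conjBy A b, Or.inl ⟨b, hb, rfl⟩, ?_⟩
        have he : c = ⁅b, a⁆ := by rw [← commutatorElement_inv, e, inv_inv]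
        rw [commute_cb_right hAC ha hc, he, commutatorElement_def, inv_mul_cancel_right]
        exact cb_mem b ha
    · rintro T hT U hU hTU
      rcases hT with ⟨b, hb, rfl⟩ | rfl
      · rcases hU with ⟨b', hb', rfl⟩ | rfl
        · dsimp only at hTU ⊢
          have hb1 : b⁻¹ * b' ≠ 1 := fun e => hTU (by rw [inv_mul_eq_one.1 e])
          obtain ⟨d, hd, -, e⟩ := hBA _ (mul_mem (inv_mem hb) hb') hb1
          rw [Subgroup.eq_bot_iff_forall]
          rintro y ⟨hy, hy'⟩
          replace hy := mem_cb.1 hy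
          have hy'' : b⁻¹ * y * b ∈ conjBy C d := by
            rw [← e, ← cb_cb, mem_cb]; simpa [mul_assoc] using hy'
          rw [← hcbA d hd] at hy
          replace hy := mem_cb.1 hy
          replace hy'' := mem_cb.1 hy''
          have h := congrArg (fun t => b * d * t * d⁻¹ * b⁻¹) (hinter _ hy hy'')
          simpa [mul_assoc] using h
        · exact hdisjC b hb
      · rcases hU with ⟨b', hb', rfl⟩ | rfl
        · rw [inf_comm]; exact hdisjC b' hb'
        · exact absurd rfl hTU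
  · rintro x ⟨hx, hxM⟩
    have hxm : ∀ m ∈ M, x * m = m * x := fun m hm => (Subgroup.mem_centralizer_iff.1 hxM m hm).symm
    have hxA : conjBy A x = A := cb_of_commute fun a ha => hxm a (le_sup_left (α := Subgroup G) ha)
    have hxC : conjBy C x = C := cb_of_commute fun c hc => hxm c (le_sup_right (α := Subgroup G) hc)
    have hxB : conjBy B x = B := by
      by_contra hne
      obtain ⟨b, hb, e⟩ := right_of_ne hR (unipotent_conj self_mem hx) hne
      have e2 := hswap hx (le_sup_left (α := Subgroup G) hb) e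
      rw [hxC] at e2
      obtain ⟨c, hc, hc1⟩ := exists_mem_ne_one hS hC
      exact hc1 ((Subgroup.eq_bot_iff_forall _).1 (hdisjC b hb) c ⟨e2 ▸ hc, hc⟩)
    have hxD : conjBy D x = D := by
      by_contra hne
      have hu := unipotent_conj (right_mem hR) hx
      rcases unipotent_cases (RankOnePair_symm hR) (by
        obtain ⟨y, hy, ey⟩ := hu
        obtain ⟨z, hz, ez⟩ := exists_conj (RankOnePair_symm hR)
        exact ⟨y * z, mul_mem (sup_comm B D ▸ hy) hz, by rw [ey, ← ez, cb_cb]⟩ :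
          conjBy D x ∈ unipotentSubgroups D B) with e | ⟨d, hd, e⟩
      · exact hne e
      · have e2 := hswap (le_sup_right (α := Subgroup G) hd) hx e.symm
        rw [hxA] at e2
        by_cases hd1 : d = 1
        · rw [hd1, cb_one] at e2; exact hAneC e2.symm
        obtain ⟨a, ha, ha1⟩ := exists_mem_ne_one hS hA
        have h5 : a ∈ conjBy C d := e2 ▸ ha
        rw [mem_cb] at h5
        have h6 : d⁻¹ * a * d ∈ A := by
          rw [← mem_cb, hcbA d hd]; exact ha
        have := hinter _ h6 h5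
        exact ha1 (by simpa [mul_assoc, mul_inv_eq_one, inv_mul_eq_one] using this)
    intro y hy
    have hY : B ⊔ D ≤ Subgroup.centralizer {x} := by
      refine sup_le ?_ ?_
      · intro b hb
        rw [Subgroup.mem_centralizer_singleton_iff]
        have := hkB (b⁻¹ * (x * b * x⁻¹)) (mul_mem (inv_mem hb) (hxB ▸ cb_mem x hb)) fun a ha => ?_
        · rw [inv_mul_eq_one, eq_mul_inv_iff_mul_eq] at this; exact this
        · have h1 : b * a * b⁻¹ ∈ M :=
            (Subgroup.mem_normalizer_iff.1 (hBn b hb) a).1 (le_sup_left (α := Subgroup G) ha)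
          have h2 : (x * b * x⁻¹) * a * (x * b * x⁻¹)⁻¹ = b * a * b⁻¹ := by
            have e1 := hxm a (le_sup_left (α := Subgroup G) ha)
            have e2 := hxm _ h1
            calc (x * b * x⁻¹) * a * (x * b * x⁻¹)⁻¹
                = x * b * (x⁻¹ * (a * x)) * b⁻¹ * x⁻¹ := by group
              _ = x * b * (x⁻¹ * (x * a)) * b⁻¹ * x⁻¹ := by rw [e1]
              _ = (x * (b * a * b⁻¹)) * x⁻¹ := by group
              _ = _ := by rw [e2]; group
          rw [mul_inv_eq_iff_eq_mul] at h2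
          calc a * (b⁻¹ * (x * b * x⁻¹)) = b⁻¹ * (b * a * b⁻¹ * (x * b * x⁻¹)) := by group
            _ = b⁻¹ * ((x * b * x⁻¹) * a) := by rw [h2]
            _ = b⁻¹ * (x * b * x⁻¹) * a := by group
      · intro d hd
        rw [Subgroup.mem_centralizer_singleton_iff]
        have := hkD (d⁻¹ * (x * d * x⁻¹)) (mul_mem (inv_mem hd) (hxD ▸ cb_mem x hd)) fun c hc => ?_
        · rw [inv_mul_eq_one, eq_mul_inv_iff_mul_eq] at this; exact this
        · have h1 : d * c * d⁻¹ ∈ M :=
            (Subgroup.mem_normalizer_iff.1 (hDn d hd) c).1 (le_sup_right (α := Subgroup G) hc)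
          have h2 : (x * d * x⁻¹) * c * (x * d * x⁻¹)⁻¹ = d * c * d⁻¹ := by
            have e1 := hxm c (le_sup_right (α := Subgroup G) hc)
            have e2 := hxm _ h1
            calc (x * d * x⁻¹) * c * (x * d * x⁻¹)⁻¹
                = x * d * (x⁻¹ * (c * x)) * d⁻¹ * x⁻¹ := by group
              _ = x * d * (x⁻¹ * (x * c)) * d⁻¹ * x⁻¹ := by rw [e1]
              _ = (x * (d * c * d⁻¹)) * x⁻¹ := by group
              _ = _ := by rw [e2]; group
          rw [mul_inv_eq_iff_eq_mul] at h2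
          calc c * (d⁻¹ * (x * d * x⁻¹)) = d⁻¹ * (d * c * d⁻¹ * (x * d * x⁻¹)) := by group
            _ = d⁻¹ * ((x * d * x⁻¹) * c) := by rw [h2]
            _ = d⁻¹ * (x * d * x⁻¹) * c := by group
    exact (Subgroup.mem_centralizer_singleton_iff.1 (hY hy)).symm

end Cfsg.Agent.S5036
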