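import Cfsg.Statements.S5038
import Cfsg.Agent.Fischer.RootLine

set_option autoImplicit false
open Cfsg Cfsg.Agent.Fischer
open scoped commutatorElement

namespace Cfsg.Agent.S5038

/-- Let S be a set of abstract root subgroups of G in which every member has a rank one partner, A ∈ S and B a line partner of A. Then the subgroup generated by the members of S normalizing AB permutes the members of S inside AB doubly transitively by conjugation. -/
theorem result {G : Type*} [Group G] {S : Set (Subgroup G)} (hS : Cfsg.IsRootSubgroupSet S)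
    (hF : ∀ A ∈ S, ¬ Cfsg.IsIsolatedIn (Cfsg.FAdj S) S A) {A B : Subgroup G} (hA : A ∈ S) (hB : B ∈ Cfsg.linePartners S A) :
    ∀ C₁ ∈ Cfsg.membersIn S (A ⊔ B), ∀ C₂ ∈ Cfsg.membersIn S (A ⊔ B), ∀ D₁ ∈ Cfsg.membersIn S (A ⊔ B),
      ∀ D₂ ∈ Cfsg.membersIn S (A ⊔ B), C₁ ≠ C₂ → D₁ ≠ D₂ →
        ∃ x ∈ ⨆ E ∈ Cfsg.normalizingMembers S (A ⊔ B), E, Cfsg.conjBy C₁ x = D₁ ∧ Cfsg.conjBy C₂ x = D₂ := by
  obtain ⟨⟨hBS, hBne, hAB⟩, -, hcov, -⟩ := hB
  intro C₁ h₁ C₂ h₂ D₁ h₃ D₂ h₄ hC hD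
  set L := A ⊔ B with hLdef
  set P := ⨆ T ∈ normalizingMembers S L, T with hPdef
  have hPn : P ≤ Subgroup.normalizer (L : Set G) := iSup₂_le fun T hT => hT.2
  have hmv : ∀ {M : Subgroup G} {x : G}, M ∈ membersIn S L → x ∈ P → conjBy M x ∈ membersIn S L := by
    intro M x hM hx
    refine ⟨hS.conj_mem M hM.1 x, ?_⟩
    rw [← cb_eq_self.2 (hPn hx)]
    exact Subgroup.map_mono hM.2
  obtain ⟨F, hF', hAF⟩ := exists_partner hS hA (hF A hA)
  obtain ⟨E, hE, hEA, hEF, hEmove⟩ := line_shift hS hA hBS hF' hAF hBne.symm hAB hcov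
  obtain ⟨F', hF'', hEF'⟩ := exists_partner hS hE.1 (hF E hE.1)
  obtain ⟨x₀, -, -, -, hLeq⟩ := hEmove A ⟨hA, le_sup_left⟩ (fun e => hEA e.symm)
  have hAE : ⁅E, A⁆ = ⊥ := line_commute hS hA hBS hAB hE.2 le_sup_left
  have hLeq' : E ⊔ A = L := by rw [sup_comm]; exact hLeq
  obtain ⟨E', hE', hE'E, hE'F, hE'move⟩ := line_shift hS hE.1 hA hF'' hEF' hEA hAE
    (by rw [hLeq']; exact hcov)
  rw [hLeq'] at hE' hE'move
  have trA : ∀ {M N : Subgroup G}, M ∈ membersIn S L → N ∈ membersIn S L → M ≠ E → N ≠ E →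
      ∃ x ∈ P, conjBy M x = N ∧ conjBy E x = E := by
    intro M N hM hN hME hNE
    obtain ⟨x, hx, rfl, hxE, -⟩ := hEmove M hM hME
    obtain ⟨y, hy, rfl, hyE, -⟩ := hEmove N hN hNE
    refine ⟨y * x⁻¹, mul_mem hy (inv_mem hx), by simp [cb_cb], ?_⟩
    rw [← cb_cb, show conjBy E x⁻¹ = E by rw [cb_eq_iff, inv_inv, hxE], hyE]
  have trE : ∀ {M N : Subgroup G}, M ∈ membersIn S L → N ∈ membersIn S L → M ≠ E' → N ≠ E' →
      ∃ x ∈ P, conjBy M x = N := by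
    intro M N hM hN hME hNE
    obtain ⟨x, hx, rfl, hxE, -⟩ := hE'move M hM hME
    obtain ⟨y, hy, rfl, hyE, -⟩ := hE'move N hN hNE
    exact ⟨y * x⁻¹, mul_mem hy (inv_mem hx), by simp [cb_cb]⟩
  have third : ∃ M ∈ membersIn S L, M ≠ E ∧ M ≠ E' := by
    by_cases hEA' : E' = A
    · obtain ⟨a, ha, ha1⟩ := exists_mem_ne_one hS hA
      obtain ⟨e, he, he1⟩ := exists_mem_ne_one hS hE.1
      have hae : a * e ≠ 1 := fun h => hEA (eq_of_inter hS hA (hF A hA) hE.1 ha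
        ((eq_inv_of_mul_eq_one_left h).symm ▸ inv_mem he) ha1).symm
      obtain ⟨M, hM, hm⟩ := hcov (a * e) (mul_mem (le_sup_left (α := Subgroup G) ha) (hE.2 he)) hae
      refine ⟨M, hM, ?_, ?_⟩
      · rintro rfl
        have : a ∈ M := by simpa using mul_mem hm (inv_mem he)
        exact hEA (eq_of_inter hS hA (hF A hA) hE.1 ha this ha1).symm
      · rintro rfl
        rw [hEA'] at hm
        have : e ∈ A := by simpa using mul_mem (inv_mem ha) hm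
        exact hEA (eq_of_inter hS hE.1 (hF E hE.1) hA he this he1)
    · exact ⟨A, ⟨hA, le_sup_left⟩, fun e => hEA e.symm, fun e => hEA' e.symm⟩
  have toE : ∀ {M : Subgroup G}, M ∈ membersIn S L → ∃ x ∈ P, conjBy M x = E := by
    intro M hM
    by_cases hME : M = E'
    · obtain ⟨N, hN, hNE, hNE'⟩ := third
      obtain ⟨x, hx, e, -⟩ := trA hM hN (hME ▸ hE'E) hNE
      obtain ⟨y, hy, e'⟩ := trE hN hE hNE' hE'E.symm
      exact ⟨y * x, mul_mem hy hx, by rw [← cb_cb, e, e']⟩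
    · exact trE hM hE hME hE'E.symm
  obtain ⟨x, hx, ex⟩ := toE h₁
  obtain ⟨y, hy, ey⟩ := toE h₃
  obtain ⟨z, hz, ez, ezE⟩ := trA (hmv h₂ hx) (hmv h₄ hy)
    (fun e => hC (cb_inj.1 (ex.trans e.symm))) (fun e => hD (cb_inj.1 (ey.trans e.symm)))
  refine ⟨y⁻¹ * z * x, mul_mem (mul_mem (inv_mem hy) hz) hx, ?_, ?_⟩
  · rw [← cb_cb, ex, ← cb_cb, ezE, cb_eq_iff, inv_inv, ey]
  · rw [← cb_cb, ← cb_cb, ez, cb_cb]; simp

end Cfsg.Agent.S5038
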