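import Cfsg.Statements.S0289
import Cfsg.Agent.Forms.QuadOrder

set_option autoImplicit false
open Cfsg

namespace Cfsg.Agent.S0289

/-- The hyperbolic quadratic form on F^(2m), m at least 1, has q^(2m-1) + q^m - q^(m-1) zeros (that is, (q^m - 1)(q^(m-1) + 1) non-zero isotropic vectors). -/
theorem result {F : Type*} [Field F] [Fintype F] {q : ℕ} (hF : Fintype.card F = q) (m : ℕ) (hm : 1 ≤ m) : Nat.card {v : Fin m ⊕ Fin m → F // Cfsg.quadFormPlus m F v = 0} = q ^ (2 * m - 1) + q ^ m - q ^ (m - 1) := by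
  obtain ⟨k, rfl⟩ : ∃ k, m = k + 1 := ⟨m - 1, by omega⟩
  have hq : 1 ≤ q := hF ▸ Fintype.card_pos
  rcases Forms.quadType_plus (k + 1) hF with h | h | h
  · set Z := Nat.card {v : Fin (k + 1) ⊕ Fin (k + 1) → F // Cfsg.quadFormPlus (k + 1) F v = 0}
    have h1 : Z + q ^ k = q ^ (2 * k + 1) + q ^ (k + 1) :=
      Nat.eq_of_mul_eq_mul_right (m := q) hq (calc (Z + q ^ k) * q = Z * q + q ^ (k + 1) := by ring
        _ = q ^ (2 * (k + 1)) + q ^ (k + 1 + 1) := h.2.1
        _ = (q ^ (2 * k + 1) + q ^ (k + 1)) * q := by ring)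
    simp only [Nat.add_sub_cancel, show 2 * (k + 1) - 1 = 2 * k + 1 by omega]
    omega
  · exact absurd h.1 (by norm_num)
  · exact absurd h.1 (by norm_num)

end Cfsg.Agent.S0289
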