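import Cfsg.Statements.S0290
import Cfsg.Agent.Forms.QuadOrder

set_option autoImplicit false
open Cfsg

namespace Cfsg.Agent.S0290

/-- The minus-type quadratic form on F^(2m), m at least 1, has q^(2m-1) + q^(m-1) - q^m zeros (that is, (q^m + 1)(q^(m-1) - 1) non-zero isotropic vectors). -/
theorem result {F : Type*} [Field F] [Fintype F] {q : ℕ} (hF : Fintype.card F = q) (m : ℕ) (hm : 1 ≤ m) (a b : F) (hab : ∀ z₁ z₂ : F, z₁ ^ 2 + a * z₁ * z₂ + b * z₂ ^ 2 = 0 → z₁ = 0 ∧ z₂ = 0) : Nat.card {v : (Fin (m - 1) ⊕ Fin (m - 1)) ⊕ Fin 2 → F // Cfsg.quadFormMinus (m - 1) F a b v = 0} = q ^ (2 * m - 1) + q ^ (m - 1) - q ^ m := by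
  obtain ⟨k, rfl⟩ : ∃ k, m = k + 1 := ⟨m - 1, by omega⟩
  have hq : 1 ≤ q := hF ▸ Fintype.card_pos
  rcases Forms.quadType_minus k hF a b hab with h | h | h
  · exact absurd h.1 (by norm_num)
  · exact absurd h.1 (by norm_num)
  · change Nat.card {v : (Fin k ⊕ Fin k) ⊕ Fin 2 → F // Cfsg.quadFormMinus k F a b v = 0} =
      q ^ (2 * (k + 1) - 1) + q ^ k - q ^ (k + 1)
    set Z := Nat.card {v : (Fin k ⊕ Fin k) ⊕ Fin 2 → F // Cfsg.quadFormMinus k F a b v = 0}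
    have h1 : Z + q ^ (k + 1) = q ^ (2 * k + 1) + q ^ k :=
      Nat.eq_of_mul_eq_mul_right (m := q) hq (calc (Z + q ^ (k + 1)) * q = Z * q + q ^ (k + 2) := by ring
        _ = q ^ (2 * (k + 1)) + q ^ (k + 1) := h.2.1
        _ = (q ^ (2 * k + 1) + q ^ k) * q := by ring)
    simp only [show 2 * (k + 1) - 1 = 2 * k + 1 by omega]
    omega

end Cfsg.Agent.S0290
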