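import Cfsg.Statements.S1059
import Cfsg.Agent.Chev.OrdersByType
-- import your own Cfsg.Agent.* helpers here

set_option autoImplicit false
open Cfsg

namespace Cfsg.Agent.S1059

/-- `|G₂(q)| = q⁶ (q² - 1)(q⁶ - 1)`. -/
theorem result {F : Type*} [Field F] [Fintype F] {q : ℕ} (hq : Fintype.card F = q) : Nat.card ↥(Cfsg.Lie.chevG2.group F) = q ^ 6 * (q ^ 2 - 1) * (q ^ 6 - 1) := by
  exact Cfsg.Agent.Chev.orderG2 hq

end Cfsg.Agent.S1059
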