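import Cfsg.Statements.S0093
import Cfsg.Agent.FGS3.PGroupFrattini
import Cfsg.Agent.OddLocal.NilBasics

set_option autoImplicit false
open scoped commutatorElement
open Cfsg

namespace Cfsg.Agent.S0093

/-- Every finite p-group has a critical subgroup: a characteristic subgroup H whose Frattini subgroup and whose commutator with the whole group lie in the centre of H, and whose centralizer is contained in H. -/
theorem result {P : Type*} [Group P] [Finite P] {p : ℕ} [Fact p.Prime] (hP : IsPGroup p P) : ∃ H : Subgroup P, H.Characteristic ∧ (frattini H).map H.subtype ≤ Subgroup.centralizer (H : Set P) ∧ ⁅H, (⊤ : Subgroup P)⁆ ≤ H ⊓ Subgroup.centralizer (H : Set P) ∧ Subgroup.centralizer (H : Set P) ≤ H := by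
  classical
  have hp : p.Prime := Fact.out
  obtain ⟨D, ⟨hDc, hDab⟩, hDmax⟩ :=
    (Set.toFinite {D : Subgroup P | D.Characteristic ∧ IsMulCommutative D}).exists_maximal
      ⟨⊥, (inferInstance : (⊥ : Subgroup P).Characteristic),
        (⟨⟨fun a b => Subsingleton.elim _ _⟩⟩ : IsMulCommutative (⊥ : Subgroup P))⟩
  haveI := hDc
  let mk := QuotientGroup.mk' D
  -- elements central modulo `D`
  let Q₁ : Subgroup P := (Subgroup.center (P ⧸ D)).comap mk
  have hQ₁ : ∀ x, x ∈ Q₁ ↔ ∀ g : P, ⁅x, g⁆ ∈ D := by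
    intro x
    show mk x ∈ Subgroup.center (P ⧸ D) ↔ _
    rw [Subgroup.mem_center_iff]
    constructor
    · intro h g
      rw [← QuotientGroup.eq_one_iff, ← QuotientGroup.mk'_apply, map_commutatorElement,
        commutatorElement_eq_one_iff_mul_comm]
      exact (h (mk g)).symm
    · intro h q
      obtain ⟨g, rfl⟩ := QuotientGroup.mk'_surjective D q
      have := h g
      rw [← QuotientGroup.eq_one_iff, ← QuotientGroup.mk'_apply, map_commutatorElement,
        commutatorElement_eq_one_iff_mul_comm] at this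
      exact this.symm
  let H : Subgroup P :=
    { carrier := {x | x ∈ Q₁ ∧ x ^ p ∈ D ∧ x ∈ Subgroup.centralizer (D : Set P)}
      one_mem' := ⟨Q₁.one_mem, by simp, Subgroup.one_mem _⟩
      mul_mem' := fun {a b} ha hb => ⟨Q₁.mul_mem ha.1 hb.1, by
        have hc : Commute (mk a) (mk b) :=
          (Subgroup.mem_center_iff.mp (show mk a ∈ Subgroup.center _ from ha.1) (mk b)).symm
        have ha' : mk a ^ p = 1 := by rw [← map_pow]; exact (QuotientGroup.eq_one_iff _).mpr ha.2.1
        have hb' : mk b ^ p = 1 := by rw [← map_pow]; exact (QuotientGroup.eq_one_iff _).mpr hb.2.1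
        rw [← QuotientGroup.eq_one_iff, ← QuotientGroup.mk'_apply, map_pow, map_mul, hc.mul_pow, ha',
          hb', one_mul], Subgroup.mul_mem _ ha.2.2 hb.2.2⟩
      inv_mem' := fun {a} ha => ⟨Q₁.inv_mem ha.1, by rw [inv_pow]; exact D.inv_mem ha.2.1,
        Subgroup.inv_mem _ ha.2.2⟩ }
  haveI hHc : H.Characteristic := by
    rw [Subgroup.characteristic_iff_map_le]
    rintro φ _ ⟨x, ⟨h1, h2, h3⟩, rfl⟩
    have hD : ∀ d ∈ D, φ d ∈ D := fun d hd =>
      Subgroup.characteristic_iff_map_le.mp hDc φ ⟨d, hd, rfl⟩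
    have hD' : ∀ d ∈ D, φ.symm d ∈ D := fun d hd =>
      Subgroup.characteristic_iff_map_le.mp hDc φ.symm ⟨d, hd, rfl⟩
    refine ⟨(hQ₁ _).mpr fun g => ?_, ?_, ?_⟩
    · show ⁅φ x, g⁆ ∈ D
      rw [← φ.apply_symm_apply g, ← map_commutatorElement φ]
      exact hD _ ((hQ₁ x).mp h1 _)
    · show (φ x) ^ p ∈ D
      rw [← map_pow]; exact hD _ h2
    · refine Subgroup.mem_centralizer_iff.mpr fun d hd => ?_
      have := congrArg φ (Subgroup.mem_centralizer_iff.mp h3 _ (hD' d hd))
      simpa using this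
  have hDcomm : D ≤ Subgroup.centralizer (D : Set P) := Subgroup.le_centralizer_iff_isMulCommutative.mpr hDab
  have hDH : D ≤ H := fun d hd => ⟨(hQ₁ d).mpr fun g => by
    rw [commutatorElement_def, show d * g * d⁻¹ * g⁻¹ = d * (g * d⁻¹ * g⁻¹) by group]
    exact D.mul_mem hd ((inferInstance : D.Normal).conj_mem _ (D.inv_mem hd) g), D.pow_mem hd p, hDcomm hd⟩
  have hDCH : D ≤ Subgroup.centralizer (H : Set P) := fun d hd =>
    Subgroup.mem_centralizer_iff.mpr fun h hh => (Subgroup.mem_centralizer_iff.mp hh.2.2 d hd).symm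
  have hZH : H ⊓ Subgroup.centralizer (H : Set P) = D := by
    haveI : (Subgroup.centralizer (H : Set P)).Characteristic := inferInstance
    refine le_antisymm (hDmax ⟨?_, ⟨⟨fun a b => Subtype.ext
      ((Subgroup.mem_centralizer_iff.mp a.2.2 b b.2.1).symm)⟩⟩⟩ (le_inf hDH hDCH)) (le_inf hDH hDCH)
    rw [Subgroup.characteristic_iff_map_le]
    exact fun φ => (Subgroup.map_inf_le _ _ _).trans (inf_le_inf
      (Subgroup.characteristic_iff_map_le.mp hHc φ) (Subgroup.characteristic_iff_map_le.mp inferInstance φ))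
  refine ⟨H, hHc, ?_, ?_, ?_⟩
  · haveI : (D.subgroupOf H).Normal := inferInstance
    refine le_trans (Subgroup.map_mono (Cfsg.Agent.FGS3.frattini_le_of_elementary (p := p)
      (N := D.subgroupOf H) ?_ fun a => ?_)) ?_
    · rw [commutator_def, Subgroup.commutator_le]
      intro a _ b _
      show ((⁅a, b⁆ : H) : P) ∈ D
      exact (hQ₁ _).mp a.2.1 (b : P)
    · show ((a ^ p : H) : P) ∈ D
      exact a.2.2.1
    · rintro _ ⟨x, hx, rfl⟩
      exact hDCH hx
  · rw [hZH, Subgroup.commutator_le]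
    exact fun x hx g _ => (hQ₁ x).mp hx.1 g
  · by_contra hnot
    set C := Subgroup.centralizer (H : Set P) with hC
    haveI : (C.map mk).Normal := Subgroup.Normal.map inferInstance _ (QuotientGroup.mk'_surjective D)
    have hne : C.map mk ≠ ⊥ := fun h => hnot (by
      rw [Subgroup.map_eq_bot_iff, QuotientGroup.ker_mk'] at h
      exact h.trans hDH)
    haveI := (hP.to_quotient D).isNilpotent
    obtain ⟨w, hwC, hw1, hwc⟩ := Cfsg.Agent.OddLocal.exists_ne_one_mem_center_of_normal _ hne
    obtain ⟨k, hk⟩ := IsPGroup.iff_orderOf.mp (hP.to_quotient D) w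
    rcases k with _ | k
    · exact hw1 (orderOf_eq_one_iff.mp hk)
    obtain ⟨c, hc, hce⟩ := Subgroup.pow_mem _ hwC (p ^ k)
    have hcH : c ∈ H := by
      refine ⟨?_, ?_, ?_⟩
      · show mk c ∈ Subgroup.center _
        rw [hce]; exact Subgroup.pow_mem _ hwc _
      · rw [← QuotientGroup.eq_one_iff, ← QuotientGroup.mk'_apply, map_pow]
        show mk c ^ p = 1
        rw [hce, ← pow_mul, ← pow_succ, ← hk, pow_orderOf_eq_one]
      · exact Subgroup.mem_centralizer_iff.mpr fun d hd =>
          Subgroup.mem_centralizer_iff.mp hc d (hDH hd)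
    have hcD : c ∈ D := hZH ▸ ⟨hcH, hc⟩
    have h1 : w ^ p ^ k = 1 := by
      rw [← hce]; exact (QuotientGroup.eq_one_iff c).mpr hcD
    have h2 := orderOf_dvd_of_pow_eq_one h1
    rw [hk, Nat.pow_dvd_pow_iff_le_right hp.one_lt] at h2
    omega

end Cfsg.Agent.S0093
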