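import Cfsg.Statements.S0710
import Cfsg.Agent.PermGroups.PrimeSylow

set_option autoImplicit false
open Cfsg

namespace Cfsg.Agent.S0710

/-- No transitive permutation group on 13 points has order `13 * 12 * 11 * 10 * 9 * 8`. -/
theorem result {α : Type*} [Fintype α] [DecidableEq α] (hα : Fintype.card α = 13) (G : Subgroup (Equiv.Perm α)) [MulAction.IsPretransitive G α] : Nat.card G ≠ 13 * 12 * 11 * 10 * 9 * 8 := by
  intro hG
  have : Fact (Nat.Prime 13) := ⟨by norm_num⟩
  have P : Sylow 13 G := default
  obtain ⟨m, hm, hN⟩ := Cfsg.Agent.PermGroups.exists_natCard_normalizer hα G P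
  have hmod := card_sylow_modEq_one 13 G
  rw [P.card_eq_index_normalizer] at hmod
  have h1 := (Subgroup.normalizer ((P : Subgroup G) : Set G)).index_mul_card
  rw [hG, hN] at h1
  generalize (Subgroup.normalizer ((P : Subgroup G) : Set G)).index = i at hmod h1
  have hm' : m ≤ 12 := Nat.le_of_dvd (by norm_num) hm
  have hi : i * m = 95040 := by
    have h2 : 13 * (i * m) = 13 * 95040 := by rw [Nat.mul_left_comm]; exact h1.trans (by norm_num)
    omega
  unfold Nat.ModEq at hmod
  interval_cases m <;> omega

end Cfsg.Agent.S0710
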