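import Cfsg.Statements.S0744
import Cfsg.Agent.PermGroups.Transitivity
import Cfsg.Agent.PermGroups.DerangementIndex

set_option autoImplicit false
open Cfsg

namespace Cfsg.Agent.S0744

/-- If for some `k > 1` the pointwise stabilisers of all `(k-1)`-subsets have the same order `> 1` and those of all `k`-subsets have the same order, then the group is `(k-1)`-transitive. -/
theorem result {α : Type*} [Fintype α] [DecidableEq α] (G : Subgroup (Equiv.Perm α)) {k : ℕ} (hk : 1 < k) (hkn : k ≤ Fintype.card α) (l m : ℕ) (hl : 1 < l) (hkm1 : ∀ s : Finset α, s.card = k - 1 → Nat.card (fixingSubgroup G (s : Set α)) = l) (hkm : ∀ s : Finset α, s.card = k → Nat.card (fixingSubgroup G (s : Set α)) = m) : MulAction.IsMultiplyPretransitive G α (k - 1) := by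
  refine Cfsg.Agent.PermGroups.isMultiplyPretransitive_of_fixator (by omega) fun s hs a b ha hb => ?_
  classical
  set K : Subgroup G := fixingSubgroup G (s : Set α)
  have hins : ∀ x, x ∉ s → Nat.card (fixingSubgroup G (insert x (s : Set α))) = l := by
    intro x hx
    rw [← Finset.coe_insert]
    exact hkm1 _ (by rw [Finset.card_insert_of_notMem hx]; omega)
  have hins2 : ∀ x y, x ∉ s → y ∉ insert x s →
      Nat.card (fixingSubgroup G (insert y (insert x (s : Set α)))) = m := by
    intro x y hx hy
    rw [← Finset.coe_insert, ← Finset.coe_insert]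
    exact hkm _ (by rw [Finset.card_insert_of_notMem hy, Finset.card_insert_of_notMem hx]; omega)
  have horb : ∀ x, x ∉ s → Nat.card (MulAction.orbit K x) * l = Nat.card K := fun x hx => by
    rw [← hins x hx]
    exact Cfsg.Agent.PermGroups.natCard_orbit_mul_fixingSubgroup_insert _ x
  by_cases hmem : b ∈ MulAction.orbit K a
  · obtain ⟨⟨g, hg⟩, e⟩ := hmem
    exact ⟨g, fun x hx => (mem_fixingSubgroup_iff G).mp hg x hx, e⟩
  exfalso
  set L : Subgroup G := fixingSubgroup G (insert b (s : Set α))
  have hm : 0 < m := by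
    obtain ⟨t, -, ht⟩ := Finset.exists_subset_card_eq (s := (Finset.univ : Finset α))
      (show k ≤ _ by simpa using hkn)
    rw [← hkm t ht]
    exact Nat.card_pos
  have hL : ∀ y, y ∉ insert b s → Nat.card (MulAction.orbit L y) * m = l := fun y hy => by
    rw [← hins2 b y hb hy, ← hins b hb]
    exact Cfsg.Agent.PermGroups.natCard_orbit_mul_fixingSubgroup_insert _ y
  have hab : a ∉ insert b s := by
    simp only [Finset.mem_insert, not_or]
    exact ⟨fun e => hmem (e ▸ MulAction.mem_orbit_self a), ha⟩
  set e := Nat.card (MulAction.orbit L a) with he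
  have hconst : ∀ y, y ∉ insert b s → Nat.card (MulAction.orbit L y) = e := fun y hy =>
    Nat.eq_of_mul_eq_mul_right hm ((hL y hy).trans (hL a hab).symm)
  have he1 : e ≠ 1 := by
    intro h1
    have hsub : L = ⊥ := by
      rw [eq_bot_iff]
      intro g hg
      rw [Subgroup.mem_bot]
      apply Subtype.ext
      ext y
      by_cases hy : y ∈ insert b s
      · rw [← Finset.mem_coe, Finset.coe_insert] at hy
        exact (mem_fixingSubgroup_iff G).mp hg y hy
      · have : Subsingleton (MulAction.orbit L y) :=
          (Nat.card_eq_one_iff_unique.mp ((hconst y hy).trans h1)).1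
        exact congrArg Subtype.val (Subsingleton.elim
          (⟨(⟨g, hg⟩ : L) • y, MulAction.mem_orbit y _⟩ : MulAction.orbit L y)
          ⟨y, MulAction.mem_orbit_self y⟩)
    have := hins b hb
    change Nat.card L = l at this
    rw [hsub, Subgroup.card_bot] at this
    omega
  have hLK : L ≤ K := fun g hg => (mem_fixingSubgroup_iff G).mpr fun y hy =>
    (mem_fixingSubgroup_iff G).mp hg y (Set.mem_insert_of_mem b hy)
  have hinv : ∀ x : α, ∀ h : L, ∀ y ∈ MulAction.orbit K x, h • y ∈ MulAction.orbit K x := by
    rintro x ⟨h, hh⟩ _ ⟨g, rfl⟩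
    exact ⟨⟨h, hLK hh⟩ * g, mul_smul _ _ _⟩
  have hO : e ∣ Nat.card (MulAction.orbit K a) := by
    refine Cfsg.Agent.PermGroups.dvd_natCard_of_invariant (H := L) _ (hinv a) e fun y hy => ?_
    refine (hconst y ?_).symm.dvd
    simp only [Finset.mem_insert, not_or]
    exact ⟨fun eq => hmem (eq ▸ hy),
      fun h => Cfsg.Agent.PermGroups.orbit_fixingSubgroup_subset_compl
        (show a ∉ (s : Set α) by simpa using ha) hy (by simpa using h)⟩
  have hO' : e ∣ Nat.card ↑(MulAction.orbit K b \ {b}) := by
    refine Cfsg.Agent.PermGroups.dvd_natCard_of_invariant (H := L) _ ?_ e fun y hy => ?_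
    · rintro h y ⟨hy, hyb⟩
      refine ⟨hinv b h y hy, fun eq => hyb ?_⟩
      have hb' : h • b = b := (mem_fixingSubgroup_iff G).mp h.2 b (Set.mem_insert b _)
      exact smul_left_cancel h ((Set.mem_singleton_iff.mp eq).trans hb'.symm)
    · refine (hconst y ?_).symm.dvd
      simp only [Finset.mem_insert, not_or]
      exact ⟨hy.2, fun h => Cfsg.Agent.PermGroups.orbit_fixingSubgroup_subset_compl
        (show b ∉ (s : Set α) by simpa using hb) hy.1 (by simpa using h)⟩
  rw [Nat.card_coe_set_eq, Set.ncard_sdiff (by simp), Set.ncard_singleton,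
    ← Nat.card_coe_set_eq] at hO'
  have hpos : 0 < Nat.card (MulAction.orbit K b) := by
    have : Nonempty (MulAction.orbit K b) := ⟨⟨b, MulAction.mem_orbit_self b⟩⟩
    exact Nat.card_pos
  rw [Nat.eq_of_mul_eq_mul_right (by omega : 0 < l) ((horb a ha).trans (horb b hb).symm)] at hO
  have hone : e ∣ 1 := by
    have := Nat.dvd_sub hO hO'
    rwa [Nat.sub_sub_self (by omega : 1 ≤ Nat.card (MulAction.orbit K b))] at this
  exact he1 (Nat.dvd_one.mp hone)

end Cfsg.Agent.S0744
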