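import Cfsg.Statements.S4219
-- import your own Cfsg.Agent.* helpers here

set_option autoImplicit false
open Cfsg

namespace Cfsg.Agent.S4219

open scoped Pointwise


/-- Let a finite group `G` act `t`-fold transitively on a finite set, let `H` be the stabilizer of `t` distinct points and `P` a Sylow `p`-subgroup of `H`. Then the normalizer of `P` in `G` is `t`-fold transitive on the fixed points of `P`: any `t` distinct fixed points of `P` can be carried to any other `t` distinct fixed points of `P` by an element normalizing `P`. -/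
theorem result {G : Type*} [Group G] [Finite G] {α : Type*} [Fintype α] [MulAction G α] {t : ℕ} (hG : MulAction.IsMultiplyPretransitive G α t) (x : Fin t ↪ α) {p : ℕ} [Fact p.Prime] (P : Sylow p (MulAction.stabilizer G x)) (a b : Fin t ↪ α) (ha : ∀ i, a i ∈ MulAction.fixedPoints ((P : Subgroup (MulAction.stabilizer G x)).map (MulAction.stabilizer G x).subtype) α) (hb : ∀ i, b i ∈ MulAction.fixedPoints ((P : Subgroup (MulAction.stabilizer G x)).map (MulAction.stabilizer G x).subtype) α) : ∃ g ∈ Subgroup.normalizer ((((P : Subgroup (MulAction.stabilizer G x)).map (MulAction.stabilizer G x).subtype) : Subgroup G) : Set G), g • a = b := by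
  haveI := hG
  set Q : Subgroup G := (P : Subgroup (MulAction.stabilizer G x)).map (MulAction.stabilizer G x).subtype
  set S := MulAction.stabilizer G b
  obtain ⟨g, hg⟩ := MulAction.exists_smul_eq G a b
  have hQb : Q ≤ S := fun q hq => Function.Embedding.ext fun i => hb i ⟨q, hq⟩
  have hQa : ∀ q ∈ Q, q • a = a := fun q hq => Function.Embedding.ext fun i => ha i ⟨q, hq⟩
  set Qg : Subgroup G := Q.map (MulAut.conj g).toMonoidHom
  have hQgb : Qg ≤ S := by
    rintro _ ⟨q, hq, rfl⟩
    show (g * q * g⁻¹) • b = b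
    rw [← hg, mul_smul, mul_smul, inv_smul_smul, hQa q hq]
  have hQcard : Nat.card Q = Nat.card (P : Subgroup (MulAction.stabilizer G x)) :=
    Subgroup.card_map_of_injective (Subgroup.subtype_injective _)
  have hcardS : Nat.card S = Nat.card (MulAction.stabilizer G x) := by
    obtain ⟨c, hc⟩ := MulAction.exists_smul_eq G x b
    rw [show S = (MulAction.stabilizer G x).map (MulAut.conj c).toMonoidHom by
      rw [← MulAction.stabilizer_smul_eq_stabilizer_map_conj, hc]]
    exact Subgroup.card_map_of_injective (MulAut.conj c).injective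
  have mk : ∀ R : Subgroup G, R ≤ S → Nat.card R = Nat.card Q → ∃ T : Sylow p S, (T : Subgroup S) = R.subgroupOf S := by
    intro R hR hRc
    refine ⟨Sylow.ofCard (R.subgroupOf S) ?_, Sylow.coe_ofCard _ _⟩
    rw [Nat.card_congr (Subgroup.subgroupOfEquivOfLe hR).toEquiv, hRc, hQcard, P.card_eq_multiplicity, hcardS]
  obtain ⟨T1, hT1⟩ := mk Q hQb rfl
  obtain ⟨T2, hT2⟩ := mk Qg hQgb (Subgroup.card_map_of_injective (MulAut.conj g).injective)
  obtain ⟨h, hh⟩ := MulAction.exists_smul_eq S T2 T1
  refine ⟨(h : G) * g, Subgroup.mem_normalizer_fintype fun q hq => ?_, by rw [mul_smul, hg]; exact h.2⟩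
  have h1 : (⟨g * q * g⁻¹, hQgb ⟨q, hq, rfl⟩⟩ : S) ∈ (T2 : Subgroup S) := by
    rw [hT2]; exact Subgroup.mem_subgroupOf.2 ⟨q, hq, rfl⟩
  have h2 := Subgroup.smul_mem_pointwise_smul _ (MulAut.conj h) _ h1
  rw [← Sylow.coe_subgroup_smul, hh, hT1, Subgroup.mem_subgroupOf] at h2
  simpa [mul_assoc] using h2

end Cfsg.Agent.S4219
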