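import Cfsg.Statements.S0005
import Cfsg.Agent.Core.Hall
-- import your own Cfsg.Agent.* helpers here

set_option autoImplicit false
open Cfsg

namespace Cfsg.Agent.S0005

/-- Hall's Theorem, containment: in a finite solvable group of order m * n with m and n coprime, every subgroup of order coprime to n is contained in a subgroup of order m. -/
theorem result {G : Type*} [Group G] [Finite G] [Group.IsSolvable G] (m n : ℕ)
    (hG : Nat.card G = m * n) (hmn : m.Coprime n) (K : Subgroup G) (hK : (Nat.card K).Coprime n) :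
    ∃ H : Subgroup G, Nat.card H = m ∧ K ≤ H := by
  have hKpi : Cfsg.Agent.Core.IsPiNat {q | q ∣ m} (Nat.card K) := by
    intro q hq hd
    have hdG : q ∣ m * n := hG ▸ hd.trans (Subgroup.card_subgroup_dvd_card K)
    exact (hq.dvd_mul.mp hdG).resolve_right
      fun hn => hq.ne_one (Nat.eq_one_of_dvd_coprimes hK hd hn)
  obtain ⟨H, hH, hle⟩ := Cfsg.Agent.Core.exists_isPiHall_ge_of_isSolvable hKpi
  exact ⟨H, (Cfsg.Agent.Core.isPiHall_iff_card_eq hG hmn).mp hH, hle⟩

end Cfsg.Agent.S0005
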