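import Cfsg.Statements.S0007
import Cfsg.Agent.Core.Products
-- import your own Cfsg.Agent.* helpers here

set_option autoImplicit false
open Cfsg

namespace Cfsg.Agent.S0007

/-- Subgroups of coprime index: the intersection has index equal to the product of the indices, and every element is a product of an element of the first subgroup and an element of the second. -/
theorem result {G : Type*} [Group G] [Finite G] (H K : Subgroup G)
    (h : H.index.Coprime K.index) :
    (H ⊓ K).index = H.index * K.index ∧ ∀ g : G, ∃ x ∈ H, ∃ y ∈ K, g = x * y := by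
  have hdvd : H.index * K.index ∣ (H ⊓ K).index :=
    h.mul_dvd_of_dvd_of_dvd (Subgroup.index_dvd_of_le inf_le_left)
      (Subgroup.index_dvd_of_le inf_le_right)
  have heq : (H ⊓ K).index = H.index * K.index :=
    le_antisymm Subgroup.index_inf_le
      (Nat.le_of_dvd (Nat.pos_of_ne_zero Subgroup.index_ne_zero_of_finite) hdvd)
  refine ⟨heq, Cfsg.Agent.Core.exists_mul_of_index_le_relIndex ?_⟩
  have h2 := Subgroup.relIndex_mul_index (inf_le_right : H ⊓ K ≤ K)
  rw [Subgroup.inf_relIndex_right, heq] at h2
  exact (Nat.eq_of_mul_eq_mul_right (Nat.pos_of_ne_zero Subgroup.index_ne_zero_of_finite) h2).ge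

end Cfsg.Agent.S0007
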