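import Cfsg.Statements.S0011
import Cfsg.Agent.Core.Fitting
-- import your own Cfsg.Agent.* helpers here

set_option autoImplicit false
open Cfsg

namespace Cfsg.Agent.S0011

/-- If the Frattini quotient of a finite group is nilpotent then the group is nilpotent. -/
theorem result {G : Type*} [Group G] [Finite G]
    (h : Group.IsNilpotent (G ⧸ frattini G)) : Group.IsNilpotent G := by
  refine Cfsg.Agent.Core.isNilpotent_top_iff.mp
    (Cfsg.Agent.Core.isNilpotent_of_quotient_le_frattini (A := (⊤ : Subgroup G)) le_rfl ?_)
  haveI := h
  rw [Subgroup.map_top_of_surjective _ (QuotientGroup.mk'_surjective _)]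
  exact Cfsg.Agent.Core.isNilpotent_top_iff.mpr h

end Cfsg.Agent.S0011
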