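import Cfsg.Statements.S0014
import Cfsg.Agent.Core.PiNumber
import Cfsg.Agent.FGS3.PGroupFrattini

set_option autoImplicit false
open Cfsg
set_option linter.style.haveILetI false

namespace Cfsg.Agent.S0014

open Subgroup in
private theorem exists_basis {G : Type*} [Group G] [Finite G] {p : ℕ} [Fact p.Prime]
    (hG : IsPGroup p G) (S : Finset G) :
    ∃ T : Finset G, T ⊆ S ∧
      closure (T : Set G) ⊔ frattini G = closure (S : Set G) ⊔ frattini G ∧
      Nat.card ↥(closure (T : Set G) ⊔ frattini G) = p ^ T.card * Nat.card ↥(frattini G) := by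
  classical
  have hcong : ∀ {A B : Subgroup G}, A = B → Nat.card A = Nat.card B := fun h => h ▸ rfl
  induction S using Finset.induction_on with
  | empty => exact ⟨∅, subset_rfl, rfl, by simp⟩
  | @insert x S hx ih =>
    obtain ⟨T, hTS, hTe, hTc⟩ := ih
    have hins : closure ((insert x S : Finset G) : Set G) ⊔ frattini G =
        closure (T : Set G) ⊔ frattini G ⊔ zpowers x := by
      rw [hTe, Finset.coe_insert, Set.insert_eq, Subgroup.closure_union, ← zpowers_eq_closure,
        sup_comm (zpowers x), sup_right_comm]
    by_cases hxT : x ∈ closure (T : Set G) ⊔ frattini G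
    · refine ⟨T, hTS.trans (Finset.subset_insert x S), ?_, hTc⟩
      rw [hins, sup_eq_left.2 (zpowers_le.2 hxT)]
    · obtain ⟨H, hH⟩ : ∃ H, H = closure (T : Set G) ⊔ frattini G := ⟨_, rfl⟩
      rw [← hH] at hxT hTc hins
      have hPhi : frattini G ≤ H := hH ▸ le_sup_right
      haveI hn : H.Normal := Subgroup.Normal.of_commutator_le _
        ((Cfsg.Agent.FGS3.commutator_le_frattini hG).trans hPhi)
      have hord : orderOf (QuotientGroup.mk' H x) = p := by
        refine orderOf_eq_prime ?_ ?_
        · rw [← map_pow, QuotientGroup.mk'_apply, QuotientGroup.eq_one_iff]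
          exact hPhi (Cfsg.Agent.FGS3.pow_mem_frattini hG x)
        · rw [QuotientGroup.mk'_apply, ne_eq, QuotientGroup.eq_one_iff]; exact hxT
      have hsup : (zpowers (QuotientGroup.mk' H x)).comap (QuotientGroup.mk' H) =
          H ⊔ zpowers x := by
        rw [← MonoidHom.map_zpowers, comap_map_eq, QuotientGroup.ker_mk', sup_comm]
      have hxnT : x ∉ T := fun h => hxT (hH ▸ mem_sup_left (subset_closure h))
      refine ⟨insert x T, Finset.insert_subset_insert x hTS, ?_, ?_⟩
      · rw [hins, hH, Finset.coe_insert, Set.insert_eq, Subgroup.closure_union, ← zpowers_eq_closure,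
          sup_comm (zpowers x), sup_right_comm]
      · have e : closure ((insert x T : Finset G) : Set G) ⊔ frattini G = H ⊔ zpowers x := by
          rw [hH, Finset.coe_insert, Set.insert_eq, Subgroup.closure_union, ← zpowers_eq_closure,
            sup_comm (zpowers x), sup_right_comm]
        rw [Finset.card_insert_of_notMem hxnT, hcong e, ← hcong hsup, Core.card_comap_mk,
          Nat.card_zpowers, hord, hTc, pow_succ]
        ring

/-- Burnside's basis Theorem: in a finite p-group whose Frattini quotient has order p ^ n, every generating set contains n elements that already generate, and no set with fewer than n elements generates. -/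
theorem result {G : Type*} [Group G] [Finite G] (p n : ℕ) [Fact p.Prime]
    (hG : IsPGroup p G) (hn : (frattini G).index = p ^ n) :
    (∀ S : Finset G, Subgroup.closure (S : Set G) = ⊤ → ∃ T : Finset G, T ⊆ S ∧ T.card = n ∧ Subgroup.closure (T : Set G) = ⊤) ∧
    (∀ T : Finset G, Subgroup.closure (T : Set G) = ⊤ → n ≤ T.card) := by
  classical
  have hp : p.Prime := Fact.out
  have key : ∀ S : Finset G, Subgroup.closure (S : Set G) = ⊤ →
      ∃ T : Finset G, T ⊆ S ∧ T.card = n ∧ Subgroup.closure (T : Set G) = ⊤ := by
    intro S hS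
    obtain ⟨T, hTS, hTe, hTc⟩ := exists_basis hG S
    rw [hS, top_sup_eq] at hTe
    refine ⟨T, hTS, ?_, frattini_nongenerating hTe⟩
    have h1 : p ^ T.card * Nat.card ↥(frattini G) = p ^ n * Nat.card ↥(frattini G) := by
      rw [← hTc, ← hn, mul_comm, Subgroup.card_mul_index]
      rw [show Nat.card ↥(Subgroup.closure (T : Set G) ⊔ frattini G) = Nat.card (⊤ : Subgroup G)
        from hTe ▸ rfl, Subgroup.card_top]
    exact Nat.pow_right_injective hp.two_le (Nat.eq_of_mul_eq_mul_right Nat.card_pos h1)
  refine ⟨key, fun T hT => ?_⟩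
  obtain ⟨T', hsub, hcard, -⟩ := key T hT
  exact hcard ▸ Finset.card_le_card hsub

end Cfsg.Agent.S0014
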