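import Cfsg.Statements.S0018
import Cfsg.Agent.Core.MinimalNormal
import Cfsg.Agent.Core.PiSeparable

set_option autoImplicit false
open Cfsg

namespace Cfsg.Agent.S0018

/-- A finite solvable group whose Sylow p-subgroups are abelian has p-length one: a Sylow p-subgroup together with the largest normal subgroup of order prime to p generates a normal subgroup. -/
theorem result {G : Type*} [Group G] [Finite G] [Group.IsSolvable G]
    (p : ℕ) [Fact p.Prime] (P : Sylow p G) (hP : IsMulCommutative P) :
    ((P : Subgroup G) ⊔ Cfsg.pPrimeCore p G).Normal := by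
  have : (Cfsg.pPrimeCore p G).Normal := inferInstance
  let f := QuotientGroup.mk' (Cfsg.pPrimeCore p G)
  let P' : Sylow p (G ⧸ Cfsg.pPrimeCore p G) := P.mapSurjective (QuotientGroup.mk'_surjective _)
  have h0 : Cfsg.pPrimeCore p (G ⧸ Cfsg.pPrimeCore p G) = ⊥ :=
    Core.pPrimeCore_quotient_pPrimeCore p G
  have hP' : ((P' : Subgroup (G ⧸ Cfsg.pPrimeCore p G))) = (P : Subgroup G).map f :=
    P.coe_mapSurjective _
  have hle : (P' : Subgroup _) ≤
      Subgroup.centralizer (Cfsg.pCore p (G ⧸ Cfsg.pPrimeCore p G) : Set (G ⧸ Cfsg.pPrimeCore p G)) := by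
    intro x hx
    rw [Subgroup.mem_centralizer_iff]
    intro y hy
    have hy' := Core.pCore_le_sylow P' hy
    rw [hP', Subgroup.mem_map] at hx hy'
    obtain ⟨a, ha, rfl⟩ := hx
    obtain ⟨b, hb, rfl⟩ := hy'
    rw [← map_mul, ← map_mul, setLike_mul_comm hb ha]
  have hC := Core.centralizer_pCore_le_of_isSolvable h0
  have heq : (P : Subgroup G).map f = Cfsg.pCore p (G ⧸ Cfsg.pPrimeCore p G) := by
    rw [← hP']
    exact le_antisymm (hle.trans hC) (Core.pCore_le_sylow P')
  have hcm : ((P : Subgroup G).map f).comap f = (P : Subgroup G) ⊔ Cfsg.pPrimeCore p G := by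
    rw [Subgroup.comap_map_eq, QuotientGroup.ker_mk']
  rw [← hcm, heq]
  infer_instance

end Cfsg.Agent.S0018
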