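import Cfsg.Statements.S0030
import Cfsg.Agent.Core.CoprimeAction
-- import your own Cfsg.Agent.* helpers here

set_option autoImplicit false
open Cfsg

namespace Cfsg.Agent.S0030
open scoped commutatorElement

/-- Under coprime action fixed points of a product of two invariant subgroups factor: if K = X Y with X and Y normalised by A then every A-fixed element of K is a product of an A-fixed element of X and an A-fixed element of Y. -/
theorem result {G : Type*} [Group G] [Finite G] (A K : Subgroup G) (hAK : A ≤ Subgroup.normalizer (K : Set G))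
    (hcop : (Nat.card A).Coprime (Nat.card K)) (hsolv : Group.IsSolvable A ∨ Group.IsSolvable K)
    (X Y : Subgroup G) (hX : X ≤ K) (hY : Y ≤ K) (hXA : A ≤ Subgroup.normalizer (X : Set G)) (hYA : A ≤ Subgroup.normalizer (Y : Set G))
    (hXY : ∀ k ∈ K, ∃ x ∈ X, ∃ y ∈ Y, k = x * y) (k : G) (hk : k ∈ K ⊓ Subgroup.centralizer (A : Set G)) :
    ∃ x ∈ X ⊓ Subgroup.centralizer (A : Set G), ∃ y ∈ Y ⊓ Subgroup.centralizer (A : Set G), k = x * y := by
  obtain ⟨x, hx, y, hy, rfl⟩ := hXY k hk.1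
  have hM : A ≤ Subgroup.normalizer ((X ⊓ Y : Subgroup G) : Set G) :=
    (le_inf hXA hYA).trans Subgroup.inf_normalizer_le_normalizer_inf
  have hfix : ∀ a ∈ A, ⁅x⁻¹, a⁆ ∈ X ⊓ Y := by
    intro a ha
    have h1 : a * (x * y) = x * y * a := Subgroup.mem_centralizer_iff.mp hk.2 a ha
    have hax : a * x * a⁻¹ ∈ X := (Subgroup.mem_normalizer_iff.mp (hXA ha) x).mp hx
    have hay : a * y * a⁻¹ ∈ Y := (Subgroup.mem_normalizer_iff.mp (hYA ha) y).mp hy
    have h2 : ⁅x⁻¹, a⁆ = x⁻¹ * (a * x * a⁻¹) := by simp [commutatorElement_def, mul_assoc]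
    have h3 : x⁻¹ * (a * x * a⁻¹) = y * (a * y * a⁻¹)⁻¹ := by
      calc x⁻¹ * (a * x * a⁻¹) = x⁻¹ * (a * (x * y)) * (y⁻¹ * a⁻¹) := by group
        _ = x⁻¹ * (x * y * a) * (y⁻¹ * a⁻¹) := by rw [h1]
        _ = y * (a * y * a⁻¹)⁻¹ := by group
    rw [h2]
    exact ⟨X.mul_mem (X.inv_mem hx) hax, h3 ▸ Y.mul_mem hy (Y.inv_mem hay)⟩
  obtain ⟨m, hm, c, hc, he⟩ := Cfsg.Agent.Core.exists_mul_centralizer hXA
    (Cfsg.Agent.Core.solvable_or_of_le hsolv hX) (hcop.coprime_dvd_right (Subgroup.card_dvd_of_le hX))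
    inf_le_left hM (X.inv_mem hx) hfix
  have hxe : x = c⁻¹ * m⁻¹ := by rw [← mul_inv_rev, ← he, inv_inv]
  refine ⟨c⁻¹, Subgroup.inv_mem _ hc, m⁻¹ * y, ⟨Y.mul_mem (Y.inv_mem hm.2) hy, ?_⟩,
    by rw [hxe, mul_assoc]⟩
  have : m⁻¹ * y = c * (x * y) := by rw [hxe]; group
  rw [this]
  exact Subgroup.mul_mem _ hc.2 hk.2

end Cfsg.Agent.S0030
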