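import Cfsg.Statements.S0031
import Mathlib.GroupTheory.FixedPointFree
import Cfsg.Agent.Core.Conj
-- import your own Cfsg.Agent.* helpers here

set_option autoImplicit false
open Cfsg

namespace Cfsg.Agent.S0031
open scoped Pointwise

/-- A fixed-point-free automorphism of a finite group maps some Sylow p-subgroup to itself. -/
theorem result {G : Type*} [Group G] [Finite G] (φ : G ≃* G)
    (hφ : MonoidHom.FixedPointFree (φ : G →* G)) (p : ℕ) [Fact p.Prime] :
    ∃ P : Sylow p G, (P : Subgroup G).map (φ : G →* G) = P := by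
  classical
  obtain ⟨P⟩ := (inferInstance : Nonempty (Sylow p G))
  have hi : ((P : Subgroup G).map (φ : G →* G)).index = (P : Subgroup G).index :=
    Subgroup.index_map_equiv _ φ
  have hnd : ¬ p ∣ ((P : Subgroup G).map (φ : G →* G)).index := hi ▸ P.not_dvd_index
  let P' : Sylow p G := (P.isPGroup'.map (φ : G →* G)).toSylow hnd
  obtain ⟨g, hg⟩ := MulAction.exists_smul_eq G P' P
  obtain ⟨x, hx⟩ := hφ.commutatorMap_surjective g
  have hx' : ((φ : G →* G) x) = g⁻¹ * x := by
    have h1 : x / (φ : G →* G) x = g := hx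
    rw [div_eq_mul_inv] at h1
    rw [← h1, mul_inv_rev, inv_inv, inv_mul_cancel_right]
  have hP' : MulAut.conj g • (P : Subgroup G).map (φ : G →* G) = (P : Subgroup G) :=
    congrArg (fun S : Sylow p G => (S : Subgroup G)) hg
  refine ⟨x⁻¹ • P, ?_⟩
  rw [Sylow.coe_subgroup_smul, Cfsg.Agent.Core.map_conj_smul, map_inv (φ : G →* G), hx',
    mul_inv_rev, inv_inv, Cfsg.Agent.Core.conj_mul_smul, hP']

end Cfsg.Agent.S0031
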