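import Cfsg.Statements.S0032
-- import your own Cfsg.Agent.* helpers here

set_option autoImplicit false
open Cfsg

namespace Cfsg.Agent.S0032

/-- If an automorphism of a finite group fixes only the identity and maps a normal subgroup N into itself, then the only cosets of N it fixes are those in N: a fixed coset xN forces x ∈ N. -/
theorem result {G : Type*} [Group G] [Finite G] (φ : G ≃* G)
    (hφ : MonoidHom.FixedPointFree (φ : G →* G)) (N : Subgroup G) [N.Normal] (hN : ∀ n ∈ N, φ n ∈ N)
    (x : G) (hx : (φ x)⁻¹ * x ∈ N) : x ∈ N := by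
  let f : N → N := fun n => ⟨(φ n)⁻¹ * n, N.mul_mem (N.inv_mem (hN n n.2)) n.2⟩
  have key : ∀ a b : G, (φ a)⁻¹ * a = (φ b)⁻¹ * b → a = b := by
    intro a b hab
    have h1 : φ (a * b⁻¹) = a * b⁻¹ := by
      rw [map_mul, map_inv, mul_inv_eq_iff_eq_mul]
      have h2 : φ a * ((φ a)⁻¹ * a) = φ a * ((φ b)⁻¹ * b) := congrArg (φ a * ·) hab
      rw [mul_inv_cancel_left] at h2
      calc φ a = φ a * ((φ b)⁻¹ * b) * (b⁻¹ * φ b) := by group
        _ = a * (b⁻¹ * φ b) := by rw [← h2]
        _ = a * b⁻¹ * φ b := (mul_assoc _ _ _).symm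
    have := hφ (a * b⁻¹) h1
    exact mul_inv_eq_one.mp this
  have hinj : Function.Injective f := fun a b hab =>
    Subtype.ext (key a b (congrArg Subtype.val hab))
  obtain ⟨n, hn⟩ := Finite.injective_iff_surjective.mp hinj ⟨_, hx⟩
  rw [key x n (congrArg Subtype.val hn).symm]
  exact n.2

end Cfsg.Agent.S0032
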