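import Cfsg.Statements.S0034
import Cfsg.Agent.PermGroups.FrobeniusConjugacy

set_option autoImplicit false
open Cfsg
open scoped Pointwise

namespace Cfsg.Agent.S0034

/-- For a Frobenius complement H, the set of elements lying in no conjugate of H, together with 1, has exactly as many elements as the index of H, and that index is congruent to 1 modulo the order of H. -/
theorem result {G : Type*} [Group G] [Finite G] (H : Subgroup G) (hH : Cfsg.IsFrobeniusComplement H) :
    Nat.card (Cfsg.frobeniusKernel H) = H.index ∧ H.index % Nat.card H = 1 % Nat.card H := by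
  refine ⟨Cfsg.Agent.PermGroups.Frobenius.natCard_kernel hH, ?_⟩
  have h0 : H.index ≠ 0 := Subgroup.index_ne_zero_of_finite
  exact ((Nat.modEq_iff_dvd' (by omega)).2
    (Cfsg.Agent.PermGroups.Frobenius.card_dvd_index_sub_one hH)).symm

end Cfsg.Agent.S0034
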