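import Cfsg.Statements.S0038
import Cfsg.Agent.PermGroups.FrobeniusConjugacy

set_option autoImplicit false
open Pointwise
open Cfsg
open scoped Pointwise

namespace Cfsg.Agent.S0038

/-- All Frobenius complements of a finite group are conjugate to one another. -/
theorem result {G : Type*} [Group G] [Finite G] (H H₀ : Subgroup G)
    (hH : Cfsg.IsFrobeniusComplement H) (hH₀ : Cfsg.IsFrobeniusComplement H₀) :
    ∃ g : G, MulAut.conj g • H₀ = H := by
  rcases le_total (Nat.card H₀) (Nat.card H) with hle | hle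
  · obtain ⟨g, hg⟩ := Cfsg.Agent.PermGroups.Frobenius.le_conj_of_card_le hH hH₀ hle
    refine ⟨g⁻¹, ?_⟩
    rw [Cfsg.Agent.PermGroups.Frobenius.eq_of_le (Cfsg.Agent.PermGroups.Frobenius.conj hH g) hH₀ hg,
      map_inv, inv_smul_smul]
  · obtain ⟨g, hg⟩ := Cfsg.Agent.PermGroups.Frobenius.le_conj_of_card_le hH₀ hH hle
    exact ⟨g, (Cfsg.Agent.PermGroups.Frobenius.eq_of_le
      (Cfsg.Agent.PermGroups.Frobenius.conj hH₀ g) hH hg).symm⟩

end Cfsg.Agent.S0038
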