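import Cfsg.Statements.S0041
import Cfsg.Agent.OddLocal.FPF

set_option autoImplicit false
open Cfsg
set_option linter.style.haveILetI false
open scoped commutatorElement

namespace Cfsg.Agent.S0041

open Subgroup in
private theorem pq_case {G : Type*} [Group G] [Finite G] (A V : Subgroup G) [IsMulCommutative V]
    (hV : V ≠ ⊥) (hAV : A ≤ Subgroup.normalizer (V : Set G)) (h : OddLocal.FPF V A)
    {p q : ℕ} (hp : p.Prime) (hq : q.Prime) (hlt : p < q) (hA : Nat.card A = p * q) :
    IsCyclic A := by
  classical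
  haveI : Fact p.Prime := ⟨hp⟩
  haveI : Fact q.Prime := ⟨hq⟩
  haveI := Fintype.ofFinite A
  have hcopV : q.Coprime (Nat.card V) := (h.coprime hAV).coprime_dvd_left (hA ▸ dvd_mul_left q p)
  obtain ⟨b, hb⟩ := exists_prime_orderOf_dvd_card' (G := A) p (hA ▸ dvd_mul_right p q)
  obtain ⟨Q⟩ := (inferInstance : Nonempty (Sylow q A))
  have hQc : Nat.card Q = q := by
    rw [Q.card_eq_multiplicity, hA, Nat.factorization_mul hp.ne_zero hq.ne_zero,
      Finsupp.add_apply, hp.factorization, hq.factorization]
    simp [hlt.ne]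
  have hQi : (Q : Subgroup A).index = p := by
    have := (Q : Subgroup A).card_mul_index
    rw [hQc, hA, mul_comm p] at this
    exact Nat.eq_of_mul_eq_mul_left hq.pos this
  have hone : Nat.card (Sylow q A) = 1 := by
    rcases (Nat.dvd_prime hp).mp (hQi ▸ Q.card_dvd_index) with h1 | h1
    · exact h1
    · have hmod := card_sylow_modEq_one q A
      rw [h1, Nat.ModEq, Nat.mod_eq_of_lt hlt, Nat.mod_eq_of_lt hq.one_lt] at hmod
      exact absurd hmod hp.ne_one
  haveI : Subsingleton (Sylow q A) := (Nat.card_eq_one_iff_unique.mp hone).1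
  have hQn : (Q : Subgroup A).Normal := Q.normal_of_subsingleton
  -- some nontrivial element of `Q` commutes with `b`
  by_cases hcomm : ∃ x ∈ (Q : Subgroup A), x ≠ 1 ∧ Commute x b
  · obtain ⟨x, hx, hx1, hxb⟩ := hcomm
    have hxq : orderOf x = q := ((Nat.dvd_prime hq).mp
      (hQc ▸ Subgroup.orderOf_dvd_natCard (Q : Subgroup A) hx)).resolve_left
        (fun e => hx1 (orderOf_eq_one_iff.mp e))
    refine isCyclic_of_orderOf_eq_card (x * b) ?_
    rw [hxb.orderOf_mul_eq_mul_orderOf_of_coprime
      (by rw [hxq, hb]; exact (Nat.coprime_primes hq hp).mpr hlt.ne'), hxq, hb, hA, mul_comm]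
  exfalso
  simp only [not_exists, not_and] at hcomm
  have hmemV : ∀ (a : A) (v : V), (a : G) * v * (a : G)⁻¹ ∈ V := fun a v =>
    (Subgroup.mem_normalizer_iff.mp (hAV a.2) v).mp v.2
  let f : A → (V →* V) := fun a =>
    { toFun := fun v => ⟨(a : G) * v * (a : G)⁻¹, hmemV a v⟩
      map_one' := by ext; simp
      map_mul' := fun x y => by ext; simp [mul_assoc] }
  have hf : ∀ a c v, f (a * c) v = f a (f c v) := fun a c v => by
    ext; simp [f, mul_assoc]
  open scoped IsMulCommutative in
  have hsum : ∀ (B : Subgroup A) (v : V), B ≠ ⊥ → ∏ c : B, f (c : A) v = 1 := fun B v hB => by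
    obtain ⟨d, hd, hd1⟩ := B.bot_or_exists_ne_one.resolve_left hB
    obtain ⟨w, hw⟩ : ∃ w, w = ∏ c : B, f (c : A) v := ⟨_, rfl⟩
    have hfix : f d w = w := by
      rw [hw, map_prod]
      exact Fintype.prod_equiv (Equiv.mulLeft (⟨d, hd⟩ : B)) _ _ fun c => (hf d c v).symm
    have h2 : (d : G) * w * (d : G)⁻¹ = w := congrArg Subtype.val hfix
    rw [← hw]
    refine Subtype.ext (h d d.2 ?_ w w.2 (mul_inv_eq_iff_eq_mul.mp h2))
    intro e
    exact hd1 (Subtype.ext e)
  have hqb : (Q : Subgroup A) ≠ ⊥ := fun e => by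
    have := hQc
    rw [show Nat.card Q = Nat.card (⊥ : Subgroup A) from e ▸ rfl, card_bot] at this
    exact hq.ne_one this.symm
  have hpb : zpowers b ≠ ⊥ := fun e => by
    rw [zpowers_eq_bot] at e
    rw [e, orderOf_one] at hb
    exact hp.ne_one hb.symm
  obtain ⟨v, hv, hv1⟩ := V.bot_or_exists_ne_one.resolve_left hV
  open scoped IsMulCommutative in
  have key : (⟨v, hv⟩ : V) ^ q = 1 := by
    have h0 : ∏ x : (Q : Subgroup A), ∏ c : zpowers b, f ((x : A) * c * (x : A)⁻¹) ⟨v, hv⟩ = 1 :=
      Finset.prod_eq_one fun x _ => by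
        simp only [hf]
        rw [← map_prod, hsum _ _ hpb, map_one]
    rw [Finset.prod_comm, Fintype.prod_eq_single (1 : zpowers b)] at h0
    · have hf1 : f 1 ⟨v, hv⟩ = ⟨v, hv⟩ := by ext; simp [f]
      simp only [OneMemClass.coe_one, mul_one, mul_inv_cancel, hf1, Finset.prod_const,
        Finset.card_univ, ← Nat.card_eq_fintype_card] at h0
      rw [← hQc]; exact h0
    · intro c hc
      let T : ↥(Q : Subgroup A) → ↥(Q : Subgroup A) := fun x =>
        ⟨(x : A) * (c : A) * (x : A)⁻¹ * (c : A)⁻¹, by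
          rw [mul_assoc (x : A), mul_assoc (x : A)]
          exact mul_mem x.2 (hQn.conj_mem _ (inv_mem x.2) c)⟩
      have hTinj : Function.Injective T := by
        intro x y hxy
        by_contra hne
        have h3 : (x : A) * c * (x : A)⁻¹ = (y : A) * c * (y : A)⁻¹ :=
          mul_right_cancel (congrArg Subtype.val hxy)
        have h4 : Commute ((y : A)⁻¹ * x) (c : A) := by
          show _ * _ = _ * _
          calc (y : A)⁻¹ * x * c = (y : A)⁻¹ * ((x : A) * c * (x : A)⁻¹) * x := by group
            _ = c * ((y : A)⁻¹ * x) := by rw [h3]; group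
        have hcp : orderOf (c : A) = p := ((Nat.dvd_prime hp).mp (by
          have := Subgroup.orderOf_dvd_natCard (zpowers b) c.2
          rwa [Nat.card_zpowers, hb] at this)).resolve_left
            (fun e => hc (Subtype.ext (orderOf_eq_one_iff.mp e)))
        have hbc : b ∈ zpowers (c : A) := by
          have he : zpowers (c : A) = zpowers b :=
            Subgroup.eq_of_le_of_card_ge (zpowers_le.2 c.2) (by
              rw [Nat.card_zpowers, Nat.card_zpowers, hcp, hb])
          rw [he]; exact mem_zpowers b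
        obtain ⟨m, hm⟩ := mem_zpowers_iff.mp hbc
        refine hcomm _ (mul_mem (inv_mem y.2) x.2) ?_ (hm ▸ h4.zpow_right m)
        intro e
        exact hne (Subtype.ext (inv_mul_eq_one.mp e).symm)
      rw [Fintype.prod_bijective T (Finite.injective_iff_bijective.mp hTinj)
        (fun x => f ((x : A) * c * (x : A)⁻¹) ⟨v, hv⟩) (fun y => f ((y : A) * c) ⟨v, hv⟩)
        (fun x => by simp only [T, inv_mul_cancel_right])]
      simp only [hf]
      exact hsum _ _ hqb
  have h5 := Nat.eq_one_of_dvd_coprimes hcopV (orderOf_dvd_of_pow_eq_one key) (orderOf_dvd_natCard _)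
  exact hv1 (congrArg Subtype.val (orderOf_eq_one_iff.mp h5))

/-- A group acting on a nontrivial abelian group so that no nonidentity element has a nonidentity fixed point is cyclic, provided it is abelian or its order is a product of two (possibly equal) primes. -/
theorem result {G : Type*} [Group G] [Finite G] (A V : Subgroup G) [IsMulCommutative V]
    (hV : V ≠ ⊥) (hAV : A ≤ Subgroup.normalizer (V : Set G)) (hfpf : ∀ a ∈ A, a ≠ 1 → V ⊓ Subgroup.centralizer {a} = ⊥)
    (hA : IsMulCommutative A ∨ ∃ p q : ℕ, p.Prime ∧ q.Prime ∧ Nat.card A = p * q) : IsCyclic A := by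
  have h : OddLocal.FPF V A := OddLocal.FPF.of_inf hfpf
  have habelian : IsMulCommutative A → IsCyclic A := fun hc => by
    haveI := hc
    by_contra hn
    refine hV (le_bot_iff.mp ?_)
    rw [← Cfsg.Agent.Coprime.eq_centralizerJoin hn hAV (h.coprime hAV)]
    exact iSup_le fun e => (hfpf _ e.2.1 e.2.2).le
  rcases hA with hA | ⟨p, q, hp, hq, hc⟩
  · exact habelian hA
  rcases lt_trichotomy p q with hlt | rfl | hlt
  · exact pq_case A V hV hAV h hp hq hlt hc
  · haveI : Fact p.Prime := ⟨hp⟩
    exact habelian (IsPGroup.isMulCommutative_of_card_eq_prime_sq (hc.trans (sq p).symm))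
  · exact pq_case A V hV hAV h hq hp hlt (hc.trans (mul_comm p q))

end Cfsg.Agent.S0041
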