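import Cfsg.Statements.S0048
import Cfsg.Agent.Core.Frattini
-- import your own Cfsg.Agent.* helpers here

set_option autoImplicit false
open Cfsg

namespace Cfsg.Agent.S0048

/-- In a finite solvable group every maximal subgroup has index a prime power. -/
theorem result {G : Type*} [Group G] [Finite G] [Group.IsSolvable G]
    (M : Subgroup G) (hM : IsCoatom M) : IsPrimePow M.index := by
  let L := M.normalCore
  have hsurj := QuotientGroup.mk'_surjective L
  have hLM : L ≤ M := Subgroup.normalCore_le M
  haveI : Nontrivial (G ⧸ L) :=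
    QuotientGroup.nontrivial_iff.mpr fun h => hM.1 (top_le_iff.mp (h ▸ hLM))
  obtain ⟨N, hN⟩ := Cfsg.Agent.Core.exists_isMinNormal (G := G ⧸ L)
  obtain ⟨hc, p, hp, -, hpN⟩ := hN.elementaryAbelian_of_isSolvable
  haveI := Fact.mk hp
  haveI := hN.1
  haveI := hc
  let M' := M.map (QuotientGroup.mk' L)
  have hnle : ¬ N.comap (QuotientGroup.mk' L) ≤ M := fun h => by
    haveI : (N.comap (QuotientGroup.mk' L)).Normal := hN.1.comap _
    refine hN.2.1 ?_
    rw [← Subgroup.map_comap_eq_self_of_surjective hsurj N, Subgroup.map_eq_bot_iff,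
      QuotientGroup.ker_mk']
    exact Subgroup.normal_le_normalCore.mpr h
  have htop : N ⊔ M' = ⊤ := by
    have := congrArg (Subgroup.map (QuotientGroup.mk' L))
      (Cfsg.Agent.Core.sup_eq_top_of_coatom hM hnle)
    rwa [Subgroup.map_sup, Subgroup.map_comap_eq_self_of_surjective hsurj,
      Subgroup.map_top_of_surjective _ hsurj] at this
  have hidx : M'.index = M.index :=
    Subgroup.index_map_eq M hsurj (by rwa [QuotientGroup.ker_mk'])
  have hinf : N ⊓ M' = ⊥ := by
    rcases hN.2.2 (N ⊓ M') (Cfsg.Agent.Core.inf_normal_of_sup_eq_top htop) inf_le_left with h | h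
    · exact h
    · exfalso
      rw [inf_eq_left] at h
      rw [sup_eq_right.mpr h] at htop
      rw [htop, Subgroup.index_top] at hidx
      exact hM.1 (Subgroup.index_eq_one.mp hidx.symm)
  have hcompl := Cfsg.Agent.Core.isComplement'_of_inf_eq_bot_of_sup_eq_top hinf htop
  obtain ⟨k, hk⟩ := IsPGroup.iff_card.mp hpN
  rw [← hidx, hcompl.index_eq_card, hk]
  refine IsPrimePow.pow hp.isPrimePow ?_
  rintro rfl
  exact hN.2.1 (Subgroup.card_eq_one.mp (by simpa using hk))

end Cfsg.Agent.S0048
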