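import Cfsg.Statements.S0049
import Cfsg.Agent.Core.Frattini
import Cfsg.Agent.Core.SchurZassenhaus
-- import your own Cfsg.Agent.* helpers here

set_option autoImplicit false
open Cfsg

namespace Cfsg.Agent.S0049

/-- A prime divisor of the order of a finite group also divides the index of the Frattini subgroup. -/
theorem result {G : Type*} [Group G] [Finite G] (p : ℕ) (hp : p.Prime) (hdvd : p ∣ Nat.card G) :
    p ∣ (frattini G).index := by
  haveI := Fact.mk hp
  by_contra hnd
  obtain ⟨P⟩ := (inferInstance : Nonempty (Sylow p G))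
  have hP : (P : Subgroup G) ≤ frattini G := by
    apply Cfsg.Agent.Core.le_of_coprime_index
    rw [P.card_eq_multiplicity]
    exact (hp.coprime_iff_not_dvd.mpr hnd).pow_left _
  haveI := frattini_nilpotent (G := G)
  let Q : Sylow p (frattini G) := P.subtype hP
  have hQn : ((Q : Subgroup (frattini G)).map (frattini G).subtype).Normal := by
    rw [← Cfsg.Agent.Core.pCore_eq_sylow Q]
    exact Cfsg.Agent.Core.normal_map_subtype_of_characteristic _
  rw [Sylow.coe_subtype, Subgroup.subgroupOf_map_subtype, inf_of_le_left hP] at hQn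
  haveI := hQn
  obtain ⟨K, hK⟩ := Subgroup.exists_right_complement'_of_coprime (N := (P : Subgroup G))
    P.card_coprime_index
  have hKtop : K = ⊤ := frattini_nongenerating
    (top_le_iff.mp (hK.sup_eq_top.ge.trans (sup_le (le_sup_of_le_right hP) le_sup_left)))
  have h1 := hK.index_eq_card
  rw [hKtop, Subgroup.index_top] at h1
  exact hp.ne_one (Nat.dvd_one.mp (h1 ▸ P.dvd_card_of_dvd_card hdvd))

end Cfsg.Agent.S0049
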