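import Cfsg.Statements.S0050
import Cfsg.Agent.Core.Hall
-- import your own Cfsg.Agent.* helpers here

set_option autoImplicit false
open Cfsg

namespace Cfsg.Agent.S0050

/-- Frattini argument for Hall subgroups: if L is a solvable normal subgroup and H a subgroup of L of order coprime to its index in L, then L together with the normaliser of H generates the whole group. -/
theorem result {G : Type*} [Group G] [Finite G] (L : Subgroup G) [L.Normal] (hL : Group.IsSolvable L)
    (H : Subgroup G) (hHL : H ≤ L) (hHall : (Nat.card H).Coprime (H.relIndex L)) :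
    L ⊔ Subgroup.normalizer (H : Set G) = ⊤ := by
  haveI := hL
  let π : Set ℕ := {q | q ∣ Nat.card H}
  have hH : Cfsg.IsPiHall π (H.subgroupOf L) := by
    refine ⟨fun q hq hd => ?_, fun q hq hmem hd => ?_⟩
    · rwa [Cfsg.Agent.Core.card_subgroupOf hHL] at hd
    · exact hq.ne_one (Nat.eq_one_of_dvd_coprimes hHall hmem hd)
  have := Cfsg.Agent.Core.sup_normalizer_eq_top_of_isPiHall (G := G)
    Cfsg.Agent.Core.isPiSeparable_of_isSolvable Cfsg.Agent.Core.hallSolvable_of_isSolvable hH
  rwa [Subgroup.subgroupOf_map_subtype, inf_of_le_left hHL] at this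

end Cfsg.Agent.S0050
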