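import Cfsg.Statements.S0052
import Cfsg.Agent.Core.Conj
import Cfsg.Agent.Core.Products

set_option autoImplicit false
open Pointwise
open Cfsg
set_option linter.style.haveILetI false
open scoped Pointwise

namespace Cfsg.Agent.S0052

/-- Gaschütz's Theorem, conjugacy: for an abelian normal subgroup K ≤ U with the order of K coprime to the index of U, two complements of K in G having the same intersection with U are conjugate. -/
theorem result {G : Type*} [Group G] [Finite G] (K U : Subgroup G) [K.Normal] [IsMulCommutative K]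
    (hKU : K ≤ U) (hcop : (Nat.card K).Coprime U.index)
    (H₀ H₁ : Subgroup G) (h₀ : Subgroup.IsComplement' K H₀) (h₁ : Subgroup.IsComplement' K H₁) (hU : H₀ ⊓ U = H₁ ⊓ U) :
    ∃ g : G, MulAut.conj g • H₀ = H₁ := by
  classical
  letI : CommGroup K := { (inferInstance : Group K) with mul_comm := mul_comm' }
  have hKn : ∀ k ∈ K, ∀ g : G, g⁻¹ * k * g ∈ K := fun k hk g => by
    simpa using (inferInstance : K.Normal).conj_mem k hk g⁻¹
  -- the difference cocycle
  have hdec : ∀ h : H₀, ∃ k : K, (h : G) * k ∈ H₁ := fun h => by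
    obtain ⟨⟨⟨k, hk⟩, ⟨x, hx⟩⟩, e : k * x = (h : G)⟩ := h₁.2 (h : G)
    refine ⟨⟨(h : G)⁻¹ * k⁻¹ * h, hKn _ (K.inv_mem hk) _⟩, ?_⟩
    have : (h : G) * ((h : G)⁻¹ * k⁻¹ * h) = x := by rw [← e]; group
    rw [this]; exact hx
  choose d hd using hdec
  have huniq : ∀ (h : H₀) (k : K), (h : G) * k ∈ H₁ → k = d h := fun h k hk => by
    have hm : (k : G)⁻¹ * d h ∈ H₁ := by
      have := H₁.mul_mem (H₁.inv_mem hk) (hd h)
      simpa [mul_assoc] using this
    have : (k : G)⁻¹ * d h ∈ K ⊓ H₁ := ⟨K.mul_mem (K.inv_mem k.2) (d h).2, hm⟩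
    rw [disjoint_iff.mp h₁.disjoint, Subgroup.mem_bot, inv_mul_eq_one] at this
    exact Subtype.ext this
  let act : G → (K →* K) := fun g =>
    { toFun := fun k => ⟨g⁻¹ * k * g, hKn _ k.2 g⟩
      map_one' := Subtype.ext (by simp)
      map_mul' := fun x y => Subtype.ext (by simp [mul_assoc]) }
  have hcoc : ∀ a b : H₀, d (a * b) = act b (d a) * d b := fun a b => by
    refine (huniq _ _ ?_).symm
    have h2 := H₁.mul_mem (hd a) (hd b)
    simpa [act, mul_assoc] using h2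
  have hL : ∀ l : H₀, (l : G) ∈ U → d l = 1 := fun l hl => by
    refine (huniq l 1 ?_).symm
    have : (l : G) ∈ H₀ ⊓ U := ⟨l.2, hl⟩
    rw [hU] at this
    simpa using this.1
  obtain ⟨L, hLdef⟩ : ∃ L, L = U.subgroupOf H₀ := ⟨_, rfl⟩
  have hLU : ∀ l : H₀, l ∈ L → (l : G) ∈ U := fun l hl => by rw [hLdef] at hl; exact hl
  haveI : Fintype (H₀ ⧸ L) := Fintype.ofFinite _
  have hidx : L.index = U.index := by
    rw [hLdef, ← Subgroup.relIndex]
    refine Core.relIndex_eq_index_of_forall fun g => ?_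
    obtain ⟨⟨⟨k, hk⟩, ⟨x, hx⟩⟩, e : k * x = g⟩ := h₀.2 g
    exact ⟨k, hKU hk, x, hx, e.symm⟩
  have hconst : ∀ (x : H₀) (q : H₀ ⧸ L), (QuotientGroup.mk x : H₀ ⧸ L) = q →
      d x⁻¹ = d q.out⁻¹ := by
    intro x q hq
    subst hq
    obtain ⟨l, hl⟩ := QuotientGroup.mk_out_eq_mul L x
    have h0 : d (l : H₀)⁻¹ = 1 := hL _ (by simpa using U.inv_mem (hLU _ l.2))
    rw [hl, mul_inv_rev, hcoc, h0, map_one, one_mul]
  obtain ⟨e, he⟩ : ∃ e, e = ∏ q : H₀ ⧸ L, d q.out⁻¹ := ⟨_, rfl⟩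
  have hsum : ∀ b : H₀, e = act b e * d b ^ U.index := by
    intro b
    conv_lhs => rw [he, ← Equiv.prod_comp (MulAction.toPerm b⁻¹ : Equiv.Perm (H₀ ⧸ L))]
    rw [he, map_prod, ← hidx, Subgroup.index_eq_card, Nat.card_eq_fintype_card, ← Finset.card_univ,
      ← Finset.prod_const, ← Finset.prod_mul_distrib]
    refine Finset.prod_congr rfl fun q _ => ?_
    rw [← hcoc, ← hconst (b⁻¹ * q.out) ((MulAction.toPerm b⁻¹) q) (by
      conv_rhs => rw [← q.out_eq']
      rfl), mul_inv_rev, inv_inv]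
  obtain ⟨x, y, hxy⟩ : ∃ x y : ℤ, x * (Nat.card K : ℤ) + y * (U.index : ℤ) = 1 := by
    refine ⟨Nat.gcdA (Nat.card K) U.index, Nat.gcdB (Nat.card K) U.index, ?_⟩
    have := Nat.gcd_eq_gcd_ab (Nat.card K) U.index
    rw [hcop] at this
    push_cast at this
    linarith
  have hroot : ∀ k : K, (k ^ U.index) ^ y = k := by
    intro k
    have h1 : k ^ (x * (Nat.card K : ℤ) + y * (U.index : ℤ)) = k := by rw [hxy, zpow_one]
    rw [zpow_add, mul_comm x, zpow_mul, zpow_natCast, pow_card_eq_one', one_zpow, one_mul, mul_comm y,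
      zpow_mul, zpow_natCast] at h1
    exact h1
  obtain ⟨c, hc⟩ : ∃ c, c = e ^ y := ⟨_, rfl⟩
  have hdc : ∀ b : H₀, d b = (act b c)⁻¹ * c := fun b => by
    have h1 : c = act b c * d b := by
      conv_lhs => rw [hc, hsum b]
      rw [mul_zpow, hroot, hc, map_zpow]
    rw [eq_inv_mul_iff_mul_eq]
    exact h1.symm
  refine ⟨(c : G)⁻¹, Subgroup.eq_of_le_of_card_ge ?_ ?_⟩
  · intro z hz
    rw [Core.mem_conj_smul_iff, inv_inv] at hz
    have h1 := hd ⟨_, hz⟩
    rw [hdc] at h1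
    have h2 : (c : G) * z * (c : G)⁻¹ * (((act ((c : G) * z * (c : G)⁻¹) c)⁻¹ * c : K) : G) = z := by
      simp [act, mul_assoc]
    rwa [h2] at h1
  · rw [Core.card_conj_smul]
    have e0 := h₀.card_mul_card
    have e1 := h₁.card_mul_card
    exact (Nat.eq_of_mul_eq_mul_left Nat.card_pos (e0.trans e1.symm)).ge

end Cfsg.Agent.S0052
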