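import Cfsg.Statements.S0053
import Cfsg.Agent.Core.Frattini
-- import your own Cfsg.Agent.* helpers here

set_option autoImplicit false
open Cfsg

namespace Cfsg.Agent.S0053

/-- An abelian minimal normal subgroup N of a finite group is complemented exactly when N is not inside the Frattini subgroup. -/
theorem result {G : Type*} [Group G] [Finite G]
    (N : Subgroup G) [N.Normal] [IsMulCommutative N] (hN : N ≠ ⊥)
    (hmin : ∀ M : Subgroup G, M.Normal → M ≤ N → M = ⊥ ∨ M = N) :
    (∃ H : Subgroup G, Subgroup.IsComplement' N H) ↔ ¬ N ≤ frattini G := by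
  constructor
  · rintro ⟨H, hH⟩ hle
    have hHtop : H = ⊤ := frattini_nongenerating
      (top_le_iff.mp (hH.sup_eq_top.ge.trans (sup_le (le_sup_of_le_right hle) le_sup_left)))
    have := hH.disjoint.eq_bot
    rw [hHtop, inf_top_eq] at this
    exact hN this
  · intro hle
    obtain ⟨M, hM, hNM⟩ := Cfsg.Agent.Core.exists_coatom_not_ge hle
    have hsup := Cfsg.Agent.Core.sup_eq_top_of_coatom hM hNM
    refine ⟨M, Cfsg.Agent.Core.isComplement'_of_inf_eq_bot_of_sup_eq_top ?_ hsup⟩
    rcases hmin _ (Cfsg.Agent.Core.inf_normal_of_sup_eq_top hsup) inf_le_left with h | h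
    · exact h
    · exact absurd (inf_eq_left.mp h) hNM

end Cfsg.Agent.S0053
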