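import Cfsg.Statements.S0054
import Cfsg.Agent.Core.Cores
-- import your own Cfsg.Agent.* helpers here

set_option autoImplicit false
open Cfsg

namespace Cfsg.Agent.S0054

/-- A regular normal subgroup of a finite 2-transitive group is elementary abelian: it is commutative and all its elements have order dividing one prime. -/
theorem result {G : Type*} [Group G] [Finite G]
    {X : Type*} [Nonempty X] [MulAction G X] (h2 : MulAction.IsMultiplyPretransitive G X 2)
    (N : Subgroup G) [N.Normal] (htrans : MulAction.IsPretransitive N X) (hreg : ∀ x : X, MulAction.stabilizer N x = ⊥) :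
    IsMulCommutative N ∧ ∃ p : ℕ, p.Prime ∧ ∀ n ∈ N, n ^ p = 1 := by
  classical
  by_cases hN : N = ⊥
  · subst hN
    exact ⟨inferInstance, 2, Nat.prime_two, fun n hn => by simp [Subgroup.mem_bot.mp hn]⟩
  obtain ⟨x₀⟩ := (inferInstance : Nonempty X)
  have inj : ∀ n m : G, n ∈ N → m ∈ N → n • x₀ = m • x₀ → n = m := by
    intro n m hn hm h
    have hmem : (⟨m⁻¹ * n, N.mul_mem (N.inv_mem hm) hn⟩ : N) ∈ MulAction.stabilizer N x₀ := by
      rw [MulAction.mem_stabilizer_iff]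
      change (m⁻¹ * n) • x₀ = x₀
      rw [mul_smul, h, inv_smul_smul]
    rw [hreg x₀, Subgroup.mem_bot] at hmem
    exact (inv_mul_eq_one.mp (congrArg Subtype.val hmem)).symm
  have hconj : ∀ n ∈ N, ∀ m ∈ N, n ≠ 1 → m ≠ 1 → ∃ g : G, g * n * g⁻¹ = m := by
    intro n hn m hm hn1 hm1
    have h1 : n • x₀ ≠ x₀ := fun h => hn1 (inj n 1 hn N.one_mem (by rw [h, one_smul]))
    have h2' : m • x₀ ≠ x₀ := fun h => hm1 (inj m 1 hm N.one_mem (by rw [h, one_smul]))
    haveI := h2
    obtain ⟨g, hg1, hg2⟩ :=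
      (MulAction.is_two_pretransitive_iff.mp h2) (Ne.symm h1) (Ne.symm h2')
    refine ⟨g, inj _ _ ((inferInstance : N.Normal).conj_mem n hn g) hm ?_⟩
    have hg3 : g⁻¹ • x₀ = x₀ := by rw [inv_smul_eq_iff, hg1]
    rw [mul_smul, mul_smul, hg3, hg2]
  have hNc : Nat.card N ≠ 1 := mt (Subgroup.card_eq_one (H := N)).mp hN
  obtain ⟨p, hp, hd⟩ := Nat.exists_prime_and_dvd hNc
  haveI := Fact.mk hp
  obtain ⟨z, hz⟩ := exists_prime_orderOf_dvd_card' (G := N) p hd
  have hz1 : (z : G) ≠ 1 := fun h => by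
    rw [← Subgroup.orderOf_coe, h, orderOf_one] at hz
    exact hp.ne_one hz.symm
  have hpow : ∀ n ∈ N, n ^ p = 1 := by
    intro n hn
    by_cases h1 : n = 1
    · simp [h1]
    obtain ⟨g, hg⟩ := hconj z z.2 n hn hz1 h1
    rw [← hg, conj_pow, ← hz, ← Subgroup.orderOf_coe, pow_orderOf_eq_one]
    simp
  refine ⟨?_, p, hp, hpow⟩
  have hpg : IsPGroup p N := fun n => ⟨1, Subtype.ext (by simpa using hpow n n.2)⟩
  haveI : Nontrivial N := (Subgroup.nontrivial_iff_ne_bot N).mpr hN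
  haveI := hpg.center_nontrivial
  obtain ⟨⟨c, hc⟩, hc1⟩ := exists_ne (1 : Subgroup.center N)
  haveI hZ : ((Subgroup.center N).map N.subtype).Normal :=
    Cfsg.Agent.Core.normal_map_subtype_of_characteristic _
  refine ⟨⟨fun a b => ?_⟩⟩
  by_cases ha : a = 1
  · simp [ha]
  have hcne : (c : G) ≠ 1 := fun h => hc1 (Subtype.ext (Subtype.ext h))
  obtain ⟨g, hg⟩ := hconj c c.2 a a.2 hcne (fun h => ha (Subtype.ext h))
  obtain ⟨a', ha', he⟩ := hg ▸ hZ.conj_mem (c : G) ⟨c, hc, rfl⟩ g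
  have : a' = a := Subtype.ext he
  exact (Subgroup.mem_center_iff.mp (this ▸ ha') b).symm

end Cfsg.Agent.S0054
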