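import Cfsg.Statements.S0056
import Cfsg.Agent.Core.CoprimeAction
import Cfsg.Agent.Coprime.PxQ
-- import your own Cfsg.Agent.* helpers here

set_option autoImplicit false
open Cfsg

namespace Cfsg.Agent.S0056

/-- A coprime action on an abelian group that fixes all elements of prime order is trivial. -/
theorem result {G : Type*} [Group G] [Finite G] (A V : Subgroup G) [IsMulCommutative V]
    (hAV : A ≤ Subgroup.normalizer (V : Set G)) (hcop : (Nat.card A).Coprime (Nat.card V))
    (hΩ : ∀ v ∈ V, (orderOf v).Prime → ∀ a ∈ A, a * v = v * a) : A ≤ Subgroup.centralizer (V : Set G) := by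
  have hbot : ⁅V, A⁆ = ⊥ := by
    by_contra hne
    obtain ⟨q, hq, hd⟩ := Nat.exists_prime_and_dvd (mt (Subgroup.card_eq_one (H := ⁅V, A⁆)).mp hne)
    haveI := Fact.mk hq
    obtain ⟨v, hv⟩ := exists_prime_orderOf_dvd_card' (G := ↥⁅V, A⁆) q hd
    rw [← Subgroup.orderOf_coe] at hv
    have hvV : (v : G) ∈ V := Cfsg.Agent.Coprime.commutator_le_of_le_normalizer hAV v.2
    have hmem : (v : G) ∈ ⁅V, A⁆ ⊓ Subgroup.centralizer (A : Set G) :=
      ⟨v.2, fun a ha => hΩ v hvV (hv.symm ▸ hq) a ha⟩
    rw [Cfsg.Agent.Coprime.commutator_inf_centralizer_eq_bot hAV inferInstance hcop,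
      Subgroup.mem_bot] at hmem
    rw [hmem, orderOf_one] at hv
    exact hq.ne_one hv.symm
  rw [Subgroup.commutator_comm] at hbot
  exact Subgroup.commutator_eq_bot_iff_le_centralizer.mp hbot

end Cfsg.Agent.S0056
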