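import Cfsg.Statements.S0057
import Cfsg.Agent.Core.CoprimeAction
import Cfsg.Agent.Core.Products
import Cfsg.Agent.Coprime.PxQ

set_option autoImplicit false
open Cfsg
open scoped commutatorElement

namespace Cfsg.Agent.S0057

open Subgroup in
private theorem mul_set_subgroupOf {G : Type*} [Group G] {K C P : Subgroup G}
    (hP : P ≤ K) (h : ∀ k : K, ∃ x ∈ C.subgroupOf K, ∃ y ∈ P.subgroupOf K, k = x * y)
    [Finite G] : C.relIndex P = C.relIndex K := by
  rw [← relIndex_subgroupOf hP]
  exact Core.relIndex_eq_index_of_forall h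

open Subgroup in
private theorem key {G : Type*} [Group G] [Finite G] (A : Subgroup G) (p : ℕ) (hp : p.Prime) :
    ∀ n, ∀ K : Subgroup G, Nat.card K = n → A ≤ Subgroup.normalizer (K : Set G) →
    (Nat.card A).Coprime (Nat.card K) → (Group.IsSolvable A ∨ Group.IsSolvable K) →
    (K ⊓ centralizer (A : Set G)).relIndex K = p → Nat.card (⁅K, A⁆ : Subgroup G) = p := by
  intro n
  induction n using Nat.strong_induction_on with
  | _ n ih =>
  intro K hn hA hcop hs hidx
  have : Fact p.Prime := ⟨hp⟩
  obtain ⟨C, hC⟩ : ∃ C, C = K ⊓ centralizer (A : Set G) := ⟨_, rfl⟩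
  obtain ⟨D, hD⟩ : ∃ D, D = ⁅K, A⁆ := ⟨_, rfl⟩
  rw [← hC] at hidx
  rw [← hD]
  have hCK : C ≤ K := hC ▸ inf_le_left
  have hDK : D ≤ K := hD ▸ Coprime.commutator_le_of_le_normalizer hA
  have hsup : K = D ⊔ C := hD ▸ hC ▸ Core.eq_commutator_sup_centralizer hA hs hcop
  have hKD : K ≤ normalizer (D : Set G) := hD ▸ normalizer_commutator_ge_left K A
  rcases eq_or_lt_of_le hDK with hDeq | hDlt
  swap
  · -- `D` is proper: induction
    have hAD : A ≤ normalizer (D : Set G) := hD ▸ normalizer_commutator_ge_right K A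
    have hDD : ⁅D, A⁆ = D := by
      rw [hD]; exact Core.commutator_commutator_eq hA hs hcop
    have hidxD : (D ⊓ centralizer (A : Set G)).relIndex D = p := by
      rw [inf_relIndex_left, ← hidx, hC, inf_relIndex_left]
      refine mul_set_subgroupOf hDK fun k => ?_
      have hk : (k : G) ∈ D ⊔ C := by rw [← hsup]; exact k.2
      rw [← SetLike.mem_coe, coe_mul_of_right_le_normalizer_left _ _ (hCK.trans hKD)] at hk
      obtain ⟨d, hd, c, hc, hdc⟩ := Set.mem_mul.mp hk
      refine ⟨⟨c, hCK hc⟩, (hC ▸ hc).2, ⟨c⁻¹ * d * c, K.mul_mem (K.mul_mem (K.inv_mem (hCK hc))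
        (hDK hd)) (hCK hc)⟩, ?_, Subtype.ext ?_⟩
      · exact (mem_normalizer_iff''.mp (hKD (hCK hc)) d).mp hd
      · simp only [Subgroup.coe_mul]; rw [← hdc]; group
    have hlt : Nat.card D < n :=
      hn ▸ Set.ncard_lt_ncard (SetLike.coe_ssubset_coe.2 hDlt) (Set.toFinite _)
    have := ih _ hlt D rfl hAD (hcop.coprime_dvd_right (card_dvd_of_le hDK))
      (Core.solvable_or_of_le hs hDK) hidxD
    rwa [hDD] at this
  · rw [hDeq]
    rw [hDeq] at hD
    -- an `A`-invariant Sylow `p`-subgroup
    obtain ⟨P, hPK, hP, hPi, hPA⟩ := Core.exists_invariant_sylow hA hs hcop p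
    have hPC : ¬ P ≤ C := fun h => by
      have h2 := relIndex_mul_relIndex P C K h hCK
      rw [hidx] at h2
      exact hPi ⟨P.relIndex C, by rw [← h2]; ring⟩
    have hCP : C.relIndex K ≤ C.relIndex P := by
      obtain ⟨k, hk⟩ := IsPGroup.iff_card.mp hP
      obtain ⟨j, -, hj⟩ := (Nat.dvd_prime_pow hp).mp (hk ▸ relIndex_dvd_card C P)
      rw [hidx, hj]
      refine Nat.le_self_pow ?_ p
      rintro rfl
      exact hPC (relIndex_eq_one.mp (by simpa using hj))
    have hmul : ∀ k ∈ K, ∃ c ∈ C, ∃ y ∈ P, k = c * y := fun k hk => by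
      obtain ⟨c, hc, y, hy, hcy⟩ := Core.exists_mul_of_index_le_relIndex
        (H := C.subgroupOf K) (K := P.subgroupOf K)
        (by rw [relIndex_subgroupOf hPK]; exact hCP) ⟨k, hk⟩
      exact ⟨c, hc, y, hy, congrArg Subtype.val hcy⟩
    have hallA : ∀ k ∈ K, ∀ a ∈ A, k⁻¹ * a * k ∈ normalizer (P : Set G) := by
      intro k hk a ha
      obtain ⟨c, hc, y, hy, rfl⟩ := hmul k hk
      have hca : c⁻¹ * a * c = a := by
        have := mem_centralizer_iff.mp (hC ▸ hc).2 a ha
        rw [mul_assoc, this, inv_mul_cancel_left]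
      have hyN : y ∈ normalizer (P : Set G) := le_normalizer hy
      have : (c * y)⁻¹ * a * (c * y) = y⁻¹ * (c⁻¹ * a * c) * y := by group
      rw [this, hca]
      exact mul_mem (mul_mem (inv_mem hyN) (hPA ha)) hyN
    have hKP : K ≤ normalizer (P : Set G) := by
      rw [hD, commutator_le]
      intro k hk a ha
      have h1 := hallA k⁻¹ (K.inv_mem hk) a ha
      rw [inv_inv] at h1
      rw [commutatorElement_def]
      exact mul_mem h1 (inv_mem (hPA ha))
    have hKeq : K = P := by
      refine le_antisymm ?_ hPK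
      rw [hD, commutator_le]
      intro k hk a ha
      obtain ⟨c, hc, y, hy, rfl⟩ := hmul k hk
      have hca : c * a = a * c := (mem_centralizer_iff.mp (hC ▸ hc).2 a ha).symm
      have h2 : a * y⁻¹ * a⁻¹ ∈ P := (mem_normalizer_iff.mp (hPA ha) _).mp (inv_mem hy)
      have hca' : c⁻¹ * a⁻¹ = a⁻¹ * c⁻¹ := by rw [← mul_inv_rev, ← hca, mul_inv_rev]
      have e : ⁅c * y, a⁆ = c * (y * (a * y⁻¹ * a⁻¹)) * c⁻¹ := by
        simp only [commutatorElement_def, mul_inv_rev, mul_assoc, hca']
      rw [e]
      exact (mem_normalizer_iff.mp (hKP (hCK hc)) _).mp (mul_mem hy h2)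
    subst hKeq
    have := hP.isNilpotent
    -- `C` is normal in the `p`-group `K`
    have hCn : (C.subgroupOf K).Normal := by
      refine normal_of_index_eq_minFac_card ?_
      obtain ⟨k, hk⟩ := IsPGroup.iff_card.mp hP
      rw [show (C.subgroupOf K).index = C.relIndex K from rfl, hidx, hk,
        hp.pow_minFac]
      rintro rfl
      have h := (hidx ▸ relIndex_dvd_card C K)
      rw [hk] at h
      exact hp.ne_one (Nat.dvd_one.mp (by simpa using h))
    have hKC : K ≤ normalizer (C : Set G) := (normal_subgroupOf_iff_le_normalizer hCK).mp hCn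
    have hCA : ⁅C, A⁆ = ⊥ := by
      rw [commutator_eq_bot_iff_le_centralizer]
      exact hC ▸ inf_le_right
    have hAC : ⁅A, C⁆ = ⊥ := by rw [commutator_comm]; exact hCA
    have hKCA : ⁅⁅K, C⁆, A⁆ = ⊥ := by
      refine le_bot_iff.mp ((commutator_mono ?_ le_rfl).trans hCA.le)
      rw [commutator_comm]
      exact Coprime.commutator_le_of_le_normalizer hKC
    have h3 : ⁅⁅A, K⁆, C⁆ = ⊥ := commutator_commutator_eq_bot_of_rotate hKCA (by
      rw [hCA, commutator_bot_left])
    rw [commutator_comm A K, ← hD, commutator_eq_bot_iff_le_centralizer] at h3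
    -- so `C` is central and `K / C` is cyclic
    have hab : IsMulCommutative K := by
      have : IsCyclic (K ⧸ C.subgroupOf K) := isCyclic_of_prime_card (p := p)
        (by rw [← index_eq_card]; exact hidx)
      refine MonoidHom.isMulCommutative_of_isCyclic_of_ker_le_center (QuotientGroup.mk' (C.subgroupOf K)) ?_
      rw [QuotientGroup.ker_mk']
      intro x hx
      rw [mem_center_iff]
      exact fun g => (Subtype.ext (mem_centralizer_iff.mp (h3 g.2) _ hx)).symm
    have hbot := Coprime.commutator_inf_centralizer_eq_bot hA hab hcop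
    rw [← hD, ← hC] at hbot
    rw [← hidx, hbot, relIndex_bot_left]

/-- Under coprime action, if the centraliser of A in K has prime index p in K then the commutator subgroup [K, A] has order exactly p. -/
theorem result {G : Type*} [Group G] [Finite G] (A K : Subgroup G) (hAK : A ≤ Subgroup.normalizer (K : Set G))
    (hcop : (Nat.card A).Coprime (Nat.card K)) (hsolv : Group.IsSolvable A ∨ Group.IsSolvable K)
    (p : ℕ) (hp : p.Prime) (hidx : (K ⊓ Subgroup.centralizer (A : Set G)).relIndex K = p) :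
    Nat.card (⁅K, A⁆ : Subgroup G) = p := by
  exact key A p hp _ K rfl hAK hcop hsolv hidx

end Cfsg.Agent.S0057
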