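import Cfsg.Statements.S0059
import Cfsg.Agent.Core.CoprimeAction
-- import your own Cfsg.Agent.* helpers here

set_option autoImplicit false
open Cfsg

namespace Cfsg.Agent.S0059

/-- Let a finite group act on a set on which a normal subgroup K of coprime order and index is transitive, with K or the quotient solvable. Then any complement H of K has a fixed point, and any two H-fixed points are interchanged by an element of K centralising H. -/
theorem result {G : Type*} [Group G] [Finite G] {X : Type*} [Nonempty X] [MulAction G X]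
    (K H : Subgroup G) [K.Normal] (hc : Subgroup.IsComplement' K H) (hcop : (Nat.card K).Coprime K.index)
    (hsolv : Group.IsSolvable K ∨ Group.IsSolvable (G ⧸ K)) (htrans : MulAction.IsPretransitive K X) :
    (∃ x : X, ∀ h ∈ H, h • x = x) ∧
    ∀ x y : X, (∀ h ∈ H, h • x = x) → (∀ h ∈ H, h • y = y) → ∃ k ∈ K ⊓ Subgroup.centralizer (H : Set G), k • x = y := by
  have hA : H ≤ Subgroup.normalizer (K : Set G) := by
    rw [Subgroup.normalizer_eq_top (H := K)]; exact le_top
  have hcard : Nat.card H = K.index := Cfsg.Agent.Core.card_eq_index_of_isComplement' hc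
  have hcop' : (Nat.card H).Coprime (Nat.card K) := hcard ▸ hcop.symm
  have hs : Group.IsSolvable H ∨ Group.IsSolvable K := by
    rcases hsolv with h | h
    · exact Or.inr h
    · haveI := h
      refine Or.inl (Group.isSolvable_of_isSolvable_injective
        (f := (QuotientGroup.mk' K).comp H.subtype) ((MonoidHom.ker_eq_bot_iff _).mp ?_))
      rw [eq_bot_iff]
      intro x hx
      have hx' : (x : G) ∈ K ⊓ H := ⟨(QuotientGroup.eq_one_iff _).mp hx, x.2⟩
      rw [hc.disjoint.eq_bot, Subgroup.mem_bot] at hx'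
      exact Subgroup.mem_bot.mpr (Subtype.ext hx')
  refine ⟨?_, fun x y hx hy => ?_⟩
  · obtain ⟨x₀⟩ := (inferInstance : Nonempty X)
    obtain ⟨k, hk, hkS⟩ := Cfsg.Agent.Core.exists_conj_le hA hs hcop'
      (S := MulAction.stabilizer G x₀) (fun a _ => by
        obtain ⟨n, hn⟩ := MulAction.exists_smul_eq K (a • x₀) x₀
        exact ⟨n, n.2, by rw [MulAction.mem_stabilizer_iff, mul_smul]; exact hn⟩)
    refine ⟨k⁻¹ • x₀, fun h hh => ?_⟩
    have hst := MulAction.mem_stabilizer_iff.mp (hkS h hh)
    rw [mul_smul, mul_smul] at hst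
    rw [eq_inv_smul_iff, hst]
  · obtain ⟨⟨k, hk⟩, hky⟩ := MulAction.exists_smul_eq K x y
    have hky' : k • x = y := hky
    obtain ⟨s, hs', c, hc', he⟩ := Cfsg.Agent.Core.exists_mem_centralizer_of_conj_le hA hs hcop'
      (S := MulAction.stabilizer G x) (fun h hh => MulAction.mem_stabilizer_iff.mpr (hx h hh))
      (x := k⁻¹) (K.inv_mem hk) (fun h hh => by
        rw [MulAction.mem_stabilizer_iff, mul_smul, mul_smul, inv_inv, hky', hy h hh, ← hky',
          inv_smul_smul])
    refine ⟨c⁻¹, Subgroup.inv_mem _ hc', ?_⟩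
    have h2 : k = c⁻¹ * s⁻¹ := by rw [← mul_inv_rev, ← he, inv_inv]
    rw [← hky', h2, mul_smul, MulAction.mem_stabilizer_iff.mp (inv_mem hs'.2)]

end Cfsg.Agent.S0059
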