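import Cfsg.Statements.S0060
import Cfsg.Agent.Core.Cores
import Cfsg.Agent.Core.Conj

set_option autoImplicit false
open Pointwise
open Cfsg

namespace Cfsg.Agent.S0060

/-- Brodkey's Theorem: in a finite group with abelian Sylow p-subgroups and no nontrivial normal p-subgroup, some conjugate of a Sylow p-subgroup meets it trivially. -/
theorem result {G : Type*} [Group G] [Finite G] (p : ℕ) [Fact p.Prime]
    (S : Sylow p G) (hS : IsMulCommutative S) (hOp : Cfsg.pCore p G = ⊥) :
    ∃ g : G, (S : Subgroup G) ⊓ MulAut.conj g • (S : Subgroup G) = ⊥ := by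
  obtain ⟨⟨A, B⟩, -, hmin⟩ := (Set.finite_univ : (Set.univ : Set (Sylow p G × Sylow p G)).Finite).exists_minimalFor
    (fun AB => Nat.card ((AB.1 : Subgroup G) ⊓ (AB.2 : Subgroup G) : Subgroup G)) _ ⟨(S, S), trivial⟩
  have hab : ∀ X : Sylow p G, IsMulCommutative (X : Subgroup G) := by
    intro X
    haveI := hS
    refine ⟨⟨fun a b => (Sylow.equiv X S).injective ?_⟩⟩
    rw [map_mul, map_mul]
    exact mul_comm' _ _
  set D := (A : Subgroup G) ⊓ (B : Subgroup G) with hD
  set N := Subgroup.centralizer (D : Set G) with hN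
  have hcent : ∀ X : Sylow p G, D ≤ (X : Subgroup G) → (X : Subgroup G) ≤ N := fun X hX =>
    (Subgroup.le_centralizer_iff_isMulCommutative.mpr (hab X)).trans (Subgroup.centralizer_le hX)
  have hAN := hcent A inf_le_left
  have hBN := hcent B inf_le_right
  have hDall : ∀ R : Sylow p G, D ≤ (R : Subgroup G) := by
    intro R
    obtain ⟨U, hU⟩ := (R.2.comap_subtype (K := N)).exists_le_sylow
    obtain ⟨n, hn⟩ := MulAction.exists_smul_eq N (B.subtype hBN) U
    have hfix : MulAut.conj (n : G) • D = D :=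
      Subgroup.mem_normalizer_iff_map_conj_eq.mp (Subgroup.centralizer_le_normalizer _ n.2)
    have hA' : MulAut.conj (n : G) • (A : Subgroup G) ≤ N := by
      intro z hz
      rw [Cfsg.Agent.Core.mem_conj_smul_iff] at hz
      simpa [mul_assoc] using N.mul_mem (N.mul_mem n.2 (hAN hz)) (N.inv_mem n.2)
    have hle : (R : Subgroup G) ⊓ MulAut.conj (n : G) • (A : Subgroup G) ≤ MulAut.conj (n : G) • (B : Subgroup G) := by
      intro z hz
      have hzN : z ∈ N := hA' hz.2
      have hzU : (⟨z, hzN⟩ : N) ∈ (U : Subgroup N) := hU (show (⟨z, hzN⟩ : N) ∈ (R : Subgroup G).subgroupOf N from hz.1)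
      rw [← hn, Sylow.coe_subgroup_smul, Cfsg.Agent.Core.mem_conj_smul_iff, Sylow.coe_subtype,
        Subgroup.mem_subgroupOf] at hzU
      rw [Cfsg.Agent.Core.mem_conj_smul_iff]
      exact hzU
    have hle2 : (R : Subgroup G) ⊓ MulAut.conj (n : G) • (A : Subgroup G) ≤ D := by
      refine (le_inf inf_le_right hle).trans_eq ?_
      rw [← Subgroup.smul_inf, ← hD, hfix]
    have h1 := hmin (j := (R, (n : G) • A)) trivial (by
      show Nat.card ((R : Subgroup G) ⊓ ((n : G) • A : Sylow p G) : Subgroup G) ≤ Nat.card D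
      rw [Sylow.coe_subgroup_smul]
      exact Subgroup.card_le_of_le hle2)
    simp only [Sylow.coe_subgroup_smul] at h1
    rw [← Subgroup.eq_of_le_of_card_ge hle2 h1]
    exact inf_le_left
  have hbot : D = ⊥ := by
    rw [eq_bot_iff, ← hOp, Cfsg.Agent.Core.pCore_eq_iInf_sylow]
    exact le_iInf hDall
  obtain ⟨a, ha⟩ := MulAction.exists_smul_eq G A S
  obtain ⟨b, hb⟩ := MulAction.exists_smul_eq G S (a • B)
  refine ⟨b, ?_⟩
  have h1 : MulAut.conj b • (S : Subgroup G) = MulAut.conj a • (B : Subgroup G) := by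
    rw [← Sylow.coe_subgroup_smul, hb, Sylow.coe_subgroup_smul]
  conv_lhs => rw [← ha, Sylow.coe_subgroup_smul]
  rw [← ha] at h1
  rw [Sylow.coe_subgroup_smul] at h1
  rw [h1, ← Subgroup.smul_inf, ← hD, hbot, Subgroup.smul_bot]

end Cfsg.Agent.S0060
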