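import Cfsg.Statements.S0064
import Cfsg.Agent.FGS4.Subnormal
-- import your own Cfsg.Agent.* helpers here

set_option autoImplicit false
open Cfsg

namespace Cfsg.Agent.S0064

/-- A finite group is nilpotent exactly when each of its subgroups is subnormal. -/
theorem result {G : Type*} [Group G] [Finite G] :
    Group.IsNilpotent G ↔ ∀ H : Subgroup G, H.IsSubnormal := by
  refine ⟨fun h H => ?_, fun h => ?_⟩
  · haveI := h; exact Cfsg.Agent.FGS4.isSubnormal_of_isNilpotent H
  · refine (Group.isNilpotent_of_finite_tfae (G := G)).out 2 0 rfl rfl |>.mp fun M hM => ?_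
    rcases (h M).lt_normal with h1 | ⟨K, hK, hMK, hKt⟩
    · exact absurd h1 hM.1
    · rcases hM.le_iff.mp hMK with h2 | h2
      · exact absurd h2 hKt.ne
      · exact h2 ▸ hK

end Cfsg.Agent.S0064
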