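import Cfsg.Statements.S0073
import Cfsg.Agent.Transfer.Burnside
import Mathlib.GroupTheory.Subgroup.Simple

set_option autoImplicit false
open Cfsg

namespace Cfsg.Agent.S0073

/-- For a finite non-abelian simple group, either the cube of the least prime divisor of the order divides the order, or 12 does. -/
theorem result {G : Type*} [Group G] [Finite G] [IsSimpleGroup G] (hG : ∃ x y : G, x * y ≠ y * x) : (Nat.card G).minFac ^ 3 ∣ Nat.card G ∨ 12 ∣ Nat.card G := by
  by_contra hcon
  rw [not_or] at hcon
  obtain ⟨hcube, h12⟩ := hcon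
  haveI : Nontrivial G := by
    obtain ⟨x, y, hxy⟩ := hG
    exact ⟨⟨x * y, y * x, hxy⟩⟩
  set p := (Nat.card G).minFac with hpdef
  have hp : p.Prime := Nat.minFac_prime Finite.one_lt_card.ne'
  haveI := Fact.mk hp
  obtain ⟨P⟩ : Nonempty (Sylow p G) := inferInstance
  obtain ⟨n, hn⟩ := IsPGroup.iff_card.mp P.2
  have hn2 : n ≤ 2 := by
    by_contra hc
    exact hcube (((pow_dvd_pow p (by omega : 3 ≤ n)).trans (dvd_of_eq hn.symm)).trans
      (Subgroup.card_subgroup_dvd_card _))
  have hab : IsMulCommutative P := by
    interval_cases n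
    · haveI : Subsingleton P := (Nat.card_eq_one_iff_unique.mp (by simpa using hn)).1
      exact ⟨⟨fun a b => Subsingleton.elim _ _⟩⟩
    · haveI : IsCyclic P := isCyclic_of_prime_card (by simpa using hn)
      exact ⟨⟨fun a b => by
        obtain ⟨g, hg⟩ := IsCyclic.exists_generator (α := P)
        obtain ⟨i, rfl⟩ := hg a
        obtain ⟨j, rfl⟩ := hg b
        exact (Commute.zpow_zpow (Commute.refl g) i j).eq⟩⟩
    · exact IsPGroup.isMulCommutative_of_card_eq_prime_sq hn
  have hN : HasNormalPComplement p G := by
    refine Cfsg.Agent.Transfer.hasNormalPComplement_of_normalizer_le_centralizer P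
      (Cfsg.Agent.Transfer.normalizer_le_centralizer_of_arith P hab hn ?_)
    intro q hq hqG hqp i h1 h2 hd
    have hlt : p < q := lt_of_le_of_ne (Nat.minFac_le_of_dvd hq.two_le hqG) (Ne.symm hqp)
    have hi : i ≤ 2 := h2.trans hn2
    interval_cases i
    · rw [pow_one] at hd
      have := Nat.le_of_dvd (by have := hp.two_le; omega) hd
      omega
    · rw [show p ^ 2 - 1 = (p + 1) * (p - 1) by
        simpa using Nat.sq_sub_sq p 1] at hd
      rcases hq.dvd_mul.mp hd with h | h
      · have hq1 : q = p + 1 := by
          have := Nat.le_of_dvd (by omega) h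
          omega
        have hpe : p = 2 := by
          rcases hp.eq_two_or_odd with h' | h'
          · exact h'
          · have := hp.two_le; have := hq.two_le
            rcases hq.eq_two_or_odd with h'' | h'' <;> omega
        apply h12
        have h4 : 4 ∣ Nat.card G := by
          rw [show (4 : ℕ) = p ^ n by rw [hpe, (le_antisymm hn2 h2 : n = 2)]; rfl, ← hn]
          exact Subgroup.card_subgroup_dvd_card _
        have h3 : 3 ∣ Nat.card G := by rw [show (3 : ℕ) = q by omega]; exact hqG
        exact Nat.Coprime.mul_dvd_of_dvd_of_dvd (m := 4) (n := 3) (by norm_num) h4 h3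
      · have := Nat.le_of_dvd (by have := hp.two_le; omega) h
        omega
  rcases (Cfsg.Agent.Transfer.pResidual_normal (p := p) (G := G)).eq_bot_or_eq_top with h | h
  · have hq := Cfsg.Agent.Transfer.isPGroup_quotient_pResidual (p := p) (G := G)
    have hGp : IsPGroup p G := hq.of_equiv
      ((QuotientGroup.quotientMulEquivOfEq h).trans QuotientGroup.quotientBot)
    haveI := hGp.center_nontrivial
    obtain ⟨x, y, hxy⟩ := hG
    rcases (inferInstance : (Subgroup.center G).Normal).eq_bot_or_eq_top with hc | hc
    · exact (Subgroup.nontrivial_iff_ne_bot _).mp inferInstance hc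
    · exact hxy ((Subgroup.mem_center_iff.mp (hc ▸ Subgroup.mem_top y : y ∈ Subgroup.center G)) x)
  · have := Cfsg.Agent.Transfer.hasNormalPComplement_iff_coprime_pResidual.mp hN
    rw [h, Subgroup.card_top] at this
    exact (hp.coprime_iff_not_dvd.mp this.symm) (Nat.minFac_dvd _)

end Cfsg.Agent.S0073
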