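import Cfsg.Statements.S0075
import Cfsg.Agent.Transfer.Average

set_option autoImplicit false
open Cfsg
open scoped commutatorElement Pointwise

namespace Cfsg.Agent.S0075

/-- For an abelian Sylow p-subgroup T, its intersection with the subgroup generated by the elements of order prime to p is the commutator of T with its normalizer. -/
theorem result {G : Type*} [Group G] [Finite G] {p : ℕ} [Fact p.Prime] (T : Sylow p G) (hT : IsMulCommutative T) : (T : Subgroup G) ⊓ Cfsg.pResidual p G = ⁅(T : Subgroup G), Subgroup.normalizer (T : Set G)⁆ := by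
  apply le_antisymm
  · refine Cfsg.Agent.Transfer.inf_pResidual_le_of_forall T fun x hx g _ hgx => ?_
    rw [← Cfsg.Agent.Transfer.focalSubgroup_eq_commutator_of_abelian T hT]
    exact Cfsg.Agent.Transfer.mul_mem_focalSubgroup hx.1 hgx
  · rw [Subgroup.commutator_le]
    intro t ht n hn
    let N := Subgroup.normalizer (T : Set G)
    have hn' : (⟨n, hn⟩ : N) ∈ ((T.subtype Subgroup.le_normalizer : Sylow p N) : Subgroup N) ⊔
        pResidual p N := by
      rw [Cfsg.Agent.Transfer.sylow_sup_pResidual]; trivial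
    obtain ⟨s, hs, k, hk, e⟩ := Subgroup.mem_sup_of_normal_right.mp hn'
    have hnk : n = (s : G) * k := (congrArg Subtype.val e).symm
    have hkK : (k : G) ∈ pResidual p G :=
      Cfsg.Agent.Transfer.pResidual_map_subtype_le N ⟨k, hk, rfl⟩
    have hsT : (s : G) ∈ (T : Subgroup G) := hs
    have hcomm : ∀ a ∈ (T : Subgroup G), ∀ b ∈ (T : Subgroup G), a * b = b * a := fun a ha b hb =>
      congrArg Subtype.val (mul_comm' (⟨a, ha⟩ : T) ⟨b, hb⟩)
    refine ⟨?_, ?_⟩
    · rw [commutatorElement_def, show t * n * t⁻¹ * n⁻¹ = t * (n * t⁻¹ * n⁻¹) by group]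
      exact mul_mem ht ((Subgroup.mem_normalizer_iff.mp hn _).mp (inv_mem ht))
    · have hT1 : t * (k : G) * t⁻¹ * (k : G)⁻¹ ∈ pResidual p G :=
        mul_mem (Cfsg.Agent.Transfer.pResidual_normal.conj_mem _ hkK _) (inv_mem hkK)
      have e2 : ⁅t, n⁆ = (s : G) * (t * (k : G) * t⁻¹ * (k : G)⁻¹) * (s : G)⁻¹ := by
        rw [commutatorElement_def, hnk, mul_inv_rev,
          show t * ((s : G) * k) = (t * s) * k by group, hcomm t ht _ hsT]
        group
      show ⁅t, n⁆ ∈ pResidual p G
      rw [e2]
      exact Cfsg.Agent.Transfer.pResidual_normal.conj_mem _ hT1 _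

end Cfsg.Agent.S0075
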