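import Cfsg.Statements.S0078
import Cfsg.Agent.Transfer.Gruen

set_option autoImplicit false
open Cfsg
open scoped commutatorElement Pointwise

namespace Cfsg.Agent.S0078

/-- In a p-normal group, a Sylow p-subgroup P meets O^p(G) exactly where it meets O^p(V), for any subgroup V containing the normalizer of the centre of P. -/
theorem result {G : Type*} [Group G] [Finite G] {p : ℕ} [Fact p.Prime] (P : Sylow p G) (hn : ∀ Q : Sylow p G, (P : Subgroup G) ⊓ Subgroup.centralizer (P : Set G) ≤ (Q : Subgroup G) → (Q : Subgroup G) ⊓ Subgroup.centralizer (Q : Set G) = (P : Subgroup G) ⊓ Subgroup.centralizer (P : Set G)) (V : Subgroup G) (hV : Subgroup.normalizer (((P : Subgroup G) ⊓ Subgroup.centralizer (P : Set G) : Subgroup G) : Set G) ≤ V) : (P : Subgroup G) ⊓ Cfsg.pResidual p G = (P : Subgroup G) ⊓ (Cfsg.pResidual p V).map V.subtype := by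
  set Z := (P : Subgroup G) ⊓ Subgroup.centralizer (P : Set G) with hZ
  have hW : IsWeaklyClosed Z (P : Subgroup G) := by
    refine ⟨inf_le_left, fun g hg => ?_⟩
    have h1 : Z ≤ ((g⁻¹ • P : Sylow p G) : Subgroup G) := by
      intro z hz
      rw [Sylow.coe_subgroup_smul]
      refine Cfsg.Agent.Transfer.mem_map_conj.mpr ?_
      simpa using hg ⟨z, hz, rfl⟩
    have h2 := hn _ h1
    rw [Sylow.coe_subgroup_smul] at h2
    have key : ∀ x : G, x ∈ Z ↔ g * x * g⁻¹ ∈ Z := by
      intro x
      conv_lhs => rw [← h2]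
      constructor
      · rintro ⟨ha, hb⟩
        refine ⟨?_, ?_⟩
        · have := Cfsg.Agent.Transfer.mem_map_conj.mp ha
          rw [inv_inv] at this
          exact this
        · show g * x * g⁻¹ ∈ Subgroup.centralizer (P : Set G)
          rw [Subgroup.mem_centralizer_iff]
          intro y hy
          have h4 : g⁻¹ * y * g ∈ ((g⁻¹ • P : Sylow p G) : Subgroup G) := by
            rw [Sylow.coe_subgroup_smul]
            refine Cfsg.Agent.Transfer.mem_map_conj.mpr ?_
            rw [inv_inv, show g * (g⁻¹ * y * g) * g⁻¹ = y by group]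
            exact hy
          have := Subgroup.mem_centralizer_iff.mp hb (g⁻¹ * y * g) h4
          calc y * (g * x * g⁻¹) = g * ((g⁻¹ * y * g) * x) * g⁻¹ := by group
            _ = g * x * g⁻¹ * y := by rw [this]; group
      · rintro ⟨ha, hb⟩
        refine ⟨Cfsg.Agent.Transfer.mem_map_conj.mpr (by rw [inv_inv]; exact ha), ?_⟩
        show x ∈ Subgroup.centralizer _
        rw [Subgroup.mem_centralizer_iff]
        intro y hy
        have hy : y ∈ ((g⁻¹ • P : Sylow p G) : Subgroup G) := hy
        rw [Sylow.coe_subgroup_smul] at hy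
        have h3 : g * y * g⁻¹ ∈ (P : Subgroup G) := by
          simpa [mul_assoc] using Cfsg.Agent.Transfer.mem_map_conj.mp hy
        calc y * x = g⁻¹ * ((g * y * g⁻¹) * (g * x * g⁻¹)) * g := by group
          _ = x * y := by rw [Subgroup.mem_centralizer_iff.mp hb _ h3]; group
    ext x
    rw [Cfsg.Agent.Transfer.mem_map_conj, key]
    simp [mul_assoc]
  refine Cfsg.Agent.Transfer.inf_pResidual_eq_of_commutator_inf_le P (le_trans ?_ hV)
    (Cfsg.Agent.Transfer.commutator_inf_le_of_weaklyClosed P inf_le_right hW hV)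
  intro x hx
  rw [Subgroup.mem_normalizer_iff_conj_image_eq]
  have hfix : ∀ z ∈ Z, x * z * x⁻¹ = z := fun z hz => by
    rw [Subgroup.mem_centralizer_iff.mp hz.2 x hx, mul_inv_cancel_right]
  refine Set.ext fun z => ⟨?_, fun hz => ⟨z, hz, hfix z hz⟩⟩
  rintro ⟨w, hw, rfl⟩
  show x * w * x⁻¹ ∈ Z
  rw [hfix w hw]; exact hw

end Cfsg.Agent.S0078
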