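import Cfsg.Statements.S0079
import Cfsg.Agent.Transfer.Burnside

set_option autoImplicit false
open Cfsg

namespace Cfsg.Agent.S0079

theorem conj_in_sylow {H : Type*} [Group H] [Finite H] [Group.IsNilpotent H] {p : ℕ} [Fact p.Prime]
    (S : Sylow p H) {a : H} (ha : a ∈ S) (h : H) : ∃ z ∈ S, z * a * z⁻¹ = h * a * h⁻¹ := by
  haveI hn : ∀ (q : ℕ) [Fact q.Prime] (Q : Sylow q H), (Q : Subgroup H).Normal := fun q _ Q =>
    Sylow.normal_of_normalizerCondition normalizerCondition_of_isNilpotent Q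
  haveI := hn p S
  have htop : (S : Subgroup H) ⊔ Subgroup.centralizer (S : Set H) = ⊤ := by
    apply Core.eq_top_of_forall_exists_sylow_le
    intro q hq
    haveI := Fact.mk hq
    rcases eq_or_ne q p with rfl | hqp
    · exact ⟨S, le_sup_left⟩
    · obtain ⟨Q⟩ : Nonempty (Sylow q H) := inferInstance
      refine ⟨Q, le_trans (fun x hx => ?_) le_sup_right⟩
      rw [Subgroup.mem_centralizer_iff]
      intro y hy
      exact (Subgroup.commute_of_normal_of_disjoint _ _ (hn p S) (hn q Q)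
        (IsPGroup.disjoint_of_ne p q (Ne.symm hqp) _ _ S.2 Q.2) y x hy hx).eq
  obtain ⟨z, hz, c, hc, rfl⟩ := Subgroup.mem_sup_of_normal_left.mp
    (htop.symm ▸ Subgroup.mem_top h : h ∈ (S : Subgroup H) ⊔ Subgroup.centralizer (S : Set H))
  refine ⟨z, hz, ?_⟩
  calc z * a * z⁻¹ = z * (a * c) * c⁻¹ * z⁻¹ := by group
    _ = z * c * a * (z * c)⁻¹ := by rw [Subgroup.mem_centralizer_iff.mp hc a ha]; group

theorem exists_complement {G : Type*} [Group G] [Finite G] (H : Subgroup G)
    (hHall : Nat.Coprime (Nat.card H) H.index)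
    (key : ∀ p : ℕ, p.Prime → p ∣ Nat.card H → HasNormalPComplement p G) :
    ∃ N : Subgroup G, N.Normal ∧ N.IsComplement' H := by
  let N : Subgroup G := ⨅ p ∈ {p : ℕ | p.Prime ∧ p ∣ Nat.card H}, pResidual p G
  have hN : N.Normal := Subgroup.normal_iInf_normal fun p =>
    Subgroup.normal_iInf_normal fun _ => Cfsg.Agent.Transfer.pResidual_normal
  have hcop : (Nat.card N).Coprime (Nat.card H) := by
    rw [Nat.coprime_comm]
    apply Nat.coprime_of_dvd
    intro p hp hpH hpN
    haveI := Fact.mk hp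
    have h1 := Cfsg.Agent.Transfer.hasNormalPComplement_iff_coprime_pResidual.mp (key p hp hpH)
    exact (hp.coprime_iff_not_dvd.mp h1.symm)
      (hpN.trans (Subgroup.card_dvd_of_le (iInf₂_le p ⟨hp, hpH⟩)))
  have hidx : N.index.Coprime H.index := by
    apply Nat.coprime_of_dvd
    intro q hq hqN hqH
    haveI := Fact.mk hq
    obtain ⟨Q⟩ : Nonempty (Sylow q G) := inferInstance
    have hQN : (Q : Subgroup G) ≤ N := by
      refine le_iInf₂ fun p hp x hx => ?_
      have hqp : q ≠ p := by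
        rintro rfl
        exact Nat.not_coprime_of_dvd_of_dvd hq.one_lt hp.2 hqH hHall
      obtain ⟨k, hk⟩ := IsPGroup.iff_orderOf.mp Q.2 ⟨x, hx⟩
      apply Cfsg.Agent.Transfer.mem_pResidual_of_coprime
      rw [show orderOf x = q ^ k from (Subgroup.orderOf_coe _).trans hk]
      exact ((Nat.coprime_primes hq hp.1).mpr hqp).pow_left k
    exact Q.not_dvd_index (hqN.trans (Subgroup.index_dvd_of_le hQN))
  refine ⟨N, hN, Subgroup.isComplement'_of_coprime ?_ hcop⟩
  have e : Nat.card N * N.index = Nat.card H * H.index := by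
    rw [Subgroup.card_mul_index, Subgroup.card_mul_index]
  have h1 : Nat.card N = H.index := Nat.dvd_antisymm
    (hcop.dvd_of_dvd_mul_left (e ▸ Dvd.intro _ rfl))
    (hidx.symm.dvd_of_dvd_mul_right (e ▸ Dvd.intro_left _ rfl))
  rw [h1, mul_comm, Subgroup.card_mul_index]

/-- A nilpotent Hall subgroup has a normal complement exactly when elements of it that are conjugate in the whole group are already conjugate inside it. -/
theorem result {G : Type*} [Group G] [Finite G] (H : Subgroup G) (hH : Group.IsNilpotent H) (hHall : Nat.Coprime (Nat.card H) H.index) : (∃ N : Subgroup G, N.Normal ∧ N.IsComplement' H) ↔ ∀ x ∈ H, ∀ y ∈ H, (∃ g : G, g * x * g⁻¹ = y) → ∃ h ∈ H, h * x * h⁻¹ = y := by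
  constructor
  · rintro ⟨N, hN, hc⟩ x hx y hy ⟨g, hg⟩
    have hg' : g ∈ N ⊔ H := hc.sup_eq_top ▸ Subgroup.mem_top g
    obtain ⟨n, hn, h, hh, rfl⟩ := Subgroup.mem_sup_of_normal_left.mp hg'
    refine ⟨h, hh, ?_⟩
    have h1 : h * x * h⁻¹ ∈ H := mul_mem (mul_mem hh hx) (inv_mem hh)
    have h2 : y * (h * x * h⁻¹)⁻¹ ∈ N := by
      rw [← hg, show n * h * x * (n * h)⁻¹ * (h * x * h⁻¹)⁻¹
        = n * ((h * x * h⁻¹) * n⁻¹ * (h * x * h⁻¹)⁻¹) by group]
      exact mul_mem hn (hN.conj_mem _ (inv_mem hn) _)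
    have h3 : y * (h * x * h⁻¹)⁻¹ ∈ (⊥ : Subgroup G) := by
      rw [← (hc.disjoint).eq_bot]
      exact ⟨h2, H.mul_mem hy (H.inv_mem h1)⟩
    exact (mul_inv_eq_one.mp (Subgroup.mem_bot.mp h3)).symm
  · intro hfus
    -- every prime divisor of |H| gives a normal p-complement
    have key : ∀ p : ℕ, p.Prime → p ∣ Nat.card H → HasNormalPComplement p G := by
      intro p hp hpH
      haveI := Fact.mk hp
      obtain ⟨S⟩ : Nonempty (Sylow p H) := inferInstance
      let P : Sylow p G := IsPGroup.toSylow (P := (S : Subgroup H).map H.subtype) (S.2.map _) (by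
        rw [Subgroup.index_map, Subgroup.ker_subtype, sup_bot_eq, Subgroup.range_subtype]
        refine fun hd => (hp.dvd_mul.mp hd).elim S.not_dvd_index fun hd' => ?_
        exact Nat.not_coprime_of_dvd_of_dvd hp.one_lt hpH hd' hHall)
      apply Cfsg.Agent.Transfer.hasNormalPComplement_of_fusion P
      intro x hx g hgx
      obtain ⟨a, ha, rfl⟩ := hx
      obtain ⟨b, hb, hb'⟩ := hgx
      obtain ⟨h, hh, e⟩ := hfus a a.2 b b.2 ⟨g, hb'.symm⟩
      obtain ⟨z, hz, e'⟩ := Cfsg.Agent.S0079.conj_in_sylow S ha ⟨h, hh⟩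
      refine ⟨z, ⟨z, hz, rfl⟩, ?_⟩
      exact ((congrArg Subtype.val e').trans e).trans hb'
    exact Cfsg.Agent.S0079.exists_complement H hHall key

end Cfsg.Agent.S0079
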