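import Cfsg.Statements.S0080
import Cfsg.Agent.Transfer.Complement

set_option autoImplicit false
open Cfsg
open scoped IsMulCommutative

namespace Cfsg.Agent.S0080

/-- When the index of H is prime to the order of H/H', the focal subgroup of H is G' ∩ H, and H/(G' ∩ H) has a normal complement. -/
theorem result {G : Type*} [Group G] [Finite G] (H : Subgroup G) (h : Nat.Coprime H.index (⁅H, H⁆.relIndex H)) : Subgroup.focalSubgroup H = commutator G ⊓ H ∧ ∃ N : Subgroup G, N.Normal ∧ N ⊓ H = commutator G ⊓ H ∧ N ⊔ H = ⊤ := by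
  haveI : H.FiniteIndex := inferInstance
  set V := H.transferFocal with hV
  have hd : Nat.card (H ⧸ H.focalSubgroupOf) ∣ ⁅H, H⁆.relIndex H := by
    rw [← Subgroup.index_eq_card]
    exact Subgroup.index_dvd_of_le (fun x hx => H.commutator_le_focalSubgroup hx)
  have hcop : (Nat.card (H ⧸ H.focalSubgroupOf)).Coprime H.index :=
    Nat.Coprime.coprime_dvd_left hd h.symm
  have hinf : V.ker ⊓ H = H.focalSubgroup := by
    ext x
    constructor
    · rintro ⟨hx, hxH⟩
      have h1 := Subgroup.transferFocal_eq_pow H ⟨x, hxH⟩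
      rw [← hV, MonoidHom.mem_ker.mp hx] at h1
      have h2 : (((⟨x, hxH⟩ : H)) : H ⧸ H.focalSubgroupOf) = 1 := by
        apply (powCoprime hcop).injective
        simp only [powCoprime_apply, one_pow]
        exact h1.symm
      exact (QuotientGroup.eq_one_iff (⟨x, hxH⟩ : H)).mp h2
    · intro hx
      have hxH := H.focalSubgroup_le hx
      refine ⟨?_, hxH⟩
      show x ∈ V.ker
      rw [MonoidHom.mem_ker, show x = ((⟨x, hxH⟩ : H) : G) from rfl, hV,
        Subgroup.transferFocal_eq_pow,
        (QuotientGroup.eq_one_iff (⟨x, hxH⟩ : H)).mpr hx, one_pow]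
  have hfoc : H.focalSubgroup = commutator G ⊓ H := by
    refine le_antisymm (le_inf H.focalSubgroup_le_commutator H.focalSubgroup_le) ?_
    rw [← hinf]
    exact inf_le_inf_right _ (Abelianization.commutator_subset_ker V)
  refine ⟨hfoc, V.ker, inferInstance, hinf.trans hfoc, ?_⟩
  rw [eq_top_iff]
  intro g _
  obtain ⟨y, hy⟩ := (powCoprime hcop).surjective (V g)
  obtain ⟨x, rfl⟩ := QuotientGroup.mk'_surjective _ y
  have hx : V (x : G) = V g := (Subgroup.transferFocal_eq_pow H x).trans hy
  have := Subgroup.mul_mem_sup (S := V.ker) (T := H) (x := g * (x : G)⁻¹) (y := (x : G))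
    (by rw [MonoidHom.mem_ker, map_mul, map_inv, hx, mul_inv_cancel]) x.2
  simpa using this

end Cfsg.Agent.S0080
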