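import Cfsg.Statements.S0082
import Cfsg.Agent.Transfer.Tate

set_option autoImplicit false
open Cfsg

namespace Cfsg.Agent.S0082

/-- With a cyclic Sylow p-subgroup, either there is a normal p-complement or the elements of order prime to p generate the whole group. -/
theorem result {G : Type*} [Group G] [Finite G] {p : ℕ} [Fact p.Prime] (P : Sylow p G) (hP : IsCyclic P) : Cfsg.HasNormalPComplement p G ∨ Cfsg.pResidual p G = ⊤ := by
  let Qp : Subgroup (P : Subgroup G) := (pResidual p G).subgroupOf (P : Subgroup G)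
  let Φ := frattini (P : Subgroup G)
  have hΦi : Φ.index ∣ p := by
    haveI : IsCyclic ((P : Subgroup G) ⧸ Φ) :=
      isCyclic_of_surjective (QuotientGroup.mk' Φ) (QuotientGroup.mk'_surjective Φ)
    rw [Subgroup.index_eq_card]
    obtain ⟨x, hx⟩ := IsCyclic.exists_generator (α := (P : Subgroup G) ⧸ Φ)
    rw [← orderOf_eq_card_of_forall_mem_zpowers hx]
    exact orderOf_dvd_of_pow_eq_one (Cfsg.Agent.FGS3.quotient_frattini_pow P.2 x)
  have hi : (Qp ⊔ Φ).index ∣ p := (Subgroup.index_dvd_of_le le_sup_right).trans hΦi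
  rcases (Nat.dvd_prime (Fact.out : p.Prime)).mp hi with h | h
  · right
    have hQ : Qp = ⊤ := frattini_nongenerating (Subgroup.index_eq_one.mp h)
    rw [← Cfsg.Agent.Transfer.sylow_sup_pResidual (p := p) P]
    exact (sup_eq_right.mpr (Subgroup.subgroupOf_eq_top.mp hQ)).symm
  · left
    have hQΦ : Qp ≤ Φ := by
      have heq : Φ = Qp ⊔ Φ := Subgroup.eq_of_le_of_card_ge le_sup_right (by
        have e1 := Subgroup.card_mul_index Φ
        have e2 := Subgroup.card_mul_index (Qp ⊔ Φ)
        rw [h, ← e1] at e2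
        have hpos : 0 < Φ.index := Nat.pos_of_ne_zero Subgroup.index_ne_zero_of_finite
        have hle : Φ.index ≤ p := Nat.le_of_dvd (Fact.out : p.Prime).pos hΦi
        exact Nat.le_of_mul_le_mul_right (by rw [e2]; exact Nat.mul_le_mul_left _ hle)
          (Fact.out : p.Prime).pos)
      rw [heq]; exact le_sup_left
    have hK : HasNormalPComplement p (pResidual p G) := by
      refine Cfsg.Agent.Transfer.hasNormalPComplement_of_inf_le_frattini P _ fun x hx => ?_
      exact ⟨⟨x, hx.2⟩, hQΦ (show (⟨x, hx.2⟩ : (P : Subgroup G)) ∈ Qp from hx.1), rfl⟩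
    have := Cfsg.Agent.Transfer.hasNormalPComplement_iff_coprime_pResidual.mp hK
    rw [Cfsg.Agent.Transfer.pResidual_subgroup_eq_top, Subgroup.card_top] at this
    exact Cfsg.Agent.Transfer.hasNormalPComplement_iff_coprime_pResidual.mpr this

end Cfsg.Agent.S0082
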