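import Cfsg.Statements.S0083
import Cfsg.Agent.Transfer.Burnside

set_option autoImplicit false
open Cfsg

namespace Cfsg.Agent.S0083

/-- For an abelian Sylow p-subgroup P, a normal p-complement exists exactly when the normalizer of P is an internal direct product of P with some subgroup. -/
theorem result {G : Type*} [Group G] [Finite G] {p : ℕ} [Fact p.Prime] (P : Sylow p G) (hP : IsMulCommutative P) : Cfsg.HasNormalPComplement p G ↔ ∃ Q : Subgroup G, Q ≤ Subgroup.centralizer (P : Set G) ∧ Q ⊓ (P : Subgroup G) = ⊥ ∧ Q ⊔ (P : Subgroup G) = Subgroup.normalizer (P : Set G) := by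
  haveI := hP
  constructor
  · intro h
    refine ⟨Subgroup.normalizer (P : Set G) ⊓ pResidual p G, ?_, ?_, ?_⟩
    · rintro g ⟨hg, hgK⟩
      exact Cfsg.Agent.Transfer.mem_centralizer_of_hasNormalPComplement h P.2 hg
        ((Cfsg.Agent.Transfer.mem_pResidual_iff h).mp hgK)
    · rw [eq_bot_iff, ← (Cfsg.Agent.Transfer.inf_pResidual_eq_bot_iff P).mpr h]
      exact le_inf inf_le_right (inf_le_left.trans inf_le_right)
    · refine le_antisymm (sup_le inf_le_left Subgroup.le_normalizer) fun g hg => ?_
      have h1 : g ∈ (P : Subgroup G) ⊔ pResidual p G := by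
        rw [Cfsg.Agent.Transfer.sylow_sup_pResidual]; trivial
      obtain ⟨s, hs, k, hk, rfl⟩ := Subgroup.mem_sup_of_normal_right.mp h1
      refine mul_mem (Subgroup.mem_sup_right hs) (Subgroup.mem_sup_left ⟨?_, hk⟩)
      exact ((Subgroup.normalizer _).mul_mem_cancel_left (Subgroup.le_normalizer hs)).mp hg
  · rintro ⟨Q, hQc, -, hQP⟩
    apply Cfsg.Agent.Transfer.hasNormalPComplement_of_normalizer_le_centralizer P
    rw [← hQP]
    exact sup_le hQc (Subgroup.le_centralizer (P : Subgroup G))

end Cfsg.Agent.S0083
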