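import Cfsg.Statements.S0086
import Cfsg.Agent.Transfer.Burnside

set_option autoImplicit false
open Cfsg

namespace Cfsg.Agent.S0086

/-- A normal complement to a Sylow p-subgroup is exactly the set of elements of order prime to p. -/
theorem result {G : Type*} [Group G] [Finite G] {p : ℕ} [Fact p.Prime] (P : Sylow p G) (N : Subgroup G) [N.Normal] (hN : N.IsComplement' (P : Subgroup G)) (x : G) : x ∈ N ↔ Nat.Coprime (orderOf x) p := by
  have h := Cfsg.Agent.Transfer.hasNormalPComplement_of_isComplement' P hN
  obtain ⟨n, hn⟩ := IsPGroup.iff_card.mp P.2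
  have hq : IsPGroup p (G ⧸ N) :=
    IsPGroup.of_card (n := n) (by rw [← Subgroup.index_eq_card, hN.symm.index_eq_card, hn])
  constructor
  · intro hx
    have hc : (Nat.card N).Coprime p := by
      rw [← hN.index_eq_card]
      exact ((Fact.out : p.Prime).coprime_iff_not_dvd.mpr P.not_dvd_index).symm
    exact Nat.Coprime.coprime_dvd_left (Subgroup.orderOf_dvd_natCard _ hx) hc
  · intro hx
    exact Cfsg.Agent.Transfer.pResidual_le_of_isPGroup_quotient hq
      (Cfsg.Agent.Transfer.mem_pResidual_of_coprime hx)

end Cfsg.Agent.S0086
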