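import Cfsg.Statements.S0087
import Cfsg.Agent.Transfer.Burnside
import Cfsg.Agent.Transfer.Average
import Cfsg.Agent.Core.CoprimeAction

set_option autoImplicit false
open Cfsg

namespace Cfsg.Agent.S0087

theorem exists_complement {G : Type*} [Group G] [Finite G] (H : Subgroup G)
    (hHall : Nat.Coprime (Nat.card H) H.index)
    (key : ∀ p : ℕ, p.Prime → p ∣ Nat.card H → HasNormalPComplement p G) :
    ∃ N : Subgroup G, N.Normal ∧ N.IsComplement' H := by
  let N : Subgroup G := ⨅ p ∈ {p : ℕ | p.Prime ∧ p ∣ Nat.card H}, pResidual p G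
  have hN : N.Normal := Subgroup.normal_iInf_normal fun p =>
    Subgroup.normal_iInf_normal fun _ => Cfsg.Agent.Transfer.pResidual_normal
  have hcop : (Nat.card N).Coprime (Nat.card H) := by
    rw [Nat.coprime_comm]
    apply Nat.coprime_of_dvd
    intro p hp hpH hpN
    haveI := Fact.mk hp
    have h1 := Cfsg.Agent.Transfer.hasNormalPComplement_iff_coprime_pResidual.mp (key p hp hpH)
    exact (hp.coprime_iff_not_dvd.mp h1.symm)
      (hpN.trans (Subgroup.card_dvd_of_le (iInf₂_le p ⟨hp, hpH⟩)))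
  have hidx : N.index.Coprime H.index := by
    apply Nat.coprime_of_dvd
    intro q hq hqN hqH
    haveI := Fact.mk hq
    obtain ⟨Q⟩ : Nonempty (Sylow q G) := inferInstance
    have hQN : (Q : Subgroup G) ≤ N := by
      refine le_iInf₂ fun p hp x hx => ?_
      have hqp : q ≠ p := by
        rintro rfl
        exact Nat.not_coprime_of_dvd_of_dvd hq.one_lt hp.2 hqH hHall
      obtain ⟨k, hk⟩ := IsPGroup.iff_orderOf.mp Q.2 ⟨x, hx⟩
      apply Cfsg.Agent.Transfer.mem_pResidual_of_coprime
      rw [show orderOf x = q ^ k from (Subgroup.orderOf_coe _).trans hk]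
      exact ((Nat.coprime_primes hq hp.1).mpr hqp).pow_left k
    exact Q.not_dvd_index (hqN.trans (Subgroup.index_dvd_of_le hQN))
  refine ⟨N, hN, Subgroup.isComplement'_of_coprime ?_ hcop⟩
  have e : Nat.card N * N.index = Nat.card H * H.index := by
    rw [Subgroup.card_mul_index, Subgroup.card_mul_index]
  have h1 : Nat.card N = H.index := Nat.dvd_antisymm
    (hcop.dvd_of_dvd_mul_left (e ▸ Dvd.intro _ rfl))
    (hidx.symm.dvd_of_dvd_mul_right (e ▸ Dvd.intro_left _ rfl))
  rw [h1, mul_comm, Subgroup.card_mul_index]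



/-- A Hall subgroup that is central in its normalizer has a normal complement. -/
theorem result {G : Type*} [Group G] [Finite G] (H : Subgroup G) (hHall : Nat.Coprime (Nat.card H) H.index) (h : Subgroup.normalizer (H : Set G) ≤ Subgroup.centralizer (H : Set G)) : ∃ N : Subgroup G, N.Normal ∧ N.IsComplement' H := by
  haveI hab : IsMulCommutative H := ⟨⟨fun a b => Subtype.ext
    (Subgroup.mem_centralizer_iff.mp (h (Subgroup.le_normalizer b.2)) a a.2)⟩⟩
  have hcomm : ∀ a ∈ H, ∀ b ∈ H, a * b = b * a := fun a ha b hb =>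
    congrArg Subtype.val (mul_comm' (⟨a, ha⟩ : H) ⟨b, hb⟩)
  suffices key : ∀ (n : ℕ) (D : Subgroup G), Nat.card D ≤ n → H ≤ D → ∀ p : ℕ, p.Prime →
      p ∣ Nat.card H → HasNormalPComplement p D from
    Cfsg.Agent.S0087.exists_complement H hHall fun p hp hpH => by
      haveI := Fact.mk hp
      exact Cfsg.Agent.Transfer.hasNormalPComplement_equiv Subgroup.topEquiv
        (key _ ⊤ le_rfl le_top p hp hpH)
  intro n
  induction n with
  | zero => intro D hD; exact absurd hD (Nat.not_le.mpr Nat.card_pos)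
  | succ n ih =>
    intro D hDn hHD p hp hpH
    haveI := Fact.mk hp
    obtain ⟨S⟩ : Nonempty (Sylow p (H.subgroupOf D)) := inferInstance
    have hHc : Nat.card (H.subgroupOf D) = Nat.card H :=
      Nat.card_congr (Subgroup.subgroupOfEquivOfLe hHD).toEquiv
    have hHDidx : (Nat.card H).Coprime (H.subgroupOf D).index :=
      Nat.Coprime.coprime_dvd_right (Subgroup.relIndex_dvd_index_of_le hHD) hHall
    let P : Sylow p D := IsPGroup.toSylow
      (P := (S : Subgroup (H.subgroupOf D)).map (H.subgroupOf D).subtype) (S.2.map _) (by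
        rw [Subgroup.index_map, Subgroup.ker_subtype, sup_bot_eq, Subgroup.range_subtype]
        exact fun hd => (hp.dvd_mul.mp hd).elim S.not_dvd_index fun hd' =>
          Nat.not_coprime_of_dvd_of_dvd hp.one_lt hpH hd' hHDidx)
    have hPH : ∀ x ∈ (P : Subgroup D), (x : G) ∈ H := by
      rintro _ ⟨y, -, rfl⟩; exact y.2
    have hPab : IsMulCommutative (P : Subgroup D) :=
      ⟨⟨fun a b => Subtype.ext (Subtype.ext (hcomm _ (hPH a a.2) _ (hPH b b.2)))⟩⟩
    apply Cfsg.Agent.Transfer.hasNormalPComplement_of_fusion P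
    intro x hx g hgx
    obtain ⟨n', hn', e⟩ := Cfsg.Agent.Transfer.exists_normalizer_conj_of_abelian P hPab hx hgx
    refine ⟨1, one_mem _, ?_⟩
    rw [one_mul, inv_one, mul_one, ← e]
    set P' : Subgroup G := (P : Subgroup D).map D.subtype with hP'
    set C : Subgroup G := Subgroup.centralizer (P' : Set G) ⊓ D with hCdef
    have hxP' : (x : G) ∈ P' := Subgroup.mem_map_of_mem D.subtype hx
    by_cases hC : Nat.card C ≤ n
    swap
    · have hCD : C = D := Subgroup.eq_of_le_of_card_ge inf_le_right (by omega)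
      have hn'C : (n' : G) ∈ Subgroup.centralizer (P' : Set G) := (hCD.symm.le n'.2).1
      apply Subtype.ext
      show (x : G) = (n' : G) * x * (n' : G)⁻¹
      rw [← Subgroup.mem_centralizer_iff.mp hn'C x hxP', mul_inv_cancel_right]
    -- inside `C = C_D(P)` there is a normal complement to `H`
    have hP'H : P' ≤ H := by rintro _ ⟨y, hy, rfl⟩; exact hPH y hy
    have hHC : H ≤ C := fun a ha => ⟨by
      show a ∈ Subgroup.centralizer (P' : Set G)
      rw [Subgroup.mem_centralizer_iff]
      exact fun y hy => hcomm y (hP'H hy) a ha, hHD ha⟩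
    have hHCidx : (Nat.card (H.subgroupOf C)).Coprime (H.subgroupOf C).index := by
      rw [Nat.card_congr (Subgroup.subgroupOfEquivOfLe hHC).toEquiv]
      exact Nat.Coprime.coprime_dvd_right (Subgroup.relIndex_dvd_index_of_le hHC) hHall
    obtain ⟨K, hK, hKH⟩ := Cfsg.Agent.S0087.exists_complement (H.subgroupOf C) hHCidx
      fun q hq hqH => ih C hC hHC q hq
        (by rwa [Nat.card_congr (Subgroup.subgroupOfEquivOfLe hHC).toEquiv] at hqH)
    have hnN : ∀ w : G, w ∈ P' ↔ (n' : G) * w * (n' : G)⁻¹ ∈ P' := by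
      intro w
      constructor
      · rintro ⟨y, hy, rfl⟩
        exact ⟨_, (Subgroup.mem_normalizer_iff.mp hn' y).mp hy, rfl⟩
      · rintro ⟨y, hy, hyw⟩
        refine ⟨n'⁻¹ * y * n', ?_, ?_⟩
        · show n'⁻¹ * y * n' ∈ (P : Subgroup D)
          exact (Subgroup.mem_normalizer_iff''.mp hn' y).mp hy
        · show (n' : G)⁻¹ * (y : G) * (n' : G) = w
          rw [show (y : G) = (n' : G) * w * (n' : G)⁻¹ from hyw]
          group
    have hH'C : H.map (MulAut.conj (n' : G)).toMonoidHom ≤ C := by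
      rintro _ ⟨a, ha, rfl⟩
      refine ⟨?_, ?_⟩
      · show (n' : G) * a * (n' : G)⁻¹ ∈ Subgroup.centralizer (P' : Set G)
        rw [Subgroup.mem_centralizer_iff]
        intro y hy
        have hy' : (n' : G)⁻¹ * y * n' ∈ P' := (hnN _).mpr (by simpa [mul_assoc] using hy)
        calc y * ((n' : G) * a * (n' : G)⁻¹)
            = (n' : G) * (((n' : G)⁻¹ * y * n') * a) * (n' : G)⁻¹ := by group
          _ = (n' : G) * a * (n' : G)⁻¹ * y := by rw [hcomm _ (hP'H hy') a ha]; group
      · exact D.mul_mem (D.mul_mem n'.2 (hHD ha)) (D.inv_mem n'.2)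
    have hKidx : Nat.card (H.subgroupOf C) = K.index := hKH.symm.index_eq_card.symm
    have hKhall : (Nat.card K).Coprime K.index := by
      rw [← hKidx, ← hKH.index_eq_card]; exact hHCidx.symm
    haveI : IsMulCommutative (H.subgroupOf C) :=
      ⟨⟨fun a b => Subtype.ext (Subtype.ext (hcomm _ a.2 _ b.2))⟩⟩
    haveI : Group.IsSolvable (H.subgroupOf C) := Group.isSolvable_of_comm fun a b => mul_comm' a b
    have hsolv : Group.IsSolvable (C ⧸ K) := Group.isSolvable_of_surjective
      (f := (QuotientGroup.mk' K).comp (H.subgroupOf C).subtype) (fun q => by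
        obtain ⟨c, rfl⟩ := QuotientGroup.mk'_surjective K q
        obtain ⟨k, hk, a, ha, rfl⟩ := Subgroup.mem_sup_of_normal_left.mp
          (hKH.sup_eq_top ▸ Subgroup.mem_top c : c ∈ K ⊔ H.subgroupOf C)
        exact ⟨⟨a, ha⟩, by simp [(QuotientGroup.eq_one_iff k).mpr hk]⟩)
    obtain ⟨c, -, hc⟩ := Cfsg.Agent.Core.exists_conj_eq_of_coprime hKhall (Or.inr hsolv)
      (H := (H.map (MulAut.conj (n' : G)).toMonoidHom).subgroupOf C) (K := H.subgroupOf C)
      (by rw [Nat.card_congr (Subgroup.subgroupOfEquivOfLe hH'C).toEquiv,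
        Cfsg.Agent.Transfer.card_map_conj, ← hKidx,
        Nat.card_congr (Subgroup.subgroupOfEquivOfLe hHC).toEquiv]) hKidx
    have hcn : (c : G) * n' ∈ Subgroup.normalizer (H : Set G) := by
      rw [Cfsg.Agent.Transfer.mem_normalizer_iff_map_conj]
      refine Subgroup.eq_of_le_of_card_ge ?_ (Cfsg.Agent.Transfer.card_map_conj _ _).ge
      rintro _ ⟨a, ha, rfl⟩
      have : c * ⟨(n' : G) * a * (n' : G)⁻¹, hH'C ⟨a, ha, rfl⟩⟩ * c⁻¹ ∈ H.subgroupOf C :=
        hc ▸ ⟨_, ⟨a, ha, rfl⟩, rfl⟩
      simpa [Subgroup.mem_subgroupOf, mul_assoc] using this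
    have hn'x : (n' : G) * x * (n' : G)⁻¹ ∈ P' := (hnN _).mp hxP'
    apply Subtype.ext
    show (x : G) = (n' : G) * x * (n' : G)⁻¹
    have h1 := Subgroup.mem_centralizer_iff.mp (h hcn) x (hPH x hx)
    have h2 := Subgroup.mem_centralizer_iff.mp c.2.1 _ hn'x
    calc (x : G) = (c : G) * n' * x * ((c : G) * n')⁻¹ := by rw [← h1]; group
      _ = (c : G) * ((n' : G) * x * (n' : G)⁻¹) * (c : G)⁻¹ := by group
      _ = (n' : G) * x * (n' : G)⁻¹ := by rw [← h2]; group

end Cfsg.Agent.S0087
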