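import Cfsg.Statements.S0088
import Cfsg.Agent.Transfer.Average

set_option autoImplicit false
open Cfsg

namespace Cfsg.Agent.S0088

/-- An abelian Hall subgroup meets G' ∩ Z(G) trivially. -/
theorem result {G : Type*} [Group G] [Finite G] (H : Subgroup G) (hc : IsMulCommutative H) (hHall : Nat.Coprime (Nat.card H) H.index) : H ⊓ commutator G ⊓ Subgroup.center G = ⊥ := by
  rw [eq_bot_iff]
  rintro x ⟨⟨hxH, hx'⟩, hxc⟩
  have h1 := Cfsg.Agent.Transfer.pow_index_eq_one_of_isMulCommutative hc hxH hxc hx'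
  rw [Subgroup.mem_bot, ← orderOf_eq_one_iff]
  exact Nat.eq_one_of_dvd_coprimes hHall (Subgroup.orderOf_dvd_natCard _ hxH)
    (orderOf_dvd_of_pow_eq_one h1)

end Cfsg.Agent.S0088
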