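import Cfsg.Statements.S0089
import Cfsg.Agent.Transfer.Average

set_option autoImplicit false
open Cfsg

namespace Cfsg.Agent.S0089

/-- When all Sylow subgroups are abelian, the derived subgroup meets the centre trivially. -/
theorem result {G : Type*} [Group G] [Finite G] (h : ∀ p : ℕ, p.Prime → ∀ P : Sylow p G, IsMulCommutative P) : commutator G ⊓ Subgroup.center G = ⊥ := by
  rw [eq_bot_iff]
  rintro x ⟨hx', hxc⟩
  rw [Subgroup.mem_bot, ← orderOf_eq_one_iff]
  by_contra hne
  obtain ⟨p, hp, hd⟩ := Nat.exists_prime_and_dvd hne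
  haveI := Fact.mk hp
  set w := x ^ (orderOf x / p) with hw
  have hwo : orderOf w = p := orderOf_pow_orderOf_div (orderOf_pos x).ne' hd
  obtain ⟨P, hP⟩ := (IsPGroup.of_card (p := p) (n := 1) (by rw [Nat.card_zpowers, hwo, pow_one]) :
    IsPGroup p (Subgroup.zpowers w)).exists_le_sylow
  have h1 := Cfsg.Agent.Transfer.pow_index_eq_one_of_isMulCommutative (h p hp P)
    (hP (Subgroup.mem_zpowers w)) (pow_mem hxc _) (pow_mem hx' _)
  exact P.not_dvd_index ((dvd_of_eq hwo.symm).trans (orderOf_dvd_of_pow_eq_one h1))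

end Cfsg.Agent.S0089
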