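import Cfsg.Statements.S0090
import Cfsg.Agent.Transfer.Average

set_option autoImplicit false
open Cfsg

namespace Cfsg.Agent.S0090

/-- An abelian normal Hall subgroup A splits as the internal direct product of G' ∩ A and Z(G) ∩ A, and [A, G] = G' ∩ A. -/
theorem result {G : Type*} [Group G] [Finite G] (A : Subgroup G) [A.Normal] (hc : IsMulCommutative A) (hHall : Nat.Coprime (Nat.card A) A.index) : ⁅A, (⊤ : Subgroup G)⁆ = commutator G ⊓ A ∧ (commutator G ⊓ A) ⊓ (Subgroup.center G ⊓ A) = ⊥ ∧ (commutator G ⊓ A) ⊔ (Subgroup.center G ⊓ A) = A := by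
  obtain ⟨μ, hμc, hμz, hμt, -⟩ := Cfsg.Agent.Transfer.exists_average A hc
  have hT : ⁅A, (⊤ : Subgroup G)⁆ ≤ commutator G ⊓ A :=
    le_inf (Subgroup.commutator_mono le_top le_rfl) (Subgroup.commutator_le_left _ _)
  have hZ : (commutator G ⊓ A) ⊓ (Subgroup.center G ⊓ A) = ⊥ := by
    rw [eq_bot_iff]
    rintro x ⟨⟨hx', hxA⟩, hxc, -⟩
    have h1 := Cfsg.Agent.Transfer.pow_index_eq_one_of_isMulCommutative hc hxA hxc hx'
    rw [Subgroup.mem_bot, ← orderOf_eq_one_iff]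
    exact Nat.eq_one_of_dvd_coprimes hHall (Subgroup.orderOf_dvd_natCard _ hxA)
      (orderOf_dvd_of_pow_eq_one h1)
  have hA : A ≤ ⁅A, (⊤ : Subgroup G)⁆ ⊔ (Subgroup.center G ⊓ A) := by
    intro a ha
    obtain ⟨b, hb⟩ := (powCoprime hHall).surjective (⟨a, ha⟩ : A)
    have e : a = (μ b : G) * (((b ^ A.index : A) : G)⁻¹ * μ b)⁻¹ := by
      rw [mul_inv_rev, inv_inv, mul_inv_cancel_left]
      exact (congrArg Subtype.val hb).symm
    rw [e]
    refine mul_mem (Subgroup.mem_sup_right ⟨hμc b, (μ b).2⟩) (inv_mem (Subgroup.mem_sup_left ?_))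
    simpa using hμt b
  have hle : commutator G ⊓ A ≤ ⁅A, (⊤ : Subgroup G)⁆ := by
    intro x hx
    obtain ⟨t, ht, z, hz, rfl⟩ := Subgroup.mem_sup_of_normal_left.mp (hA hx.2)
    have h1 : z ∈ (commutator G ⊓ A) ⊓ (Subgroup.center G ⊓ A) := by
      refine ⟨?_, hz⟩
      have := mul_mem (inv_mem (hT ht)) hx
      rwa [inv_mul_cancel_left] at this
    rw [hZ, Subgroup.mem_bot] at h1
    rw [h1, mul_one]; exact ht
  refine ⟨le_antisymm hT hle, hZ, le_antisymm (sup_le inf_le_right inf_le_right) ?_⟩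
  exact hA.trans (sup_le_sup_right hT _)

end Cfsg.Agent.S0090
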