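import Cfsg.Statements.S0091
import Cfsg.Agent.Transfer.Burnside

set_option autoImplicit false
open Cfsg
open scoped commutatorElement

namespace Cfsg.Agent.S0091

/-- If a nontrivial Sylow p-subgroup controls its own fusion then it is not contained in the derived subgroup. -/
theorem result {G : Type*} [Group G] [Finite G] {p : ℕ} [Fact p.Prime] (P : Sylow p G) (hp : p ∣ Nat.card G) (h : ∀ x ∈ P, ∀ y ∈ P, (∃ g : G, g * x * g⁻¹ = y) → ∃ z ∈ P, z * x * z⁻¹ = y) : ¬ (P : Subgroup G) ≤ commutator G := by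
  intro hle
  haveI : Group.IsNilpotent (P : Subgroup G) := P.2.isNilpotent
  have hfoc : (P : Subgroup G).focalSubgroup ≤ ⁅(P : Subgroup G), (P : Subgroup G)⁆ := by
    refine Cfsg.Agent.Transfer.focalSubgroup_le_of_forall fun x hx g hgx => ?_
    obtain ⟨z, hz, e⟩ := h x hx _ hgx ⟨g, rfl⟩
    rw [← e, show x⁻¹ * (z * x * z⁻¹) = ⁅x⁻¹, z⁆ by rw [commutatorElement_def]; group]
    exact Subgroup.commutator_mem_commutator (inv_mem hx) hz
  rw [← Subgroup.commutator_inf_eq_focalSubgroup, inf_eq_right.mpr hle] at hfoc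
  exact P.ne_bot_of_dvd_card hp (Cfsg.Agent.Transfer.eq_bot_of_le_commutator le_rfl hfoc)

end Cfsg.Agent.S0091
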