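import Cfsg.Statements.S0092
import Cfsg.Agent.Transfer.Average
import Mathlib.GroupTheory.SchurZassenhaus
import Cfsg.Agent.Core.CoprimeAction

set_option autoImplicit false
open Cfsg

namespace Cfsg.Agent.S0092

/-- If the Sylow p-subgroups of O^p(G) are abelian then G splits over O^p(G). -/
theorem result {G : Type*} [Group G] [Finite G] {p : ℕ} [Fact p.Prime] (h : ∀ Q : Sylow p (Cfsg.pResidual p G), IsMulCommutative Q) : ∃ K : Subgroup G, K.IsComplement' (Cfsg.pResidual p G) := by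
  set K := pResidual p G with hKdef
  obtain ⟨P⟩ : Nonempty (Sylow p G) := inferInstance
  let R : Sylow p K := Cfsg.Agent.Transfer.sylowOfNormal P K
  have hRab : IsMulCommutative (R : Subgroup K) := h R
  -- `R = [R, N_K(R)]`
  have hR0' : (R : Subgroup K) = ⁅(R : Subgroup K), Subgroup.normalizer (R : Set K)⁆ := by
    rw [← Cfsg.Agent.Transfer.focalSubgroup_eq_commutator_of_abelian R hRab,
      Cfsg.Agent.Transfer.focalSubgroup_eq_of_pResidual_eq_top R
        Cfsg.Agent.Transfer.pResidual_subgroup_eq_top]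
  set M := Subgroup.normalizer ((R : Subgroup K) : Set K) with hMdef
  have hR0 : (R : Subgroup K) = ⁅(R : Subgroup K), M⁆ := hR0'
  -- everything in `G`
  set Q : Subgroup G := (R : Subgroup K).map K.subtype with hQdef
  have hQK : Q ≤ K := Subgroup.map_subtype_le _
  have hQp : IsPGroup p Q := R.2.map _
  set N : Subgroup G := Subgroup.normalizer (Q : Set G) with hNdef
  set N₀ : Subgroup G := M.map K.subtype with hN₀def
  have hN₀ : N₀ = N ⊓ K := by
    ext x
    constructor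
    · rintro ⟨y, hy, rfl⟩
      refine ⟨?_, y.2⟩
      show (y : G) ∈ N
      rw [hNdef, Cfsg.Agent.Transfer.mem_normalizer_iff_map_conj, hQdef, Subgroup.map_map]
      conv_rhs => rw [← Cfsg.Agent.Transfer.mem_normalizer_iff_map_conj.mp hy, Subgroup.map_map]
      rfl
    · rintro ⟨hx, hxK⟩
      refine ⟨⟨x, hxK⟩, ?_, rfl⟩
      show (⟨x, hxK⟩ : K) ∈ M
      rw [hMdef, Cfsg.Agent.Transfer.mem_normalizer_iff_map_conj]
      apply Subgroup.map_injective K.subtype_injective
      rw [Subgroup.map_map]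
      refine Eq.trans ?_ (Cfsg.Agent.Transfer.mem_normalizer_iff_map_conj.mp hx)
      rw [Subgroup.map_map]
      rfl
  have hQN₀ : Q ≤ N₀ := Subgroup.map_mono Subgroup.le_normalizer
  have hQeq : Q = ⁅Q, N₀⁆ := by rw [hQdef, hN₀def, ← Subgroup.map_commutator, ← hR0]
  have hN₀N : N₀ ≤ N := hN₀.le.trans inf_le_left
  haveI : (Q.subgroupOf N₀).Normal := Subgroup.normal_subgroupOf_of_le_normalizer hN₀N
  have hQ₀p : ¬ p ∣ (Q.subgroupOf N₀).index := by
    intro hd
    apply R.not_dvd_index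
    have h1 : Q.relIndex N₀ = (R : Subgroup K).relIndex M :=
      Subgroup.relIndex_map_map_of_injective _ _ K.subtype_injective
    exact (show p ∣ (R : Subgroup K).relIndex M from h1 ▸ (hd : p ∣ Q.relIndex N₀)).trans (Subgroup.relIndex_dvd_index_of_le Subgroup.le_normalizer)
  obtain ⟨k, hk⟩ := IsPGroup.iff_card.mp hQp
  have hQ₀c : Nat.card (Q.subgroupOf N₀) = p ^ k := by
    rw [Nat.card_congr (Subgroup.subgroupOfEquivOfLe hQN₀).toEquiv, hk]
  have hHall : (Nat.card (Q.subgroupOf N₀)).Coprime (Q.subgroupOf N₀).index := by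
    rw [hQ₀c]; exact ((Fact.out : p.Prime).coprime_iff_not_dvd.mpr hQ₀p).pow_left k
  obtain ⟨A₀, hA₀⟩ := Subgroup.exists_right_complement'_of_coprime hHall
  set A : Subgroup G := A₀.map N₀.subtype with hAdef
  have hAN₀ : A ≤ N₀ := Subgroup.map_subtype_le _
  have hAc : Nat.card A = (Q.subgroupOf N₀).index := by
    rw [Subgroup.card_map_of_injective N₀.subtype_injective, hA₀.symm.index_eq_card]
  have hQA : Q ⊔ A = N₀ := by
    rw [hAdef]
    conv_lhs => rw [← Subgroup.map_subgroupOf_eq_of_le hQN₀]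
    rw [← Subgroup.map_sup, hA₀.sup_eq_top, ← MonoidHom.range_eq_map, Subgroup.range_subtype]
  have hQab : ∀ a ∈ Q, ∀ b ∈ Q, a * b = b * a := by
    rintro _ ⟨a, ha, rfl⟩ _ ⟨b, hb, rfl⟩
    exact congrArg Subtype.val (congrArg Subtype.val (mul_comm' (⟨a, ha⟩ : (R : Subgroup K)) ⟨b, hb⟩))
  have hcop : (Nat.card A).Coprime (Nat.card Q) := by
    rw [hAc, hk]; exact (((Fact.out : p.Prime).coprime_iff_not_dvd.mpr hQ₀p).pow_left k).symm
  have hQsolv : Group.IsSolvable Q := by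
    haveI := hQp.isNilpotent
    infer_instance
  -- `C_Q(A) = 1`
  have hfix : ∀ x ∈ Q, x ∈ Subgroup.centralizer (A : Set G) → x = 1 := by
    intro x hx hxA
    have hab : IsMulCommutative (Q.subgroupOf N₀) :=
      ⟨⟨fun a b => Subtype.ext (Subtype.ext (hQab _ a.2 _ b.2))⟩⟩
    have hc : (⟨x, hQN₀ hx⟩ : N₀) ∈ Subgroup.center N₀ := by
      rw [Subgroup.mem_center_iff]
      rintro ⟨y, hy⟩
      apply Subtype.ext
      show y * x = x * y
      have hy' : y ∈ Q ⊔ A := hQA.symm ▸ hy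
      have hle : Q ⊔ A ≤ Subgroup.centralizer ({x} : Set G) := by
        refine sup_le (fun a ha => ?_) (fun a ha => ?_)
        · rw [Subgroup.mem_centralizer_iff]; rintro _ rfl; exact hQab _ hx a ha
        · rw [Subgroup.mem_centralizer_iff]; rintro _ rfl
          exact (Subgroup.mem_centralizer_iff.mp hxA a ha).symm
      exact (Subgroup.mem_centralizer_iff.mp (hle hy') x rfl).symm
    have hd : (⟨x, hQN₀ hx⟩ : N₀) ∈ commutator N₀ := by
      have hle : Q ≤ ⁅N₀, N₀⁆ := hQeq.le.trans (Subgroup.commutator_mono hQN₀ le_rfl)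
      have := hle hx
      rw [← Subgroup.map_subtype_commutator] at this
      obtain ⟨z, hz, hzx⟩ := this
      exact (show z = (⟨x, hQN₀ hx⟩ : N₀) from Subtype.ext hzx) ▸ hz
    have h1 := Cfsg.Agent.Transfer.pow_index_eq_one_of_isMulCommutative hab
      (show (⟨x, hQN₀ hx⟩ : N₀) ∈ Q.subgroupOf N₀ from hx) hc hd
    have h2 : orderOf (⟨x, hQN₀ hx⟩ : N₀) ∣ Nat.card (Q.subgroupOf N₀) :=
      Subgroup.orderOf_dvd_natCard _ hx
    exact congrArg Subtype.val
      (orderOf_eq_one_iff.mp (Nat.eq_one_of_dvd_coprimes hHall h2 (orderOf_dvd_of_pow_eq_one h1)))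
  set L : Subgroup G := N ⊓ Subgroup.normalizer (A : Set G) with hLdef
  -- Frattini: `G = K L`
  have hKL : K ⊔ L = ⊤ := by
    have hF : N ⊔ K = ⊤ := Sylow.normalizer_sup_eq_top R
    rw [eq_top_iff, ← hF]
    refine sup_le (fun g hg => ?_) le_sup_left
    have hgN₀ : A.map (MulAut.conj g).toMonoidHom ≤ Q ⊔ A := by
      rw [hQA, hN₀]
      rintro _ ⟨a, ha, rfl⟩
      refine ⟨N.mul_mem (N.mul_mem hg (hN₀N (hAN₀ ha))) (N.inv_mem hg), ?_⟩
      exact Cfsg.Agent.Transfer.pResidual_normal.conj_mem _ ((hN₀.le (hAN₀ ha)).2) g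
    obtain ⟨x, hx, hxe⟩ := Cfsg.Agent.Core.exists_conj_complement_general Q A
      (A.map (MulAut.conj g).toMonoidHom) (Or.inr hQsolv) (hAN₀.trans hN₀N) hgN₀
      (Cfsg.Agent.Transfer.card_map_conj _ _) hcop
    have hxg : x⁻¹ * g ∈ L := by
      refine ⟨N.mul_mem (N.inv_mem (hN₀N (hQN₀ hx))) hg, ?_⟩
      show x⁻¹ * g ∈ Subgroup.normalizer (A : Set G)
      rw [Cfsg.Agent.Transfer.mem_normalizer_iff_map_conj, ← Cfsg.Agent.Transfer.map_conj_mul, hxe,
        Cfsg.Agent.Transfer.map_conj_mul, inv_mul_cancel, Cfsg.Agent.Transfer.map_conj_one]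
    have := Subgroup.mul_mem_sup (S := K) (T := L) (hQK hx) hxg
    rwa [mul_inv_cancel_left] at this
  obtain ⟨S⟩ : Nonempty (Sylow p L) := inferInstance
  set S' : Subgroup G := (S : Subgroup L).map L.subtype with hS'def
  have hS'L : S' ≤ L := Subgroup.map_subtype_le _
  have hS'p : IsPGroup p S' := S.2.map _
  have hinf : S' ⊓ K = ⊥ := by
    rw [eq_bot_iff]
    rintro x ⟨hxS, hxK⟩
    have hxN₀ : x ∈ N₀ := hN₀.ge ⟨(hS'L hxS).1, hxK⟩
    have hxQ : x ∈ Q := by
      obtain ⟨j, hj⟩ := IsPGroup.iff_orderOf.mp hS'p ⟨x, hxS⟩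
      have hord : orderOf x = p ^ j := (Subgroup.orderOf_coe _).trans hj
      show (⟨x, hxN₀⟩ : N₀) ∈ Q.subgroupOf N₀
      rw [← QuotientGroup.eq_one_iff, ← orderOf_eq_one_iff]
      refine Nat.eq_one_of_dvd_coprimes (((Fact.out : p.Prime).coprime_iff_not_dvd.mpr hQ₀p).pow_left j) ?_ ?_
      · rw [← hord, ← Subgroup.orderOf_mk x hxN₀]
        exact orderOf_map_dvd (QuotientGroup.mk' _) _
      · rw [Subgroup.index_eq_card]; exact orderOf_dvd_natCard _
    apply hfix x hxQ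
    rw [Subgroup.mem_centralizer_iff]
    intro a ha
    have h1 : x * a * x⁻¹ * a⁻¹ ∈ A :=
      A.mul_mem ((Subgroup.mem_normalizer_iff.mp (hS'L hxS).2 a).mp ha) (A.inv_mem ha)
    have h2 : x * a * x⁻¹ * a⁻¹ ∈ Q := by
      rw [mul_assoc x, mul_assoc]
      exact Q.mul_mem hxQ ((Subgroup.mem_normalizer_iff.mp (hN₀N (hAN₀ ha)) _).mp (Q.inv_mem hxQ))
    have h3 : x * a * x⁻¹ * a⁻¹ = 1 := by
      rw [← orderOf_eq_one_iff]
      exact Nat.eq_one_of_dvd_coprimes hcop (Subgroup.orderOf_dvd_natCard _ h1)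
        (Subgroup.orderOf_dvd_natCard _ h2)
    exact (mul_inv_eq_iff_eq_mul.mp (mul_inv_eq_one.mp h3)).symm
  have hsup : S' ⊔ K = ⊤ := by
    have hq : IsPGroup p (L ⧸ K.subgroupOf L) := by
      intro y
      obtain ⟨l, rfl⟩ := QuotientGroup.mk'_surjective _ y
      refine ⟨(orderOf l).factorization p, ?_⟩
      rw [← map_pow, QuotientGroup.mk'_apply, QuotientGroup.eq_one_iff, Subgroup.mem_subgroupOf]
      simpa [hKdef, Subgroup.orderOf_coe] using Cfsg.Agent.Transfer.pow_mem_pResidual (p := p) (l : G)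
    have htop := Cfsg.Agent.Transfer.sup_eq_top_of_isPGroup_quotient S hq
    have hLle : L ≤ S' ⊔ K := by
      intro l hl
      have : (⟨l, hl⟩ : L) ∈ (S : Subgroup L) ⊔ K.subgroupOf L := htop ▸ Subgroup.mem_top _
      obtain ⟨s, hs, c, hc, e⟩ := Subgroup.mem_sup_of_normal_right.mp this
      rw [show l = (s : G) * c from (congrArg Subtype.val e).symm]
      exact Subgroup.mul_mem_sup ⟨s, hs, rfl⟩ hc
    rw [eq_top_iff, ← hKL]
    exact sup_le le_sup_right hLle
  refine ⟨S', Subgroup.isComplement'_of_disjoint_and_mul_eq_univ (disjoint_iff.mpr hinf) ?_⟩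
  rw [← Subgroup.mul_normal, hsup, Subgroup.coe_top]

end Cfsg.Agent.S0092
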