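import Cfsg.Statements.S0094
import Cfsg.Agent.FGS3.Extraspecial
import Cfsg.Agent.Transfer.Small

set_option autoImplicit false
open Cfsg
open scoped commutatorElement

namespace Cfsg.Agent.S0094

/-- In a special p-group every central element has order dividing p. -/
theorem result {P : Type*} [Group P] [Finite P] {p : ℕ} [Fact p.Prime] (h : Cfsg.IsSpecial p P) (z : P) (hz : z ∈ Subgroup.center P) : z ^ p = 1 := by
  have hc : commutator P ≤ Subgroup.center P := h.2.2.le
  rw [← h.2.2, commutator_eq_closure] at hz
  induction hz using Subgroup.closure_induction with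
  | mem x hx =>
    obtain ⟨a, b, rfl⟩ := hx
    exact Cfsg.Agent.FGS3.commutatorElement_pow_eq_one hc a b p
      (h.2.1 ▸ Cfsg.Agent.FGS3.pow_mem_frattini h.1 a)
  | one => exact one_pow p
  | mul x y hx hy hx' hy' =>
    rw [← commutator_eq_closure, h.2.2] at hx
    have hcm : Commute x y := (Subgroup.mem_center_iff.mp hx y).symm
    rw [hcm.mul_pow, hx', hy', one_mul]
  | inv x _ hx' => rw [inv_pow, hx', inv_one]

end Cfsg.Agent.S0094
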