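import Cfsg.Statements.S0096
import Cfsg.Agent.FGS3.Extraspecial
import Cfsg.Agent.Transfer.Small

set_option autoImplicit false
open Cfsg

namespace Cfsg.Agent.S0096

/-- For odd p, in a p-group of class at most two the elements of order dividing p generate a subgroup of exponent dividing p. -/
theorem result {P : Type*} [Group P] [Finite P] {p : ℕ} [Fact p.Prime] (hp : p ≠ 2) (hP : IsPGroup p P) (h2 : ⁅commutator P, (⊤ : Subgroup P)⁆ = ⊥) (g : P) (hg : g ∈ Subgroup.closure {x : P | x ^ p = 1}) : g ^ p = 1 := by
  have hc : commutator P ≤ Subgroup.center P := by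
    rw [Subgroup.commutator_eq_bot_iff_le_centralizer, Subgroup.coe_top, Subgroup.centralizer_univ] at h2
    exact h2
  induction hg using Subgroup.closure_induction with
  | mem x hx => exact hx
  | one => exact one_pow p
  | mul x y _ _ hx' hy' =>
    rw [Cfsg.Agent.FGS3.mul_pow_of_center_odd hc x y ((Fact.out : p.Prime).odd_of_ne_two hp)
      (Cfsg.Agent.FGS3.commutatorElement_pow_eq_one hc y x p (by rw [hy']; exact one_mem _)),
      hx', hy', one_mul]
  | inv x _ hx' => rw [inv_pow, hx', inv_one]

end Cfsg.Agent.S0096
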