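import Cfsg.Statements.S0098
import Cfsg.Agent.Transfer.ExtraspecialIso

set_option autoImplicit false
open Cfsg

namespace Cfsg.Agent.S0098

/-- For odd p, extraspecial p-groups of exponent p are determined up to isomorphism by their order. -/
theorem result {E₁ : Type*} {E₂ : Type*} [Group E₁] [Group E₂] [Finite E₁] [Finite E₂] {p : ℕ} [Fact p.Prime] (hp : p ≠ 2) (h₁ : Cfsg.IsExtraspecial p E₁) (h₂ : Cfsg.IsExtraspecial p E₂) (he₁ : Monoid.exponent E₁ = p) (he₂ : Monoid.exponent E₂ = p) (hc : Nat.card E₁ = Nat.card E₂) : Nonempty (E₁ ≃* E₂) := by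
  obtain ⟨z₁, hS₁, hN₁⟩ := Cfsg.Agent.Transfer.ESIso.setting_of_extraspecial h₁
  obtain ⟨z₂, hS₂, hN₂⟩ := Cfsg.Agent.Transfer.ESIso.setting_of_extraspecial h₂
  obtain ⟨n, x, y, hB⟩ := hS₁.exists_basis_exponent (fun a => by rw [← he₁]; exact Monoid.pow_exponent_eq_one a) ⊤ hN₁
  obtain ⟨m, x', y', hB'⟩ := hS₂.exists_basis_exponent (fun a => by rw [← he₂]; exact Monoid.pow_exponent_eq_one a) ⊤ hN₂
  obtain rfl : n = m := by
    have h := hB.card.symm.trans ((Subgroup.card_top.trans (hc.trans Subgroup.card_top.symm)).trans hB'.card)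
    have := Nat.pow_right_injective (Fact.out : p.Prime).two_le h
    omega
  exact Cfsg.Agent.Transfer.ESIso.nonempty_iso hS₁.hz hS₂.hz
    (by rw [← hS₁.ord]; exact pow_orderOf_eq_one z₁) (by rw [← hS₂.ord]; exact pow_orderOf_eq_one z₂) hB hB'

end Cfsg.Agent.S0098
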