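import Cfsg.Statements.S0099
import Cfsg.Agent.Transfer.ExtraspecialIso

set_option autoImplicit false
open Cfsg

namespace Cfsg.Agent.S0099

/-- Among three extraspecial 2-groups of equal order, some two are isomorphic. -/
theorem result {E₁ : Type*} {E₂ : Type*} {E₃ : Type*} [Group E₁] [Group E₂] [Group E₃] [Finite E₁] [Finite E₂] [Finite E₃] (h₁ : Cfsg.IsExtraspecial 2 E₁) (h₂ : Cfsg.IsExtraspecial 2 E₂) (h₃ : Cfsg.IsExtraspecial 2 E₃) (h12 : Nat.card E₁ = Nat.card E₂) (h23 : Nat.card E₂ = Nat.card E₃) : Nonempty (E₁ ≃* E₂) ∨ Nonempty (E₂ ≃* E₃) ∨ Nonempty (E₁ ≃* E₃) := by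
  obtain ⟨z₁, hS₁, hN₁⟩ := Cfsg.Agent.Transfer.ESIso.setting_of_extraspecial h₁
  obtain ⟨z₂, hS₂, hN₂⟩ := Cfsg.Agent.Transfer.ESIso.setting_of_extraspecial h₂
  obtain ⟨z₃, hS₃, hN₃⟩ := Cfsg.Agent.Transfer.ESIso.setting_of_extraspecial h₃
  obtain ⟨b₁, n, x₁, y₁, hB₁⟩ := hS₁.exists_basis_two ⊤ hN₁
  obtain ⟨b₂, m, x₂, y₂, hB₂⟩ := hS₂.exists_basis_two ⊤ hN₂
  obtain ⟨b₃, l, x₃, y₃, hB₃⟩ := hS₃.exists_basis_two ⊤ hN₃
  obtain rfl : n = m := by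
    have h := hB₁.card.symm.trans ((Subgroup.card_top.trans (h12.trans Subgroup.card_top.symm)).trans hB₂.card)
    have := Nat.pow_right_injective (le_refl 2) h
    omega
  obtain rfl : n = l := by
    have h := hB₂.card.symm.trans ((Subgroup.card_top.trans (h23.trans Subgroup.card_top.symm)).trans hB₃.card)
    have := Nat.pow_right_injective (le_refl 2) h
    omega
  have e₁ : z₁ ^ 2 = 1 := by rw [← hS₁.ord]; exact pow_orderOf_eq_one z₁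
  have e₂ : z₂ ^ 2 = 1 := by rw [← hS₂.ord]; exact pow_orderOf_eq_one z₂
  have e₃ : z₃ ^ 2 = 1 := by rw [← hS₃.ord]; exact pow_orderOf_eq_one z₃
  rcases (by cases b₁ <;> cases b₂ <;> cases b₃ <;> simp : b₁ = b₂ ∨ b₂ = b₃ ∨ b₁ = b₃) with h | h | h <;> subst h
  · exact Or.inl (Cfsg.Agent.Transfer.ESIso.nonempty_iso hS₁.hz hS₂.hz e₁ e₂ hB₁ hB₂)
  · exact Or.inr (Or.inl (Cfsg.Agent.Transfer.ESIso.nonempty_iso hS₂.hz hS₃.hz e₂ e₃ hB₂ hB₃))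
  · exact Or.inr (Or.inr (Cfsg.Agent.Transfer.ESIso.nonempty_iso hS₁.hz hS₃.hz e₁ e₃ hB₁ hB₃))

end Cfsg.Agent.S0099
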