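import Cfsg.Statements.S0100
import Cfsg.Agent.Transfer.PGroupNormal
import Cfsg.Agent.OddLocal.RankTwo.Narrow

set_option autoImplicit false
open Cfsg

namespace Cfsg.Agent.S0100

/-- For odd p, a p-group without normal elementary abelian subgroups of order p^3 has p-rank at most 2. -/
theorem result {P : Type*} [Group P] [Finite P] {p : ℕ} [Fact p.Prime] (hp : p ≠ 2) (hP : IsPGroup p P) (h : ∀ A : Subgroup P, A.Normal → IsMulCommutative A → (∀ a ∈ A, a ^ p = 1) → Nat.card A ≠ p ^ 3) (E : Subgroup P) (hE : IsMulCommutative E) (hEe : ∀ e ∈ E, e ^ p = 1) : Nat.card E ≤ p ^ 2 := by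
  by_contra hE2
  have hr : ¬ Cfsg.PRankLE p 2 P := fun hr => hE2 (hr E hE hEe)
  obtain ⟨A, -, ⟨hAn, hA⟩, hAmax⟩ := (Set.toFinite
    {A : Subgroup P | A.Normal ∧ Cfsg.IsElementaryAbelian p A}).exists_le_maximal (a := ⊥)
    ⟨inferInstance, inferInstance, fun a ha => by rw [Subgroup.mem_bot.mp ha, one_pow]⟩
  have h2 := Cfsg.Agent.OddLocal.RankTwo.card_maximal_normal_ea hp hP hr hAn hA
    (fun B hB hBe hle => le_antisymm (hAmax ⟨hB, hBe⟩ hle) hle)
  obtain ⟨M, hM, hMA, hMc⟩ := Cfsg.Agent.Transfer.PNormal.exists_normal_card hP hAn 3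
    (Cfsg.Agent.OddLocal.RankTwo.three_le_of_gt hA h2)
  exact h M hM ⟨⟨fun a b => Subtype.ext (show (a : P) * b = b * a from congrArg Subtype.val
    (hA.1.is_comm.comm ⟨a, hMA a.2⟩ ⟨b, hMA b.2⟩))⟩⟩ (fun a ha => hA.2 a (hMA ha)) hMc

end Cfsg.Agent.S0100
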