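import Cfsg.Statements.S0101
import Cfsg.Agent.Transfer.Average
import Cfsg.Agent.Transfer.Tate

set_option autoImplicit false
open Cfsg

namespace Cfsg.Agent.S0101

/-- In a perfect central extension, the kernel meets each Sylow p-subgroup P inside the Frattini subgroup of P. -/
theorem result {H : Type*} {G : Type*} [Group H] [Group G] [Finite H] (σ : H →* G) (hσ : Function.Surjective σ) (hc : σ.ker ≤ Subgroup.center H) (hH : commutator H = ⊤) {p : ℕ} [Fact p.Prime] (P : Sylow p H) : σ.ker ⊓ (P : Subgroup H) ≤ (frattini P).map (P : Subgroup H).subtype := by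
  rintro z ⟨hz, hzP⟩
  refine ⟨⟨z, hzP⟩, ?_, rfl⟩
  letI : CommGroup ((P : Subgroup H) ⧸ frattini (P : Subgroup H)) :=
    { (inferInstance : Group _) with mul_comm := Cfsg.Agent.FGS3.quotient_frattini_comm P.2 }
  have h1 : QuotientGroup.mk' (frattini (P : Subgroup H)) ⟨z, hzP⟩ ^ (P : Subgroup H).index = 1 :=
    Cfsg.Agent.Transfer.pow_index_eq_one_of_mem_center _ ⟨z, hzP⟩ (hc hz)
      (hH ▸ Subgroup.mem_top z)
  apply (QuotientGroup.eq_one_iff (⟨z, hzP⟩ : (P : Subgroup H))).mp
  rw [← QuotientGroup.mk'_apply]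
  apply ((P.2.to_quotient (frattini (P : Subgroup H))).powEquiv
    (((Fact.out : p.Prime).coprime_iff_not_dvd).mpr P.not_dvd_index)).injective
  rw [IsPGroup.powEquiv_apply, IsPGroup.powEquiv_apply, h1, one_pow]

end Cfsg.Agent.S0101
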