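import Cfsg.Statements.S0102
import Cfsg.Agent.Transfer.Average

set_option autoImplicit false
open Cfsg

namespace Cfsg.Agent.S0102

/-- A finite perfect group with cyclic Sylow p-subgroups has no perfect central extension whose kernel has order divisible by p. -/
theorem result {G : Type*} {H : Type*} [Group G] [Group H] [Finite G] [Finite H] (hG : commutator G = ⊤) {p : ℕ} [Fact p.Prime] (hcyc : ∀ P : Sylow p G, IsCyclic P) (σ : H →* G) (hσ : Function.Surjective σ) (hz : σ.ker ≤ Subgroup.center H) (hH : commutator H = ⊤) : ¬ p ∣ Nat.card σ.ker := by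
  intro hd
  obtain ⟨z, hzo⟩ := exists_prime_orderOf_dvd_card' p hd
  have hwo : orderOf (z : H) = p := by rw [Subgroup.orderOf_coe, hzo]
  obtain ⟨P, hP⟩ := (IsPGroup.of_card (p := p) (n := 1) (by rw [Nat.card_zpowers, hwo, pow_one]) :
    IsPGroup p (Subgroup.zpowers (z : H))).exists_le_sylow
  let f : (P : Subgroup H) →* ((P.mapSurjective hσ : Sylow p G) : Subgroup G) :=
    (σ.comp (P : Subgroup H).subtype).codRestrict _ (fun x => ⟨x, x.2, rfl⟩)
  haveI := hcyc (P.mapSurjective hσ)
  have hab : IsMulCommutative P := by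
    refine ⟨⟨fun a b => ?_⟩⟩
    have hk : f.ker ≤ Subgroup.center (P : Subgroup H) := by
      intro x hx
      rw [Subgroup.mem_center_iff]
      intro y
      apply Subtype.ext
      exact Subgroup.mem_center_iff.mp (hz (show (x : H) ∈ σ.ker from congrArg Subtype.val hx)) y
    exact commutative_of_cyclic_center_quotient f hk a b
  have h1 := Cfsg.Agent.Transfer.pow_index_eq_one_of_isMulCommutative hab
    (hP (Subgroup.mem_zpowers _)) (hz z.2) (hH ▸ Subgroup.mem_top (z : H))
  exact P.not_dvd_index ((dvd_of_eq hwo.symm).trans (orderOf_dvd_of_pow_eq_one h1))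

end Cfsg.Agent.S0102
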