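import Cfsg.Statements.S0104
import Cfsg.Agent.Transfer.Burnside

set_option autoImplicit false
open Cfsg
open scoped Pointwise

namespace Cfsg.Agent.S0104

/-- A subgroup Z of a Sylow p-subgroup P that is normalized by N_G(P) is weakly closed in P exactly when it is normal in every Sylow p-subgroup containing it. -/
theorem result {G : Type*} [Group G] [Finite G] {p : ℕ} [Fact p.Prime] (P : Sylow p G) (Z : Subgroup G) (hZP : Z ≤ (P : Subgroup G)) (hZN : Subgroup.normalizer (P : Set G) ≤ Subgroup.normalizer (Z : Set G)) : Cfsg.IsWeaklyClosed Z P ↔ ∀ R : Sylow p G, Z ≤ (R : Subgroup G) → (R : Subgroup G) ≤ Subgroup.normalizer (Z : Set G) := by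
  constructor
  · rintro ⟨-, hW⟩ R hR
    obtain ⟨g, rfl⟩ := MulAction.exists_smul_eq G P R
    rw [Sylow.coe_subgroup_smul] at hR
    have h1 : Z.map (MulAut.conj g⁻¹).toMonoidHom ≤ (P : Subgroup G) := by
      rintro _ ⟨z, hz, rfl⟩
      simpa using Cfsg.Agent.Transfer.mem_map_conj.mp (hR hz)
    have hg : g ∈ Subgroup.normalizer (Z : Set G) :=
      inv_mem_iff.mp (Cfsg.Agent.Transfer.mem_normalizer_iff_map_conj.mpr (hW _ h1))
    rw [Sylow.coe_subgroup_smul]
    rintro _ ⟨x, hx, rfl⟩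
    exact mul_mem (mul_mem hg (hZN (Subgroup.le_normalizer hx))) (inv_mem hg)
  · intro h
    refine ⟨hZP, fun g hg => ?_⟩
    rw [← Cfsg.Agent.Transfer.mem_normalizer_iff_map_conj]
    have hZR : Z ≤ ((g⁻¹ • P : Sylow p G) : Subgroup G) := by
      intro z hz
      rw [Sylow.coe_subgroup_smul]
      refine Cfsg.Agent.Transfer.mem_map_conj.mpr ?_
      simpa using hg ⟨z, hz, rfl⟩
    obtain ⟨c, hc, hcR⟩ := Cfsg.Agent.Transfer.exists_conj_eq_of_le (g⁻¹ • P) P (h _ hZR)
      (Subgroup.le_normalizer.trans hZN)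
    rw [Sylow.coe_subgroup_smul, show MulAut.conj g⁻¹ • (P : Subgroup G) =
      (P : Subgroup G).map (MulAut.conj g⁻¹).toMonoidHom from rfl,
      Cfsg.Agent.Transfer.map_conj_mul] at hcR
    have := mul_mem (inv_mem hc) (hZN (Cfsg.Agent.Transfer.mem_normalizer_iff_map_conj.mpr hcR))
    rw [inv_mul_cancel_left] at this
    exact inv_mem_iff.mp this

end Cfsg.Agent.S0104
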