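import Cfsg.Statements.S0105
import Cfsg.Agent.Transfer.Average

set_option autoImplicit false
open Cfsg

namespace Cfsg.Agent.S0105

/-- With an abelian Sylow p-subgroup P, some quotient of G is isomorphic to the part of P central in N_G(P). -/
theorem result {G : Type*} [Group G] [Finite G] {p : ℕ} [Fact p.Prime] (P : Sylow p G) (hP : IsMulCommutative P) : ∃ (N : Subgroup G) (hN : N.Normal), Nonempty (G ⧸ N ≃* ((P : Subgroup G) ⊓ Subgroup.centralizer (Subgroup.normalizer (P : Set G) : Set G) : Subgroup G)) := by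
  set N := Subgroup.normalizer (P : Set G) with hN
  set C := (P : Subgroup G) ⊓ Subgroup.centralizer (N : Set G) with hC
  let A : Subgroup N := (P : Subgroup G).subgroupOf N
  haveI : A.Normal := Subgroup.normal_in_normalizer
  have hcomm : ∀ a ∈ (P : Subgroup G), ∀ b ∈ (P : Subgroup G), a * b = b * a := fun a ha b hb =>
    congrArg Subtype.val (mul_comm' (⟨a, ha⟩ : P) ⟨b, hb⟩)
  have hA : IsMulCommutative A := ⟨⟨fun a b => Subtype.ext (Subtype.ext
    (hcomm _ a.2 _ b.2))⟩⟩
  obtain ⟨μ, hμc, hμz, -, hμi⟩ := Cfsg.Agent.Transfer.exists_average A hA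
  have hmem : ∀ a : A, ((μ a : N) : G) ∈ C := fun a => ⟨(μ a).2, by
    show ((μ a : N) : G) ∈ Subgroup.centralizer (N : Set G)
    rw [Subgroup.mem_centralizer_iff]
    exact fun y hy => congrArg Subtype.val (Subgroup.mem_center_iff.mp (hμc a) ⟨y, hy⟩)⟩
  letI : CommGroup C :=
    { (inferInstance : Group C) with
      mul_comm := fun a b => Subtype.ext (hcomm _ a.2.1 _ b.2.1) }
  let j : (P : Subgroup G) →* A :=
    (Subgroup.inclusion Subgroup.le_normalizer).codRestrict A fun x => x.2
  let ν : (P : Subgroup G) →* C :=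
    { toFun := fun x => ⟨((μ (j x) : N) : G), hmem _⟩
      map_one' := by apply Subtype.ext; simp
      map_mul' := fun x y => Subtype.ext (by simp only [map_mul]; rfl) }
  have hνz : ∀ (x : (P : Subgroup G)) (hx : (x : G) ∈ C), ν x = (⟨x, hx⟩ : C) ^ A.index := by
    intro x hx
    apply Subtype.ext
    show ((μ (j x) : N) : G) = _
    rw [hμz (j x) (Subgroup.mem_center_iff.mpr fun y =>
      Subtype.ext (Subgroup.mem_centralizer_iff.mp hx.2 y y.2))]
    simp [j]
    rfl
  let V : G →* C := MonoidHom.transfer ν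
  have hV : ∀ z : C, V (z : G) = (z ^ A.index) ^ (P : Subgroup G).index := by
    intro z
    rw [← show ν ⟨z, z.2.1⟩ = z ^ A.index from hνz _ z.2]
    refine Cfsg.Agent.Transfer.transfer_apply_eq_pow ν ⟨(z : G), z.2.1⟩ fun k g₀ h => ?_
    rw [← map_pow]
    obtain ⟨n, hn, e⟩ := Cfsg.Agent.Transfer.exists_normalizer_conj_of_abelian P hP
      (g := g₀⁻¹) (pow_mem z.2.1 k) (by simpa using h)
    apply Subtype.ext
    show ((μ (j ⟨_, h⟩) : N) : G) = ((μ (j (⟨(z : G), z.2.1⟩ ^ k)) : N) : G)
    rw [← hμi ⟨n, hn⟩ (j (⟨(z : G), z.2.1⟩ ^ k))]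
    congr 3
    apply Subtype.ext; apply Subtype.ext
    rw [inv_inv] at e
    exact e.symm
  have hcop : p.Coprime (A.index * (P : Subgroup G).index) :=
    ((Fact.out : p.Prime).coprime_iff_not_dvd.mpr
      ((P.subtype Subgroup.le_normalizer).not_dvd_index)).mul_right
      ((Fact.out : p.Prime).coprime_iff_not_dvd.mpr P.not_dvd_index)
  have hsurj : Function.Surjective V := fun y => by
    obtain ⟨z, hz⟩ := ((P.2.to_inf_left : IsPGroup p C).powEquiv hcop).surjective y
    rw [IsPGroup.powEquiv_apply, pow_mul] at hz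
    exact ⟨z, (hV z).trans hz⟩
  exact ⟨V.ker, inferInstance, ⟨QuotientGroup.quotientKerEquivOfSurjective V hsurj⟩⟩

end Cfsg.Agent.S0105
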