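import Cfsg.Statements.S0107
import Cfsg.Agent.Transfer.Thompson
import Mathlib.GroupTheory.SpecificGroups.Cyclic

set_option autoImplicit false
open Cfsg

namespace Cfsg.Agent.S0107

/-- A finite group with no nontrivial 2-group quotient and dihedral Sylow 2-subgroups of order at least 8 has a single class of involutions. -/
theorem result {G : Type*} [Group G] [Finite G] (T : Sylow 2 G) (n : ℕ) (hn : 2 ≤ n) (hT : Nonempty ((T : Subgroup G) ≃* DihedralGroup (2 ^ n))) (hO : Cfsg.pResidual 2 G = ⊤) (x y : G) (hx : orderOf x = 2) (hy : orderOf y = 2) : ∃ g : G, g * x * g⁻¹ = y := by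
  classical
  obtain ⟨e⟩ := hT
  let r : (T : Subgroup G) := e.symm (DihedralGroup.r 1)
  let Q : Subgroup G := (Subgroup.zpowers r).map (T : Subgroup G).subtype
  haveI : NeZero (2 ^ n) := ⟨pow_ne_zero _ two_ne_zero⟩
  have hro : orderOf r = 2 ^ n := by
    rw [show r = e.symm.toMonoidHom (DihedralGroup.r 1) from rfl,
      orderOf_injective e.symm.toMonoidHom e.symm.injective, DihedralGroup.orderOf_r_one]
  have hQT : Q ≤ (T : Subgroup G) := Subgroup.map_subtype_le _
  have hQc : Nat.card Q = 2 ^ n := by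
    rw [Subgroup.card_map_of_injective (T : Subgroup G).subtype_injective, Nat.card_zpowers, hro]
  have hTc : Nat.card T = 2 * 2 ^ n := by rw [Nat.card_congr e.toEquiv, DihedralGroup.nat_card]
  have hQi : Q.index = 2 * (T : Subgroup G).index := by
    apply Nat.eq_of_mul_eq_mul_left (show 0 < Nat.card Q from Nat.card_pos)
    rw [Subgroup.card_mul_index, ← (T : Subgroup G).card_mul_index, hTc, hQc]
    ring
  haveI : IsCyclic Q := by
    rw [show Q = Subgroup.zpowers (r : G) from MonoidHom.map_zpowers _ _]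
    infer_instance
  have key : ∀ u : G, orderOf u = 2 → ∃ g : G, g * u * g⁻¹ ∈ Q := by
    intro u hu
    by_contra h
    obtain ⟨M, hM, hMi, huM⟩ := Cfsg.Agent.Transfer.exists_index_two_of_forall_notMem Q hQi
      (Nat.odd_iff.mpr (Nat.two_dvd_ne_zero.mp T.not_dvd_index))
      (hu ▸ pow_orderOf_eq_one u) (not_exists.mp h)
    haveI := hM
    have h1 : pResidual 2 G ≤ M := Cfsg.Agent.Transfer.pResidual_le_of_isPGroup_quotient
      (IsPGroup.of_card (n := 1) (by rw [← Subgroup.index_eq_card, hMi, pow_one]))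
    rw [hO] at h1
    exact huM (h1 (Subgroup.mem_top u))
  have uniq : ∀ a ∈ Q, ∀ b ∈ Q, orderOf a = 2 → orderOf b = 2 → a = b := by
    intro a ha b hb hoa hob
    haveI : Fintype Q := Fintype.ofFinite Q
    have h2 := IsCyclic.card_pow_eq_one_le (α := Q) (n := 2) two_pos
    by_contra hne
    have h1a : a ≠ 1 := fun h => by rw [h, orderOf_one] at hoa; omega
    have h1b : b ≠ 1 := fun h => by rw [h, orderOf_one] at hob; omega
    have hsub : ({1, ⟨a, ha⟩, ⟨b, hb⟩} : Finset Q) ⊆ Finset.univ.filter fun x : Q => x ^ 2 = 1 := by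
      intro x hx
      simp only [Finset.mem_insert, Finset.mem_singleton] at hx
      rw [Finset.mem_filter]
      refine ⟨Finset.mem_univ _, ?_⟩
      rcases hx with rfl | rfl | rfl
      · exact one_pow 2
      · exact Subtype.ext (show a ^ 2 = 1 from hoa ▸ pow_orderOf_eq_one a)
      · exact Subtype.ext (show b ^ 2 = 1 from hob ▸ pow_orderOf_eq_one b)
    have h3 : ({1, ⟨a, ha⟩, ⟨b, hb⟩} : Finset Q).card = 3 := by
      rw [Finset.card_insert_of_notMem, Finset.card_insert_of_notMem, Finset.card_singleton]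
      · simpa [Subtype.ext_iff] using hne
      · simp only [Finset.mem_insert, Finset.mem_singleton, Subtype.ext_iff]
        rintro (h | h)
        · exact h1a h.symm
        · exact h1b h.symm
    have := Finset.card_le_card hsub
    omega
  have ord : ∀ g u : G, orderOf (g * u * g⁻¹) = orderOf u := fun g u => by
    have := orderOf_injective (MulAut.conj g).toMonoidHom (MulAut.conj g).injective u
    simpa using this
  obtain ⟨a, ha⟩ := key x hx
  obtain ⟨b, hb⟩ := key y hy
  have he := uniq _ ha _ hb ((ord a x).trans hx) ((ord b y).trans hy)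
  refine ⟨b⁻¹ * a, ?_⟩
  calc b⁻¹ * a * x * (b⁻¹ * a)⁻¹ = b⁻¹ * (a * x * a⁻¹) * b := by group
    _ = y := by rw [he]; group

end Cfsg.Agent.S0107
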