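import Cfsg.Statements.S0109
import Cfsg.Agent.Transfer.GlaubermanThompson

set_option autoImplicit false
open Cfsg

namespace Cfsg.Agent.S0109

/-- The Thompson factorization Theorem for solvable groups states that, with p odd (and abelian Sylow 2-subgroups when p = 3) and no nontrivial normal subgroup of order prime to p, every element of G is a product of an element normalizing J(P) and an element centralizing the elements of order dividing p in the centre of P. -/
theorem result {G : Type*} [Group G] [Finite G] {p : ℕ} [Fact p.Prime] (hp : p ≠ 2) (hs : Group.IsSolvable G) (h3 : p = 3 → ∀ T : Sylow 2 G, IsMulCommutative T) (hF : ∀ N : Subgroup G, N.Normal → Nat.Coprime (Nat.card N) p → N = ⊥) (P : Sylow p G) (g : G) : ∃ a ∈ Subgroup.normalizer (Cfsg.thompsonSubgroupOf p (P : Subgroup G) : Set G), ∃ c ∈ Subgroup.centralizer {x : G | x ∈ (P : Subgroup G) ∧ (∀ y ∈ (P : Subgroup G), x * y = y * x) ∧ x ^ p = 1}, g = a * c := by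
  haveI := hs
  have hO : Cfsg.pPrimeCore p G = ⊥ :=
    hF _ inferInstance (Cfsg.Agent.Core.card_pPrimeCore_coprime p G)
  have hsep : Cfsg.IsPSolvable p G := Cfsg.Agent.Core.isPSolvable_of_isSolvable
  have hns : ¬ Cfsg.Agent.Dickson.HasSL2Section p (⊤ : Subgroup G) := by
    intro h
    have h3' := h.eq_three hp (Cfsg.Agent.Core.isPSolvable_congr Subgroup.topEquiv.symm hsep)
    exact Cfsg.Agent.Dickson.no_section_of_abelian_sylow_two hp (h3 h3') h
  have htop := Cfsg.Agent.Transfer.ZJ.thompson_factorization hp hns
    (Cfsg.Agent.Core.centralizer_pCore_le hsep hO) P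
  obtain ⟨a, ha, c, hc, hac⟩ := Subgroup.mem_sup_of_normal_right.mp (htop.ge (Subgroup.mem_top g))
  exact ⟨a, ha, c, Subgroup.centralizer_le Subgroup.subset_normalClosure hc, hac.symm⟩

end Cfsg.Agent.S0109
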