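import Cfsg.Statements.S0110
import Cfsg.Agent.FGS3.Extraspecial
import Cfsg.Agent.Transfer.Small

set_option autoImplicit false
open Cfsg
open scoped commutatorElement

namespace Cfsg.Agent.S0110

/-- In a p-group G, an extraspecial subgroup E with [G, E] ≤ Z(E) satisfies G = E C_G(E). -/
theorem result {G : Type*} [Group G] [Finite G] {p : ℕ} [Fact p.Prime] (hG : IsPGroup p G) (E : Subgroup G) (hE : Cfsg.IsExtraspecial p E) (h : ⁅(⊤ : Subgroup G), E⁆ ≤ E ⊓ Subgroup.centralizer (E : Set G)) : E ⊔ Subgroup.centralizer (E : Set G) = ⊤ := by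
  set Z := E ⊓ Subgroup.centralizer (E : Set G) with hZ
  have hZeq : Z = (Subgroup.center ↥E).map E.subtype := by
    ext x
    constructor
    · rintro ⟨hx, hxc⟩
      exact ⟨⟨x, hx⟩, Subgroup.mem_center_iff.mpr fun y =>
        Subtype.ext (Subgroup.mem_centralizer_iff.mp hxc y y.2), rfl⟩
    · rintro ⟨x, hx, rfl⟩
      refine ⟨x.2, ?_⟩
      show (x : G) ∈ Subgroup.centralizer (E : Set G)
      rw [Subgroup.mem_centralizer_iff]
      exact fun y hy => congrArg Subtype.val (Subgroup.mem_center_iff.mp hx ⟨y, hy⟩)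
  have hcardZ : Nat.card Z = p := by
    rw [hZeq, Subgroup.card_map_of_injective E.subtype_injective]; exact hE.2
  haveI hEn : E.Normal := by
    refine ⟨fun x hx g => ?_⟩
    have h1 := (h (Subgroup.commutator_mem_commutator (Subgroup.mem_top g) hx)).1
    have := mul_mem h1 hx
    rwa [commutatorElement_def, inv_mul_cancel_right] at this
  haveI : Z.Normal := by rw [hZeq]; infer_instance
  have hZc : Z ≤ Subgroup.center G := Cfsg.Agent.Transfer.le_center_of_card_eq_prime hG Z hcardZ
  set C := Subgroup.centralizer (E : Set G) with hC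
  obtain ⟨r, hr⟩ := (IsPGroup.iff_card.mp hE.1.1).imp fun k hk => hk
  have hcen : Nat.card ((E : Subgroup G) : Subgroup G) = p * (frattini ↥E).index := by
    rw [← (frattini ↥E).card_mul_index, hE.1.2.1, hE.2]
  obtain ⟨d, -, hd⟩ := (Nat.dvd_prime_pow (Fact.out : p.Prime)).mp
    (hr ▸ (frattini ↥E).index_dvd_card)
  obtain ⟨v, hv⟩ := Cfsg.Agent.FGS3.exists_gen_of_frattini_index hE.1.1 hd
  let F : G → Fin d → Z := fun g i => ⟨⁅g, (v i : G)⁆,
    h (Subgroup.commutator_mem_commutator (Subgroup.mem_top g) (v i).2)⟩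
  have hF : ∀ a b : G, F a = F b → a⁻¹ * b ∈ C := by
    intro a b hab
    have hEc : ∀ y : E, (a⁻¹ * b) * y = y * (a⁻¹ * b) := by
      intro y
      have hy : y ∈ Subgroup.closure (Set.range v) := hv ▸ Subgroup.mem_top y
      induction hy using Subgroup.closure_induction with
      | mem x hx =>
        obtain ⟨i, rfl⟩ := hx
        have h1 : ⁅a, (v i : G)⁆ = ⁅b, (v i : G)⁆ := congrArg Subtype.val (congrFun hab i)
        rw [commutatorElement_def, commutatorElement_def] at h1
        exact Cfsg.Agent.Transfer.conj_eq_conj_iff.mp (mul_right_cancel h1)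
      | one => simp
      | mul x y _ _ hx hy =>
        rw [Subgroup.coe_mul, ← mul_assoc, hx, mul_assoc (x : G), hy, mul_assoc]
      | inv x _ hx => exact (Commute.inv_right (show Commute (a⁻¹ * b) (x : G) from hx)).eq
    rw [hC, Subgroup.mem_centralizer_iff]
    exact fun y hy => (hEc ⟨y, hy⟩).symm
  have hidx : C.index ≤ p ^ d := by
    have hinj : Function.Injective (fun q : G ⧸ C => F q.out) := by
      intro q q' hqq
      rw [← QuotientGroup.out_eq' q, ← QuotientGroup.out_eq' q']
      exact QuotientGroup.eq.mpr (hF _ _ hqq)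
    calc C.index = Nat.card (G ⧸ C) := Subgroup.index_eq_card C
      _ ≤ Nat.card (Fin d → Z) := Nat.card_le_card_of_injective _ hinj
      _ = p ^ d := by rw [Nat.card_pi]; simp [hcardZ]
  haveI : (C : Subgroup G).Normal := by rw [hC]; infer_instance
  have h1 : C.index = C.relIndex E * (E ⊔ C).index := by
    rw [← Subgroup.relIndex_sup_right (H := E) (K := C),
      Subgroup.relIndex_mul_index le_sup_right]
  have h2 : C.relIndex E = p ^ d := by
    have h3 := Subgroup.card_mul_index ((E ⊓ C).subgroupOf E)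
    rw [Nat.card_congr (Subgroup.subgroupOfEquivOfLe inf_le_left).toEquiv] at h3
    change Nat.card ↥(E ⊓ C) * (E ⊓ C).relIndex E = _ at h3
    rw [Subgroup.inf_relIndex_left] at h3
    rw [show Nat.card ↥(E ⊓ C) = p from hcardZ, hcen, hd] at h3
    exact Nat.eq_of_mul_eq_mul_left (Fact.out : p.Prime).pos h3
  rw [← Subgroup.index_eq_one]
  have hpos : 0 < (E ⊔ C).index := Nat.pos_of_ne_zero Subgroup.index_ne_zero_of_finite
  rw [h1, h2] at hidx
  have := Nat.le_of_mul_le_mul_left (hidx.trans_eq (mul_one _).symm) (pow_pos (Fact.out : p.Prime).pos d)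
  omega

end Cfsg.Agent.S0110
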