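import Cfsg.Statements.S0116
import Cfsg.Agent.Transfer.AlperinChain

set_option autoImplicit false
open Cfsg

namespace Cfsg.Agent.S0116

/-- The Alperin fusion Theorem states that conjugation between subsets of a Sylow p-subgroup P factors through normalizers of tame intersections P ∩ Q_i with other Sylow p-subgroups, carrying the subset along step by step. -/
theorem result {G : Type*} [Group G] [Finite G] {p : ℕ} [Fact p.Prime] (P : Sylow p G) (A : Set G) (g : G) (hA : A ⊆ (P : Set G)) (hAg : (fun a => g⁻¹ * a * g) '' A ⊆ (P : Set G)) : ∃ (n : ℕ) (Q : Fin n → Sylow p G) (x : Fin n → G), (List.ofFn x).prod = g ∧ (∀ i : Fin n, x i ∈ Subgroup.normalizer ((((P : Subgroup G) ⊓ (Q i : Subgroup G)) : Subgroup G) : Set G) ∧ ¬ p ∣ ((P : Subgroup G) ⊓ Subgroup.normalizer ((((P : Subgroup G) ⊓ (Q i : Subgroup G)) : Subgroup G) : Set G)).relIndex (Subgroup.normalizer ((((P : Subgroup G) ⊓ (Q i : Subgroup G)) : Subgroup G) : Set G)) ∧ ¬ p ∣ ((Q i : Subgroup G) ⊓ Subgroup.normalizer ((((P :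 Subgroup G) ⊓ (Q i : Subgroup G)) : Subgroup G) : Set G)).relIndex (Subgroup.normalizer ((((P : Subgroup G) ⊓ (Q i : Subgroup G)) : Subgroup G) : Set G))) ∧ (∀ h : 0 < n, A ⊆ (((P : Subgroup G) ⊓ (Q ⟨0, h⟩ : Subgroup G) : Subgroup G) : Set G)) ∧ ∀ i : Fin n, ∀ h : i.val + 1 < n, (fun a => (((List.ofFn x).take (i.val + 1)).prod)⁻¹ * a * ((List.ofFn x).take (i.val + 1)).prod) '' A ⊆ (((P : Subgroup G) ⊓ (Q ⟨i.val + 1, h⟩ : Subgroup G) : Subgroup G) : Set G) := by
  have h := Cfsg.Agent.Transfer.fusionChain_of_conj P hA hAg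
  clear hA hAg
  induction h with
  | nil B => exact ⟨0, Fin.elim0, Fin.elim0, by simp, fun i => i.elim0, fun h => absurd h (lt_irrefl 0),
      fun i => i.elim0⟩
  | cons B R y k hy hP hR hB _ ih =>
    obtain ⟨n, Q, x, hprod, hloc, h0, hsucc⟩ := ih
    refine ⟨n + 1, Fin.cons R Q, Fin.cons y x, ?_, ?_, fun _ => hB, ?_⟩
    · rw [List.ofFn_succ, List.prod_cons]
      simp [hprod]
    · intro i
      refine Fin.cases ?_ ?_ i
      · exact ⟨hy, hP, hR⟩
      · exact hloc
    · intro i
      refine Fin.cases ?_ ?_ i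
      · intro h
        simp only [List.ofFn_succ, Fin.cons_zero, Fin.val_zero, Fin.cons_succ, List.take_succ_cons,
          List.take_zero, List.prod_cons, List.prod_nil, mul_one]
        exact h0 (Nat.lt_of_succ_lt_succ h)
      · intro j h
        have := hsucc j (Nat.lt_of_succ_lt_succ h)
        simp only [List.ofFn_succ, Fin.cons_zero, Fin.cons_succ, Fin.val_succ, List.take_succ_cons,
          List.prod_cons]
        simpa [Set.image_image, mul_assoc, Fin.cons] using this

end Cfsg.Agent.S0116
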