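import Cfsg.Statements.S0118
import Cfsg.Agent.Transfer.ZJFusion

set_option autoImplicit false
open Cfsg

namespace Cfsg.Agent.S0118

/-- Glauberman's ZJ-Theorem, in the case of groups with no section isomorphic to SL(2,p), p odd: conjugation of subsets of a Sylow p-subgroup P inside P is always induced from the normalizer of Z(J(P)). -/
theorem result {G : Type*} [Group G] [Finite G] {p : ℕ} [Fact p.Prime] (hp : p ≠ 2) (hfree : ¬ ∃ (H K : Subgroup G) (hK : (K.subgroupOf H).Normal), Nonempty ((H ⧸ K.subgroupOf H) ≃* Matrix.SpecialLinearGroup (Fin 2) (ZMod p))) (P : Sylow p G) (A : Set G) (hA : A ⊆ (P : Set G)) (g : G) (hAg : (fun a => g⁻¹ * a * g) '' A ⊆ (P : Set G)) : ∃ n ∈ Subgroup.normalizer (Cfsg.centerThompsonOf p (P : Subgroup G) : Set G), ∀ a ∈ A, n⁻¹ * a * n = g⁻¹ * a * g := by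
  have hns : ¬ Cfsg.Agent.Dickson.HasSL2Section p (⊤ : Subgroup G) := fun h => by
    obtain ⟨K, L, hn, -, e⟩ := h.exists_iso
    exact hfree ⟨K, L, hn, e⟩
  obtain ⟨n, hn, hna⟩ := Cfsg.Agent.Transfer.ZJ.agreesIn hp hns P (A := Subgroup.closure A) (g := g⁻¹)
    ((Subgroup.closure_le _).mpr hA) (by
      rw [MonoidHom.map_closure, Subgroup.closure_le]
      rintro _ ⟨a, ha, rfl⟩
      refine hAg ⟨a, ha, ?_⟩
      simp)
  refine ⟨n⁻¹, Subgroup.inv_mem _ hn, fun a ha => ?_⟩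
  rw [inv_inv, hna a (Subgroup.subset_closure ha), inv_inv]

end Cfsg.Agent.S0118
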