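import Cfsg.Statements.S0119
import Cfsg.Agent.FGS3.ClassTwo
import Cfsg.Agent.FGS3.PGroupFrattini
import Cfsg.Agent.OddLocal.NilBasics

set_option autoImplicit false
open scoped commutatorElement
open Cfsg

namespace Cfsg.Agent.S0119

/-- If a p'-group A of automorphisms of a p-group G satisfies G = [G, A] and acts trivially on every characteristic abelian subgroup, then G is special with centre equal to the fixed points of A. -/
theorem result {G : Type*} [Group G] [Finite G] {p : ℕ} [Fact p.Prime] (hG : IsPGroup p G) (A : Subgroup (MulAut G)) (hA : Nat.Coprime (Nat.card A) p) (hGA : Subgroup.closure {x : G | ∃ g : G, ∃ a ∈ A, x = g⁻¹ * a g} = ⊤) (hchar : ∀ H : Subgroup G, H.Characteristic → IsMulCommutative H → ∀ a ∈ A, ∀ h ∈ H, a h = h) : Cfsg.IsSpecial p G ∧ (∀ g : G, (g ∈ Subgroup.center G ↔ ∀ a ∈ A, a g = g)) := by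
  classical
  haveI := hG.isNilpotent
  have hp : p.Prime := Fact.out
  -- characteristic abelian subgroups are central
  have hcent : ∀ H : Subgroup G, H.Characteristic → IsMulCommutative H → H ≤ Subgroup.center G := by
    intro H hH hHab h hh
    haveI := hH
    have hle : Subgroup.closure {x : G | ∃ g : G, ∃ a ∈ A, x = g⁻¹ * a g} ≤ Subgroup.centralizer ({h} : Set G) := by
      rw [Subgroup.closure_le]
      rintro _ ⟨g, a, ha, rfl⟩
      rw [SetLike.mem_coe, Subgroup.mem_centralizer_singleton_iff]
      have h1 : g * h * g⁻¹ ∈ H := (inferInstance : H.Normal).conj_mem h hh g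
      have h2 := hchar H hH hHab a ha _ h1
      rw [map_mul, map_mul, map_inv, hchar H hH hHab a ha h hh] at h2
      calc g⁻¹ * a g * h = g⁻¹ * (a g * h * (a g)⁻¹) * a g := by group
        _ = h * (g⁻¹ * a g) := by rw [h2]; group
    rw [Subgroup.mem_center_iff]
    intro y
    exact Subgroup.mem_centralizer_singleton_iff.mp (hle (hGA ▸ Subgroup.mem_top y))
  set Z := Subgroup.center G with hZdef
  -- class two
  have hcl : commutator G ≤ Z := by
    let W : Subgroup G := commutator G ⊓ Subgroup.upperCentralSeries G 2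
    have hW2 : ∀ w ∈ W, ∀ g, ⁅w, g⁆ ∈ Z := fun w hw g => by
      have := Subgroup.mem_upperCentralSeries_succ_iff.mp hw.2 g
      rwa [Subgroup.upperCentralSeries_one] at this
    have hWc : ∀ w ∈ W, ∀ c ∈ commutator G, w * c = c * w := by
      intro w hw c hc
      let f : G →* G := MonoidHom.mk' (fun g => ⁅w, g⁆) (fun g k => by
        rw [commutatorElement_mul_right_eq_mul_conj, mul_assoc ⁅w, g⁆ g, Subgroup.mem_center_iff.mp (hW2 w hw k) g]; group)
      have hle : commutator G ≤ f.ker := by
        rw [commutator_def, Subgroup.commutator_le]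
        intro g _ k _
        rw [MonoidHom.mem_ker, map_commutatorElement, commutatorElement_eq_one_iff_mul_comm]
        exact Subgroup.mem_center_iff.mp (hW2 w hw k) _
      exact commutatorElement_eq_one_iff_mul_comm.mp (hle hc)
    haveI hWchar : W.Characteristic := by
      rw [Subgroup.characteristic_iff_map_le]
      intro φ
      refine (Subgroup.map_inf_le _ _ _).trans (inf_le_inf ?_ ?_)
      · exact Subgroup.characteristic_iff_map_le.mp inferInstance φ
      · exact Subgroup.characteristic_iff_map_le.mp inferInstance φ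
    have hWZ : W ≤ Z := hcent W hWchar ⟨⟨fun a b => Subtype.ext (hWc _ a.2 _ b.2.1)⟩⟩
    by_contra hnot
    have hne : (commutator G).map (QuotientGroup.mk' Z) ≠ ⊥ := fun h => hnot (by
      rwa [Subgroup.map_eq_bot_iff, QuotientGroup.ker_mk'] at h)
    haveI : ((commutator G).map (QuotientGroup.mk' Z)).Normal :=
      Subgroup.Normal.map inferInstance _ (QuotientGroup.mk'_surjective Z)
    haveI := (hG.to_quotient Z).isNilpotent
    obtain ⟨_, ⟨c, hc, rfl⟩, hc1, hcc⟩ := Cfsg.Agent.OddLocal.exists_ne_one_mem_center_of_normal _ hne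
    apply hc1
    rw [QuotientGroup.mk'_apply, QuotientGroup.eq_one_iff]
    refine hWZ ⟨hc, Subgroup.mem_upperCentralSeries_succ_iff.mpr fun y => ?_⟩
    rw [Subgroup.upperCentralSeries_one, ← hZdef, ← QuotientGroup.eq_one_iff,
      ← QuotientGroup.mk'_apply, map_commutatorElement, commutatorElement_eq_one_iff_mul_comm]
    exact (Subgroup.mem_center_iff.mp hcc _).symm
  -- commutators have order dividing `p`
  have hex : ∃ e : ℕ, ∀ x y : G, ⁅x, y⁆ ^ p ^ e = 1 := by
    obtain ⟨n, hn⟩ := IsPGroup.iff_card.mp hG
    exact ⟨n, fun x y => hn ▸ pow_card_eq_one'⟩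
  have hpZ : ∀ x : G, x ^ p ∈ Z := by
    have he : Nat.find hex ≤ 1 := by
      by_contra hlt
      obtain ⟨e, he⟩ : ∃ e, Nat.find hex = e + 2 := ⟨Nat.find hex - 2, by omega⟩
      let H : Subgroup G := Subgroup.closure (Set.range fun x : G => x ^ p ^ (e + 1))
      haveI hHchar : H.Characteristic := by
        rw [Subgroup.characteristic_iff_map_le]
        intro φ
        rw [MonoidHom.map_closure, Subgroup.closure_le]
        rintro _ ⟨_, ⟨x, rfl⟩, rfl⟩
        exact Subgroup.subset_closure ⟨φ x, (map_pow φ x _).symm⟩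
      have hHab : IsMulCommutative H := by
        refine Subgroup.isMulCommutative_closure ?_
        rintro _ ⟨x, rfl⟩ _ ⟨y, rfl⟩
        have hs := Nat.find_spec hex x y
        rw [he] at hs
        show Commute (x ^ p ^ (e + 1)) (y ^ p ^ (e + 1))
        rw [← commutatorElement_eq_one_iff_commute, Cfsg.Agent.FGS3.commutatorElement_pow_left hcl,
          Cfsg.Agent.FGS3.commutatorElement_pow_right hcl, ← pow_mul, ← pow_add,
          show e + 1 + (e + 1) = (e + 2) + e by omega, pow_add, pow_mul, hs, one_pow]
      have hmin := Nat.find_min hex (show e + 1 < Nat.find hex by omega)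
      apply hmin
      intro x y
      rw [← Cfsg.Agent.FGS3.commutatorElement_pow_left hcl, commutatorElement_eq_one_iff_mul_comm]
      exact (Subgroup.mem_center_iff.mp (hcent H hHchar hHab (Subgroup.subset_closure ⟨x, rfl⟩)) y).symm
    intro x
    rw [hZdef, Subgroup.mem_center_iff]
    intro y
    have hs := Nat.find_spec hex x y
    have : ⁅x, y⁆ ^ p = 1 := by
      rcases Nat.le_one_iff_eq_zero_or_eq_one.mp he with h | h
      · rw [h, pow_zero, pow_one] at hs; rw [hs, one_pow]
      · rwa [h, pow_one] at hs
    rw [← Cfsg.Agent.FGS3.commutatorElement_pow_left hcl, commutatorElement_eq_one_iff_mul_comm] at this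
    exact this.symm
  -- fixed points lie in the derived subgroup
  have hfix : ∀ g : G, (∀ a ∈ A, a g = g) → g ∈ commutator G := by
    intro g hg
    haveI : Fintype A := Fintype.ofFinite A
    letI : CommGroup (G ⧸ commutator G) :=
      { (inferInstance : Group (G ⧸ commutator G)) with
        mul_comm := fun a b => by
          obtain ⟨a, rfl⟩ := QuotientGroup.mk_surjective a
          obtain ⟨b, rfl⟩ := QuotientGroup.mk_surjective b
          rw [← QuotientGroup.mk_mul, ← QuotientGroup.mk_mul, QuotientGroup.eq]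
          have : ⁅b⁻¹, a⁻¹⁆ ∈ commutator G :=
            Subgroup.commutator_mem_commutator (Subgroup.mem_top _) (Subgroup.mem_top _)
          simpa [commutatorElement_def, mul_assoc] using this }
    let θ : G →* G ⧸ commutator G := MonoidHom.mk'
      (fun x => ∏ a : A, (((a : MulAut G) x : G) : G ⧸ commutator G))
      (fun x y => by simp only [map_mul, QuotientGroup.mk_mul]; exact Finset.prod_mul_distrib)
    have htriv : ∀ x, θ x = 1 := by
      intro x
      have hle : Subgroup.closure {x : G | ∃ g : G, ∃ a ∈ A, x = g⁻¹ * a g} ≤ θ.ker := by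
        rw [Subgroup.closure_le]
        rintro _ ⟨u, a, ha, rfl⟩
        rw [SetLike.mem_coe, MonoidHom.mem_ker, map_mul, map_inv, inv_mul_eq_one]
        show (∏ b : A, (((b : MulAut G) u : G) : G ⧸ commutator G)) =
          ∏ b : A, (((b : MulAut G) (a u) : G) : G ⧸ commutator G)
        refine (Fintype.prod_equiv (Equiv.mulRight (⟨a, ha⟩ : A)) _ _ fun b => ?_).symm
        rfl
      exact hle (hGA ▸ Subgroup.mem_top x)
    have h1 := htriv g
    have h2 : θ g = (g : G ⧸ commutator G) ^ Nat.card A := by
      show (∏ a : A, (((a : MulAut G) g : G) : G ⧸ commutator G)) = _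
      rw [Finset.prod_congr rfl fun (a : A) _ => by rw [hg a a.2], Finset.prod_const, Finset.card_univ,
        Nat.card_eq_fintype_card]
    rw [h2] at h1
    obtain ⟨n, hn⟩ := IsPGroup.iff_card.mp (hG.to_quotient (commutator G))
    have hcop : (Nat.card (G ⧸ commutator G)).Coprime (Nat.card A) := by
      rw [hn]; exact (Nat.Coprime.pow_right n hA).symm
    rw [← QuotientGroup.eq_one_iff]
    exact (powCoprime hcop).injective (h1.trans (one_pow _).symm)
  have hZfix : ∀ g ∈ Z, ∀ a ∈ A, a g = g := fun g hg a ha =>
    hchar Z Subgroup.centerCharacteristic inferInstance a ha g hg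
  have hZG : Z = commutator G := le_antisymm (fun g hg => hfix g (hZfix g hg)) hcl
  refine ⟨⟨hG, le_antisymm ?_ ?_, hZG.symm⟩, fun g => ⟨hZfix g, fun h => hcl (hfix g h)⟩⟩
  · exact Cfsg.Agent.FGS3.frattini_le_of_elementary (p := p) hcl hpZ
  · exact hZG.le.trans (Cfsg.Agent.FGS3.commutator_le_frattini hG)

end Cfsg.Agent.S0119
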