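import Cfsg.Statements.S0121
import Cfsg.Agent.FGS3.Extraspecial
import Cfsg.Agent.Transfer.Small

set_option autoImplicit false
open Cfsg
open scoped commutatorElement

namespace Cfsg.Agent.S0121

/-- A p'-automorphism of a p-group acting trivially on a critical subgroup is trivial. -/
theorem result {G : Type*} [Group G] [Finite G] {p : ℕ} [Fact p.Prime] (hG : IsPGroup p G) (H : Subgroup G) (hH : H.Characteristic) (h1 : (frattini H).map H.subtype ≤ Subgroup.centralizer (H : Set G)) (h2 : ⁅H, (⊤ : Subgroup G)⁆ ≤ H ⊓ Subgroup.centralizer (H : Set G)) (h3 : Subgroup.centralizer (H : Set G) ≤ H) (a : MulAut G) (ha : Nat.Coprime (orderOf a) p) (h : ∀ x ∈ H, a x = x) : a = 1 := by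
  ext x
  show a x = x
  set c := x⁻¹ * a x with hc
  have hcH : c ∈ H := h3 (by
    rw [Subgroup.mem_centralizer_iff]
    intro y hy
    have hxy : x * y * x⁻¹ ∈ H := by
      have h4 := (h2 (Subgroup.commutator_mem_commutator hy (Subgroup.mem_top x))).1
      rw [commutatorElement_def] at h4
      have h5 := H.mul_mem (H.inv_mem h4) hy
      rwa [show (y * x * y⁻¹ * x⁻¹)⁻¹ * y = x * y * x⁻¹ by group] at h5
    have e := h _ hxy
    rw [map_mul, map_mul, map_inv, h y hy] at e
    rw [hc]
    exact ((Cfsg.Agent.Transfer.conj_eq_conj_iff).mp e.symm).symm)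
  have hax : a x = x * c := by rw [hc, mul_inv_cancel_left]
  have hk : ∀ k : ℕ, (a ^ k) x = x * c ^ k := by
    intro k
    induction k with
    | zero => simp
    | succ k ih =>
      rw [pow_succ', MulAut.mul_apply, ih, map_mul, map_pow, h c hcH, hax, mul_assoc, ← pow_succ']
  have h6 := hk (orderOf a)
  rw [pow_orderOf_eq_one, MulAut.one_apply, left_eq_mul] at h6
  have h7 : c = 1 := Cfsg.Agent.Transfer.eq_one_of_coprime_orderOf hG
    (Nat.Coprime.coprime_dvd_left (orderOf_dvd_of_pow_eq_one h6) ha)
  rw [hax, h7, mul_one]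

end Cfsg.Agent.S0121
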