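import Cfsg.Statements.S0123
import Cfsg.Agent.S4209

set_option autoImplicit false
open Cfsg

namespace Cfsg.Agent.S0123

/-- For a p-group of small class relative to p (class ≤ 2 with p odd, or class ≤ 3 with p > 3) whose derived subgroup is generated by elements of order dividing p, the p-th power map is multiplicative. -/
theorem result {R : Type*} [Group R] [Finite R] {p : ℕ} [Fact p.Prime] (hR : IsPGroup p R) (hcl : (p ≠ 2 ∧ ⁅commutator R, (⊤ : Subgroup R)⁆ = ⊥) ∨ (3 < p ∧ ⁅⁅commutator R, (⊤ : Subgroup R)⁆, (⊤ : Subgroup R)⁆ = ⊥)) (hder : commutator R ≤ Subgroup.closure {x : R | x ^ p = 1}) (x y : R) : (x * y) ^ p = x ^ p * y ^ p := by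
  have hp2 : 2 ≤ p - 1 := by
    have := (Fact.out : p.Prime).two_le
    rcases hcl with ⟨h, -⟩ | ⟨h, -⟩ <;> omega
  have hcl' : (⊤ : Subgroup R).lowerCentralSeries (p - 1) = ⊥ := by
    rcases hcl with ⟨-, h⟩ | ⟨h3, h⟩
    · refine eq_bot_iff.mpr ((Subgroup.lowerCentralSeries_antitone _ hp2).trans ?_)
      rw [Subgroup.lowerCentralSeries_succ, Subgroup.top_lowerCentralSeries_one, h]
    · refine eq_bot_iff.mpr ((Subgroup.lowerCentralSeries_antitone _ (show 3 ≤ p - 1 by omega)).trans ?_)
      rw [Subgroup.lowerCentralSeries_succ, Subgroup.lowerCentralSeries_succ, Subgroup.top_lowerCentralSeries_one, h]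
  have hR' : Cfsg.Agent.FGS3.Regular.RegAt p 1 R := fun a b => (S4209.result hR hcl').2 a b 1
  have hexp : ∀ g ∈ Subgroup.closure {x : R | x ^ p = 1}, g ^ p = 1 := by
    intro g hg
    induction hg using Subgroup.closure_induction with
    | mem x hx => exact hx
    | one => exact one_pow _
    | mul a b _ _ ha hb =>
      have := Cfsg.Agent.FGS3.Regular.omega_mul hR hR' (a := a) (b := b) (by rw [pow_one]; exact ha) (by rw [pow_one]; exact hb)
      rwa [pow_one] at this
    | inv a _ ha => rw [inv_pow, ha, inv_one]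
  have h := Cfsg.Agent.FGS3.PolySeq.mul_pow_prime_mem (G := R) Fact.out hcl' (L := ⊥)
    (fun g hg => Subgroup.mem_bot.mpr (hexp g (hder hg))) x y
  rw [Subgroup.mem_bot, mul_assoc, inv_mul_eq_one, eq_inv_mul_iff_mul_eq] at h
  exact h.symm

end Cfsg.Agent.S0123
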