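import Cfsg.Statements.S0124
import Cfsg.Agent.S4209

set_option autoImplicit false
open Cfsg

namespace Cfsg.Agent.S0124

/-- For p > 3, in a p-group of class at most three the elements of order dividing p generate a subgroup of exponent dividing p. -/
theorem result {R : Type*} [Group R] [Finite R] {p : ℕ} [Fact p.Prime] (hp : 3 < p) (hR : IsPGroup p R) (hcl : ⁅⁅commutator R, (⊤ : Subgroup R)⁆, (⊤ : Subgroup R)⁆ = ⊥) (g : R) (hg : g ∈ Subgroup.closure {x : R | x ^ p = 1}) : g ^ p = 1 := by
  have hcl' : (⊤ : Subgroup R).lowerCentralSeries (p - 1) = ⊥ := by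
    refine eq_bot_iff.mpr ((Subgroup.lowerCentralSeries_antitone _ (show 3 ≤ p - 1 by omega)).trans ?_)
    rw [Subgroup.lowerCentralSeries_succ, Subgroup.lowerCentralSeries_succ, Subgroup.top_lowerCentralSeries_one, hcl]
  have hR' : Cfsg.Agent.FGS3.Regular.RegAt p 1 R := fun a b => (S4209.result hR hcl').2 a b 1
  induction hg using Subgroup.closure_induction with
  | mem x hx => exact hx
  | one => exact one_pow _
  | mul a b _ _ ha hb =>
    have := Cfsg.Agent.FGS3.Regular.omega_mul hR hR' (a := a) (b := b) (by rw [pow_one]; exact ha) (by rw [pow_one]; exact hb)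
    rwa [pow_one] at this
  | inv a _ ha => rw [inv_pow, ha, inv_one]

end Cfsg.Agent.S0124
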