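import Cfsg.Statements.S0125
import Cfsg.Agent.Transfer.Burnside

set_option autoImplicit false
open Cfsg

namespace Cfsg.Agent.S0125

/-- The centralizer of a self-centralizing normal subgroup A of a Sylow p-subgroup is the direct product of A with a normal p'-subgroup. -/
theorem result {G : Type*} [Group G] [Finite G] {p : ℕ} [Fact p.Prime] (R : Sylow p G) (A : Subgroup G) (hAR : A ≤ (R : Subgroup G)) (hAn : (R : Subgroup G) ≤ Subgroup.normalizer (A : Set G)) (hC : (R : Subgroup G) ⊓ Subgroup.centralizer (A : Set G) = A) : ∃ H : Subgroup G, H ≤ Subgroup.centralizer (A : Set G) ∧ Nat.Coprime (Nat.card H) p ∧ Subgroup.centralizer (A : Set G) ≤ Subgroup.normalizer (H : Set G) ∧ H ⊓ A = ⊥ ∧ H ⊔ A = Subgroup.centralizer (A : Set G) := by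
  let N := Subgroup.normalizer (A : Set G)
  let C := Subgroup.centralizer (A : Set G)
  have hCN : C ≤ N := Subgroup.centralizer_le_normalizer _
  haveI : (C.subgroupOf N).Normal := Cfsg.Agent.Transfer.centralizer_subgroupOf_normalizer_normal A
  have hAC : A ≤ C := hC.ge.trans inf_le_right
  have hrel : ¬ p ∣ A.relIndex C := by
    have h1 := Cfsg.Agent.Transfer.not_dvd_relIndex_of_normal (R.subtype hAn) (C.subgroupOf N)
    have h2 : ((R : Subgroup G).subgroupOf N).relIndex (C.subgroupOf N) =
        (R : Subgroup G).relIndex C := by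
      rw [← Subgroup.relIndex_map_map_of_injective _ _ N.subtype_injective,
        Subgroup.map_subgroupOf_eq_of_le hAn, Subgroup.map_subgroupOf_eq_of_le hCN]
    rw [Sylow.coe_subtype, h2, ← Subgroup.inf_relIndex_right, hC] at h1
    exact h1
  let S : Sylow p C := IsPGroup.toSylow (P := A.subgroupOf C) ((R.2.to_le hAR).comap_subtype) hrel
  have hcen : A.subgroupOf C ≤ Subgroup.center C := fun x hx => Subgroup.mem_center_iff.mpr fun y =>
    Subtype.ext (Subgroup.mem_centralizer_iff.mp y.2 x hx).symm
  have hN : HasNormalPComplement p C :=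
    Cfsg.Agent.Transfer.hasNormalPComplement_of_normalizer_le_centralizer S fun n _ => by
      rw [Subgroup.mem_centralizer_iff]
      exact fun y hy => (Subgroup.mem_center_iff.mp (hcen hy) n).symm
  have hcompl := Cfsg.Agent.Transfer.isComplement'_pResidual S hN
  refine ⟨(pResidual p C).map C.subtype, Subgroup.map_subtype_le _, ?_, ?_, ?_, ?_⟩
  · rw [Subgroup.card_map_of_injective C.subtype_injective]
    exact Cfsg.Agent.Transfer.hasNormalPComplement_iff_coprime_pResidual.mp hN
  · haveI : (((pResidual p C).map C.subtype).subgroupOf C).Normal := by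
      rw [Subgroup.subgroupOf, Subgroup.comap_map_eq_self_of_injective C.subtype_injective]
      exact Cfsg.Agent.Transfer.pResidual_normal
    exact Subgroup.le_normalizer_of_normal_subgroupOf (Subgroup.map_subtype_le _)
  · rw [← Subgroup.map_subgroupOf_eq_of_le hAC, ← Subgroup.map_inf _ _ _ C.subtype_injective,
      show pResidual p C ⊓ A.subgroupOf C = ⊥ from hcompl.disjoint.eq_bot, Subgroup.map_bot]
  · conv_lhs => rw [← Subgroup.map_subgroupOf_eq_of_le hAC, ← Subgroup.map_sup,
      show pResidual p C ⊔ A.subgroupOf C = ⊤ from hcompl.sup_eq_top, ← MonoidHom.range_eq_map,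
      Subgroup.range_subtype]

end Cfsg.Agent.S0125
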