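import Cfsg.Statements.S0127
import Cfsg.Agent.Transfer.PGroupNormal

set_option autoImplicit false
open Cfsg

namespace Cfsg.Agent.S0127

/-- For odd p, in a non-cyclic p-group with a cyclic subgroup of index p, the elements of order dividing p generate an elementary abelian subgroup of order p^2. -/
theorem result {R : Type*} [Group R] [Finite R] {p : ℕ} [Fact p.Prime] (hp : p ≠ 2) (hR : IsPGroup p R) (hnc : ¬ IsCyclic R) (C : Subgroup R) (hC : IsCyclic C) (hCi : C.index = p) : Cfsg.IsElementaryAbelian p (Subgroup.closure {x : R | x ^ p = 1}) ∧ Nat.card (Subgroup.closure {x : R | x ^ p = 1}) = p ^ 2 := by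
  obtain ⟨A, hAn, hA, hAc⟩ := Cfsg.Agent.Transfer.PNormal.exists_normal_ea_sq hp hR hnc
  have hpp : p.Prime := Fact.out
  haveI := hR.isNilpotent
  haveI := hC
  haveI hCn : C.Normal := by
    refine Subgroup.normal_of_index_eq_minFac_card ?_
    obtain ⟨k, hk⟩ := hR.exists_card_eq
    rcases k with _ | k
    · exfalso
      have := C.index_dvd_card
      rw [hCi, hk, pow_zero, Nat.dvd_one] at this
      exact hpp.ne_one this
    · rw [hCi, hk, Nat.pow_minFac k.succ_ne_zero, hpp.minFac_eq]
  set D : Subgroup R := A ⊓ C with hD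
  have hDp : Nat.card D ≤ p := by
    haveI : IsCyclic D := isCyclic_of_injective (Subgroup.inclusion (inf_le_right : D ≤ C))
      (Subgroup.inclusion_injective _)
    obtain ⟨d, hd⟩ := IsCyclic.exists_generator (α := D)
    rw [← Subgroup.card_top, ← (Subgroup.eq_top_iff' (Subgroup.zpowers d)).mpr hd, Nat.card_zpowers]
    exact orderOf_le_of_pow_eq_one hpp.pos (Subtype.ext (hA.2 d d.2.1))
  have hAC : A ⊔ C = ⊤ := by
    rw [← Subgroup.index_eq_one]
    have h1 := Subgroup.index_dvd_of_le (le_sup_right : C ≤ A ⊔ C)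
    rw [hCi] at h1
    refine (hpp.eq_one_or_self_of_dvd _ h1).resolve_right fun h => ?_
    have h2 : A ⊔ C = C := (Subgroup.eq_of_le_of_card_ge le_sup_right (by
      have e1 := C.card_mul_index
      have e2 := (A ⊔ C).card_mul_index
      rw [hCi] at e1
      rw [h, ← e1] at e2
      exact (Nat.eq_of_mul_eq_mul_right hpp.pos e2).le)).symm
    have h3 : A ≤ D := le_inf le_rfl (h2 ▸ le_sup_left)
    have h4 := (Subgroup.card_le_of_le h3).trans hDp
    rw [hAc] at h4
    exact absurd h4 (not_le.mpr (lt_self_pow₀ hpp.one_lt one_lt_two))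
  have hDc : ∀ d ∈ D, ∀ g : R, d * g = g * d := by
    by_cases hD1 : D = ⊥
    · intro d hd g; rw [hD1] at hd; rw [Subgroup.mem_bot.mp hd, one_mul, mul_one]
    obtain ⟨z, hzD, -, -, hzg, -, hc⟩ := Cfsg.Agent.Transfer.PNormal.exists_central_step hR (M := ⊥)
      inferInstance (inferInstance : D.Normal) (bot_lt_iff_ne_bot.mpr hD1)
    rw [bot_sup_eq, Subgroup.card_bot, one_mul] at hc
    intro d hd g
    have hz : Subgroup.zpowers z = D := Subgroup.eq_of_le_of_card_ge (Subgroup.zpowers_le.mpr hzD) (hc ▸ hDp)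
    obtain ⟨i, rfl⟩ := hz.ge hd
    exact ((show Commute z g from mul_inv_eq_iff_eq_mul.mp (mul_inv_eq_one.mp (Subgroup.mem_bot.mp (hzg g)))).zpow_left i).eq
  have hall : ∀ x : R, x ^ p = 1 → x ∈ A := by
    intro x hx
    obtain ⟨a, ha, c, hc, rfl⟩ := Subgroup.mem_sup_of_normal_left.mp (hAC ▸ Subgroup.mem_top x)
    refine A.mul_mem ha ?_
    set m := c * a * c⁻¹ * a⁻¹ with hm
    have hmD : m ∈ D := ⟨A.mul_mem (hAn.conj_mem a ha c) (A.inv_mem ha), by
      rw [hm, show c * a * c⁻¹ * a⁻¹ = c * (a * c⁻¹ * a⁻¹) by group]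
      exact C.mul_mem hc (hCn.conj_mem _ (C.inv_mem hc) a)⟩
    rw [Cfsg.Agent.OddLocal.pow_mul_class_two (x := a) (d := c) (c := m) (by rw [hm]; group) (hDc m hmD a) (hDc m hmD c),
      hA.2 a ha, one_mul] at hx
    obtain ⟨j, hj⟩ := hpp.dvd_choose_self (by norm_num : (2 : ℕ) ≠ 0) (lt_of_le_of_ne hpp.two_le (Ne.symm hp))
    rw [hj, pow_mul, hA.2 m hmD.1, one_pow, mul_one] at hx
    by_contra hcA
    have ho := orderOf_eq_prime hx (fun h => hcA (h ▸ A.one_mem))
    -- the unique subgroup of order p of the cyclic group C lies in A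
    have h1 : ∀ y ∈ C, y ^ p = 1 → y ∈ Subgroup.zpowers c := by
      intro y hy hyp
      classical
      let _ : Fintype C := Fintype.ofFinite C
      have he := IsCyclic.card_pow_eq_one_le (α := C) hpp.pos
      by_contra hyc
      have hsub : insert (⟨y, hy⟩ : C) ((Finset.range p).image fun i => (⟨c, hc⟩ : C) ^ i) ⊆
          Finset.univ.filter fun w : C => w ^ p = 1 := by
        intro w hw
        rw [Finset.mem_filter]
        refine ⟨Finset.mem_univ _, ?_⟩
        rcases Finset.mem_insert.mp hw with rfl | hw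
        · exact Subtype.ext hyp
        · obtain ⟨i, -, rfl⟩ := Finset.mem_image.mp hw
          rw [← pow_mul, mul_comm, pow_mul, (show (⟨c, hc⟩ : C) ^ p = 1 from Subtype.ext hx), one_pow]
      have hcard := (Finset.card_le_card hsub).trans he
      rw [Finset.card_insert_of_notMem, Finset.card_image_of_injOn, Finset.card_range] at hcard
      · omega
      · have hord : orderOf (⟨c, hc⟩ : C) = p := by rw [← Subgroup.orderOf_coe, ho]
        exact fun i hi j hj hij => pow_injOn_Iio_orderOf
          (by rw [hord]; simpa using hi) (by rw [hord]; simpa using hj) hij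
      · rw [Finset.mem_image]
        rintro ⟨i, -, hi⟩
        exact hyc ⟨i, by simpa using congrArg Subtype.val hi⟩
    have hDne : D ≠ ⊥ := fun h0 => by
      have h3 : Nat.card A ≤ C.index := by
        rw [Subgroup.index_eq_card]
        refine Nat.card_le_card_of_injective (fun v : A => (QuotientGroup.mk' C) (v : R)) fun v w hvw => ?_
        have : ((v⁻¹ * w : A) : R) ∈ D := ⟨(v⁻¹ * w : A).2, QuotientGroup.eq.mp hvw⟩
        rw [h0, Subgroup.mem_bot] at this
        exact inv_mul_eq_one.mp (Subtype.ext this)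
      rw [hAc, hCi] at h3
      exact absurd h3 (not_le.mpr (lt_self_pow₀ hpp.one_lt one_lt_two))
    haveI := (Subgroup.nontrivial_iff_ne_bot D).mpr hDne
    obtain ⟨⟨d, hd⟩, hd1⟩ := exists_ne (1 : D)
    have hdc := h1 d hd.2 (hA.2 d hd.1)
    have : Subgroup.zpowers d = Subgroup.zpowers c := Subgroup.eq_of_le_of_card_ge
      (Subgroup.zpowers_le.mpr hdc) (by
        rw [Nat.card_zpowers, Nat.card_zpowers, ho, orderOf_eq_prime (hA.2 d hd.1) (fun h => hd1 (Subtype.ext h))])
    exact hcA ((Subgroup.zpowers_le.mpr hd.1) (this ▸ Subgroup.mem_zpowers c))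
  have hcl : Subgroup.closure {x : R | x ^ p = 1} = A :=
    le_antisymm ((Subgroup.closure_le _).mpr fun x hx => hall x hx)
      fun x hx => Subgroup.subset_closure (hA.2 x hx)
  rw [hcl]
  exact ⟨hA, hAc⟩

end Cfsg.Agent.S0127
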