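import Cfsg.Statements.S3771
import Cfsg.Agent.S0015
import Cfsg.Agent.FGS3.PGroupFrattini
import Cfsg.Agent.FGS3.PGroupAut

set_option autoImplicit false
open Cfsg

namespace Cfsg.Agent.S3771

/-- Let p be a prime and R a finite p-group of p-rank at most 2 (no elementary abelian subgroup of order p³) in which every element has order dividing p. Then R has order at most p³. -/
theorem result {R : Type*} [Group R] [Finite R] {p : ℕ} [Fact p.Prime] (hR : IsPGroup p R) (hrank : Cfsg.PRankLE p 2 R) (hexp : ∀ x : R, x ^ p = 1) : Nat.card R ≤ p ^ 3 := by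
  haveI := hR.isNilpotent
  have hp : p.Prime := Fact.out
  obtain ⟨A, ⟨hAn, hAc⟩, hAmax⟩ := (Set.toFinite {M : Subgroup R | M.Normal ∧ IsMulCommutative M}).exists_maximal
    ⟨⊥, (inferInstance : (⊥ : Subgroup R).Normal),
      (⟨⟨fun a b => Subsingleton.elim _ _⟩⟩ : IsMulCommutative (⊥ : Subgroup R))⟩
  haveI := hAn
  haveI := hAc
  have hC : Subgroup.centralizer (A : Set R) = A :=
    Cfsg.Agent.S0015.result A fun M h1 h2 h3 => le_antisymm (hAmax ⟨h1, h2⟩ h3) h3
  have hAp : IsPGroup p A := hR.to_subgroup A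
  obtain ⟨k, hk⟩ := IsPGroup.iff_card.mp hAp
  have hk2 : k ≤ 2 := (Nat.pow_le_pow_iff_right hp.one_lt).mp (hk ▸ hrank A hAc fun a _ => hexp a)
  have hAx : ∀ a : A, a ^ p = 1 := fun a => Subtype.ext (hexp a)
  have hAF : frattini A = ⊥ :=
    Cfsg.Agent.FGS3.frattini_eq_bot_of_elementary (fun a b => mul_comm' a b) hAx
  have hdvd := Cfsg.Agent.FGS3.card_mulAut_dvd (G := A) hAp (r := k)
    (by rw [hAF, Subgroup.index_bot, hk])
  rw [hAF, Subgroup.card_bot, one_pow, one_mul] at hdvd
  let φ : R →* MulAut A := MulAut.conjNormal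
  have hker : φ.ker = A := by
    refine Eq.trans ?_ hC
    ext g
    rw [MonoidHom.mem_ker, Subgroup.mem_centralizer_iff]
    constructor
    · intro h a ha
      have := congrArg Subtype.val (MulEquiv.congr_fun h ⟨a, ha⟩)
      simp only [φ, MulAut.conjNormal_apply, MulAut.one_apply] at this
      exact (mul_inv_eq_iff_eq_mul.mp this).symm
    · intro h
      apply MulEquiv.ext
      intro a
      apply Subtype.ext
      rw [MulAut.conjNormal_apply, MulAut.one_apply, ← h a a.2, mul_inv_cancel_right]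
  have hidx : A.index ∣ Nat.card (MulAut A) := by
    have : φ.ker.index = A.index := congrArg Subgroup.index hker
    rw [← this, Subgroup.index_ker]
    exact Subgroup.card_subgroup_dvd_card _
  obtain ⟨m, hm⟩ := hR.index A
  have hdvd2 : p ^ m ∣ ∏ i ∈ Finset.range k, (p ^ k - p ^ i) := hm ▸ hidx.trans hdvd
  have h1 : ¬ p ∣ p - 1 := Nat.not_dvd_of_pos_of_lt (by have := hp.two_le; omega) (by have := hp.pos; omega)
  have h2 : ¬ p ∣ p ^ 2 - 1 := fun h => hp.ne_one (Nat.dvd_one.mp
    ((Nat.dvd_sub_iff_right (Nat.one_le_pow _ _ hp.pos) (dvd_pow_self p two_ne_zero)).mp h))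
  have hm1 : m + k ≤ 3 := by
    interval_cases k
    · simp only [Finset.range_zero, Finset.prod_empty, Nat.dvd_one, Nat.pow_eq_one, hp.ne_one, false_or] at hdvd2
      omega
    · simp only [Finset.prod_range_one, pow_one, pow_zero] at hdvd2
      rcases Nat.eq_zero_or_pos m with h | h
      · omega
      · exact absurd ((dvd_pow_self p h.ne').trans hdvd2) h1
    · rw [Finset.prod_range_succ, Finset.prod_range_one, pow_zero, pow_one] at hdvd2
      have e : p ^ 2 - p = p * (p - 1) := by rw [Nat.mul_sub, mul_one, sq]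
      rw [e, ← mul_assoc, mul_comm (p ^ 2 - 1) p, mul_assoc] at hdvd2
      rcases m with _ | _ | m
      · omega
      · omega
      · exfalso
        rw [pow_succ'] at hdvd2
        have := (Nat.dvd_of_mul_dvd_mul_left hp.pos hdvd2)
        exact (hp.dvd_mul.mp ((dvd_pow_self p (Nat.succ_ne_zero m)).trans this)).elim h2 h1
  rw [← Subgroup.card_mul_index A, hk, hm, ← pow_add]
  exact Nat.pow_le_pow_right hp.pos (by omega)

end Cfsg.Agent.S3771
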