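import Cfsg.Statements.S0129
import Cfsg.Agent.Transfer.PGroupNormal

set_option autoImplicit false
open Cfsg

namespace Cfsg.Agent.S0129

/-- The order of a p-group is bounded by p^(a(a+1)/2) when it has a maximal normal abelian subgroup of order p^a. -/
theorem result {G : Type*} [Group G] [Finite G] {p : ℕ} [Fact p.Prime] (hG : IsPGroup p G) (A : Subgroup G) [A.Normal] (hA : IsMulCommutative A) (hmax : ∀ B : Subgroup G, B.Normal → IsMulCommutative B → A ≤ B → B = A) (a : ℕ) (ha : Nat.card A = p ^ a) : Nat.card G ≤ p ^ (a * (a + 1) / 2) := by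
  haveI := hG.isNilpotent
  haveI := hA
  have hp : p.Prime := Fact.out
  obtain ⟨M, -, hMA, hMc, hMi⟩ := Cfsg.Agent.Transfer.PNormal.exists_normal_index_centralizer hG
    (inferInstance : A.Normal) a ha.ge
  obtain rfl : M = A := Subgroup.eq_of_le_of_card_ge hMA (by rw [hMc, ha])
  rw [Cfsg.Agent.S0015.result M hmax] at hMi
  rw [← M.card_mul_index, hMc]
  refine (Nat.mul_le_mul_left _ hMi).trans ?_
  rw [← pow_add]
  refine Nat.pow_le_pow_right hp.pos (le_of_eq ?_)
  rcases a with _ | a
  · rfl
  · rw [Nat.add_sub_cancel, show (a + 1) * (a + 1 + 1) = (a + 1) * a + (a + 1) * 2 by ring,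
      Nat.add_mul_div_right _ _ two_pos, Nat.add_comm]

end Cfsg.Agent.S0129
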