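import Cfsg.Statements.S0131
import Cfsg.Agent.Transfer.Burnside

set_option autoImplicit false
open Cfsg
open scoped commutatorElement

namespace Cfsg.Agent.S0131

/-- P/P' has a normal complement in G exactly when the focal subgroup G' ∩ P is as small as possible, namely P'. -/
theorem result {G : Type*} [Group G] [Finite G] {p : ℕ} [Fact p.Prime] (P : Sylow p G) : (∃ N : Subgroup G, N.Normal ∧ N ⊓ (P : Subgroup G) = ⁅(P : Subgroup G), (P : Subgroup G)⁆ ∧ N ⊔ (P : Subgroup G) = ⊤) ↔ commutator G ⊓ (P : Subgroup G) = ⁅(P : Subgroup G), (P : Subgroup G)⁆ := by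
  constructor
  · rintro ⟨N, hN, hNP, hNP'⟩
    refine le_antisymm ?_ (le_inf (Subgroup.commutator_mono le_top le_top)
      ((Subgroup.commutator_le_self _)))
    have hG : commutator G ≤ N ⊔ ⁅(P : Subgroup G), (P : Subgroup G)⁆ := by
      rw [commutator_def, Subgroup.commutator_le]
      intro a _ b _
      obtain ⟨n, hn, x, hx, rfl⟩ :=
        Subgroup.mem_sup_of_normal_left.mp (hNP'.symm ▸ Subgroup.mem_top a : a ∈ N ⊔ (P : Subgroup G))
      obtain ⟨m, hm, y, hy, rfl⟩ :=
        Subgroup.mem_sup_of_normal_left.mp (hNP'.symm ▸ Subgroup.mem_top b : b ∈ N ⊔ (P : Subgroup G))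
      have hxy : ⁅x, y⁆ ∈ N := hNP.ge.trans inf_le_left
        (Subgroup.commutator_mem_commutator hx hy)
      apply Subgroup.mem_sup_left
      rw [← QuotientGroup.eq_one_iff, ← QuotientGroup.mk'_apply] at hn hm hxy ⊢
      rw [map_commutatorElement, map_mul, map_mul, hn, hm, one_mul, one_mul,
        ← map_commutatorElement, hxy]
    rw [sup_eq_left.mpr (hNP.ge.trans inf_le_left)] at hG
    exact (inf_le_inf_right _ hG).trans hNP.le
  · intro h
    refine ⟨(P : Subgroup G).transferFocal.ker, inferInstance, ?_, ?_⟩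
    · rw [Subgroup.ker_transferFocal_inf_eq_focalSubgroup,
        ← Subgroup.commutator_inf_eq_focalSubgroup, h]
    · rw [eq_top_iff]
      intro g _
      obtain ⟨y, hy⟩ := Subgroup.focalSubgroupOf.pow_index_surjective P
        ((P : Subgroup G).transferFocal g)
      obtain ⟨x, rfl⟩ := QuotientGroup.mk'_surjective _ y
      have hx : (P : Subgroup G).transferFocal (x : G) = (P : Subgroup G).transferFocal g := by
        rw [Subgroup.transferFocal_eq_pow]; exact hy
      have := Subgroup.mul_mem_sup (S := (P : Subgroup G).transferFocal.ker) (T := (P : Subgroup G))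
        (x := g * (x : G)⁻¹) (y := (x : G))
        (by rw [MonoidHom.mem_ker, map_mul, map_inv, hx, mul_inv_cancel]) x.2
      simpa using this

end Cfsg.Agent.S0131
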