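import Cfsg.Statements.S0136
import Cfsg.Agent.Chars.Orth

set_option autoImplicit false
set_option linter.style.haveILetI false
open Cfsg

namespace Cfsg.Agent.S0136

/-- Two elements of a finite group are conjugate if and only if no irreducible complex character separates them. -/
theorem result {G : Type*} [Group G] [Finite G] (g h : G) : IsConj g h ↔ ∀ χ : Cfsg.IrrCharacter G, (χ : G → ℂ) g = (χ : G → ℂ) h := by
  haveI := Fintype.ofFinite G
  classical
  constructor
  · intro hgh χ
    obtain ⟨c, rfl⟩ := isConj_iff.1 hgh
    exact (Cfsg.Agent.Chars.isClassFunction_irr χ g c).symm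
  · intro hall
    by_contra hgh
    have h1 := Cfsg.Agent.Chars.column_orth g g
    have h2 := Cfsg.Agent.Chars.column_orth g h
    rw [if_pos (IsConj.refl g)] at h1
    simp only [if_neg hgh, ← hall] at h2
    rw [h2] at h1
    exact Nat.card_pos.ne' (Nat.cast_eq_zero.1 h1.symm)

end Cfsg.Agent.S0136
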