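import Cfsg.Statements.S0149
import Cfsg.Agent.Chars2.TI

set_option autoImplicit false
set_option linter.style.haveILetI false
open Cfsg

namespace Cfsg.Agent.S0149

/-- Let T be a subset of G meeting each of its conjugates by elements outside its normalizer N only in the identity, and let ψ be a class function of N vanishing on N away from T. Then the function induced from ψ agrees with ψ at every non-identity element of T. -/
theorem result {G : Type*} [Group G] [Fintype G] (T : Set G) (hTI : ∀ g : G, g ∉ Subgroup.normalizer T → ∀ t ∈ T, g * t * g⁻¹ ∈ T → t = 1) (hTN : T ⊆ Subgroup.normalizer T) (ψ : Subgroup.normalizer T → ℂ) (hψ : Cfsg.IsClassFunction (Subgroup.normalizer T) ψ) (hψT : ∀ x : Subgroup.normalizer T, (x : G) ∉ T → ψ x = 0) (t : Subgroup.normalizer T) (htT : (t : G) ∈ T) (ht1 : t ≠ 1) : Cfsg.indFun (Subgroup.normalizer T) ψ t = ψ t := by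
  classical
  let ψ' : Subgroup.normalizer T → ℂ := fun x => if x = 1 then 0 else ψ x
  have hψ' : Cfsg.IsClassFunction (Subgroup.normalizer T) ψ' := fun x y => by
    simp only [ψ', conj_eq_one_iff]
    split_ifs with h
    · rfl
    · exact hψ x y
  have hS : ∀ x : Subgroup.normalizer T, (x : G) ∉ T \ {1} → ψ' x = 0 := fun x hx => by
    simp only [ψ']
    split_ifs with h
    · rfl
    · exact hψT x fun hxT => hx ⟨hxT, fun h1 => h (Subtype.ext h1)⟩
  have hne : (t : G) ≠ 1 := fun h => ht1 (Subtype.ext h)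
  have h := Cfsg.Agent.Chars2.indFun_eq_of_ti (Subgroup.normalizer T) ψ' (T \ {1}) hS
    (fun g hg s hs hgs => hs.2 (hTI g hg s hs.1 hgs.1)) hψ' t ⟨htT, hne⟩
  have h2 : ψ' t = ψ t := by simp [ψ', ht1]
  rw [← h2, ← h]
  simp only [Cfsg.indFun]
  congr 1
  refine Finset.sum_congr rfl fun x _ => ?_
  by_cases hx : x⁻¹ * (t : G) * x ∈ Subgroup.normalizer T
  · rw [Cfsg.Agent.Chars2.extByZero_mem _ _ _ hx, Cfsg.Agent.Chars2.extByZero_mem _ _ _ hx]
    have : (⟨_, hx⟩ : Subgroup.normalizer T) ≠ 1 := fun h1 => hne (by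
      have e : x⁻¹ * (t : G) * x = 1 := congrArg Subtype.val h1
      calc (t : G) = x * (x⁻¹ * (t : G) * x) * x⁻¹ := by group
        _ = 1 := by rw [e]; group)
    simp only [ψ', if_neg this]
  · rw [Cfsg.Agent.Chars2.extByZero_not_mem _ _ _ hx, Cfsg.Agent.Chars2.extByZero_not_mem _ _ _ hx]

end Cfsg.Agent.S0149
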