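import Cfsg.Statements.S0155
import Cfsg.Agent.Chars.Orth

set_option autoImplicit false
set_option linter.style.haveILetI false
open Cfsg

namespace Cfsg.Agent.S0155

/-- The character of the left regular representation of a finite group takes the value |G| at the identity and 0 at every other element. -/
theorem result {G : Type*} [Group G] [Fintype G] [DecidableEq G] (g : G) : (Representation.leftRegular ℂ G).character g = if g = 1 then (Nat.card G : ℂ) else 0 := by
  have h : (Representation.leftRegular ℂ G).character = (Cfsg.Agent.Chars.regRep G).character := by
    refine Representation.char_iso (Representation.Equiv.mk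
      ((MonoidAlgebra.coeffLinearEquiv ℂ).trans (Finsupp.linearEquivFunOnFinite ℂ ℂ G)) fun g => ?_)
    apply LinearMap.ext
    intro f
    funext x
    simp [Representation.coeff_ofMulAction]
  rw [h, Cfsg.Agent.Chars.regRep_character]
  by_cases hg : g = 1 <;> simp [hg]

end Cfsg.Agent.S0155
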