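import Cfsg.Statements.S0158
import Cfsg.Agent.DegreeGraph.Indicator
-- import your own Cfsg.Agent.* helpers here

set_option autoImplicit false
open Cfsg

namespace Cfsg.Agent.S0158

/-- The Frobenius–Schur indicator of an irreducible complex representation of a finite group — the average over s of the character at s * s — is 0, 1 or −1, and it vanishes exactly when some character value is not real. -/
theorem result {G : Type*} [Group G] [Fintype G] {V : Type*} [AddCommGroup V] [Module ℂ V] [FiniteDimensional ℂ V] (ρ : Representation ℂ G V) [ρ.IsIrreducible] : ((Nat.card G : ℂ)⁻¹ * ∑ s : G, ρ.character (s * s) = 0 ∨ (Nat.card G : ℂ)⁻¹ * ∑ s : G, ρ.character (s * s) = 1 ∨ (Nat.card G : ℂ)⁻¹ * ∑ s : G, ρ.character (s * s) = -1) ∧ ((Nat.card G : ℂ)⁻¹ * ∑ s : G, ρ.character (s * s) = 0 ↔ ∃ s : G, (ρ.character s).im ≠ 0) := by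
  classical
  have hχ : Cfsg.IsIrrCharacter G ρ.character := Chars.isIrrCharacter_of_rep ρ
  by_cases hreal : (fun g => (starRingEnd ℂ) (ρ.character g)) = ρ.character
  · have hne : ¬ ∃ s : G, (ρ.character s).im ≠ 0 := fun ⟨s, hs⟩ =>
      hs (Complex.conj_eq_iff_im.1 (congrFun hreal s))
    rcases DegreeGraph.indicator_of_real hχ hreal with h | h
    · exact ⟨Or.inr (Or.inl h), ⟨fun h0 => absurd (h.symm.trans h0) one_ne_zero,
        fun he => absurd he hne⟩⟩
    · exact ⟨Or.inr (Or.inr h), ⟨fun h0 => absurd (h.symm.trans h0) (neg_ne_zero.2 one_ne_zero),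
        fun he => absurd he hne⟩⟩
  · have h0 : (Nat.card G : ℂ)⁻¹ * ∑ s : G, ρ.character (s * s) = 0 := by
      by_contra h
      exact hreal (DegreeGraph.real_of_indicator_ne_zero hχ fun h0 => h (by rw [h0, mul_zero]))
    refine ⟨Or.inl h0, ⟨fun _ => ?_, fun _ => h0⟩⟩
    by_contra hall
    push Not at hall
    exact hreal (funext fun s => Complex.conj_eq_iff_im.2 (hall s))

end Cfsg.Agent.S0158
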