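import Cfsg.Statements.S0160
import Cfsg.Agent.DegreeGraph.Permutation

set_option autoImplicit false
set_option linter.style.haveILetI false
open Cfsg

namespace Cfsg.Agent.S0160

/-- A finite group has as many real-valued irreducible complex characters as conjugacy classes closed under taking inverses. -/
theorem result {G : Type*} [Group G] [Finite G] : Nat.card {χ : Cfsg.IrrCharacter G // ∀ g : G, ((χ : G → ℂ) g).im = 0} = Nat.card {C : ConjClasses G // ∀ g : G, ConjClasses.mk g = C → IsConj g g⁻¹} := by
  refine (Nat.card_congr (Equiv.subtypeEquivRight fun χ => (Cfsg.Agent.DegreeGraph.irrStar_eq_iff χ).symm)).trans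
    (Cfsg.Agent.DegreeGraph.card_real_eq.trans (Nat.card_congr (Equiv.subtypeEquivRight fun C => ?_)))
  obtain ⟨k, rfl⟩ := ConjClasses.mk_surjective C
  rw [Cfsg.Agent.DegreeGraph.clsInv_mk_eq_iff]
  constructor
  · intro h g hg
    have hgk : IsConj g k := ConjClasses.mk_eq_mk_iff_isConj.1 hg
    obtain ⟨c, hc⟩ := isConj_iff.1 hgk
    exact hgk.trans (h.trans (isConj_iff.2 ⟨c⁻¹, by rw [← hc]; group⟩))
  · intro h
    exact h k rfl

end Cfsg.Agent.S0160
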