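import Cfsg.Statements.S0161
import Cfsg.Agent.Chars.FixedPoints

set_option autoImplicit false
set_option linter.style.haveILetI false
open Cfsg

namespace Cfsg.Agent.S0161

/-- In a finite group of odd order, a real-valued irreducible complex character is the trivial character. -/
theorem result {G : Type*} [Group G] [Finite G] (hodd : Odd (Nat.card G)) (χ : Cfsg.IrrCharacter G) (hreal : ∀ g : G, ((χ : G → ℂ) g).im = 0) : (χ : G → ℂ) = fun _ => 1 := by
  classical
  haveI := Fintype.ofFinite G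
  by_contra hne
  let A := Subgroup.zpowers (Equiv.inv G : Equiv.Perm G)
  have hsq : (Equiv.inv G : Equiv.Perm G) ^ 2 = 1 := by ext g; simp [sq]
  have hA : IsPGroup 2 A := by
    rintro ⟨_, j, rfl⟩
    exact ⟨1, Subtype.ext (show ((Equiv.inv G : Equiv.Perm G) ^ j) ^ (2 ^ 1) = 1 by
      rw [← zpow_natCast, ← zpow_mul, mul_comm, zpow_mul, zpow_natCast, pow_one, hsq, one_zpow])⟩
  have hmove : ∀ (s : A) (g : G), s • g = g ∨ s • g = g⁻¹ := by
    rintro ⟨_, j, rfl⟩ g
    show ((Equiv.inv G : Equiv.Perm G) ^ j) g = g ∨ ((Equiv.inv G : Equiv.Perm G) ^ j) g = g⁻¹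
    obtain ⟨i, rfl | rfl⟩ := Int.even_or_odd' j
    · left
      rw [zpow_mul, zpow_ofNat, hsq, one_zpow]; rfl
    · right
      rw [zpow_add, zpow_mul, zpow_ofNat, hsq, one_zpow, one_mul, zpow_one]; rfl
  have hinv : ∀ g : G, (χ : G → ℂ) g⁻¹ = (χ : G → ℂ) g := fun g => by
    rw [Cfsg.Agent.Chars.char_inv_eq_conj (Cfsg.Agent.Chars.irr_isCharacter χ)]
    exact Complex.conj_eq_iff_im.2 (hreal g)
  have hfix : ∀ g : G, g⁻¹ = g → g = 1 := fun g hg => by
    have h2 : g ^ 2 = 1 := by
      rw [sq]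
      nth_rewrite 1 [← hg]
      exact inv_mul_cancel g
    rcases (Nat.dvd_prime Nat.prime_two).1 (orderOf_dvd_of_pow_eq_one h2) with h3 | h3
    · exact orderOf_eq_one_iff.1 h3
    · exact absurd (h3 ▸ orderOf_dvd_natCard g) (Nat.not_even_iff_odd.2 hodd ∘ even_iff_two_dvd.2)
  have hkey := Cfsg.Agent.Chars.congrP_sum_fixed Nat.prime_two hA ({1} : Finset G)
    (fun g => by
      rw [Finset.mem_singleton]
      constructor
      · rintro rfl s
        rcases hmove s 1 with h | h
        · exact h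
        · rw [h, inv_one]
      · exact fun h => hfix g (h ⟨Equiv.inv G, Subgroup.mem_zpowers _⟩))
    (fun g => (χ : G → ℂ) g)
    (fun g => Cfsg.Agent.Chars.isIntegral_of_isCharacter (Cfsg.Agent.Chars.irr_isCharacter χ) g)
    (fun s g => by
      rcases hmove s g with h | h
      · rw [h]
      · rw [h, hinv])
  have hzero : ∑ g : G, (χ : G → ℂ) g = 0 := by
    have h := Cfsg.Agent.Chars.classInner_irr χ.2 (Cfsg.Agent.Chars.isIrrCharacter_one (G := G))
    rw [if_neg (fun h => hne (h.trans rfl)), Cfsg.Agent.Chars.classInner_def, mul_eq_zero,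
      inv_eq_zero, or_iff_right Cfsg.Agent.Chars.card_ne_zero] at h
    simpa using h
  rw [hzero, Finset.sum_singleton] at hkey
  obtain ⟨n, hn0, hn, hdvd⟩ := Cfsg.Agent.Chars.irr_degree_dvd_card χ.2
  rw [hn] at hkey
  have h4 := (Cfsg.Agent.Chars.congrP_int Nat.prime_two (a := 0) (b := (n : ℤ))).1 (by simpa using hkey)
  rw [zero_sub, dvd_neg, Int.natCast_dvd_natCast] at h4
  exact Nat.not_even_iff_odd.2 hodd (even_iff_two_dvd.2 (h4.trans hdvd))

end Cfsg.Agent.S0161
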