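import Cfsg.Statements.S0162
import Cfsg.Agent.DegreeGraph.Permutation
import Cfsg.Agent.Chars.Eigen
import Mathlib.Algebra.BigOperators.Group.Finset.Basic

set_option autoImplicit false
set_option linter.style.haveILetI false
open Cfsg

namespace Cfsg.Agent.S0162

/-- If a finite group has odd order, its order is congruent to its number of conjugacy classes modulo 16. -/
theorem result {G : Type*} [Group G] [Finite G] (hodd : Odd (Nat.card G)) : Nat.card G ≡ Nat.card (ConjClasses G) [MOD 16] := by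
  classical
  haveI := Fintype.ofFinite G
  have hreal : ∀ χ : IrrCharacter G, Cfsg.Agent.DegreeGraph.irrStar χ = χ →
      χ = ⟨fun _ => 1, Cfsg.Agent.Chars.isIrrCharacter_one⟩ := by
    intro χ hχ
    have hc : Nat.card {C : ConjClasses G // Cfsg.Agent.DegreeGraph.clsInv C = C} ≤ 1 := by
      rw [Finite.card_le_one_iff_subsingleton]
      refine ⟨fun a b => ?_⟩
      have key : ∀ C : {C : ConjClasses G // Cfsg.Agent.DegreeGraph.clsInv C = C},
          C.1 = ConjClasses.mk 1 := by
        rintro ⟨C, hC⟩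
        obtain ⟨k, rfl⟩ := ConjClasses.mk_surjective C
        rw [Cfsg.Agent.DegreeGraph.clsInv_mk_eq_iff] at hC
        obtain ⟨c, hc⟩ := isConj_iff.1 hC
        have h2 : Commute (c ^ 2) k := by
          have e : c * k⁻¹ * c⁻¹ = k := by
            simpa [mul_inv_rev, mul_assoc] using congrArg (·⁻¹) hc
          show c ^ 2 * k = k * c ^ 2
          calc c ^ 2 * k = c * (c * k * c⁻¹) * c := by rw [pow_two]; group
            _ = (c * k⁻¹ * c⁻¹) * c ^ 2 := by rw [hc, pow_two]; group
            _ = k * c ^ 2 := by rw [e]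
        have hcop : Nat.Coprime 2 (orderOf c) :=
          Nat.coprime_two_left.2 (Odd.of_dvd_nat hodd (orderOf_dvd_natCard c))
        obtain ⟨m, hm⟩ := exists_pow_eq_self_of_coprime hcop
        have hck : Commute c k := hm ▸ (h2.pow_left m)
        have hkk : k = k⁻¹ := by rw [← hc, hck.eq, mul_inv_cancel_right]
        have hk2 : k ^ 2 = 1 := by
          rw [pow_two]; nth_rewrite 2 [hkk]; exact mul_inv_cancel k
        have : orderOf k = 1 := Nat.eq_one_of_dvd_coprimes
          (Nat.coprime_two_left.2 hodd) (orderOf_dvd_of_pow_eq_one hk2) (orderOf_dvd_natCard k)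
        show ConjClasses.mk k = ConjClasses.mk 1
        rw [orderOf_eq_one_iff.1 this]
      exact Subtype.ext ((key a).trans (key b).symm)
    rw [← Cfsg.Agent.DegreeGraph.card_real_eq, Finite.card_le_one_iff_subsingleton] at hc
    exact congrArg Subtype.val (hc.elim ⟨χ, hχ⟩ ⟨⟨fun _ => 1, Cfsg.Agent.Chars.isIrrCharacter_one⟩,
      Subtype.ext (funext fun _ => map_one _)⟩)
  let deg : IrrCharacter G → ℕ := fun χ =>
    (Cfsg.Agent.Chars.exists_irr_apply_one_eq χ.2).choose
  have hdeg : ∀ χ : IrrCharacter G, 0 < deg χ ∧ (χ : G → ℂ) 1 = deg χ := fun χ =>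
    (Cfsg.Agent.Chars.exists_irr_apply_one_eq χ.2).choose_spec
  have hsum : ∑ χ, deg χ ^ 2 = Nat.card G := by
    have : ((∑ χ, deg χ ^ 2 : ℕ) : ℂ) = (Nat.card G : ℂ) := by
      push_cast
      simp only [← (hdeg _).2]
      exact Cfsg.Agent.Chars.sum_sq_apply_one
    exact_mod_cast this
  have h8 : ∀ χ : IrrCharacter G, ((deg χ : ZMod 16) ^ 2 - 1) + ((deg χ : ZMod 16) ^ 2 - 1) = 0 := by
    intro χ
    obtain ⟨m, hm, hdvd⟩ : ∃ m : ℕ, deg χ = m ∧ m ∣ Nat.card G := by
      obtain ⟨m, -, hm, hd⟩ := Cfsg.Agent.Chars.irr_degree_dvd_card χ.2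
      exact ⟨m, by exact_mod_cast ((hdeg χ).2.symm.trans hm), hd⟩
    obtain ⟨j, hj⟩ := Odd.of_dvd_nat hodd hdvd
    rw [hm, hj, Nat.cast_add, Nat.cast_mul]
    have : ∀ x : ZMod 16, ((2 * x + 1) ^ 2 - 1) + ((2 * x + 1) ^ 2 - 1) = 0 := by decide
    exact_mod_cast this (j : ZMod 16)
  have hzero : ∑ χ : IrrCharacter G, ((deg χ : ZMod 16) ^ 2 - 1) = 0 := by
    refine Finset.sum_involution (fun χ _ => Cfsg.Agent.DegreeGraph.irrStar χ) ?_ ?_
      (fun _ _ => Finset.mem_univ _) ?_
    · intro χ _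
      have : deg (Cfsg.Agent.DegreeGraph.irrStar χ) = deg χ := by
        have := (hdeg (Cfsg.Agent.DegreeGraph.irrStar χ)).2
        rw [Cfsg.Agent.DegreeGraph.irrStar_apply, inv_one, (hdeg χ).2] at this
        exact_mod_cast this.symm
      rw [this]; exact h8 χ
    · intro χ _ hne hfix
      apply hne
      have : deg χ = 1 := by
        have e := (hdeg χ).2
        have e1 : (χ : G → ℂ) 1 = 1 := congrFun (congrArg Subtype.val (hreal χ hfix)) 1
        rw [e1] at e
        exact_mod_cast e.symm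
      simp [this]
    · intro χ _
      exact Subtype.ext (funext fun k => Complex.conj_conj _)
  rw [← Cfsg.Agent.Chars.card_irr_eq_card_conjClasses, ← hsum, ← ZMod.natCast_eq_natCast_iff]
  rw [Finset.sum_sub_distrib, sub_eq_zero] at hzero
  push_cast
  rw [hzero, Nat.card_eq_fintype_card]
  simp

end Cfsg.Agent.S0162
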