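import Cfsg.Statements.S0167
import Cfsg.Agent.Chars.Eigen

set_option autoImplicit false
set_option linter.style.haveILetI false
open Cfsg
open scoped ComplexConjugate

namespace Cfsg.Agent.S0167

/-- An element g of a finite group is a commutator if and only if the sum over the irreducible characters χ of χ g / χ 1 is nonzero. -/
theorem result {G : Type*} [Group G] [Finite G] (g : G) : (∃ a b : G, g = a * b * a⁻¹ * b⁻¹) ↔ ∑ᶠ χ : Cfsg.IrrCharacter G, (χ : G → ℂ) g / (χ : G → ℂ) 1 ≠ 0 := by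
  classical
  haveI := Fintype.ofFinite G
  have hconv : ∀ χ : IrrCharacter G,
      ∑ a : G, (χ : G → ℂ) a * (χ : G → ℂ) (a⁻¹ * g) =
        (Nat.card G : ℂ) * ((χ : G → ℂ) g / (χ : G → ℂ) 1) := by
    rintro ⟨_, d, ρ, hi, rfl⟩
    haveI := hi
    show ∑ a : G, ρ.character a * ρ.character (a⁻¹ * g) = _ * (ρ.character g / ρ.character 1)
    obtain ⟨c, hc⟩ := Cfsg.Agent.Chars.scalar_of_commute ρ _
      (Cfsg.Agent.Chars.weightedSum_commute ρ
        (Cfsg.Agent.Chars.isClassFunction_of_isCharacter (Cfsg.Agent.Chars.isCharacter_of_rep ρ)))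
    have h1 : ∀ h : G, ∑ a : G, ρ.character a * ρ.character (a⁻¹ * h) = c * ρ.character h := by
      intro h
      have h2 := congrArg (fun T => LinearMap.trace ℂ (Fin d → ℂ) (T * ρ h)) hc
      simp only [Finset.sum_mul, smul_mul_assoc, one_mul, map_sum, map_smul, smul_eq_mul,
        ← map_mul] at h2
      exact h2
    have hc1 : c * ρ.character 1 = (Nat.card G : ℂ) := by
      rw [← h1 1]
      have h := Cfsg.Agent.Chars.classInner_self_irr (Cfsg.Agent.Chars.isIrrCharacter_of_rep ρ)
      rw [Cfsg.Agent.Chars.classInner_def, inv_mul_eq_one₀ Cfsg.Agent.Chars.card_ne_zero] at h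
      rw [h]
      refine Finset.sum_congr rfl fun a _ => ?_
      rw [mul_one, Cfsg.Agent.Chars.char_inv_eq_conj (Cfsg.Agent.Chars.isCharacter_of_rep ρ)]
    rw [h1 g, ← hc1]
    field_simp [Cfsg.Agent.Chars.irr_apply_one_ne_zero (Cfsg.Agent.Chars.isIrrCharacter_of_rep ρ)]
    rw [mul_div_cancel_right₀ _ (Cfsg.Agent.Chars.irr_apply_one_ne_zero (Cfsg.Agent.Chars.isIrrCharacter_of_rep ρ))]
  have hcount : ∀ x y : G, ((Finset.univ.filter fun b : G => b * x * b⁻¹ = y).card : ℂ) =
      ∑ χ : IrrCharacter G, (χ : G → ℂ) x * conj ((χ : G → ℂ) y) := by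
    intro x y
    rw [Cfsg.Agent.Chars.column_orth]
    split_ifs with hxy
    · obtain ⟨c, hc⟩ := isConj_iff.1 hxy
      congr 1
      rw [Nat.card_eq_fintype_card, ← Finset.card_univ]
      refine Finset.card_bij (fun b hb => ⟨c⁻¹ * b, ?_⟩) (fun _ _ => Finset.mem_univ _) ?_ ?_
      · rw [Subgroup.mem_centralizer_singleton_iff]
        have e := (Finset.mem_filter.1 hb).2
        rw [← hc] at e
        calc c⁻¹ * b * x = c⁻¹ * (b * x * b⁻¹) * b := by group
          _ = c⁻¹ * (c * x * c⁻¹) * b := by rw [e]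
          _ = x * (c⁻¹ * b) := by group
      · intro a _ b _ h
        exact mul_left_cancel (congrArg Subtype.val h)
      · intro z _
        refine ⟨c * z, Finset.mem_filter.2 ⟨Finset.mem_univ _, ?_⟩, Subtype.ext (inv_mul_cancel_left _ _)⟩
        rw [← hc]
        calc c * z * x * (c * z)⁻¹ = c * ((z : G) * x) * (z : G)⁻¹ * c⁻¹ := by group
          _ = c * (x * z) * (z : G)⁻¹ * c⁻¹ := by rw [Subgroup.mem_centralizer_singleton_iff.1 z.2]
          _ = c * x * c⁻¹ := by group
    · rw [Nat.cast_eq_zero, Finset.card_eq_zero, Finset.filter_eq_empty_iff]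
      exact fun b _ hb => hxy (isConj_iff.2 ⟨b, hb⟩)
  have hN : ((Finset.univ.filter fun p : G × G => g = p.1 * p.2 * p.1⁻¹ * p.2⁻¹).card : ℂ) =
      (Nat.card G : ℂ) * ∑ χ : IrrCharacter G, (χ : G → ℂ) g / (χ : G → ℂ) 1 := by
    rw [Finset.mul_sum, ← Finset.sum_congr rfl fun χ _ => hconv χ, Finset.sum_comm,
      Finset.card_filter, Fintype.sum_prod_type, Nat.cast_sum]
    refine Finset.sum_congr rfl fun a _ => ?_
    rw [← Finset.card_filter]
    have e : (Finset.univ.filter fun b : G => g = a * b * a⁻¹ * b⁻¹) =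
        Finset.univ.filter fun b : G => b * a⁻¹ * b⁻¹ = a⁻¹ * g := by
      refine Finset.filter_congr fun b _ => ?_
      constructor
      · intro h; rw [h]; group
      · intro h
        calc g = a * (a⁻¹ * g) := by group
          _ = a * (b * a⁻¹ * b⁻¹) := by rw [h]
          _ = a * b * a⁻¹ * b⁻¹ := by group
    rw [e, ← Complex.conj_natCast, hcount, map_sum]
    refine Finset.sum_congr rfl fun χ _ => ?_
    rw [map_mul, Complex.conj_conj, ← Cfsg.Agent.Chars.char_inv_eq_conj (Cfsg.Agent.Chars.irr_isCharacter χ),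
      inv_inv]
  rw [finsum_eq_sum_of_fintype]
  constructor
  · rintro ⟨a, b, h⟩ h0
    rw [h0, mul_zero, Nat.cast_eq_zero, Finset.card_eq_zero, Finset.filter_eq_empty_iff] at hN
    exact hN (Finset.mem_univ (a, b)) h
  · intro h
    by_contra hno
    push Not at hno
    rw [Finset.filter_false_of_mem (fun p _ => hno p.1 p.2), Finset.card_empty, Nat.cast_zero] at hN
    exact mul_ne_zero Cfsg.Agent.Chars.card_ne_zero h hN.symm

end Cfsg.Agent.S0167
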