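import Cfsg.Statements.S0168
import Cfsg.Agent.Chars.Eigen
import Mathlib.Algebra.Polynomial.BigOperators

set_option autoImplicit false
set_option linter.style.haveILetI false
open Cfsg
open scoped ComplexConjugate

namespace Cfsg.Agent.S0168

/-- The Burnside–Brauer Theorem. Let χ be the character of a faithful complex representation of a finite group, taking m distinct values. Then every irreducible character has nonzero inner product with χ ^ i for some i < m. -/
theorem result {G : Type*} [Group G] [Fintype G] {V : Type*} [AddCommGroup V] [Module ℂ V] [FiniteDimensional ℂ V] (ρ : Representation ℂ G V) (hfaithful : Function.Injective ρ) (ψ : G → ℂ) (hψ : Cfsg.IsIrrCharacter G ψ) : ∃ i : ℕ, i < Nat.card (Set.range ρ.character) ∧ Cfsg.classInner (fun g => ρ.character g ^ i) ψ ≠ 0 := by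
  classical
  by_contra hall
  push Not at hall
  set v : G → ℂ := ρ.character with hv
  set V₀ : Finset ℂ := Finset.univ.image v with hV
  have hm : Nat.card (Set.range ρ.character) = V₀.card := by
    rw [← Nat.card_eq_finsetCard V₀]
    exact Nat.card_congr (Equiv.setCongr (by rw [hV, Finset.coe_image, Finset.coe_univ, Set.image_univ]))
  have hv1 : v 1 ∈ V₀ := Finset.mem_image_of_mem _ (Finset.mem_univ _)
  let P : Polynomial ℂ := ∏ z ∈ V₀.erase (v 1), (Polynomial.X - Polynomial.C z)
  have hdeg : P.natDegree < V₀.card := by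
    rw [Polynomial.natDegree_finsetProd_X_sub_C_eq_card]
    exact Finset.card_erase_lt_of_mem hv1
  have hzero : ∀ i < V₀.card, ∑ g : G, v g ^ i * conj (ψ g) = 0 := by
    intro i hi
    have h := hall i (hm ▸ hi)
    rw [Cfsg.Agent.Chars.classInner_def, mul_eq_zero, inv_eq_zero,
      or_iff_right Cfsg.Agent.Chars.card_ne_zero] at h
    exact h
  have hP : ∑ g : G, P.eval (v g) * conj (ψ g) = 0 := by
    simp only [Polynomial.eval_eq_sum_range, Finset.sum_mul, mul_assoc]
    rw [Finset.sum_comm]
    refine Finset.sum_eq_zero fun i hi => ?_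
    rw [← Finset.mul_sum, hzero i (lt_of_le_of_lt (Nat.lt_succ_iff.1 (Finset.mem_range.1 hi)) hdeg),
      mul_zero]
  rw [Finset.sum_eq_single (1 : G)] at hP
  · rcases mul_eq_zero.1 hP with h | h
    · rw [Polynomial.eval_prod, Finset.prod_eq_zero_iff] at h
      obtain ⟨z, hz, h⟩ := h
      simp only [Polynomial.eval_sub, Polynomial.eval_X, Polynomial.eval_C] at h
      exact Finset.ne_of_mem_erase hz (sub_eq_zero.1 h).symm
    · exact Cfsg.Agent.Chars.irr_apply_one_ne_zero hψ (by simpa using h)
  · intro g _ hg
    have hne : v g ≠ v 1 := fun e => hg (hfaithful (by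
      rw [map_one]
      exact (Cfsg.Agent.Chars.rep_char_eq_finrank_iff ρ g).1 (e.trans (Representation.char_one ρ))))
    rw [Polynomial.eval_prod, Finset.prod_eq_zero (Finset.mem_erase.2 ⟨hne,
      Finset.mem_image_of_mem _ (Finset.mem_univ g)⟩) (by simp), zero_mul]
  · simp

end Cfsg.Agent.S0168
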