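import Cfsg.Statements.S0198
import Cfsg.Agent.OddChar.Virtual

set_option autoImplicit false
set_option linter.style.haveILetI false
open Cfsg

namespace Cfsg.Agent.S0198

/-- The isometry lemma behind exceptional characters. Let τ be a family of generalized characters of a finite group G indexed by Fin n, with τ i₀ = 0, every τ i vanishing at the identity, and inner products ⟨τ i, τ j⟩ = 2 if i = j and 1 otherwise for i, j ≠ i₀. Then there are a sign ε and pairwise distinct irreducible characters μ i with τ i = ε (μ i − μ i₀) for all i. -/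
theorem result {G : Type*} [Group G] [Fintype G] (n : ℕ) (i₀ : Fin n) (τ : Fin n → (G → ℂ)) (h0 : τ i₀ = 0) (hgen : ∀ i, Cfsg.IsGeneralizedCharacter G (τ i)) (hone : ∀ i, τ i 1 = 0) (hgram : ∀ i j, i ≠ i₀ → j ≠ i₀ → Cfsg.classInner (τ i) (τ j) = if i = j then 2 else 1) : ∃ ε : ℂ, (ε = 1 ∨ ε = -1) ∧ ∃ μ : Fin n → (G → ℂ), (∀ i, Cfsg.IsIrrCharacter G (μ i)) ∧ Function.Injective μ ∧ ∀ i, τ i = ε • (μ i - μ i₀) := by
  classical
  choose a b ha hb hab hτ using fun (i : Fin n) (hi : i ≠ i₀) =>
    Cfsg.Agent.OddChar.virt_norm_two (hgen i) (by rw [hgram i i hi hi, if_pos rfl]) (hone i)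
  have hirr : ∀ {x y : G → ℂ}, IsIrrCharacter G x → IsIrrCharacter G y →
      classInner x y = if x = y then 1 else 0 := fun hx hy => Cfsg.Agent.Chars.classInner_irr hx hy
  have hpair : ∀ i j (hi : i ≠ i₀) (hj : j ≠ i₀), i ≠ j →
      (a i hi = a j hj ∧ b i hi ≠ b j hj) ∨ (a i hi ≠ a j hj ∧ b i hi = b j hj) := by
    intro i j hi hj hij
    have h := hgram i j hi hj
    rw [if_neg hij, hτ i hi, hτ j hj, Cfsg.Agent.Chars.classInner_sub_left,
      Cfsg.Agent.Chars.classInner_sub_right, Cfsg.Agent.Chars.classInner_sub_right,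
      hirr (ha i hi) (ha j hj), hirr (ha i hi) (hb j hj), hirr (hb i hi) (ha j hj),
      hirr (hb i hi) (hb j hj)] at h
    by_cases e1 : a i hi = a j hj <;> by_cases e4 : b i hi = b j hj
    · rw [if_pos e1, if_pos e4, if_neg (fun e => hab j hj (e1.symm.trans e)),
        if_neg (fun e => hab i hi (e1.trans e.symm))] at h
      norm_num at h
    · exact Or.inl ⟨e1, e4⟩
    · exact Or.inr ⟨e1, e4⟩
    · rw [if_neg e1, if_neg e4] at h
      split_ifs at h <;> norm_num at h
  have build : ∀ (ε : ℂ) (c : G → ℂ) (m : ∀ i, i ≠ i₀ → (G → ℂ)), (ε = 1 ∨ ε = -1) →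
      IsIrrCharacter G c → (∀ i hi, IsIrrCharacter G (m i hi)) → (∀ i hi, m i hi ≠ c) →
      (∀ i hi, τ i = ε • (m i hi - c)) →
      ∃ ε : ℂ, (ε = 1 ∨ ε = -1) ∧ ∃ μ : Fin n → (G → ℂ), (∀ i, IsIrrCharacter G (μ i)) ∧
        Function.Injective μ ∧ ∀ i, τ i = ε • (μ i - μ i₀) := by
    intro ε c m hε hc hm hmc hmτ
    refine ⟨ε, hε, fun i => if h : i = i₀ then c else m i h, fun i => ?_, ?_, fun i => ?_⟩
    · dsimp only
      split_ifs with h
      exacts [hc, hm i h]
    · intro i j hij
      dsimp only at hij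
      by_contra hne
      by_cases hi : i = i₀ <;> by_cases hj : j = i₀
      · exact hne (hi.trans hj.symm)
      · rw [dif_pos hi, dif_neg hj] at hij; exact hmc j hj hij.symm
      · rw [dif_neg hi, dif_pos hj] at hij; exact hmc i hi hij
      · rw [dif_neg hi, dif_neg hj] at hij
        have e : τ i = τ j := by rw [hmτ i hi, hmτ j hj, hij]
        have h := hgram i j hi hj
        rw [if_neg hne, ← e, hgram i i hi hi, if_pos rfl] at h
        norm_num at h
    · dsimp only
      by_cases h : i = i₀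
      · rw [dif_pos h, dif_pos rfl, sub_self, smul_zero, h, h0]
      · rw [dif_neg h, dif_pos rfl]; exact hmτ i h
  by_cases h1 : ∃ i, i ≠ i₀
  · obtain ⟨i, hi⟩ := h1
    by_cases hP : ∀ j (hj : j ≠ i₀), a j hj = a i hi
    · exact build (-1) (a i hi) b (Or.inr rfl) (ha i hi) hb (fun j hj e => hab j hj ((hP j hj).trans e.symm))
        (fun j hj => by rw [neg_one_smul, neg_sub, hτ j hj, hP j hj])
    · push Not at hP
      obtain ⟨j, hj, hja⟩ := hP
      have hji : j ≠ i := fun e => hja (by subst e; rfl)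
      have hbj : b j hj = b i hi := ((hpair j i hj hi hji).resolve_left fun e => hja e.1).2
      have hN : ∀ k (hk : k ≠ i₀), b k hk = b i hi := by
        intro k hk
        by_cases hki : k = i
        · subst hki; rfl
        by_contra hkb
        have hka : a k hk = a i hi := ((hpair k i hk hi hki).resolve_right fun e => hkb e.2).1
        have hkj : k ≠ j := fun e => hkb (by subst e; exact hbj)
        rcases hpair k j hk hj hkj with h | h
        · exact hja (h.1.symm.trans hka)
        · exact hkb (h.2.trans hbj)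
      exact build 1 (b i hi) a (Or.inl rfl) (hb i hi) ha (fun k hk e => hab k hk (e.trans (hN k hk).symm))
        (fun k hk => by rw [one_smul, hτ k hk, hN k hk])
  · push Not at h1
    exact build 1 (fun _ => 1) (fun i hi => absurd (h1 i) hi) (Or.inl rfl)
      Cfsg.Agent.Chars.isIrrCharacter_one (fun i hi => absurd (h1 i) hi) (fun i hi => absurd (h1 i) hi)
      (fun i hi => absurd (h1 i) hi)

end Cfsg.Agent.S0198
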