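import Cfsg.Statements.S0170
import Cfsg.Agent.S0198
import Cfsg.Agent.Chars2.TI
import Cfsg.Agent.Chars.Gen

set_option autoImplicit false
set_option linter.style.haveILetI false
open Cfsg

namespace Cfsg.Agent.S0170

/-- Exceptional characters. Let S be a subset of a finite group contained in its normalizer N and meeting its conjugates by elements outside N only in the identity. Given n ≥ 2 distinct irreducible characters of N of equal degree that vanish on N away from S, there exist a sign ε and n distinct irreducible characters θ_i of G such that inducing χ_i − χ_j to G gives ε (θ_i − θ_j) for all i, j. -/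
theorem result {G : Type*} [Group G] [Fintype G] (S : Set G) (hSN : S ⊆ Subgroup.normalizer S) (hTI : ∀ g : G, g ∉ Subgroup.normalizer S → ∀ s ∈ S, g * s * g⁻¹ ∈ S → s = 1) (n : ℕ) (hn : 2 ≤ n) (χ : Fin n → (Subgroup.normalizer S → ℂ)) (hirr : ∀ i, Cfsg.IsIrrCharacter (Subgroup.normalizer S) (χ i)) (hinj : Function.Injective χ) (hvan : ∀ i, ∀ x : Subgroup.normalizer S, (x : G) ∉ S → χ i x = 0) (hdeg : ∀ i j, χ i 1 = χ j 1) : ∃ ε : ℂ, (ε = 1 ∨ ε = -1) ∧ ∃ θ : Fin n → (G → ℂ), (∀ i, Cfsg.IsIrrCharacter G (θ i)) ∧ Function.Injective θ ∧ ∀ i j, Cfsg.indFun (Subgroup.normalizer S) (χ i) - Cfsg.indFun (Subgroup.normalizer S) (χ j) = ε • (θ i - θ j) := by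
  classical
  haveI := Fintype.ofFinite (Subgroup.normalizer S)
  let i₀ : Fin n := ⟨0, by omega⟩
  let d : Fin n → ((Subgroup.normalizer S) → ℂ) := fun i => χ i - χ i₀
  let T : Set G := {g | g ∈ S ∧ g ≠ 1}
  have hd : ∀ i, ∀ x : (Subgroup.normalizer S), (x : G) ∉ T → d i x = 0 := by
    intro i x hx
    show χ i x - χ i₀ x = 0
    by_cases hxS : (x : G) ∈ S
    · have hx1 : x = 1 := by
        by_contra h
        exact hx ⟨hxS, fun e => h (Subtype.ext e)⟩
      rw [hx1, hdeg i i₀, sub_self]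
    · rw [hvan i x hxS, hvan i₀ x hxS, sub_self]
  have hT : ∀ g : G, g ∉ (Subgroup.normalizer S) → ∀ s ∈ T, g * s * g⁻¹ ∉ T :=
    fun g hg s hs hgs => hs.2 (hTI g hg s hs.1 hgs.1)
  have hdgen : ∀ i, IsGeneralizedCharacter (Subgroup.normalizer S) (d i) := fun i =>
    Cfsg.Agent.Chars.isGen_sub
      (Cfsg.Agent.Chars.isGen_of_isCharacter (Cfsg.Agent.Chars.isCharacter_of_isIrr (hirr i)))
      (Cfsg.Agent.Chars.isGen_of_isCharacter (Cfsg.Agent.Chars.isCharacter_of_isIrr (hirr i₀)))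
  obtain ⟨ε, hε, μ, hμ, hμinj, hτ⟩ := Cfsg.Agent.S0198.result (G := G) n i₀
    (fun i => indFun (Subgroup.normalizer S) (d i))
    (by show indFun (Subgroup.normalizer S) (χ i₀ - χ i₀) = 0; rw [sub_self, Cfsg.Agent.Chars.indFun_zero])
    (fun i => Cfsg.Agent.Chars.isGen_indFun (Subgroup.normalizer S) (hdgen i))
    (fun i => by
      rw [Cfsg.Agent.Chars.indFun_apply_one]
      show _ * (χ i 1 - χ i₀ 1) = 0
      rw [hdeg i i₀, sub_self, mul_zero])
    (fun i j hi hj => by
      rw [Cfsg.Agent.Chars2.indFun_inner_ti (Subgroup.normalizer S) (d i) T (hd i) hT (d j)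
        (Cfsg.Agent.Chars.isClassFunction_of_isGen (hdgen j)) (hd j)]
      simp only [d, Cfsg.Agent.Chars.classInner_sub_left, Cfsg.Agent.Chars.classInner_sub_right,
        Cfsg.Agent.Chars.classInner_irr (hirr _) (hirr _), hinj.eq_iff, if_neg hi, if_neg (Ne.symm hj),
        if_true]
      split_ifs <;> norm_num)
  refine ⟨ε, hε, μ, hμ, hμinj, fun i j => ?_⟩
  have e : ∀ k, indFun (Subgroup.normalizer S) (χ k) - indFun (Subgroup.normalizer S) (χ i₀) = ε • (μ k - μ i₀) := fun k => by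
    rw [← Cfsg.Agent.Chars.indFun_sub]; exact hτ k
  rw [← sub_sub_sub_cancel_right (indFun (Subgroup.normalizer S) (χ i)) (indFun (Subgroup.normalizer S) (χ j)) (indFun (Subgroup.normalizer S) (χ i₀)), e, e,
    ← smul_sub, sub_sub_sub_cancel_right]

end Cfsg.Agent.S0170
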