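import Cfsg.Statements.S0172
import Cfsg.Agent.Chars.FrobeniusPair
import Mathlib.GroupTheory.GroupAction.CardCommute

set_option autoImplicit false
set_option linter.style.haveILetI false
open Cfsg

namespace Cfsg.Agent.S0172

/-- Class number of a Frobenius group: if G = K H with K normal, K ⊓ H trivial and no non-identity element of H commuting with a non-identity element of K, then |H| * k(G) + 1 = |H| * k(H) + k(K), where k denotes the number of conjugacy classes. -/
theorem result {G : Type*} [Group G] [Finite G] (K H : Subgroup G) [K.Normal] (hKH : K ⊓ H = ⊥) (hKH' : K ⊔ H = ⊤) (hfpf : ∀ h ∈ H, h ≠ 1 → ∀ k ∈ K, h * k = k * h → k = 1) : Nat.card H * Nat.card (ConjClasses G) + 1 = Nat.card H * Nat.card (ConjClasses H) + Nat.card (ConjClasses K) := by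
  classical
  haveI := Fintype.ofFinite G
  have hC := Cfsg.Agent.Chars.fpf_centralizer_le hKH' hfpf
  have hsumk : ∀ (L : Subgroup G), ∑ x : L, Nat.card (Subgroup.centralizer ({x} : Set L)) =
      Nat.card (ConjClasses L) * Nat.card L := fun L => by
    rw [← card_comm_eq_card_conjClasses_mul_card L, ← Nat.card_sigma]
    exact Nat.card_congr
      { toFun := fun p => ⟨(p.1, p.2.1), (Subgroup.mem_centralizer_singleton_iff.1 p.2.2).symm⟩
        invFun := fun p => ⟨p.1.1, p.1.2, Subgroup.mem_centralizer_singleton_iff.2 p.2.symm⟩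
        left_inv := fun _ => rfl
        right_inv := fun _ => rfl }
  have hG : ∑ x : G, Nat.card (Subgroup.centralizer ({x} : Set G)) =
      Nat.card (ConjClasses G) * Nat.card G := by
    rw [← card_comm_eq_card_conjClasses_mul_card G, ← Nat.card_sigma]
    exact Nat.card_congr
      { toFun := fun p => ⟨(p.1, p.2.1), (Subgroup.mem_centralizer_singleton_iff.1 p.2.2).symm⟩
        invFun := fun p => ⟨p.1.1, p.1.2, Subgroup.mem_centralizer_singleton_iff.2 p.2.symm⟩
        left_inv := fun _ => rfl
        right_inv := fun _ => rfl }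
  have hbij : Function.Bijective (fun p : K × H => (p.1 : G) * p.2) := by
    constructor
    · rintro ⟨a, b⟩ ⟨c, d⟩ (e : (a : G) * b = c * d)
      have e2 : (c : G)⁻¹ * a = d * (b : G)⁻¹ := by
        rw [eq_mul_inv_iff_mul_eq, mul_assoc, e, inv_mul_cancel_left]
      have h1 : (c : G)⁻¹ * a = 1 := by
        rw [← Subgroup.mem_bot, ← hKH]
        exact ⟨K.mul_mem (K.inv_mem c.2) a.2, e2 ▸ H.mul_mem d.2 (H.inv_mem b.2)⟩
      have h3 : a = c := Subtype.ext (inv_mul_eq_one.1 h1).symm
      subst h3
      exact Prod.ext rfl (Subtype.ext (mul_left_cancel e))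
    · intro x
      obtain ⟨k, hk, h, hh, rfl⟩ := Subgroup.mem_sup_of_normal_left.1
        (show x ∈ K ⊔ H from hKH'.symm ▸ Subgroup.mem_top x)
      exact ⟨(⟨k, hk⟩, ⟨h, hh⟩), rfl⟩
  have hcardG : Nat.card G = Nat.card K * Nat.card H := by
    rw [← Nat.card_prod]; exact (Nat.card_congr (Equiv.ofBijective _ hbij)).symm
  have hsub : ∀ (L : Subgroup G) (l : L), Subgroup.centralizer ({(l : G)} : Set G) ≤ L →
      Nat.card (Subgroup.centralizer ({(l : G)} : Set G)) = Nat.card (Subgroup.centralizer ({l} : Set L)) := by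
    intro L l hl
    refine Nat.card_congr
      { toFun := fun x => ⟨⟨x.1, hl x.2⟩, Subgroup.mem_centralizer_singleton_iff.2
          (Subtype.ext (Subgroup.mem_centralizer_singleton_iff.1 x.2))⟩
        invFun := fun x => ⟨x.1.1, Subgroup.mem_centralizer_singleton_iff.2
          (congrArg Subtype.val (Subgroup.mem_centralizer_singleton_iff.1 x.2))⟩
        left_inv := fun _ => rfl
        right_inv := fun _ => rfl }
  have hH : ∀ h : H, h ≠ 1 → Subgroup.centralizer ({(h : G)} : Set G) ≤ H := by
    intro h h1 x hx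
    rw [Subgroup.mem_centralizer_singleton_iff] at hx
    obtain ⟨k, hk, b, hb, rfl⟩ := Subgroup.mem_sup_of_normal_left.1
      (show x ∈ K ⊔ H from hKH'.symm ▸ Subgroup.mem_top x)
    have h1' : (h : G) ≠ 1 := fun e => h1 (Subtype.ext e)
    have e0 : (k * (b * h) : G) = h * k * (h : G)⁻¹ * (h * b) := by rw [← mul_assoc, hx]; group
    have e1 : (k : G) = h * k * (h : G)⁻¹ := by
      have := congrArg Prod.fst (hbij.1 (a₁ := (⟨k, hk⟩, ⟨b * h, H.mul_mem hb h.2⟩))
        (a₂ := (⟨h * k * (h : G)⁻¹, (inferInstance : K.Normal).conj_mem k hk h⟩,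
          ⟨h * b, H.mul_mem h.2 hb⟩)) e0)
      exact congrArg Subtype.val this
    have := hfpf h h.2 h1' k hk (eq_mul_inv_iff_mul_eq.1 e1).symm
    rw [this, one_mul]; exact hb
  have hterm : ∀ (k : K) (h : H), h ≠ 1 →
      Nat.card (Subgroup.centralizer ({(k : G) * h} : Set G)) =
        Nat.card (Subgroup.centralizer ({h} : Set H)) := by
    intro k h h1
    obtain ⟨a, -, he⟩ := Cfsg.Agent.Chars.fpf_exists_conj hfpf h.2 (fun e => h1 (Subtype.ext e)) k.2
    rw [← hsub H h (hH h h1), ← he]
    have m1 : ∀ x ∈ Subgroup.centralizer ({(h : G)} : Set G),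
        a * x * a⁻¹ ∈ Subgroup.centralizer ({a * h * a⁻¹} : Set G) := by
      intro x hx
      rw [Subgroup.mem_centralizer_singleton_iff] at hx ⊢
      calc a * x * a⁻¹ * (a * h * a⁻¹) = a * (x * h) * a⁻¹ := by group
        _ = a * (h * x) * a⁻¹ := by rw [hx]
        _ = a * h * a⁻¹ * (a * x * a⁻¹) := by group
    have m2 : ∀ x ∈ Subgroup.centralizer ({a * h * a⁻¹} : Set G),
        a⁻¹ * x * a ∈ Subgroup.centralizer ({(h : G)} : Set G) := by
      intro x hx
      rw [Subgroup.mem_centralizer_singleton_iff] at hx ⊢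
      calc a⁻¹ * x * a * (h : G) = a⁻¹ * (x * (a * h * a⁻¹)) * a := by group
        _ = a⁻¹ * (a * h * a⁻¹ * x) * a := by rw [hx]
        _ = (h : G) * (a⁻¹ * x * a) := by group
    exact (Nat.card_congr
      { toFun := fun x => ⟨a * x.1 * a⁻¹, m1 _ x.2⟩
        invFun := fun x => ⟨a⁻¹ * x.1 * a, m2 _ x.2⟩
        left_inv := fun x => Subtype.ext (by show a⁻¹ * (a * x.1 * a⁻¹) * a = x.1; group)
        right_inv := fun x => Subtype.ext (by show a * (a⁻¹ * x.1 * a) * a⁻¹ = x.1; group) }).symm
  have hsplit : ∑ x : G, Nat.card (Subgroup.centralizer ({x} : Set G)) =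
      ∑ k : K, Nat.card (Subgroup.centralizer ({(k : G)} : Set G)) +
      Nat.card K * ∑ h ∈ (Finset.univ : Finset H).erase 1, Nat.card (Subgroup.centralizer ({h} : Set H)) := by
    rw [← (Equiv.ofBijective _ hbij).sum_comp, Fintype.sum_prod_type_right,
      ← Finset.add_sum_erase _ _ (Finset.mem_univ (1 : H)), Finset.mul_sum]
    congr 1
    · refine Finset.sum_congr rfl fun k _ => ?_
      simp
    · refine Finset.sum_congr rfl fun h hh => ?_
      simp only [Equiv.ofBijective_apply]
      rw [Finset.sum_congr rfl fun k _ => hterm k h (Finset.ne_of_mem_erase hh), Finset.sum_const,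
        Finset.card_univ, smul_eq_mul, Nat.card_eq_fintype_card (α := K)]
  have hK1 : ∑ k : K, Nat.card (Subgroup.centralizer ({(k : G)} : Set G)) + Nat.card K =
      Nat.card G + Nat.card (ConjClasses K) * Nat.card K := by
    rw [← hsumk K, ← Finset.add_sum_erase _ _ (Finset.mem_univ (1 : K)),
      ← Finset.add_sum_erase _ _ (Finset.mem_univ (1 : K)),
      Finset.sum_congr rfl fun k hk => hsub K k (hC k k.2
        (fun e => Finset.ne_of_mem_erase hk (Subtype.ext e)))]
    have e1 : Nat.card (Subgroup.centralizer ({((1 : K) : G)} : Set G)) = Nat.card G := by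
      rw [show Subgroup.centralizer ({((1 : K) : G)} : Set G) = ⊤ from eq_top_iff.2 fun x _ => by
        rw [Subgroup.mem_centralizer_singleton_iff]; simp]
      exact Subgroup.card_top
    have e2 : Nat.card (Subgroup.centralizer ({(1 : K)} : Set K)) = Nat.card K := by
      rw [show Subgroup.centralizer ({(1 : K)} : Set K) = ⊤ from eq_top_iff.2 fun x _ => by
        rw [Subgroup.mem_centralizer_singleton_iff]; simp]
      exact Subgroup.card_top
    rw [e1, e2]; ring
  have hH1 : ∑ h ∈ (Finset.univ : Finset H).erase 1, Nat.card (Subgroup.centralizer ({h} : Set H)) +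
      Nat.card H = Nat.card (ConjClasses H) * Nat.card H := by
    rw [← hsumk H, ← Finset.add_sum_erase _ _ (Finset.mem_univ (1 : H)), add_comm]
    congr 1
    rw [show Subgroup.centralizer ({(1 : H)} : Set H) = ⊤ from eq_top_iff.2 fun x _ => by
      rw [Subgroup.mem_centralizer_singleton_iff]; simp]
    exact Subgroup.card_top.symm
  rw [hG, hcardG] at hsplit
  rw [hcardG] at hK1
  refine Nat.eq_of_mul_eq_mul_left (Nat.card_pos (α := K)) ?_
  linear_combination hsplit + hK1 + Nat.card K * hH1

end Cfsg.Agent.S0172
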