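import Cfsg.Statements.S0174
import Cfsg.Agent.Chars2.Clifford

set_option autoImplicit false
set_option linter.style.haveILetI false
open Cfsg

namespace Cfsg.Agent.S0174

/-- The Clifford Theorem for characters: if θ is an irreducible character of a finite group G, N is a normal subgroup and χ is an irreducible character of N occurring in the restriction of θ, then θ restricted to N equals e times the sum of the distinct G-conjugates of χ, where e is the inner product of the restriction with χ. -/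
theorem result {G : Type*} [Group G] [Fintype G] (N : Subgroup G) [Fintype N] (hN : N.Normal) (θ : G → ℂ) (hθ : Cfsg.IsIrrCharacter G θ) (χ : N → ℂ) (hχ : Cfsg.IsIrrCharacter N χ) (hconst : Cfsg.classInner (fun n : N => θ n) χ ≠ 0) : (fun n : N => θ n) = Cfsg.classInner (fun n : N => θ n) χ • ∑ᶠ ψ ∈ {ψ : N → ℂ | ∃ g : G, ψ = fun n : N => χ ⟨g * n * g⁻¹, hN.conj_mem n n.2 g⟩}, ψ := by
  classical
  haveI := hN
  funext n
  rw [Cfsg.Agent.Chars2.clifford_restrict hθ hχ hconst n, Pi.smul_apply, smul_eq_mul]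
  congr 1
  have hset : {ψ : N → ℂ | ∃ g : G, ψ = fun n : N => χ ⟨g * n * g⁻¹, hN.conj_mem n n.2 g⟩} =
      ↑((Cfsg.Agent.Chars2.orbitFinset hχ (G := G)).image (fun φ : IrrCharacter N => (φ : N → ℂ))) := by
    ext ψ
    rw [Finset.coe_image, Set.mem_image]
    constructor
    · rintro ⟨g, rfl⟩
      refine ⟨⟨_, Cfsg.Agent.Chars2.conjFun_isIrr hχ g⁻¹⟩,
        (Cfsg.Agent.Chars2.mem_orbitFinset hχ).2 ⟨g⁻¹, rfl⟩, ?_⟩
      funext m
      show Cfsg.Agent.Chars2.conjFun χ g⁻¹ m = _
      rw [Cfsg.Agent.Chars2.conjFun_apply]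
      simp only [inv_inv]
    · rintro ⟨φ, hφ, rfl⟩
      obtain ⟨g, hg⟩ := (Cfsg.Agent.Chars2.mem_orbitFinset hχ).1 hφ
      refine ⟨g⁻¹, ?_⟩
      rw [← hg]
      funext m
      exact Cfsg.Agent.Chars2.conjFun_apply χ g m
  rw [hset, finsum_mem_coe_finset, Finset.sum_image (fun _ _ _ _ h => Subtype.ext h), Finset.sum_apply]

end Cfsg.Agent.S0174
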