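import Cfsg.Statements.S0175
import Cfsg.Agent.Chars.Linear
import Cfsg.Agent.Chars.Induced

set_option autoImplicit false
set_option linter.style.haveILetI false
open Cfsg
open scoped commutatorElement

namespace Cfsg.Agent.S0175

/-- Taketa's Theorem on M-groups: if every irreducible complex character of a finite group is induced from a linear character (a homomorphism to ℂˣ) of some subgroup, the group is solvable. -/
theorem result {G : Type*} [Group G] [Fintype G] (hM : ∀ χ : G → ℂ, Cfsg.IsIrrCharacter G χ → ∃ (H : Subgroup G) (lam : H →* ℂˣ), χ = Cfsg.indFun H (fun h => (lam h : ℂ))) : Group.IsSolvable G := by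
  classical
  have key : ∀ (n : ℕ) (χ : G → ℂ), IsIrrCharacter G χ → χ 1 = n →
      ∀ x ∈ derivedSeries G n, χ x = χ 1 := by
    intro n
    induction n using Nat.strong_induction_on with
    | _ n ih =>
    intro χ hχ hn x hx
    obtain ⟨H, lam, rfl⟩ := hM χ hχ
    haveI := Fintype.ofFinite H
    obtain ⟨m, hm0, hm⟩ := Cfsg.Agent.Chars.exists_irr_apply_one_eq hχ
    have hidx : n = H.index := by
      rw [Cfsg.Agent.Chars.indFun_apply_one] at hn
      simp only [map_one, Units.val_one, mul_one] at hn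
      exact_mod_cast hn.symm
    have hn0 : 0 < n := hidx ▸ Nat.pos_of_ne_zero Subgroup.index_ne_zero_of_finite
    obtain ⟨j, hj⟩ : ∃ j, n = j + 1 := ⟨n - 1, by omega⟩
    have hle : derivedSeries G j ≤ H := by
      intro y hy
      set π : G → ℂ := indFun H (fun _ => 1) with hπ
      have hπc : IsCharacter G π :=
        Cfsg.Agent.Chars.isCharacter_indFun H Cfsg.Agent.Chars.isCharacter_one
      have hπ1 : classInner π (fun _ => 1) = 1 := by
        rw [hπ, Cfsg.Agent.Chars.classInner_indFun _ _ (fun _ _ => rfl)]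
        exact Cfsg.Agent.Chars.classInner_self_irr Cfsg.Agent.Chars.isIrrCharacter_one
      obtain ⟨c, hc, hsum⟩ := Cfsg.Agent.Chars.exists_eq_sum_nsmul hπc
      choose d hd0 hd using fun ψ : IrrCharacter G => Cfsg.Agent.Chars.exists_irr_apply_one_eq ψ.2
      let one : IrrCharacter G := ⟨fun _ => 1, Cfsg.Agent.Chars.isIrrCharacter_one⟩
      have hc1 : c one = 1 := by exact_mod_cast (hc one).symm.trans hπ1
      have hdeg : ∑ ψ, c ψ * d ψ = n := by
        have e : (n : ℂ) = π 1 := by
          rw [hπ, Cfsg.Agent.Chars.indFun_apply_one, mul_one, hidx]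
        rw [hsum, Finset.sum_apply] at e
        simp only [Pi.smul_apply, nsmul_eq_mul, hd] at e
        exact_mod_cast e.symm
      have hd1 : d one = 1 := by exact_mod_cast (show (1 : ℂ) = (d one : ℂ) from hd one).symm
      have hterm : ∀ ψ : IrrCharacter G, (c ψ : ℂ) * (ψ : G → ℂ) y = (c ψ : ℂ) * (ψ : G → ℂ) 1 := by
        intro ψ
        by_cases h0 : c ψ = 0
        · rw [h0, Nat.cast_zero, zero_mul, zero_mul]
        by_cases h1 : ψ = one
        · rw [h1]
        have hlt : d ψ < n := by
          have hp := Finset.sum_le_sum_of_subset (f := fun ψ => c ψ * d ψ)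
            (Finset.subset_univ ({one, ψ} : Finset (IrrCharacter G)))
          rw [Finset.sum_pair (Ne.symm h1), hdeg, hc1, hd1] at hp
          have : 1 * d ψ ≤ c ψ * d ψ := Nat.mul_le_mul_right _ (Nat.pos_of_ne_zero h0)
          omega
        rw [ih (d ψ) hlt _ ψ.2 (hd ψ) y
          (derivedSeries_antitone G (by omega : d ψ ≤ j) hy)]
      have hy1 : π y = π 1 := by
        rw [hsum]
        simp only [Finset.sum_apply, Pi.smul_apply, nsmul_eq_mul]
        exact Finset.sum_congr rfl fun ψ _ => hterm ψ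
      rw [hπ, Cfsg.Agent.Chars.indFun_apply, Cfsg.Agent.Chars.indFun_apply,
        mul_right_inj' (inv_ne_zero (Cfsg.Agent.Chars.subgroup_card_ne_zero H))] at hy1
      simp only [Cfsg.Agent.Chars.extendByZero_eq_ite, dite_eq_ite, mul_one, inv_mul_cancel,
        H.one_mem, if_true, Finset.sum_boole, Finset.sum_const, nsmul_eq_mul] at hy1
      have hall := Finset.eq_univ_of_card _ (by exact_mod_cast hy1)
      have := (Finset.mem_filter.1 (hall.symm ▸ Finset.mem_univ (1 : G))).2
      simpa using this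
    have hcomm : ∀ z ∈ derivedSeries G n, ∃ hz : z ∈ H, lam ⟨z, hz⟩ = 1 := by
      have hsub : derivedSeries G n ≤ lam.ker.map H.subtype := by
        rw [hj, derivedSeries_succ, Subgroup.commutator_le]
        intro a ha b hb
        refine ⟨⁅(⟨a, hle ha⟩ : H), ⟨b, hle hb⟩⁆, ?_, rfl⟩
        rw [SetLike.mem_coe, MonoidHom.mem_ker, map_commutatorElement,
          commutatorElement_eq_one_iff_mul_comm, mul_comm]
      intro z hz
      obtain ⟨w, hw, rfl⟩ := hsub hz
      exact ⟨w.2, hw⟩
    rw [Cfsg.Agent.Chars.indFun_apply, Cfsg.Agent.Chars.indFun_apply]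
    congr 1
    refine Finset.sum_congr rfl fun a _ => ?_
    haveI := derivedSeries_normal G n
    obtain ⟨h1, h2⟩ := hcomm _ ((inferInstance : (derivedSeries G n).Normal).conj_mem' x hx a)
    rw [Cfsg.Agent.Chars.extendByZero_of_mem H _ h1, h2, mul_one, inv_mul_cancel,
      Cfsg.Agent.Chars.extendByZero_of_mem H _ H.one_mem]
    show _ = ((lam 1 : ℂˣ) : ℂ)
    rw [map_one]
  rw [Group.isSolvable_def]
  refine ⟨Nat.card G, (Subgroup.eq_bot_iff_forall _).2 fun x hx => ?_⟩
  have h := Cfsg.Agent.Chars.sum_apply_one_mul x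
  rw [Finset.sum_congr rfl (g := fun χ : IrrCharacter G => (χ : G → ℂ) 1 ^ 2) (fun χ _ => by
    obtain ⟨m, hm0, hm⟩ := Cfsg.Agent.Chars.exists_irr_apply_one_eq χ.2
    have hmle : m ≤ Nat.card G := by
      have h1 : ((m ^ 2 : ℕ) : ℂ) + ∑ ψ ∈ Finset.univ.erase χ, (ψ : G → ℂ) 1 ^ 2 = (Nat.card G : ℂ) := by
        rw [← Cfsg.Agent.Chars.sum_sq_apply_one (G := G), ← Finset.add_sum_erase _ _ (Finset.mem_univ χ), hm]
        push_cast; rfl
      choose d hd0 hd using fun ψ : IrrCharacter G => Cfsg.Agent.Chars.exists_irr_apply_one_eq ψ.2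
      simp only [hd] at h1
      have h2 : m ^ 2 + ∑ ψ ∈ Finset.univ.erase χ, d ψ ^ 2 = Nat.card G := by exact_mod_cast h1
      have := Nat.le_self_pow two_ne_zero m
      omega
    rw [key m _ χ.2 hm x (derivedSeries_antitone G hmle hx), sq]),
    Cfsg.Agent.Chars.sum_sq_apply_one] at h
  by_contra hne
  rw [if_neg hne] at h
  exact Cfsg.Agent.Chars.card_ne_zero h

end Cfsg.Agent.S0175
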