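import Cfsg.Statements.S0177
import Cfsg.Agent.Chars.Brauer
import Cfsg.Agent.Chars.Linear

set_option autoImplicit false
set_option linter.style.haveILetI false
open Cfsg

namespace Cfsg.Agent.S0177

universe u

variable {G : Type u} [Group G] [Fintype G]

open Classical in
/-- A linear character sums to an integer over the generators of a cyclic subgroup. -/
theorem sum_generators_int (l : G →* ℂˣ) (D : Subgroup G) :
    ∃ z : ℤ, ∑ c ∈ Finset.univ.filter (fun c : G => Subgroup.zpowers c = D), (l c : ℂ) = z := by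
  classical
  induction hn : Nat.card D using Nat.strong_induction_on generalizing D with
  | _ n ih =>
  subst hn
  have htot : ∑ c : D, (l (c : G) : ℂ) =
      ∑ D' ∈ Finset.univ.filter (fun D' : Subgroup G => D' ≤ D),
        ∑ c ∈ Finset.univ.filter (fun c : G => Subgroup.zpowers c = D'), (l c : ℂ) := by
    rw [← Finset.sum_subtype (Finset.univ.filter fun c : G => c ∈ D) (by simp)
      (fun c : G => (l c : ℂ))]
    rw [← Finset.sum_fiberwise_of_maps_to (g := fun c : G => Subgroup.zpowers c)
      (s := Finset.univ.filter fun c : G => c ∈ D)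
      (t := Finset.univ.filter fun D' : Subgroup G => D' ≤ D) (fun c hc => Finset.mem_filter.2
        ⟨Finset.mem_univ _, Subgroup.zpowers_le.2 (Finset.mem_filter.1 hc).2⟩)]
    refine Finset.sum_congr rfl fun D' hD' => Finset.sum_congr ?_ fun _ _ => rfl
    ext c
    simp only [Finset.mem_filter, Finset.mem_univ, true_and]
    refine ⟨fun h => h.2, fun h => ⟨?_, h⟩⟩
    exact (Finset.mem_filter.1 hD').2 (h ▸ Subgroup.mem_zpowers c)
  have hint : ∃ z : ℤ, ∑ c : D, (l (c : G) : ℂ) = z := by
    haveI : Decidable (((Units.coeHom ℂ).comp (l.comp D.subtype)) = 1) := Classical.propDecidable _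
    have h := sum_hom_units ((Units.coeHom ℂ).comp (l.comp D.subtype))
    simp only [MonoidHom.comp_apply, Units.coeHom_apply, Subgroup.coe_subtype] at h
    rw [h]
    split_ifs
    · exact ⟨Fintype.card D, by simp⟩
    · exact ⟨0, by simp⟩
  obtain ⟨z, hz⟩ := hint
  rw [← Finset.add_sum_erase (Finset.univ.filter fun D' : Subgroup G => D' ≤ D) _ (a := D)
      (Finset.mem_filter.2 ⟨Finset.mem_univ _, le_rfl⟩),
    hz] at htot
  have hrest : ∀ D' ∈ (Finset.univ.filter (fun D' : Subgroup G => D' ≤ D)).erase D, ∃ z : ℤ,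
      ∑ c ∈ Finset.univ.filter (fun c : G => Subgroup.zpowers c = D'), (l c : ℂ) = z := by
    intro D' hD'
    obtain ⟨hne, hmem⟩ := Finset.mem_erase.1 hD'
    have hle := (Finset.mem_filter.1 hmem).2
    exact ih _ (lt_of_le_of_ne (Subgroup.card_le_of_le hle)
      fun h => hne (Subgroup.eq_of_le_of_card_ge hle h.ge)) D' rfl
  choose! w hw using hrest
  rw [Finset.sum_congr rfl hw] at htot
  refine ⟨z - ∑ D' ∈ (Finset.univ.filter (fun D' : Subgroup G => D' ≤ D)).erase D, w D', ?_⟩
  rw [Int.cast_sub, Int.cast_sum, htot, add_sub_cancel_right]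

theorem sum_map_flatMap {α β : Type*} {M : Type*} [AddMonoid M] (l : List α) (L : α → List β)
    (f : β → M) : ((l.flatMap L).map f).sum = (l.map fun a => ((L a).map f).sum).sum := by
  induction l with
  | nil => simp
  | cons a l ih => simp [ih]

/-- The Artin induction Theorem: for a character χ of a finite group, |G| • χ is a ℤ-linear combination of functions induced from homomorphisms of cyclic subgroups into ℂˣ. -/
theorem result {G : Type*} [Group G] [Fintype G] (χ : G → ℂ) (hχ : Cfsg.IsCharacter G χ) : ∃ l : List ((A : Subgroup G) × ((A →* ℂˣ) × ℤ)), (∀ t ∈ l, IsCyclic t.1) ∧ (Nat.card G : ℂ) • χ = (l.map fun t => (t.2.2 : ℂ) • Cfsg.indFun t.1 (fun a => (t.2.1 a : ℂ))).sum := by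
  classical
  let Cy : Finset (Subgroup G) := Finset.univ.image fun g : G => Subgroup.zpowers g
  let θ : (C : Subgroup G) → C → ℂ := fun C c =>
    if Subgroup.zpowers (c : G) = C then (Nat.card C : ℂ) * χ c else 0
  have hkey : (Nat.card G : ℂ) • χ = ∑ C ∈ Cy, Cfsg.indFun C (θ C) := by
    funext g
    rw [Finset.sum_apply, Pi.smul_apply, smul_eq_mul]
    simp only [Cfsg.Agent.Chars.indFun_apply, Finset.mul_sum]
    rw [Finset.sum_comm, Nat.card_eq_fintype_card, ← Finset.card_univ, ← nsmul_eq_mul,
      ← Finset.sum_const]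
    refine Finset.sum_congr rfl fun x _ => ?_
    rw [Finset.sum_eq_single (Subgroup.zpowers (x⁻¹ * g * x))]
    · rw [Cfsg.Agent.Chars.extendByZero_of_mem _ _ (Subgroup.mem_zpowers _)]
      simp only [θ, if_pos rfl]
      rw [← mul_assoc, inv_mul_cancel₀ (Nat.cast_ne_zero.2 Nat.card_pos.ne'), one_mul]
      have := (Cfsg.Agent.Chars.isClassFunction_of_isCharacter hχ) g x⁻¹
      simpa using this.symm
    · intro C _ hC
      by_cases hm : x⁻¹ * g * x ∈ C
      · rw [Cfsg.Agent.Chars.extendByZero_of_mem _ _ hm]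
        simp only [θ, if_neg (Ne.symm hC), mul_zero]
      · rw [Cfsg.Agent.Chars.extendByZero_of_not_mem _ _ hm, mul_zero]
    · intro h
      exact absurd (Finset.mem_image.2 ⟨_, Finset.mem_univ _, rfl⟩) h
  have hlin : ∀ C ∈ Cy, ∃ l : List ((A : Subgroup G) × ((A →* ℂˣ) × ℤ)), (∀ t ∈ l, IsCyclic t.1) ∧
      Cfsg.indFun C (θ C) =
        (l.map fun t => (t.2.2 : ℂ) • Cfsg.indFun t.1 (fun a => (t.2.1 a : ℂ))).sum := by
    intro C hC
    obtain ⟨g, -, rfl⟩ := Finset.mem_image.1 hC
    set C := Subgroup.zpowers g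
    haveI : Fintype C := Fintype.ofFinite C
    have hcomm : ∀ a b : C, a * b = b * a := by
      rintro ⟨_, i, rfl⟩ ⟨_, j, rfl⟩
      exact Subtype.ext ((Commute.refl g).zpow_zpow i j)
    let e : C → ℂ := fun c => if Subgroup.zpowers (c : G) = C then (Nat.card C : ℂ) else 0
    have hgen : ∀ c : C, Subgroup.zpowers (c : G) = C ↔ Subgroup.zpowers c = ⊤ := fun c => by
      constructor
      · intro h
        refine top_unique fun y _ => ?_
        have hy : (y : G) ∈ Subgroup.zpowers (c : G) := by rw [h]; exact y.2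
        obtain ⟨i, hi⟩ := hy
        exact ⟨i, Subtype.ext (by simpa using hi)⟩
      · intro h
        refine le_antisymm (Subgroup.zpowers_le.2 c.2) fun y hy => ?_
        have hy' : (⟨y, hy⟩ : C) ∈ Subgroup.zpowers c := by rw [h]; trivial
        obtain ⟨i, hi⟩ := hy'
        exact ⟨i, by simpa using congrArg Subtype.val hi⟩
    have heg : Cfsg.IsGeneralizedCharacter C e := by
      refine Cfsg.Agent.Chars.isGen_of_classInner_int (fun a b => by
        rw [show b * a * b⁻¹ = a by rw [hcomm b a, mul_inv_cancel_right]]) fun η hη => ?_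
      obtain ⟨m, hm⟩ := Cfsg.Agent.Chars.exists_hom_of_degree_one
        (Cfsg.Agent.Chars.isCharacter_of_isIrr hη) (Cfsg.Agent.Chars.irr_apply_one_of_comm hcomm hη)
      obtain ⟨z, hz⟩ := sum_generators_int (G := C) m⁻¹ ⊤
      refine ⟨z, ?_⟩
      rw [Cfsg.Agent.Chars.classInner_def, ← hz, Finset.sum_filter, Finset.mul_sum]
      refine Finset.sum_congr rfl fun c _ => ?_
      simp only [e, hgen]
      split_ifs with h
      · have hconj : (starRingEnd ℂ) (η c) = ((m c)⁻¹ : ℂˣ) := by
          rw [← Cfsg.Agent.Chars.char_inv_eq_conj (Cfsg.Agent.Chars.isCharacter_of_isIrr hη), hm]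
          simp
        rw [hconj, ← mul_assoc, inv_mul_cancel₀ (Nat.cast_ne_zero.2 Nat.card_pos.ne'), one_mul,
          MonoidHom.inv_apply]
      · simp
    have hθg : Cfsg.IsGeneralizedCharacter C (θ C) := by
      have heq : θ C = e * fun c : C => χ c := funext fun c => by
        simp only [θ, e, Pi.mul_apply]
        split_ifs <;> simp
      rw [heq]
      exact Cfsg.Agent.Chars.isGen_mul heg
        (Cfsg.Agent.Chars.isGen_of_isCharacter (Cfsg.Agent.Chars.isCharacter_restrict hχ C))
    choose k hk using fun η : Cfsg.IrrCharacter C => Cfsg.Agent.Chars.exists_classInner_eq_int hθg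
      (Cfsg.Agent.Chars.isGen_of_isCharacter (Cfsg.Agent.Chars.irr_isCharacter η))
    choose m hm using fun η : Cfsg.IrrCharacter C => Cfsg.Agent.Chars.exists_hom_of_degree_one
      (Cfsg.Agent.Chars.irr_isCharacter η) (Cfsg.Agent.Chars.irr_apply_one_of_comm hcomm η.2)
    refine ⟨(Finset.univ : Finset (Cfsg.IrrCharacter C)).toList.map fun η => ⟨C, m η, k η⟩, ?_, ?_⟩
    · intro t ht
      obtain ⟨η, -, rfl⟩ := List.mem_map.1 ht
      show IsCyclic C
      infer_instance
    · rw [List.map_map, Finset.sum_map_toList]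
      conv_lhs => rw [Cfsg.Agent.Chars.eq_sum_classInner
        (Cfsg.Agent.Chars.isClassFunction_of_isGen hθg), Cfsg.Agent.Chars.indFun_sum]
      refine Finset.sum_congr rfl fun η _ => ?_
      rw [hk, Cfsg.Agent.Chars.indFun_smul, Function.comp_apply, hm η]
  choose! L hL1 hL2 using hlin
  refine ⟨Cy.toList.flatMap L, ?_, ?_⟩
  · intro t ht
    obtain ⟨C, hC, htC⟩ := List.mem_flatMap.1 ht
    exact hL1 C (Finset.mem_toList.1 hC) t htC
  · rw [hkey, Finset.sum_congr rfl hL2, sum_map_flatMap, Finset.sum_map_toList]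

end Cfsg.Agent.S0177
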