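import Cfsg.Statements.S0178
import Cfsg.Agent.Chars.Linear
import Cfsg.Agent.Chars.Induced
import Cfsg.Agent.Chars.Eigen

set_option autoImplicit false
set_option linter.style.haveILetI false
open Cfsg

namespace Cfsg.Agent.S0178

/-- The degree of an irreducible complex representation of a finite group is at most the index of any abelian subgroup. -/
theorem result {G : Type*} [Group G] [Finite G] {V : Type*} [AddCommGroup V] [Module ℂ V] [FiniteDimensional ℂ V] (ρ : Representation ℂ G V) [ρ.IsIrreducible] (A : Subgroup G) (hA : ∀ a ∈ A, ∀ b ∈ A, a * b = b * a) : Module.finrank ℂ V ≤ A.index := by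
  classical
  haveI := Fintype.ofFinite G
  haveI : Fintype A := Fintype.ofFinite A
  have hirr := Cfsg.Agent.Chars.isIrrCharacter_of_rep ρ
  set χ := ρ.character with hχdef
  have hχ := Cfsg.Agent.Chars.isCharacter_of_isIrr hirr
  obtain ⟨η, hη⟩ : ∃ η : Cfsg.IrrCharacter A,
      Cfsg.classInner (fun a : A => χ a) (η : A → ℂ) ≠ 0 := by
    by_contra hc0
    push Not at hc0
    have h0 : (fun k : A => χ k) = 0 := by
      rw [Cfsg.Agent.Chars.eq_sum_classInner (Cfsg.Agent.Chars.isClassFunction_of_isCharacter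
        (Cfsg.Agent.Chars.isCharacter_restrict hχ A))]
      simp [hc0]
    exact Cfsg.Agent.Chars.irr_apply_one_ne_zero hirr (by simpa using congrFun h0 1)
  have hη1 : (η : A → ℂ) 1 = 1 := Cfsg.Agent.Chars.irr_apply_one_of_comm
    (fun a b => Subtype.ext (hA a a.2 b b.2)) η.2
  have hind := Cfsg.Agent.Chars.isCharacter_indFun A (Cfsg.Agent.Chars.irr_isCharacter η)
  obtain ⟨c, hc, hcs⟩ := Cfsg.Agent.Chars.exists_eq_sum_nsmul hind
  have hcχ : c ⟨χ, hirr⟩ ≠ 0 := by
    intro h0
    have h1 := hc ⟨χ, hirr⟩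
    rw [h0, Nat.cast_zero, Cfsg.Agent.Chars.classInner_indFun A (η : A → ℂ)
      (Cfsg.Agent.Chars.isClassFunction_of_isCharacter hχ)] at h1
    apply hη
    rw [← Cfsg.Agent.Chars.classInner_conj_symm, h1, map_zero]
  choose d _ hd using fun θ : Cfsg.IrrCharacter G => Cfsg.Agent.Chars.exists_irr_apply_one_eq θ.2
  have h1 := congrFun hcs 1
  simp only [Finset.sum_apply, Pi.smul_apply] at h1
  simp only [Cfsg.Agent.Chars.indFun_apply_one, hη1, mul_one, hd, nsmul_eq_mul] at h1
  have h2 : A.index = ∑ θ, c θ * d θ := by exact_mod_cast h1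
  have h3 : d ⟨χ, hirr⟩ = Module.finrank ℂ V := by
    have e := hd ⟨χ, hirr⟩
    rw [show ((⟨χ, hirr⟩ : Cfsg.IrrCharacter G) : G → ℂ) 1 = ρ.character 1 from rfl,
      Representation.char_one] at e
    exact_mod_cast e.symm
  rw [h2, ← h3]
  exact (Nat.le_mul_of_pos_left _ (Nat.pos_of_ne_zero hcχ)).trans
    (Finset.single_le_sum (f := fun θ => c θ * d θ) (fun _ _ => Nat.zero_le _) (Finset.mem_univ _))

end Cfsg.Agent.S0178
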