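import Cfsg.Statements.S0180
import Cfsg.Agent.Chars.GaloisValues

set_option autoImplicit false
set_option linter.style.haveILetI false
open Cfsg

namespace Cfsg.Agent.S0180

/-- Every irreducible complex character of a finite group takes only rational values if and only if g is conjugate to g ^ m for every element g and every m coprime to the group order. -/
theorem result {G : Type*} [Group G] [Finite G] : (∀ χ : Cfsg.IrrCharacter G, ∀ g : G, ∃ q : ℚ, (χ : G → ℂ) g = (q : ℂ)) ↔ ∀ m : ℕ, m.Coprime (Nat.card G) → ∀ g : G, IsConj g (g ^ m) := by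
  classical
  haveI := Fintype.ofFinite G
  constructor
  · intro hq m hm g
    obtain ⟨σ, hσ⟩ := Cfsg.Agent.Chars.exists_aut_of_coprime hm
    have he : ∀ χ : IrrCharacter G, (χ : G → ℂ) (g ^ m) = (χ : G → ℂ) g := fun χ => by
      obtain ⟨q, hq⟩ := hq χ g
      rw [← hσ _ (Cfsg.Agent.Chars.irr_isCharacter χ) g, hq, map_ratCast]
    by_contra hne
    have h1 := Cfsg.Agent.Chars.column_orth g (g ^ m)
    rw [if_neg hne] at h1
    simp only [he] at h1
    rw [Cfsg.Agent.Chars.column_orth g g, if_pos (IsConj.refl g)] at h1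
    exact Nat.card_pos.ne' (by exact_mod_cast h1)
  · intro hconj χ g
    obtain ⟨z, hz⟩ := Cfsg.Agent.Chars.exists_int_of_fixed
      (Cfsg.Agent.Chars.isIntegral_of_isCharacter (Cfsg.Agent.Chars.irr_isCharacter χ) g) (fun σ => by
        obtain ⟨k, hk, hσ⟩ := Cfsg.Agent.Chars.exists_aut_apply (G := G) σ
        obtain ⟨c, hc⟩ := isConj_iff.1 (hconj k hk g)
        rw [hσ _ (Cfsg.Agent.Chars.irr_isCharacter χ) g, ← hc, Cfsg.Agent.Chars.isClassFunction_irr χ])
    exact ⟨z, by rw [hz]; simp⟩

end Cfsg.Agent.S0180
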