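import Cfsg.Statements.S0181
import Cfsg.Agent.Chars.Eigen

set_option autoImplicit false
set_option linter.style.haveILetI false
open Cfsg

namespace Cfsg.Agent.S0181

/-- Let H be a normal subgroup of a finite group G and ρ an irreducible complex representation whose kernel does not contain H. If g commutes with no non-identity element of H, then the character of ρ vanishes at g. -/
theorem result {G : Type*} [Group G] [Finite G] {V : Type*} [AddCommGroup V] [Module ℂ V] [FiniteDimensional ℂ V] (ρ : Representation ℂ G V) [ρ.IsIrreducible] (H : Subgroup G) [H.Normal] (hker : ∃ h ∈ H, ρ h ≠ LinearMap.id) (g : G) (hg : ∀ h ∈ H, h * g = g * h → h = 1) : ρ.character g = 0 := by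
  classical
  haveI := Fintype.ofFinite G
  haveI := Fintype.ofFinite (G ⧸ H)
  let F : IrrCharacter (G ⧸ H) → IrrCharacter G := fun ψ =>
    ⟨(ψ : G ⧸ H → ℂ) ∘ QuotientGroup.mk' H,
      Cfsg.Agent.Chars.isIrrCharacter_comp_surjective ψ.2 _ (QuotientGroup.mk'_surjective H)⟩
  have hF : Function.Injective F := fun a b h =>
    Subtype.ext ((QuotientGroup.mk'_surjective H).injective_comp_right (congrArg Subtype.val h))
  let t : IrrCharacter G → ℝ := fun χ => Complex.normSq ((χ : G → ℂ) g)
  have hG : ∑ χ, t χ = (Nat.card (Subgroup.centralizer ({g} : Set G)) : ℝ) := by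
    have h := Cfsg.Agent.Chars.column_orth g g
    rw [if_pos (IsConj.refl g)] at h
    simp only [Complex.mul_conj] at h
    exact_mod_cast h
  have hQ : ∑ χ ∈ Finset.univ.image F, t χ =
      (Nat.card (Subgroup.centralizer ({(g : G ⧸ H)} : Set (G ⧸ H))) : ℝ) := by
    have h := Cfsg.Agent.Chars.column_orth (g : G ⧸ H) (g : G ⧸ H)
    rw [if_pos (IsConj.refl _)] at h
    simp only [Complex.mul_conj] at h
    rw [Finset.sum_image hF.injOn]
    exact_mod_cast h
  have hle : Nat.card (Subgroup.centralizer ({g} : Set G)) ≤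
      Nat.card (Subgroup.centralizer ({(g : G ⧸ H)} : Set (G ⧸ H))) := by
    refine Nat.card_le_card_of_injective (fun c => ⟨((c : G) : G ⧸ H), ?_⟩) ?_
    · have := c.2
      rw [Subgroup.mem_centralizer_singleton_iff] at this ⊢
      rw [← QuotientGroup.mk_mul, ← QuotientGroup.mk_mul, this]
    · intro a b hab
      have hm : (a : G)⁻¹ * b ∈ H := QuotientGroup.eq.1 (congrArg Subtype.val hab)
      have hc : (a : G)⁻¹ * b * g = g * ((a : G)⁻¹ * b) :=
        Subgroup.mem_centralizer_singleton_iff.1 (a⁻¹ * b).2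
      exact Subtype.ext (inv_mul_eq_one.1 (hg _ hm hc))
  by_contra hne
  let χ : IrrCharacter G := ⟨ρ.character, Cfsg.Agent.Chars.isIrrCharacter_of_rep ρ⟩
  have hnot : χ ∉ Finset.univ.image F := by
    simp only [Finset.mem_image, Finset.mem_univ, true_and, not_exists]
    intro ψ hψ
    obtain ⟨h, hh, hρ⟩ := hker
    apply hρ
    apply (Cfsg.Agent.Chars.rep_char_eq_finrank_iff ρ h).1
    rw [← Representation.char_one ρ]
    have e : ∀ x, (ψ : G ⧸ H → ℂ) (QuotientGroup.mk' H x) = ρ.character x :=
      congrFun (congrArg Subtype.val hψ)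
    rw [← e, ← e, map_one]
    rw [show QuotientGroup.mk' H h = 1 from (QuotientGroup.eq_one_iff h).2 hh]
  have h3 : ∑ x ∈ insert χ (Finset.univ.image F), t x ≤ ∑ x, t x :=
    Finset.sum_le_sum_of_subset_of_nonneg (Finset.subset_univ _) fun _ _ _ => Complex.normSq_nonneg _
  rw [Finset.sum_insert hnot, hQ, hG] at h3
  have h4 : 0 < t χ := Complex.normSq_pos.2 hne
  have h5 : (Nat.card (Subgroup.centralizer ({g} : Set G)) : ℝ) ≤
      (Nat.card (Subgroup.centralizer ({(g : G ⧸ H)} : Set (G ⧸ H))) : ℝ) := by exact_mod_cast hle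
  linarith

end Cfsg.Agent.S0181
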