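import Cfsg.Statements.S0184
import Cfsg.Agent.Chars.Eigen
import Cfsg.Agent.Chars2.DegreeIndex
import Mathlib.GroupTheory.PGroup
import Mathlib.RingTheory.IntegralDomain

set_option autoImplicit false
set_option linter.style.haveILetI false
open Cfsg

namespace Cfsg.Agent.S0184

/-- A finite p-group admits a faithful irreducible complex representation if and only if its centre is cyclic. -/
theorem result {G : Type*} [Group G] [Finite G] (p : ℕ) [Fact p.Prime] (hG : IsPGroup p G) : (∃ (n : ℕ) (ρ : Representation ℂ G (Fin n → ℂ)), ρ.IsIrreducible ∧ Function.Injective ρ) ↔ IsCyclic (Subgroup.center G) := by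
  classical
  haveI := Fintype.ofFinite G
  constructor
  · rintro ⟨n, ρ, hi, hinj⟩
    haveI := hi
    have hs : ∀ z : Subgroup.center G, ∃ c : ℂ, ρ z = c • (1 : Module.End ℂ (Fin n → ℂ)) := fun z =>
      Cfsg.Agent.Chars.scalar_of_commute ρ _ fun g => by
        rw [← map_mul, ← map_mul, Subgroup.mem_center_iff.1 z.2 g]
    choose c hc using hs
    haveI := Cfsg.Agent.Chars.nontrivial_of_isIrreducible ρ
    have hinj1 : Function.Injective (fun a : ℂ => a • (1 : Module.End ℂ (Fin n → ℂ))) := fun a b h => by
      obtain ⟨v, hv⟩ := exists_ne (0 : Fin n → ℂ)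
      exact smul_left_injective ℂ hv (LinearMap.congr_fun h v)
    let f : Subgroup.center G →* ℂ :=
      { toFun := c
        map_one' := hinj1 (by simp only [← hc, Subgroup.coe_one, map_one, one_smul])
        map_mul' := fun a b => hinj1 (by
          simp only [← hc, Subgroup.coe_mul, map_mul]
          rw [hc a, hc b, smul_mul_smul_comm, one_mul]) }
    refine isCyclic_of_injective_ringHom f (fun a b h => Subtype.ext (hinj ?_))
    rw [hc a, hc b]; exact congrArg (· • _) h
  · intro hcyc
    rcases subsingleton_or_nontrivial G with hG1 | hG1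
    · obtain ⟨n, ρ, hi, -⟩ := Cfsg.Agent.Chars.isIrrCharacter_one (G := G)
      exact ⟨n, ρ, hi, fun a b _ => Subsingleton.elim a b⟩
    haveI := hcyc
    haveI : Nontrivial (Subgroup.center G) := hG.center_nontrivial
    have hpz : p ∣ Nat.card (Subgroup.center G) := by
      obtain ⟨s, hs, e⟩ := (hG.to_subgroup (Subgroup.center G)).nontrivial_iff_card.1 inferInstance
      exact e ▸ dvd_pow_self p hs.ne'
    obtain ⟨z, hz⟩ := exists_prime_orderOf_dvd_card' p hpz
    have hz1 : (z : G) ≠ 1 := fun e => (Fact.out : p.Prime).one_lt.ne' (by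
      rw [← hz, show z = 1 from Subtype.ext e, orderOf_one])
    obtain ⟨χ, hχ⟩ : ∃ χ : IrrCharacter G, (χ : G → ℂ) z ≠ (χ : G → ℂ) 1 := by
      by_contra h
      push Not at h
      have h1 := Cfsg.Agent.Chars.sum_apply_one_mul (z : G)
      simp only [h, if_neg hz1, ← sq, Cfsg.Agent.Chars.sum_sq_apply_one] at h1
      exact Cfsg.Agent.Chars.card_ne_zero h1
    obtain ⟨_, n, ρ, hi, rfl⟩ := χ
    refine ⟨n, ρ, hi, ?_⟩
    let K : Subgroup G := (Representation.asGroupHom ρ).ker
    have hK : ∀ g, g ∈ K ↔ ρ g = 1 := fun g => by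
      show g ∈ (Representation.asGroupHom ρ).ker ↔ _
      rw [MonoidHom.mem_ker, ← Units.val_eq_one, Representation.asGroupHom_apply]
    have hKbot : K = ⊥ := by
      by_contra hne
      haveI : Nontrivial K := (Subgroup.nontrivial_iff_ne_bot K).2 hne
      have hpK : p ∣ Nat.card K := by
        obtain ⟨s, hs, e⟩ := (hG.to_subgroup K).nontrivial_iff_card.1 inferInstance
        exact e ▸ dvd_pow_self p hs.ne'
      obtain ⟨w, hw, hw1⟩ : ∃ w : K, w ∈ MulAction.fixedPoints (ConjAct G) K ∧ w ≠ 1 := by
        obtain ⟨w, hw, h⟩ := (hG.of_equiv ConjAct.toConjAct).exists_fixed_point_of_prime_dvd_card_of_fixed_point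
          (α := K) hpK (a := 1) (fun g => Subtype.ext (smul_one _))
        exact ⟨w, hw, h.symm⟩
      have hwc : (w : G) ∈ Subgroup.center G := Subgroup.mem_center_iff.2 fun g => by
        have := congrArg Subtype.val (hw (ConjAct.toConjAct g))
        rw [ConjAct.Subgroup.val_conj_smul, ConjAct.toConjAct_smul, mul_inv_eq_iff_eq_mul] at this
        exact this
      let z' : Subgroup.center G := ⟨w, hwc⟩
      have hsub : z ∈ Subgroup.zpowers z' := by
        have hcard : Nat.card (Subgroup.zpowers z) = p := by rw [Nat.card_zpowers, hz]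
        obtain ⟨gen, hgen⟩ := IsCyclic.exists_generator (α := Subgroup.center G)
        have hp' : p ∣ orderOf z' := by
          obtain ⟨s, hs⟩ := (hG.to_subgroup (Subgroup.center G)) z'
          have h0 := orderOf_dvd_of_pow_eq_one hs
          obtain ⟨j, -, hj⟩ := (Nat.dvd_prime_pow (Fact.out : p.Prime)).1 h0
          rcases j with _ | j
          · rw [pow_zero, orderOf_eq_one_iff] at hj
            exact absurd (Subtype.ext (show (w : G) = 1 from congrArg Subtype.val hj)) hw1
          · exact hj ▸ dvd_pow_self p (Nat.succ_ne_zero j)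
        obtain ⟨z'', hz''⟩ := exists_prime_orderOf_dvd_card' p
          (show p ∣ Nat.card (Subgroup.zpowers z') by rw [Nat.card_zpowers]; exact hp')
        haveI := Fintype.ofFinite (Subgroup.center G)
        let S : Finset (Subgroup.center G) :=
          Finset.univ.filter fun x => x ∈ Subgroup.zpowers (z'' : Subgroup.center G)
        have hScard : S.card = p := by
          rw [← hz'', ← Subgroup.orderOf_coe, ← Nat.card_zpowers, ← Nat.card_eq_finsetCard]
          exact Nat.card_congr (Equiv.subtypeEquivRight fun x => by simp [S])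
        have hle : S ⊆ Finset.univ.filter fun x : Subgroup.center G => x ^ p = 1 := by
          intro x hx
          obtain ⟨i, rfl⟩ := (Finset.mem_filter.1 hx).2
          refine Finset.mem_filter.2 ⟨Finset.mem_univ _, ?_⟩
          show ((z'' : Subgroup.center G) ^ i) ^ p = 1
          rw [← zpow_natCast, ← zpow_mul, mul_comm, zpow_mul, zpow_natCast, ← hz'', ← Subgroup.orderOf_coe,
            pow_orderOf_eq_one, one_zpow]
        have heq := Finset.eq_of_subset_of_card_le hle
          ((IsCyclic.card_pow_eq_one_le (Fact.out : p.Prime).pos).trans hScard.ge)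
        have : z ∈ Subgroup.zpowers (z'' : Subgroup.center G) := by
          have : z ∈ S := heq ▸ Finset.mem_filter.2 ⟨Finset.mem_univ _, by rw [← hz, pow_orderOf_eq_one]⟩
          exact (Finset.mem_filter.1 this).2
        exact (Subgroup.zpowers_le.2 z''.2) this
      have hzK : (z : G) ∈ K := by
        obtain ⟨i, hi⟩ := hsub
        rw [← hi]
        exact K.zpow_mem w.2 i
      apply hχ
      show ρ.character z = ρ.character 1
      rw [Representation.char_one, (Cfsg.Agent.Chars.rep_char_eq_finrank_iff ρ z).2 ((hK _).1 hzK)]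
    intro a b hab
    have : a⁻¹ * b ∈ K := (hK _).2 (by
      rw [map_mul, ← hab, ← map_mul, inv_mul_cancel, map_one])
    rw [hKbot, Subgroup.mem_bot] at this
    exact inv_mul_eq_one.1 this

end Cfsg.Agent.S0184
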