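import Cfsg.Statements.S0185
import Cfsg.Agent.Chars.Linear
import Cfsg.Agent.Chars.Eigen

set_option autoImplicit false
set_option linter.style.haveILetI false
open Cfsg

namespace Cfsg.Agent.S0185

/-- If a finite group has a faithful complex representation of degree less than the smallest prime dividing its order, the group is abelian. -/
theorem result {G : Type*} [Group G] [Finite G] {V : Type*} [AddCommGroup V] [Module ℂ V] [FiniteDimensional ℂ V] (ρ : Representation ℂ G V) (hfaithful : Function.Injective ρ) (hdeg : ∀ p : ℕ, p.Prime → p ∣ Nat.card G → Module.finrank ℂ V < p) (a b : G) : a * b = b * a := by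
  classical
  haveI := Fintype.ofFinite G
  obtain ⟨c, -, hcs⟩ := Cfsg.Agent.Chars.exists_eq_sum_nsmul (Cfsg.Agent.Chars.isCharacter_of_rep ρ)
  choose d hd0 hd using fun η : Cfsg.IrrCharacter G => Cfsg.Agent.Chars.exists_irr_apply_one_eq η.2
  have h1 := congrFun hcs 1
  simp only [Finset.sum_apply, Pi.smul_apply] at h1
  simp only [Representation.char_one, hd, nsmul_eq_mul] at h1
  have h2 : Module.finrank ℂ V = ∑ η, c η * d η := by exact_mod_cast h1
  have hlin : ∀ η : Cfsg.IrrCharacter G, c η ≠ 0 → (η : G → ℂ) 1 = 1 := by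
    intro η hη
    obtain ⟨e, he0, he1, hed⟩ := Cfsg.Agent.Chars.irr_degree_dvd_card η.2
    have h3 : d η = e := by exact_mod_cast (hd η).symm.trans he1
    have hle : e ≤ Module.finrank ℂ V := by
      rw [h2, ← h3]
      exact (Nat.le_mul_of_pos_left _ (Nat.pos_of_ne_zero hη)).trans
        (Finset.single_le_sum (f := fun η => c η * d η) (fun _ _ => Nat.zero_le _) (Finset.mem_univ η))
    by_cases he : e = 1
    · rw [he1, he, Nat.cast_one]
    · obtain ⟨p, hp, hpe⟩ := Nat.exists_prime_and_dvd he
      exact absurd (hdeg p hp (hpe.trans hed)) (not_lt.2 ((Nat.le_of_dvd he0 hpe).trans hle))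
  have hρ : ρ ((b * a)⁻¹ * (a * b)) = 1 := by
    refine (Cfsg.Agent.Chars.rep_char_eq_finrank_iff ρ _).1 ?_
    rw [← Representation.char_one ρ, hcs]
    simp only [Finset.sum_apply, Pi.smul_apply]
    refine Finset.sum_congr rfl fun η _ => ?_
    by_cases hη : c η = 0
    · simp [hη]
    · obtain ⟨l, hl⟩ := Cfsg.Agent.Chars.exists_hom_of_degree_one
        (Cfsg.Agent.Chars.irr_isCharacter η) (hlin η hη)
      rw [hl]
      simp only [map_mul, map_inv, map_one, mul_comm (l a) (l b), inv_mul_cancel]
  exact (inv_mul_eq_one.1 (hfaithful (hρ.trans (map_one ρ).symm))).symm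

end Cfsg.Agent.S0185
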