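import Cfsg.Statements.S0186
import Cfsg.Agent.Chars.Blichfeldt
import Cfsg.Agent.Chars.Eigen
import Mathlib.GroupTheory.Sylow

set_option autoImplicit false
set_option linter.style.haveILetI false
open Cfsg

namespace Cfsg.Agent.S0186

/-- Let G be a finite simple group of order n and p a prime dividing n. If G has more than n / p^2 conjugacy classes, then every Sylow p-subgroup of G is abelian. -/
theorem result {G : Type*} [Group G] [Finite G] [IsSimpleGroup G] (p : ℕ) [Fact p.Prime] (hp : p ∣ Nat.card G) (hmany : Nat.card G < p ^ 2 * Nat.card (ConjClasses G)) (P : Sylow p G) (a b : G) (ha : a ∈ P) (hb : b ∈ P) : a * b = b * a := by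
  classical
  haveI := Fintype.ofFinite G
  by_contra hne
  have hcen : Subgroup.center G = ⊥ := by
    rcases (inferInstance : (Subgroup.center G).Normal).eq_bot_or_eq_top with h | h
    · exact h
    · exact absurd (Subgroup.mem_center_iff.1 (h ▸ Subgroup.mem_top b) a) hne
  choose d hd0 hd using fun χ : IrrCharacter G => Cfsg.Agent.Chars.exists_irr_apply_one_eq χ.2
  let one : IrrCharacter G := ⟨fun _ => 1, Cfsg.Agent.Chars.isIrrCharacter_one⟩
  have hbig : ∀ χ : IrrCharacter G, χ ≠ one → p + 1 ≤ d χ := by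
    intro χ hχ1
    by_contra hlt
    have hχc := Cfsg.Agent.Chars.irr_isCharacter χ
    have hf : ∀ g : G, (χ : G → ℂ) g = (χ : G → ℂ) 1 → g = 1 := by
      have hker : ∀ g, g ∈ Cfsg.Agent.Chars.charKer hχc ↔ (χ : G → ℂ) g = (χ : G → ℂ) 1 := fun g => Iff.rfl
      intro g hg
      rcases (Cfsg.Agent.Chars.charKer_normal hχc).eq_bot_or_eq_top with h | h
      · have := (hker g).2 hg
        rw [h, Subgroup.mem_bot] at this; exact this
      · exfalso
        apply hχ1
        have hconst : ∀ x, (χ : G → ℂ) x = (χ : G → ℂ) 1 := fun x => (hker x).1 (h ▸ Subgroup.mem_top x)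
        have h0 := Cfsg.Agent.Chars.classInner_irr_of_ne χ.2 one.2 (fun e => hχ1 (Subtype.ext e))
        rw [Cfsg.Agent.Chars.classInner_def] at h0
        simp only [one, map_one, mul_one, hconst, Finset.sum_const, Finset.card_univ, nsmul_eq_mul] at h0
        rw [← Nat.card_eq_fintype_card, inv_mul_cancel_left₀ Cfsg.Agent.Chars.card_ne_zero] at h0
        exact absurd h0 (Cfsg.Agent.Chars.irr_apply_one_ne_zero χ.2)
    by_cases hlt' : d χ < p
    · exact hne (Cfsg.Agent.Chars.comm_of_pgroup_of_degree_lt hχc hf (hd χ) hlt' P P.isPGroup' a ha b hb)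
    have hdp : d χ = p := by omega
    obtain ⟨c, hc, hcs⟩ := Cfsg.Agent.Chars.exists_eq_sum_nsmul
      (Cfsg.Agent.Chars.isCharacter_restrict hχc (P : Subgroup G))
    choose e he0 he using fun η : IrrCharacter (P : Subgroup G) => Cfsg.Agent.Chars.exists_irr_apply_one_eq η.2
    have hsum : ∑ η, c η * e η = p := by
      have h1 := congrFun hcs 1
      simp only [Finset.sum_apply, Pi.smul_apply, Pi.mul_apply, Pi.natCast_apply, nsmul_eq_mul, he, Subgroup.coe_one, hd, hdp] at h1
      exact_mod_cast h1.symm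
    by_cases hall : ∀ η, c η ≠ 0 → e η = 1
    · apply hne
      let A : (P : Subgroup G) := ⟨a, ha⟩
      let B : (P : Subgroup G) := ⟨b, hb⟩
      have h := hf (((B * A)⁻¹ * (A * B) : (P : Subgroup G)) : G) (by
        have e1 := congrFun hcs ((B * A)⁻¹ * (A * B))
        have e2 := congrFun hcs 1
        simp only [Finset.sum_apply, Pi.smul_apply, Subgroup.coe_one] at e1 e2
        rw [e1, e2]
        refine Finset.sum_congr rfl fun η _ => ?_
        by_cases hη : c η = 0
        · simp [hη]
        · obtain ⟨l, hl⟩ := Cfsg.Agent.Chars.exists_hom_of_degree_one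
            (Cfsg.Agent.Chars.irr_isCharacter η) (by rw [he, hall η hη, Nat.cast_one])
          rw [hl]
          simp [map_mul, map_inv, mul_comm (l A) (l B)])
      simp only [Subgroup.coe_mul, Subgroup.coe_inv, A, B] at h
      exact (inv_mul_eq_one.1 h).symm
    push Not at hall
    obtain ⟨η, hη, hη1⟩ := hall
    obtain ⟨m, -, hm, hmdvd⟩ := Cfsg.Agent.Chars.irr_degree_dvd_card η.2
    have hme : e η = m := by exact_mod_cast (he η).symm.trans hm
    obtain ⟨s, hs⟩ := IsPGroup.iff_card.1 P.isPGroup'
    obtain ⟨j, -, hj⟩ := (Nat.dvd_prime_pow (Fact.out : p.Prime)).1 (hs ▸ hme ▸ hmdvd)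
    have hle : c η * e η ≤ p := hsum ▸ Finset.single_le_sum (f := fun η => c η * e η)
      (fun _ _ => Nat.zero_le _) (Finset.mem_univ η)
    have hpe : p ≤ e η := by
      rcases j with _ | j
      · exact absurd hj (by rw [pow_zero]; exact hη1)
      · rw [hj]; exact Nat.le_self_pow (Nat.succ_ne_zero j) p
    have hc1 : c η = 1 := by
      have : 0 < c η := Nat.pos_of_ne_zero hη
      nlinarith [(Fact.out : p.Prime).pos]
    have hres : (fun x : (P : Subgroup G) => (χ : G → ℂ) x) = η.1 := by
      have hrest : ∀ η' : IrrCharacter (P : Subgroup G), η' ≠ η → c η' = 0 := by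
        intro η' hne'
        have h2 := Finset.sum_le_sum_of_subset (f := fun η => c η * e η)
          (Finset.subset_univ ({η, η'} : Finset (IrrCharacter (P : Subgroup G))))
        rw [Finset.sum_pair (Ne.symm hne'), hsum, hc1, one_mul] at h2
        by_contra h0
        have := Nat.mul_pos (Nat.pos_of_ne_zero h0) (he0 η')
        omega
      rw [hcs, Finset.sum_eq_single η (fun η' _ h' => by rw [hrest η' h', zero_smul]) (by simp), hc1,
        one_smul]
    obtain ⟨n, ρ, hi, hρ⟩ := χ.2
    let r : Representation ℂ (P : Subgroup G) (Fin n → ℂ) := ρ.comp (P : Subgroup G).subtype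
    haveI : r.IsIrreducible :=
      Cfsg.Agent.Chars.isIrreducible_of_character _ (by
        have : r.character = η.1 := by
          rw [← hres]; funext x; exact congrFun hρ x
        rw [this]; exact η.2)
    haveI : Nontrivial (P : Subgroup G) := ⟨⟨⟨a, ha⟩, 1, fun h => hne (by
      have : a = 1 := congrArg Subtype.val h
      rw [this, one_mul, mul_one])⟩⟩
    haveI : Nontrivial (Subgroup.center (P : Subgroup G)) := P.isPGroup'.center_nontrivial
    obtain ⟨z, hz⟩ := exists_ne (1 : Subgroup.center (P : Subgroup G))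
    obtain ⟨k, hk⟩ := Cfsg.Agent.Chars.scalar_of_commute r
      (r z.1) fun g => by
        rw [← map_mul, ← map_mul, Subgroup.mem_center_iff.1 z.2 g]
    have hzc : ((z.1 : (P : Subgroup G)) : G) ∈ Subgroup.center G := by
      rw [Subgroup.mem_center_iff]
      intro x
      have hρz : ρ ((z.1 : (P : Subgroup G)) : G) = k • 1 := hk
      have e : ρ ((x * z.1 * x⁻¹) * ((z.1 : (P : Subgroup G)) : G)⁻¹) = 1 := by
        rw [map_mul, map_mul, map_mul, hρz, mul_smul_comm, mul_one, smul_mul_assoc, ← map_mul,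
          mul_inv_cancel, map_one, ← hρz, ← map_mul, mul_inv_cancel, map_one]
      have h3 := hf _ (show (χ : G → ℂ) _ = (χ : G → ℂ) 1 by
        rw [← hρ, (Cfsg.Agent.Chars.rep_char_eq_finrank_iff ρ _).2 e, Representation.char_one])
      rwa [mul_inv_eq_one, mul_inv_eq_iff_eq_mul] at h3
    rw [hcen, Subgroup.mem_bot] at hzc
    exact hz (Subtype.ext (Subtype.ext hzc))
  have hp3 : p ^ 3 ∣ Nat.card G := by
    obtain ⟨s, hs⟩ := IsPGroup.iff_card.1 P.isPGroup'
    have h3 : 3 ≤ s := by
      by_contra h
      apply hne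
      have : IsMulCommutative (P : Subgroup G) := by
        interval_cases s
        · haveI := (Nat.card_eq_one_iff_unique.1 (hs.trans (pow_zero p))).1
          exact ⟨⟨fun x y => Subsingleton.elim _ _⟩⟩
        · haveI := isCyclic_of_prime_card (hs.trans (pow_one p))
          exact IsCyclic.isMulCommutative
        · exact IsPGroup.isMulCommutative_of_card_eq_prime_sq hs
      exact congrArg Subtype.val (this.1.comm ⟨a, ha⟩ ⟨b, hb⟩)
    exact (pow_dvd_pow p h3).trans (hs ▸ Subgroup.card_subgroup_dvd_card _)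
  set k := Nat.card (ConjClasses G) with hk
  have hsq : 1 + (k - 1) * (p + 1) ^ 2 ≤ Nat.card G := by
    have h1 : ∑ χ, d χ ^ 2 = Nat.card G := by
      have h2 : ((∑ χ, d χ ^ 2 : ℕ) : ℂ) = (Nat.card G : ℂ) := by
        push_cast; simp only [← hd]; exact Cfsg.Agent.Chars.sum_sq_apply_one
      exact_mod_cast h2
    have h3 : d one = 1 := by exact_mod_cast (show (1 : ℂ) = (d one : ℂ) from hd one).symm
    rw [← h1, ← Finset.add_sum_erase _ _ (Finset.mem_univ one), h3, one_pow, hk,
      ← Cfsg.Agent.Chars.card_irr_eq_card_conjClasses, Nat.card_eq_fintype_card, ← Finset.card_univ,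
      ← Finset.card_erase_of_mem (Finset.mem_univ one)]
    refine Nat.add_le_add_left ?_ 1
    have := Finset.card_nsmul_le_sum ((Finset.univ : Finset (IrrCharacter G)).erase one) (fun χ => d χ ^ 2)
      ((p + 1) ^ 2) fun χ hχ => Nat.pow_le_pow_left (hbig χ (Finset.ne_of_mem_erase hχ)) 2
    simpa using this
  have hkp : p < k := by
    have : p ^ 3 < p ^ 2 * k := lt_of_le_of_lt (Nat.le_of_dvd Nat.card_pos hp3) hmany
    rw [pow_succ] at this
    exact Nat.lt_of_mul_lt_mul_left this
  obtain ⟨j, hj⟩ : ∃ j, k = j + 1 := ⟨k - 1, by omega⟩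
  rw [hj, Nat.add_sub_cancel] at hsq
  rw [hj] at hmany hkp
  nlinarith

end Cfsg.Agent.S0186
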