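import Cfsg.Statements.S0189
import Cfsg.Agent.Chars.Orth

set_option autoImplicit false
set_option linter.style.haveILetI false
open Cfsg

namespace Cfsg.Agent.S0189

/-- If a complex character of a finite group vanishes at every non-identity element of a Sylow p-subgroup P, then |P| divides its degree. -/
theorem result {G : Type*} [Group G] [Finite G] (p : ℕ) [Fact p.Prime] (P : Sylow p G) (χ : G → ℂ) (hχ : Cfsg.IsCharacter G χ) (hvan : ∀ g : G, g ∈ P → g ≠ 1 → χ g = 0) : ∃ k : ℕ, χ 1 = (Nat.card P : ℂ) * k := by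
  classical
  haveI : Fintype (P : Subgroup G) := Fintype.ofFinite _
  obtain ⟨k, hk⟩ := Cfsg.Agent.Chars.exists_classInner_eq_nat
    (Cfsg.Agent.Chars.isCharacter_restrict hχ (P : Subgroup G))
    (Cfsg.Agent.Chars.isCharacter_one (G := (P : Subgroup G)))
  refine ⟨k, ?_⟩
  rw [← hk, Cfsg.Agent.Chars.classInner_def, Finset.sum_eq_single (1 : (P : Subgroup G))]
  · simp only [map_one, mul_one, Subgroup.coe_one]
    rw [← mul_assoc, mul_inv_cancel₀ (Nat.cast_ne_zero.2 Nat.card_pos.ne'), one_mul]
  · intro g _ hg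
    rw [hvan (g : G) g.2 (fun h => hg (Subtype.ext h)), zero_mul]
  · simp

end Cfsg.Agent.S0189
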