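import Cfsg.Statements.S0191
import Cfsg.Agent.Chars.GaloisValues
import Mathlib.Analysis.SpecialFunctions.Log.Basic

set_option autoImplicit false
set_option linter.style.haveILetI false
open Cfsg

namespace Cfsg.Agent.S0191

/-- An irreducible complex representation of a finite group of degree greater than 1 has a character that vanishes somewhere. -/
theorem result {G : Type*} [Group G] [Finite G] {V : Type*} [AddCommGroup V] [Module ℂ V] [FiniteDimensional ℂ V] (ρ : Representation ℂ G V) [ρ.IsIrreducible] (hdeg : 1 < Module.finrank ℂ V) : ∃ g : G, ρ.character g = 0 := by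
  classical
  haveI := Fintype.ofFinite G
  by_contra hall
  push Not at hall
  have hχ := Cfsg.Agent.Chars.isIrrCharacter_of_rep ρ
  have hc := Cfsg.Agent.Chars.isCharacter_of_isIrr hχ
  set χ := ρ.character with hχdef
  set s := (Finset.univ : Finset G).erase 1 with hs
  set P : ℂ := ∏ g ∈ s, χ g * χ g⁻¹ with hP
  have hns : ∀ g, χ g * χ g⁻¹ = (Complex.normSq (χ g) : ℂ) := fun g => by
    rw [Cfsg.Agent.Chars.char_inv_eq_conj hc, Complex.mul_conj]
  have hint : IsIntegral ℤ P := IsIntegral.prod _ fun g _ =>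
    (Cfsg.Agent.Chars.isIntegral_of_isCharacter hc g).mul
      (Cfsg.Agent.Chars.isIntegral_of_isCharacter hc _)
  obtain ⟨z, hz⟩ := Cfsg.Agent.Chars.exists_int_of_fixed hint fun σ => by
    obtain ⟨k, hk, hσ⟩ := Cfsg.Agent.Chars.exists_aut_apply (G := G) σ
    have e : ∀ g, σ (χ g * χ g⁻¹) = χ (g ^ k) * χ (g ^ k)⁻¹ := fun g => by
      rw [map_mul, hσ _ hc, hσ _ hc, inv_pow]
    rw [hP, map_prod, Finset.prod_congr rfl fun g _ => e g]
    refine Finset.prod_equiv (powCoprime hk.symm) (fun g => ?_) fun g _ => rfl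
    simp only [hs, Finset.mem_erase, Finset.mem_univ, and_true]
    exact ⟨fun h e => h ((powCoprime hk.symm).injective (e.trans (one_pow k).symm)),
      fun h e => h (by rw [e]; exact one_pow k)⟩
  have hpos : ∀ g, 0 < Complex.normSq (χ g) := fun g => Complex.normSq_pos.2 (hall g)
  have hPz : ((∏ g ∈ s, Complex.normSq (χ g) : ℝ) : ℂ) = (z : ℂ) := by
    rw [← hz, hP, Finset.prod_congr rfl fun g _ => hns g]; push_cast; rfl
  have hP1 : 1 ≤ ∏ g ∈ s, Complex.normSq (χ g) := by
    have h0 : (0 : ℝ) < z := by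
      have := Finset.prod_pos (s := s) fun g _ => hpos g
      have e : (∏ g ∈ s, Complex.normSq (χ g)) = (z : ℝ) := by exact_mod_cast hPz
      rwa [e] at this
    rw [show (∏ g ∈ s, Complex.normSq (χ g)) = (z : ℝ) by exact_mod_cast hPz]
    exact_mod_cast (Int.cast_pos.1 h0 : 0 < z)
  have hsum : (s.card : ℝ) ≤ ∑ g ∈ s, Complex.normSq (χ g) := by
    have h1 := Real.log_nonneg hP1
    rw [Real.log_prod (fun g _ => (hpos g).ne')] at h1
    have h2 := Finset.sum_le_sum (s := s) fun g _ => Real.log_le_sub_one_of_pos (hpos g)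
    rw [Finset.sum_sub_distrib, Finset.sum_const, nsmul_eq_mul, mul_one] at h2
    linarith
  have htot : ∑ g, Complex.normSq (χ g) = (Nat.card G : ℝ) := by
    have h := Cfsg.Agent.Chars.classInner_self_irr hχ
    rw [Cfsg.Agent.Chars.classInner_def, inv_mul_eq_one₀ Cfsg.Agent.Chars.card_ne_zero] at h
    simp only [Complex.mul_conj] at h
    exact_mod_cast h.symm
  rw [← Finset.add_sum_erase _ _ (Finset.mem_univ (1 : G)), ← hs, hχdef, Representation.char_one,
    Complex.normSq_natCast] at htot
  have hcard : s.card + 1 = Nat.card G := by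
    rw [hs, Finset.card_erase_add_one (Finset.mem_univ _), Finset.card_univ, Nat.card_eq_fintype_card]
  have h4 : (2 : ℝ) ≤ (Module.finrank ℂ V : ℝ) := by exact_mod_cast hdeg
  have : (s.card : ℝ) + 1 = (Nat.card G : ℝ) := by exact_mod_cast hcard
  nlinarith

end Cfsg.Agent.S0191
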