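import Cfsg.Statements.S0192
import Cfsg.Agent.Chars.Orth

set_option autoImplicit false
set_option linter.style.haveILetI false
open Cfsg

namespace Cfsg.Agent.S0192

/-- Brauer's generation criterion. Let G be a finite simple group, H₁ and H₂ subgroups, and χ a non-principal irreducible character. If the multiplicity of the principal character in χ restricted to H₁ ⊓ H₂ is less than the sum of the corresponding multiplicities for H₁ and H₂, then H₁ and H₂ do not generate G. -/
theorem result {G : Type*} [Group G] [Fintype G] [IsSimpleGroup G] (H₁ H₂ : Subgroup G) [Fintype H₁] [Fintype H₂] [Fintype ↥(H₁ ⊓ H₂)] (χ : G → ℂ) (hχ : Cfsg.IsIrrCharacter G χ) (hχ1 : χ ≠ fun _ => 1) (hlt : (Cfsg.classInner (fun x : ↥(H₁ ⊓ H₂) => χ x) (fun _ => 1)).re < (Cfsg.classInner (fun x : H₁ => χ x) (fun _ => 1)).re + (Cfsg.classInner (fun x : H₂ => χ x) (fun _ => 1)).re) : H₁ ⊔ H₂ ≠ ⊤ := by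
  classical
  intro htop
  obtain ⟨n, ρ, hirr, rfl⟩ := hχ
  let r : ∀ K : Subgroup G, Representation ℂ K (Fin n → ℂ) := fun K => ρ.comp K.subtype
  have hinv : ∀ (K : Subgroup G) (i : Fintype K),
      (@classInner K _ i (fun x : K => ρ.character x) (fun _ => 1)).re =
        (Module.finrank ℂ (Representation.invariants (r K)) : ℝ) := by
    intro K i
    haveI : Invertible (Nat.card K : ℂ) := invertibleOfNonzero Cfsg.Agent.Chars.card_ne_zero
    rw [Cfsg.Agent.Chars.classInner_def]
    simp only [map_one, mul_one]
    rw [show (fun x : K => ρ.character x) = (r K).character from rfl,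
      Representation.card_inv_mul_sum_char_eq_finrank, Complex.natCast_re]
  rw [hinv, hinv, hinv] at hlt
  have hle : Representation.invariants (r H₁) ⊔ Representation.invariants (r H₂) ≤
      Representation.invariants (r (H₁ ⊓ H₂)) := by
    refine sup_le ?_ ?_
    · intro v hv g; exact hv ⟨g.1, g.2.1⟩
    · intro v hv g; exact hv ⟨g.1, g.2.2⟩
  have hd := Submodule.finrank_sup_add_finrank_inf_eq
    (Representation.invariants (r H₁)) (Representation.invariants (r H₂))
  have hm := Submodule.finrank_mono hle
  have hlt' : Module.finrank ℂ (Representation.invariants (r (H₁ ⊓ H₂))) <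
      Module.finrank ℂ (Representation.invariants (r H₁)) +
        Module.finrank ℂ (Representation.invariants (r H₂)) := by exact_mod_cast hlt
  have hpos : Representation.invariants (r H₁) ⊓ Representation.invariants (r H₂) ≠ ⊥ := by
    intro hb
    rw [hb, finrank_bot] at hd
    omega
  have hfix : ∀ v ∈ Representation.invariants (r H₁) ⊓ Representation.invariants (r H₂),
      ∀ g : G, ρ g v = v := by
    intro v hv
    let S : Subgroup G :=
      { carrier := {g | ρ g v = v}
        mul_mem' := fun {a b} (ha : ρ a v = v) (hb : ρ b v = v) => by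
          show ρ (a * b) v = v
          rw [map_mul, Module.End.mul_apply, hb, ha]
        one_mem' := by show ρ 1 v = v; rw [map_one, Module.End.one_apply]
        inv_mem' := fun {a} (ha : ρ a v = v) => by
          show ρ a⁻¹ v = v
          conv_lhs => rw [← ha]
          rw [← Module.End.mul_apply, ← map_mul, inv_mul_cancel, map_one, Module.End.one_apply] }
    have : H₁ ⊔ H₂ ≤ S := sup_le (fun g hg => hv.1 ⟨g, hg⟩) (fun g hg => hv.2 ⟨g, hg⟩)
    exact fun g => this (htop ▸ Subgroup.mem_top g)
  haveI := Fintype.ofFinite G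
  have h1 : classInner ρ.character (fun _ => 1) ≠ 0 := by
    haveI : Invertible (Nat.card G : ℂ) := invertibleOfNonzero Cfsg.Agent.Chars.card_ne_zero
    rw [Cfsg.Agent.Chars.classInner_def]
    simp only [map_one, mul_one]
    rw [Representation.card_inv_mul_sum_char_eq_finrank, Nat.cast_ne_zero]
    intro h0
    rw [Submodule.finrank_eq_zero] at h0
    exact hpos (le_bot_iff.1 (h0 ▸ fun v hv g => hfix v hv g))
  exact h1 (Cfsg.Agent.Chars.classInner_irr_of_ne ⟨n, ρ, hirr, rfl⟩
    Cfsg.Agent.Chars.isIrrCharacter_one hχ1)

end Cfsg.Agent.S0192
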