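import Cfsg.Statements.S0193
import Cfsg.Agent.Chars.InducedNormal

set_option autoImplicit false
set_option linter.style.haveILetI false
open Cfsg

namespace Cfsg.Agent.S0193

/-- Let H be a normal subgroup of a finite group G and θ an irreducible character of H. Then |H| times the inner product of the induced function of θ with itself equals the number of g in G with θ(g h g⁻¹) = θ(h) for all h in H; in particular the induced character is irreducible when only elements of H stabilise θ. -/
theorem result {G : Type*} [Group G] [Fintype G] (H : Subgroup G) [hN : H.Normal] (θ : H → ℂ) (hθ : Cfsg.IsIrrCharacter H θ) : (Nat.card H : ℂ) * Cfsg.classInner (Cfsg.indFun H θ) (Cfsg.indFun H θ) = (Nat.card {g : G // ∀ h : H, θ ⟨g * h * g⁻¹, hN.conj_mem h h.2 g⟩ = θ h} : ℂ) := by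
  classical
  haveI := Fintype.ofFinite H
  rw [Cfsg.Agent.Chars.classInner_indFun_indFun_normal, ← mul_assoc,
    mul_inv_cancel₀ (Cfsg.Agent.Chars.subgroup_card_ne_zero H), one_mul,
    Finset.sum_congr rfl (g := fun g : G => if ∀ h : H, θ ⟨g⁻¹ * h * g⁻¹⁻¹, hN.conj_mem h h.2 g⁻¹⟩ = θ h
      then (1 : ℂ) else 0) (fun g _ => by
      rw [Cfsg.Agent.Chars.classInner_irr hθ (Cfsg.Agent.Chars2.conjFun_isIrr hθ g)]
      refine if_congr ?_ rfl rfl
      simp only [funext_iff, Cfsg.Agent.Chars2.conjFun_apply]
      exact forall_congr' fun h => eq_comm),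
    Finset.sum_boole, Nat.card_eq_fintype_card, Fintype.card_subtype]
  refine congrArg Nat.cast (Finset.card_nbij' (·⁻¹) (·⁻¹) ?_ ?_ (fun a _ => inv_inv a) (fun a _ => inv_inv a))
  · intro g hg
    simp only [Finset.coe_filter, Finset.mem_univ, true_and, Set.mem_ofPred_eq, inv_inv] at hg ⊢
    exact hg
  · intro g hg
    simp only [Finset.coe_filter, Finset.mem_univ, true_and, Set.mem_ofPred_eq, inv_inv] at hg ⊢
    exact hg

end Cfsg.Agent.S0193
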