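import Cfsg.Statements.S0194
import Cfsg.Agent.Chars.InducedNormal
import Cfsg.Agent.OddChar.FrobSetup

set_option autoImplicit false
open scoped ComplexConjugate
set_option linter.style.haveILetI false
open Cfsg

namespace Cfsg.Agent.S0194

/-- Let G have odd order, H be a normal subgroup and θ a non-principal irreducible character of H. Then the function induced from θ is orthogonal to its complex conjugate. -/
theorem result {G : Type*} [Group G] [Fintype G] (hodd : Odd (Nat.card G)) (H : Subgroup G) [H.Normal] (θ : H → ℂ) (hθ : Cfsg.IsIrrCharacter H θ) (hθ1 : θ ≠ fun _ => 1) : Cfsg.classInner (fun g => conj (Cfsg.indFun H θ g)) (Cfsg.indFun H θ) = 0 := by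
  classical
  haveI := Fintype.ofFinite H
  set θb : H → ℂ := fun h => conj (θ h) with hθb
  have hind : (fun g => conj (indFun H θ g)) = indFun H θb := by
    funext g
    rw [Cfsg.Agent.Chars.indFun_apply, Cfsg.Agent.Chars.indFun_apply, map_mul, map_inv₀,
      map_natCast, map_sum]
    congr 1
    refine Finset.sum_congr rfl fun x _ => ?_
    rw [Cfsg.Agent.Chars.extendByZero_eq_ite, Cfsg.Agent.Chars.extendByZero_eq_ite]
    split_ifs <;> simp [hθb]
  rw [hind, Cfsg.Agent.Chars.classInner_indFun_indFun_normal, Finset.sum_eq_zero, mul_zero]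
  intro g _
  apply Cfsg.Agent.Chars.classInner_irr_of_ne (Cfsg.Agent.Chars.isIrrCharacter_star hθ)
    (Cfsg.Agent.Chars2.conjFun_isIrr hθ g)
  intro he
  apply hθ1
  have hcj : ∀ a : G, Cfsg.Agent.Chars2.conjFun θb a =
      fun h => conj (Cfsg.Agent.Chars2.conjFun θ a h) := fun a => rfl
  have hmul : ∀ (ψ : H → ℂ) (a b : G), Cfsg.Agent.Chars2.conjFun ψ (a * b) =
      Cfsg.Agent.Chars2.conjFun (Cfsg.Agent.Chars2.conjFun ψ b) a := fun ψ a b => by
    funext n
    simp only [Cfsg.Agent.Chars2.conjFun, mul_inv_rev, map_mul, MulAut.mul_apply]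
  have h2 : g * g ∈ Cfsg.Agent.Chars2.inertiaSub θ := by
    rw [Cfsg.Agent.Chars2.mem_inertiaSub, hmul, ← he, hcj, ← he]
    funext h
    exact Complex.conj_conj _
  have hg : g ∈ Cfsg.Agent.Chars2.inertiaSub θ := by
    obtain ⟨m, hm⟩ := exists_pow_eq_self_of_coprime
      (Nat.coprime_two_left.2 (Odd.of_dvd_nat hodd (orderOf_dvd_natCard g)) : Nat.Coprime 2 (orderOf g))
    rw [← hm, pow_two]
    exact pow_mem h2 m
  rw [Cfsg.Agent.Chars2.mem_inertiaSub] at hg
  exact Cfsg.Agent.OddChar.eq_one_of_real_of_odd (Odd.of_dvd_nat hodd (Subgroup.card_subgroup_dvd_card H))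
    hθ (he.trans hg)

end Cfsg.Agent.S0194
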