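import Cfsg.Statements.S0196
import Mathlib.GroupTheory.GroupAction.Quotient
import Mathlib.GroupTheory.Subgroup.Centralizer
import Mathlib.Algebra.BigOperators.Ring.Finset

set_option autoImplicit false
set_option linter.style.haveILetI false
open Cfsg

namespace Cfsg.Agent.S0196

/-- Let A be a subgroup of a finite group G that equals the centralizer of each of its non-identity elements, and let N be its normalizer. Then the index of A in N divides |A| − 1 (N/A permutes the non-identity elements of A in orbits of full length). -/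
theorem result {G : Type*} [Group G] [Finite G] (A : Subgroup G) (hA : ∀ x ∈ A, x ≠ 1 → Subgroup.centralizer ({x} : Set G) = A) : (A.subgroupOf (Subgroup.normalizer (A : Set G))).index ∣ Nat.card A - 1 := by
  classical
  haveI := Fintype.ofFinite G
  set N := Subgroup.normalizer (A : Set G) with hN
  have hmem : ∀ (n : N) (a : G), a ∈ A ↔ (n : G) * a * (n : G)⁻¹ ∈ A := fun n a =>
    Subgroup.mem_normalizer_iff.1 n.2 a
  let X := {a : G // a ∈ A ∧ a ≠ 1}
  letI : MulAction N X :=
    { smul := fun n a => ⟨(n : G) * a.1 * (n : G)⁻¹, (hmem n a.1).1 a.2.1, fun h => a.2.2 (by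
        simpa using h)⟩
      one_smul := fun a => Subtype.ext (show ((1 : N) : G) * a.1 * ((1 : N) : G)⁻¹ = a.1 by simp)
      mul_smul := fun m n a => Subtype.ext (show ((m * n : N) : G) * a.1 * ((m * n : N) : G)⁻¹ =
        (m : G) * ((n : G) * a.1 * (n : G)⁻¹) * (m : G)⁻¹ by simp [mul_assoc]) }
  have hstab : ∀ a : X, MulAction.stabilizer N a = A.subgroupOf N := fun a => by
    ext n
    rw [MulAction.mem_stabilizer_iff, Subgroup.mem_subgroupOf]
    conv_rhs => rw [← hA a.1 a.2.1 a.2.2, Subgroup.mem_centralizer_singleton_iff]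
    constructor
    · intro h
      have h' : (n : G) * a.1 * (n : G)⁻¹ = a.1 := congrArg Subtype.val h
      exact mul_inv_eq_iff_eq_mul.1 h'
    · intro h
      exact Subtype.ext (mul_inv_eq_iff_eq_mul.2 h)
  have hcard : Nat.card X = Nat.card A - 1 := by
    have h1 : Nat.card X = Nat.card {a : A // ¬ a = 1} :=
      Nat.card_congr
        { toFun := fun a => ⟨⟨a.1, a.2.1⟩, fun h => a.2.2 (congrArg Subtype.val h)⟩
          invFun := fun a => ⟨a.1.1, a.1.2, fun h => a.2 (Subtype.ext h)⟩
          left_inv := fun _ => rfl
          right_inv := fun _ => rfl }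
    rw [h1, Nat.card_eq_fintype_card, Fintype.card_subtype_compl, Fintype.card_subtype_eq,
      Nat.card_eq_fintype_card]
  rw [← hcard, Nat.card_congr (MulAction.selfEquivSigmaOrbits N X), Nat.card_sigma]
  refine Finset.dvd_sum fun ω _ => ?_
  induction ω using Quotient.inductionOn' with
  | h a =>
    rw [← hstab (Quotient.out (Quotient.mk'' a : MulAction.orbitRel.Quotient N X)),
      MulAction.index_stabilizer, Nat.card_coe_set_eq]

end Cfsg.Agent.S0196
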