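import Cfsg.Statements.S0203
import Cfsg.Agent.Components.KleinSylow

set_option autoImplicit false
open Cfsg

namespace Cfsg.Agent.S0203

/-- If a Sylow 2-subgroup P of a finite group G is a Klein four-group, then G has three classes of involutions if and only if P has a normal complement in G. -/
theorem result {G : Type*} [Group G] [Finite G] (P : Sylow 2 G) (hP : IsKleinFour (P : Subgroup G)) : Nat.card {C : ConjClasses G // ∃ t : G, orderOf t = 2 ∧ ConjClasses.mk t = C} = 3 ↔ ∃ N : Subgroup G, N.Normal ∧ Subgroup.IsComplement' N (P : Subgroup G) := by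
  haveI : Fact (Nat.Prime 2) := ⟨Nat.prime_two⟩
  constructor
  · intro h3
    rcases Cfsg.Agent.Components.kleinSylow_count P hP with ⟨h, -⟩ | ⟨-, h⟩
    · exact (Cfsg.Agent.Transfer.exists_normal_isComplement'_iff P).mpr
        (Cfsg.Agent.Transfer.hasNormalPComplement_of_normalizer_le_centralizer P h)
    · omega
  · rintro ⟨N, hN, hc⟩
    rcases Cfsg.Agent.Components.kleinSylow_count P hP with ⟨-, h⟩ | ⟨h, -⟩
    · exact h
    exfalso
    haveI := hN
    haveI := hP
    haveI : Nontrivial (P : Subgroup G) := Finite.one_lt_card_iff_nontrivial.mp (by rw [hP.card_four]; norm_num)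
    obtain ⟨x, hx1⟩ := exists_ne (1 : (P : Subgroup G))
    haveI := Fintype.ofFinite (P : Subgroup G)
    obtain ⟨y, hy1, hyx⟩ : ∃ y : (P : Subgroup G), y ≠ 1 ∧ y ≠ x := by
      classical
      by_contra hcon
      push Not at hcon
      have hle := Finset.card_le_card (s := (Finset.univ : Finset (P : Subgroup G))) (t := {1, x})
        (fun y _ => by
          by_cases hy : y = 1
          · simp [hy]
          · simp [hcon y hy])
      have h2 := Finset.card_le_two (a := (1 : (P : Subgroup G))) (b := x)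
      rw [Finset.card_univ, ← Nat.card_eq_fintype_card, hP.card_four] at hle
      omega
    obtain ⟨g, hg⟩ := isConj_iff.mp (h x x.2 (fun e => hx1 (Subtype.ext e)) y y.2 (fun e => hy1 (Subtype.ext e)))
    obtain ⟨⟨k, s⟩, hks, -⟩ := hc.existsUnique g
    have hks' : (k : G) * (s : G) = g := hks
    have hsx : (s : G) * x * (s : G)⁻¹ = x := by
      have := IsKleinFour.mul_self (s : (P : Subgroup G))
      have hcm : s * x = x * s := (IsKleinFour.isMulCommutative (G := (P : Subgroup G))).is_comm.comm s x
      rw [mul_inv_eq_iff_eq_mul]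
      exact congrArg Subtype.val hcm
    have hgy : (y : G) = k * x * (k : G)⁻¹ := by
      rw [← hg, ← hks', show (k : G) * s * x * ((k : G) * s)⁻¹ = k * ((s : G) * x * (s : G)⁻¹) * (k : G)⁻¹ by group, hsx]
    have hN1 : (y : G) * (x : G)⁻¹ ∈ N := by
      rw [hgy, show (k : G) * x * (k : G)⁻¹ * (x : G)⁻¹ = k * ((x : G) * (k : G)⁻¹ * (x : G)⁻¹) by group]
      exact mul_mem k.2 (hN.conj_mem _ (inv_mem k.2) _)
    have := Subgroup.mem_bot.mp (hc.isCompl.inf_eq_bot.le ⟨hN1, Subgroup.mul_mem _ y.2 (Subgroup.inv_mem _ x.2)⟩)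
    exact hyx (Subtype.ext (mul_inv_eq_one.mp this))

end Cfsg.Agent.S0203
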