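import Cfsg.Statements.S0210
import Cfsg.Agent.Components.Dihedral

set_option autoImplicit false
open Cfsg

namespace Cfsg.Agent.S0210

/-- If x, y are involutions whose product has even order, no element of the subgroup generated by x and y conjugates x to y. -/
theorem result {G : Type*} [Group G] [Finite G] (x y : G) (hx : orderOf x = 2) (hy : orderOf y = 2) (heven : Even (orderOf (x * y))) (d : G) (hd : d ∈ Subgroup.closure ({x, y} : Set G)) : d * x * d⁻¹ ≠ y := by
  intro h
  obtain ⟨k, hk⟩ := Components.conj_in_closure_pair hx hy hd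
  rw [h] at hk
  have h1 : (x * y) ^ (2 * k - 1) = 1 := by
    rw [zpow_sub_one]
    conv_lhs => arg 2; arg 1; arg 2; rw [hk]
    rw [← mul_assoc x x, Components.invol_mul_self hx, one_mul, mul_inv_cancel]
  have h2 : ((orderOf (x * y) : ℕ) : ℤ) ∣ 2 * k - 1 := orderOf_dvd_iff_zpow_eq_one.mpr h1
  obtain ⟨m, hm⟩ := heven
  rw [hm] at h2
  obtain ⟨c, hc⟩ := h2
  push_cast at hc
  have : (2 : ℤ) * (k - m * c) = 1 := by linarith
  omega

end Cfsg.Agent.S0210
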