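import Cfsg.Statements.S0211
import Cfsg.Agent.Components.InvolutionFusion

set_option autoImplicit false
open Cfsg

namespace Cfsg.Agent.S0211

/-- Let x, y be involutions with xy of even order n and z = (xy)^(n/2). Then xz is conjugate to x by an element of the subgroup generated by x, y if and only if 4 divides n. -/
theorem result {G : Type*} [Group G] [Finite G] (x y : G) (hx : orderOf x = 2) (hy : orderOf y = 2) (heven : Even (orderOf (x * y))) : (∃ d ∈ Subgroup.closure ({x, y} : Set G), d * x * d⁻¹ = x * (x * y) ^ (orderOf (x * y) / 2)) ↔ 4 ∣ orderOf (x * y) := by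
  constructor
  · rintro ⟨d, hd, h⟩
    obtain ⟨k, hk⟩ := Components.conj_in_closure_pair hx hy hd
    rw [h, mul_right_inj, ← zpow_natCast] at hk
    obtain ⟨m, hm⟩ := heven
    have h2 : ((orderOf (x * y) : ℕ) : ℤ) ∣ ((orderOf (x * y) / 2 : ℕ) : ℤ) - 2 * k :=
      orderOf_dvd_iff_zpow_eq_one.mpr (by rw [zpow_sub, hk, mul_inv_cancel])
    rw [show orderOf (x * y) / 2 = m by omega, hm] at h2
    obtain ⟨c, hc⟩ := h2
    push_cast at hc
    have : (2 : ℤ) ∣ (m : ℤ) := ⟨k + m * c, by linarith⟩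
    rw [show (2 : ℤ) = ((2 : ℕ) : ℤ) from rfl, Int.natCast_dvd_natCast] at this
    obtain ⟨j, hj⟩ := this
    exact ⟨j, by omega⟩
  · rintro ⟨k, hk⟩
    refine ⟨(x * y) ^ (-(k : ℤ)), zpow_mem (Components.mul_mem_closure_pair x y) _, ?_⟩
    rw [Components.invol_conj_zpow hx hy, show orderOf (x * y) / 2 = 2 * k by omega,
      ← zpow_natCast (x * y) (2 * k)]
    congr 2
    push_cast; ring

end Cfsg.Agent.S0211
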