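import Cfsg.Statements.S0212
import Cfsg.Agent.Components.BrauerFowler
import Mathlib.GroupTheory.SpecificGroups.Cyclic

set_option autoImplicit false
open Cfsg

namespace Cfsg.Agent.S0212

/-- The Brauer–Fowler bound: if G is a finite simple group and t an involution of G whose centralizer has order n, then |G| ≤ (2n^2)!. -/
theorem result {G : Type*} [Group G] [Finite G] [IsSimpleGroup G] (t : G) (ht : orderOf t = 2) : Nat.card G ≤ Nat.factorial (2 * (Nat.card (Subgroup.centralizer ({t} : Set G))) ^ 2) := by
  haveI : Nontrivial G := ⟨t, 1, Components.invol_ne_one ht⟩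
  set c := Nat.card (Subgroup.centralizer ({t} : Set G)) with hc
  have hc0 : 0 < c := Nat.card_pos
  have heven : Even (Nat.card G) := even_iff_two_dvd.mpr (ht ▸ orderOf_dvd_natCard t)
  rcases (inferInstance : (Subgroup.center G).Normal).eq_bot_or_eq_top with hz | hz
  · obtain ⟨H, hH, hcases⟩ := Components.brauer_fowler_index heven (by simp [hz])
    have hdvd := Components.card_dvd_factorial_index H hH
    refine (Nat.le_of_dvd (Nat.factorial_pos _) hdvd).trans (Nat.factorial_le ?_)
    rcases hcases with h2 | h2
    · rw [h2]
      have : 1 ≤ c ^ 2 := Nat.one_le_pow _ _ hc0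
      omega
    · set g := Nat.card G
      set n := Nat.card {t : G // orderOf t = 2} with hn
      have hgn : g ≤ n * c := by
        show Nat.card G ≤ n * c
        rw [← Components.card_class_mul_centralizer t]
        exact Nat.mul_le_mul_right _ (Components.card_class_le_involutions ht)
      have hng : n ≤ g := Finite.card_subtype_le _
      by_contra hlt
      push Not at hlt
      nlinarith [Nat.mul_le_mul hgn hgn, Nat.mul_le_mul_left g hng]
  · have hcomm : ∀ a b : G, a * b = b * a := fun a b =>
      (Subgroup.mem_center_iff.mp (hz ▸ Subgroup.mem_top a) b).symm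
    have hC : Subgroup.centralizer ({t} : Set G) = ⊤ :=
      eq_top_iff.mpr fun a _ => Components.mem_centralizer_singleton.mpr (hcomm a t)
    have : c = Nat.card G := by rw [hc, hC, Subgroup.card_top]
    rw [← this]
    exact (by nlinarith : c ≤ 2 * c ^ 2).trans (Nat.self_le_factorial _)

end Cfsg.Agent.S0212
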