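import Cfsg.Statements.S0216
import Cfsg.Agent.Components.InvolutionFusion

set_option autoImplicit false
open Cfsg

namespace Cfsg.Agent.S0216

/-- For an involution u in a Sylow 2-subgroup P of a finite group G, the following are equivalent: no G-conjugate of u other than u lies in P; every commutator of u with an element of G has odd order. -/
theorem result {G : Type*} [Group G] [Finite G] (P : Sylow 2 G) (u : G) (hu : orderOf u = 2) (huP : u ∈ P) : (∀ g : G, g * u * g⁻¹ ∈ P → g * u * g⁻¹ = u) ↔ (∀ g : G, Odd (orderOf (u * g * u⁻¹ * g⁻¹))) := by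
  constructor
  · intro hiso g
    set v := g * u * g⁻¹ with hv
    have hvo : orderOf v = 2 := Components.invol_conj hu g
    have hw : u * g * u⁻¹ * g⁻¹ = u * v := by
      rw [hv, Components.invol_inv hu]; group
    rw [hw]
    by_contra hodd
    rw [Nat.not_odd_iff_even] at hodd
    obtain ⟨hz, hzx, -⟩ := Components.central_involution hu hvo (orderOf_pos _).ne' hodd
    have huv : IsConj u v := isConj_iff.mpr ⟨g, rfl⟩
    have hconj : IsConj u (u * (u * v) ^ (orderOf (u * v) / 2)) := by
      by_cases h4 : 4 ∣ orderOf (u * v)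
      · exact (Components.isConj_mul_central hu hvo hodd).1 h4
      · exact huv.trans ((Components.isConj_mul_central hu hvo hodd).2 h4)
    have := Components.eq_of_isolated hu hiso hconj ((Commute.refl u).mul_right hzx.symm)
    rw [mul_eq_left] at this
    exact Components.invol_ne_one hz this
  · intro h g hg
    have ho := h g
    have hmem : u * g * u⁻¹ * g⁻¹ ∈ P := by
      have e : u * g * u⁻¹ * g⁻¹ = u * (g * u * g⁻¹) := by rw [Components.invol_inv hu]; group
      rw [e]
      exact mul_mem huP hg
    obtain ⟨k, hk⟩ := P.2 ⟨_, hmem⟩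
    have hd : orderOf (u * g * u⁻¹ * g⁻¹) ∣ 2 ^ k :=
      orderOf_dvd_of_pow_eq_one (congrArg Subtype.val hk)
    have h1 : orderOf (u * g * u⁻¹ * g⁻¹) = 1 :=
      Nat.eq_one_of_dvd_coprimes (Nat.Coprime.pow_left k ((Nat.coprime_two_left).mpr ho)) hd dvd_rfl
    rw [orderOf_eq_one_iff, mul_inv_eq_one, mul_inv_eq_iff_eq_mul] at h1
    rw [← h1, mul_inv_cancel_right]

end Cfsg.Agent.S0216
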