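import Cfsg.Statements.S0218
import Cfsg.Agent.Components.InvolutionCount
import Mathlib.GroupTheory.SpecificGroups.Quaternion

set_option autoImplicit false
open Cfsg

namespace Cfsg.Agent.S0218

/-- The generalized quaternion group of order 2^(n+3) contains exactly one element of order 2. -/
theorem result (n : ℕ) : Nat.card {x : QuaternionGroup (2 ^ (n + 1)) // orderOf x = 2} = 1 := by
  haveI : NeZero (2 ^ (n + 1)) := ⟨pow_ne_zero _ two_ne_zero⟩
  set m := 2 ^ (n + 1) with hm
  rw [Nat.card_eq_one_iff_unique]
  constructor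
  · constructor
    rintro ⟨x, hx⟩ ⟨y, hy⟩
    suffices ∀ z : QuaternionGroup m, orderOf z = 2 → z = QuaternionGroup.a (m : ZMod (2 * m)) from
      Subtype.ext ((this x hx).trans (this y hy).symm)
    rintro (i | i) hz
    · have h := Components.invol_mul_self hz
      rw [QuaternionGroup.a_mul_a, QuaternionGroup.one_def, QuaternionGroup.a.injEq] at h
      have hi : i ≠ 0 := fun h0 => Components.invol_ne_one hz (by rw [h0]; rfl)
      congr 1
      have h2 : ((i.val + i.val : ℕ) : ZMod (2 * m)) = 0 := by push_cast; simpa using h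
      rw [ZMod.natCast_eq_zero_iff] at h2
      have hlt := ZMod.val_lt i
      have hpos : 0 < i.val := Nat.pos_of_ne_zero fun h0 => hi ((ZMod.val_eq_zero i).mp h0)
      obtain ⟨c, hc⟩ := h2
      have : c = 1 := by
        have h1 : 0 < 2 * m * c := hc ▸ (by omega)
        have h3 : 2 * m * c < 2 * m * 2 := by omega
        have := Nat.lt_of_mul_lt_mul_left h3
        rcases Nat.eq_zero_or_pos c with h4 | h4
        · simp [h4] at h1
        · omega
      rw [this] at hc
      conv_lhs => rw [← ZMod.natCast_zmod_val i]
      rw [show i.val = m by omega]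
    · rw [QuaternionGroup.orderOf_xa] at hz
      omega
  · refine ⟨⟨QuaternionGroup.a (m : ZMod (2 * m)), Components.invol_of_mul_self ?_ ?_⟩⟩
    · rw [QuaternionGroup.a_mul_a, QuaternionGroup.one_def, ← Nat.cast_add, ← two_mul,
        ZMod.natCast_self]
    · rw [QuaternionGroup.one_def, Ne, QuaternionGroup.a.injEq, ZMod.natCast_eq_zero_iff]
      intro h
      have := Nat.le_of_dvd (Nat.pos_of_ne_zero (NeZero.ne m)) h
      have := Nat.pos_of_ne_zero (NeZero.ne m)
      omega

end Cfsg.Agent.S0218
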