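import Cfsg.Statements.S0220
import Mathlib.GroupTheory.Nilpotent
import Cfsg.Agent.Components.InvolutionFusion
import Cfsg.Agent.S0219

set_option autoImplicit false
open Cfsg

namespace Cfsg.Agent.S0220

/-- If x is an involution of a finite group G and a Sylow 2-subgroup of the centralizer of x is cyclic, then G has a subgroup of index 2; in particular G is not simple unless it has order 2. -/
theorem result {G : Type*} [Group G] [Finite G] (x : G) (hx : orderOf x = 2) (S : Sylow 2 ↥(Subgroup.centralizer ({x} : Set G))) (hS : IsCyclic (S : Subgroup ↥(Subgroup.centralizer ({x} : Set G)))) : ∃ H : Subgroup G, H.index = 2 := by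
  have heven : Even (Nat.card G) := even_iff_two_dvd.mpr (hx ▸ orderOf_dvd_natCard x)
  let C := Subgroup.centralizer ({x} : Set G)
  have hxC : x ∈ C := Components.mem_centralizer_singleton.mpr rfl
  have hxS : (⟨x, hxC⟩ : ↥C) ∈ (S : Subgroup ↥C) := by
    have hcen : (⟨x, hxC⟩ : ↥C) ∈ Subgroup.center ↥C :=
      Subgroup.mem_center_iff.mpr fun y => Subtype.ext (Components.mem_centralizer_singleton.mp y.2)
    have h2 : IsPGroup 2 ↥(Subgroup.zpowers (⟨x, hxC⟩ : ↥C)) :=
      IsPGroup.of_card (n := 1) (by rw [Nat.card_zpowers, Subgroup.orderOf_mk, hx, pow_one])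
    have hn : Subgroup.zpowers (⟨x, hxC⟩ : ↥C) ≤ Subgroup.normalizer ((S : Subgroup ↥C) : Set ↥C) :=
      (Subgroup.zpowers_le.mpr hcen).trans fun y hy => by
        rw [Subgroup.mem_normalizer_iff]
        intro z
        rw [← Subgroup.mem_center_iff.mp hy z, mul_inv_cancel_right]
    exact (S.3 (IsPGroup.to_sup_of_normal_right' h2 S.2 hn) le_sup_right).le
      (le_sup_left (b := (S : Subgroup ↥C)) (Subgroup.mem_zpowers _))
  set S' := (S : Subgroup ↥C).map C.subtype with hS'
  have hS'p : IsPGroup 2 ↥S' := S.2.map _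
  obtain ⟨T, hT⟩ := hS'p.exists_le_sylow
  haveI : IsCyclic ↥S' :=
    (MulEquiv.isCyclic ((S : Subgroup ↥C).equivMapOfInjective C.subtype C.subtype_injective)).mp hS
  have hxS' : x ∈ S' := ⟨_, hxS, rfl⟩
  -- the unique involution of S'
  have huniq : ∀ y ∈ S', orderOf y = 2 → y = x := by
    intro y hy hy2
    classical
    haveI := Fintype.ofFinite ↥S'
    have h2 : 2 ∣ Fintype.card ↥S' := by
      rw [← Nat.card_eq_fintype_card, ← hx, ← Subgroup.orderOf_mk x hxS']
      exact orderOf_dvd_natCard _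
    have hc := IsCyclic.card_orderOf_eq_totient (α := ↥S') h2
    rw [Nat.totient_two] at hc
    exact congrArg Subtype.val (Finset.card_le_one.mp hc.le ⟨y, hy⟩
      (Finset.mem_filter.mpr ⟨Finset.mem_univ _, by rw [Subgroup.orderOf_mk, hy2]⟩) ⟨x, hxS'⟩
      (Finset.mem_filter.mpr ⟨Finset.mem_univ _, by rw [Subgroup.orderOf_mk, hx]⟩))
  have hTS : (T : Subgroup G) = S' := by
    refine le_antisymm ?_ hT
    haveI := IsPGroup.isNilpotent T.2
    by_contra hne
    have hlt : S'.subgroupOf T < ⊤ :=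
      lt_top_iff_ne_top.mpr fun h => hne (Subgroup.subgroupOf_eq_top.mp h)
    obtain ⟨⟨g, hgT⟩, hgn, hgS⟩ :=
      SetLike.exists_of_lt (Group.normalizerCondition_of_isNilpotent (G := ↥(T : Subgroup G)) _ hlt)
    have hgx : g * x * g⁻¹ = x := huniq _
      ((Subgroup.mem_normalizer_iff.mp hgn ⟨x, hT hxS'⟩).mp hxS') (Components.invol_conj hx g)
    have hTC : IsPGroup 2 ↥((T : Subgroup G).subgroupOf C) :=
      T.2.comap_of_injective C.subtype C.subtype_injective
    have hSle : (S : Subgroup ↥C) ≤ (T : Subgroup G).subgroupOf C := fun y hy => hT ⟨y, hy, rfl⟩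
    have hgC : g ∈ C := Components.mem_centralizer_singleton.mpr (mul_inv_eq_iff_eq_mul.mp hgx)
    have hgS' : (⟨g, hgC⟩ : ↥C) ∈ (S : Subgroup ↥C) := (S.3 hTC hSle).le hgT
    exact hgS ⟨_, hgS', rfl⟩
  have hTc : IsCyclic (T : Subgroup G) := by
    rw [hTS]; infer_instance
  exact S0219.result heven T hTc

end Cfsg.Agent.S0220
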