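import Cfsg.Statements.S0221
import Cfsg.Agent.Components.NormalFour
import Cfsg.Agent.S0111

set_option autoImplicit false
open Cfsg

namespace Cfsg.Agent.S0221

/-- Let G be a finite group with no subgroup of index 2 whose 2-rank is at least 3 (it contains an elementary abelian subgroup of order 8). Then the centralizer of every involution of G also contains an elementary abelian subgroup of order 8. -/
theorem result {G : Type*} [Group G] [Finite G] (hno : ∀ H : Subgroup G, H.index ≠ 2) (hrank : ∃ E : Subgroup G, Nat.card E = 8 ∧ ∀ e ∈ E, e ^ 2 = 1) (x : G) (hx : orderOf x = 2) : ∃ E : Subgroup G, E ≤ Subgroup.centralizer ({x} : Set G) ∧ Nat.card E = 8 ∧ ∀ e ∈ E, e ^ 2 = 1 := by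
  haveI : Fact (Nat.Prime 2) := ⟨Nat.prime_two⟩
  obtain ⟨E, hE8, hE2⟩ := hrank
  obtain ⟨S, hES⟩ := (IsPGroup.of_card (p := 2) (n := 3) hE8 : IsPGroup 2 E).exists_le_sylow
  have hEc : ∀ a ∈ E, ∀ b ∈ E, a * b = b * a := fun a ha b hb => by
    have := hE2 _ (E.mul_mem ha hb)
    rw [pow_two] at this
    calc a * b = a * (a * b * (a * b)) * b := by rw [this, mul_one]
      _ = a ^ 2 * (b * a) * b ^ 2 := by simp only [pow_two, mul_assoc]
      _ = b * a := by rw [hE2 a ha, hE2 b hb, one_mul, mul_one]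
  have hEea : Cfsg.IsElementaryAbelian 2 E :=
    ⟨⟨⟨fun a b => Subtype.ext (hEc a a.2 b b.2)⟩⟩, hE2⟩
  have hE' : Cfsg.IsElementaryAbelian 2 (E.subgroupOf (S : Subgroup G)) :=
    Cfsg.Agent.PLocal.isEA_comap hEea _ (S : Subgroup G).subtype_injective
  obtain ⟨U', hUn, hUea, hUc⟩ := Cfsg.Agent.Components.exists_normal_ea S.2 hE' (by
    rw [Nat.card_congr (Subgroup.subgroupOfEquivOfLe hES).toEquiv, hE8]; norm_num)
  set U := U'.map (S : Subgroup G).subtype
  have hUS : U ≤ (S : Subgroup G) := Subgroup.map_subtype_le _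
  have hU : Cfsg.IsElementaryAbelian 2 U := Cfsg.Agent.PLocal.isEA_map hUea _
  have hU4 : Nat.card U = 4 := by rw [Cfsg.Agent.Core.card_map_subtype, hUc]; norm_num
  haveI := S.2.isNilpotent
  obtain ⟨z', hz', hz1, hzc⟩ := Cfsg.Agent.OddLocal.exists_ne_one_mem_center_of_normal U' (fun h => by
    rw [h, Subgroup.card_bot] at hUc; norm_num at hUc)
  set z : G := (z' : G)
  have hzU : z ∈ U := ⟨z', hz', rfl⟩
  have hz1' : z ≠ 1 := fun h => hz1 (Subtype.ext h)
  have hzs : ∀ s ∈ (S : Subgroup G), s * z * s⁻¹ = z := fun s hs => by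
    have := congrArg Subtype.val (Subgroup.mem_center_iff.mp hzc ⟨s, hs⟩)
    rw [show s * z = z * s from this, mul_inv_cancel_right]
  obtain ⟨u, huU, huz⟩ : ∃ u ∈ U, u ∉ Subgroup.zpowers z := by
    by_contra h
    push Not at h
    have h1 := Subgroup.card_le_of_le (h : U ≤ Subgroup.zpowers z)
    rw [Nat.card_zpowers, orderOf_eq_prime (hU.2 z hzU) hz1', hU4] at h1
    omega
  have hUgen : Subgroup.zpowers z ⊔ Subgroup.zpowers u = U := by
    refine Subgroup.eq_of_le_of_card_ge (sup_le (Subgroup.zpowers_le.mpr hzU) (Subgroup.zpowers_le.mpr huU)) ?_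
    rw [Cfsg.Agent.Components.ea_card_sup_zpowers hU (Subgroup.zpowers_le.mpr hzU) huU huz, Nat.card_zpowers,
      orderOf_eq_prime (hU.2 z hzU) hz1', hU4]
  set T := (S : Subgroup G) ⊓ Subgroup.centralizer (U : Set G)
  have hmemT : ∀ s ∈ (S : Subgroup G), s * u * s⁻¹ = u → s ∈ T := fun s hs h => by
    refine ⟨hs, Subgroup.mem_centralizer_iff.mpr fun y hy => ?_⟩
    have hle : U ≤ Subgroup.centralizer ({s} : Set G) := by
      rw [← hUgen]
      refine sup_le (Subgroup.zpowers_le.mpr ?_) (Subgroup.zpowers_le.mpr ?_) <;>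
        · rw [Subgroup.mem_centralizer_iff]
          intro w hw
          rw [Set.mem_singleton_iff.mp hw]
          first
            | exact mul_inv_eq_iff_eq_mul.mp (hzs s hs)
            | exact mul_inv_eq_iff_eq_mul.mp h
    exact (Subgroup.mem_centralizer_iff.mp (hle hy) s rfl).symm
  have hcases : ∀ s ∈ (S : Subgroup G), s * u * s⁻¹ = u ∨ s * u * s⁻¹ = z * u := by
    intro s hs
    obtain ⟨w', hw', hwe⟩ := huU
    have hmem : s * u * s⁻¹ ∈ U :=
      ⟨⟨s, hs⟩ * w' * ⟨s, hs⟩⁻¹, hUn.conj_mem w' hw' _, by rw [← hwe]; rfl⟩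
    rw [← hUgen] at hmem
    have huU' : u ∈ U := ⟨w', hw', hwe⟩
    obtain ⟨a, ha, b, hb, hab⟩ := Cfsg.Agent.Coprime.exists_mul_of_mem_sup (N := Subgroup.zpowers z)
      (A := Subgroup.zpowers u) (by
        rw [Subgroup.zpowers_le]
        refine Cfsg.Agent.Coprime.mem_normalizer_of_conj_mem fun y hy => ?_
        rw [Cfsg.Agent.PLocal.comm_of_EA hU huU' ((Subgroup.zpowers_le.mpr hzU) hy), mul_inv_cancel_right]
        exact hy) hmem
    have two : ∀ {x v : G}, x ^ 2 = 1 → v ∈ Subgroup.zpowers x → v = 1 ∨ v = x := by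
      rintro x v hx ⟨i, rfl⟩
      rcases Int.even_or_odd' i with ⟨l, rfl | rfl⟩
      · left; simp [zpow_mul, hx, zpow_ofNat]
      · right; simp [zpow_add, zpow_mul, hx, zpow_ofNat]
    rcases two (hU.2 z hzU) ha with rfl | rfl <;> rcases two (hU.2 u huU') hb with rfl | rfl
    · exfalso
      rw [one_mul] at hab
      refine huz (?_ : u ∈ _)
      have : u = 1 := by simpa using hab.symm
      rw [this]; exact one_mem _
    · left; rw [← hab, one_mul]
    · exfalso
      rw [mul_one] at hab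
      refine huz ?_
      have h1 : s * u * s⁻¹ = s * z * s⁻¹ := by rw [← hab, hzs s hs]
      rw [show u = z by simpa using h1]
      exact Subgroup.mem_zpowers z
    · right; exact hab.symm
  have hmk : ∀ W : Subgroup G, Cfsg.IsElementaryAbelian 2 W → ∀ t : G, t ^ 2 = 1 →
      t ∈ Subgroup.centralizer (W : Set G) → Cfsg.IsElementaryAbelian 2 (W ⊔ Subgroup.zpowers t) :=
    fun W hW t ht htc => Cfsg.Agent.PLocal.isEA_sup hW (Cfsg.Agent.PLocal.isEA_zpowers ht)
      (fun a ha b hb => (Subgroup.mem_centralizer_iff.mp ((Subgroup.zpowers_le.mpr htc) hb) a ha).symm)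
  obtain ⟨W, hW8, hWea, hUW⟩ : ∃ W : Subgroup G, Nat.card W = 8 ∧ Cfsg.IsElementaryAbelian 2 W ∧ U ≤ W := by
    by_cases hUE : ∀ e ∈ E, e ∈ T → e ∈ U
    · exfalso
      by_cases hEU : ∀ e ∈ E, e ∈ T
      · have hle : E ≤ U := fun e he => hUE e he (hEU e he)
        have := Subgroup.card_le_of_le hle
        omega
      push Not at hEU
      obtain ⟨e, he, heT⟩ := hEU
      have h2 : ∀ f ∈ E, f ∉ T → e * f ∈ T := by
        intro f hf hfT
        refine hmemT _ (S.toSubgroup.mul_mem (hES he) (hES hf)) ?_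
        have a1 : e * u * e⁻¹ = z * u := (hcases e (hES he)).resolve_left fun h => heT (hmemT e (hES he) h)
        have a2 : f * u * f⁻¹ = z * u := (hcases f (hES hf)).resolve_left fun h => hfT (hmemT f (hES hf) h)
        calc e * f * u * (e * f)⁻¹ = e * (f * u * f⁻¹) * e⁻¹ := by group
          _ = e * z * e⁻¹ * (e * u * e⁻¹) := by rw [a2]; group
          _ = z ^ 2 * u := by rw [hzs e (hES he), a1, pow_two, mul_assoc]
          _ = u := by rw [hU.2 z hzU, one_mul]
      have hcoverE : E ≤ (E ⊓ U) ⊔ Subgroup.zpowers e := fun f hf => by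
        by_cases hfT : f ∈ T
        · exact le_sup_left (b := Subgroup.zpowers e) ⟨hf, hUE f hf hfT⟩
        · rw [show f = e⁻¹ * (e * f) by group]
          exact mul_mem (le_sup_right (a := E ⊓ U) (inv_mem (Subgroup.mem_zpowers e)))
            (le_sup_left (b := Subgroup.zpowers e) ⟨E.mul_mem he hf, hUE _ (E.mul_mem he hf) (h2 f hf hfT)⟩)
      have hnot : e ∉ E ⊓ U := fun h => heT ⟨hES he, Subgroup.mem_centralizer_iff.mpr fun y hy =>
        Cfsg.Agent.PLocal.comm_of_EA hU hy h.2⟩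
      have h8 := Subgroup.card_le_of_le hcoverE
      rw [Cfsg.Agent.Components.ea_card_sup_zpowers hEea inf_le_left he hnot] at h8
      have hlt : Nat.card ↥(E ⊓ U) < 4 := by
        by_contra hge
        have heq := Subgroup.eq_of_le_of_card_ge (inf_le_right : E ⊓ U ≤ U) (by rw [hU4]; omega)
        exact heT ⟨hES he, Subgroup.mem_centralizer_iff.mpr fun y hy => hEc y (heq.ge hy).1 e he⟩
      omega
    push Not at hUE
    obtain ⟨e, he, heT, heU⟩ := hUE
    have hW := hmk U hU e (hE2 e he) heT.2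
    exact ⟨_, by rw [Cfsg.Agent.Components.ea_card_sup_zpowers hW le_sup_left
      (le_sup_right (a := U) (Subgroup.mem_zpowers e)) heU, hU4], hW, le_sup_left⟩
  have good : ∀ t ∈ T, t ^ 2 = 1 → ∃ F : Subgroup G, F ≤ Subgroup.centralizer ({t} : Set G) ∧
      Nat.card F = 8 ∧ ∀ e ∈ F, e ^ 2 = 1 := by
    intro t ht ht2
    have mkC : ∀ F : Subgroup G, Cfsg.IsElementaryAbelian 2 F → t ∈ F →
        F ≤ Subgroup.centralizer ({t} : Set G) := fun F hF htF =>
      Cfsg.Agent.Components.ea_le_centralizer hF htF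
    by_cases htU : t ∈ U
    · exact ⟨W, mkC W hWea (hUW htU), hW8, hWea.2⟩
    · have hF := hmk U hU t ht2 ht.2
      exact ⟨_, mkC _ hF (le_sup_right (a := U) (Subgroup.mem_zpowers t)),
        by rw [Cfsg.Agent.Components.ea_card_sup_zpowers hF le_sup_left
          (le_sup_right (a := U) (Subgroup.mem_zpowers t)) htU, hU4], hF.2⟩
  obtain ⟨g, hgT⟩ : ∃ g : G, g * x * g⁻¹ ∈ T := by
    obtain ⟨R, hR⟩ := (IsPGroup.of_card (p := 2) (n := 1) (by rw [Nat.card_zpowers, hx, pow_one]) :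
      IsPGroup 2 (Subgroup.zpowers x)).exists_le_sylow
    obtain ⟨h, hh⟩ := MulAction.exists_smul_eq G R S
    have hyS : h * x * h⁻¹ ∈ (S : Subgroup G) := by
      rw [← hh]; exact ⟨x, hR (Subgroup.mem_zpowers x), rfl⟩
    set y := h * x * h⁻¹ with hy
    by_cases hyT : y ∈ T
    · exact ⟨h, hyT⟩
    have hTi : T.relIndex (S : Subgroup G) = 2 := by
      refine Subgroup.relIndex_eq_two_iff.mpr ⟨y, hyS, fun b hb => ?_⟩
      have hb1 : b * y * u * (b * y)⁻¹ = b * z * b⁻¹ * (b * u * b⁻¹) := by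
        rw [show b * y * u * (b * y)⁻¹ = b * (y * u * y⁻¹) * b⁻¹ by group,
          (hcases y hyS).resolve_left fun h => hyT (hmemT y hyS h)]
        group
      rw [hzs b hb] at hb1
      by_cases hbT : b ∈ T
      · refine Or.inr ⟨hbT, fun hby => hyT ?_⟩
        have := T.mul_mem (T.inv_mem hbT) hby
        rwa [inv_mul_cancel_left] at this
      · refine Or.inl ⟨hmemT _ (S.toSubgroup.mul_mem hb hyS) ?_, hbT⟩
        rw [hb1, (hcases b hb).resolve_left fun h => hbT (hmemT b hb h), ← mul_assoc, ← pow_two, hU.2 z hzU, one_mul]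
    have hyo : orderOf y = 2 := by
      rw [hy, ← MulAut.conj_apply, MulEquiv.orderOf_eq]; exact hx
    rcases Cfsg.Agent.S0111.result S T inf_le_left hTi y hyo hyS hyT with ⟨M, -, hM, -⟩ | ⟨g, hg⟩
    · exact absurd hM (hno M)
    · exact ⟨g * h, by rwa [show g * h * x * (g * h)⁻¹ = g * (h * x * h⁻¹) * g⁻¹ by group]⟩
  have hx2 : x ^ 2 = 1 := hx ▸ pow_orderOf_eq_one x
  obtain ⟨F, hF, hF8, hF2⟩ := good _ hgT (by rw [conj_pow, hx2]; group)
  refine ⟨F.map (MulAut.conj g⁻¹).toMonoidHom, ?_, ?_, ?_⟩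
  · rintro _ ⟨f, hf, rfl⟩
    rw [Subgroup.mem_centralizer_iff]
    intro w hw
    rw [Set.mem_singleton_iff.mp hw]
    have := Subgroup.mem_centralizer_iff.mp (hF hf) _ rfl
    show x * (g⁻¹ * f * (g⁻¹)⁻¹) = g⁻¹ * f * (g⁻¹)⁻¹ * x
    calc x * (g⁻¹ * f * (g⁻¹)⁻¹) = g⁻¹ * (g * x * g⁻¹ * f) * g := by group
      _ = g⁻¹ * (f * (g * x * g⁻¹)) * g := by rw [this]
      _ = _ := by group
  · rw [Cfsg.Agent.Coprime.card_map_conj, hF8]
  · rintro _ ⟨f, hf, rfl⟩
    rw [← map_pow, hF2 f hf, map_one]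

end Cfsg.Agent.S0221
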