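import Cfsg.Statements.S0226
import Cfsg.Agent.Components.InvolutionCount

set_option autoImplicit false
open Cfsg

namespace Cfsg.Agent.S0226

/-- A finite group of even order has an odd number of involutions. -/
theorem result {G : Type*} [Group G] [Finite G] (heven : Even (Nat.card G)) : Odd (Nat.card {t : G // orderOf t = 2}) := by
  classical
  haveI := Fintype.ofFinite G
  set S := (Finset.univ : Finset G).filter (fun g => g * g ≠ 1) with hS
  have h0 : ((S.card : ℕ) : ZMod 2) = 0 := by
    rw [← mul_one ((S.card : ℕ) : ZMod 2), ← nsmul_eq_mul, ← Finset.sum_const]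
    refine Finset.sum_involution (fun a _ => a⁻¹) (fun a _ => by decide)
      (fun a ha _ h => (Finset.mem_filter.mp ha).2 (by nth_rw 1 [← h]; exact inv_mul_cancel a))
      (fun a ha => Finset.mem_filter.mpr ⟨Finset.mem_univ _, fun h => (Finset.mem_filter.mp ha).2 (by
        rw [← mul_inv_rev, inv_eq_one] at h; exact h)⟩)
      (fun a _ => inv_inv a)
  have hT : (Finset.univ : Finset G).filter (fun g => ¬ g * g ≠ 1) =
      insert 1 ((Finset.univ : Finset G).filter (fun g => orderOf g = 2)) := by
    ext g
    simp only [Finset.mem_filter, Finset.mem_univ, true_and, Finset.mem_insert, not_not]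
    constructor
    · intro h
      by_cases h1 : g = 1
      · exact Or.inl h1
      · exact Or.inr (Components.invol_of_mul_self h h1)
    · rintro (rfl | h)
      · exact one_mul 1
      · exact Components.invol_mul_self h
  have hsum := Finset.card_filter_add_card_filter_not (s := (Finset.univ : Finset G))
    (fun g => g * g ≠ 1)
  rw [hT, Finset.card_insert_of_notMem (by simp), Finset.card_univ, ← Nat.card_eq_fintype_card,
    ← hS] at hsum
  rw [Nat.card_eq_fintype_card (α := {t : G // orderOf t = 2}), Fintype.card_subtype,
    Nat.odd_iff]
  rw [ZMod.natCast_eq_zero_iff_even] at h0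
  rw [Nat.even_iff] at h0 heven
  omega

end Cfsg.Agent.S0226
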