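import Cfsg.Statements.S0228
import Cfsg.Agent.Components.InvolutionFusion
import Cfsg.Agent.Components.Embedding
import Mathlib.GroupTheory.SpecificGroups.Alternating

set_option autoImplicit false
open Cfsg

namespace Cfsg.Agent.S0228

/-- A group of order 12 in which no involution is central is isomorphic to the alternating group on four letters. -/
theorem result {G : Type*} [Group G] [Finite G] (hG : Nat.card G = 12) (hz : ∀ z : G, orderOf z = 2 → z ∉ Subgroup.center G) : Nonempty (G ≃* alternatingGroup (Fin 4)) := by
  have hzc := hz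
  clear hz
  haveI : Fact (Nat.Prime 3) := ⟨Nat.prime_three⟩
  obtain ⟨Q⟩ : Nonempty (Sylow 3 G) := inferInstance
  have hQc : Nat.card (Q : Subgroup G) = 3 := by
    rw [Q.card_eq_multiplicity, hG, show (12 : ℕ) = 3 ^ 1 * 4 from rfl,
      Nat.factorization_mul (by norm_num) (by norm_num), Finsupp.add_apply,
      Nat.factorization_pow_self Nat.prime_three, Nat.factorization_eq_zero_of_not_dvd (by norm_num)]
    norm_num
  have hn : Nat.card (Sylow 3 G) ∣ 4 := by
    have h1 := Q.card_dvd_index
    have h2 := (Q : Subgroup G).card_mul_index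
    rw [hQc, hG] at h2
    rwa [show (Q : Subgroup G).index = 4 by omega] at h1
  have hmod : Nat.card (Sylow 3 G) % 3 = 1 := by
    have := card_sylow_modEq_one 3 G
    rw [Nat.ModEq] at this
    simpa using this
  have hcases : Nat.card (Sylow 3 G) = 1 ∨ Nat.card (Sylow 3 G) = 4 := by
    have h4 : Nat.card (Sylow 3 G) ∈ Nat.divisors 4 := Nat.mem_divisors.mpr ⟨hn, by norm_num⟩
    rw [show Nat.divisors 4 = {1, 2, 4} from by decide] at h4
    simp only [Finset.mem_insert, Finset.mem_singleton] at h4
    rcases h4 with h | h | h <;> omega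
  rcases hcases with h1 | h4
  · -- the Sylow 3-subgroup is normal: there is a central involution
    exfalso
    haveI := (Nat.card_eq_one_iff_unique.mp h1).1
    haveI hQn : (Q : Subgroup G).Normal := Q.normal_of_subsingleton
    set K := Subgroup.centralizer ((Q : Subgroup G) : Set G) with hK
    haveI : Fact (Nat.Prime 2) := ⟨Nat.prime_two⟩
    obtain ⟨P⟩ : Nonempty (Sylow 2 G) := inferInstance
    have hPc : Nat.card (P : Subgroup G) = 4 := by
      rw [P.card_eq_multiplicity, hG, show (12 : ℕ) = 2 ^ 2 * 3 from rfl,
        Nat.factorization_mul (by norm_num) (by norm_num), Finsupp.add_apply,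
        Nat.factorization_pow_self Nat.prime_two, Nat.factorization_eq_zero_of_not_dvd (by norm_num)]
      norm_num
    have hPcomm : ∀ a ∈ (P : Subgroup G), ∀ b ∈ (P : Subgroup G), a * b = b * a := by
      intro a ha b hb
      have : IsMulCommutative (P : Subgroup G) :=
        IsPGroup.isMulCommutative_of_card_eq_prime_sq (p := 2) (by rw [hPc]; norm_num)
      exact congrArg Subtype.val (mul_comm' (⟨a, ha⟩ : (P : Subgroup G)) ⟨b, hb⟩)
    -- conjugation of Q by P has a nontrivial kernel
    let f : (P : Subgroup G) →* MulAut (Q : Subgroup G) := MulAut.conjNormal.comp (P : Subgroup G).subtype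
    have hker : f.ker ≠ ⊥ := by
      intro h
      have h2 := Nat.card_le_card_of_injective f ((MonoidHom.ker_eq_bot_iff f).mp h)
      have h3 : Nat.card (MulAut (Q : Subgroup G)) ≤ (Nat.card (Q : Subgroup G) - 1).factorial :=
        Components.card_mulAut_le_factorial _
      rw [hQc] at h3
      rw [hPc] at h2
      norm_num at h3
      omega
    haveI : Nontrivial ↥f.ker := (Subgroup.nontrivial_iff_ne_bot _).mpr hker
    have he : Even (Nat.card ↥f.ker) := by
      obtain ⟨k, hk⟩ := (P.2.to_subgroup f.ker).exists_card_eq
      rcases k with _ | k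
      · exact absurd (hk.trans (pow_zero 2)) Finite.one_lt_card.ne'
      · exact ⟨2 ^ k, by rw [hk]; ring⟩
    obtain ⟨⟨⟨z, hzP⟩, hzk⟩, hz⟩ := Components.exists_involution he
    rw [← Subgroup.orderOf_coe, ← Subgroup.orderOf_coe] at hz
    refine hzc z hz (Subgroup.mem_center_iff.mpr fun g => ?_)
    have hsup : (P : Subgroup G) ⊔ (Q : Subgroup G) = ⊤ := by
      apply Subgroup.eq_top_of_card_eq
      apply le_antisymm (Subgroup.card_le_card_group _)
      rw [hG]
      refine Nat.le_of_dvd Nat.card_pos ?_
      have a1 : 4 ∣ Nat.card ↥((P : Subgroup G) ⊔ (Q : Subgroup G)) :=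
        hPc ▸ Subgroup.card_dvd_of_le le_sup_left
      have a2 : 3 ∣ Nat.card ↥((P : Subgroup G) ⊔ (Q : Subgroup G)) :=
        hQc.symm.dvd.trans (Subgroup.card_dvd_of_le le_sup_right)
      exact Nat.Coprime.mul_dvd_of_dvd_of_dvd (by norm_num) a1 a2
    have hle : (P : Subgroup G) ⊔ (Q : Subgroup G) ≤ Subgroup.centralizer ({z} : Set G) := by
      refine sup_le (fun a ha => ?_) fun a ha => ?_
      · exact Components.mem_centralizer_singleton.mpr (hPcomm a ha z hzP)
      · have h := congrArg Subtype.val (DFunLike.congr_fun (MonoidHom.mem_ker.mp hzk) ⟨a, ha⟩)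
        simp only [f, MonoidHom.comp_apply, MulAut.conjNormal_apply, Subgroup.coe_subtype,
          MulAut.one_apply] at h
        exact Components.mem_centralizer_singleton.mpr (mul_inv_eq_iff_eq_mul.mp h).symm
    exact Components.mem_centralizer_singleton.mp (hle (by rw [hsup]; exact Subgroup.mem_top g))
  · -- four Sylow 3-subgroups
    let f : G →* Equiv.Perm (Sylow 3 G) := MulAction.toPermHom G (Sylow 3 G)
    have hnorm : ∀ P : Sylow 3 G, Subgroup.normalizer (P : Set G) = (P : Subgroup G) := by
      intro P
      have hPc : Nat.card (P : Subgroup G) = 3 :=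
        (P.card_eq_multiplicity.trans Q.card_eq_multiplicity.symm).trans hQc
      refine (Subgroup.eq_of_le_of_card_ge Subgroup.le_normalizer ?_).symm
      have h2 := (Subgroup.normalizer (P : Set G)).card_mul_index
      rw [← Sylow.card_eq_index_normalizer, h4, hG] at h2
      show Nat.card (Subgroup.normalizer (P : Set G)) ≤ _
      omega
    have hinj : Function.Injective f := by
      rw [injective_iff_map_eq_one]
      intro g hg
      have hmem : ∀ P : Sylow 3 G, g ∈ (P : Subgroup G) := fun P => by
        rw [← hnorm P, ← Sylow.smul_eq_iff_mem_normalizer]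
        exact Equiv.congr_fun hg P
      have hne : Nontrivial (Sylow 3 G) := Finite.one_lt_card_iff_nontrivial.mp (by omega)
      obtain ⟨P₁, P₂, h12⟩ := hne
      by_contra hg1
      apply h12
      apply Sylow.ext
      have hg3 : ∀ P : Sylow 3 G, Subgroup.zpowers g = (P : Subgroup G) := fun P => by
        refine Subgroup.eq_of_le_of_card_ge (Subgroup.zpowers_le.mpr (hmem P)) ?_
        rw [P.card_eq_multiplicity, ← Q.card_eq_multiplicity, hQc, Nat.card_zpowers]
        have h3 : orderOf g ∣ 3 := by
          have := Subgroup.orderOf_dvd_natCard _ (hmem P)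
          rwa [P.card_eq_multiplicity, ← Q.card_eq_multiplicity, hQc] at this
        rcases (Nat.dvd_prime Nat.prime_three).mp h3 with h | h
        · exact absurd (orderOf_eq_one_iff.mp h) hg1
        · omega
      rw [← hg3 P₁, ← hg3 P₂]
    classical
    haveI := Fintype.ofFinite (Sylow 3 G)
    have e : Sylow 3 G ≃ Fin 4 := Fintype.equivFinOfCardEq (by rw [← Nat.card_eq_fintype_card, h4])
    let f' : G →* Equiv.Perm (Fin 4) := e.permCongrHom.toMonoidHom.comp f
    have hinj' : Function.Injective f' := e.permCongrHom.injective.comp hinj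
    have hr : f'.range.index = 2 := by
      have h1 := f'.range.card_mul_index
      rw [Nat.card_congr (MonoidHom.ofInjective hinj').symm.toEquiv, hG] at h1
      rw [Nat.card_eq_fintype_card (α := Equiv.Perm (Fin 4)), Fintype.card_perm, Fintype.card_fin] at h1
      norm_num [Nat.factorial] at h1
      omega
    exact ⟨(MonoidHom.ofInjective hinj').trans
      (MulEquiv.subgroupCongr (Equiv.Perm.eq_alternatingGroup_of_index_eq_two hr))⟩

end Cfsg.Agent.S0228
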