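import Cfsg.Statements.S0229
import Cfsg.Agent.Components.InvolutionFusion

set_option autoImplicit false
open Cfsg

namespace Cfsg.Agent.S0229

/-- Let t be an involution of a Sylow 2-subgroup S of a finite group G, conjugate in G to no other element of S, and let s be an involution of G not conjugate to t. Then the order of st is twice an odd number. -/
theorem result {G : Type*} [Group G] [Finite G] (S : Sylow 2 G) (t : G) (ht : orderOf t = 2) (htS : t ∈ S) (hiso : ∀ g : G, g * t * g⁻¹ ∈ S → g * t * g⁻¹ = t) (s : G) (hs : orderOf s = 2) (hns : ¬ IsConj s t) : orderOf (s * t) % 4 = 2 := by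
  have he : Even (orderOf (t * s)) :=
    Nat.not_odd_iff_even.mp fun ho => hns (Components.isConj_of_odd ht hs ho).symm
  have hord : orderOf (s * t) = orderOf (t * s) := by
    rw [← orderOf_inv (t * s), Components.invol_mul_inv ht hs]
  rw [hord]
  obtain ⟨hz, hzx, -⟩ := Components.central_involution ht hs (orderOf_pos _).ne' he
  by_contra h
  have h4 : 4 ∣ orderOf (t * s) := by
    rw [Nat.even_iff] at he
    omega
  have hconj := (Components.isConj_mul_central ht hs he).1 h4
  have := Components.eq_of_isolated ht hiso hconj ((Commute.refl t).mul_right hzx.symm)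
  rw [mul_eq_left] at this
  exact Components.invol_ne_one hz this

end Cfsg.Agent.S0229
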