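import Cfsg.Statements.S0230
import Cfsg.Agent.Components.InvolutionFusion

set_option autoImplicit false
open Cfsg

namespace Cfsg.Agent.S0230

/-- Let G be a finite group with two non-conjugate involutions, and let t be an involution whose centralizer has maximal order among centralizers of involutions. Then |G| < |C_G(t)|^3. -/
theorem result {G : Type*} [Group G] [Finite G] (s t : G) (hs : orderOf s = 2) (ht : orderOf t = 2) (hnc : ¬ IsConj s t) (hmax : ∀ u : G, orderOf u = 2 → Nat.card (Subgroup.centralizer ({u} : Set G)) ≤ Nat.card (Subgroup.centralizer ({t} : Set G))) : Nat.card G < Nat.card (Subgroup.centralizer ({t} : Set G)) ^ 3 := by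
  classical
  set c := Nat.card (Subgroup.centralizer ({t} : Set G)) with hc
  have hc0 : 0 < c := Nat.card_pos
  have hz : ∀ s' : {u : G // IsConj s u}, ∃ z : G, orderOf z = 2 ∧ Commute z s'.1 ∧ Commute z t := by
    rintro ⟨s', hs'⟩
    obtain ⟨g, rfl⟩ := isConj_iff.mp hs'
    exact Components.exists_commute_both (Components.invol_conj hs g) ht
      fun h => hnc (hs'.trans h)
  choose z hz1 hz2 hz3 using hz
  let Z := {z : G // orderOf z = 2 ∧ Commute z t}
  let f : {u : G // IsConj s u} → Σ z : Z, Subgroup.centralizer ({z.1} : Set G) := fun s' =>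
    ⟨⟨z s', hz1 s', hz3 s'⟩, ⟨s'.1, Components.mem_centralizer_singleton.mpr (hz2 s').symm.eq⟩⟩
  have hf : Function.Injective f := fun a b h =>
    Subtype.ext (congrArg (fun p : Σ z : Z, Subgroup.centralizer ({z.1} : Set G) => (p.2 : G)) h)
  haveI := Fintype.ofFinite Z
  have h1 : Nat.card {u : G // IsConj s u} ≤ Nat.card Z * c := by
    refine (Nat.card_le_card_of_injective f hf).trans ?_
    rw [Nat.card_sigma]
    refine (Finset.sum_le_sum fun z _ => hmax z.1 z.2.1).trans ?_
    rw [Finset.sum_const, smul_eq_mul, Finset.card_univ, ← Nat.card_eq_fintype_card]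
  have h2 : Nat.card Z + 1 ≤ c := by
    rw [← Finite.card_option]
    refine Nat.card_le_card_of_injective (fun o : Option Z =>
      o.elim (1 : Subgroup.centralizer ({t} : Set G))
        fun z => ⟨z.1, Components.mem_centralizer_singleton.mpr z.2.2.eq⟩) ?_
    rintro (_ | a) (_ | b) h
    · rfl
    · exact absurd (congrArg Subtype.val h :).symm (Components.invol_ne_one b.2.1)
    · exact absurd (congrArg Subtype.val h :) (Components.invol_ne_one a.2.1)
    · exact congrArg some (Subtype.ext (congrArg Subtype.val h :))
  have h3 := Components.card_class_mul_centralizer s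
  have h4 := hmax s hs
  calc Nat.card G = _ := h3.symm
    _ ≤ (Nat.card Z * c) * c := Nat.mul_le_mul h1 h4
    _ < c * c * c := Nat.mul_lt_mul_of_pos_right (Nat.mul_lt_mul_of_pos_right (by omega) hc0) hc0
    _ = c ^ 3 := by ring

end Cfsg.Agent.S0230
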