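import Cfsg.Statements.S0231
import Cfsg.Agent.Components.InvolutionFusion

set_option autoImplicit false
open scoped Pointwise
open Cfsg

namespace Cfsg.Agent.S0231

/-- Let T be a Sylow 2-subgroup of the finite group G which is not normal and which intersects every other Sylow 2-subgroup trivially. Then G has a single conjugacy class of involutions. -/
theorem result {G : Type*} [Group G] [Finite G] (T : Sylow 2 G) (hnn : ¬ (T : Subgroup G).Normal) (hTI : ∀ g : G, MulAut.conj g • (T : Subgroup G) ≠ T → MulAut.conj g • (T : Subgroup G) ⊓ T = ⊥) (s t : G) (hs : orderOf s = 2) (ht : orderOf t = 2) : IsConj s t := by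
  by_contra hnc
  -- every involution lies in a unique Sylow 2-subgroup
  have hTI' : ∀ (P Q : Sylow 2 G) (a : G), a ≠ 1 → a ∈ P → a ∈ Q → P = Q := by
    intro P Q a ha hP hQ
    obtain ⟨g, hg⟩ := Components.exists_conj_mem T P
    obtain ⟨k, hk⟩ := MulAction.exists_smul_eq G T P
    obtain ⟨l, hl⟩ := MulAction.exists_smul_eq G T Q
    have hP' : (k⁻¹ * a * k) ∈ T := by
      rw [← hk] at hP
      obtain ⟨b, hb, hbe⟩ := Subgroup.mem_map.mp hP
      rw [← hbe]
      simpa [mul_assoc] using (show b ∈ T from hb)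
    have hQ' : a ∈ (MulAut.conj l • (T : Subgroup G) : Subgroup G) := by
      rw [← hl] at hQ; exact hQ
    by_contra hne
    have hne' : MulAut.conj (k⁻¹ * l) • (T : Subgroup G) ≠ T := fun h => hne (by
      rw [← hk, ← hl]
      apply Sylow.ext
      show MulAut.conj k • (T : Subgroup G) = MulAut.conj l • (T : Subgroup G)
      conv_lhs => rw [← h]
      rw [smul_smul, ← map_mul, mul_inv_cancel_left])
    have h := hTI _ hne'
    have hmem : k⁻¹ * a * k ∈ (⊥ : Subgroup G) := by
      rw [← h]
      refine ⟨?_, hP'⟩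
      obtain ⟨b, hb, hbe⟩ := Subgroup.mem_map.mp hQ'
      refine Subgroup.mem_map.mpr ⟨b, hb, ?_⟩
      rw [← hbe]
      simp [mul_assoc]
    rw [Subgroup.mem_bot] at hmem
    exact ha (by
      calc a = k * (k⁻¹ * a * k) * k⁻¹ := by group
        _ = 1 := by rw [hmem]; group)
  have hsame : ∀ (a b : G), orderOf a = 2 → orderOf b = 2 → ¬ IsConj a b →
      ∀ (P Q : Sylow 2 G), a ∈ P → b ∈ Q → P = Q := by
    intro a b ha hb hab P Q hP hQ
    obtain ⟨z, hz, hza, hzb⟩ := Components.exists_commute_both ha hb hab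
    obtain ⟨R, hR1, hR2⟩ := Components.exists_sylow_of_commute hz ha hza
    obtain ⟨R', hR1', hR2'⟩ := Components.exists_sylow_of_commute hz hb hzb
    rw [hTI' P R a (Components.invol_ne_one ha) hP hR2, hTI' Q R' b (Components.invol_ne_one hb) hQ hR2',
      hTI' R R' z (Components.invol_ne_one hz) hR1 hR1']
  obtain ⟨Ps, hPs, -⟩ := Components.exists_sylow_of_commute hs hs (Commute.refl s)
  obtain ⟨Pt, hPt, -⟩ := Components.exists_sylow_of_commute ht ht (Commute.refl t)
  obtain ⟨g, hg⟩ : ∃ g : G, g • Ps ≠ Ps := by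
    by_contra hall
    push Not at hall
    apply hnn
    refine Subgroup.normalizer_eq_top_iff.mp (eq_top_iff.mpr fun x _ => ?_)
    obtain ⟨k, hk⟩ := MulAction.exists_smul_eq G Ps T
    have h2 : x • T = T := by rw [← hk, smul_smul, hall, hall]
    exact Sylow.smul_eq_iff_mem_normalizer.mp h2
  have hu : g * s * g⁻¹ ∈ g • Ps := by
    rw [← SetLike.mem_coe, Sylow.smul_def]
    exact Subgroup.mem_map.mpr ⟨s, hPs, rfl⟩
  have hsu : IsConj s (g * s * g⁻¹) := isConj_iff.mpr ⟨g, rfl⟩
  by_cases hut : IsConj (g * s * g⁻¹) t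
  · exact hnc (hsu.trans hut)
  · have e1 := hsame _ t (Components.invol_conj hs g) ht hut _ _ hu hPt
    exact hg (e1.trans (hsame s t hs ht hnc _ _ hPs hPt).symm)

end Cfsg.Agent.S0231
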