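import Cfsg.Statements.S0232
import Cfsg.Agent.Components.BrauerFowler
import Mathlib.GroupTheory.SchurZassenhaus

set_option autoImplicit false
open Cfsg

namespace Cfsg.Agent.S0232

/-- A finite group G of even order greater than 2 has a proper subgroup H with |G| < |H|^3. -/
theorem result {G : Type*} [Group G] [Finite G] (heven : Even (Nat.card G)) (hgt : 2 < Nat.card G) : ∃ H : Subgroup G, H ≠ ⊤ ∧ Nat.card G < (Nat.card H) ^ 3 := by
  induction hn : Nat.card G using Nat.strong_induction_on generalizing G with
  | _ g ih =>
    subst hn
    rcases Nat.even_or_odd (Nat.card (Subgroup.center G)) with hz | hz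
    · obtain ⟨z, hz2⟩ := Components.exists_involution (G := Subgroup.center G) hz
      set Z := Subgroup.zpowers (z : G) with hZ
      have hZc : Nat.card Z = 2 := by rw [hZ, Nat.card_zpowers, Subgroup.orderOf_coe, hz2]
      haveI : Z.Normal := Subgroup.Normal.mk fun a ha b => by
        obtain ⟨i, rfl⟩ := ha
        have : (z : G) ^ i ∈ Subgroup.center G := zpow_mem z.2 i
        rw [Subgroup.mem_center_iff.mp this b, mul_inv_cancel_right]
        exact ⟨i, rfl⟩
      have hq := Subgroup.card_mul_index Z
      rw [hZc] at hq
      have hlt : Z.index < Nat.card G := by omega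
      rcases Nat.even_or_odd Z.index with hqe | hqo
      · by_cases hq2 : 2 < Z.index
        · rw [Subgroup.index_eq_card] at hqe hq2 hlt hq
          obtain ⟨K, hK, hKc⟩ := ih _ hlt hqe hq2 rfl
          refine ⟨K.comap (QuotientGroup.mk' Z), fun h => hK ?_, ?_⟩
          · exact Subgroup.comap_injective (QuotientGroup.mk'_surjective Z)
              (h.trans (Subgroup.comap_top _).symm)
          · have h1 := Subgroup.card_mul_index (K.comap (QuotientGroup.mk' Z))
            rw [Subgroup.index_comap_of_surjective _ (QuotientGroup.mk'_surjective Z)] at h1
            have h2 := Subgroup.card_mul_index K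
            have h3 : 0 < K.index := Nat.pos_of_ne_zero Subgroup.index_ne_zero_of_finite
            have h4 : Nat.card (K.comap (QuotientGroup.mk' Z)) = 2 * Nat.card K := by
              apply Nat.eq_of_mul_eq_mul_right h3
              rw [h1, ← hq, ← h2]
              ring
            rw [h4]
            nlinarith
        · have h2 : Z.index = 2 := by
            obtain ⟨j, hj⟩ := hqe
            have : Z.index ≠ 0 := Subgroup.index_ne_zero_of_finite
            omega
          refine ⟨Z, fun h => ?_, ?_⟩
          · simp [h] at h2
          · rw [hZc]; omega
      · have hcop : Nat.Coprime (Nat.card Z) Z.index := by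
          rw [hZc]; exact Nat.coprime_two_left.mpr hqo
        obtain ⟨H, hH⟩ := Subgroup.exists_right_complement'_of_coprime hcop
        have hHc := hH.card_mul
        rw [hZc] at hHc
        refine ⟨H, fun h => ?_, ?_⟩
        · rw [h, Subgroup.card_top] at hHc; omega
        · have h2 : 2 ≤ Nat.card H := by omega
          nlinarith [Nat.mul_le_mul h2 h2]
    · obtain ⟨t, ht⟩ := Components.exists_involution heven
      obtain ⟨H, hH, hcases⟩ := Components.brauer_fowler_index heven hz
      have hHm := Subgroup.card_mul_index H
      rcases hcases with h2 | h2
      · refine ⟨H, hH, ?_⟩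
        rw [h2] at hHm
        have : 2 ≤ Nat.card H := by omega
        nlinarith [Nat.mul_le_mul this this]
      · set C := Subgroup.centralizer ({t} : Set G)
        have hgn : Nat.card G ≤ Nat.card {t : G // orderOf t = 2} * Nat.card C := by
          rw [← Components.card_class_mul_centralizer t]
          exact Nat.mul_le_mul_right _ (Components.card_class_le_involutions ht)
        have hng : Nat.card {t : G // orderOf t = 2} ≤ Nat.card G := Finite.card_subtype_le _
        have hC : C ≠ ⊤ := fun h => by
          have h3 : t ∈ Subgroup.center G := Subgroup.mem_center_iff.mpr fun y =>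
            Components.mem_centralizer_singleton.mp (show y ∈ C by rw [h]; exact Subgroup.mem_top y)
          have h4 := orderOf_dvd_natCard (⟨t, h3⟩ : Subgroup.center G)
          rw [Subgroup.orderOf_mk, ht] at h4
          exact Nat.not_even_iff_odd.mpr hz (even_iff_two_dvd.mpr h4)
        set g := Nat.card G
        set n := Nat.card {t : G // orderOf t = 2}
        set c := Nat.card C with hc
        set h := Nat.card H with hh
        by_contra hno
        push Not at hno
        have a1 := hno C hC
        have a2 := hno H hH
        rw [← hc] at a1
        rw [← hh] at a2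
        -- h * c * c ≤ g
        have key : h * c * c ≤ g := by
          rcases le_total h c with hl | hl
          · calc h * c * c ≤ c * c * c := by gcongr
              _ = c ^ 3 := by ring
              _ ≤ g := a1
          · calc h * c * c ≤ h * h * h := by gcongr
              _ = h ^ 3 := by ring
              _ ≤ g := a2
        -- n²c² ≥ g², and g = h m, so 2g·g² ≤ 2 h m n² c² < g(g+n) h c² ≤ 2g²·g
        have s1 : 2 * g * (g * g) ≤ (h * c * c) * (2 * H.index * n ^ 2) := by
          calc 2 * g * (g * g) ≤ 2 * g * ((n * c) * (n * c)) := by gcongr
            _ = (h * c * c) * (2 * H.index * n ^ 2) := by rw [← hHm]; ring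
        have s2 : (h * c * c) * (2 * H.index * n ^ 2) < (h * c * c) * (g * (g + n)) :=
          Nat.mul_lt_mul_of_pos_left h2 (by
            have h5 : 0 < h := Nat.card_pos
            have h6 : 0 < c := Nat.card_pos
            positivity)
        have s3 : (h * c * c) * (g * (g + n)) ≤ g * (g * (g + g)) := by gcongr
        have s4 : g * (g * (g + g)) = 2 * g * (g * g) := by ring
        omega

end Cfsg.Agent.S0232
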