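import Cfsg.Statements.S0234
import Cfsg.Agent.Components.BrauerFowler
import Cfsg.Agent.S0219
import Cfsg.Agent.SmallOrder.Basic

set_option autoImplicit false
open Cfsg

namespace Cfsg.Agent.S0234

/-- In a finite simple group G of even order greater than 2, the number n of involutions satisfies 3n < |G|. -/
theorem result {G : Type*} [Group G] [Finite G] [IsSimpleGroup G] (heven : Even (Nat.card G)) (hgt : 2 < Nat.card G) : 3 * Nat.card {t : G // orderOf t = 2} < Nat.card G := by
  classical
  set g := Nat.card G with hg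
  set n := Nat.card {t : G // orderOf t = 2} with hn
  by_contra hno
  push Not at hno
  have hna : ¬ IsMulCommutative G := fun hc => by
    have := SmallOrder.prime_card_of_comm hc
    rw [← hg] at this
    rcases (Nat.Prime.eq_two_or_odd this) with h | h
    · omega
    · rw [Nat.even_iff] at heven; omega
  have hcen : Subgroup.center G = ⊥ :=
    (inferInstance : (Subgroup.center G).Normal).eq_bot_or_eq_top.resolve_right fun h =>
      hna (Subgroup.center_eq_top_iff.mp h)
  obtain ⟨H, hH, hcases⟩ := Components.brauer_fowler_index heven (by simp [hcen])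
  have hm5 : H.index ≤ 5 := by
    rcases hcases with h2 | h2
    · omega
    · rw [← hg, ← hn] at h2
      by_contra hlt
      have h6 : 12 * n ^ 2 ≤ 2 * H.index * n ^ 2 := Nat.mul_le_mul_right _ (by omega)
      nlinarith [Nat.mul_le_mul hno (Nat.add_le_add_right hno n)]
  have hm0 : H.index ≠ 0 := Subgroup.index_ne_zero_of_finite
  obtain ⟨f₀, hf₀⟩ := SmallOrder.embeds_alternating hna H hH
  let ι : alternatingGroup (Fin H.index) →* Equiv.Perm (Fin 5) :=
    (Equiv.Perm.viaEmbeddingHom (Fin.castLEEmb hm5)).comp (alternatingGroup (Fin H.index)).subtype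
  have hι : Function.Injective ι :=
    (Equiv.Perm.viaEmbeddingHom_injective _).comp Subtype.val_injective
  let f := ι.comp f₀
  have hf : Function.Injective f := hι.comp hf₀
  have hsign : ∀ x, Equiv.Perm.sign (f x) = 1 := fun x => SmallOrder.sign_eq_one hna f x
  have hdvd : g ∣ 60 := by
    let f5 : G →* alternatingGroup (Fin 5) := f.codRestrict _ fun x => Equiv.Perm.mem_alternatingGroup.mpr (hsign x)
    have := Subgroup.card_dvd_of_injective f5 fun a b h => hf (congrArg Subtype.val h)
    rwa [Nat.card_eq_fintype_card (α := alternatingGroup (Fin 5)),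
      show Fintype.card (alternatingGroup (Fin 5)) = 60 from by decide +kernel] at this
  have hn15 : n ≤ 15 := by
    refine (Nat.card_le_card_of_injective
      (fun t : {t : G // orderOf t = 2} => (⟨f t.1, ?_, ?_⟩ : {p : Equiv.Perm (Fin 5) // (p ^ 2 = 1 ∧ p ≠ 1) ∧ Equiv.Perm.sign p = 1})) ?_).trans ?_
    · exact ⟨by rw [← map_pow, (sq t.1).trans (Components.invol_mul_self t.2), map_one], fun h =>
        Components.invol_ne_one t.2 (hf (h.trans (map_one f).symm))⟩
    · exact hsign t.1
    · exact fun a b h => Subtype.ext (hf (congrArg Subtype.val h :))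
    · rw [Nat.card_eq_fintype_card]; decide +kernel
  have hgle : g ≤ 45 := by omega
  -- a simple group of even order at most 45 dividing 60
  have h4 : 4 ∣ g := by
    by_contra h4
    obtain ⟨T⟩ : Nonempty (Sylow 2 G) := inferInstance
    have hcard : Nat.card (T : Subgroup G) = 2 := by
      haveI : Fact (Nat.Prime 2) := ⟨Nat.prime_two⟩
      obtain ⟨m, hm⟩ := even_iff_two_dvd.mp heven
      exact (SmallOrder.sylow_arith T (a := 1) (m := m) (by rw [pow_one, ← hm])
        (fun ⟨c, hc⟩ => h4 ⟨c, by omega⟩)).1
    haveI : Fact (Nat.Prime 2) := ⟨Nat.prime_two⟩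
    obtain ⟨K, hK⟩ := S0219.result heven T (isCyclic_of_prime_card hcard)
    rcases (Subgroup.normal_of_index_eq_two hK).eq_bot_or_eq_top with h | h
    · rw [h, Subgroup.index_bot] at hK; omega
    · simp [h] at hK
  have hlist : g = 4 ∨ g = 12 ∨ g = 20 := by
    obtain ⟨c, hc⟩ := h4
    rw [hc] at hdvd
    have : c ∣ 15 := Nat.dvd_of_mul_dvd_mul_left (by norm_num : 0 < 4) hdvd
    have hc' : c ∈ Nat.divisors 15 := Nat.mem_divisors.mpr ⟨this, by norm_num⟩
    rw [show Nat.divisors 15 = {1, 3, 5, 15} from by decide] at hc'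
    simp only [Finset.mem_insert, Finset.mem_singleton] at hc'
    omega
  rcases hlist with h | h | h
  · haveI : Fact (Nat.Prime 2) := ⟨Nat.prime_two⟩
    exact hna (IsPGroup.isMulCommutative_of_card_eq_prime_sq (p := 2) (by rw [← hg, h]; norm_num))
  · haveI : Fact (Nat.Prime 3) := ⟨Nat.prime_three⟩
    obtain ⟨P⟩ : Nonempty (Sylow 3 G) := inferInstance
    obtain ⟨hP, -, hd, hmod⟩ := SmallOrder.sylow_arith P (a := 1) (m := 4) (by rw [← hg, h]; norm_num) (by norm_num)
    have h1 := SmallOrder.card_sylow_ne_one (p := 3) hna (by rw [← hg, h]; norm_num)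
    have hd' : Nat.card (Sylow 3 G) ∈ Nat.divisors 4 := Nat.mem_divisors.mpr ⟨hd, by norm_num⟩
    rw [show Nat.divisors 4 = {1, 2, 4} from by decide] at hd'
    simp only [Finset.mem_insert, Finset.mem_singleton] at hd'
    have h4' : Nat.card (Sylow 3 G) = 4 := by omega
    apply SmallOrder.not_normalizer_le_centralizer hna (by rw [← hg, h]; norm_num) P
    have hN : Subgroup.normalizer (P : Set G) = (P : Subgroup G) := by
      refine (Subgroup.eq_of_le_of_card_ge Subgroup.le_normalizer ?_).symm
      have h2 := (Subgroup.normalizer (P : Set G)).card_mul_index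
      rw [← Sylow.card_eq_index_normalizer, h4', ← hg, h] at h2
      rw [hP, pow_one]
      show Nat.card (Subgroup.normalizer (P : Set G)) ≤ _
      omega
    refine le_trans (le_of_eq hN) ?_
    haveI : IsCyclic (P : Subgroup G) := isCyclic_of_prime_card (hP.trans (pow_one 3))
    open scoped IsMulCommutative in exact Subgroup.le_centralizer _
  · haveI : Fact (Nat.Prime 5) := ⟨Nat.prime_five⟩
    obtain ⟨P⟩ : Nonempty (Sylow 5 G) := inferInstance
    obtain ⟨-, -, hd, hmod⟩ := SmallOrder.sylow_arith P (a := 1) (m := 4) (by rw [← hg, h]; norm_num) (by norm_num)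
    have h1 := SmallOrder.card_sylow_ne_one (p := 5) hna (by rw [← hg, h]; norm_num)
    have := Nat.le_of_dvd (by norm_num) hd
    omega

end Cfsg.Agent.S0234
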