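import Cfsg.Statements.S0239
import Cfsg.Agent.Components.InvolutionCount

set_option autoImplicit false
open Cfsg

namespace Cfsg.Agent.S0239

/-- If some nontrivial element x of a finite group G is conjugate to x⁻¹, then |G| is even. -/
theorem result {G : Type*} [Group G] [Finite G] (x : G) (hx : x ≠ 1) (hreal : IsConj x x⁻¹) : Even (Nat.card G) := by
  by_contra hodd
  rw [Nat.not_even_iff_odd] at hodd
  obtain ⟨g, hg⟩ := isConj_iff.mp hreal
  have hg2 : g ^ 2 ∈ Subgroup.centralizer ({x} : Set G) := by
    rw [Components.mem_centralizer_singleton]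
    have e1 := mul_inv_eq_iff_eq_mul.mp hg
    have e2 : g * x⁻¹ = x * g := by
      have := congrArg (·⁻¹) hg
      simp only [inv_inv, conj_inv] at this
      exact mul_inv_eq_iff_eq_mul.mp this
    rw [sq, mul_assoc, e1, ← mul_assoc, e2, mul_assoc]
  have hgC : g ∈ Subgroup.centralizer ({x} : Set G) := by
    obtain ⟨k, hk⟩ := Odd.of_dvd_nat hodd (orderOf_dvd_natCard g)
    have : g = (g ^ 2) ^ (k + 1) := by
      rw [← pow_mul, show 2 * (k + 1) = (2 * k + 1) + 1 by ring, pow_succ, ← hk,
        pow_orderOf_eq_one, one_mul]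
    rw [this]
    exact pow_mem hg2 _
  rw [Components.mem_centralizer_singleton.mp hgC, mul_inv_cancel_right] at hg
  have h2 : orderOf x ∣ 2 := orderOf_dvd_of_pow_eq_one (by rw [sq]; nth_rw 1 [hg]; exact inv_mul_cancel x)
  rcases (Nat.dvd_prime Nat.prime_two).mp h2 with h | h
  · exact hx (orderOf_eq_one_iff.mp h)
  · have := Odd.of_dvd_nat hodd (orderOf_dvd_natCard x)
    rw [h] at this
    exact absurd this (by decide)

end Cfsg.Agent.S0239
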