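import Cfsg.Statements.S0240
import Cfsg.Agent.Components.InvolutionCount

set_option autoImplicit false
open Cfsg

namespace Cfsg.Agent.S0240

/-- Let G be a finite group with n involutions and H a subgroup with |H|·(n+1) > |G|. Then some nontrivial h ∈ H is strongly real in G: an involution t of G satisfies t h t⁻¹ = h⁻¹. -/
theorem result {G : Type*} [Group G] [Finite G] (H : Subgroup G) (hH : Nat.card G < Nat.card H * (Nat.card {t : G // orderOf t = 2} + 1)) : ∃ h : G, h ∈ H ∧ h ≠ 1 ∧ ∃ t : G, orderOf t = 2 ∧ t * h * t⁻¹ = h⁻¹ := by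
  classical
  have hninj : ¬ Function.Injective (fun p : H × Option {t : G // orderOf t = 2} =>
      (p.1 : G) * p.2.elim 1 (·.1)) := fun hinj => by
    have := Nat.card_le_card_of_injective _ hinj
    rw [Nat.card_prod, Finite.card_option] at this
    omega
  simp only [Function.Injective, not_forall] at hninj
  obtain ⟨⟨h1, o1⟩, ⟨h2, o2⟩, he, hne⟩ := hninj
  simp only at he
  have hval : ∀ o : Option {t : G // orderOf t = 2}, (o.elim 1 (·.1) : G) * o.elim 1 (·.1) = 1 := by
    rintro (_ | t)
    · exact one_mul 1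
    · exact Components.invol_mul_self t.2
  have hinj' : ∀ o o' : Option {t : G // orderOf t = 2},
      (o.elim 1 (·.1) : G) = o'.elim 1 (·.1) → o = o' := by
    rintro (_ | t) (_ | t') h
    · rfl
    · exact absurd h.symm (Components.invol_ne_one t'.2)
    · exact absurd h (Components.invol_ne_one t.2)
    · exact congrArg some (Subtype.ext h)
  set a := (o1.elim 1 (·.1) : G) with ha
  set b := (o2.elim 1 (·.1) : G) with hb
  have hainv : a⁻¹ = a := inv_eq_of_mul_eq_one_right (hval o1)
  have hbinv : b⁻¹ = b := inv_eq_of_mul_eq_one_right (hval o2)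
  have key : ((h2⁻¹ * h1 : H) : G) = b * a := by
    rw [Subgroup.coe_mul, Subgroup.coe_inv, inv_mul_eq_iff_eq_mul, ← mul_assoc, ← he, mul_assoc,
      hval o1, mul_one]
  have hk1 : b * a ≠ 1 := by
    intro h
    have hab : b = a := by rw [eq_inv_of_mul_eq_one_left h, hainv]
    have h12 : h2⁻¹ * h1 = 1 := Subtype.ext (by rw [key, h]; rfl)
    exact hne (Prod.ext (inv_mul_eq_one.mp h12).symm (hinj' o1 o2 hab.symm))
  refine ⟨b * a, key ▸ (h2⁻¹ * h1).2, hk1, ?_⟩
  cases o2 with
  | some t =>
    refine ⟨t.1, t.2, ?_⟩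
    show b * (b * a) * b⁻¹ = (b * a)⁻¹
    rw [mul_inv_rev, hainv, hbinv, ← mul_assoc, hval (some t), one_mul]
  | none =>
    have hb1 : b = 1 := rfl
    cases o1 with
    | none => exact absurd (by rw [hb1, one_mul]; rfl) hk1
    | some t =>
      refine ⟨t.1, t.2, ?_⟩
      show a * (b * a) * a⁻¹ = (b * a)⁻¹
      rw [hb1, one_mul, mul_inv_cancel_right, hainv]

end Cfsg.Agent.S0240
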