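import Cfsg.Statements.S0241
import Cfsg.Agent.Components.InvolutionCount

set_option autoImplicit false
open Cfsg

namespace Cfsg.Agent.S0241

/-- If x ≠ 1 is conjugate to x⁻¹ in a finite group G and |C_G(x)| is odd, then some involution t satisfies t x t⁻¹ = x⁻¹. -/
theorem result {G : Type*} [Group G] [Finite G] (x : G) (hx : x ≠ 1) (hreal : IsConj x x⁻¹) (hodd : Odd (Nat.card (Subgroup.centralizer ({x} : Set G)))) : ∃ t : G, orderOf t = 2 ∧ t * x * t⁻¹ = x⁻¹ := by
  obtain ⟨g, hg⟩ := isConj_iff.mp hreal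
  have e1 := mul_inv_eq_iff_eq_mul.mp hg
  have e2 : g * x⁻¹ = x * g := by
    have := congrArg (·⁻¹) hg
    simp only [inv_inv, conj_inv] at this
    exact mul_inv_eq_iff_eq_mul.mp this
  have hg2 : g ^ 2 ∈ Subgroup.centralizer ({x} : Set G) := by
    rw [Components.mem_centralizer_singleton, sq, mul_assoc, e1, ← mul_assoc, e2, mul_assoc]
  set c := Nat.card (Subgroup.centralizer ({x} : Set G)) with hc
  have hc1 : (g ^ c) ^ 2 = 1 := by
    rw [← pow_mul, mul_comm, pow_mul]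
    have := pow_card_eq_one' (x := (⟨g ^ 2, hg2⟩ : Subgroup.centralizer ({x} : Set G)))
    exact congrArg Subtype.val this
  have hinv : g ^ c * x * (g ^ c)⁻¹ = x⁻¹ := by
    obtain ⟨k, hk⟩ := hodd
    have h2 : (g ^ 2) ^ k * x = x * (g ^ 2) ^ k :=
      Components.mem_centralizer_singleton.mp (pow_mem hg2 k)
    rw [hk, pow_succ', pow_mul]
    calc g * (g ^ 2) ^ k * x * (g * (g ^ 2) ^ k)⁻¹
        = g * ((g ^ 2) ^ k * x) * ((g ^ 2) ^ k)⁻¹ * g⁻¹ := by group
      _ = g * (x * (g ^ 2) ^ k) * ((g ^ 2) ^ k)⁻¹ * g⁻¹ := by rw [h2]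
      _ = g * x * g⁻¹ := by group
      _ = x⁻¹ := hg
  have hx2 : x⁻¹ ≠ x := by
    intro h
    have h2 : orderOf x = 2 := Components.invol_of_mul_self (by nth_rw 1 [← h]; exact inv_mul_cancel x) hx
    have h3 := orderOf_dvd_natCard (⟨x, Components.mem_centralizer_singleton.mpr rfl⟩ :
      Subgroup.centralizer ({x} : Set G))
    rw [Subgroup.orderOf_mk, h2] at h3
    exact Nat.not_even_iff_odd.mpr hodd (even_iff_two_dvd.mpr h3)
  refine ⟨g ^ c, Components.invol_of_mul_self (by rw [← sq]; exact hc1) fun h => hx2 ?_, hinv⟩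
  rw [h, one_mul, inv_one, mul_one] at hinv
  exact hinv.symm

end Cfsg.Agent.S0241
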