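import Cfsg.Statements.S0256
import Cfsg.Agent.Linear.IsoA8
-- import your own Cfsg.Agent.* helpers here

set_option autoImplicit false
open Cfsg

namespace Cfsg.Agent.S0256

/-- PSL_4(2) is isomorphic to A_8. -/
theorem result {F : Type*} [Field F] [Fintype F] (hF : Fintype.card F = 2) : Nonempty (Matrix.ProjectiveSpecialLinearGroup (Fin 4) F ≃* alternatingGroup (Fin 8)) := by
  exact Cfsg.Agent.Linear.PSL4_two_iso hF

end Cfsg.Agent.S0256
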