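import Cfsg.Statements.S0274
import Cfsg.Agent.Dickson.Main

set_option autoImplicit false
open Cfsg

namespace Cfsg.Agent.S0274

/-- Dickson's Theorem for SL_2: if p is odd and H is a subgroup of SL_2(q), q a power of p, with more than one Sylow p-subgroup, then H contains a copy of SL_2(p). -/
theorem result {F : Type*} [Field F] [Fintype F] (p : ℕ) [Fact p.Prime] [CharP F p] (hp : p ≠ 2) (H : Subgroup (Matrix.SpecialLinearGroup (Fin 2) F)) (hH : 1 < Nat.card (Sylow p H)) : ∃ K : Subgroup (Matrix.SpecialLinearGroup (Fin 2) F), K ≤ H ∧ Nonempty (K ≃* Matrix.SpecialLinearGroup (Fin 2) (ZMod p)) := by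
  haveI : Fintype (Matrix.SpecialLinearGroup (Fin 2) F) := Fintype.ofFinite _
  obtain ⟨f, hf, hle⟩ := Cfsg.Agent.Dickson.exists_sl2_embedding hp H hH
  exact ⟨f.range, hle, ⟨(MonoidHom.ofInjective hf).symm⟩⟩

end Cfsg.Agent.S0274
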