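import Cfsg.Statements.S0276
import Cfsg.Agent.Linear.SylowSL2
-- import your own Cfsg.Agent.* helpers here

set_option autoImplicit false
open Cfsg

namespace Cfsg.Agent.S0276

/-- For q = 3 or 5 mod 8 the Sylow 2-subgroups of PSL_2(q) are elementary abelian of order 4. -/
theorem result {F : Type*} [Field F] [Fintype F] {q : ℕ} (hF : Fintype.card F = q) (hq : q % 8 = 3 ∨ q % 8 = 5) (P : Sylow 2 (Matrix.ProjectiveSpecialLinearGroup (Fin 2) F)) : IsKleinFour (P : Subgroup (Matrix.ProjectiveSpecialLinearGroup (Fin 2) F)) := by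
  subst hF
  obtain ⟨p, hp⟩ := CharP.exists F
  obtain ⟨n, hpp, hn⟩ := FiniteField.card F p
  have : Fact p.Prime := ⟨hpp⟩
  refine Cfsg.Agent.Linear.sylow_two_PSL2_four p ?_ hq P
  rintro rfl
  have h2 : 2 ∣ Fintype.card F := hn ▸ dvd_pow_self 2 n.ne_zero
  omega

end Cfsg.Agent.S0276
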