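import Cfsg.Statements.S0281
import Cfsg.Agent.Linear.SU2

set_option autoImplicit false
open Cfsg

namespace Cfsg.Agent.S0281

/-- SU_2(q) is isomorphic to SL_2(q). -/
theorem result {F K : Type*} [Field F] [Fintype F] [Field K] [Fintype K] {q : ℕ} (hF : Fintype.card F = q ^ 2) (hK : Fintype.card K = q) : Nonempty (Cfsg.SU 2 F q ≃* Matrix.SpecialLinearGroup (Fin 2) K) := by
  classical
  obtain ⟨e⟩ := Cfsg.Agent.Linear.nonempty_SU2_equiv_fixedQ hF
  have hc : Fintype.card (Cfsg.Agent.Linear.fixedQ hF) = Fintype.card K := by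
    rw [← Nat.card_eq_fintype_card, Cfsg.Agent.Linear.card_fixedQ, hK]
  let r := FiniteField.ringEquivOfCardEq hc
  refine ⟨e.trans (MonoidHom.toMulEquiv
    (Matrix.SpecialLinearGroup.map (r : Cfsg.Agent.Linear.fixedQ hF →+* K))
    (Matrix.SpecialLinearGroup.map (r.symm : K →+* Cfsg.Agent.Linear.fixedQ hF)) ?_ ?_)⟩ <;>
  · apply MonoidHom.ext
    intro x
    ext i j
    simp

end Cfsg.Agent.S0281
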