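import Cfsg.Statements.S0284
import Cfsg.Agent.Forms.HermOrder

set_option autoImplicit false
open Cfsg

namespace Cfsg.Agent.S0284

/-- The standard Hermitian form on F^n, |F| = q^2, has exactly q^(n-1) (q^n - (-1)^n) vectors of norm 1. -/
theorem result {F : Type*} [Field F] [Fintype F] {q : ℕ} (hF : Fintype.card F = q ^ 2) (n : ℕ) : Nat.card {v : Fin n → F // Cfsg.hermForm n F q v v = 1} = (if Even n then q ^ (n - 1) * (q ^ n - 1) else q ^ (n - 1) * (q ^ n + 1)) := by
  have hq := Forms.two_le_q hF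
  obtain ⟨he, ho⟩ := (Forms.isHerm_std (n := n) hF).card_levels hF
  rw [Module.finrank_fin_fun] at he ho
  have hiff : Nat.card {v : Fin n → F // Cfsg.hermForm n F q v v = 1} =
      Nat.card {x : Fin n → F // Forms.hermB n hF x x = 1} := Nat.card_congr (Equiv.refl _)
  rw [hiff]
  rcases Nat.eq_zero_or_pos n with rfl | hn
  · have : IsEmpty {x : Fin 0 → F // Forms.hermB 0 hF x x = 1} :=
      ⟨fun x => by simpa [Cfsg.hermForm] using x.2⟩
    rw [Nat.card_of_isEmpty]
    simp
  obtain ⟨k, rfl⟩ : ∃ k, n = k + 1 := ⟨n - 1, by omega⟩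
  apply Nat.eq_of_mul_eq_mul_left (show 0 < q by omega)
  obtain ⟨A, hA⟩ : ∃ A, q ^ (k + 1) = A + 1 :=
    ⟨q ^ (k + 1) - 1, by have := Nat.one_le_pow (k + 1) q (by omega); omega⟩
  split_ifs with hev
  · have h2 := (he hev).1
    rw [two_mul, pow_add q (k + 1) (k + 1), hA] at h2
    rw [hA, Nat.add_sub_cancel, ← mul_assoc, Nat.add_sub_cancel, ← pow_succ', hA]
    linear_combination h2
  · rw [(ho (Nat.not_even_iff_odd.1 hev)).1, Nat.add_sub_cancel]
    ring

end Cfsg.Agent.S0284
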