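import Cfsg.Statements.S0291
import Cfsg.Agent.Forms.QuadOrder

set_option autoImplicit false
open Cfsg

namespace Cfsg.Agent.S0291

/-- For q odd, the form x_0^2 + sum_{i<m} x_i y_i on F^(2m+1) has exactly q^(2m) zeros. -/
theorem result {F : Type*} [Field F] [Fintype F] {q : ℕ} (hF : Fintype.card F = q) (hodd : Odd q) (m : ℕ) : Nat.card {v : Unit ⊕ (Fin m ⊕ Fin m) → F // Cfsg.quadFormOdd m F v = 0} = q ^ (2 * m) := by
  have h2 : (2 : F) ≠ 0 := fun h2 => by
    have h1 : CharP F 2 := CharTwo.of_one_ne_zero_of_two_eq_zero one_ne_zero h2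
    exact (Nat.not_even_iff_odd.2 hodd)
      (hF ▸ (Nat.even_iff.2 (FiniteField.even_card_of_char_two (ringChar.eq F 2))))
  rcases Forms.quadType_odd m hF h2 with h | h | h
  · exact absurd h.1 one_ne_zero
  · exact h.2.1
  · exact absurd h.1 (by norm_num)

end Cfsg.Agent.S0291
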