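import Cfsg.Statements.S0301
import Cfsg.Agent.Linear.POmega5

set_option autoImplicit false
open Cfsg

namespace Cfsg.Agent.S0301

/-- PΩ_5(q) is isomorphic to PSp_4(q) for q odd. -/
theorem result {F : Type*} [Field F] [Fintype F] (hodd : Odd (Fintype.card F)) : Nonempty (Cfsg.POmega F (Cfsg.quadFormOdd 2 F) ≃* Cfsg.PSp 2 F) := by
  classical
  refine Cfsg.Agent.Linear.pomega_five fun h => ?_
  have h2 : ringChar F = 2 :=
    (CharP.ringChar_of_prime_eq_zero Nat.prime_two (by exact_mod_cast h))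
  exact (Nat.not_even_iff_odd.2 hodd) (Nat.even_iff.2 (FiniteField.even_card_iff_char_two.1 h2))

end Cfsg.Agent.S0301
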