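import Cfsg.Statements.S0308
import Cfsg.Agent.Suzuki.BNParabolic

set_option autoImplicit false
open Cfsg

namespace Cfsg.Agent.S0308

/-- Bruhat decomposition, existence part: every element of a group with a (B,N)-pair lies in some double
coset `B n B` with `n ∈ N`. -/
theorem result {G : Type*} [Group G] (P : Cfsg.BNPair G) (g : G) :
    ∃ n ∈ P.N, g ∈ DoubleCoset.doubleCoset n (P.B : Set G) P.B := by
  exact Cfsg.Agent.Suzuki.BN.exists_bruhat g

end Cfsg.Agent.S0308
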