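import Cfsg.Statements.S0312
import Cfsg.Agent.Suzuki.BNParabolic

set_option autoImplicit false
open Cfsg

namespace Cfsg.Agent.S0312

/-- Every standard parabolic subgroup of a group with a (B,N)-pair equals its own normaliser. -/
theorem result {G : Type*} [Group G] (P : Cfsg.BNPair G) {J : Set G}
    (hJ : J ⊆ P.S) : Subgroup.normalizer (P.parabolic J : Set G) = P.parabolic J := by
  refine le_antisymm (fun g hg => ?_) Subgroup.le_normalizer
  have h : (P.parabolic J).map (MulAut.conj g).toMonoidHom = P.parabolic J := by
    ext x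
    rw [Subgroup.mem_map]
    constructor
    · rintro ⟨y, hy, rfl⟩
      exact (Subgroup.mem_normalizer_iff.1 hg y).1 hy
    · intro hx
      refine ⟨g⁻¹ * x * g, (Subgroup.mem_normalizer_iff.1 hg _).2 (by simpa [mul_assoc] using hx), ?_⟩
      simp [MulAut.conj_apply, mul_assoc]
  exact (Cfsg.Agent.Suzuki.BN.conj_parabolic g h).2

end Cfsg.Agent.S0312
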