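import Cfsg.Statements.S0316
import Cfsg.Agent.Suzuki.BNParabolic

set_option autoImplicit false
open Cfsg

namespace Cfsg.Agent.S0316

/-- The map `J ↦ P_J` is a lattice isomorphism from the power set of the set of distinguished generators onto the
subgroups containing `B`. -/
theorem result {G : Type*} [Group G] (P : Cfsg.BNPair G) :
    ∃ e : Set P.S ≃o {M : Subgroup G // P.B ≤ M},
      ∀ J : Set P.S, ((e J : {M : Subgroup G // P.B ≤ M}) : Subgroup G) = P.parabolic (Subtype.val '' J) := by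
  have hsub : ∀ J : Set P.S, (Subtype.val '' J : Set G) ⊆ P.S := by
    rintro J _ ⟨x, _, rfl⟩
    exact x.2
  have key : ∀ J K : Set P.S,
      P.parabolic (Subtype.val '' J) ≤ P.parabolic (Subtype.val '' K) → J ⊆ K := by
    intro J K h x hx
    obtain ⟨y, hy, hyx⟩ := Cfsg.Agent.Suzuki.BN.mem_of_mem_parabolic (hsub K) x.2
      (h (Subgroup.mem_sup_right (Subgroup.subset_closure ⟨x, hx, rfl⟩)))
    exact Subtype.ext hyx ▸ hy
  refine ⟨RelIso.ofSurjective (OrderEmbedding.ofMapLEIff
    (fun J => ⟨P.parabolic (Subtype.val '' J), le_sup_left⟩)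
    (fun J K => ⟨key J K, fun h => Cfsg.Agent.Suzuki.BN.parabolic_mono (Set.image_mono h)⟩)) ?_,
    fun J => rfl⟩
  rintro ⟨M, hM⟩
  refine ⟨Subtype.val ⁻¹' (M : Set G), Subtype.ext ?_⟩
  have := Cfsg.Agent.Suzuki.BN.eq_parabolic hM
  simp only [OrderEmbedding.coe_ofMapLEIff]
  rw [Subtype.image_preimage_coe, ← this]

end Cfsg.Agent.S0316
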