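import Cfsg.Statements.S0321
import Cfsg.Agent.Suzuki.BNParabolic

set_option autoImplicit false
open Cfsg

namespace Cfsg.Agent.S0321

/-- For `n ∈ N` not in `B`, the union `B ∪ B n B` is (the underlying set of) a subgroup exactly when `n` agrees
modulo `B ⊓ N` with one of the distinguished representatives; thus the distinguished involutions are
determined by `B` and `N`. -/
theorem result {G : Type*} [Group G] (P : Cfsg.BNPair G) {n : G}
    (hn : n ∈ P.N) (hnB : n ∉ P.B) :
    (∃ H : Subgroup G, (H : Set G) = (P.B : Set G) ∪ DoubleCoset.doubleCoset n (P.B : Set G) P.B) ↔ ∃ s ∈ P.S, s⁻¹ * n ∈ P.B := by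
  constructor
  · rintro ⟨H, hH⟩
    have hBH : P.B ≤ H := fun b hb => by
      show b ∈ (H : Set G)
      rw [hH]; exact Or.inl hb
    have h := Cfsg.Agent.Suzuki.BN.eq_parabolic hBH
    by_cases hJ : ∃ s ∈ P.S, s ∈ H
    · obtain ⟨s, hs, hsH⟩ := hJ
      refine ⟨s, hs, ?_⟩
      have hsH' : s ∈ (H : Set G) := hsH
      rw [hH] at hsH'
      rcases hsH' with h' | h'
      · exact absurd h' (Cfsg.Agent.Suzuki.BN.s_not_mem hs)
      · exact Cfsg.Agent.Suzuki.BN.sim_of_mem (P.subset hs) hn h'
    · exfalso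
      push Not at hJ
      have he : P.S ∩ (H : Set G) = ∅ := Set.eq_empty_of_forall_notMem fun x hx => hJ x hx.1 hx.2
      rw [he] at h
      have hnH : n ∈ (H : Set G) := by
        rw [hH]; exact Or.inr (Cfsg.Agent.Suzuki.BN.mem_dc_self n)
      rw [h] at hnH
      exact hnB (by simpa [Cfsg.BNPair.parabolic] using hnH)
  · rintro ⟨s, hs, hsn⟩
    have hJ : ({s} : Set G) ⊆ P.S := by simpa using hs
    refine ⟨P.parabolic {s}, ?_⟩
    have e := Cfsg.Agent.Suzuki.BN.Sim.dc_eq (P := P) (a := s) (b := n) hsn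
    ext g
    constructor
    · intro hg
      obtain ⟨L, hL, hg⟩ := (Cfsg.Agent.Suzuki.BN.mem_parabolic hJ).1 hg
      obtain ⟨R, hR, hRs, hRr⟩ := Cfsg.Agent.Suzuki.BN.exists_red hJ hL
      rw [← hRs.dc_eq] at hg
      match R, hR, hRr, hg with
      | [], _, _, hg => exact Or.inl (Cfsg.Agent.Suzuki.BN.mem_dc_one.1 hg)
      | [r], hR, _, hg' =>
        have hr : r = s := by simpa using hR r (by simp)
        right
        show g ∈ Cfsg.Agent.Suzuki.BN.dc P n
        rw [← e]; simpa [hr] using hg'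
      | r :: r' :: R, hR, hRr, _ =>
        exfalso
        have hr : r = s := by simpa using hR r (by simp)
        have hr' : r' = s := by simpa using hR r' (by simp)
        subst hr; subst hr'
        have hR' : ∀ x ∈ R, x ∈ P.S := fun x hx => hJ (hR x (by simp [hx]))
        have := Cfsg.Agent.Suzuki.BN.len_congr
          (Cfsg.Agent.Suzuki.BN.cancel_left hs (Cfsg.Agent.Suzuki.BN.prod_mem hR'))
        have := Cfsg.Agent.Suzuki.BN.len_prod_le hR'
        simp [Cfsg.Agent.Suzuki.BN.Red] at hRr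
        omega
    · rintro (hg | hg)
      · exact Subgroup.mem_sup_left hg
      · refine (Cfsg.Agent.Suzuki.BN.mem_parabolic hJ).2 ⟨[s], by simp, ?_⟩
        have : g ∈ Cfsg.Agent.Suzuki.BN.dc P n := hg
        simpa [← e] using this

end Cfsg.Agent.S0321
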