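import Cfsg.Statements.S0322
import Cfsg.Agent.Suzuki.BNExtra

set_option autoImplicit false
open Cfsg

namespace Cfsg.Agent.S0322

/-- A group with a (B,N)-pair of rank one acts doubly transitively on the left cosets of `B`. -/
theorem result {G : Type*} [Group G] (P : Cfsg.BNPair G) (h : P.rank = 1) : MulAction.IsMultiplyPretransitive G (G ⧸ P.B) 2 := by
  obtain ⟨s, hs⟩ : ∃ s, P.S = {s} := by
    have hc : Nat.card P.S = 1 := h
    obtain ⟨⟨s, hs⟩, huniq⟩ := Nat.card_eq_one_iff_exists.1 hc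
    exact ⟨s, Set.eq_singleton_iff_unique_mem.2 ⟨hs, fun x hx => congrArg Subtype.val (huniq ⟨x, hx⟩)⟩⟩
  exact Cfsg.Agent.Suzuki.BN.two_pretransitive hs

end Cfsg.Agent.S0322
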