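import Cfsg.Statements.S0323


set_option autoImplicit false
open scoped Pointwise
open Cfsg

namespace Cfsg.Agent.S0323

/-- A doubly transitive action on a set with at least three points yields a (B,N)-pair of rank one:
`B` is the stabiliser of a point `x`, `N` the setwise stabiliser of a pair `{x, y}`. -/
theorem result {G Ω : Type*} [Group G] [MulAction G Ω]
    (h2 : MulAction.IsMultiplyPretransitive G Ω 2) {x y z : Ω} (hxy : x ≠ y) (hyz : y ≠ z) (hxz : x ≠ z) :
    ∃ P : Cfsg.BNPair G, P.B = MulAction.stabilizer G x ∧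
      P.N = MulAction.stabilizer G ({x, y} : Set Ω) ∧ P.rank = 1 := by
  rw [MulAction.is_two_pretransitive_iff] at h2
  obtain ⟨s, hsx, hsy⟩ := h2 hxy hxy.symm
  have hNmem : ∀ g : G, g ∈ MulAction.stabilizer G ({x, y} : Set Ω) ↔
      (g • x = x ∧ g • y = y) ∨ (g • x = y ∧ g • y = x) := by
    intro g
    rw [MulAction.mem_stabilizer_iff, Set.smul_set_insert, Set.smul_set_singleton, Set.pair_eq_pair_iff]
  have hB : ∀ g : G, g ∈ MulAction.stabilizer G x ↔ g • x = x := fun g => MulAction.mem_stabilizer_iff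
  have hfix : ∀ g : G, g ∈ MulAction.stabilizer G x ⊓ MulAction.stabilizer G ({x, y} : Set Ω) →
      g • x = x ∧ g • y = y := by
    intro g hg
    rcases (hNmem g).1 hg.2 with h | h
    · exact h
    · exact absurd (((hB g).1 hg.1).symm.trans h.1) hxy
  have hss : ∀ z, z = x → s • s • z = z := by rintro z rfl; rw [hsx, hsy]
  have hs2 : s * s ∈ MulAction.stabilizer G x := by rw [hB, mul_smul, hsx, hsy]
  -- every element moving `x` lies in one double coset
  have hout : ∀ n g : G, n • x = y → g • x ≠ x →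
      g ∈ DoubleCoset.doubleCoset n (MulAction.stabilizer G x : Set G) (MulAction.stabilizer G x) := by
    intro n g hn hg
    obtain ⟨b, hb1, hb2⟩ := h2 hxy (Ne.symm hg)
    refine DoubleCoset.mem_doubleCoset.2 ⟨b, (hB b).2 hb1, n⁻¹ * b⁻¹ * g, ?_, by group⟩
    rw [SetLike.mem_coe, hB, mul_smul, mul_smul, inv_smul_eq_iff, hn, inv_smul_eq_iff, hb2]
  refine ⟨{ B := MulAction.stabilizer G x
            N := MulAction.stabilizer G ({x, y} : Set Ω)
            S := {s}
            sup_eq_top := ?_
            conj_mem := ?_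
            subset := ?_
            sq_mem := ?_
            inj := ?_
            closure_sup := ?_
            mul_mem_union := ?_
            conj_ne := ?_ }, rfl, rfl, ?_⟩
  · rw [eq_top_iff]
    intro g _
    by_cases hg : g • x = x
    · exact Subgroup.mem_sup_left ((hB g).2 hg)
    · obtain ⟨b, hb, c, hc, rfl⟩ := DoubleCoset.mem_doubleCoset.1 (hout s g hsx hg)
      exact mul_mem (mul_mem (Subgroup.mem_sup_left hb)
        (Subgroup.mem_sup_right ((hNmem s).2 (Or.inr ⟨hsx, hsy⟩)))) (Subgroup.mem_sup_left hc)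
  · intro n hn t ht
    obtain ⟨htx, hty⟩ := hfix t ht
    rw [hB, mul_smul, mul_smul, smul_eq_iff_eq_inv_smul]
    rcases (hNmem n⁻¹).1 (inv_mem hn) with h | h <;> simp [h.1, htx, hty]
  · simpa using (hNmem s).2 (Or.inr ⟨hsx, hsy⟩)
  · rintro t rfl; exact hs2
  · rintro t rfl t' rfl _; rfl
  · refine le_antisymm (sup_le ?_ inf_le_right) fun n hn => ?_
    · rw [Subgroup.closure_le, Set.singleton_subset_iff]
      exact (hNmem s).2 (Or.inr ⟨hsx, hsy⟩)
    · rcases (hNmem n).1 hn with h | h
      · exact Subgroup.mem_sup_right ⟨(hB n).2 h.1, hn⟩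
      · have hmem : s⁻¹ * n ∈ MulAction.stabilizer G x ⊓ MulAction.stabilizer G ({x, y} : Set Ω) :=
          Subgroup.mem_inf.2 ⟨by rw [hB, mul_smul, inv_smul_eq_iff, h.1, hsx],
            mul_mem (inv_mem ((hNmem s).2 (Or.inr ⟨hsx, hsy⟩))) hn⟩
        have := mul_mem (Subgroup.mem_sup_left (Subgroup.subset_closure (Set.mem_singleton s)) :
          s ∈ Subgroup.closure {s} ⊔ _) (Subgroup.mem_sup_right hmem)
        simpa using this
  · rintro t rfl n hn b hb
    have hb' := (hB b).1 hb
    rcases (hNmem n).1 hn with h | h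
    · left
      refine DoubleCoset.mem_doubleCoset.2 ⟨1, one_mem _, n⁻¹ * b * n, ?_, by group⟩
      exact mul_mem (mul_mem (inv_mem ((hB n).2 h.1)) hb) ((hB n).2 h.1)
    · by_cases hby : b • y = y
      · left
        have h1 : t * b * n ∈ MulAction.stabilizer G x := by
          rw [hB, mul_smul, mul_smul, h.1, hby, hsy]
        have h0 : t * n ∈ MulAction.stabilizer G x := by rw [hB, mul_smul, h.1, hsy]
        refine DoubleCoset.mem_doubleCoset.2 ⟨1, one_mem _, (t * n)⁻¹ * (t * b * n), ?_, by group⟩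
        exact mul_mem (inv_mem h0) h1
      · right
        refine hout n _ h.1 fun e => ?_
        rw [mul_smul, mul_smul, h.1] at e
        exact hby (smul_left_cancel t (e.trans hsy.symm))
  · rintro t rfl e
    obtain ⟨c, hc1, hc2⟩ := h2 hxy hxz
    have hmem : c ∈ (fun b : G => t * b * t) '' (MulAction.stabilizer G x : Set G) := by
      rw [e]; exact (hB c).2 hc1
    obtain ⟨b, hb, hbc⟩ := hmem
    have hc3 : t * b * t = c := hbc
    have : c • y = y := by rw [← hc3, mul_smul, mul_smul, hsy, (hB b).1 hb, hsx]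
    exact hyz (this.symm.trans hc2)
  · exact Nat.card_unique

end Cfsg.Agent.S0323
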