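import Cfsg.Statements.S0328
import Cfsg.Agent.Suzuki.SzAction

set_option autoImplicit false
open Cfsg

namespace Cfsg.Agent.S0328

/-- The stabiliser in the Suzuki group of the two ovoid points spanned by `(1,0,0,0)` and `(0,0,0,1)` is
isomorphic to the multiplicative group of the field (cyclic of order `q - 1`). -/
theorem result {F : Type*} [Field F] [Fintype F] {m : ℕ} (hm : 1 ≤ m)
    (hF : Fintype.card F = 2 ^ (2 * m + 1)) :
    Nonempty (↥(MulAction.stabilizer (Cfsg.Sz F m) (Cfsg.suzukiPointInfinity F) ⊓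
        MulAction.stabilizer (Cfsg.Sz F m) (Cfsg.suzukiPointZero F)) ≃* Fˣ) := by
  have h : Cfsg.Agent.Suzuki.Ctx F m := ⟨hm, by rw [Nat.card_eq_fintype_card, hF]⟩
  have hmem : ∀ k : Fˣ, Cfsg.Agent.Suzuki.hEl h k ∈
      MulAction.stabilizer (Cfsg.Sz F m) (Cfsg.suzukiPointInfinity F) ⊓
        MulAction.stabilizer (Cfsg.Sz F m) (Cfsg.suzukiPointZero F) := by
    intro k
    rw [Subgroup.mem_inf, MulAction.mem_stabilizer_iff, MulAction.mem_stabilizer_iff,
      ← Cfsg.Agent.Suzuki.inf'_val (m := m), ← Cfsg.Agent.Suzuki.pt_zero_val (m := m)]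
    exact ⟨congrArg Subtype.val (Cfsg.Agent.Suzuki.hEl_smul_inf h k), congrArg Subtype.val (Cfsg.Agent.Suzuki.hEl_smul_zero h k)⟩
  refine ⟨(MulEquiv.ofBijective (MonoidHom.mk' (fun k => ⟨_, hmem k⟩)
    fun k l => Subtype.ext (Cfsg.Agent.Suzuki.hEl_mul h k l)) ⟨?_, ?_⟩).symm⟩
  · intro k l e
    exact Cfsg.Agent.Suzuki.hEl_inj h (congrArg Subtype.val e)
  · rintro ⟨g, hg⟩
    rw [Subgroup.mem_inf, MulAction.mem_stabilizer_iff, MulAction.mem_stabilizer_iff,
      ← Cfsg.Agent.Suzuki.inf'_val (m := m), ← Cfsg.Agent.Suzuki.pt_zero_val (m := m)] at hg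
    obtain ⟨k, rfl⟩ := Cfsg.Agent.Suzuki.fix_two h (g := g) (Subtype.ext hg.1) (Subtype.ext hg.2)
    exact ⟨k, rfl⟩

end Cfsg.Agent.S0328
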