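import Cfsg.Statements.S0330
import Cfsg.Agent.Suzuki.SzSylow

set_option autoImplicit false
open Cfsg

namespace Cfsg.Agent.S0330

/-- A Sylow 2-subgroup `P` of the Suzuki group (field with `q = 2^(2m+1)` elements, `m ≥ 1`) has order `q²` and
exponent `4`; its centre coincides with its commutator subgroup and has order `q`. -/
theorem result {F : Type*} [Field F] [Fintype F] {m : ℕ} (hm : 1 ≤ m)
    (hF : Fintype.card F = 2 ^ (2 * m + 1)) (P : Sylow 2 (Cfsg.Sz F m)) :
    Nat.card P = (2 ^ (2 * m + 1)) ^ 2 ∧ Monoid.exponent P = 4 ∧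
      Subgroup.center P = commutator P ∧ Nat.card (Subgroup.center P) = 2 ^ (2 * m + 1) := by
  have h : Cfsg.Agent.Suzuki.Ctx F m := ⟨hm, by rw [Nat.card_eq_fintype_card, hF]⟩
  have := Cfsg.Agent.Suzuki.finite_sz h
  let e : P ≃* Cfsg.Agent.Suzuki.uGrp h := P.equiv (Cfsg.Agent.Suzuki.uSylow h)
  refine ⟨?_, ?_, ?_, ?_⟩
  · rw [← Cfsg.Agent.Suzuki.card_uGrp h]; exact Nat.card_congr e.toEquiv
  · exact (Monoid.exponent_eq_of_mulEquiv e).trans (Cfsg.Agent.Suzuki.exponent_uGrp h)
  · have h1 : (commutator P).map e.toMonoidHom = commutator (Cfsg.Agent.Suzuki.uGrp h) := by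
      rw [commutator_def, Subgroup.map_commutator, Subgroup.map_top_of_surjective _ e.surjective,
        commutator_def]
    have h2 : (Subgroup.center P).map e.toMonoidHom = Subgroup.center (Cfsg.Agent.Suzuki.uGrp h) := by
      ext x
      rw [Subgroup.mem_map]
      constructor
      · rintro ⟨y, hy, rfl⟩
        rw [Subgroup.mem_center_iff] at hy ⊢
        intro z
        obtain ⟨w, rfl⟩ := e.surjective z
        exact (map_mul e w y).symm.trans ((congrArg e (hy w)).trans (map_mul e y w))
      · intro hx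
        refine ⟨e.symm x, ?_, e.apply_symm_apply x⟩
        rw [Subgroup.mem_center_iff] at hx ⊢
        intro z
        apply e.injective
        rw [map_mul, map_mul, e.apply_symm_apply, hx]
    exact Subgroup.map_injective e.injective
      (h2.trans ((Cfsg.Agent.Suzuki.center_eq_commutator h).trans h1.symm))
  · rw [← Cfsg.Agent.Suzuki.card_center_uGrp h]
    exact Nat.card_congr (Subgroup.centerCongr e).toEquiv

end Cfsg.Agent.S0330
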