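import Cfsg.Statements.S0335
import Cfsg.Agent.Suzuki.SzAction

set_option autoImplicit false
open Cfsg

namespace Cfsg.Agent.S0335

/-- The Suzuki–Tits point set is an ovoid: any three distinct points of it are projectively independent
(no line of projective 3-space meets it in more than two points). -/
theorem result {F : Type*} [Field F] [Fintype F] {m : ℕ} (hm : 1 ≤ m)
    (hF : Fintype.card F = 2 ^ (2 * m + 1)) (p : Fin 3 ↪ Cfsg.suzukiOvoid F m) :
    Projectivization.Independent (fun i => (p i : Projectivization F (Fin 4 → F))) := by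
  have h : Cfsg.Agent.Suzuki.Ctx F m := ⟨hm, by rw [Nat.card_eq_fintype_card, hF]⟩
  rw [Projectivization.independent_iff, Fintype.linearIndependent_iff]
  intro a ha i
  obtain ⟨g, g0, g1⟩ := Cfsg.Agent.Suzuki.to_base h (p := p 0) (q := p 1) (fun e => by simpa using p.injective e)
  have g2 : g • p 2 ≠ Cfsg.Agent.Suzuki.inf' F m ∧ g • p 2 ≠ Cfsg.Agent.Suzuki.pt m 0 0 := by
    constructor
    · intro e; simpa using p.injective (smul_left_cancel g (e.trans g0.symm))
    · intro e; simpa using p.injective (smul_left_cancel g (e.trans g1.symm))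
  have hrep : ∀ (q : Cfsg.suzukiOvoid F m) (w : Fin 4 → F) (hw : w ≠ 0),
      ((g • q : Cfsg.suzukiOvoid F m) : Projectivization F (Fin 4 → F)) = Projectivization.mk F w hw →
      ∃ c : F, c ≠ 0 ∧ g.1.1.mulVec (q : Projectivization F (Fin 4 → F)).rep = c • w := by
    intro q w hw e
    have hv := Projectivization.rep_nonzero (q : Projectivization F (Fin 4 → F))
    have e' : g.1 • (q : Projectivization F (Fin 4 → F)) = Projectivization.mk F w hw := e
    rw [← Projectivization.mk_rep (q : Projectivization F (Fin 4 → F)), Cfsg.Agent.Suzuki.sl_smul_mk _ hv,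
      Projectivization.mk_eq_mk_iff'] at e'
    obtain ⟨c, hc⟩ := e'
    refine ⟨c, fun h0 => ?_, hc.symm⟩
    rw [h0, zero_smul] at hc
    exact Cfsg.Agent.Suzuki.sl_mulVec_ne_zero g.1 hv hc.symm
  rcases Cfsg.Agent.Suzuki.pt_cases (g • p 2) with e2 | ⟨x, y, e2⟩
  · exact absurd e2 g2.1
  have hxy : ¬(x = 0 ∧ y = 0) := fun ⟨hx, hy⟩ => g2.2 (by rw [e2, hx, hy])
  obtain ⟨c0, hc0, v0⟩ := hrep (p 0) _ Cfsg.Agent.Suzuki.evec_ne_zero (congrArg Subtype.val g0)
  obtain ⟨c1, hc1, v1⟩ := hrep (p 1) _ (Cfsg.Agent.Suzuki.pvec_ne_zero 0 0) (congrArg Subtype.val g1)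
  obtain ⟨c2, hc2, v2⟩ := hrep (p 2) _ (Cfsg.Agent.Suzuki.pvec_ne_zero x y) (congrArg Subtype.val e2)
  have hsum := congrArg g.1.1.mulVec ha
  simp only [Fin.sum_univ_three, Function.comp_apply, Matrix.mulVec_add, Matrix.mulVec_smul,
    Matrix.mulVec_zero, v0, v1, v2, smul_smul] at hsum
  have e3 := congrFun hsum 3
  have e1 := congrFun hsum 1
  have e2' := congrFun hsum 2
  have e0 := congrFun hsum 0
  simp [Cfsg.Agent.Suzuki.evec, Cfsg.Agent.Suzuki.pvec, Cfsg.Agent.Suzuki.ovf] at e0 e1 e2' e3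
  have ha2 : a 2 = 0 := by
    by_contra hne
    exact hxy ⟨by simpa [hne, hc2] using e2', by simpa [hne, hc2] using e1⟩
  have ha1 : a 1 = 0 := by simpa [ha2, hc1] using e3
  have ha0 : a 0 = 0 := by simpa [ha2, hc0] using e0
  fin_cases i <;> assumption

end Cfsg.Agent.S0335
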