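import Cfsg.Statements.S0340
import Cfsg.Agent.Chars.ZassSuzuki
import Cfsg.Agent.S0344
import Cfsg.Agent.S0731
import Cfsg.Agent.Chars.ZassSharp
import Cfsg.Agent.PermGroups.ZassenhausNotSimple
-- import your own Cfsg.Agent.* helpers here

set_option autoImplicit false
open Cfsg

namespace Cfsg.Agent.S0340

/-- Classification of Zassenhaus groups, simple case, order-level form: a finite simple Zassenhaus group is
isomorphic to `PSL₂(F)` for some finite field `F` or is simple of Suzuki order. -/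
theorem result {G Ω : Type*} [Group G] [Finite G] [MulAction G Ω]
    [Finite Ω] (hZ : Cfsg.IsZassenhausGroup G Ω) [IsSimpleGroup G] :
    (∃ (F : Type) (_ : Field F) (_ : Fintype F), Nonempty (G ≃* Matrix.ProjectiveSpecialLinearGroup (Fin 2) F)) ∨ Cfsg.IsSuzuki G := by
  classical
  haveI := Fintype.ofFinite G
  haveI := Fintype.ofFinite Ω
  haveI := hZ.1
  obtain ⟨a, b, hab⟩ : ∃ p q : Ω, p ≠ q := by
    obtain ⟨-, -, p, q, hpq, -, -⟩ := hZ.2.2.2.1
    exact ⟨p, q, hpq⟩
  rcases Nat.even_or_odd (Nat.card ↥(MulAction.stabilizer G a ⊓ MulAction.stabilizer G b)) with he | he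
  · obtain ⟨F, fF, ftF, -, hiso⟩ := S0344.result hZ hab he
    exact Or.inl ⟨F, fF, ftF, hiso⟩
  obtain ⟨H, hHa, hHn, hreg, hHcard, hHfix⟩ := Chars.ZassFeit.exists_kernel hZ a
  by_cases hd : Fintype.card Ω - 2 ≤ 2 * Nat.card ↥(MulAction.stabilizer G a ⊓ MulAction.stabilizer G b)
  · obtain ⟨hHab, p, f, hp, -, hpf⟩ := S0738.result hZ hab hd H hHa hHn hreg
    rcases S0731.result hZ a H hHa hHn hHab hreg with ⟨h3, hsharp⟩ | ⟨K, fK, ftK, -, hiso⟩
    swap
    · exact Or.inl ⟨K, fK, ftK, hiso⟩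
    left
    obtain ⟨c, hca, hcb⟩ := PermGroups.exists_third_point hZ hab
    rcases Nat.even_or_odd (Fintype.card Ω) with hΩ | hΩ
    · exfalso
      refine PermGroups.not_isSimpleGroup_sharplyThree hZ.2.1 hZ.2.2.1 hab hca.symm hcb.symm ?_ hΩ inferInstance
      exact Chars.ZassFeit.sharply_card h3 hsharp hab (by rw [← Nat.card_eq_fintype_card]; exact Suzuki.three_le_card (G := G) hZ.2.2.2.1)
    · have hev : Even (p ^ f) := by
        rw [hpf] at hΩ
        exact (Nat.odd_add_one.1 hΩ) |> Nat.not_odd_iff_even.1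
      obtain ⟨hpe, hf⟩ := Nat.even_pow.1 hev
      rw [(hp.even_iff).1 hpe] at hpf
      exact Chars.ZassFeit.psl_of_sharply h3 hsharp (Nat.one_le_iff_ne_zero.2 hf) hpf
  · right
    obtain ⟨-, n, ⟨m, hm⟩, hn1, -, -, hG, -⟩ := Chars.ZassFeit.suzuki_kernel hZ hab (Fintype.card Ω - 1)
      (Nat.card ↥(MulAction.stabilizer G a ⊓ MulAction.stabilizer G b)) (by omega) rfl he (by omega) H hHa
      hHcard hHfix
    exact ⟨inferInstance, m, by omega, hm ▸ hG⟩

end Cfsg.Agent.S0340
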