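import Cfsg.Statements.S0345
import Cfsg.Agent.PermGroups.ZassenhausSimple

set_option autoImplicit false
open Cfsg

namespace Cfsg.Agent.S0345

/-- In a finite simple Zassenhaus group the stabiliser `H` of two points `a ≠ b` is cyclic, and some involution
interchanging `a` and `b` inverts every element of `H`. -/
theorem result {G Ω : Type*} [Group G] [Finite G] [MulAction G Ω] [Finite Ω]
    (hZ : Cfsg.IsZassenhausGroup G Ω) [IsSimpleGroup G]
    {a b : Ω} (hab : a ≠ b) :
    IsCyclic ↥(MulAction.stabilizer G a ⊓ MulAction.stabilizer G b) ∧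
      ∃ v : G, orderOf v = 2 ∧ v • a = b ∧ v • b = a ∧ ∀ h ∈ MulAction.stabilizer G a ⊓ MulAction.stabilizer G b, v * h * v⁻¹ = h⁻¹ := by
  classical
  haveI := Fintype.ofFinite Ω
  obtain ⟨c, hca, hcb⟩ := PermGroups.exists_third_point hZ hab
  obtain ⟨h₁, h₁H, h₁1⟩ := PermGroups.exists_ne_one_twoStabilizer hZ hab
  set H := MulAction.stabilizer G a ⊓ MulAction.stabilizer G b with hH
  have hfa : ∀ {h : G}, h ∈ H → h • a = a := fun hh => MulAction.mem_stabilizer_iff.1 hh.1
  have hfb : ∀ {h : G}, h ∈ H → h • b = b := fun hh => MulAction.mem_stabilizer_iff.1 hh.2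
  obtain ⟨s, hsa, hsb⟩ := MulAction.is_two_pretransitive_iff.1 hZ.2.1 hab hab.symm
  have hssH : s * s ∈ H := ⟨MulAction.mem_stabilizer_iff.2 (by rw [mul_smul, hsa, hsb]),
    MulAction.mem_stabilizer_iff.2 (by rw [mul_smul, hsb, hsa])⟩
  have hs1 : s ≠ 1 := fun e => hab (by rw [← hsa, e, one_smul])
  rcases Nat.even_or_odd (Nat.card H) with heven | hodd
  · have hcard := PermGroups.card_eq_of_simple_even hZ hab heven
    obtain ⟨-, h2, hthree, -, -⟩ := hZ
    have hinvol : ∀ {g : G}, g • a = b → g • b = a → g * g = 1 := fun hga hgb =>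
      (PermGroups.interchange_involution h2 hthree hab heven hcard.le hga hgb).1
    have hss := hinvol hsa hsb
    have hsi : s⁻¹ = s := inv_eq_of_mul_eq_one_right hss
    have hinv : ∀ h ∈ H, s * h * s⁻¹ = h⁻¹ := fun h hh => by
      have h1 := hinvol (g := s * h) (by rw [mul_smul, hfa hh, hsa]) (by rw [mul_smul, hfb hh, hsb])
      rw [hsi]
      exact eq_inv_of_mul_eq_one_left (by rw [← h1]; group)
    have hHc : ∀ x ∈ H, ∀ y ∈ H, x * y = y * x := fun x hx y hy => by
      have h1 := hinv _ (mul_mem hx hy)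
      rw [show s * (x * y) * s⁻¹ = (s * x * s⁻¹) * (s * y * s⁻¹) by group, hinv x hx, hinv y hy] at h1
      simpa [mul_inv_rev] using (congrArg Inv.inv h1).symm
    obtain ⟨F, hFb, hFn, hreg, hFcard⟩ :=
      PermGroups.exists_frobenius_translations h2 hthree hab hca hcb ⟨h₁, h₁H, h₁1⟩
    refine ⟨PermGroups.isCyclic_of_fpf_comm (K := F) ?_ ?_ ?_ hHc, s, orderOf_eq_prime (by rw [sq, hss]) hs1, hsa, hsb, hinv⟩
    · intro h hh h1 k hk hcomm
      by_contra hk1
      have hkb : (k : G) • a ≠ b := fun e => hab (smul_left_cancel k (e.trans (MulAction.mem_stabilizer_iff.1 (hFb hk)).symm))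
      have hka : (k : G) • a ≠ a := fun e => hk1 (congrArg Subtype.val
        ((hreg a a hab hab).unique (y₁ := ⟨k, hk⟩) (y₂ := 1) e (one_smul G a)))
      refine h1 (hthree h a b (k • a) hab hkb.symm hka.symm (hfa hh) (hfb hh) ?_)
      rw [← mul_smul, hcomm, mul_smul, hfa hh]
    · intro e
      rw [e, Subgroup.card_bot] at hFcard
      have hd0 : 0 < Nat.card H := Nat.card_pos
      obtain ⟨r, hr⟩ := heven
      rw [← hH] at hcard; omega
    · intro h hh
      rw [Subgroup.mem_normalizer_iff]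
      refine fun k => ⟨hFn h hh.2 k, fun hk => ?_⟩
      have := hFn h⁻¹ (inv_mem hh.2) _ hk
      simpa [mul_assoc] using this
  · obtain ⟨hcyc, -, hinv⟩ := S0739.result hZ hab hodd (PermGroups.no_complement_of_simple hZ hab)
    have hi := hinv s hsa hsb
    refine ⟨hcyc, s, orderOf_eq_prime ?_ hs1, hsa, hsb, hi⟩
    have h1 : s * s = (s * s)⁻¹ := by
      have h1 := hi _ hssH
      rw [show s * (s * s) * s⁻¹ = s * s by group] at h1
      exact h1
    have h2 : (s * s) ^ 2 = 1 := by rw [sq]; nth_rw 2 [h1]; exact mul_inv_cancel _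
    have h3 : orderOf (s * s) = 1 :=
      ((Nat.dvd_prime Nat.prime_two).1 (orderOf_dvd_of_pow_eq_one h2)).resolve_right fun h =>
        hodd.not_two_dvd_nat (h ▸ Subgroup.orderOf_dvd_natCard H hssH)
    rw [sq]; exact orderOf_eq_one_iff.1 h3

end Cfsg.Agent.S0345
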