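import Cfsg.Statements.S0885
import Cfsg.Agent.Chars.ZassFeitMain
import Cfsg.Agent.S0338

set_option autoImplicit false
open Cfsg

namespace Cfsg.Agent.S0885

/-- Let G be a finite Zassenhaus group on Ω with h + 1 points whose two-point stabilizer E has odd order e, and let H be the subgroup of the stabilizer of a consisting of the identity and the elements fixing no point other than a (given here as a subgroup of the stabilizer of order one less than the number of points whose non-identity elements fix only a; it is the Frobenius kernel of the stabilizer). Then either h - 1 ≤ 2 * e, or H is a non-abelian 2-group whose commutator subgroup has index at most 4 * e ^ 2 + 1 in H. -/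
theorem result {G Ω : Type*} [Group G] [Finite G] [MulAction G Ω] [Fintype Ω] (hZ : Cfsg.IsZassenhausGroup G Ω) {a b : Ω} (hab : a ≠ b) (h e : ℕ) (hh : Fintype.card Ω = h + 1) (he : Nat.card ↥(MulAction.stabilizer G a ⊓ MulAction.stabilizer G b : Subgroup G) = e) (hodd : Odd e) (H : Subgroup G) (hHa : H ≤ MulAction.stabilizer G a) (hHcard : Nat.card H + 1 = Fintype.card Ω) (hHfix : ∀ u ∈ H, u ≠ 1 → ∀ c : Ω, u • c = c → c = a) : h - 1 ≤ 2 * e ∨ (IsPGroup 2 H ∧ (∃ u v : H, u * v ≠ v * u) ∧ (commutator H).index ≤ 4 * e ^ 2 + 1) := by
  haveI : Fintype G := Fintype.ofFinite G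
  rcases le_or_gt (h - 1) (2 * e) with hle | hlt
  · exact Or.inl hle
  rcases Nat.even_or_odd h with hev | hoh
  · haveI : IsSimpleGroup G := S0338.result hZ (by rw [hh]; exact hev.add_one)
    exact Or.inr (Chars.ZassFeit.simple_case hZ hab h e hh he hodd hlt H hHa hHcard hHfix)
  · exact Or.inl (Chars.ZassFeit.odd_case (Nat.card G) G rfl hZ hab h e hh he hodd hoh H hHa hHcard hHfix)

end Cfsg.Agent.S0885
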