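import Cfsg.Statements.S0346
import Cfsg.Agent.Chars.ZassKernel
import Cfsg.Agent.S0885
import Cfsg.Agent.S0738

set_option autoImplicit false
open Cfsg

namespace Cfsg.Agent.S0346

/-- The number of points of a finite simple Zassenhaus group is `p^k + 1` for some prime power `p^k` (the regular normal
subgroup of a point stabiliser is a `p`-group). -/
theorem result {G Ω : Type*} [Group G] [Finite G] [MulAction G Ω] [Fintype Ω]
    (hZ : Cfsg.IsZassenhausGroup G Ω) [IsSimpleGroup G] :
    IsPrimePow (Fintype.card Ω - 1) := by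
  obtain ⟨g₀, -, a, b, hab, -, -⟩ := hZ.2.2.2.1
  obtain ⟨H, hHa, hHn, hreg, hHcard, hHfix⟩ := Chars.ZassFeit.exists_kernel hZ a
  set d := Nat.card ↥(MulAction.stabilizer G a ⊓ MulAction.stabilizer G b) with hd
  have h3 : 3 ≤ Fintype.card Ω := by
    classical
    obtain ⟨c, hca, hcb⟩ := PermGroups.exists_third_point hZ hab
    calc 3 = ({a, b, c} : Finset Ω).card := by simp [hab, hca.symm, hcb.symm]
      _ ≤ _ := Finset.card_le_univ _
  have hlarge : Fintype.card Ω - 2 ≤ 2 * d → IsPrimePow (Fintype.card Ω - 1) := fun hle => by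
    obtain ⟨-, p, f, hp, -, hc⟩ := S0738.result hZ hab hle H hHa hHn hreg
    refine (isPrimePow_nat_iff _).2 ⟨p, f, hp, Nat.pos_of_ne_zero fun hf => ?_, by omega⟩
    rw [hf, pow_zero] at hc
    omega
  rcases Nat.even_or_odd d with heven | hodd
  · have h2 := PermGroups.card_eq_of_simple_even hZ hab heven
    exact hlarge (by omega)
  rcases S0885.result hZ hab (Fintype.card Ω - 1) d (by omega) hd.symm hodd H hHa hHcard hHfix with
    hle | ⟨h2, -, -⟩
  · exact hlarge (by omega)
  · haveI : Fact (Nat.Prime 2) := ⟨Nat.prime_two⟩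
    obtain ⟨k, hk⟩ := IsPGroup.iff_card.1 h2
    refine (isPrimePow_nat_iff _).2 ⟨2, k, Nat.prime_two, Nat.pos_of_ne_zero fun hk0 => ?_, by omega⟩
    rw [hk0, pow_zero] at hk
    omega

end Cfsg.Agent.S0346
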