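import Cfsg.Statements.S0347
import Cfsg.Agent.Chars.ZassSuzuki
-- import your own Cfsg.Agent.* helpers here

set_option autoImplicit false
open Cfsg

namespace Cfsg.Agent.S0347

/-- If in a finite simple Zassenhaus group the stabiliser of a point `x` has a normal `2`-subgroup `U` which is
non-abelian and acts regularly on the points other than `x`, then the group is simple of Suzuki order (order-level
predicate `IsSuzuki`). -/
theorem result {G Ω : Type*} [Group G] [Finite G] [MulAction G Ω] [Finite Ω]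
    (hZ : Cfsg.IsZassenhausGroup G Ω) [IsSimpleGroup G]
    (x : Ω) (U : Subgroup G) (hUle : U ≤ MulAction.stabilizer G x) (hUn : (U.subgroupOf (MulAction.stabilizer G x)).Normal)
    (hU2 : IsPGroup 2 U) (hUna : ∃ u v : U, u * v ≠ v * u)
    (hreg : ∀ y z : Ω, y ≠ x → z ≠ x → ∃! u : U, (u : G) • y = z) :
    Cfsg.IsSuzuki G := by
  haveI := Fintype.ofFinite G
  haveI := Fintype.ofFinite Ω
  obtain ⟨p, q, hpq⟩ : ∃ p q : Ω, p ≠ q := by
    obtain ⟨-, -, p, q, hpq, -, -⟩ := hZ.2.2.2.1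
    exact ⟨p, q, hpq⟩
  obtain ⟨b, hb⟩ : ∃ b : Ω, b ≠ x := by
    by_cases hp : p = x
    · exact ⟨q, fun e => hpq (hp.trans e.symm)⟩
    · exact ⟨p, hp⟩
  obtain ⟨u, v, huv⟩ := hUna
  obtain ⟨h, e, hh, he, hodd, hlt⟩ := Chars.ZassFeit.nonabelian_kernel hZ hb.symm U hUle hUn
    ⟨u, u.2, v, v.2, fun h1 => huv (Subtype.ext h1)⟩ hreg
  obtain ⟨-, n, ⟨m, hm⟩, hn1, -, -, hG, -⟩ := Chars.ZassFeit.suzuki_kernel hZ hb.symm h e hh he hodd hlt U hUle
    (Chars.ZassFeit.card_regular hUle hb hreg) (Chars.ZassFeit.fix_regular hreg)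
  exact ⟨inferInstance, m, by omega, hm ▸ hG⟩

end Cfsg.Agent.S0347
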