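import Cfsg.Statements.S0351
import Cfsg.Agent.Golay.Steiner

set_option autoImplicit false
open Cfsg

namespace Cfsg.Agent.S0351

/-- Derived design: removing a point p from the blocks through p of an S(t+1, k+1, v) yields an S(t, k, v-1) on the points other than p. -/
theorem result {α : Type*} [Fintype α] [DecidableEq α] {t k : ℕ} {B : Set (Finset α)} (hB : Cfsg.IsSteinerSystem (t + 1) (k + 1) B) (p : α) : Cfsg.IsSteinerSystem t k {b' : Finset {a : α // a ≠ p} | ∃ b ∈ B, p ∈ b ∧ b' = Finset.subtype (fun a => a ≠ p) b} := by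
  refine ⟨?_, fun s hs => ?_⟩
  · rintro b' ⟨b, hb, hp, rfl⟩
    have h1 : (b.filter fun a => a ≠ p) = b.erase p := Finset.filter_ne' b p
    rw [Finset.card_subtype, h1, Finset.card_erase_of_mem hp, hB.1 b hb]
    rfl
  set s' : Finset α := insert p (s.map (Function.Embedding.subtype _)) with hs'
  have hps : p ∉ s.map (Function.Embedding.subtype _) := by
    simp only [Finset.mem_map, Function.Embedding.subtype_apply, not_exists, not_and]
    intro x _ e
    exact x.2 e
  have hc : s'.card = t + 1 := by rw [hs', Finset.card_insert_of_notMem hps, Finset.card_map, hs]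
  obtain ⟨b, ⟨hb, hsb⟩, huniq⟩ := hB.2 s' hc
  rw [hs', Finset.insert_subset_iff] at hsb
  refine ⟨Finset.subtype _ b, ⟨⟨b, hb, hsb.1, rfl⟩,
    fun x hx => Finset.mem_subtype.2 (hsb.2 (Finset.mem_map.2 ⟨x, hx, rfl⟩))⟩, ?_⟩
  rintro _ ⟨⟨c, hc', hpc, rfl⟩, hsc⟩
  rw [huniq c ⟨hc', ?_⟩]
  rw [hs', Finset.insert_subset_iff]
  refine ⟨hpc, fun y hy => ?_⟩
  obtain ⟨x, hx, rfl⟩ := Finset.mem_map.1 hy
  exact Finset.mem_subtype.1 (hsc hx)

end Cfsg.Agent.S0351
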