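import Cfsg.Statements.S0369
import Cfsg.Agent.Golay.M24Order

set_option autoImplicit false
open Cfsg
open scoped Pointwise

namespace Cfsg.Agent.S0369

/-- The group of the length-24 code coincides with the automorphism group of its octad system. -/
theorem result : Cfsg.M24 = Cfsg.setSystemAut Cfsg.octads := by
  ext σ
  constructor
  · intro hσ
    rw [MulAction.mem_stabilizer_iff]
    ext s
    rw [Set.mem_smul_set_iff_inv_smul_mem, Cfsg.Agent.Golay.smul_mem_octads_iff (inv_mem hσ)]
  · intro hσ
    rw [Cfsg.Agent.Golay.mem_M24_iff_rows]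
    intro r hr
    have ho : Cfsg.Agent.Golay.bset r ∈ Cfsg.octads := by
      rw [Cfsg.Agent.Golay.mem_octads_iff, Cfsg.Agent.Golay.mask_bset (Cfsg.Agent.Golay.rows_lt r hr)]
      exact (by decide +kernel : ∀ r ∈ Cfsg.Agent.Golay.rows,
        Cfsg.Agent.Golay.inC r = true ∧ Cfsg.Agent.Golay.pc r = 8) r hr
    have h := Set.smul_mem_smul_set (a := σ) ho
    rw [MulAction.mem_stabilizer_iff.1 hσ] at h
    exact Cfsg.Agent.Golay.octad_subset_supports h

end Cfsg.Agent.S0369
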