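import Cfsg.Statements.S0371
import Cfsg.Agent.Golay.M24Order

set_option autoImplicit false
open Cfsg

namespace Cfsg.Agent.S0371

open Cfsg.Agent.Golay in
/-- Packed multiplication by a residue. -/
def mulCode (u : ℕ) : ℕ :=
  ((List.range 23).map fun i => (u * i % 23) <<< (5 * i)).sum + 23 <<< 115

open Cfsg.Agent.Golay in
theorem mulUnit_ok : ∀ u : (ZMod 23)ˣ, permOK (mulCode (u : ZMod 23).val) = true ∧
    ∀ p, Equiv.optionCongr (Units.mulLeft u) p = permFun (mulCode (u : ZMod 23).val) p := by
  decide +kernel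

open Cfsg.Agent.Golay in
theorem mulUnit_eq (u : (ZMod 23)ˣ) :
    Equiv.optionCongr (Units.mulLeft u) = permOf (mulCode (u : ZMod 23).val) :=
  eq_permOf (mulUnit_ok u).1 _ (mulUnit_ok u).2

open Cfsg.Agent.Golay in
theorem mulUnit_aut (u : (ZMod 23)ˣ) (hu : IsSquare u) :
    isAut (mulCode (u : ZMod 23).val) = true := by
  obtain ⟨r, rfl⟩ := hu
  revert r
  decide +kernel

/-- Multiplication by a nonzero square residue modulo 23, fixing the extra point, lies in the group of the length-24 code. -/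
theorem result (u : (ZMod 23)ˣ) (hu : IsSquare u) : Equiv.optionCongr (Units.mulLeft u) ∈ Cfsg.M24 := by
  rw [mulUnit_eq u]
  exact Cfsg.Agent.Golay.permOf_mem_M24 (mulUnit_aut u hu)

end Cfsg.Agent.S0371
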