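import Cfsg.Statements.S0375
import Cfsg.Agent.Golay.SteinerUnique
import Cfsg.Agent.OddChar.SelfDual24Span
import Cfsg.Agent.S5622

set_option autoImplicit false
open Cfsg

namespace Cfsg.Agent.S0375

/-- A doubly even self-dual binary code of length 24 with no words of weight 4 is equivalent to the length-24 code built from the squares modulo 23. -/
theorem result (C : Submodule (ZMod 2) (Fin 24 → ZMod 2)) (hdim : Module.finrank (ZMod 2) C = 12) (horth : ∀ v ∈ C, ∀ w ∈ C, ∑ i, v i * w i = 0) (h4 : ∀ w ∈ C, 4 ∣ hammingNorm w) (hno4 : ∀ w ∈ C, hammingNorm w ≠ 4) : ∃ e : Fin 24 ≃ Cfsg.GolayPt, ∀ w : Cfsg.GolayPt → ZMod 2, w ∈ Cfsg.golayCode ↔ (fun i => w (e i)) ∈ C := by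
  have hmin : ∀ w ∈ C, w ≠ 0 → 8 ≤ hammingNorm w := fun w hw h0 => by
    have h1 := h4 w hw
    have h2 := hno4 w hw
    have h3 : hammingNorm w ≠ 0 := fun e => h0 (hammingNorm_eq_zero.1 e)
    omega
  obtain ⟨f, hf, hX, hfB⟩ := Cfsg.Agent.Golay.model24 (Fintype.card_fin 24)
    (Cfsg.Agent.S5622.result C hdim horth hmin).2
  rw [Cfsg.Agent.Golay.stModel_empty] at hfB
  let e : Fin 24 ≃ Cfsg.GolayPt := Equiv.ofBijective f ⟨hf, fun q => not_not.1 ((not_congr (hX q)).1 (Finset.notMem_empty q))⟩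
  refine ⟨e, ?_⟩
  let L := LinearEquiv.funCongrLeft (ZMod 2) (ZMod 2) e
  have hsupp : ∀ w : Cfsg.GolayPt → ZMod 2, (Cfsg.support₂ (L w)).image f = Cfsg.support₂ w := fun w => by
    ext q
    simp only [Finset.mem_image, Cfsg.support₂, Finset.mem_filter, Finset.mem_univ, true_and]
    constructor
    · rintro ⟨i, hi, rfl⟩; exact hi
    · intro hq
      obtain ⟨i, rfl⟩ := e.surjective q
      exact ⟨i, hq, rfl⟩
  have hinj : ∀ v w : Fin 24 → ZMod 2, Cfsg.support₂ v = Cfsg.support₂ w → v = w := fun v w h => funext fun i => by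
    have hi := Finset.ext_iff.1 h i
    simp only [Cfsg.support₂, Finset.mem_filter, Finset.mem_univ, true_and] at hi
    have h2 : ∀ a b : ZMod 2, (a ≠ 0 ↔ b ≠ 0) → a = b := by decide
    exact h2 _ _ hi
  have hC : Submodule.map L.toLinearMap Cfsg.golayCode = C := by
    have hg : Submodule.span (ZMod 2) {w : Cfsg.GolayPt → ZMod 2 | Cfsg.support₂ w ∈ Cfsg.octads} = Cfsg.golayCode := by
      refine le_antisymm (Submodule.span_le.2 fun w hw => ?_) fun w hw => ?_
      · rw [Set.mem_ofPred_eq, Cfsg.Agent.Golay.mem_octads_iff] at hw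
        exact Cfsg.Agent.Golay.mem_golayCode_iff.2 hw.1
      · obtain ⟨i, -, hi⟩ := Cfsg.Agent.Golay.inC_eq_encode (Cfsg.Agent.Golay.mem_golayCode_iff.1 hw)
        rw [← Cfsg.Agent.Golay.wordOf_wmask w, ← hi]
        have key : ∀ l : List ℕ, (∀ r ∈ l, r ∈ Cfsg.Agent.Golay.rows) → ∀ i,
            Cfsg.Agent.Golay.wordOf (Cfsg.Agent.Golay.encAux l i) ∈
              Submodule.span (ZMod 2) {w : Cfsg.GolayPt → ZMod 2 | Cfsg.support₂ w ∈ Cfsg.octads} := by
          intro l
          induction l with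
          | nil => intro _ i; simp [Cfsg.Agent.Golay.encAux, Cfsg.Agent.Golay.wordOf_zero]
          | cons r rs ih =>
            intro h i
            rw [Cfsg.Agent.Golay.encAux, Cfsg.Agent.Golay.wordOf_xor]
            refine Submodule.add_mem _ ?_ (ih (fun x hx => h x (List.mem_cons_of_mem _ hx)) _)
            cases (i % 2 == 1)
            · simp [Cfsg.Agent.Golay.wordOf_zero]
            · refine Submodule.subset_span ?_
              obtain ⟨h1, h2⟩ := (by decide +kernel : ∀ r ∈ Cfsg.Agent.Golay.rows,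
                Cfsg.Agent.Golay.inC r = true ∧ Cfsg.Agent.Golay.pc r = 8) r (h r (List.mem_cons_self ..))
              show Cfsg.support₂ (Cfsg.Agent.Golay.wordOf r) ∈ Cfsg.octads
              rw [Cfsg.Agent.Golay.support₂_wordOf]
              exact Cfsg.Agent.Golay.octad_bset h1 h2
        exact key _ (fun r hr => hr) i
    rw [← hg, Submodule.map_span]
    refine Eq.trans (congrArg _ ?_) (Cfsg.Agent.OddChar.octad_span C hdim horth hmin)
    ext v
    constructor
    · rintro ⟨w, hw, rfl⟩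
      rw [Set.mem_ofPred_eq, ← hfB] at hw
      obtain ⟨b, ⟨⟨u, hu, rfl⟩, h8⟩, hb⟩ := hw
      have : L w = u := hinj _ _ (Finset.image_injective hf ((hsupp w).trans hb.symm))
      exact ⟨this ▸ hu, by rw [show L.toLinearMap w = u from this]; exact h8⟩
    · rintro ⟨hv, h8⟩
      refine ⟨L.symm v, ?_, L.apply_symm_apply v⟩
      rw [Set.mem_ofPred_eq, ← hfB, ← hsupp, L.apply_symm_apply]
      exact ⟨_, ⟨⟨v, hv, rfl⟩, h8⟩, rfl⟩
  intro w
  rw [← hC]
  exact ⟨fun h => ⟨w, h, rfl⟩, fun ⟨v, hv, h⟩ => L.injective h ▸ hv⟩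

end Cfsg.Agent.S0375
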