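import Cfsg.Statements.S0382
import Cfsg.Agent.Golay.Dodecad

set_option autoImplicit false
open scoped Pointwise
open Cfsg

namespace Cfsg.Agent.S0382

/-- A dodecad stabiliser in the group of the length-24 code has order 95040 = 2^6·3^3·5·11. -/
theorem result (d : Finset Cfsg.GolayPt) (hd : d ∈ Cfsg.dodecads) : Nat.card (MulAction.stabilizer Cfsg.M24 d) = 95040 := by
  rw [Nat.card_congr (Cfsg.Agent.Golay.stabEquiv d).toEquiv, Cfsg.Agent.Golay.M24_dodecad_stab_card hd]

end Cfsg.Agent.S0382
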