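import Cfsg.Statements.S0384
import Cfsg.Agent.Golay.Dodecad

set_option autoImplicit false
open scoped Pointwise
open Cfsg
open scoped Pointwise

namespace Cfsg.Agent.S0384

/-- A dodecad stabiliser is sharply 5-transitive on the dodecad. -/
theorem result (d : Finset Cfsg.GolayPt) (hd : d ∈ Cfsg.dodecads) (x y : Fin 5 ↪ Cfsg.GolayPt) (hx : ∀ i, x i ∈ d) (hy : ∀ i, y i ∈ d) : ∃! g : MulAction.stabilizer Cfsg.M24 d, ∀ i, ((g : Cfsg.M24) : Equiv.Perm Cfsg.GolayPt) (x i) = y i := by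
  obtain ⟨g, hg, hgd, hgi⟩ := Cfsg.Agent.Golay.exists_mem_dodecad_stab hd (le_refl 5) x y hx hy
  refine ⟨⟨⟨g, hg⟩, hgd⟩, hgi, ?_⟩
  rintro ⟨⟨h, hh⟩, hhd⟩ hhi
  refine Subtype.ext (Subtype.ext ?_)
  have e := Cfsg.Agent.Golay.eq_one_of_fix_five hd (σ := g⁻¹ * h) (mul_mem (inv_mem hg) hh) ?_ x hx
    (fun i => ?_)
  · exact (inv_mul_eq_one.1 e).symm
  · rw [mul_smul, show h • d = d from hhd, inv_smul_eq_iff]; exact hgd.symm
  · have h2 : h (x i) = y i := hhi i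
    rw [Equiv.Perm.mul_apply, h2, ← hgi i]
    exact Equiv.symm_apply_apply g (x i)

end Cfsg.Agent.S0384
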