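import Cfsg.Statements.S0385
import Cfsg.Agent.Golay.CodeFacts

set_option autoImplicit false
open Cfsg

namespace Cfsg.Agent.S0385

/-- The 6-point intersections of octads with a fixed dodecad form a Steiner system S(5, 6, 12) on the dodecad. -/
theorem result (d : Finset Cfsg.GolayPt) (hd : d ∈ Cfsg.dodecads) : Cfsg.IsSteinerSystem 5 6 {h : Finset {p : Cfsg.GolayPt // p ∈ d} | ∃ o ∈ Cfsg.octads, (o ∩ d).card = 6 ∧ h = Finset.subtype (fun p => p ∈ d) o} := by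
  refine ⟨?_, fun s hs => ?_⟩
  · rintro h ⟨o, ho, h6, rfl⟩
    rw [Finset.card_subtype, Finset.filter_mem_eq_inter, h6]
  have hs' : (s.map (Function.Embedding.subtype _)).card = 5 := by rw [Finset.card_map, hs]
  obtain ⟨o, ho, hso⟩ := Cfsg.Agent.Golay.exists_octad_of_five _ hs'
  have hsd : ∀ x ∈ s, (x : Cfsg.GolayPt) ∈ o := fun x hx =>
    hso (Finset.mem_map.2 ⟨x, hx, rfl⟩)
  have h5 : 5 ≤ (o ∩ d).card := hs' ▸ Finset.card_le_card (by
    intro y hy
    obtain ⟨x, hx, rfl⟩ := Finset.mem_map.1 hy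
    exact Finset.mem_inter.2 ⟨hsd x hx, x.2⟩)
  have h6 : (o ∩ d).card = 6 := by
    rcases Cfsg.Agent.Golay.inter_octad_dodecad ho hd with h | h | h <;> omega
  refine ⟨Finset.subtype (fun p => p ∈ d) o, ⟨⟨o, ho, h6, rfl⟩,
    fun x hx => Finset.mem_subtype.2 (hsd x hx)⟩, ?_⟩
  rintro h ⟨⟨o', ho', h6', rfl⟩, hsub⟩
  have : o' = o := Cfsg.Agent.Golay.octad_eq_of_five_le ho' ho (hs' ▸ Finset.card_le_card (by
    intro y hy
    obtain ⟨x, hx, rfl⟩ := Finset.mem_map.1 hy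
    exact Finset.mem_inter.2 ⟨Finset.mem_subtype.1 (hsub hx), hsd x hx⟩))
  rw [this]

end Cfsg.Agent.S0385
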