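import Cfsg.Statements.S0389
import Cfsg.Agent.Golay.DodStab

set_option autoImplicit false
open scoped Pointwise
open Cfsg

namespace Cfsg.Agent.S0389

/-- The stabiliser of a dodecad and a point on it is 3-transitive on the complementary dodecad. -/
theorem result (d : Finset Cfsg.GolayPt) (hd : d ∈ Cfsg.dodecads) (p : Cfsg.GolayPt) (hp : p ∈ d) (x y : Fin 3 ↪ Cfsg.GolayPt) (hx : ∀ i, x i ∉ d) (hy : ∀ i, y i ∉ d) : ∃ g ∈ MulAction.stabilizer Cfsg.M24 d ⊓ MulAction.stabilizer Cfsg.M24 p, ∀ i, (g : Equiv.Perm Cfsg.GolayPt) (x i) = y i := by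
  obtain ⟨g, hg, hgd, hgp, h0, h1, h2⟩ := Cfsg.Agent.Golay.dod_point_three_transitive hd hp (hx 0) (hx 1) (hx 2) (hy 0) (hy 1) (hy 2)
    (x.injective.ne (by decide)) (x.injective.ne (by decide)) (x.injective.ne (by decide))
    (y.injective.ne (by decide)) (y.injective.ne (by decide)) (y.injective.ne (by decide))
  refine ⟨⟨g, hg⟩, ⟨hgd, hgp⟩, fun i => ?_⟩
  fin_cases i
  · exact h0
  · exact h1
  · exact h2

end Cfsg.Agent.S0389
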