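import Cfsg.Statements.S0396
import Cfsg.Agent.Golay.LeechCount

set_option autoImplicit false
open Cfsg Cfsg.Agent.Golay

namespace Cfsg.Agent.S0396

/-- Exactly 398034000 lattice vectors have sum of squares 64. -/
theorem result : {x : Cfsg.GolayPt → ℤ | x ∈ Cfsg.leechLattice ∧ Cfsg.sqNorm x = 64}.ncard = 398034000 := by
  rw [show (64 : ℤ) = ((64 : ℕ) : ℤ) by norm_num, shell_eq (by norm_num), census _ allAbs_small 64 (by norm_num)]
  exact census_values.2.2.1

end Cfsg.Agent.S0396
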