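import Cfsg.Statements.S0402
import Cfsg.Agent.Golay.LeechStabSimple
import Cfsg.Agent.Leech2.ShortStab

set_option autoImplicit false
open Cfsg

namespace Cfsg.Agent.S0402

/-- Stabiliser of a minimal vector is simple of order 42305421312000. -/
theorem result (v : Cfsg.leechLattice) (hv : Cfsg.sqNorm (v : Cfsg.GolayPt → ℤ) = 32) : Cfsg.IsCo2 (MulAction.stabilizer Cfsg.Co0 v) := by
  haveI := Cfsg.Agent.Golay.co0_finite
  haveI := Fact.mk Nat.prime_two
  have hno : ∀ K : Subgroup ↥(MulAction.stabilizer ↥Co0 (⟨_, Cfsg.Agent.Golay.tgt_facts.1⟩ : ↥leechLattice)),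
      K.Normal → Nat.card K ≠ 2048 := by
    intro K hK hcard
    obtain ⟨h, hh⟩ := Cfsg.Agent.Golay.co0_transitive (Or.inl rfl)
      (v := (⟨_, Cfsg.Agent.Golay.tgt_facts.1⟩ : ↥leechLattice)) Cfsg.Agent.Golay.tgt_facts.2.2.2.2.1
      (w := Cfsg.Agent.Leech2.uL) Cfsg.Agent.Leech2.test_values.1
    let e := (Cfsg.Agent.Golay.stabConj1 h
      (⟨_, Cfsg.Agent.Golay.tgt_facts.1⟩ : ↥leechLattice)).trans (MulEquiv.subgroupCongr (by rw [hh]) :
        _ ≃* ↥Cfsg.Agent.Leech2.stabU)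
    haveI := hK.map e.toMonoidHom e.surjective
    have hc : Nat.card ↥(K.map e.toMonoidHom) = 2 ^ 11 := by
      rw [Subgroup.card_map_of_injective e.injective, hcard]; norm_num
    have := Cfsg.Agent.Leech2.no_normal_two _ (IsPGroup.of_card hc)
    rw [this, Subgroup.card_bot] at hc
    norm_num at hc
  haveI := Cfsg.Agent.Golay.co2_simple hno
  obtain ⟨g, hg⟩ := Cfsg.Agent.Golay.co0_transitive (Or.inl rfl) hv
    (w := (⟨_, Cfsg.Agent.Golay.tgt_facts.1⟩ : ↥leechLattice)) Cfsg.Agent.Golay.tgt_facts.2.2.2.2.1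
  exact ⟨MulEquiv.isSimpleGroup ((Cfsg.Agent.Golay.stabConj1 g v).trans (MulEquiv.subgroupCongr (by rw [hg]))),
    Cfsg.Agent.Golay.stab32_card hv⟩

end Cfsg.Agent.S0402
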