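import Cfsg.Statements.S0403
import Cfsg.Agent.Golay.LeechStabSimple

set_option autoImplicit false
open Cfsg

namespace Cfsg.Agent.S0403

/-- Stabiliser of a vector of sum of squares 48 is simple of order 495766656000. -/
theorem result (v : Cfsg.leechLattice) (hv : Cfsg.sqNorm (v : Cfsg.GolayPt → ℤ) = 48) : Cfsg.IsCo3 (MulAction.stabilizer Cfsg.Co0 v) := by
  open Cfsg.Agent.Golay in
  obtain ⟨g, hg⟩ := co0_transitive (Or.inr (Or.inl rfl)) hv (w := ⟨_, tgt_facts.2.1⟩) tgt_facts.2.2.2.2.2.1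
  haveI := Cfsg.Agent.Golay.co3_simple
  refine ⟨?_, Cfsg.Agent.Golay.stab48_card hv⟩
  exact MulEquiv.isSimpleGroup ((Cfsg.Agent.Golay.stabConj1 g v).trans (MulEquiv.subgroupCongr (by rw [hg])))

end Cfsg.Agent.S0403
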