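import Cfsg.Statements.S0404
import Cfsg.Agent.Golay.LeechStabSimple

set_option autoImplicit false
open Cfsg

namespace Cfsg.Agent.S0404

/-- Joint stabiliser of two minimal vectors with coordinate dot product −8 is simple of order 898128000. -/
theorem result (v w : Cfsg.leechLattice) (hv : Cfsg.sqNorm (v : Cfsg.GolayPt → ℤ) = 32) (hw : Cfsg.sqNorm (w : Cfsg.GolayPt → ℤ) = 32) (hvw : Cfsg.dotInt (v : Cfsg.GolayPt → ℤ) (w : Cfsg.GolayPt → ℤ) = -8) : Cfsg.IsMcL ↥(MulAction.stabilizer Cfsg.Co0 v ⊓ MulAction.stabilizer Cfsg.Co0 w) := by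
  open Cfsg.Agent.Golay in
  obtain ⟨h, hh⟩ := co0_transitive (Or.inl rfl) hv (w := (⟨uVec, uVec_mem⟩ : ↥leechLattice)) uVec_norm
  have hd := Cfsg.Agent.Golay.co0_dot h v w
  rw [hh, hvw] at hd
  open Cfsg.Agent.Golay in
  obtain ⟨k, k1, k2⟩ := pairs_transitive (Or.inr rfl) (v := (⟨uVec, uVec_mem⟩ : ↥leechLattice)) uVec_norm
    ((co0_norm h w).trans hw) (w' := ⟨_, tgt_facts.2.2.1⟩) tgt_facts.2.2.2.2.2.2.1 hd
    tgt_facts.2.2.2.2.2.2.2.2.1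
  haveI := Cfsg.Agent.Golay.mcl_simple.1
  have e := (Cfsg.Agent.Golay.stabInfConj (k * h) v w).trans (MulEquiv.subgroupCongr
    (show _ = MulAction.stabilizer ↥Co0 (⟨Cfsg.Agent.Golay.uVec, Cfsg.Agent.Golay.uVec_mem⟩ : ↥leechLattice) ⊓
      MulAction.stabilizer ↥Co0 (⟨_, Cfsg.Agent.Golay.tgt_facts.2.2.1⟩ : ↥leechLattice) by
      rw [mul_smul, mul_smul, hh, k1, k2]))
  exact ⟨MulEquiv.isSimpleGroup e, (Nat.card_congr e.toEquiv).trans Cfsg.Agent.Golay.mcl_simple.2⟩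

end Cfsg.Agent.S0404
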