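import Cfsg.Statements.S0405
import Cfsg.Agent.Golay.LeechStabSimple

set_option autoImplicit false
open Cfsg

namespace Cfsg.Agent.S0405

/-- Joint stabiliser of two vectors of sum of squares 48 with coordinate dot product −32 is simple of order 44352000. -/
theorem result (v w : Cfsg.leechLattice) (hv : Cfsg.sqNorm (v : Cfsg.GolayPt → ℤ) = 48) (hw : Cfsg.sqNorm (w : Cfsg.GolayPt → ℤ) = 48) (hvw : Cfsg.dotInt (v : Cfsg.GolayPt → ℤ) (w : Cfsg.GolayPt → ℤ) = -32) : Cfsg.IsHS ↥(MulAction.stabilizer Cfsg.Co0 v ⊓ MulAction.stabilizer Cfsg.Co0 w) := by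
  obtain ⟨hx, hxv⟩ := Cfsg.Agent.Golay.hs_third hv hw hvw
  obtain ⟨-, hvm, -, hwm, -, hvn, -, hwn, -, hd⟩ := Cfsg.Agent.Golay.tgt_facts
  obtain ⟨hx0, hxv0⟩ := Cfsg.Agent.Golay.hs_third (v := ⟨_, hvm⟩) (w := ⟨_, hwm⟩) hvn hwn hd
  obtain ⟨h, hh⟩ := Cfsg.Agent.Golay.co0_transitive (Or.inl rfl) hx hx0
  have hd' := Cfsg.Agent.Golay.co0_dot h (-(v + w)) v
  rw [hh, hxv] at hd'
  obtain ⟨k, k1, k2⟩ := Cfsg.Agent.Golay.mixed_transitive hx0 ((Cfsg.Agent.Golay.co0_norm h v).trans hv)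
    hvn hd' hxv0
  haveI := Cfsg.Agent.Golay.hs_simple
  have e := (Cfsg.Agent.Golay.stabInfConj (k * h) (-(v + w)) v).trans (MulEquiv.subgroupCongr
    (show _ = _ by rw [mul_smul, mul_smul, hh, k1, k2]))
  rw [Cfsg.Agent.Golay.hs_stab_eq, Cfsg.Agent.Golay.hs_stab_eq] at e
  exact ⟨MulEquiv.isSimpleGroup e, Cfsg.Agent.Golay.hs_card hv hw hvw⟩

end Cfsg.Agent.S0405
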