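import Cfsg.Statements.S0413
import Cfsg.Agent.Golay.SteinerAut

set_option autoImplicit false
open Cfsg

namespace Cfsg.Agent.S0413

/-- Aut of an S(4, 7, 23) is simple of order 10200960 and 4-transitive. -/
theorem result {α : Type*} [Fintype α] [DecidableEq α] (hα : Fintype.card α = 23) {B : Set (Finset α)} (hB : Cfsg.IsSteinerSystem 4 7 B) : Cfsg.IsM23 (Cfsg.setSystemAut B) ∧ MulAction.IsMultiplyPretransitive (Cfsg.setSystemAut B) α 4 := by
  obtain ⟨f, hf, hX, hfB⟩ := Cfsg.Agent.Golay.model23 hα hB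
  let e := (Cfsg.Agent.Golay.autEquiv hf hX hfB).trans (MulEquiv.subgroupCongr Cfsg.Agent.Golay.M23_eq_modelGroup)
  haveI := Cfsg.Agent.Golay.M23_simple Cfsg.Agent.Golay.ptA
  exact ⟨⟨MulEquiv.isSimpleGroup e, by rw [Nat.card_congr e.toEquiv, Cfsg.Agent.Golay.M24_stab_card]⟩,
    Cfsg.Agent.Golay.model_trans hf hX hfB (by simp)⟩

end Cfsg.Agent.S0413
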