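import Cfsg.Statements.S0427
import Cfsg.Agent.Golay.Steiner

set_option autoImplicit false
open Cfsg

namespace Cfsg.Agent.S0427

/-- The block graph (adjacent = disjoint) of an S(3, 6, 22) is strongly regular with parameters (77, 16, 0, 4). -/
theorem result {α : Type*} [Fintype α] (hα : Fintype.card α = 22) {B : Set (Finset α)} (hB : Cfsg.IsSteinerSystem 3 6 B) [Fintype B] [DecidableRel (Cfsg.blockGraph B).Adj] : (Cfsg.blockGraph B).IsSRGWith 77 16 0 4 := by
  classical
  have hcard : Fintype.card B = 77 := by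
    have h := Cfsg.Agent.Golay.ncard_blocks hB
    rw [hα, show Nat.choose 22 3 = 77 * Nat.choose 6 3 by decide +kernel] at h
    rw [← Nat.card_eq_fintype_card, Nat.card_coe_set_eq]
    exact Nat.eq_of_mul_eq_mul_right (Nat.choose_pos (by norm_num)) h
  have hadj : ∀ b c : B, (Cfsg.blockGraph B).Adj b c ↔ Disjoint (b : Finset α) (c : Finset α) := by
    intro b c
    rw [Cfsg.blockGraph, SimpleGraph.fromRel_adj]
    refine ⟨fun h => h.2.elim id (fun e => e.symm), fun h => ⟨?_, Or.inl h⟩⟩
    rintro rfl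
    have := hB.1 b b.2
    rw [disjoint_self.1 h] at this
    simp at this
  have hnb : ∀ (S : Finset B) (P : Finset α → Prop), (∀ c : B, c ∈ S ↔ P c) →
      S.card = {g : Finset α | g ∈ B ∧ P g}.ncard := by
    intro S P h
    rw [← Finset.card_map (Function.Embedding.subtype _), ← Set.ncard_coe_finset]
    congr 1
    ext g
    simp only [Finset.coe_map, Function.Embedding.subtype_apply, Set.mem_image, Finset.mem_coe,
      Set.mem_ofPred_eq]
    exact ⟨fun ⟨c, hc, e⟩ => e ▸ ⟨c.2, (h c).1 hc⟩, fun ⟨hg, hP⟩ => ⟨⟨g, hg⟩, (h _).2 hP, rfl⟩⟩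
  refine ⟨hcard, fun b => ?_, fun b c hbc => ?_, fun b c hne hbc => ?_⟩
  · rw [← SimpleGraph.card_neighborFinset_eq_degree, hnb _ (fun g => Disjoint (b : Finset α) g)
      (fun c => by rw [SimpleGraph.mem_neighborFinset]; exact hadj b c),
      ← (Cfsg.Agent.Golay.block_dist_22 hα hB b.2).1, Cfsg.Agent.Golay.interCount_ncard]
    congr 1
    ext g
    simp [Finset.disjoint_iff_inter_eq_empty, Finset.inter_comm (b : Finset α) g]
  · rw [Fintype.card_eq_zero_iff]
    refine ⟨fun x => ?_⟩
    obtain ⟨x, hx⟩ := x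
    rw [SimpleGraph.mem_commonNeighbors, hadj, hadj] at hx
    rw [hadj] at hbc
    exact Cfsg.Agent.Golay.no_three_disjoint hα hB b.2 c.2 x.2 hbc hx.1 hx.2
  · rw [← Nat.card_eq_fintype_card, Nat.card_coe_set_eq, Set.ncard_eq_toFinset_card']
    rw [hnb _ (fun g => Disjoint (b : Finset α) g ∧ Disjoint (c : Finset α) g)
      (fun x => by rw [Set.mem_toFinset, SimpleGraph.mem_commonNeighbors, hadj, hadj])]
    exact Cfsg.Agent.Golay.common_disjoint hα hB b.2 c.2 (fun e => hne (Subtype.ext e))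
      (fun h => hbc ((hadj b c).2 h))

end Cfsg.Agent.S0427
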