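import Cfsg.Statements.S0428
import Cfsg.Agent.Golay.Steiner

set_option autoImplicit false
open Cfsg

namespace Cfsg.Agent.S0428

/-- The point-block graph of an S(3, 6, 22) is strongly regular with parameters (100, 22, 0, 6). -/
theorem result {α : Type*} [Fintype α] (hα : Fintype.card α = 22) {B : Set (Finset α)} (hB : Cfsg.IsSteinerSystem 3 6 B) [Fintype B] [DecidableRel (Cfsg.pointBlockGraph B).Adj] : (Cfsg.pointBlockGraph B).IsSRGWith 100 22 0 6 := by
  classical
  have hne : ∀ {b c : Finset α}, b ∈ B → Disjoint b c → b ≠ c := by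
    rintro b c hb h rfl
    have := hB.1 b hb
    rw [disjoint_self.1 h] at this
    simp at this
  have a1 : ∀ a : α, (Cfsg.pointBlockGraph B).Adj none (some (Sum.inl a)) := fun a => by
    simp [Cfsg.pointBlockGraph, Cfsg.pointBlockRel]
  have a2 : ∀ b : B, ¬ (Cfsg.pointBlockGraph B).Adj none (some (Sum.inr b)) := fun b => by
    simp [Cfsg.pointBlockGraph, Cfsg.pointBlockRel]
  have a3 : ∀ a a' : α, ¬ (Cfsg.pointBlockGraph B).Adj (some (Sum.inl a)) (some (Sum.inl a')) :=
    fun a a' => by simp [Cfsg.pointBlockGraph, Cfsg.pointBlockRel]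
  have a4 : ∀ (a : α) (b : B), (Cfsg.pointBlockGraph B).Adj (some (Sum.inl a)) (some (Sum.inr b)) ↔
      a ∈ (b : Finset α) := fun a b => by simp [Cfsg.pointBlockGraph, Cfsg.pointBlockRel]
  have a5 : ∀ b c : B, (Cfsg.pointBlockGraph B).Adj (some (Sum.inr b)) (some (Sum.inr c)) ↔
      Disjoint (b : Finset α) (c : Finset α) := fun b c => by
    simp only [Cfsg.pointBlockGraph, SimpleGraph.fromRel_adj, Cfsg.pointBlockRel]
    refine ⟨fun h => h.2.elim id (fun e => e.symm), fun h => ⟨fun e => ?_, Or.inl h⟩⟩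
    simp only [Option.some.injEq, Sum.inr.injEq] at e
    exact hne b.2 h (congrArg Subtype.val e)
  have a4' : ∀ (a : α) (b : B), (Cfsg.pointBlockGraph B).Adj (some (Sum.inr b)) (some (Sum.inl a)) ↔
      a ∈ (b : Finset α) := fun a b => by rw [SimpleGraph.adj_comm]; exact a4 a b
  have hblk : ∀ (P : Finset α → Prop) [DecidablePred P], {c : B | P (c : Finset α)}.ncard
      = ((Cfsg.Agent.Golay.blocksF B).filter P).card := by
    intro P _
    rw [← Set.ncard_coe_finset, ← Set.ncard_image_of_injective _ Subtype.val_injective]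
    congr 1
    ext g
    simp [Cfsg.Agent.Golay.mem_blocksF, and_comm]
  have hcard : Fintype.card B = 77 := by
    have h := Cfsg.Agent.Golay.ncard_blocks hB
    rw [hα, show Nat.choose 22 3 = 77 * Nat.choose 6 3 by decide +kernel] at h
    rw [← Nat.card_eq_fintype_card, Nat.card_coe_set_eq]
    exact Nat.eq_of_mul_eq_mul_right (Nat.choose_pos (by norm_num)) h
  have huniv : (Set.univ : Set α).ncard = 22 := by rw [Set.ncard_univ, Nat.card_eq_fintype_card, hα]
  have hmem : ∀ b : B, {a : α | a ∈ (b : Finset α)}.ncard = 6 := fun b => by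
    rw [show {a : α | a ∈ (b : Finset α)} = ↑(b : Finset α) from rfl, Set.ncard_coe_finset, hB.1 _ b.2]
  refine ⟨by simp [hα, hcard], fun v => ?_, fun v w hvw => ?_, fun v w hne' hvw => ?_⟩
  · rw [← SimpleGraph.card_neighborSet_eq_degree, ← Nat.card_eq_fintype_card, Nat.card_coe_set_eq,
      Cfsg.Agent.Golay.ncard_option_sum]
    simp only [SimpleGraph.mem_neighborSet]
    rcases v with _ | a | b
    · simp [a1, a2, huniv, Nat.card_eq_fintype_card, hα]
    · simp only [if_pos (a1 a).symm, a3, a4, Set.ofPred_false, Set.ncard_empty, hblk (fun g => a ∈ g)]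
      have h := (Cfsg.Agent.Golay.card_through_22 hα hB {a}).1 (Finset.card_singleton a)
      simp only [Finset.singleton_subset_iff] at h
      omega
    · simp only [if_neg (fun h => a2 b ((Cfsg.pointBlockGraph B).adj_symm h)), a4', a5, hmem, hblk (fun g => Disjoint (b : Finset α) g)]
      have h := (Cfsg.Agent.Golay.block_dist_22 hα hB b.2).1
      rw [Cfsg.Agent.Golay.interCount, Finset.filter_congr (q := fun g => Disjoint (b : Finset α) g) (fun g _ => by
        rw [Finset.card_eq_zero, ← Finset.disjoint_iff_inter_eq_empty, disjoint_comm])] at h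
      omega
  · rw [← Nat.card_eq_fintype_card, Nat.card_coe_set_eq, Set.ncard_eq_zero (Set.toFinite _),
      Set.eq_empty_iff_forall_notMem]
    intro x hx
    rw [SimpleGraph.mem_commonNeighbors] at hx
    obtain ⟨h1, h2⟩ := hx
    rcases v with _ | a | b <;> rcases w with _ | a' | b' <;> rcases x with _ | a'' | b'' <;>
      first
      | exact (Cfsg.pointBlockGraph B).loopless.irrefl _ hvw
      | exact (Cfsg.pointBlockGraph B).loopless.irrefl _ h1
      | exact (Cfsg.pointBlockGraph B).loopless.irrefl _ h2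
      | exact a3 _ _ hvw | exact a3 _ _ h1 | exact a3 _ _ h2
      | exact a2 _ hvw | exact a2 _ hvw.symm | exact a2 _ h1 | exact a2 _ h1.symm
      | exact a2 _ h2 | exact a2 _ h2.symm
      | exact Finset.disjoint_left.1 ((a5 _ _).1 h2) ((a4 _ _).1 hvw) ((a4 _ _).1 h1)
      | exact Finset.disjoint_left.1 ((a5 _ _).1 h1) ((a4' _ _).1 hvw) ((a4 _ _).1 h2)
      | exact Finset.disjoint_left.1 ((a5 _ _).1 hvw) ((a4' _ _).1 h1) ((a4' _ _).1 h2)
      | exact Cfsg.Agent.Golay.no_three_disjoint hα hB (Subtype.prop _) (Subtype.prop _) (Subtype.prop _)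
          ((a5 _ _).1 hvw) ((a5 _ _).1 h1) ((a5 _ _).1 h2)
  · rw [← Nat.card_eq_fintype_card, Nat.card_coe_set_eq, Cfsg.Agent.Golay.ncard_option_sum]
    simp only [SimpleGraph.mem_commonNeighbors]
    rcases v with _ | a | b <;> rcases w with _ | a' | b'
    · exact absurd rfl hne'
    · exact absurd (a1 a') hvw
    · have hf : ∀ c : B, ¬ ((Cfsg.pointBlockGraph B).Adj none (some (Sum.inr c)) ∧
          (Cfsg.pointBlockGraph B).Adj (some (Sum.inr b')) (some (Sum.inr c))) := fun c h => a2 c h.1
      simp [a1, a4', hf, hmem, hB.1 _ b'.2]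
    · exact absurd (a1 a).symm hvw
    · have h := (Cfsg.Agent.Golay.card_through_22 hα hB {a, a'}).2
        (Finset.card_pair (fun e => hne' (by rw [e])))
      simp only [Finset.insert_subset_iff, Finset.singleton_subset_iff] at h
      simp only [if_pos (⟨(a1 a).symm, (a1 a').symm⟩ : _ ∧ _), a3, a4, and_self, Set.ofPred_false,
        Set.ncard_empty, hblk (fun g => a ∈ g ∧ a' ∈ g)]
      omega
    · have h := Cfsg.Agent.Golay.card_through_disjoint hα hB b'.2 (fun h => hvw ((a4 a b').2 h))
      simp only [if_neg (fun h : _ ∧ _ => a2 b' ((Cfsg.pointBlockGraph B).adj_symm h.2)), a3, a4, a4', a5, false_and, Set.ofPred_false,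
        Set.ncard_empty, hblk (fun g => a ∈ g ∧ Disjoint (b' : Finset α) g)]
      omega
    · have hf : ∀ c : B, ¬ ((Cfsg.pointBlockGraph B).Adj (some (Sum.inr b)) (some (Sum.inr c)) ∧
          (Cfsg.pointBlockGraph B).Adj none (some (Sum.inr c))) := fun c h => a2 c h.2
      simp [a1, a4', hf, hmem, hB.1 _ b.2]
    · have h := Cfsg.Agent.Golay.card_through_disjoint hα hB b.2 (fun h => hvw ((a4' a' b).2 h))
      simp only [if_neg (fun h : _ ∧ _ => a2 b ((Cfsg.pointBlockGraph B).adj_symm h.1)), a3, a4, a4', a5, and_false, Set.ofPred_false,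
        Set.ncard_empty, hblk (fun g => Disjoint (b : Finset α) g ∧ a' ∈ g)]
      rw [Finset.filter_congr (fun g _ => and_comm)]
      omega
    · have hbb : (b : Finset α) ≠ b' := fun e => hne' (by rw [Subtype.ext e])
      have hnd : ¬ Disjoint (b : Finset α) b' := fun h => hvw ((a5 b b').2 h)
      have h := Cfsg.Agent.Golay.common_disjoint hα hB b.2 b'.2 hbb hnd
      have h2 : {a : α | a ∈ (b : Finset α) ∧ a ∈ (b' : Finset α)}.ncard = 2 := by
        rw [show {a : α | a ∈ (b : Finset α) ∧ a ∈ (b' : Finset α)} = ↑((b : Finset α) ∩ b') by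
          ext; simp, Set.ncard_coe_finset]
        exact (Cfsg.Agent.Golay.block_inter_22 hα hB b.2 b'.2 hbb).resolve_left
          (fun e => hnd (Finset.disjoint_iff_inter_eq_empty.2 (Finset.card_eq_zero.1 e)))
      simp only [if_neg (fun h : _ ∧ _ => a2 b ((Cfsg.pointBlockGraph B).adj_symm h.1)), a4', a5, h2,
        hblk (fun g => Disjoint (b : Finset α) g ∧ Disjoint (b' : Finset α) g)]
      have e : ((Cfsg.Agent.Golay.blocksF B).filter
          fun g => Disjoint (b : Finset α) g ∧ Disjoint (b' : Finset α) g).card = 4 := by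
        rw [← Set.ncard_coe_finset, Finset.coe_filter]
        simpa only [Cfsg.Agent.Golay.mem_blocksF] using h
      rw [e]

end Cfsg.Agent.S0428
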