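import Cfsg.Statements.S0435
import Cfsg.Agent.Chars.Order7920Classes

set_option autoImplicit false
open Cfsg

namespace Cfsg.Agent.S0435

/-- Involution centralisers in a simple group of order 7920 have order 48. -/
theorem result {G : Type*} [Group G] [Finite G] (hG : Cfsg.IsM11 G) (x : G) (hx : orderOf x = 2) : Nat.card (Subgroup.centralizer ({x} : Set G)) = 48 := by
  classical
  haveI := Fintype.ofFinite G
  haveI := hG.1
  haveI : Fact (Nat.Prime 5) := ⟨by norm_num⟩
  haveI : Fact (Nat.Prime 11) := ⟨by norm_num⟩
  obtain ⟨L⟩ := Chars.Order7920.exists_labels hG.2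
  exact (Chars.Order7920.involution hG.2 L hx).1

end Cfsg.Agent.S0435
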