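import Cfsg.Statements.S0439
-- import your own Cfsg.Agent.* helpers here

set_option autoImplicit false
open Cfsg

namespace Cfsg.Agent.S0439

theorem swap_mul_swap_same_cases {α : Type*} [DecidableEq α] [Fintype α] {a b c : α}
    (hab : a ≠ b) (hac : a ≠ c) :
    (Equiv.swap a b * Equiv.swap a c) ^ 2 = 1 ∨ (Equiv.swap a b * Equiv.swap a c) ^ 3 = 1 := by
  by_cases hbc : b = c
  · subst hbc
    left
    rw [Equiv.swap_mul_self, one_pow]
  · right
    have := (Equiv.Perm.isThreeCycle_swap_mul_swap_same hab hac hbc).orderOf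
    rw [← this, pow_orderOf_eq_one]

theorem swap_mul_swap_cases {α : Type*} [DecidableEq α] [Fintype α] {a b c d : α}
    (hab : a ≠ b) (hcd : c ≠ d) :
    (Equiv.swap a b * Equiv.swap c d) ^ 2 = 1 ∨ (Equiv.swap a b * Equiv.swap c d) ^ 3 = 1 := by
  by_cases hac : a = c
  · subst hac; exact swap_mul_swap_same_cases hab hcd
  by_cases had : a = d
  · subst had; rw [Equiv.swap_comm c a]; exact swap_mul_swap_same_cases hab hcd.symm
  by_cases hbc : b = c
  · subst hbc; rw [Equiv.swap_comm a b]; exact swap_mul_swap_same_cases hab.symm hcd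
  by_cases hbd : b = d
  · subst hbd; rw [Equiv.swap_comm a b, Equiv.swap_comm c b]
    exact swap_mul_swap_same_cases hab.symm hcd.symm
  left
  have hcomm : Commute (Equiv.swap a b) (Equiv.swap c d) := by
    show Equiv.swap a b * Equiv.swap c d = Equiv.swap c d * Equiv.swap a b
    rw [Equiv.mul_swap_eq_swap_mul, Equiv.swap_apply_of_ne_of_ne (Ne.symm hac) (Ne.symm hbc),
      Equiv.swap_apply_of_ne_of_ne (Ne.symm had) (Ne.symm hbd)]
  rw [hcomm.mul_pow, pow_two, pow_two, Equiv.swap_mul_self, Equiv.swap_mul_self, one_mul]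

/-- In the symmetric group of degree n ≥ 2, the set of transpositions is a conjugacy class of 3-transpositions which generates the group. -/
theorem result (n : ℕ) (hn : 2 ≤ n) : Cfsg.IsThreeTranspositionClass {σ : Equiv.Perm (Fin n) | σ.IsSwap} := by
  haveI : NeZero n := ⟨by omega⟩
  refine ⟨⟨?_, ?_⟩, ?_, Equiv.Perm.closure_isSwap⟩
  · rintro d ⟨x, y, hxy, rfl⟩
    exact orderOf_eq_prime (by rw [pow_two, Equiv.swap_mul_self]) (fun h => hxy (Equiv.swap_eq_one_iff.1 h))
  · rintro d ⟨a, b, hab, rfl⟩ e ⟨c, d, hcd, rfl⟩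
    exact swap_mul_swap_cases hab hcd
  · have h01 : (⟨0, by omega⟩ : Fin n) ≠ ⟨1, by omega⟩ := by simp [Fin.ext_iff]
    refine ⟨Equiv.swap ⟨0, by omega⟩ ⟨1, by omega⟩, ⟨_, _, h01, rfl⟩, ?_⟩
    ext σ
    show σ.IsSwap ↔ IsConj _ σ
    rw [isConj_iff]
    constructor
    · rintro ⟨x, y, hxy, rfl⟩
      exact isConj_iff.1 (Equiv.Perm.isConj_swap h01 hxy)
    · rintro ⟨c, rfl⟩
      exact ⟨c ⟨0, by omega⟩, c ⟨1, by omega⟩, c.injective.ne h01, by
        rw [Equiv.mul_swap_eq_swap_mul, mul_assoc, mul_inv_cancel, mul_one]⟩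

end Cfsg.Agent.S0439
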