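import Cfsg.Statements.S0442
import Mathlib.Tactic.Group
-- import your own Cfsg.Agent.* helpers here

set_option autoImplicit false
open Cfsg

namespace Cfsg.Agent.S0442

/-- A standard trick for producing elements of an involution centraliser: for an involution a and an element g, let b be the conjugate g⁻¹ * a * g. If a * b has odd order 2m + 1 then g * (a * b) ^ m commutes with a; if a * b has even order 2m then (a * b) ^ m and (a * (g * a * g⁻¹)) ^ m commute with a. -/
theorem result {G : Type*} [Group G] (a g : G) (ha : orderOf a = 2) : (∀ m : ℕ, orderOf (a * (g⁻¹ * a * g)) = 2 * m + 1 → Commute (g * (a * (g⁻¹ * a * g)) ^ m) a) ∧ (∀ m : ℕ, orderOf (a * (g⁻¹ * a * g)) = 2 * m → Commute ((a * (g⁻¹ * a * g)) ^ m) a ∧ Commute ((a * (g * a * g⁻¹)) ^ m) a) := by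
  have aa : a * a = 1 := by rw [← pow_two, ← ha, pow_orderOf_eq_one]
  have key : ∀ y : G, y * y = 1 → ∀ m : ℕ, a * (a * y) ^ m = ((a * y) ^ m)⁻¹ * a := by
    intro y yy m
    have h : SemiconjBy a (a * y) (a * y)⁻¹ := by
      show a * (a * y) = (a * y)⁻¹ * a
      rw [mul_inv_rev, inv_eq_of_mul_eq_one_left aa, inv_eq_of_mul_eq_one_left yy,
        ← mul_assoc a a y, aa, one_mul, mul_assoc, aa, mul_one]
    have := h.pow_right m
    rwa [inv_pow] at this
  have even_case : ∀ y : G, y * y = 1 → ∀ m : ℕ, (a * y) ^ (2 * m) = 1 →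
      Commute ((a * y) ^ m) a := by
    intro y yy m hm
    have h1 : ((a * y) ^ m)⁻¹ = (a * y) ^ m :=
      inv_eq_of_mul_eq_one_left (by rw [← pow_add, ← two_mul, hm])
    have h2 := key y yy m
    rw [h1] at h2
    exact h2.symm
  have yy : (g⁻¹ * a * g) * (g⁻¹ * a * g) = 1 := by
    simp only [mul_assoc, mul_inv_cancel_left]
    rw [← mul_assoc a a g, aa, one_mul, inv_mul_cancel]
  have zz : (g * a * g⁻¹) * (g * a * g⁻¹) = 1 := by
    simp only [mul_assoc, inv_mul_cancel_left]
    rw [← mul_assoc a a g⁻¹, aa, one_mul, mul_inv_cancel]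
  refine ⟨fun m hm => ?_, fun m hm => ?_⟩
  · set x := a * (g⁻¹ * a * g) with hx
    set u := x ^ m with hu
    have h1 : a * u = u⁻¹ * a := key _ yy m
    have h2 : u * a = a * u⁻¹ := by
      rw [eq_mul_inv_iff_mul_eq, mul_assoc, h1, mul_inv_cancel_left]
    have h3 : u * u = x⁻¹ := by
      rw [eq_inv_iff_mul_eq_one, hu, ← pow_add, ← pow_succ, ← two_mul, ← hm, pow_orderOf_eq_one]
    have h4 : u * a * u⁻¹ = g⁻¹ * a * g := by
      rw [mul_assoc, ← h2, ← mul_assoc, h3, hx, mul_inv_rev, inv_eq_of_mul_eq_one_left aa,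
        mul_assoc, aa, mul_one, inv_eq_of_mul_eq_one_left yy]
    show g * u * a = a * (g * u)
    calc g * u * a = g * (u * a * u⁻¹) * u := by group
      _ = a * (g * u) := by rw [h4]; group
  · refine ⟨even_case _ yy m (by rw [← hm, pow_orderOf_eq_one]), even_case _ zz m ?_⟩
    have h : SemiconjBy g (a * (g⁻¹ * a * g)) (a * (g * a * g⁻¹))⁻¹ := by
      show g * (a * (g⁻¹ * a * g)) = (a * (g * a * g⁻¹))⁻¹ * g
      rw [mul_inv_rev, inv_eq_of_mul_eq_one_left zz, inv_eq_of_mul_eq_one_left aa]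
      group
    have := h.pow_right (2 * m)
    rw [← hm, pow_orderOf_eq_one, hm, inv_pow] at this
    unfold SemiconjBy at this
    rw [mul_one] at this
    exact inv_eq_one.1 (mul_eq_right.1 this.symm)

end Cfsg.Agent.S0442
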