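import Cfsg.Statements.S0443
-- import your own Cfsg.Agent.* helpers here

set_option autoImplicit false
open Cfsg

namespace Cfsg.Agent.S0443

/-- Two definitions of a 2-central involution agree: an element t of order 2 of a finite group lies in the centre of some Sylow 2-subgroup if and only if its centraliser contains some Sylow 2-subgroup. -/
theorem result {G : Type*} [Group G] [Finite G] (t : G) (ht : orderOf t = 2) : Cfsg.IsTwoCentralInvolution t ↔ ∃ P : Sylow 2 G, (P : Subgroup G) ≤ Subgroup.centralizer ({t} : Set G) := by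
  refine ⟨?_, ?_⟩
  · rintro ⟨-, P, -, hP⟩
    exact ⟨P, fun x hx => Subgroup.mem_centralizer_singleton_iff.2 (hP x hx)⟩
  · rintro ⟨P, hP⟩
    have hP' : ∀ x ∈ P, x * t = t * x := fun x hx =>
      Subgroup.mem_centralizer_singleton_iff.1 (hP hx)
    refine ⟨ht, P, ?_, hP'⟩
    have hN : Subgroup.zpowers t ≤ Subgroup.normalizer ((P : Subgroup G) : Set G) := by
      rw [Subgroup.zpowers_le]
      refine (Subgroup.centralizer_le_normalizer _) ?_
      rw [Subgroup.mem_centralizer_iff]
      exact fun x hx => hP' x hx
    have h2 : IsPGroup 2 (Subgroup.zpowers t) :=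
      IsPGroup.of_card (n := 1) (by rw [Nat.card_zpowers, ht, pow_one])
    have hsup := P.3 (h2.to_sup_of_normal_right' P.2 hN) le_sup_right
    show t ∈ (P : Subgroup G)
    rw [← hsup]
    exact Subgroup.mem_sup_left (Subgroup.mem_zpowers t)

end Cfsg.Agent.S0443
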