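import Cfsg.Statements.S0445
import Cfsg.Agent.Linear.TransvCent
import Cfsg.Agent.Linear.ThreeTransp
-- import your own Cfsg.Agent.* helpers here

set_option autoImplicit false
open Cfsg

namespace Cfsg.Agent.S0445

theorem toGL_surjective {n : Type*} [Fintype n] [DecidableEq n] {R : Type*} [CommRing R] (h : ∀ a : Rˣ, a = 1) :
    Function.Surjective (Matrix.SpecialLinearGroup.toGL : Matrix.SpecialLinearGroup n R → GL n R) := fun g =>
  ⟨⟨g.1, by simpa using congrArg Units.val (h (Matrix.GeneralLinearGroup.det g))⟩, Units.ext rfl⟩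

/-- In the special linear group of dimension 5 over the field with two elements, the centraliser of a transvection has order 21504 = 2 ^ 7 · 168 (it is an extension of an extraspecial group of order 2 ^ 7 by the simple group of order 168). -/
theorem result (s : Matrix.SpecialLinearGroup (Fin 5) (ZMod 2)) (hs : (s : Matrix (Fin 5) (Fin 5) (ZMod 2)) = Matrix.transvection 0 1 1) : Nat.card (Subgroup.centralizer ({s} : Set (Matrix.SpecialLinearGroup (Fin 5) (ZMod 2)))) = 21504 := by
  let ι : Matrix.SpecialLinearGroup (Fin 5) (ZMod 2) →* GL (Fin 5) (ZMod 2) := Matrix.SpecialLinearGroup.toGL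
  have hι : Function.Injective ι := fun a b h => Subtype.ext (congrArg Units.val h)
  have hsurj : Function.Surjective ι := toGL_surjective (by decide)
  let e : Matrix.SpecialLinearGroup (Fin 5) (ZMod 2) ≃* GL (Fin 5) (ZMod 2) := MulEquiv.ofBijective ι ⟨hι, hsurj⟩
  have hmap : (Subgroup.centralizer ({s} : Set (Matrix.SpecialLinearGroup (Fin 5) (ZMod 2)))).map e.toMonoidHom =
      Subgroup.centralizer ({e s} : Set (GL (Fin 5) (ZMod 2))) := by
    ext x
    rw [Subgroup.mem_map_equiv, Subgroup.mem_centralizer_singleton_iff, Subgroup.mem_centralizer_singleton_iff,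
      ← e.injective.eq_iff, map_mul, map_mul, MulEquiv.apply_symm_apply]
  rw [Nat.card_congr (Subgroup.equivMapOfInjective _ e.toMonoidHom e.injective).toEquiv, hmap,
    Cfsg.Agent.Linear.TransvCent.card_centralizer (by norm_num)]
  · simp [Fin.prod_univ_three, ZMod.card]
  · show Cfsg.IsTransvection (s : Matrix (Fin 5) (Fin 5) (ZMod 2))
    rw [hs]
    have hN : Matrix.transvection (0 : Fin 5) 1 (1 : ZMod 2) - 1 =
        Matrix.vecMulVec (Pi.single 0 1) (Pi.single 1 1) := by
      rw [Matrix.transvection, add_sub_cancel_left, ← Matrix.single_eq_single_vecMulVec_single]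
    refine ⟨?_, by rw [hN, Matrix.vecMulVec_mul_vecMulVec]; simp⟩
    rw [hN, Cfsg.Agent.Linear.ThreeTransp.rank_eq_one_iff]
    refine ⟨Pi.single 0 1, LinearMap.proj 1, by decide, fun h => ?_, fun x => ?_⟩
    · exact absurd (LinearMap.congr_fun h (Pi.single 1 1)) (by simp)
    · rw [Matrix.vecMulVec_mulVec]
      simp

end Cfsg.Agent.S0445
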