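import Cfsg.Statements.S0446
-- import your own Cfsg.Agent.* helpers here

set_option autoImplicit false
open Cfsg

namespace Cfsg.Agent.S0446

/-- Every finite group of even order contains a 2-central involution, i.e. an element of order 2 in the centre of some Sylow 2-subgroup. -/
theorem result {G : Type*} [Group G] [Finite G] (h : Even (Nat.card G)) : ∃ t : G, Cfsg.IsTwoCentralInvolution t := by
  haveI : Fact (Nat.Prime 2) := ⟨Nat.prime_two⟩
  obtain ⟨P⟩ : Nonempty (Sylow 2 G) := inferInstance
  haveI : Nontrivial P := by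
    rw [← Finite.one_lt_card_iff_nontrivial]
    exact lt_of_lt_of_le one_lt_two (Nat.le_of_dvd Nat.card_pos
      (by simpa using P.pow_dvd_card_of_pow_dvd_card (n := 1) (by simpa using h.two_dvd)))
  haveI : Nontrivial (Subgroup.center (P : Subgroup G)) := P.2.center_nontrivial
  obtain ⟨n, hn, hc⟩ :=
    (IsPGroup.to_subgroup P.2 (Subgroup.center (P : Subgroup G))).nontrivial_iff_card.1 this
  have hd : 2 ∣ Nat.card (Subgroup.center (P : Subgroup G)) := hc ▸ dvd_pow_self 2 (by omega)
  obtain ⟨z, hz⟩ := exists_prime_orderOf_dvd_card' 2 hd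
  refine ⟨((z : P) : G), ?_, P, (z : P).2, fun x hx => ?_⟩
  · rw [Subgroup.orderOf_coe, Subgroup.orderOf_coe, hz]
  · exact congrArg Subtype.val (Subgroup.mem_center_iff.1 z.2 ⟨x, hx⟩)

end Cfsg.Agent.S0446
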