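import Cfsg.Statements.S1684
import Cfsg.Agent.Chars.Fi22U6.Main
import Cfsg.Agent.Screen.CosetEnum.Fi22Ord.Main
import Cfsg.Agent.S1687

set_option autoImplicit false
set_option maxRecDepth 20000
open Cfsg

namespace Cfsg.Agent.S1684

/-- In the presented Fischer group Fi₂₂, the subgroup generated by the images of a, c, d, e, f, g, h, i and (abcdeh)^5 is a non-split double cover of PSU(6, 2) (realised over a field with four elements). -/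
theorem result : ∃ (K : Type) (_ : Field K) (_ : Fintype K), Fintype.card K = 4 ∧ Cfsg.IsNonsplitDoubleCover (((Subgroup.closure ({Cfsg.Spor.Fi22.a, Cfsg.Spor.Fi22.c, Cfsg.Spor.Fi22.d, Cfsg.Spor.Fi22.e, Cfsg.Spor.Fi22.f, Cfsg.Spor.Fi22.g, Cfsg.Spor.Fi22.h, Cfsg.Spor.Fi22.i, (Cfsg.Spor.Fi22.a * Cfsg.Spor.Fi22.b * Cfsg.Spor.Fi22.c * Cfsg.Spor.Fi22.d * Cfsg.Spor.Fi22.e * Cfsg.Spor.Fi22.h) ^ 5} : Set (FreeGroup Cfsg.Spor.Fi22.Gen))).map (PresentedGroup.mk (Cfsg.Spor.coxRelators Cfsg.Spor.Fi22.edges ∪ {r | r ∈ Cfsg.Spor.Fi22.extra})))) (Cfsg.PSU 6 K 2) := by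
  obtain ⟨hsimple, hcard⟩ := Cfsg.Agent.Screen.CosetEnum.Fi22Ord.isSimple_and_card
  have hH : ((Subgroup.closure ({Cfsg.Spor.Fi22.a, Cfsg.Spor.Fi22.c, Cfsg.Spor.Fi22.d, Cfsg.Spor.Fi22.e, Cfsg.Spor.Fi22.f, Cfsg.Spor.Fi22.g, Cfsg.Spor.Fi22.h, Cfsg.Spor.Fi22.i, (Cfsg.Spor.Fi22.a * Cfsg.Spor.Fi22.b * Cfsg.Spor.Fi22.c * Cfsg.Spor.Fi22.d * Cfsg.Spor.Fi22.e * Cfsg.Spor.Fi22.h) ^ 5} : Set (FreeGroup Cfsg.Spor.Fi22.Gen))).map (PresentedGroup.mk (Cfsg.Spor.coxRelators Cfsg.Spor.Fi22.edges ∪ {r | r ∈ Cfsg.Spor.Fi22.extra}))) = Cfsg.Agent.Chars.Fi22U6.Hs := by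
    rw [MonoidHom.map_closure, Cfsg.Agent.Chars.Fi22U6.Hs]
    congr 1
    ext g
    simp only [Cfsg.Agent.Screen.CosetEnum.Fi22U62.tbl, List.mem_cons, List.not_mem_nil, or_false, exists_eq_or_imp, exists_eq_left,
      Set.image_insert_eq, Set.image_singleton, Set.mem_insert_iff, Set.mem_singleton_iff, Set.mem_setOf_eq]
    simp [Cfsg.Agent.Screen.CosetEnum.evalW, Cfsg.Agent.Screen.CosetEnum.PresFi22.gens, PresentedGroup.of, pow_succ, mul_assoc]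
  obtain ⟨f, hf⟩ := Cfsg.Agent.Screen.CosetEnum.PresFi22.exists_hom
    Cfsg.Agent.Screen.CosetEnum.Fi22U62.checked.perm
    (fun x => Cfsg.Agent.Screen.CosetEnum.Fi22U62.checked.perm_sq x)
    Cfsg.Agent.Screen.CosetEnum.Fi22U62.checked.perm_rel
  have hinj : Function.Injective f := by
    refine (MonoidHom.ker_eq_bot_iff f).1 ((MonoidHom.normal_ker f).eq_bot_or_eq_top.resolve_right fun h => ?_)
    have h1 : f (Cfsg.Agent.Screen.CosetEnum.PresFi22.gens 1) = 1 := MonoidHom.mem_ker.1 (by rw [h]; trivial)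
    rw [hf 1 (by norm_num)] at h1
    have h2 := Cfsg.Agent.Screen.CosetEnum.Fi22U62.checked.perm_apply (x := 1) (by decide +kernel)
      ⟨0, Cfsg.Agent.Screen.CosetEnum.Fi22U62.checked.pos⟩
    rw [h1, Equiv.Perm.one_apply] at h2
    exact (show (0 : ℕ) ≠ Cfsg.Agent.Screen.CosetEnum.Fi22U62.tbl.img 0 1 by decide +kernel) h2
  have hidx := Cfsg.Agent.S1687.result.1
  rw [hH] at hidx ⊢
  exact ⟨Cfsg.Agent.Chars.Fi22U6.F4, inferInstance, inferInstance, Cfsg.Agent.Chars.Fi22U6.F4.card,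
    Cfsg.Agent.Chars.Fi22U6.main hf hinj hcard hidx⟩

end Cfsg.Agent.S1684
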