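import Cfsg.Statements.S0471
import Cfsg.Agent.Fischer.Fi22Cover
import Cfsg.Agent.Screen.CosetEnum.Fi22Ord.Main
import Cfsg.Agent.S1684
-- import your own Cfsg.Agent.* helpers here

set_option autoImplicit false
open Cfsg

namespace Cfsg.Agent.S0471

/-- The Fischer group of order 64561751654400 exists as a 3-transposition group: a simple group of that order generated by a conjugacy class of 3510 3-transpositions, the centraliser of each being a non-split double cover of PSU(6, 2). -/
theorem result : ∃ (G : Type) (_ : Group G) (_ : Finite G), Cfsg.IsFi22 G ∧ ∃ D : Set G, Cfsg.IsThreeTranspositionClass D ∧ Nat.card D = 3510 ∧ ∀ d ∈ D, ∃ (F : Type) (_ : Field F) (_ : Fintype F), Fintype.card F = 4 ∧ Cfsg.IsNonsplitDoubleCover (Subgroup.centralizer ({d} : Set G)) (Cfsg.PSU 6 F 2) := by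
  refine Cfsg.Agent.Fischer.Fi22Transp.realization
    Cfsg.Agent.Screen.CosetEnum.Fi22Ord.isSimple_and_card ?_
  rw [← Cfsg.Agent.Fischer.Fi22Transp.map_eq_U]
  exact Cfsg.Agent.S1684.result

end Cfsg.Agent.S0471
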