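import Cfsg.Statements.S0481
import Mathlib.Tactic.Group
-- import your own Cfsg.Agent.* helpers here

set_option autoImplicit false
open Cfsg

namespace Cfsg.Agent.S0481

/-- Large extraspecial subgroups: let z be an involution of a finite group G whose centraliser C contains a normal 2-subgroup Q with centre of order 2 and all squares central, such that every element of G centralising Q lies in Q. Then C contains a Sylow 2-subgroup of G, and any involution of G whose centraliser contains a Sylow 2-subgroup of G is conjugate to z. -/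
theorem result {G : Type*} [Group G] [Finite G] (z : G) (hz : orderOf z = 2) (Q : Subgroup G) (hQC : Q ≤ Subgroup.centralizer ({z} : Set G)) (hQn : ∀ g ∈ Subgroup.centralizer ({z} : Set G), ∀ q ∈ Q, g * q * g⁻¹ ∈ Q) (hQ2 : IsPGroup 2 Q) (hZ : Nat.card (Subgroup.center Q) = 2) (hsq : ∀ x : Q, x ^ 2 ∈ Subgroup.center Q) (hlarge : Subgroup.centralizer (Q : Set G) ≤ Q) : (∃ P : Sylow 2 G, (P : Subgroup G) ≤ Subgroup.centralizer ({z} : Set G)) ∧ ∀ u : G, orderOf u = 2 → (∃ P : Sylow 2 G, (P : Subgroup G) ≤ Subgroup.centralizer ({u} : Set G)) → IsConj z u := by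
  haveI : Fact (Nat.Prime 2) := ⟨Nat.prime_two⟩
  have hzQ : z ∈ Q := hlarge (by
    rw [Subgroup.mem_centralizer_iff]
    exact fun q hq => Subgroup.mem_centralizer_singleton_iff.1 (hQC hq))
  have hcomm : ∀ q ∈ Q, q * z = z * q := fun q hq =>
    Subgroup.mem_centralizer_singleton_iff.1 (hQC hq)
  have hz1 : z ≠ 1 := fun h => by rw [h, orderOf_one] at hz; omega
  have hzc : (⟨z, hzQ⟩ : Q) ∈ Subgroup.center Q :=
    Subgroup.mem_center_iff.2 fun q => Subtype.ext (hcomm q.1 q.2)
  have huniq : ∀ w ∈ Q, (∀ q ∈ Q, q * w = w * q) → w ≠ 1 → w = z := by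
    intro w hw hwc hw1
    have hwz : (⟨w, hw⟩ : Q) ∈ Subgroup.center Q :=
      Subgroup.mem_center_iff.2 fun q => Subtype.ext (hwc q.1 q.2)
    obtain ⟨x, hx, huni⟩ := (Nat.card_eq_two_iff' (1 : Subgroup.center Q)).1 hZ
    have e1 := huni ⟨⟨w, hw⟩, hwz⟩ (fun h => hw1 (congrArg (fun y : Subgroup.center Q => (y : G)) h))
    have e2 := huni ⟨⟨z, hzQ⟩, hzc⟩ (fun h => hz1 (congrArg (fun y : Subgroup.center Q => (y : G)) h))
    exact congrArg (fun y : Subgroup.center Q => (y : G)) (e1.trans e2.symm)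
  obtain ⟨S, hQS⟩ := hQ2.exists_le_sylow
  have hcen : ∀ w ∈ (S : Subgroup G), (∀ s ∈ (S : Subgroup G), s * w = w * s) → w ≠ 1 → w = z := by
    intro w hw hwS hw1
    have hwQ : w ∈ Q := hlarge (by
      rw [Subgroup.mem_centralizer_iff]
      exact fun q hq => hwS q (hQS hq))
    exact huniq w hwQ (fun q hq => hwS q (hQS hq)) hw1
  have hS1 : Nontrivial (S : Subgroup G) :=
    ⟨⟨z, hQS hzQ⟩, 1, fun h => hz1 (congrArg Subtype.val h)⟩
  have hZS : Nontrivial (Subgroup.center (S : Subgroup G)) := S.2.center_nontrivial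
  obtain ⟨w, hw⟩ := exists_ne (1 : Subgroup.center (S : Subgroup G))
  have hwz : ((w : (S : Subgroup G)) : G) = z := hcen _ (w : (S : Subgroup G)).2
    (fun s hs => congrArg Subtype.val (Subgroup.mem_center_iff.1 w.2 ⟨s, hs⟩))
    (fun h => hw (Subtype.ext (Subtype.ext h)))
  have hSz : (S : Subgroup G) ≤ Subgroup.centralizer ({z} : Set G) := by
    intro s hs
    rw [Subgroup.mem_centralizer_singleton_iff, ← hwz]
    exact congrArg Subtype.val (Subgroup.mem_center_iff.1 w.2 ⟨s, hs⟩)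
  refine ⟨⟨S, hSz⟩, fun u hu => ?_⟩
  rintro ⟨P, hP⟩
  have huP : u ∈ (P : Subgroup G) := by
    have hN : Subgroup.zpowers u ≤ Subgroup.normalizer ((P : Subgroup G) : Set G) := by
      rw [Subgroup.zpowers_le]
      refine (Subgroup.centralizer_le_normalizer _) ?_
      rw [Subgroup.mem_centralizer_iff]
      exact fun x hx => Subgroup.mem_centralizer_singleton_iff.1 (hP hx)
    have h2 : IsPGroup 2 (Subgroup.zpowers u) :=
      IsPGroup.of_card (n := 1) (by rw [Nat.card_zpowers, hu, pow_one])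
    rw [← P.3 (h2.to_sup_of_normal_right' P.2 hN) le_sup_right]
    exact Subgroup.mem_sup_left (Subgroup.mem_zpowers u)
  obtain ⟨g, hg⟩ := MulAction.exists_smul_eq G P S
  rw [isConj_comm, isConj_iff]
  refine ⟨g, hcen _ ?_ ?_ ?_⟩
  · rw [← hg]
    exact Subgroup.mem_map.2 ⟨u, huP, rfl⟩
  · intro s hs
    rw [← hg] at hs
    obtain ⟨p, hp, rfl⟩ := Subgroup.mem_map.1 hs
    have := Subgroup.mem_centralizer_singleton_iff.1 (hP hp)
    show g * p * g⁻¹ * (g * u * g⁻¹) = g * u * g⁻¹ * (g * p * g⁻¹)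
    calc g * p * g⁻¹ * (g * u * g⁻¹) = g * (p * u) * g⁻¹ := by group
      _ = _ := by rw [this]; group
  · intro h
    have : u = 1 := by
      have h' := congrArg (fun x => g⁻¹ * x * g) h
      simpa [mul_assoc] using h'
    rw [this, orderOf_one] at hu; omega

end Cfsg.Agent.S0481
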