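import Cfsg.Statements.S0992
import Cfsg.Agent.SmallOrder.Basic

set_option autoImplicit false
open Cfsg

namespace Cfsg.Agent.S0992

/-- Let G be a non-abelian finite simple group of even order not divisible by 8, and T a Sylow 2-subgroup. Then T is a Klein four-group and the centralizer of T has index 3 in the normalizer of T. -/
theorem result {G : Type*} [Group G] [Finite G] [IsSimpleGroup G] (hG : ¬ IsMulCommutative G) (h2 : Even (Nat.card G)) (h8 : ¬ 8 ∣ Nat.card G) (T : Sylow 2 G) : IsKleinFour ↥(T : Subgroup G) ∧ (Subgroup.centralizer ((T : Subgroup G) : Set G)).relIndex (Subgroup.normalizer ((T : Subgroup G) : Set G)) = 3 := by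
  classical
  have : Fact (Nat.Prime 2) := ⟨Nat.prime_two⟩
  have hd : 2 ∣ Nat.card G := h2.two_dvd
  have hmin : (Nat.card G).minFac = 2 := (Nat.minFac_eq_two_iff _).mpr hd
  have hnc : ¬ IsCyclic (T : Subgroup G) := SmallOrder.not_isCyclic_minFac hG hmin T
  have hcard : Nat.card (T : Subgroup G) = 4 := by
    obtain ⟨k, hk⟩ := T.2.exists_card_eq
    have h0 : 2 ^ k ∣ Nat.card G := hk ▸ (T : Subgroup G).card_subgroup_dvd_card
    rcases Nat.lt_or_ge k 2 with hk2 | hk2
    · exfalso
      interval_cases k
      · rw [pow_zero] at hk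
        have := (Nat.card_eq_one_iff_unique.mp hk).1
        exact hnc inferInstance
      · exact hnc (isCyclic_of_prime_card (p := 2) (by rw [hk, pow_one]))
    · rcases Nat.lt_or_ge k 3 with hk3 | hk3
      · rw [hk, show k = 2 by omega]; norm_num
      · exact absurd ((pow_dvd_pow 2 hk3).trans h0) h8
  have hK : IsKleinFour (T : Subgroup G) := by
    refine ⟨hcard, ?_⟩
    apply Nat.dvd_antisymm
    · apply Monoid.exponent_dvd_of_forall_pow_eq_one
      intro g
      have h4 : orderOf g ∣ 2 ^ 2 := (orderOf_dvd_natCard g).trans (dvd_of_eq (by rw [hcard]; norm_num))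
      obtain ⟨i, hi, hg⟩ := (Nat.dvd_prime_pow Nat.prime_two).mp h4
      have hne : i ≠ 2 := by
        rintro rfl
        exact hnc (isCyclic_of_orderOf_eq_card g (by rw [hg, hcard]; norm_num))
      rw [← orderOf_dvd_iff_pow_eq_one, hg]
      exact (pow_dvd_pow 2 (show i ≤ 1 by omega)).trans (dvd_of_eq (pow_one 2))
    · obtain ⟨g, hg⟩ := exists_prime_orderOf_dvd_card' (G := (T : Subgroup G)) 2 (by rw [hcard]; norm_num)
      have h := Monoid.order_dvd_exponent g
      rwa [hg] at h
  refine ⟨hK, ?_⟩
  set N := Subgroup.normalizer ((T : Subgroup G) : Set G)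
  set C := Subgroup.centralizer ((T : Subgroup G) : Set G)
  have hne : C.relIndex N ≠ 1 := fun h =>
    SmallOrder.not_normalizer_le_centralizer hG hd T (Subgroup.relIndex_eq_one.mp h)
  have h6 : C.relIndex N ∣ 6 := by
    refine (SmallOrder.relIndex_centralizer_dvd_card_mulAut _).trans ?_
    let f : MulAut (T : Subgroup G) →* Equiv.Perm {x : (T : Subgroup G) // x ≠ 1} :=
      { toFun := fun φ => φ.toEquiv.subtypeEquiv (fun x => (MulEquiv.map_eq_one_iff φ).not.symm)
        map_one' := by ext x; rfl
        map_mul' := fun φ ψ => by ext x; rfl }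
    have hf : Function.Injective f := by
      intro φ ψ h
      refine MulEquiv.ext fun x => ?_
      by_cases hx : x = 1
      · rw [hx, map_one, map_one]
      · exact congrArg Subtype.val (Equiv.ext_iff.mp h ⟨x, hx⟩)
    have := Fintype.ofFinite (T : Subgroup G)
    refine (Subgroup.card_dvd_of_injective f hf).trans (dvd_of_eq ?_)
    rw [Nat.card_perm, Nat.card_eq_fintype_card, Fintype.card_subtype_compl,
      Fintype.card_subtype_eq, ← Nat.card_eq_fintype_card, hcard]
    rfl
  have hodd : ¬ 2 ∣ C.relIndex N := by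
    intro h
    apply T.not_dvd_index
    have : IsMulCommutative (T : Subgroup G) := by
      have := hK
      exact IsKleinFour.isMulCommutative
    have hTC : (T : Subgroup G) ≤ C := Subgroup.le_centralizer _
    exact h.trans ((Subgroup.relIndex_dvd_of_le_left _ hTC).trans
      (Subgroup.relIndex_dvd_index_of_le Subgroup.le_normalizer))
  exact (by decide : ∀ n ∈ Nat.divisors 6, n ≠ 1 → ¬ 2 ∣ n → n = 3) _
    (Nat.mem_divisors.mpr ⟨h6, by norm_num⟩) hne hodd

end Cfsg.Agent.S0992
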