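import Cfsg.Statements.S0499
import Cfsg.Agent.S0992
import Cfsg.Agent.Transfer.Complement
import Cfsg.Agent.OddLocal.NilBasics

set_option autoImplicit false
open Cfsg

namespace Cfsg.Agent.S0499

/-- A non-abelian finite simple group of even order has order divisible by 12, 16 or 56. -/
theorem result {G : Type*} [Group G] [Finite G] [IsSimpleGroup G]
    (hG : ¬ IsMulCommutative G) (h2 : Even (Nat.card G)) :
    12 ∣ Nat.card G ∨ 16 ∣ Nat.card G ∨ 56 ∣ Nat.card G := by
  classical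
  haveI : Fact (Nat.Prime 2) := ⟨Nat.prime_two⟩
  obtain ⟨T⟩ : Nonempty (Sylow 2 G) := inferInstance
  by_cases h16 : 16 ∣ Nat.card G
  · exact Or.inr (Or.inl h16)
  by_cases h8 : 8 ∣ Nat.card G
  swap
  · left
    obtain ⟨hK, h3⟩ := S0992.result hG h2 h8 T
    have h4 : 4 ∣ Nat.card G := hK.card_four ▸ (T : Subgroup G).card_subgroup_dvd_card
    have h3' : 3 ∣ Nat.card G :=
      h3 ▸ (Subgroup.relIndex_dvd_card _ _).trans (Subgroup.card_subgroup_dvd_card _)
    exact Nat.Coprime.mul_dvd_of_dvd_of_dvd (by norm_num : Nat.Coprime 4 3) h4 h3'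
  by_cases h3 : 3 ∣ Nat.card G
  · exact Or.inl (Nat.Coprime.mul_dvd_of_dvd_of_dvd (by norm_num : Nat.Coprime 4 3) ((dvd_mul_left 4 2).trans h8) h3)
  refine Or.inr (Or.inr ?_)
  have hncomp : ¬ Cfsg.HasNormalPComplement 2 G := by
    rintro ⟨P, N, hN, hNP⟩
    rcases hN.eq_bot_or_eq_top with h | h
    · haveI : IsSimpleGroup G := inferInstance
      have hPt : (P : Subgroup G) = ⊤ := by
        rw [h] at hNP
        exact Subgroup.isComplement'_bot_left.mp hNP
      haveI : Group.IsNilpotent G := IsPGroup.isNilpotent (p := 2) (fun g => by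
        obtain ⟨k, hk⟩ := P.2 ⟨g, hPt ▸ Subgroup.mem_top g⟩
        exact ⟨k, congrArg Subtype.val hk⟩)
      have hZ : Subgroup.center G ≠ ⊥ := fun hz => by
        haveI : Nontrivial G := IsSimpleGroup.toNontrivial
        obtain ⟨x, -, hx1, hxc⟩ := OddLocal.exists_ne_one_mem_center_of_normal (⊤ : Subgroup G) top_ne_bot
        exact hx1 (Subgroup.mem_bot.mp (hz ▸ hxc))
      have hZt := ((inferInstance : (Subgroup.center G).Normal).eq_bot_or_eq_top).resolve_left hZ
      exact hG ⟨⟨fun a b => ((Subgroup.mem_center_iff.mp (hZt ▸ Subgroup.mem_top a)) b).symm⟩⟩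
    · rw [h] at hNP
      have hPb := Subgroup.isComplement'_top_left.mp hNP
      exact P.ne_bot_of_dvd_card h2.two_dvd hPb
  obtain ⟨Q, hQT, g, hgN, hgo, hgC⟩ : ∃ Q : Subgroup G, Q ≤ (T : Subgroup G) ∧
      ∃ g ∈ Subgroup.normalizer (Q : Set G), (orderOf g).Coprime 2 ∧ g ∉ Subgroup.centralizer (Q : Set G) := by
    by_contra hcon
    push Not at hcon
    exact hncomp (Transfer.hasNormalPComplement_of_frobenius T fun Q hQ _ g hg hgo => hcon Q hQ g hg hgo)
  set φ := Subgroup.normalizerMonoidHom Q ⟨g, hgN⟩ with hφ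
  set o := orderOf φ with ho
  have ho1 : o ≠ 1 := by
    intro h
    rw [ho, orderOf_eq_one_iff] at h
    apply hgC
    rw [Subgroup.mem_centralizer_iff]
    intro q hq
    have h' : g * q * g⁻¹ = q := (congrArg Subtype.val (DFunLike.congr_fun h (⟨q, hq⟩ : Q)) :)
    exact (mul_inv_eq_iff_eq_mul.mp h').symm
  have hog : o ∣ orderOf g := by
    refine (orderOf_map_dvd _ _).trans ?_
    rw [Subgroup.orderOf_mk]
  obtain ⟨r, hr, hro⟩ := Nat.exists_prime_and_dvd ho1
  haveI : Fact r.Prime := ⟨hr⟩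
  have hrG : r ∣ Nat.card G := (hro.trans hog).trans (orderOf_dvd_natCard g)
  have hr2 : r ≠ 2 := fun e => by
    subst e
    exact Nat.not_coprime_of_dvd_of_dvd one_lt_two (hro.trans hog) dvd_rfl hgo
  have hr3 : r ≠ 3 := fun e => h3 (e ▸ hrG)
  set ψ := φ ^ (o / r) with hψ
  have hψo : orderOf ψ = r := by
    rw [hψ, orderOf_pow_of_dvd ((Nat.div_pos (Nat.le_of_dvd (orderOf_pos φ) hro) hr.pos).ne')
      (Nat.div_dvd_of_dvd hro), Nat.div_div_self hro (orderOf_pos φ).ne']
  let W := Subgroup.zpowers ψ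
  have hW : IsPGroup r W := IsPGroup.of_card (n := 1) (by rw [Nat.card_zpowers, hψo, pow_one])
  let F : Subgroup Q :=
    { carrier := {q | ψ q = q}
      one_mem' := map_one ψ
      mul_mem' := fun {a b} ha hb => by show ψ (a * b) = a * b; rw [map_mul, ha, hb]
      inv_mem' := fun {a} ha => by show ψ a⁻¹ = a⁻¹; rw [map_inv, ha] }
  have hFix : MulAction.fixedPoints W Q = (F : Set Q) := by
    ext q
    constructor
    · intro h; exact h ⟨ψ, Subgroup.mem_zpowers ψ⟩
    · rintro h ⟨w, hw⟩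
      have hst : ψ ∈ MulAction.stabilizer (MulAut Q) q := h
      exact (Subgroup.zpowers_le.mpr hst) hw
  have hmod := hW.card_modEq_card_fixedPoints Q
  have hcF : Nat.card (MulAction.fixedPoints W Q) = Nat.card F := by
    rw [hFix]; rfl
  rw [hcF] at hmod
  have hFne : F ≠ ⊤ := by
    intro h
    have : ψ = 1 := MulEquiv.ext fun q => (h ▸ Subgroup.mem_top q : q ∈ F)
    rw [this, orderOf_one] at hψo
    exact hr.one_lt.ne hψo
  have hQ8 : Nat.card Q ∣ 8 := by
    obtain ⟨k, hk⟩ := (T.2.to_le hQT).exists_card_eq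
    have h1 : 2 ^ k ∣ Nat.card G := hk ▸ Q.card_subgroup_dvd_card
    have h2 : k ≤ 3 := by
      by_contra h4
      exact h16 ((pow_dvd_pow 2 (show 4 ≤ k by omega)).trans h1)
    rw [hk]
    exact pow_dvd_pow 2 h2
  have hFd : Nat.card F ∣ Nat.card Q := F.card_subgroup_dvd_card
  have hFlt : Nat.card F < Nat.card Q :=
    lt_of_le_of_ne (Nat.le_of_dvd Nat.card_pos hFd) fun h => hFne (Subgroup.eq_top_of_card_eq F h)
  have hd : r ∣ Nat.card Q - Nat.card F := (Nat.modEq_iff_dvd' hFlt.le).mp hmod.symm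
  have h7 : r = 7 := by
    have hq : Nat.card Q ≤ 8 := Nat.le_of_dvd (by norm_num) hQ8
    have hr7 : r ≤ 7 := le_trans (Nat.le_of_dvd (by omega) hd) (by have := Nat.card_pos (α := F); omega)
    have hr4 : r ≠ 4 := fun e => by subst e; norm_num at hr
    have hr6 : r ≠ 6 := fun e => by subst e; norm_num at hr
    have hr1 := hr.two_le
    by_contra h7
    have hr5 : r = 5 := by omega
    subst hr5
    generalize Nat.card Q = a at *
    generalize Nat.card F = b at *
    have : ∀ a ∈ Finset.range 9, ∀ b ∈ Finset.range 9, a ∣ 8 → b ∣ a → b < a → ¬ 5 ∣ a - b := by decide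
    exact this a (Finset.mem_range.mpr (by omega)) b (Finset.mem_range.mpr (by omega)) hQ8 hFd hFlt hd
  rw [h7] at hrG
  exact Nat.Coprime.mul_dvd_of_dvd_of_dvd (by norm_num : Nat.Coprime 8 7) h8 hrG

end Cfsg.Agent.S0499
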