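import Cfsg.Statements.S0496
import Cfsg.Agent.Screen.ThousandSieve
import Cfsg.Agent.Screen.ThousandSevenTwenty
-- import your own Cfsg.Agent.* helpers here

set_option autoImplicit false
open Cfsg

namespace Cfsg.Agent.S0496

/-- A non-abelian finite simple group of order at most 1092 has order 60, 168, 360, 504, 660 or 1092. -/
theorem result {G : Type*} [Group G] [Finite G] [IsSimpleGroup G]
    (hG : ¬ IsMulCommutative G) (h : Nat.card G ≤ 1092) :
    Nat.card G = 60 ∨ Nat.card G = 168 ∨ Nat.card G = 360 ∨ Nat.card G = 504 ∨ Nat.card G = 660 ∨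
      Nat.card G = 1092 := by
  open Cfsg.Agent.Screen.Thousand in
  have h420 := ne_420 hG
  open Cfsg.Agent.Screen.Thousand in
  have h612 := ne_612 hG
  open Cfsg.Agent.Screen.Thousand in
  have h720 := ne_720 hG
  open Cfsg.Agent.Screen.Thousand in
  have h756 := ne_756 hG
  open Cfsg.Agent.Screen.Thousand in
  have h840 := ne_840 hG
  open Cfsg.Agent.Screen.Thousand in
  have h1008 := ne_1008 hG
  open Cfsg.Agent.Screen.Thousand in
  have h1040 := ne_1040 hG
  open Cfsg.Agent.Screen.Thousand in
  have h1080 := ne_1080 hG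
  have hm := Cfsg.Agent.Screen.Thousand.mem_rest hG h
  simp only [Cfsg.Agent.Screen.Thousand.rest, List.mem_cons, List.not_mem_nil, or_false] at hm
  omega

end Cfsg.Agent.S0496
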