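import Cfsg.Statements.S0498
import Cfsg.Agent.SmallOrder.DegreeSucc

set_option autoImplicit false
open Cfsg

namespace Cfsg.Agent.S0498

/-- A simple group of order 660, respectively 1092, is isomorphic to the projective special linear group of dimension 2
over the field with 11, respectively 13, elements. -/
theorem result {G : Type*} [Group G] [Finite G] [IsSimpleGroup G] (p : ℕ)
    (hp : p = 11 ∨ p = 13) (h : 2 * Nat.card G = p * (p ^ 2 - 1)) {F : Type*} [Field F] [Fintype F]
    (hF : Fintype.card F = p) : Nonempty (G ≃* Matrix.ProjectiveSpecialLinearGroup (Fin 2) F) := by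
  rcases hp with rfl | rfl
  · have : Fact (Nat.Prime 11) := ⟨by norm_num⟩
    have hc : Nat.card G = 660 := by omega
    have hG : ¬ IsMulCommutative G := SmallOrder.not_comm_of_not_prime (by rw [hc]; norm_num)
    have hn := SmallOrder.card_sylow_eq_succ hG (p := 11) (m := 60) (by rw [hc]; norm_num) (by norm_num) (by decide +kernel)
    refine SmallOrder.iso_psl_of_card hG hn (d := 5) (by rw [hc]) (by norm_num) (fun q e => ?_) hF
    have hq : q < 4 := by
      by_contra hq
      have : 2 ^ 4 ≤ 2 ^ q := Nat.pow_le_pow_right (by norm_num) (by omega)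
      omega
    interval_cases q <;> simp at e
  · have : Fact (Nat.Prime 13) := ⟨by norm_num⟩
    have hc : Nat.card G = 1092 := by omega
    have hG : ¬ IsMulCommutative G := SmallOrder.not_comm_of_not_prime (by rw [hc]; norm_num)
    have hn := SmallOrder.card_sylow_eq_succ hG (p := 13) (m := 84) (by rw [hc]; norm_num) (by norm_num) (by decide +kernel)
    refine SmallOrder.iso_psl_of_card hG hn (d := 6) (by rw [hc]) (by norm_num) (fun q e => ?_) hF
    have hq : q < 4 := by
      by_contra hq
      have : 2 ^ 4 ≤ 2 ^ q := Nat.pow_le_pow_right (by norm_num) (by omega)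
      omega
    interval_cases q <;> simp at e

end Cfsg.Agent.S0498
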