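import Cfsg.Statements.S0501
import Cfsg.Agent.TwoGroups.NormalRankTwo.Main

set_option autoImplicit false
open Cfsg

namespace Cfsg.Agent.S0501

/-- A finite 2-group in which every normal elementary abelian subgroup has order at most 4 has sectional rank at most
4: every quotient of every subgroup has no elementary abelian subgroup of order exceeding 16. -/
theorem result {P : Type*} [Group P] [Finite P] (hP : IsPGroup 2 P)
    (h : ∀ A : Subgroup P, A.Normal → IsMulCommutative A → (∀ a ∈ A, a ^ 2 = 1) → Nat.card A ≤ 4) :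
    Cfsg.SectionalPRankLE 2 4 P := by
  intro H N hN E _ hE
  have h' : ∀ A : Subgroup P, A.Normal → (∀ a ∈ A, ∀ b ∈ A, a * b = b * a) → (∀ a ∈ A, a ^ 2 = 1) →
      Nat.card A ≤ 4 := fun A hn hc he =>
    h A hn ⟨⟨fun a b => Subtype.ext (hc a.1 a.2 b.1 b.2)⟩⟩ he
  let e := Subgroup.equivMapOfInjective (E.comap (QuotientGroup.mk' N)) H.subtype H.subtype_injective
  refine le_trans (TwoGroups.NormalRankTwo.section_card_le hP h' _
    (((QuotientGroup.mk' N).subgroupComap E).comp e.symm.toMonoidHom) ?_ (fun q => Subtype.ext (hE q.1 q.2)))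
    (by norm_num)
  intro q
  obtain ⟨x, hx⟩ := QuotientGroup.mk'_surjective N q.1
  have hxE : x ∈ E.comap (QuotientGroup.mk' N) := by rw [Subgroup.mem_comap, hx]; exact q.2
  refine ⟨e ⟨x, hxE⟩, Subtype.ext ?_⟩
  show QuotientGroup.mk' N (e.symm (e ⟨x, hxE⟩)).1 = q.1
  rw [e.symm_apply_apply]
  exact hx

end Cfsg.Agent.S0501
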