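import Cfsg.Statements.S0502
import Cfsg.Agent.OddChar.Elem

set_option autoImplicit false
open Cfsg

namespace Cfsg.Agent.S0502

/-- If a finite 2-group has a normal elementary abelian subgroup of order at least 8, then any two of its Klein
four-subgroups are joined by a chain of Klein four-subgroups with consecutive members commuting elementwise. -/
theorem result {P : Type*} [Group P] [Finite P] (hP : IsPGroup 2 P)
    (E : Subgroup P) [E.Normal] (hE : IsMulCommutative E) (hE2 : ∀ e ∈ E, e ^ 2 = 1) (hE8 : 8 ≤ Nat.card E) :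
    Cfsg.IsFourConnected P := by
  classical
  have hcomm : ∀ a ∈ E, ∀ b ∈ E, a * b = b * a := fun a ha b hb =>
    congrArg Subtype.val (hE.is_comm.comm ⟨a, ha⟩ ⟨b, hb⟩)
  -- four-group from two commuting involutions
  have mk : ∀ a b : P, a * a = 1 → b * b = 1 → a * b = b * a → a ≠ 1 → b ≠ 1 → a ≠ b →
      ∃ F : Subgroup P, IsKleinFour F ∧ (F : Set P) = {1, a, b, a * b} := by
    intro a b ha hb hab ha1 hb1 hne
    have hba : b * a = a * b := hab.symm
    let F : Subgroup P :=
      { carrier := {1, a, b, a * b}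
        one_mem' := by simp
        mul_mem' := by
          intro x y hx hy
          simp only [Set.mem_insert_iff, Set.mem_singleton_iff] at hx hy ⊢
          have e1 : ∀ t, a * (a * t) = t := fun t => by rw [← mul_assoc, ha, one_mul]
          have e2 : ∀ t, b * (b * t) = t := fun t => by rw [← mul_assoc, hb, one_mul]
          have e3 : ∀ t, b * (a * t) = a * (b * t) := fun t => by
            rw [← mul_assoc, hba, mul_assoc]
          rcases hx with rfl | rfl | rfl | rfl <;> rcases hy with rfl | rfl | rfl | rfl <;>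
            simp [mul_assoc, ha, hb, hba, e1, e2, e3]
        inv_mem' := by
          intro x hx
          simp only [Set.mem_insert_iff, Set.mem_singleton_iff] at hx ⊢
          rcases hx with rfl | rfl | rfl | rfl
          · simp
          · simp [inv_eq_of_mul_eq_one_right ha]
          · simp [inv_eq_of_mul_eq_one_right hb]
          · right; right; right
            rw [mul_inv_rev, inv_eq_of_mul_eq_one_right ha, inv_eq_of_mul_eq_one_right hb, hba] }
    refine ⟨F, ?_, rfl⟩
    have hcard : Nat.card F = 4 := by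
      have h1 : a * b ≠ 1 := fun h => hne (by
        rw [eq_inv_of_mul_eq_one_left h, inv_eq_of_mul_eq_one_right hb])
      have h2 : a * b ≠ a := fun h => hb1 (mul_eq_left.mp h)
      have h3 : a * b ≠ b := fun h => ha1 (mul_eq_right.mp h)
      rw [← SetLike.coe_sort_coe, Nat.card_coe_set_eq]
      show ({1, a, b, a * b} : Set P).ncard = 4
      have : ({1, a, b, a * b} : Set P) = ↑({1, a, b, a * b} : Finset P) := by simp
      rw [this, Set.ncard_coe_finset]
      simp [ha1.symm, hb1.symm, hne, h1.symm, h2.symm, h3.symm]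
    refine ⟨hcard, ?_⟩
    refine Nat.dvd_antisymm (Monoid.exponent_dvd_of_forall_pow_eq_one ?_) ?_
    · rintro ⟨x, hx⟩
      ext
      simp only [SubmonoidClass.coe_pow, OneMemClass.coe_one, pow_two]
      simp only [F, Subgroup.mem_mk, Set.mem_insert_iff, Set.mem_singleton_iff] at hx
      rcases hx with rfl | rfl | rfl | rfl
      · simp
      · exact ha
      · exact hb
      · calc a * b * (a * b) = a * (b * a) * b := by group
          _ = a * a * (b * b) := by rw [hba]; group
          _ = 1 := by rw [ha, hb, one_mul]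
    · have : orderOf (⟨a, by simp [F]⟩ : F) = 2 :=
        orderOf_eq_prime (Subtype.ext (by simpa [pow_two] using ha))
          (fun h => ha1 (congrArg Subtype.val h))
      exact this ▸ Monoid.order_dvd_exponent _
  -- fixed points of an involution on an invariant subgroup of `E`
  have fix : ∀ (D : Subgroup P), D ≤ E → ∀ u : P, u * u = 1 → (∀ d ∈ D, u * d * u⁻¹ ∈ D) →
      Nat.card D ≤ Nat.card ↥(D ⊓ Subgroup.centralizer ({u} : Set P)) ^ 2 := by
    intro D hDE u hu hinv
    have hsq : ∀ d ∈ D, d * d = 1 := fun d hd => by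
      have := hE2 d (hDE hd); rwa [pow_two] at this
    let f : D →* P := MonoidHom.mk' (fun d => (d : P) * (u * d * u⁻¹)) (fun d e => by
      push_cast
      calc (d : P) * e * (u * (d * e) * u⁻¹)
          = d * ((e : P) * (u * d * u⁻¹)) * (u * e * u⁻¹) := by group
        _ = d * ((u * d * u⁻¹) * e) * (u * e * u⁻¹) := by
            rw [hcomm e (hDE e.2) _ (hDE (hinv d d.2))]
        _ = d * (u * d * u⁻¹) * (e * (u * e * u⁻¹)) := by group)
    have hfix : ∀ d ∈ D, (d * (u * d * u⁻¹) = 1 ↔ d ∈ Subgroup.centralizer ({u} : Set P)) := by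
      intro d hd
      rw [OddChar.mem_centralizer_singleton, mul_eq_one_iff_inv_eq,
        inv_eq_of_mul_eq_one_right (hsq d hd), eq_mul_inv_iff_mul_eq, eq_comm]
    have hker : Nat.card f.ker = Nat.card ↥(D ⊓ Subgroup.centralizer ({u} : Set P)) := by
      refine Nat.card_congr
        { toFun := fun d => ⟨d.1.1, d.1.2, (hfix _ d.1.2).mp d.2⟩
          invFun := fun d => ⟨⟨d.1, d.2.1⟩, (hfix _ d.2.1).mpr d.2.2⟩
          left_inv := fun _ => rfl
          right_inv := fun _ => rfl }
    have hrange : f.range ≤ D ⊓ Subgroup.centralizer ({u} : Set P) := by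
      rintro _ ⟨d, rfl⟩
      have hmem : (d : P) * (u * d * u⁻¹) ∈ D := D.mul_mem d.2 (hinv d d.2)
      refine ⟨hmem, (hfix _ hmem).mp ?_⟩
      have : u * ((d : P) * (u * d * u⁻¹)) * u⁻¹ = (d : P) * (u * d * u⁻¹) := by
        rw [hcomm (d : P) (hDE d.2) _ (hDE (hinv d d.2))]
        calc u * (u * d * u⁻¹ * d) * u⁻¹ = (u * u) * d * (u * u)⁻¹ * (u * d * u⁻¹) := by group
          _ = _ := by rw [hu, ← hcomm (d : P) (hDE d.2) _ (hDE (hinv d d.2))]; group
      show (d : P) * (u * d * u⁻¹) * (u * ((d : P) * (u * d * u⁻¹)) * u⁻¹) = 1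
      rw [this]; exact hsq _ hmem
    have h1 := Subgroup.index_mul_card f.ker
    rw [Subgroup.index_ker] at h1
    rw [← h1, pow_two, hker]
    exact Nat.mul_le_mul_right _ (Subgroup.card_le_of_le hrange)
  intro U V hU hV
  let r := fun A B : Subgroup P => IsKleinFour A ∧ IsKleinFour B ∧ ∀ a ∈ A, ∀ b ∈ B, a * b = b * a
  -- every four-group is joined to one inside E
  have key : ∀ U : Subgroup P, IsKleinFour U → ∃ F : Subgroup P, F ≤ E ∧ IsKleinFour F ∧
      Relation.ReflTransGen r U F ∧ Relation.ReflTransGen r F U := by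
    intro U hU
    haveI := hU
    have hUc : ∀ a ∈ U, ∀ b ∈ U, a * b = b * a := fun a ha b hb =>
      congrArg Subtype.val ((IsKleinFour.isMulCommutative (G := U)).is_comm.comm ⟨a, ha⟩ ⟨b, hb⟩)
    have hUsq : ∀ a ∈ U, a * a = 1 := fun a ha =>
      congrArg Subtype.val (IsKleinFour.mul_self (⟨a, ha⟩ : U))
    obtain ⟨u₀, hu₀⟩ : ∃ x : U, x ≠ 1 := by
      have : Nontrivial U := Finite.one_lt_card_iff_nontrivial.mp (by rw [hU.card_four]; norm_num)
      exact exists_ne 1
    -- some nontrivial z in E centralises U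
    have hconj : ∀ (u : P), ∀ d ∈ E, u * d * u⁻¹ ∈ E := fun u d hd => ‹E.Normal›.conj_mem d hd u
    have hU3 : ∀ z : P, ∃ x ∈ U, x ≠ 1 ∧ x ≠ z := by
      intro z
      by_contra hcon
      push Not at hcon
      have hsub : (U : Set P) ⊆ {1, z} := fun x hx => by
        by_cases hx1 : x = 1
        · exact Or.inl hx1
        · exact Or.inr (hcon x hx hx1)
      have h2 := Set.ncard_le_ncard hsub (Set.toFinite _)
      have h3 : (U : Set P).ncard = 4 := by
        rw [← Nat.card_coe_set_eq]; exact hU.card_four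
      have h4 := Set.ncard_insert_le (1 : P) ({z} : Set P)
      rw [Set.ncard_singleton] at h4
      omega
    have hone : ∃ z, z ∈ E ∧ z ≠ 1 ∧ ∀ a ∈ U, a * z = z * a := by
      let u : P := u₀
      have hu1 : u ≠ 1 := fun h => hu₀ (Subtype.ext h)
      obtain ⟨v, hv, hv1, hvu⟩ := hU3 u
      let D := E ⊓ Subgroup.centralizer ({u} : Set P)
      have hD3 : 3 ≤ Nat.card D := by
        have h2 : Nat.card E ≤ Nat.card D ^ 2 := fix E le_rfl u (hUsq u u₀.2) (hconj u)
        by_contra hlt
        push Not at hlt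
        have := Nat.pow_le_pow_left (Nat.le_of_lt_succ hlt) 2
        omega
      have hinv : ∀ d ∈ D, v * d * v⁻¹ ∈ D := by
        intro d hd
        refine ⟨hconj v d hd.1, OddChar.mem_centralizer_singleton.mpr ?_⟩
        have e1 : u * v = v * u := hUc u u₀.2 v hv
        have e2 : u * d = d * u := OddChar.mem_centralizer_singleton.mp hd.2
        exact (((show Commute u v from e1).mul_right e2).mul_right
          (show Commute u v from e1).inv_right).eq
      have h2 := fix D inf_le_left v (hUsq v hv) hinv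
      have : 1 < Nat.card ↥(D ⊓ Subgroup.centralizer ({v} : Set P)) := by
        by_contra hlt
        push Not at hlt
        have := Nat.pow_le_pow_left hlt 2
        omega
      haveI := Finite.one_lt_card_iff_nontrivial.mp this
      obtain ⟨⟨z, hz⟩, hz1'⟩ := exists_ne (1 : ↥(D ⊓ Subgroup.centralizer ({v} : Set P)))
      have hz1 : z ≠ 1 := fun h => hz1' (Subtype.ext h)
      refine ⟨z, hz.1.1, hz1, ?_⟩
      obtain ⟨F, hF, hFs⟩ := mk u v (hUsq u u₀.2) (hUsq v hv) (hUc u u₀.2 v hv) hu1 hv1 hvu.symm
      have hFU : F = U := by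
        refine Subgroup.eq_of_le_of_card_ge ?_ (by rw [hU.card_four, hF.card_four])
        intro x hx
        have : x ∈ ({1, u, v, u * v} : Set P) := by rw [← hFs]; exact hx
        rcases this with rfl | rfl | rfl | rfl
        · exact U.one_mem
        · exact u₀.2
        · exact hv
        · exact U.mul_mem u₀.2 hv
      intro a ha
      rw [← hFU] at ha
      have ha' : a ∈ ({1, u, v, u * v} : Set P) := by rw [← hFs]; exact ha
      have e2 : u * z = z * u := OddChar.mem_centralizer_singleton.mp hz.1.2
      have e3 : v * z = z * v := OddChar.mem_centralizer_singleton.mp hz.2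
      rcases ha' with rfl | rfl | rfl | rfl
      · simp
      · exact e2
      · exact e3
      · exact ((show Commute u z from e2).mul_left e3).eq
    obtain ⟨z, hzE, hz1, hzU⟩ := hone
    obtain ⟨u, hu, hu1, huz⟩ := hU3 z
    have hz2 : z * z = 1 := by have := hE2 z hzE; rwa [pow_two] at this
    obtain ⟨M, hM, hMs⟩ := mk u z (hUsq u hu) hz2 (hzU u hu) hu1 hz1 huz
    obtain ⟨w, hwE, hwc, hw1, hwz⟩ : ∃ w, w ∈ E ∧ u * w = w * u ∧ w ≠ 1 ∧ w ≠ z := by
      by_contra hcon
      push Not at hcon
      have h2 := fix E le_rfl u (hUsq u hu) (hconj u)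
      have hsub : ((E ⊓ Subgroup.centralizer ({u} : Set P) : Subgroup P) : Set P) ⊆ {1, z} :=
        fun x hx => by
          by_cases hx1 : x = 1
          · exact Or.inl hx1
          · exact Or.inr (hcon x hx.1 (OddChar.mem_centralizer_singleton.mp hx.2) hx1)
      have h3 := Set.ncard_le_ncard hsub (Set.toFinite _)
      have h4 := Set.ncard_insert_le (1 : P) ({z} : Set P)
      rw [Set.ncard_singleton] at h4
      rw [← Nat.card_coe_set_eq] at h3
      have := Nat.pow_le_pow_left (h3.trans h4) 2
      simp only [SetLike.coe_sort_coe] at this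
      omega
    have hw2 : w * w = 1 := by have := hE2 w hwE; rwa [pow_two] at this
    obtain ⟨F, hF, hFs⟩ := mk z w hz2 hw2 (hcomm z hzE w hwE) hz1 hw1 hwz.symm
    have rUM : ∀ a ∈ U, ∀ b ∈ M, a * b = b * a := by
      intro a ha b hb
      have hb' : b ∈ ({1, u, z, u * z} : Set P) := by rw [← hMs]; exact hb
      rcases hb' with rfl | rfl | rfl | rfl
      · simp
      · exact hUc a ha _ hu
      · exact hzU a ha
      · exact ((show Commute a u from hUc a ha u hu).mul_right (hzU a ha)).eq
    have rMF : ∀ a ∈ M, ∀ b ∈ F, a * b = b * a := by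
      intro a ha b hb
      have ha' : a ∈ ({1, u, z, u * z} : Set P) := by rw [← hMs]; exact ha
      have hb' : b ∈ ({1, z, w, z * w} : Set P) := by rw [← hFs]; exact hb
      have hbE : b ∈ E := by
        rcases hb' with rfl | rfl | rfl | rfl
        exacts [E.one_mem, hzE, hwE, E.mul_mem hzE hwE]
      have hub : Commute u b := by
        rcases hb' with rfl | rfl | rfl | rfl
        exacts [Commute.one_right u, hzU u hu, hwc,
          (show Commute u z from hzU u hu).mul_right hwc]
      rcases ha' with rfl | rfl | rfl | rfl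
      · simp
      · exact hub.eq
      · exact hcomm _ hzE b hbE
      · exact (hub.mul_left (hcomm z hzE b hbE)).eq
    refine ⟨F, ?_, hF, ?_, ?_⟩
    · intro b hb
      have hb' : b ∈ ({1, z, w, z * w} : Set P) := by rw [← hFs]; exact hb
      rcases hb' with rfl | rfl | rfl | rfl
      exacts [E.one_mem, hzE, hwE, E.mul_mem hzE hwE]
    · exact .trans (.single ⟨hU, hM, rUM⟩) (.single ⟨hM, hF, rMF⟩)
    · exact .trans (.single ⟨hF, hM, fun a ha b hb => (rMF b hb a ha).symm⟩)
        (.single ⟨hM, hU, fun a ha b hb => (rUM b hb a ha).symm⟩)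
  obtain ⟨F, hFE, hF, hUF, -⟩ := key U hU
  obtain ⟨F', hFE', hF', -, hFV⟩ := key V hV
  have hFF' : r F F' := ⟨hF, hF', fun a ha b hb => hcomm a (hFE ha) b (hFE' hb)⟩
  exact hUF.trans ((Relation.ReflTransGen.single hFF').trans hFV)

end Cfsg.Agent.S0502
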