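import Cfsg.Statements.S0505
import Cfsg.Agent.OddChar.Elem
import Cfsg.Agent.OddChar.AxB
import Cfsg.Agent.Core.MinimalNormal

set_option autoImplicit false
open Cfsg

namespace Cfsg.Agent.S0505

/-- Let G be a finite group of even order in which the centralizer of every involution is solvable and has trivial
core (no nontrivial normal subgroup of odd order). Then G is of characteristic 2 type. -/
theorem result {G : Type*} [Group G] [Finite G]
    (h2 : Even (Nat.card G))
    (hs : ∀ t : G, orderOf t = 2 → Group.IsSolvable (Subgroup.centralizer ({t} : Set G)))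
    (hc : ∀ t : G, orderOf t = 2 → Cfsg.oddCore (Subgroup.centralizer ({t} : Set G)) = ⊥) :
    Cfsg.IsCharacteristicTwoType G := by
  classical
  refine ⟨h2, fun T hT hT1 => ?_⟩
  haveI : Fact (Nat.Prime 2) := ⟨Nat.prime_two⟩
  set H := Subgroup.normalizer (T : Set G) with hH
  have hTH : T ≤ H := Subgroup.le_normalizer
  -- a central involution of `T`
  haveI : Nontrivial T := (Subgroup.nontrivial_iff_ne_bot T).mpr hT1
  have hZ := hT.center_nontrivial
  obtain ⟨z, hz⟩ := exists_prime_orderOf_dvd_card' (G := Subgroup.center T) 2 (by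
    rcases (hT.to_subgroup (Subgroup.center T)).card_eq_or_dvd with h | h
    · exact absurd h (Finite.one_lt_card_iff_nontrivial.mpr hZ).ne'
    · exact h)
  set t : G := ((z : T) : G) with ht
  have htord : orderOf t = 2 := by rw [ht, Subgroup.orderOf_coe, Subgroup.orderOf_coe, hz]
  have htT : t ∈ T := (z : T).2
  have htc : ∀ s ∈ T, s * t = t * s := fun s hs =>
    congrArg Subtype.val (Subgroup.mem_center_iff.mp z.2 ⟨s, hs⟩)
  set C := Subgroup.centralizer ({t} : Set G) with hC
  haveI := hs t htord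
  have hTC : T ≤ C := fun s hs' => OddChar.mem_centralizer_singleton.mpr (htc s hs').symm
  set Y := (Cfsg.oddCore H).map H.subtype with hY
  have hYH : Y ≤ H := Subgroup.map_subtype_le _
  have hHY : H ≤ Subgroup.normalizer (Y : Set G) :=
    Subgroup.normal_subgroupOf_iff_le_normalizer hYH |>.mp (by
      rw [hY, Subgroup.subgroupOf, Subgroup.comap_map_eq_self_of_injective H.subtype_injective]
      infer_instance)
  have hYodd : ¬ 2 ∣ Nat.card Y := by
    rw [hY, Core.card_map_subtype]; exact Core.not_dvd_card_pPrimeCore 2 H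
  have hTY : T ⊓ Y = ⊥ := by
    rw [eq_bot_iff]
    intro x hx
    obtain ⟨k, hk⟩ := hT ⟨x, hx.1⟩
    have h1 : orderOf x ∣ 2 ^ k := orderOf_dvd_of_pow_eq_one (congrArg Subtype.val hk)
    have h3 : orderOf x ∣ Nat.card Y :=
      orderOf_dvd_of_pow_eq_one (OddChar.pow_card_eq_one_of_mem Y hx.2)
    exact Subgroup.mem_bot.mpr (orderOf_eq_one_iff.mp (Nat.eq_one_of_dvd_coprimes
      (Nat.Coprime.pow_left k ((Nat.Prime.coprime_iff_not_dvd Nat.prime_two).mpr hYodd)) h1 h3))
  have hcomm : ∀ (A B : Subgroup G), A ≤ Subgroup.normalizer (B : Set G) →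
      B ≤ Subgroup.normalizer (A : Set G) → ⁅A, B⁆ ≤ A ⊓ B := by
    intro A B hA hB
    rw [Subgroup.commutator_le]
    intro a ha b hb
    refine ⟨?_, ?_⟩
    · have : b * a⁻¹ * b⁻¹ ∈ A := (Subgroup.mem_normalizer_iff.mp (hB hb) _).mp (A.inv_mem ha)
      simpa [commutatorElement_def, mul_assoc] using A.mul_mem ha this
    · rw [commutatorElement_def]
      exact B.mul_mem ((Subgroup.mem_normalizer_iff.mp (hA ha) b).mp hb) (B.inv_mem hb)
  have hXT : ⁅T, Y⁆ = ⊥ := by
    rw [eq_bot_iff, ← hTY]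
    exact hcomm T Y (hTH.trans hHY) hYH
  have hYC : Y ≤ C := by
    intro y hy
    rw [Subgroup.commutator_eq_bot_iff_le_centralizer] at hXT
    exact OddChar.mem_centralizer_singleton.mpr
      (Subgroup.mem_centralizer_iff.mp (hXT htT) y hy).symm
  set Q := (Cfsg.pCore 2 C).map C.subtype with hQ
  have hQC : Q ≤ C := Subgroup.map_subtype_le _
  have hCQ : C ≤ Subgroup.normalizer (Q : Set G) :=
    Subgroup.normal_subgroupOf_iff_le_normalizer hQC |>.mp (by
      rw [hQ, Subgroup.subgroupOf, Subgroup.comap_map_eq_self_of_injective C.subtype_injective]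
      infer_instance)
  have hQp : IsPGroup 2 Q := (Core.isPGroup_pCore 2 C).map _
  have hfix : ⁅Q ⊓ Subgroup.centralizer (T : Set G), Y⁆ = ⊥ := by
    rw [eq_bot_iff]
    refine le_trans (le_inf ?_ ?_) (?_ : Q ⊓ Y ≤ ⊥)
    · rw [Subgroup.commutator_le]
      intro q hq y hy
      have : y * q⁻¹ * y⁻¹ ∈ Q :=
        (Subgroup.mem_normalizer_iff.mp (hCQ (hYC hy)) _).mp (Q.inv_mem hq.1)
      simpa [commutatorElement_def, mul_assoc] using Q.mul_mem hq.1 this
    · rw [Subgroup.commutator_le]
      intro q hq y hy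
      have hqH : q ∈ H := Subgroup.centralizer_le_normalizer _ hq.2
      rw [commutatorElement_def]
      exact Y.mul_mem ((Subgroup.mem_normalizer_iff.mp (hHY hqH) y).mp hy) (Y.inv_mem hy)
    · intro x hx
      obtain ⟨k, hk⟩ := hQp ⟨x, hx.1⟩
      have h1 : orderOf x ∣ 2 ^ k := orderOf_dvd_of_pow_eq_one (congrArg Subtype.val hk)
      have h3 : orderOf x ∣ Nat.card Y :=
        orderOf_dvd_of_pow_eq_one (OddChar.pow_card_eq_one_of_mem Y hx.2)
      exact Subgroup.mem_bot.mpr (orderOf_eq_one_iff.mp (Nat.eq_one_of_dvd_coprimes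
        (Nat.Coprime.pow_left k ((Nat.Prime.coprime_iff_not_dvd Nat.prime_two).mpr hYodd)) h1 h3))
  have hQY := OddChar.axb_lemma hT hYodd hXT Q hQp (hTC.trans hCQ) (hYC.trans hCQ) hfix
  have hYbot : Y = ⊥ := by
    rw [eq_bot_iff]
    intro y hy
    rw [Subgroup.commutator_eq_bot_iff_le_centralizer] at hQY
    have hy' : (⟨y, hYC hy⟩ : C) ∈ Subgroup.centralizer (Cfsg.pCore 2 C : Set C) := by
      rw [Subgroup.mem_centralizer_iff]
      intro q hq
      exact Subtype.ext (Subgroup.mem_centralizer_iff.mp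
        (hQY (Subgroup.mem_map_of_mem C.subtype hq)) y hy).symm
    have hyQ : y ∈ Q :=
      Subgroup.mem_map_of_mem C.subtype (Core.centralizer_pCore_le_of_isSolvable (hc t htord) hy')
    obtain ⟨k, hk⟩ := hQp ⟨y, hyQ⟩
    have h1 : orderOf y ∣ 2 ^ k := orderOf_dvd_of_pow_eq_one (congrArg Subtype.val hk)
    have h3 : orderOf y ∣ Nat.card Y :=
      orderOf_dvd_of_pow_eq_one (OddChar.pow_card_eq_one_of_mem Y hy)
    exact Subgroup.mem_bot.mpr (orderOf_eq_one_iff.mp (Nat.eq_one_of_dvd_coprimes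
      (Nat.Coprime.pow_left k ((Nat.Prime.coprime_iff_not_dvd Nat.prime_two).mpr hYodd)) h1 h3))
  have hOH : Cfsg.pPrimeCore 2 H = ⊥ :=
    (Subgroup.map_eq_bot_iff_of_injective _ H.subtype_injective).mp (hY ▸ hYbot)
  -- the centraliser of `O₂(H)` is solvable
  set D : Subgroup H := Subgroup.centralizer (Cfsg.pCore 2 H : Set H) with hD
  haveI : D.Normal := Subgroup.normal_centralizer
  have hTcore : T.subgroupOf H ≤ Cfsg.pCore 2 H := by
    refine Core.le_pCore ?_ (hT.of_equiv (Subgroup.subgroupOfEquivOfLe hTH).symm)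
    exact (Subgroup.normal_subgroupOf_iff_le_normalizer hTH).mpr le_rfl
  have hDC : D.map H.subtype ≤ C := by
    rintro _ ⟨d, hd, rfl⟩
    exact OddChar.mem_centralizer_singleton.mpr (congrArg Subtype.val
      (Subgroup.mem_centralizer_iff.mp hd ⟨t, hTH htT⟩ (hTcore htT)))
  haveI : Group.IsSolvable D := by
    have e : D ≃* D.map H.subtype := Subgroup.equivMapOfInjective _ _ H.subtype_injective
    exact Group.isSolvable_of_isSolvable_injective
      (f := (Subgroup.inclusion hDC).comp e.toMonoidHom)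
      ((Subgroup.inclusion_injective hDC).comp e.injective)
  have hOD : Cfsg.pPrimeCore 2 D = ⊥ := Core.pPrimeCore_eq_bot_of_normal D hOH
  intro d hd
  have hd' : (⟨d, hd⟩ : D) ∈ Subgroup.centralizer (Cfsg.pCore 2 D : Set D) := by
    rw [Subgroup.mem_centralizer_iff]
    intro q hq
    rw [Core.pCore_eq_subgroupOf] at hq
    exact Subtype.ext (Subgroup.mem_centralizer_iff.mp hd (q : H) hq)
  have h1 := Core.centralizer_pCore_le_of_isSolvable hOD hd'
  rw [Core.pCore_eq_subgroupOf] at h1
  exact h1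

end Cfsg.Agent.S0505
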