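import Cfsg.Statements.S0521
import Cfsg.Agent.Dickson.PSolvable
import Cfsg.Agent.OddLocal.RankTwo.Omega
import Cfsg.Agent.OddLocal.FixOrderP
import Cfsg.Agent.Core.Cores

set_option autoImplicit false
open Cfsg
open scoped commutatorElement

namespace Cfsg.Agent.S0521

/-- Let X be a finite solvable group of odd order, p a prime and S a Sylow p-subgroup of X whose commutator subgroup is
cyclic. Then the product of the largest normal subgroup of X of order prime to p with S is a normal subgroup of X. -/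
theorem result {X : Type*} [Group X] [Finite X] [Group.IsSolvable X]
    (hX : Odd (Nat.card X)) (p : ℕ) [Fact p.Prime] (S : Sylow p X) (hS : IsCyclic (commutator (S : Subgroup X))) :
    (Cfsg.pPrimeCore p X ⊔ (S : Subgroup X)).Normal := by
  classical
  have hp := (Fact.out : p.Prime)
  by_cases hp2 : p = 2
  · subst hp2
    haveI : Subsingleton (S : Subgroup X) := by
      obtain ⟨k, hk⟩ := IsPGroup.iff_card.mp S.2
      refine (Nat.card_eq_one_iff_unique.mp (hk.trans ?_)).1
      rcases Nat.eq_zero_or_pos k with rfl | hk0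
      · rfl
      · exfalso
        have h2 : 2 ∣ Nat.card X :=
          (dvd_pow_self 2 hk0.ne').trans (hk ▸ (S : Subgroup X).card_subgroup_dvd_card)
        exact (Nat.not_even_iff_odd.mpr hX) (even_iff_two_dvd.mpr h2)
    rw [Subgroup.eq_bot_of_subsingleton (S : Subgroup X), sup_bot_eq]
    infer_instance
  set N₀ := Cfsg.pPrimeCore p X with hN₀
  set f := QuotientGroup.mk' N₀ with hf
  let S' : Sylow p (X ⧸ N₀) := S.mapSurjective (QuotientGroup.mk'_surjective N₀)
  have hS' : (S' : Subgroup (X ⧸ N₀)) = (S : Subgroup X).map f := S.coe_mapSurjective _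
  have h0 : Cfsg.pPrimeCore p (X ⧸ N₀) = ⊥ := Core.pPrimeCore_quotient_pPrimeCore p X
  set K := Cfsg.pCore p (X ⧸ N₀) with hK
  have hCK : Subgroup.centralizer (K : Set (X ⧸ N₀)) ≤ K := Core.centralizer_pCore_le_of_isSolvable h0
  have hKp : IsPGroup p K := Core.isPGroup_pCore p _
  set Φ := (frattini K).map K.subtype with hΦ
  haveI : Φ.Normal := Core.normal_map_subtype_of_characteristic _
  have hno : ¬ Dickson.HasSL2Section p (⊤ : Subgroup (X ⧸ N₀)) := by
    refine Dickson.no_section_of_abelian_sylow_two hp2 fun T => ?_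
    haveI : Subsingleton (T : Subgroup (X ⧸ N₀)) := by
      obtain ⟨k, hk⟩ := IsPGroup.iff_card.mp T.2
      refine (Nat.card_eq_one_iff_unique.mp (hk.trans ?_)).1
      rcases Nat.eq_zero_or_pos k with rfl | hk0
      · rfl
      · exfalso
        have h1 : 2 ∣ Nat.card (X ⧸ N₀) :=
          (dvd_pow_self 2 hk0.ne').trans (hk ▸ (T : Subgroup (X ⧸ N₀)).card_subgroup_dvd_card)
        have h2 : 2 ∣ Nat.card X := h1.trans (N₀.index_dvd_card)
        exact (Nat.not_even_iff_odd.mpr hX) (even_iff_two_dvd.mpr h2)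
    exact ⟨⟨fun a b => Subsingleton.elim _ _⟩⟩
  have hcyc : IsCyclic ↥⁅(S' : Subgroup (X ⧸ N₀)), (S' : Subgroup (X ⧸ N₀))⁆ := by
    haveI := hS
    rw [hS', ← Subgroup.map_commutator]
    have e : ⁅(S : Subgroup X), (S : Subgroup X)⁆ = (commutator (S : Subgroup X)).map (S : Subgroup X).subtype :=
      (Subgroup.map_subtype_commutator _).symm
    rw [e, Subgroup.map_map]
    exact isCyclic_of_surjective _ ((f.comp (S : Subgroup X).subtype).subgroupMap_surjective (commutator (S : Subgroup X)))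
  have hle : (S' : Subgroup (X ⧸ N₀)) ≤ K := by
    intro a ha
    have hA : Subgroup.zpowers a ≤ (S' : Subgroup (X ⧸ N₀)) := Subgroup.zpowers_le.mpr ha
    set C₀ := ⁅K, Subgroup.zpowers a⁆ with hC₀
    have hC₀K : C₀ ≤ K := Subgroup.commutator_le_left K _
    have hC₀S : C₀ ≤ ⁅(S' : Subgroup (X ⧸ N₀)), (S' : Subgroup (X ⧸ N₀))⁆ :=
      Subgroup.commutator_mono (Core.pCore_le_sylow S') hA
    haveI : IsCyclic C₀ := Subgroup.isCyclic_of_le hC₀S
    have hpow : ∀ x ∈ K, x ^ p ∈ Φ := fun x hx =>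
      ⟨(⟨x, hx⟩ : K) ^ p, (OddLocal.frattini_facts hKp ⟨x, hx⟩ 1).1, rfl⟩
    have hq : ⁅C₀, Subgroup.zpowers a⁆ ≤ Φ := by
      rw [Subgroup.commutator_le]
      intro x hx b hb
      obtain ⟨⟨c, hc⟩, hgen⟩ := IsCyclic.exists_generator (α := C₀)
      obtain ⟨i, hi⟩ := hgen ⟨x, hx⟩
      have hxi : c ^ i = x := congrArg Subtype.val hi
      by_cases hc1 : c = 1
      · rw [← hxi, hc1, one_zpow, commutatorElement_one_left]
        exact one_mem _
      have hnorm : b * c * b⁻¹ ∈ C₀ := by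
        have h1 : Subgroup.zpowers a ≤ Subgroup.normalizer (C₀ : Set (X ⧸ N₀)) :=
          Subgroup.normalizer_commutator_ge_right _ _
        exact (Subgroup.mem_normalizer_iff.mp (h1 hb) c).mp hc
      obtain ⟨r, hr⟩ := hgen ⟨_, hnorm⟩
      have hcr : b * c * b⁻¹ = c ^ r := (congrArg Subtype.val hr).symm
      obtain ⟨j, hj⟩ := IsPGroup.iff_orderOf.mp S'.2 ⟨b, hA hb⟩
      rw [Subgroup.orderOf_mk] at hj
      have hbn : ∀ n : ℕ, b ^ n * c * (b ^ n)⁻¹ = c ^ (r ^ n) := by
        intro n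
        induction n with
        | zero => simp
        | succ n ih =>
          calc b ^ (n + 1) * c * (b ^ (n + 1))⁻¹ = b ^ n * (b * c * b⁻¹) * (b ^ n)⁻¹ := by group
            _ = c ^ (r ^ (n + 1)) := by rw [hcr, ← conj_zpow, ih, ← zpow_mul, pow_succ]
      have h1 : c ^ (r ^ p ^ j - 1) = 1 := by
        rw [zpow_sub, zpow_one, ← hbn, ← hj, pow_orderOf_eq_one, one_mul, inv_one, mul_one, mul_inv_cancel]
      rw [← orderOf_dvd_iff_zpow_eq_one] at h1
      obtain ⟨l, hl⟩ := IsPGroup.iff_orderOf.mp (S'.2.to_le (hC₀S.trans (Subgroup.commutator_le_self _))) ⟨c, hc⟩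
      rw [Subgroup.orderOf_mk] at hl
      have hl0 : l ≠ 0 := fun e => hc1 (orderOf_eq_one_iff.mp (by rw [hl, e, pow_zero]))
      have hr1 : (p : ℤ) ∣ r - 1 := by
        have h2 : (p : ℤ) ∣ r ^ p ^ j - 1 := by
          refine dvd_trans ?_ h1
          rw [hl]; push_cast
          exact dvd_pow_self _ hl0
        rw [← ZMod.intCast_zmod_eq_zero_iff_dvd] at h2 ⊢
        push_cast at h2 ⊢
        rwa [ZMod.pow_card_pow] at h2
      obtain ⟨t, ht⟩ := hr1
      have e : ⁅x, b⁆ = (c ^ (-(t * i))) ^ p := by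
        rw [commutatorElement_def, ← hxi]
        calc c ^ i * b * (c ^ i)⁻¹ * b⁻¹ = c ^ i * (b * c ^ (-i) * b⁻¹) := by group
          _ = c ^ i * c ^ (r * -i) := by rw [← conj_zpow, hcr, ← zpow_mul]
          _ = (c ^ (-(t * i))) ^ p := by
            rw [← zpow_add, ← zpow_natCast, ← zpow_mul]
            congr 1
            rw [show r = p * t + 1 by linarith]
            ring
      rw [e]
      exact hpow _ (zpow_mem (hC₀K hc) _)
    obtain ⟨D, hDn, hCD, ⟨k, hk⟩, haD⟩ :=
      Dickson.isPStableOnSection_of_no_section hp2 hno K Φ hKp a hq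
    have hsec : IsPGroup p (Cfsg.sectionKernel K Φ) := by
      refine fun g => ?_
      by_contra hne
      push Not at hne
      have hord : ∀ l, orderOf (g : X ⧸ N₀) ≠ p ^ l := fun l hl => hne l (Subtype.ext (by
        rw [SubmonoidClass.coe_pow, ← hl, pow_orderOf_eq_one]; rfl))
      obtain ⟨q, hq', hqd, hqp⟩ : ∃ q : ℕ, q.Prime ∧ q ∣ orderOf (g : X ⧸ N₀) ∧ q ≠ p := by
        by_contra hcon
        push Not at hcon
        refine hord ((orderOf (g : X ⧸ N₀)).factorization p) ?_
        conv_lhs => rw [← Nat.prod_primeFactorsList (orderOf_pos (g : X ⧸ N₀)).ne']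
        rw [List.eq_replicate_of_mem (a := p) fun x hx => hcon x (Nat.prime_of_mem_primeFactorsList hx)
          (Nat.dvd_of_mem_primeFactorsList hx), List.prod_replicate]
        rw [← Nat.primeFactorsList_count_eq]
        congr 1
        conv_rhs => rw [List.eq_replicate_of_mem (a := p) fun x hx => hcon x (Nat.prime_of_mem_primeFactorsList hx)
          (Nat.dvd_of_mem_primeFactorsList hx)]
        simp
      set h := (g : X ⧸ N₀) ^ (orderOf (g : X ⧸ N₀) / q) with hh
      have hho : orderOf h = q := by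
        rw [hh, orderOf_pow_of_dvd ((Nat.div_pos (Nat.le_of_dvd (orderOf_pos _) hqd) hq'.pos).ne')
          (Nat.div_dvd_of_dvd hqd), Nat.div_div_self hqd (orderOf_pos _).ne']
      have hhC : h ∈ Cfsg.sectionKernel K Φ := pow_mem g.2 _
      have hKn : h ∈ Subgroup.normalizer (K : Set (X ⧸ N₀)) := by
        rw [Subgroup.normalizer_eq_top]; exact Subgroup.mem_top _
      set φ := Subgroup.normalizerMonoidHom K ⟨h, hKn⟩ with hφ
      have hφ1 : φ = 1 := by
        refine OddLocal.RankTwo.eq_one_of_frattini hKp φ ?_ fun x => ?_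
        · refine Nat.Coprime.coprime_dvd_left ((orderOf_map_dvd _ _).trans (dvd_of_eq ?_))
            ((Nat.coprime_primes hq' hp).mpr hqp)
          rw [Subgroup.orderOf_mk, hho]
        · have h1 : (QuotientGroup.mk' Φ) h * (QuotientGroup.mk' Φ) (x : X ⧸ N₀) * ((QuotientGroup.mk' Φ) h)⁻¹ * ((QuotientGroup.mk' Φ) (x : X ⧸ N₀))⁻¹ = 1 := by
            have h2 := Subgroup.mem_centralizer_iff.mp (Subgroup.mem_comap.mp hhC) ((QuotientGroup.mk' Φ) (x : X ⧸ N₀))
              ⟨_, x.2, rfl⟩
            have h3 : (QuotientGroup.mk' Φ) h * (QuotientGroup.mk' Φ) (x : X ⧸ N₀) = (QuotientGroup.mk' Φ) (x : X ⧸ N₀) * (QuotientGroup.mk' Φ) h := h2.symm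
            rw [h3, mul_inv_cancel_right, mul_inv_cancel]
          rw [← map_inv, ← map_inv, ← map_mul, ← map_mul, ← map_mul] at h1
          obtain ⟨y, hy, hye⟩ := (QuotientGroup.eq_one_iff _).mp h1
          have hy' : y = φ x * x⁻¹ := Subtype.ext hye
          exact hy' ▸ hy
      have hhK : h ∈ Subgroup.centralizer (K : Set (X ⧸ N₀)) := by
        rw [Subgroup.mem_centralizer_iff]
        intro x hx
        have h4 : h * x * h⁻¹ = x :=
          (congrArg Subtype.val (DFunLike.congr_fun hφ1 (⟨x, hx⟩ : K)) :)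
        exact (mul_inv_eq_iff_eq_mul.mp h4).symm
      obtain ⟨l, hl⟩ := IsPGroup.iff_orderOf.mp hKp ⟨h, hCK hhK⟩
      rw [Subgroup.orderOf_mk, hho] at hl
      exact hqp ((Nat.prime_dvd_prime_iff_eq hq' hp).mp (hq'.dvd_of_dvd_pow (dvd_of_eq hl)))
    have hDp : IsPGroup p D := by
      obtain ⟨m, hm⟩ := IsPGroup.iff_card.mp hsec
      refine IsPGroup.of_card (n := m + k) ?_
      rw [← Subgroup.relIndex_bot_left, ← Subgroup.relIndex_mul_relIndex ⊥ _ D bot_le hCD,
        Subgroup.relIndex_bot_left, hm, hk, pow_add]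
    exact Core.le_pCore hDn hDp haD
  have heq : (S : Subgroup X).map f = K := by
    rw [← hS']; exact le_antisymm hle (Core.pCore_le_sylow S')
  have hcm : ((S : Subgroup X).map f).comap f = N₀ ⊔ (S : Subgroup X) := by
    rw [Subgroup.comap_map_eq, QuotientGroup.ker_mk', sup_comm]
  rw [← hcm, heq]
  infer_instance

end Cfsg.Agent.S0521
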