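import Cfsg.Statements.S0529
import Cfsg.Agent.Core.SupersolvableTower

set_option autoImplicit false
open Cfsg
set_option linter.style.haveILetI false

namespace Cfsg.Agent.S0529

universe u in
open Subgroup in
private theorem main : ∀ (c : ℕ) {G : Type u} [Group G] [Finite G], Nat.card G = c →
    Cfsg.IsSupersolvable G → ∃ (n : ℕ) (H : Fin (n + 1) → Subgroup G), H 0 = ⊥ ∧ H (Fin.last n) = ⊤ ∧
      (∀ i, (H i).Normal) ∧
      (∀ i : Fin n, H i.castSucc ≤ H i.succ ∧ ((H i.castSucc).relIndex (H i.succ)).Prime) ∧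
      ∀ i j : Fin n, i ≤ j → (H j.castSucc).relIndex (H j.succ) ≤ (H i.castSucc).relIndex (H i.succ) := by
  intro c
  induction c using Nat.strong_induction_on with
  | _ c ih =>
  intro G _ _ hc h
  rcases subsingleton_or_nontrivial G with hs | hs
  · exact ⟨0, fun _ => ⊥, rfl, Subsingleton.elim _ _, fun _ => inferInstance,
      fun i => i.elim0, fun i => i.elim0⟩
  have hne : (Nat.card G).primeFactors.Nonempty :=
    Nat.nonempty_primeFactors.mpr Finite.one_lt_card
  obtain ⟨p, hp, hmax⟩ : ∃ p ∈ (Nat.card G).primeFactors, ∀ r ∈ (Nat.card G).primeFactors, r ≤ p :=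
    ⟨_, Finset.max'_mem _ hne, fun r hr => Finset.le_max' _ r hr⟩
  have hpp : p.Prime := Nat.prime_of_mem_primeFactors hp
  haveI := Fact.mk hpp
  obtain ⟨P⟩ := (inferInstance : Nonempty (Sylow p G))
  have hPn := Core.sylow_normal_of_max_prime h
    (fun r hr hd => hmax r (Nat.mem_primeFactors.mpr ⟨hr, hd, Nat.card_pos.ne'⟩)) P
  obtain ⟨N, q, hN, hNP, hq, hNc⟩ := Core.exists_normal_prime_card_le h hPn (fun e => by
    refine P.not_dvd_index ?_
    rw [e, index_bot]
    exact Nat.dvd_of_mem_primeFactors hp)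
  haveI := hN
  have hqp : q = p := by
    obtain ⟨k, hk⟩ := IsPGroup.iff_card.mp P.2
    exact (Nat.prime_dvd_prime_iff_eq hq hpp).mp
      (hq.dvd_of_dvd_pow (hk ▸ hNc ▸ card_dvd_of_le hNP))
  have hsurj := QuotientGroup.mk'_surjective N
  obtain ⟨n, H', h0, hl, hn', hst, hmono⟩ :=
    ih _ (hc ▸ Core.card_quotient_lt_of_prime_card hq hNc) rfl
      (Core.isSupersolvable_of_surjective hsurj h)
  have hrel : ∀ i : Fin n, ((H' i.castSucc).comap (QuotientGroup.mk' N)).relIndex
      ((H' i.succ).comap (QuotientGroup.mk' N)) = (H' i.castSucc).relIndex (H' i.succ) := fun i => by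
    rw [relIndex_comap, map_comap_eq_self_of_surjective hsurj]
  refine ⟨n + 1, Fin.cons ⊥ (fun i => (H' i).comap (QuotientGroup.mk' N)), rfl, ?_, ?_, ?_, ?_⟩
  · rw [show Fin.last (n + 1) = (Fin.last n).succ from rfl, Fin.cons_succ, hl, comap_top]
  · intro i
    rcases Fin.eq_zero_or_eq_succ i with rfl | ⟨j, rfl⟩
    · rw [Fin.cons_zero]; infer_instance
    · rw [Fin.cons_succ]; exact (hn' j).comap _
  · intro i
    rcases Fin.eq_zero_or_eq_succ i with rfl | ⟨j, rfl⟩
    · simp only [Fin.castSucc_zero, Fin.cons_zero, Fin.cons_succ, h0, MonoidHom.comap_bot,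
        QuotientGroup.ker_mk', relIndex_bot_left, hNc, bot_le, true_and]
      exact hq
    · simp only [← Fin.succ_castSucc, Fin.cons_succ, hrel]
      exact ⟨comap_mono (hst j).1, (hst j).2⟩
  · intro i j hij
    rcases Fin.eq_zero_or_eq_succ i with rfl | ⟨a, rfl⟩
    · rcases Fin.eq_zero_or_eq_succ j with rfl | ⟨b, rfl⟩
      · exact le_rfl
      · simp only [← Fin.succ_castSucc, Fin.castSucc_zero, Fin.cons_zero, Fin.cons_succ, hrel, h0,
          MonoidHom.comap_bot, QuotientGroup.ker_mk', relIndex_bot_left, hNc, hqp]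
        refine hmax _ (Nat.mem_primeFactors.mpr ⟨(hst b).2, ?_, Nat.card_pos.ne'⟩)
        exact ((relIndex_dvd_card _ _).trans (card_subgroup_dvd_card _)).trans
          N.card_quotient_dvd_card
    · rcases Fin.eq_zero_or_eq_succ j with rfl | ⟨b, rfl⟩
      · exact absurd hij (by simp)
      · simp only [← Fin.succ_castSucc, Fin.cons_succ, hrel]
        exact hmono a b (by simpa using hij)

/-- A finite supersolvable group has a chain of normal subgroups, from the trivial subgroup to the whole group, in which every step has prime index and the primes occurring are non-increasing as one goes up the chain. -/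
theorem result {G : Type*} [Group G] [Finite G] (hG : Cfsg.IsSupersolvable G) : ∃ (n : ℕ) (H : Fin (n + 1) → Subgroup G), H 0 = ⊥ ∧ H (Fin.last n) = ⊤ ∧ (∀ i, (H i).Normal) ∧ (∀ i : Fin n, H i.castSucc ≤ H i.succ ∧ ((H i.castSucc).relIndex (H i.succ)).Prime) ∧ ∀ i j : Fin n, i ≤ j → (H j.castSucc).relIndex (H j.succ) ≤ (H i.castSucc).relIndex (H i.succ) := by
  exact main _ rfl hG

end Cfsg.Agent.S0529
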