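import Cfsg.Statements.S0530
import Cfsg.Agent.Core.SupersolvableTower

set_option autoImplicit false
open Cfsg
set_option linter.style.haveILetI false

namespace Cfsg.Agent.S0530

universe u in
open Subgroup in
private theorem main {p : ℕ} (hp : p.Prime) (hp2 : p ≠ 2) : ∀ (n : ℕ) {G : Type u} [Group G]
    [Finite G], Nat.card G = 2 * p ^ n → Cfsg.IsSupersolvable G := by
  intro n
  haveI := Fact.mk hp
  induction n with
  | zero =>
    intro G _ _ hG
    haveI := Fact.mk Nat.prime_two
    exact Core.isSupersolvable_of_isNilpotent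
      (IsPGroup.of_card (p := 2) (n := 1) (by simpa using hG)).isNilpotent
  | succ n ih =>
    intro G _ _ hG
    obtain ⟨P⟩ := (inferInstance : Nonempty (Sylow p G))
    have hPc : Nat.card P = p ^ (n + 1) := by
      rw [P.card_eq_multiplicity, hG, Nat.factorization_mul two_ne_zero (pow_ne_zero _ hp.ne_zero),
        Finsupp.add_apply, hp.factorization_pow, Nat.prime_two.factorization]
      simp [hp2]
    have hPi : (P : Subgroup G).index = 2 := by
      have := (P : Subgroup G).card_mul_index
      rw [hPc, hG, mul_comm 2] at this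
      exact Nat.eq_of_mul_eq_mul_left (pow_pos hp.pos _) this
    haveI hPn : (P : Subgroup G).Normal := normal_of_index_eq_two hPi
    haveI hnt : Nontrivial (P : Subgroup G) := Finite.one_lt_card_iff_nontrivial.mp
      (hPc ▸ Nat.one_lt_pow (Nat.succ_ne_zero n) hp.one_lt)
    haveI := P.2.center_nontrivial
    obtain ⟨k, hk⟩ := IsPGroup.iff_card.mp (P.2.to_subgroup (center (P : Subgroup G)))
    have hk0 : k ≠ 0 := by
      rintro rfl
      exact (Finite.one_lt_card (α := center (P : Subgroup G))).ne' (by simpa using hk)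
    obtain ⟨z, hz⟩ := exists_prime_orderOf_dvd_card' (G := center (P : Subgroup G)) p
      (hk ▸ dvd_pow_self p hk0)
    obtain ⟨t, ht⟩ := exists_prime_orderOf_dvd_card' (G := G) 2 (hG ▸ dvd_mul_right 2 _)
      (hp := ⟨Nat.prime_two⟩)
    have htP : t ∉ (P : Subgroup G) := fun h => hp2 (by
      have h1 := (Subgroup.orderOf_dvd_natCard _ h)
      rw [ht, hPc] at h1
      exact ((Nat.prime_dvd_prime_iff_eq Nat.prime_two hp).mp (Nat.prime_two.dvd_of_dvd_pow h1)).symm)
    -- the central element and its conjugate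
    obtain ⟨y, hy⟩ : ∃ y, y = ((z : (P : Subgroup G)) : G) := ⟨_, rfl⟩
    have hyo : orderOf y = p := by rw [hy, orderOf_coe, orderOf_coe, hz]
    have hcy : ∀ x ∈ (P : Subgroup G), x * y = y * x := fun x hx =>
      hy ▸ congrArg Subtype.val (mem_center_iff.mp z.2 ⟨x, hx⟩)
    have hcy' : ∀ x ∈ (P : Subgroup G), x * (t * y * t⁻¹) = (t * y * t⁻¹) * x := fun x hx => by
      have h1 : t⁻¹ * x * t ∈ (P : Subgroup G) := by simpa using hPn.conj_mem x hx t⁻¹
      calc x * (t * y * t⁻¹) = t * ((t⁻¹ * x * t) * y) * t⁻¹ := by group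
        _ = t * (y * (t⁻¹ * x * t)) * t⁻¹ := by rw [hcy _ h1]
        _ = _ := by group
    have hyP : y ∈ (P : Subgroup G) := hy ▸ z.1.2
    have htt : t * t = 1 := by rw [← sq, ← ht, pow_orderOf_eq_one]
    have hgen : ∀ g : G, ∃ x ∈ (P : Subgroup G), g = x ∨ g = x * t := fun g => by
      by_cases hg : g ∈ (P : Subgroup G)
      · exact ⟨g, hg, Or.inl rfl⟩
      · refine ⟨g * t⁻¹, ?_, Or.inr (by group)⟩
        rw [mul_mem_iff_of_index_two hPi, inv_mem_iff]
        exact iff_of_false hg htP
    obtain ⟨N, hNn, hNc⟩ : ∃ N : Subgroup G, N.Normal ∧ Nat.card N = p := by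
      by_cases hw : y * (t * y * t⁻¹) = 1
      · refine ⟨zpowers y, ⟨fun x hx g => ?_⟩, by rw [Nat.card_zpowers, hyo]⟩
        obtain ⟨i, rfl⟩ := mem_zpowers_iff.mp hx
        rw [← conj_zpow]
        refine Subgroup.zpow_mem _ ?_ i
        have h1 : t * y * t⁻¹ = y⁻¹ := eq_inv_of_mul_eq_one_right hw
        obtain ⟨x, hx', hgx | hgx⟩ := hgen g
        · rw [hgx, hcy x hx', mul_inv_cancel_right]; exact mem_zpowers y
        · rw [hgx, show x * t * y * (x * t)⁻¹ = x * (t * y * t⁻¹) * x⁻¹ by group, hcy' x hx',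
            mul_inv_cancel_right, h1]
          exact inv_mem (mem_zpowers y)
      · obtain ⟨w, hwd⟩ : ∃ w, w = y * (t * y * t⁻¹) := ⟨_, rfl⟩
        rw [← hwd] at hw
        have hwx : ∀ x ∈ (P : Subgroup G), x * w = w * x := fun x hx => by
          rw [hwd]; exact (show Commute x y from hcy x hx).mul_right (hcy' x hx)
        have hwt : t * w = w * t := by
          have e : t * t * y * (t * t)⁻¹ = y := by rw [htt]; group
          calc t * w = (t * y * t⁻¹) * (t * t * y * (t * t)⁻¹) * t := by rw [hwd]; group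
            _ = (t * y * t⁻¹) * y * t := by rw [e]
            _ = w * t := by rw [hwd, hcy' y hyP]
        have hwo : orderOf w = p := orderOf_eq_prime (by
          rw [hwd, (show Commute y (t * y * t⁻¹) from hcy' y hyP).mul_pow, conj_pow,
            ← hyo, pow_orderOf_eq_one]
          group) hw
        refine ⟨zpowers w, ⟨fun x hx g => ?_⟩, by rw [Nat.card_zpowers, hwo]⟩
        obtain ⟨i, rfl⟩ := mem_zpowers_iff.mp hx
        rw [← conj_zpow]
        refine Subgroup.zpow_mem _ ?_ i
        obtain ⟨x, hx', hgx | hgx⟩ := hgen g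
        · rw [hgx, hwx x hx', mul_inv_cancel_right]; exact mem_zpowers w
        · rw [hgx, show x * t * w * (x * t)⁻¹ = x * (t * w * t⁻¹) * x⁻¹ by group, hwt,
            mul_inv_cancel_right, hwx x hx', mul_inv_cancel_right]
          exact mem_zpowers w
    haveI := hNn
    haveI : IsCyclic N := isCyclic_of_prime_card hNc
    refine Core.isSupersolvable_of_cyclic_normal N (ih ?_)
    have h5 := card_eq_card_quotient_mul_card_subgroup N
    rw [hG, hNc, pow_succ, ← mul_assoc] at h5
    exact (Nat.eq_of_mul_eq_mul_right hp.pos h5).symm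

/-- A finite group whose order is twice a prime power is supersolvable. -/
theorem result {G : Type*} [Group G] [Finite G] (p n : ℕ) (hp : p.Prime) (hG : Nat.card G = 2 * p ^ n) : Cfsg.IsSupersolvable G := by
  by_cases hp2 : p = 2
  · subst hp2
    haveI := Fact.mk hp
    exact Core.isSupersolvable_of_isNilpotent
      (IsPGroup.of_card (p := 2) (n := n + 1) (by rw [hG, pow_succ, mul_comm])).isNilpotent
  · exact main hp hp2 n hG

end Cfsg.Agent.S0530
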