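import Cfsg.Statements.S0531
import Cfsg.Agent.Core.SupersolvableTower

set_option autoImplicit false
open Cfsg
set_option linter.style.haveILetI false

namespace Cfsg.Agent.S0531

universe u in
open Subgroup in
private theorem main : ∀ (n : ℕ) {G : Type u} [Group G] [Finite G], Nat.card G = n →
    Cfsg.IsSupersolvable G → ∀ d, d ∣ n → ∃ H : Subgroup G, Nat.card H = d := by
  intro n
  induction n using Nat.strong_induction_on with
  | _ n ih =>
  intro G _ _ hn h d hd
  rcases subsingleton_or_nontrivial G with hs | hs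
  · refine ⟨⊥, ?_⟩
    rw [← hn, Nat.card_unique, Nat.dvd_one] at hd
    rw [hd, card_bot]
  obtain ⟨N, r, hN, hr, hNc⟩ := Core.exists_normal_prime_card h
  haveI := hN
  have hsurj := QuotientGroup.mk'_surjective N
  have hlt : Nat.card (G ⧸ N) < n := hn ▸ Core.card_quotient_lt_of_prime_card hr hNc
  have hcard : Nat.card (G ⧸ N) * r = n := by
    rw [← hn, ← hNc, ← card_eq_card_quotient_mul_card_subgroup]
  have hq := Core.isSupersolvable_of_surjective hsurj h
  by_cases hrd : r ∣ d
  · obtain ⟨e, rfl⟩ := hrd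
    obtain ⟨L, hL⟩ := ih _ hlt rfl hq e
      (Nat.dvd_of_mul_dvd_mul_right hr.pos (by rw [hcard, mul_comm]; exact hd))
    exact ⟨L.comap (QuotientGroup.mk' N), by rw [Core.card_comap_mk, hL, hNc, mul_comm]⟩
  · have hcop : r.Coprime d := (hr.coprime_iff_not_dvd).mpr hrd
    obtain ⟨L, hL⟩ := ih _ hlt rfl hq d (hcop.symm.dvd_of_dvd_mul_right (hcard.symm ▸ hd))
    obtain ⟨K, hK⟩ : ∃ K, K = L.comap (QuotientGroup.mk' N) := ⟨_, rfl⟩
    have hKc : Nat.card K = d * r := by rw [hK, Core.card_comap_mk, hL, hNc]
    by_cases hKt : K = ⊤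
    · obtain ⟨H, hH⟩ := exists_right_complement'_of_coprime (N := N) (by
        have := N.card_mul_index
        rw [hNc, ← card_top (G := G), ← hKt, hKc, mul_comm d] at this
        rw [hNc, Nat.eq_of_mul_eq_mul_left hr.pos this]
        exact hcop)
      refine ⟨H, ?_⟩
      have h1 := hH.card_mul
      rw [hNc, ← card_top (G := G), ← hKt, hKc, mul_comm d] at h1
      exact Nat.eq_of_mul_eq_mul_left hr.pos h1
    · have hlt' : Nat.card K < n := hn ▸ lt_of_le_of_ne (Finite.card_subtype_le _)
        (fun hc => hKt (eq_top_of_card_eq K hc))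
      obtain ⟨H, hH⟩ := ih _ hlt' rfl (Core.isSupersolvable_subgroup h K) d (hKc ▸ dvd_mul_right d r)
      exact ⟨H.map K.subtype, by rw [card_map_of_injective K.subtype_injective, hH]⟩

/-- A finite supersolvable group has a subgroup of each order dividing its order. -/
theorem result {G : Type*} [Group G] [Finite G] (hG : Cfsg.IsSupersolvable G) : Cfsg.HasSubgroupOfEveryOrder G := by
  exact fun d hd => main _ rfl hG d hd

end Cfsg.Agent.S0531
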