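import Cfsg.Statements.S0534
import Cfsg.Agent.Core.Hall

set_option autoImplicit false
open Cfsg

namespace Cfsg.Agent.S0534

/-- A finite abelian group has a subgroup of every order dividing its order. -/
theorem exists_subgroup_of_dvd {A : Type*} [CommGroup A] [Finite A] :
    ∀ d : ℕ, d ∣ Nat.card A → ∃ B : Subgroup A, Nat.card B = d := by
  intro d
  induction d using Nat.recOnPrimeCoprime with
  | zero => intro h; exact absurd (zero_dvd_iff.mp h) Nat.card_pos.ne'
  | prime_pow p k hp => intro h; haveI := Fact.mk hp; exact Sylow.exists_subgroup_card_pow_prime p h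
  | coprime a b _ _ hab iha ihb =>
    intro h
    obtain ⟨B, hB⟩ := iha ((dvd_mul_right a b).trans h)
    obtain ⟨C, hC⟩ := ihb ((dvd_mul_left b a).trans h)
    refine ⟨B ⊔ C, ?_⟩
    have h1 := Cfsg.Agent.Core.card_sup_mul_card_inf B C
    have h2 : Nat.card (B ⊓ C : Subgroup A) = 1 := Nat.eq_one_of_dvd_coprimes hab
      (hB ▸ Subgroup.card_dvd_of_le inf_le_left) (hC ▸ Subgroup.card_dvd_of_le inf_le_right)
    rw [h2, mul_one, hB, hC] at h1
    exact h1


/-- Let G be a finite solvable group and A a finite abelian group such that every prime dividing the order of A divides the order of G and, for each prime p dividing the order of G, the exponent of p in the order of A is one less than its exponent in the order of G. Then G × A has a subgroup of every order dividing its order. -/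
theorem result {G A : Type*} [Group G] [CommGroup A] [Finite G] [Finite A] [Group.IsSolvable G] (hA : ∀ p : ℕ, p.Prime → p ∣ Nat.card A → p ∣ Nat.card G) (hexp : ∀ p : ℕ, p.Prime → p ∣ Nat.card G → (Nat.card A).factorization p + 1 = (Nat.card G).factorization p) : Cfsg.HasSubgroupOfEveryOrder (G × A) := by
  intro d hd
  rw [Nat.card_prod] at hd
  have hd0 : d ≠ 0 := fun e => by
    rw [e, zero_dvd_iff] at hd
    exact (Nat.mul_pos (Nat.card_pos (α := G)) (Nat.card_pos (α := A))).ne' hd
  set π : Set ℕ := {p | (Nat.card G).factorization p ≤ d.factorization p}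
  obtain ⟨H, hH⟩ := Cfsg.Agent.Core.exists_isPiHall_of_isSolvable (G := G) π
  rw [Cfsg.Agent.Core.isPiHall_iff] at hH
  have hG0 : Nat.card G ≠ 0 := Nat.card_pos.ne'
  have hA0 : Nat.card A ≠ 0 := Nat.card_pos.ne'
  have hfle : ∀ p : ℕ, d.factorization p ≤ (Nat.card G).factorization p + (Nat.card A).factorization p := by
    intro p
    have := (Nat.factorization_le_iff_dvd hd0 (mul_ne_zero hG0 hA0)).mpr hd p
    rwa [Nat.factorization_mul hG0 hA0, Finsupp.add_apply] at this
  have hfH : ∀ p : ℕ, p.Prime → (Nat.card H).factorization p =
      if p ∈ π then (Nat.card G).factorization p else 0 := by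
    intro p hp
    have h1 : (Nat.card G).factorization p = (Nat.card H).factorization p + H.index.factorization p := by
      rw [← H.card_mul_index, Nat.factorization_mul Nat.card_pos.ne' Subgroup.index_ne_zero_of_finite,
        Finsupp.add_apply]
    split_ifs with hmem
    · rw [h1, Nat.factorization_eq_zero_of_not_dvd (fun h => hH.2 p hp h hmem), add_zero]
    · exact Nat.factorization_eq_zero_of_not_dvd (fun h => hmem (hH.1 p hp h))
  have hHd : Nat.card H ∣ d := by
    rw [← Nat.factorization_le_iff_dvd Nat.card_pos.ne' hd0]
    intro p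
    by_cases hp : p.Prime
    · rw [hfH p hp]
      split_ifs with hmem
      · exact hmem
      · exact Nat.zero_le _
    · simp [Nat.factorization_eq_zero_of_not_prime _ hp]
  obtain ⟨c, hc⟩ := hHd
  have hc0 : c ≠ 0 := fun e => hd0 (by rw [hc, e, mul_zero])
  have hcA : c ∣ Nat.card A := by
    rw [← Nat.factorization_le_iff_dvd hc0 hA0]
    intro p
    by_cases hp : p.Prime
    · have h1 : d.factorization p = (Nat.card H).factorization p + c.factorization p := by
        rw [hc, Nat.factorization_mul Nat.card_pos.ne' hc0, Finsupp.add_apply]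
      rw [hfH p hp] at h1
      have h2 := hfle p
      split_ifs at h1 with hmem
      · omega
      · have h3 : d.factorization p < (Nat.card G).factorization p := not_le.mp hmem
        have h4 := hexp p hp (Nat.dvd_of_factorization_pos (by omega))
        omega
    · simp [Nat.factorization_eq_zero_of_not_prime _ hp]
  obtain ⟨B, hB⟩ := exists_subgroup_of_dvd c hcA
  exact ⟨H.prod B, by rw [Nat.card_congr (H.prodEquiv B).toEquiv, Nat.card_prod, hB, hc]⟩

end Cfsg.Agent.S0534
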