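import Cfsg.Statements.S0535
import Cfsg.Agent.Core.HallConverse

set_option autoImplicit false
open Cfsg

namespace Cfsg.Agent.S0535

/-- Suppose that for every nontrivial subgroup H of a finite group and every prime p dividing the order of H there is a proper subgroup of H whose index in H is a power of p. Then the group is solvable. -/
theorem result {G : Type*} [Group G] [Finite G] (h : ∀ H : Subgroup G, H ≠ ⊥ → ∀ p : ℕ, p.Prime → p ∣ Nat.card H → ∃ K : Subgroup H, K ≠ ⊤ ∧ ∃ k : ℕ, K.index = p ^ k) : Group.IsSolvable G := by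
  classical
  refine Core.isSolvable_of_forall_exists_compl fun p hp => ?_
  obtain ⟨H, ⟨k, hk⟩, hmin⟩ := (Set.toFinite {H : Subgroup G | ∃ k : ℕ, H.index = p ^ k}).exists_minimal
    ⟨⊤, 0, by rw [Subgroup.index_top, pow_zero]⟩
  refine ⟨H, ?_⟩
  have hnd : ¬ p ∣ Nat.card H := fun hd => by
    have hb : H ≠ ⊥ := fun e => hp.ne_one (by rwa [e, Subgroup.card_bot, Nat.dvd_one] at hd)
    obtain ⟨K, hK, j, hj⟩ := h H hb p hp hd
    have hle : K.map H.subtype ≤ H := Subgroup.map_subtype_le K
    have hidx : (K.map H.subtype).index = p ^ (j + k) := by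
      rw [Subgroup.index_map_subtype, hj, hk, pow_add]
    refine hK (eq_top_iff.mpr fun x _ => ?_)
    obtain ⟨y, hy, e⟩ := hmin ⟨j + k, hidx⟩ hle x.2
    exact (Subtype.ext e : y = x) ▸ hy
  have h1 := H.card_mul_index
  rw [hk] at h1
  rw [hk, ← h1, Nat.factorization_mul Nat.card_pos.ne' (pow_ne_zero _ hp.ne_zero), Finsupp.add_apply,
    hp.factorization_pow, Finsupp.single_eq_same, Nat.factorization_eq_zero_of_not_dvd hnd, zero_add]

end Cfsg.Agent.S0535
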