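import Cfsg.Statements.S0537
import Cfsg.Agent.Core.Schmidt
import Cfsg.Agent.Coprime.PxQ

set_option autoImplicit false
open Cfsg
set_option linter.style.haveILetI false
open scoped Pointwise

namespace Cfsg.Agent.S0537

/-- A finite non-abelian group in which every proper subgroup is abelian is either of prime-power order, or is generated by a cyclic Sylow p-subgroup and a normal Sylow q-subgroup that is elementary abelian, for distinct primes p and q. -/
theorem result {G : Type*} [Group G] [Finite G] (hna : ¬ IsMulCommutative G) (h : ∀ H : Subgroup G, H ≠ ⊤ → IsMulCommutative H) : (∃ p : ℕ, p.Prime ∧ IsPGroup p G) ∨ ∃ p q : ℕ, p.Prime ∧ q.Prime ∧ p ≠ q ∧ ∃ (P : Sylow p G) (Q : Sylow q G), IsCyclic P ∧ (Q : Subgroup G).Normal ∧ Cfsg.IsElementaryAbelian q (Q : Subgroup G) ∧ (P : Subgroup G) ⊔ Q = ⊤ := by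
  open Subgroup in
  classical
  have hnilp : ∀ H : Subgroup G, H ≠ ⊤ → Group.IsNilpotent H := fun H hH => by
    haveI := h H hH
    letI : CommGroup H := { (inferInstance : Group H) with mul_comm := mul_comm' }
    infer_instance
  by_cases hnil : Group.IsNilpotent G
  · left
    by_contra hno
    simp only [not_exists, not_and] at hno
    haveI : ∀ r : (Nat.card G).primeFactors, Fact (r : ℕ).Prime :=
      fun r => ⟨Nat.prime_of_mem_primeFactors r.2⟩
    refine hna ⟨⟨fun a b => ?_⟩⟩
    have hcomm : ∀ x y : G, x * y = y * x := by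
      suffices hall : ∀ (r : ℕ) [Fact r.Prime] (R : Sylow r G) (x : G), x ∈ (R : Subgroup G) →
          x ∈ center G by
        have htop : center G = ⊤ := Core.eq_top_of_forall_exists_sylow_le fun r hr => by
          haveI := Fact.mk hr
          obtain ⟨R⟩ := (inferInstance : Nonempty (Sylow r G))
          exact ⟨R, fun x hx => hall r R x hx⟩
        exact fun x y => mem_center_iff.mp (htop ▸ mem_top y) x
      intro r _ R x hx
      have hRt : (R : Subgroup G) ≠ ⊤ := fun e => hno r Fact.out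
        (IsPGroup.of_equiv R.2 ((MulEquiv.subgroupCongr e).trans topEquiv))
      haveI := h _ hRt
      have hC : centralizer ({x} : Set G) = ⊤ := Core.eq_top_of_forall_exists_sylow_le fun s hs => by
        haveI := Fact.mk hs
        by_cases hsr : s = r
        · subst hsr
          exact ⟨R, fun y hy => mem_centralizer_singleton_iff.mpr (setLike_mul_comm hy hx)⟩
        · obtain ⟨S⟩ := (inferInstance : Nonempty (Sylow s G))
          refine ⟨S, fun y hy => mem_centralizer_singleton_iff.mpr ?_⟩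
          exact Core.commute_of_mem_nilpotent (H := ⊤) (Core.isNilpotent_top_iff.mpr hnil) le_top
            le_top hsr S.2 R.2 hy hx
      exact mem_center_iff.mpr fun y => (mem_centralizer_singleton_iff.mp (hC ▸ mem_top y))
    exact hcomm a b
  · right
    obtain ⟨p, q, hp, hq, hpq, P, Q, h1, hPn, h2, h3, h4⟩ :=
      Core.exists_structure_of_isMinimalNonNilpotent ⟨hnil, hnilp⟩
    haveI := Fact.mk hp
    haveI := Fact.mk hq
    haveI := h2
    have hQt : (Q : Subgroup G) ≠ ⊤ := fun e => by
      have hPb : (P : Subgroup G) = ⊥ := by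
        rw [← (IsPGroup.disjoint_of_ne p q hpq _ _ P.2 Q.2).eq_bot, e, inf_top_eq]
      exact hPn (hPb ▸ inferInstance)
    haveI hQc := h _ hQt
    refine ⟨p, q, hp, hq, hpq, P, Q, h1, h2, ⟨hQc, fun a ha => ?_⟩, h3⟩
    have hPQ : (P : Subgroup G) ≤ normalizer ((Q : Subgroup G) : Set G) :=
      normalizer_eq_top_iff.mpr h2 ▸ le_top
    have hcop : (Nat.card (P : Subgroup G)).Coprime (Nat.card (Q : Subgroup G)) :=
      IsPGroup.coprime_card_of_ne p q hpq _ _ P.2 Q.2
    have hC := Coprime.commutator_inf_centralizer_eq_bot hPQ hQc hcop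
    rw [h4] at hC
    -- the subgroup of `q`-th powers
    open scoped IsMulCommutative in
    let π : (Q : Subgroup G) →* (Q : Subgroup G) := powMonoidHom q
    obtain ⟨R, hR⟩ : ∃ R, R = π.range.map (Q : Subgroup G).subtype := ⟨_, rfl⟩
    have hRmem : ∀ x, x ∈ R ↔ ∃ y ∈ (Q : Subgroup G), y ^ q = x := by
      intro x
      rw [hR]
      constructor
      · rintro ⟨_, ⟨y, rfl⟩, rfl⟩; exact ⟨y, y.2, rfl⟩
      · rintro ⟨y, hy, rfl⟩; exact ⟨_, ⟨⟨y, hy⟩, rfl⟩, rfl⟩
    by_cases hQ1 : Nontrivial (Q : Subgroup G)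
    swap
    · rw [not_nontrivial_iff_subsingleton] at hQ1
      have : (⟨a, ha⟩ : (Q : Subgroup G)) = 1 := Subsingleton.elim _ _
      rw [show a = 1 from congrArg Subtype.val this, one_pow]
    have hRQ : R < (Q : Subgroup G) := by
      refine lt_of_le_of_ne (hR ▸ map_subtype_le _) fun e => ?_
      obtain ⟨k, hk⟩ := IsPGroup.iff_card.mp Q.2
      have hk0 : k ≠ 0 := fun e' => (Finite.one_lt_card (α := (Q : Subgroup G))).ne' (by rw [hk, e', pow_zero])
      obtain ⟨z, hz⟩ := exists_prime_orderOf_dvd_card' (G := (Q : Subgroup G)) q (hk ▸ dvd_pow_self q hk0)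
      have hsurj : Function.Surjective π := fun y => by
        obtain ⟨u, hu, huy⟩ := (hRmem y).mp (e.ge y.2)
        exact ⟨⟨u, hu⟩, Subtype.ext huy⟩
      have hinj := Finite.injective_iff_surjective.mpr hsurj
      have hz1 : z = 1 := hinj (by
        show z ^ q = 1 ^ q
        rw [one_pow]
        exact orderOf_dvd_iff_pow_eq_one.mp hz.dvd)
      rw [hz1, orderOf_one] at hz
      exact hq.ne_one hz.symm
    have hPR : (P : Subgroup G) ≤ normalizer (R : Set G) := fun g _ => by
      have key : ∀ g : G, ∀ x ∈ R, g * x * g⁻¹ ∈ R := fun g x hx => by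
        obtain ⟨y, hy, rfl⟩ := (hRmem x).mp hx
        exact (hRmem _).mpr ⟨g * y * g⁻¹, h2.conj_mem y hy g, conj_pow⟩
      refine mem_normalizer_iff.mpr fun x => ⟨key g x, fun hx => ?_⟩
      simpa [mul_assoc] using key g⁻¹ _ hx
    have hne : R ⊔ (P : Subgroup G) ≠ ⊤ := fun e => hRQ.not_ge fun y hy => by
      have hy' : y ∈ ((R ⊔ (P : Subgroup G) : Subgroup G) : Set G) := e ▸ mem_top y
      rw [coe_mul_of_right_le_normalizer_left _ _ hPR] at hy'
      obtain ⟨u, hu, v, hv, huv⟩ := Set.mem_mul.mp hy'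
      have hv' : v ∈ (P : Subgroup G) ⊓ Q := Subgroup.mem_inf.mpr
        ⟨hv, by simpa [← huv] using Subgroup.mul_mem _ (Subgroup.inv_mem _ (hRQ.le hu)) hy⟩
      rw [(IsPGroup.disjoint_of_ne p q hpq _ _ P.2 Q.2).eq_bot, mem_bot] at hv'
      rw [← huv, hv', mul_one]; exact hu
    haveI := h _ hne
    have hmem : a ^ q ∈ (Q : Subgroup G) ⊓ centralizer ((P : Subgroup G) : Set G) :=
      Subgroup.mem_inf.mpr ⟨pow_mem ha q, mem_centralizer_iff.mpr fun v hv =>
        setLike_mul_comm (mem_sup_right hv) (mem_sup_left ((hRmem _).mpr ⟨a, ha, rfl⟩))⟩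
    rw [hC, mem_bot] at hmem
    exact hmem

end Cfsg.Agent.S0537
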