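import Cfsg.Statements.S0541
import Cfsg.Agent.Core.Conj
import Mathlib.GroupTheory.Nilpotent

set_option autoImplicit false
open Pointwise
open Cfsg
set_option linter.style.haveILetI false
open scoped Pointwise

namespace Cfsg.Agent.S0541

private def W {G : Type*} [Group G] (Z H : Subgroup G) : Subgroup G :=
  ⨆ g ∈ {g : G | MulAut.conj g • Z ≤ H}, MulAut.conj g • Z

private theorem W_le {G : Type*} [Group G] (Z H : Subgroup G) : W Z H ≤ H := iSup₂_le fun _ hg => hg

private theorem le_W {G : Type*} [Group G] {Z H : Subgroup G} {g : G}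
    (h : MulAut.conj g • Z ≤ H) : MulAut.conj g • Z ≤ W Z H :=
  le_iSup₂ (f := fun g (_ : g ∈ {g : G | MulAut.conj g • Z ≤ H}) => MulAut.conj g • Z) g h

private theorem W_mono {G : Type*} [Group G] {Z H K : Subgroup G} (h : H ≤ K) : W Z H ≤ W Z K :=
  iSup₂_le fun _ hg => le_W (le_trans hg h)

private theorem conj_W_le {G : Type*} [Group G] {Z H : Subgroup G} {x : G}
    (h : MulAut.conj x • H ≤ H) : MulAut.conj x • W Z H ≤ W Z H := by
  rw [Subgroup.pointwise_smul_subset_iff]
  refine iSup₂_le fun g hg => ?_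
  rw [← Subgroup.pointwise_smul_subset_iff]
  rw [← Core.conj_mul_smul]
  refine le_W ?_
  rw [Core.conj_mul_smul]
  exact (Subgroup.pointwise_smul_le_pointwise_smul_iff.mpr hg).trans h

/-- Let Z and Y be subgroups of a finite group G and p a prime. Suppose that for every g in G the subgroup generated by the conjugates of g Z g⁻¹ under Y is a p-group. Then there is a Sylow p-subgroup P of G such that Y normalizes the subgroup generated by all conjugates of Z contained in P. -/
theorem result {G : Type*} [Group G] [Finite G] (p : ℕ) [Fact p.Prime] (Z Y : Subgroup G) (h : ∀ g : G, IsPGroup p ↥(⨆ y ∈ Y, MulAut.conj (y * g) • Z)) : ∃ P : Sylow p G, Y ≤ Subgroup.normalizer ((⨆ g ∈ {g : G | MulAut.conj g • Z ≤ (P : Subgroup G)}, MulAut.conj g • Z : Subgroup G) : Set G) := by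
  open Subgroup in
  have hmem : ∀ {x : G} {H : Subgroup G}, MulAut.conj x • H ≤ H → x ∈ normalizer (H : Set G) :=
    fun {x H} hx => mem_normalizer_iff_map_conj_eq.mpr
      (eq_of_le_of_card_ge hx (Core.card_conj_smul x H).ge)
  obtain ⟨R, ⟨hR, hYR, hWR⟩, hmax⟩ := (Set.toFinite {R : Subgroup G | IsPGroup p R ∧
      Y ≤ Subgroup.normalizer (R : Set G) ∧ W Z R = R}).exists_maximal
    ⟨⊥, IsPGroup.of_bot, by rw [Subgroup.normalizer_eq_top_iff.mpr inferInstance]; exact le_top,
      le_bot_iff.mp (W_le Z ⊥)⟩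
  obtain ⟨P, hP⟩ := hR.exists_le_sylow
  refine ⟨P, ?_⟩
  show Y ≤ Subgroup.normalizer (W Z P : Set G)
  suffices hW : W Z P = R by rwa [hW]
  obtain ⟨N, hN⟩ : ∃ N, N = (P : Subgroup G) ⊓ Subgroup.normalizer (R : Set G) := ⟨_, rfl⟩
  have hRN : R ≤ N := hN ▸ le_inf hP Subgroup.le_normalizer
  by_cases hall : W Z N ≤ R
  · -- then `R` is normal in `P`
    have hWN : W Z N = R := le_antisymm hall (hWR.ge.trans (W_mono hRN))
    have hNP : N = (P : Subgroup G) := by
      by_contra hne
      have hle : N ≤ P := hN ▸ inf_le_left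
      haveI := IsPGroup.isNilpotent (G := P) P.2
      have hlt : N.subgroupOf P < ⊤ := lt_top_iff_ne_top.2 fun e =>
        hne (le_antisymm hle (Subgroup.subgroupOf_eq_top.mp e))
      obtain ⟨⟨x, hxP⟩, hx, hxN⟩ := SetLike.exists_of_lt
        (Group.normalizerCondition_of_isNilpotent (G := P) (N.subgroupOf P) hlt)
      rw [← Subgroup.subgroupOf_normalizer_eq hle, Subgroup.mem_subgroupOf] at hx
      refine hxN ?_
      rw [Subgroup.mem_subgroupOf, hN]
      refine ⟨hxP, hmem ?_⟩
      rw [← hWN]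
      exact conj_W_le (Subgroup.mem_normalizer_iff_map_conj_eq.mp hx).le
    rw [← hNP, hWN]
  · exfalso
    obtain ⟨g, hgN, hg⟩ : ∃ g, MulAut.conj g • Z ≤ N ∧ ¬ MulAut.conj g • Z ≤ R := by
      refine Classical.byContradiction fun hno => hall (iSup₂_le fun g hg => ?_)
      exact Classical.byContradiction fun h' => hno ⟨g, hg, h'⟩
    obtain ⟨Q, hQ⟩ : ∃ Q, Q = ⨆ y ∈ Y, MulAut.conj (y * g) • Z := ⟨_, rfl⟩
    have hQle : ∀ y ∈ Y, MulAut.conj (y * g) • Z ≤ Q := fun y hy =>
      hQ ▸ le_iSup₂ (f := fun y (_ : y ∈ Y) => MulAut.conj (y * g) • Z) y hy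
    have hYQ : Y ≤ Subgroup.normalizer (Q : Set G) := fun y₀ hy₀ => hmem (by
      rw [Subgroup.pointwise_smul_subset_iff, hQ]
      refine iSup₂_le fun y hy => ?_
      rw [← hQ, ← Subgroup.pointwise_smul_subset_iff, ← Core.conj_mul_smul, ← mul_assoc]
      exact hQle _ (mul_mem hy₀ hy))
    have hQR : Q ≤ Subgroup.normalizer (R : Set G) := by
      rw [hQ]
      refine iSup₂_le fun y hy => ?_
      rw [Core.conj_mul_smul]
      refine (Subgroup.pointwise_smul_le_pointwise_smul_iff.mpr (hgN.trans (hN ▸ inf_le_right))).trans ?_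
      exact (Subgroup.mem_normalizer_iff_map_conj_eq.mp (Subgroup.le_normalizer (hYR hy))).le
    have hS : R ⊔ Q ∈ {R : Subgroup G | IsPGroup p R ∧
        Y ≤ Subgroup.normalizer (R : Set G) ∧ W Z R = R} := by
      refine ⟨hR.to_sup_of_normal_left' (hQ ▸ h g) hQR, fun y hy => ?_, le_antisymm (W_le _ _) ?_⟩
      · rw [Subgroup.mem_normalizer_iff_map_conj_eq, Subgroup.map_sup,
          Subgroup.mem_normalizer_iff_map_conj_eq.mp (hYR hy),
          Subgroup.mem_normalizer_iff_map_conj_eq.mp (hYQ hy)]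
      · refine sup_le (hWR.ge.trans (W_mono le_sup_left)) ?_
        conv_lhs => rw [hQ]
        exact iSup₂_le fun y hy => le_W ((hQle y hy).trans le_sup_right)
    refine hg (le_trans ?_ ((le_sup_right : Q ≤ R ⊔ Q).trans (hmax hS le_sup_left)))
    simpa using hQle 1 Y.one_mem

end Cfsg.Agent.S0541
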