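import Cfsg.Statements.S0547
import Cfsg.Agent.Core.Primitive
-- import your own Cfsg.Agent.* helpers here

set_option autoImplicit false
open Cfsg

namespace Cfsg.Agent.S0547

/-- Let a finite solvable group G act faithfully and primitively on a set, and let M be a minimal normal subgroup of G. Then M is transitive with trivial point stabilizers, and the number of points equals the order of M, which is a prime power p ^ d with d ≥ 1. -/
theorem result {G : Type*} [Group G] [Finite G] [Group.IsSolvable G] {Ω : Type*} [Nonempty Ω] [MulAction G Ω] [FaithfulSMul G Ω] (hprim : MulAction.IsPreprimitive G Ω) (M : Subgroup G) [M.Normal] (hM : M ≠ ⊥) (hmin : ∀ K : Subgroup G, K.Normal → K ≤ M → K = ⊥ ∨ K = M) : MulAction.IsPretransitive M Ω ∧ (∀ ω : Ω, MulAction.stabilizer M ω = ⊥) ∧ ∃ p d : ℕ, p.Prime ∧ 0 < d ∧ Nat.card Ω = p ^ d ∧ Nat.card M = p ^ d := by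
  haveI := hprim
  obtain ⟨hc, p, hp, -, hpM⟩ :=
    Cfsg.Agent.Core.IsMinNormal.elementaryAbelian_of_isSolvable (N := M) ⟨inferInstance, hM, hmin⟩
  haveI := hc
  haveI := Fact.mk hp
  haveI : Nontrivial Ω := Cfsg.Agent.Core.nontrivial_of_faithful_of_ne_bot hM
  have hC : ∀ ω : Ω, Subgroup.IsComplement' M (MulAction.stabilizer G ω) := fun ω =>
    Cfsg.Agent.Core.isComplement'_of_abelian
      (MulAction.IsPreprimitive.isCoatom_stabilizer_of_isPreprimitive (G := G) (X := Ω) ω)
      (Cfsg.Agent.Core.normalCore_stabilizer_eq_bot (G := G) ω) hM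
  refine ⟨⟨fun x y => ?_⟩, fun ω => ?_, ?_⟩
  · obtain ⟨g, rfl⟩ := MulAction.exists_smul_eq G x y
    obtain ⟨⟨⟨m, hm⟩, ⟨s, hs⟩⟩, rfl⟩ := (hC x).surjective g
    exact ⟨⟨m, hm⟩, by rw [mul_smul, MulAction.mem_stabilizer_iff.mp hs]; rfl⟩
  · rw [eq_bot_iff]
    intro m hm
    have h2 : (m : G) ∈ M ⊓ MulAction.stabilizer G ω :=
      ⟨m.2, MulAction.mem_stabilizer_iff.mpr (MulAction.mem_stabilizer_iff.mp hm)⟩
    rw [(hC ω).disjoint.eq_bot, Subgroup.mem_bot] at h2
    exact Subgroup.mem_bot.mpr (Subtype.ext h2)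
  · obtain ⟨ω⟩ := (inferInstance : Nonempty Ω)
    obtain ⟨d, hd⟩ := IsPGroup.iff_card.mp hpM
    have hd0 : 0 < d := by
      rcases Nat.eq_zero_or_pos d with rfl | h
      · exact absurd (Subgroup.card_eq_one.mp (by simpa using hd)) hM
      · exact h
    refine ⟨p, d, hp, hd0, ?_, hd⟩
    rw [← hd, ← (hC ω).index_eq_card, MulAction.index_stabilizer_of_transitive]

end Cfsg.Agent.S0547
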