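import Cfsg.Statements.S0548
import Cfsg.Agent.Core.Primitive
-- import your own Cfsg.Agent.* helpers here

set_option autoImplicit false
open Cfsg

namespace Cfsg.Agent.S0548

/-- Let a finite solvable group G act faithfully and primitively on a set, let M be a minimal normal subgroup and H the stabilizer of a point. Then H is a complement to M, no non-identity element of H centralizes M, and the only subgroups of M normalized by H are the trivial subgroup and M. -/
theorem result {G : Type*} [Group G] [Finite G] [Group.IsSolvable G] {Ω : Type*} [MulAction G Ω] [FaithfulSMul G Ω] (hprim : MulAction.IsPreprimitive G Ω) (M : Subgroup G) [M.Normal] (hM : M ≠ ⊥) (hmin : ∀ K : Subgroup G, K.Normal → K ≤ M → K = ⊥ ∨ K = M) (ω : Ω) : Subgroup.IsComplement' M (MulAction.stabilizer G ω) ∧ MulAction.stabilizer G ω ⊓ Subgroup.centralizer (M : Set G) = ⊥ ∧ ∀ K : Subgroup G, K ≤ M → MulAction.stabilizer G ω ≤ Subgroup.normalizer (K : Set G) → K = ⊥ ∨ K = M := by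
  haveI := hprim
  obtain ⟨hc, -⟩ :=
    Cfsg.Agent.Core.IsMinNormal.elementaryAbelian_of_isSolvable (N := M) ⟨inferInstance, hM, hmin⟩
  haveI := hc
  haveI : Nontrivial Ω := Cfsg.Agent.Core.nontrivial_of_faithful_of_ne_bot hM
  have hU : IsCoatom (MulAction.stabilizer G ω) :=
    MulAction.IsPreprimitive.isCoatom_stabilizer_of_isPreprimitive (G := G) (X := Ω) ω
  have hcore := Cfsg.Agent.Core.normalCore_stabilizer_eq_bot (G := G) ω
  refine ⟨Cfsg.Agent.Core.isComplement'_of_abelian hU hcore hM, ?_,
    fun K hK hn => Cfsg.Agent.Core.eq_bot_or_eq_of_le_normalizer hU hcore hM hK hn⟩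
  rw [inf_comm]
  exact Cfsg.Agent.Core.centralizer_inf_eq_bot hU hcore hM

end Cfsg.Agent.S0548
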