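import Cfsg.Statements.S0550
import Cfsg.Agent.Core.Conj
import Cfsg.Agent.Core.Frattini

set_option autoImplicit false
open Cfsg
set_option linter.style.haveILetI false
open scoped Pointwise

namespace Cfsg.Agent.S0550

open Subgroup in
private theorem half {G : Type*} [Group G] [Finite G] (U : Subgroup G) (hU : IsCoatom U)
    (hcore : U.normalCore = ⊥) (A B : Subgroup G) [A.Normal] [B.Normal] (hA : A ≠ ⊥) (hB : B ≠ ⊥)
    (hinf : A ⊓ B = ⊥) :
    centralizer (B : Set G) = A ∧ IsComplement' A U ∧ ¬ IsMulCommutative B ∧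
      Nonempty (A ≃* ↥((A ⊔ B) ⊓ U)) := by
  have hnle : ∀ N : Subgroup G, N.Normal → N ≠ ⊥ → N ⊔ U = ⊤ := fun N hN hne => by
    refine hU.2 _ (right_lt_sup.mpr fun hle => hne ?_)
    haveI := hN
    exact le_bot_iff.mp (hcore ▸ normal_le_normalCore.mpr hle)
  have hcomm : ∀ a ∈ A, ∀ b ∈ B, a * b = b * a := fun a ha b hb =>
    (commute_of_normal_of_disjoint A B inferInstance inferInstance (disjoint_iff.mpr hinf) a b ha hb).eq
  have hAC : A ≤ centralizer (B : Set G) := fun a ha =>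
    mem_centralizer_iff.mpr fun b hb => (hcomm a ha b hb).symm
  obtain ⟨X, hX⟩ : ∃ X, X = centralizer (B : Set G) ⊓ U := ⟨_, rfl⟩
  have hXn : X.Normal := by
    rw [← normalizer_eq_top_iff, eq_top_iff, ← hnle B inferInstance hB, hX]
    refine sup_le ?_ ?_
    · refine le_trans ?_ (centralizer_le_normalizer _)
      intro b hb
      rw [mem_centralizer_iff]
      exact fun x hx => (mem_centralizer_iff.mp hx.1 b hb).symm
    · exact (le_inf (normalizer_eq_top_iff.mpr (inferInstance : (centralizer (B : Set G)).Normal) ▸ le_top)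
        le_normalizer).trans inf_normalizer_le_normalizer_inf
  have hXbot : X = ⊥ := by
    haveI := hXn
    exact le_bot_iff.mp (hcore ▸ normal_le_normalCore.mpr (hX ▸ inf_le_right))
  have hAU : A ⊔ U = ⊤ := hnle A inferInstance hA
  have hCA : centralizer (B : Set G) = A := by
    refine le_antisymm (fun c hc => ?_) hAC
    obtain ⟨a, ha, u, hu, rfl⟩ := mem_sup_of_normal_left.mp (hAU ▸ mem_top c)
    have : u ∈ X := hX ▸ ⟨by simpa using mul_mem (inv_mem (hAC ha)) hc, hu⟩
    rw [hXbot, mem_bot] at this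
    rwa [this, mul_one]
  have hcompl : IsComplement' A U := Core.isComplement'_of_inf_eq_bot_of_sup_eq_top
    (le_bot_iff.mp (hXbot ▸ hX ▸ inf_le_inf_right U hAC)) hAU
  refine ⟨hCA, hcompl, fun hc => hB ?_, ?_⟩
  · haveI := hc
    have : B ≤ A := hCA ▸ fun b hb => mem_centralizer_iff.mpr fun c hc' => setLike_mul_comm hc' hb
    rw [← hinf, inf_eq_right.mpr this]
  -- the isomorphism
  have hBU : B ⊔ U = ⊤ := hnle B inferInstance hB
  have hBUinf : ∀ x ∈ B, x ∈ U → x = 1 := fun x hxB hxU => by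
    obtain ⟨Y, hY⟩ : ∃ Y, Y = centralizer (A : Set G) ⊓ U := ⟨_, rfl⟩
    have hYn : Y.Normal := by
      rw [← normalizer_eq_top_iff, eq_top_iff, ← hAU, hY]
      refine sup_le ?_ ?_
      · refine le_trans ?_ (centralizer_le_normalizer _)
        intro b hb
        rw [mem_centralizer_iff]
        exact fun x hx => (mem_centralizer_iff.mp hx.1 b hb).symm
      · exact (le_inf (normalizer_eq_top_iff.mpr (inferInstance : (centralizer (A : Set G)).Normal) ▸ le_top)
          le_normalizer).trans inf_normalizer_le_normalizer_inf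
    haveI := hYn
    have : x ∈ Y := hY ▸ ⟨mem_centralizer_iff.mpr fun a ha => hcomm a ha x hxB, hxU⟩
    have h2 : Y ≤ ⊥ := hcore ▸ normal_le_normalCore.mpr (hY ▸ inf_le_right)
    exact mem_bot.mp (h2 this)
  have hdec : ∀ a : A, ∃ b : G, b ∈ B ∧ b * a ∈ U := fun a => by
    obtain ⟨b, hb, u, hu, e⟩ := mem_sup_of_normal_left.mp (hBU ▸ mem_top (a : G))
    exact ⟨b⁻¹, inv_mem hb, by rwa [← e, inv_mul_cancel_left]⟩
  choose β hβB hβU using hdec
  have huniq : ∀ (a : A) (b : G), b ∈ B → b * a ∈ U → b = β a := fun a b hb hbu => by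
    refine mul_inv_eq_one.mp (hBUinf _ (mul_mem hb (inv_mem (hβB a))) ?_)
    simpa [mul_assoc] using mul_mem hbu (inv_mem (hβU a))
  let φ : A →* ↥((A ⊔ B) ⊓ U) := MonoidHom.mk'
    (fun a => ⟨β a * a, mul_mem (mem_sup_right (hβB a)) (mem_sup_left a.2), hβU a⟩) fun a c => by
      refine Subtype.ext ?_
      have h1 : β a * β c * ((a : G) * c) = β a * a * (β c * c) := by
        rw [mul_assoc (β a), ← mul_assoc (β c), ← hcomm a a.2 (β c) (hβB c)]
        simp only [mul_assoc]
      have h2 := huniq (a * c) (β a * β c) (mul_mem (hβB a) (hβB c))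
        (by rw [coe_mul, h1]; exact mul_mem (hβU a) (hβU c))
      show β (a * c) * ((a * c : A) : G) = β a * a * (β c * c)
      rw [← h2, coe_mul, h1]
  refine ⟨MulEquiv.ofBijective φ ⟨(injective_iff_map_eq_one φ).mpr fun a ha => ?_, fun x => ?_⟩⟩
  · have h1 : β a * a = 1 := congrArg Subtype.val ha
    have : (a : G) ∈ A ⊓ B := Subgroup.mem_inf.mpr ⟨a.2, by rw [eq_inv_of_mul_eq_one_right h1]; exact inv_mem (hβB a)⟩
    rw [hinf, mem_bot] at this
    exact Subtype.ext this
  · obtain ⟨a, ha, b, hb, e⟩ := mem_sup_of_normal_left.mp x.2.1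
    refine ⟨⟨a, ha⟩, Subtype.ext ?_⟩
    show β ⟨a, ha⟩ * a = x
    rw [← huniq ⟨a, ha⟩ b hb (by rw [← hcomm a ha b hb, e]; exact x.2.2), ← hcomm a ha b hb, e]

/-- Let U be a maximal subgroup with trivial normal core in a finite group G, and A ≠ B two minimal normal subgroups. Then A is the centralizer of B and B that of A, U complements each of them, A and B are non-abelian, and A, B and (A ⊔ B) ∩ U are pairwise isomorphic. -/
theorem result {G : Type*} [Group G] [Finite G] (U : Subgroup G) (hU : IsCoatom U) (hcore : U.normalCore = ⊥) (A B : Subgroup G) [A.Normal] [B.Normal] (hA : A ≠ ⊥) (hB : B ≠ ⊥) (hAmin : ∀ K : Subgroup G, K.Normal → K ≤ A → K = ⊥ ∨ K = A) (hBmin : ∀ K : Subgroup G, K.Normal → K ≤ B → K = ⊥ ∨ K = B) (hAB : A ≠ B) : Subgroup.centralizer (B : Set G) = A ∧ Subgroup.centralizer (A : Set G) = B ∧ Subgroup.IsComplement' A U ∧ Subgroup.IsComplement' B U ∧ ¬ IsMulCommutative A ∧ Nonempty (A ≃* B) ∧ Nonempty (A ≃* ↥((A ⊔ B) ⊓ U)) := by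
  have hinf : A ⊓ B = ⊥ := by
    rcases hAmin (A ⊓ B) inferInstance inf_le_left with h | h
    · exact h
    · rcases hBmin A inferInstance (inf_eq_left.mp h) with h' | h'
      · exact absurd h' hA
      · exact absurd h' hAB
  obtain ⟨hCB, hcA, hBna, ⟨e₁⟩⟩ := half U hU hcore A B hA hB hinf
  obtain ⟨hCA, hcB, hAna, ⟨e₂⟩⟩ := half U hU hcore B A hB hA ((inf_comm B A).trans hinf)
  rw [sup_comm B A] at e₂
  exact ⟨hCB, hCA, hcA, hcB, hAna, ⟨e₁.trans e₂.symm⟩, ⟨e₁⟩⟩

end Cfsg.Agent.S0550
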