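import Cfsg.Statements.S0552
import Cfsg.Agent.Core.MinimalNormal

set_option autoImplicit false
open Cfsg
set_option linter.style.haveILetI false
open scoped commutatorElement

namespace Cfsg.Agent.S0552

/-- Let σ be an automorphism of a finite solvable group G fixing every element of the Fitting subgroup. If σ is not the identity then the order of σ and the order of G have a common prime factor. -/
theorem result {G : Type*} [Group G] [Finite G] [Group.IsSolvable G] (σ : G ≃* G) (hσ : ∀ x ∈ Cfsg.fittingSubgroup G, σ x = x) (hne : σ ≠ MulEquiv.refl G) : ¬ (orderOf σ).Coprime (Nat.card G) := by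
  intro hcop
  refine hne (MulEquiv.ext fun g => ?_)
  have hf : g⁻¹ * σ g ∈ Cfsg.fittingSubgroup G := by
    refine Core.centralizer_fittingSubgroup_le (Subgroup.mem_centralizer_iff.mpr fun x hx => ?_)
    have hgx : g * x * g⁻¹ ∈ Cfsg.fittingSubgroup G :=
      (inferInstance : (Cfsg.fittingSubgroup G).Normal).conj_mem x hx g
    have h1 := hσ _ hgx
    rw [map_mul, map_mul, map_inv, hσ x hx] at h1
    calc x * (g⁻¹ * σ g) = g⁻¹ * (g * x * g⁻¹) * σ g := by group
      _ = g⁻¹ * (σ g * x * (σ g)⁻¹) * σ g := by rw [h1]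
      _ = g⁻¹ * σ g * x := by group
  have hpow : ∀ n : ℕ, (σ ^ n : MulAut G) g = g * (g⁻¹ * σ g) ^ n := by
    intro n
    induction n with
    | zero => simp
    | succ n ih =>
      rw [pow_succ', MulAut.mul_apply, ih, map_mul,
        hσ _ (Subgroup.pow_mem _ hf n), pow_succ', ← mul_assoc g, mul_inv_cancel_left]
  have h2 := hpow (orderOf σ)
  rw [pow_orderOf_eq_one, MulAut.one_apply, eq_comm, mul_eq_left] at h2
  have h3 : orderOf (g⁻¹ * σ g) = 1 := Nat.eq_one_of_dvd_coprimes hcop
    (orderOf_dvd_of_pow_eq_one h2) (orderOf_dvd_natCard _)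
  rw [orderOf_eq_one_iff, inv_mul_eq_one] at h3
  exact h3.symm

end Cfsg.Agent.S0552
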