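import Cfsg.Statements.S0553
import Cfsg.Agent.Core.MinimalNormal
import Cfsg.Agent.Core.Frattini

set_option autoImplicit false
open Cfsg
set_option linter.style.haveILetI false
open scoped commutatorElement

namespace Cfsg.Agent.S0553

universe u in
open Subgroup in
private theorem main : ∀ (n : ℕ) {G : Type u} [Group G] [Finite G] [Group.IsSolvable G] [Nontrivial G],
    Nat.card G = n → (∀ M : Subgroup G, IsCoatom M → (Nat.card M).Coprime M.index) →
    ∃ p : ℕ, p.Prime ∧ p ∣ Nat.card G ∧ ∃ P : Sylow p G, (P : Subgroup G).Normal := by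
  intro n
  induction n using Nat.strong_induction_on with
  | _ n ih =>
  intro G _ _ _ _ hn h
  obtain ⟨N, hN⟩ := Core.exists_isMinNormal (G := G)
  haveI : N.Normal := hN.1
  obtain ⟨hab, r, hr, -, hNP⟩ := hN.elementaryAbelian_of_isSolvable
  haveI : Fact r.Prime := ⟨hr⟩
  obtain ⟨k, hk⟩ := IsPGroup.iff_card.mp hNP
  have h1 : 1 < Nat.card N :=
    Finite.one_lt_card_iff_nontrivial.mpr ((nontrivial_iff_ne_bot N).2 hN.2.1)
  have hk0 : k ≠ 0 := by rintro rfl; rw [hk, pow_zero] at h1; exact lt_irrefl _ h1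
  have hrN : r ∣ Nat.card N := hk ▸ dvd_pow_self r hk0
  have hrd : r ∣ Nat.card G := hrN.trans N.card_subgroup_dvd_card
  -- when `N` is a Sylow subgroup we are done
  have done : ¬ r ∣ N.index → ∃ p : ℕ, p.Prime ∧ p ∣ Nat.card G ∧
      ∃ P : Sylow p G, (P : Subgroup G).Normal :=
    fun hnd => ⟨r, hr, hrd, hNP.toSylow hnd, hN.1⟩
  rcases subsingleton_or_nontrivial (G ⧸ N) with hQ | hQ
  · refine done fun hd => hr.ne_one ?_
    rw [index_eq_card, Nat.card_eq_one_iff_unique.mpr ⟨hQ, inferInstance⟩, Nat.dvd_one] at hd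
    exact hd
  have hlt : Nat.card (G ⧸ N) < n := by
    rw [← hn, card_eq_card_quotient_mul_card_subgroup N]
    exact lt_mul_of_one_lt_right Nat.card_pos h1
  have hquot : ∀ M : Subgroup (G ⧸ N), IsCoatom M → (Nat.card M).Coprime M.index := by
    intro M hM
    have hsurj := QuotientGroup.mk'_surjective N
    have hM' : IsCoatom (M.comap (QuotientGroup.mk' N)) := isCoatom_comap_of_surjective hsurj hM
    have := h _ hM'
    rw [index_comap_of_surjective _ hsurj] at this
    exact this.coprime_dvd_left (Core.card_comap_mk N M ▸ dvd_mul_right _ _)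
  obtain ⟨q, hq, hqd, P, hP⟩ := ih _ hlt rfl hquot
  haveI : Fact q.Prime := ⟨hq⟩
  obtain ⟨Q₀⟩ := (inferInstance : Nonempty (Sylow q G))
  haveI : Subsingleton (Sylow q (G ⧸ N)) := @Unique.instSubsingleton _ (P.unique_of_normal hP)
  have hQm : (Q₀ : Subgroup G).map (QuotientGroup.mk' N) = (P : Subgroup (G ⧸ N)) := by
    rw [← Subsingleton.elim (Q₀.mapSurjective (QuotientGroup.mk'_surjective N)) P,
      Sylow.coe_mapSurjective]
  obtain ⟨K, hK⟩ : ∃ K, K = (Q₀ : Subgroup G) ⊔ N := ⟨_, rfl⟩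
  haveI : K.Normal := by
    rw [hK, ← (QuotientGroup.ker_mk' N), ← comap_map_eq, hQm]
    exact hP.comap _
  by_cases hqr : q = r
  · subst hqr
    have hNQ : N ≤ (Q₀ : Subgroup G) :=
      (Core.le_pCore inferInstance hNP).trans (Core.pCore_le_sylow Q₀)
    refine ⟨q, hq, hrd, Q₀, ?_⟩
    have : K = (Q₀ : Subgroup G) := by rw [hK, sup_eq_left.2 hNQ]
    exact this ▸ (inferInstance : K.Normal)
  have hQK : (Q₀ : Subgroup G) ≤ K := hK ▸ le_sup_left
  have hfr : normalizer ((Q₀ : Subgroup G) : Set G) ⊔ K = ⊤ := by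
    have := Sylow.normalizer_sup_eq_top (Q₀.subtype hQK)
    rwa [Sylow.coe_subtype, map_subgroupOf_eq_of_le hQK] at this
  by_cases hQn : normalizer ((Q₀ : Subgroup G) : Set G) = ⊤
  · exact ⟨q, hq, hqd.trans N.card_quotient_dvd_card, Q₀, normalizer_eq_top_iff.mp hQn⟩
  obtain ⟨M, hM, hle⟩ := (eq_top_or_exists_le_coatom _).resolve_left hQn
  have hMN : M ⊔ N = ⊤ := by
    rw [eq_top_iff, ← hfr, hK]
    exact sup_le (hle.trans le_sup_left)
      (sup_le ((le_normalizer.trans hle).trans le_sup_left) le_sup_right)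
  haveI := hab
  have hNM : N ⊔ M = ⊤ := (sup_comm _ _).trans hMN
  haveI hinf : (N ⊓ M).Normal := Core.inf_normal_of_sup_eq_top hNM
  have hbot : N ⊓ M = ⊥ := by
    rcases hN.2.2 _ hinf inf_le_left with h2 | h2
    · exact h2
    · exact absurd (sup_eq_left.2 (inf_eq_left.1 h2) ▸ hMN) hM.1
  have hc := Core.isComplement'_of_inf_eq_bot_of_sup_eq_top hbot hNM
  have hidxM : M.index = Nat.card N := hc.index_eq_card
  have hidxN : N.index = Nat.card M := hc.symm.index_eq_card
  refine done fun hd => hr.ne_one ?_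
  have := h M hM
  rw [hidxM] at this
  exact Nat.eq_one_of_dvd_coprimes this (hidxN ▸ hd) hrN

/-- Let G be a nontrivial finite solvable group in which every maximal subgroup has order coprime to its index. Then for some prime p dividing the order of G the Sylow p-subgroups of G are normal. -/
theorem result {G : Type*} [Group G] [Finite G] [Group.IsSolvable G] [Nontrivial G] (h : ∀ M : Subgroup G, IsCoatom M → (Nat.card M).Coprime M.index) : ∃ p : ℕ, p.Prime ∧ p ∣ Nat.card G ∧ ∀ P : Sylow p G, (P : Subgroup G).Normal := by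
  obtain ⟨p, hp, hd, P, hP⟩ := main _ rfl h
  haveI : Fact p.Prime := ⟨hp⟩
  haveI := P.unique_of_normal hP
  exact ⟨p, hp, hd, fun Q => (Unique.eq_default Q).trans (Unique.eq_default P).symm ▸ hP⟩

end Cfsg.Agent.S0553
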