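import Cfsg.Statements.S0554
import Cfsg.Agent.Core.MinimalNormal

set_option autoImplicit false
open Cfsg
set_option linter.style.haveILetI false
open scoped commutatorElement

namespace Cfsg.Agent.S0554

private def IsProd {G : Type*} [Group G] {t : ℕ} (S : Fin t → Subgroup G) (g : G) : Prop :=
  ∃ s : Fin t → G, (∀ i, s i ∈ S i) ∧ g = (List.ofFn s).prod

private theorem isProd_mul_mem {G : Type*} [Group G] {N : Subgroup G} [N.Normal] :
    ∀ {t : ℕ} (S : Fin t → Subgroup G) (j : Fin t), N ≤ S j →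
      ∀ g n, IsProd S g → n ∈ N → IsProd S (g * n) := by
  intro t
  induction t with
  | zero => exact fun S j => j.elim0
  | succ t ih =>
    rintro S j hj g n ⟨s, hs, rfl⟩ hn
    rw [List.ofFn_succ, List.prod_cons]
    rcases Fin.eq_zero_or_eq_succ j with rfl | ⟨k, rfl⟩
    · obtain ⟨w, hw⟩ : ∃ w, w = (List.ofFn fun i => s i.succ).prod := ⟨_, rfl⟩
      refine ⟨Fin.cons (s 0 * (w * n * w⁻¹)) (fun i => s i.succ), ?_, ?_⟩
      · intro i
        rcases Fin.eq_zero_or_eq_succ i with rfl | ⟨k, rfl⟩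
        · simpa using (S 0).mul_mem (hs 0) (hj (‹N.Normal›.conj_mem n hn w))
        · simpa using hs k.succ
      · rw [List.ofFn_succ, List.prod_cons]
        simp only [Fin.cons_zero, Fin.cons_succ, ← hw]
        group
    · obtain ⟨s', hs', he⟩ := ih (fun i => S i.succ) k hj _ n ⟨_, fun i => hs i.succ, rfl⟩ hn
      refine ⟨Fin.cons (s 0) s', ?_, ?_⟩
      · intro i
        rcases Fin.eq_zero_or_eq_succ i with rfl | ⟨m, rfl⟩
        · simpa using hs 0
        · simpa using hs' m
      · rw [List.ofFn_succ, List.prod_cons]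
        simp only [Fin.cons_zero, Fin.cons_succ]
        rw [mul_assoc, he]

universe u in
private theorem main (t : ℕ) (p : Fin t → ℕ) (hp : ∀ i, (p i).Prime) :
    ∀ (n : ℕ) {G : Type u} [Group G] [Finite G] [Group.IsSolvable G], Nat.card G = n →
    (∀ q : ℕ, q.Prime → q ∣ Nat.card G → ∃ i, p i = q) →
    ∀ S : (i : Fin t) → Sylow (p i) G, ∀ g : G, IsProd (fun i => (S i : Subgroup G)) g := by
  intro n
  induction n using Nat.strong_induction_on with
  | _ n ih =>
  intro G _ _ _ hn hall S g
  rcases subsingleton_or_nontrivial G with h | h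
  · exact ⟨fun _ => 1, fun i => one_mem _, Subsingleton.elim _ _⟩
  obtain ⟨N, hN⟩ := Core.exists_isMinNormal (G := G)
  haveI : N.Normal := hN.1
  obtain ⟨hab, r, hr, -, hNP⟩ := hN.elementaryAbelian_of_isSolvable
  haveI : Fact r.Prime := ⟨hr⟩
  obtain ⟨k, hk⟩ := IsPGroup.iff_card.mp hNP
  have h1 : 1 < Nat.card N :=
    Finite.one_lt_card_iff_nontrivial.mpr ((Subgroup.nontrivial_iff_ne_bot N).2 hN.2.1)
  have hk0 : k ≠ 0 := by rintro rfl; rw [hk, pow_zero] at h1; exact lt_irrefl _ h1
  obtain ⟨j, hj⟩ := hall r hr ((dvd_pow_self r hk0).trans (hk ▸ N.card_subgroup_dvd_card))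
  subst hj
  have hNS : N ≤ (S j : Subgroup G) :=
    (Core.le_pCore inferInstance hNP).trans (Core.pCore_le_sylow (S j))
  have hlt : Nat.card (G ⧸ N) < n := by
    rw [← hn, Subgroup.card_eq_card_quotient_mul_card_subgroup N]
    exact lt_mul_of_one_lt_right Nat.card_pos h1
  haveI : ∀ i, Fact (p i).Prime := fun i => ⟨hp i⟩
  obtain ⟨s, hs, he⟩ := ih _ hlt rfl (fun q hq hd => hall q hq (hd.trans N.card_quotient_dvd_card))
    (fun i => (S i).mapSurjective (QuotientGroup.mk'_surjective N)) (QuotientGroup.mk' N g)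
  have hs' : ∀ i, ∃ x, x ∈ (S i : Subgroup G) ∧ QuotientGroup.mk' N x = s i := fun i => by
    have h := hs i
    simp only [Sylow.coe_mapSurjective, Subgroup.mem_map] at h
    exact h
  choose x hx hxs using hs'
  have h2 : QuotientGroup.mk' N (List.ofFn x).prod = QuotientGroup.mk' N g := by
    rw [he, map_list_prod, List.map_ofFn, show (⇑(QuotientGroup.mk' N) ∘ x) = s from funext hxs]
  rw [QuotientGroup.mk'_eq_mk'] at h2
  obtain ⟨m, hm, rfl⟩ := h2
  exact isProd_mul_mem _ j hNS _ m ⟨x, hx, rfl⟩ hm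

/-- Let G be a finite solvable group and let S assign to each of t distinct primes, including every prime divisor of the order of G, a Sylow subgroup of G. Then every element of G is a product s_0 s_1 ⋯ s_(t-1) with s_i in S i, the factors taken in the given order. -/
theorem result {G : Type*} [Group G] [Finite G] [Group.IsSolvable G] (t : ℕ) (p : Fin t → ℕ) (hp : ∀ i, (p i).Prime) (hinj : Function.Injective p) (hall : ∀ q : ℕ, q.Prime → q ∣ Nat.card G → ∃ i, p i = q) (S : (i : Fin t) → Sylow (p i) G) : ∀ g : G, ∃ s : (i : Fin t) → G, (∀ i, s i ∈ (S i : Subgroup G)) ∧ g = (List.ofFn s).prod := by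
  exact main t p hp _ rfl hall S

end Cfsg.Agent.S0554
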