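import Cfsg.Statements.S0555


set_option autoImplicit false
open Cfsg
set_option linter.style.haveILetI false
open scoped commutatorElement

namespace Cfsg.Agent.S0555

open Subgroup in
private theorem cyclic_image {G : Type*} [Group G] {A B N : Subgroup G} [N.Normal] (hBN : B ≤ N)
    [(B.subgroupOf A).Normal] (h : IsCyclic (A ⧸ B.subgroupOf A)) :
    IsCyclic (A.map (QuotientGroup.mk' N)) := by
  refine isCyclic_of_surjective (hH := h)
    (QuotientGroup.lift (B.subgroupOf A) ((QuotientGroup.mk' N).subgroupMap A) ?_) ?_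
  · intro x hx
    rw [MonoidHom.mem_ker]
    exact Subtype.ext ((QuotientGroup.eq_one_iff _).mpr (hBN hx))
  · intro y
    obtain ⟨x, hx⟩ := MonoidHom.subgroupMap_surjective (QuotientGroup.mk' N) A y
    exact ⟨QuotientGroup.mk x, hx⟩

open Subgroup in
private theorem key {Q : Type*} [Group Q] (i : ℕ) (hi : 1 ≤ i)
    (h₁ : IsCyclic (↥(derivedSeries Q i) ⧸ (derivedSeries Q (i + 1)).subgroupOf (derivedSeries Q i)))
    (h₂ : IsCyclic (derivedSeries Q (i + 1))) : derivedSeries Q (i + 2) = ⊥ →
      derivedSeries Q (i + 1) = ⊥ := by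
  intro _
  haveI := derivedSeries_normal Q (i + 1)
  obtain ⟨M, hM⟩ : ∃ M, M = derivedSeries Q (i + 1) := ⟨_, rfl⟩
  -- automorphisms of the cyclic group commute, so the derived group centralises it
  have hcomm : ∀ f g : MulAut (derivedSeries Q (i + 1)), Commute f g := fun f g => by
    obtain ⟨a, ha⟩ := MonoidHom.map_cyclic f.toMonoidHom
    obtain ⟨b, hb⟩ := MonoidHom.map_cyclic g.toMonoidHom
    refine MulEquiv.ext fun x => ?_
    have ha' : ∀ z, f z = z ^ a := ha
    have hb' : ∀ z, g z = z ^ b := hb
    simp only [MulAut.mul_apply]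
    rw [hb', ha', ha', hb', ← zpow_mul, ← zpow_mul, mul_comm]
  have hcent : commutator Q ≤ centralizer (derivedSeries Q (i + 1) : Set Q) := by
    rw [commutator_def, commutator_le]
    intro x _ y _
    rw [mem_centralizer_iff]
    intro z hz
    have h : MulAut.conjNormal (H := derivedSeries Q (i + 1)) ⁅x, y⁆ = 1 := by
      rw [map_commutatorElement, commutatorElement_eq_one_iff_commute]
      exact hcomm _ _
    have h2 := congrArg Subtype.val (DFunLike.congr_fun h ⟨z, hz⟩)
    simp only [MulAut.conjNormal_apply, MulAut.one_apply] at h2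
    exact (mul_inv_eq_iff_eq_mul.mp h2).symm
  have hHc : derivedSeries Q i ≤ centralizer (derivedSeries Q (i + 1) : Set Q) :=
    (derivedSeries_antitone Q hi).trans ((derivedSeries_one Q).le.trans hcent)
  have hab := MonoidHom.isMulCommutative_of_isCyclic_of_ker_le_center
    (QuotientGroup.mk' ((derivedSeries Q (i + 1)).subgroupOf (derivedSeries Q i))) (by
      rw [QuotientGroup.ker_mk']
      intro x hx
      rw [mem_center_iff]
      exact fun g => Subtype.ext (mem_centralizer_iff.mp (hHc g.2) _ hx).symm)
  rw [derivedSeries_succ, eq_bot_iff, commutator_le]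
  intro x hx y hy
  rw [mem_bot, commutatorElement_eq_one_iff_commute]
  exact congrArg Subtype.val (hab.1.1 ⟨x, hx⟩ ⟨y, hy⟩)

/-- Let i ≥ 1. If in the derived series of a group the quotient of the i-th term by the (i+1)-st and the quotient of the (i+1)-st by the (i+2)-nd are both cyclic, then the (i+1)-st and (i+2)-nd terms coincide. -/
theorem result {G : Type*} [Group G] (i : ℕ) (hi : 1 ≤ i) (h₁ : IsCyclic (↥(derivedSeries G i) ⧸ (derivedSeries G (i + 1)).subgroupOf (derivedSeries G i))) (h₂ : IsCyclic (↥(derivedSeries G (i + 1)) ⧸ (derivedSeries G (i + 2)).subgroupOf (derivedSeries G (i + 1)))) : derivedSeries G (i + 1) = derivedSeries G (i + 2) := by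
  haveI := derivedSeries_normal G (i + 2)
  have hmap : ∀ k, (derivedSeries G k).map (QuotientGroup.mk' (derivedSeries G (i + 2))) =
      derivedSeries (G ⧸ derivedSeries G (i + 2)) k :=
    map_derivedSeries_eq (QuotientGroup.mk'_surjective _)
  have h2' : IsCyclic (derivedSeries (G ⧸ derivedSeries G (i + 2)) (i + 1)) := by
    rw [← hmap]; exact cyclic_image le_rfl h₂
  have h1' : IsCyclic (↥(derivedSeries (G ⧸ derivedSeries G (i + 2)) i) ⧸
      (derivedSeries (G ⧸ derivedSeries G (i + 2)) (i + 1)).subgroupOf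
        (derivedSeries (G ⧸ derivedSeries G (i + 2)) i)) := by
    haveI := derivedSeries_normal (G ⧸ derivedSeries G (i + 2)) (i + 1)
    refine isCyclic_of_surjective (hH := h₁) (QuotientGroup.map _ _
      (((QuotientGroup.mk' (derivedSeries G (i + 2))).comp (derivedSeries G i).subtype).codRestrict
        (derivedSeries (G ⧸ derivedSeries G (i + 2)) i)
        fun x => hmap i ▸ Subgroup.mem_map_of_mem _ x.2) ?_) ?_
    · intro x hx
      rw [Subgroup.mem_comap, Subgroup.mem_subgroupOf]
      exact hmap (i + 1) ▸ Subgroup.mem_map_of_mem _ hx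
    · intro y
      induction y using QuotientGroup.induction_on with
      | H z =>
      have hz := z.2
      rw [SetLike.le_def.mp (hmap i).le |> fun _ => (SetLike.ext_iff.mp (hmap i) z.1).symm,
        Subgroup.mem_map] at hz
      obtain ⟨x, hx, hxz⟩ := hz
      exact ⟨QuotientGroup.mk ⟨x, hx⟩, congrArg QuotientGroup.mk (Subtype.ext hxz)⟩
  refine le_antisymm ?_ (derivedSeries_antitone G (Nat.le_succ _))
  have hb := key i hi h1' h2' (by
    rw [← hmap, Subgroup.map_eq_bot_iff, QuotientGroup.ker_mk'])
  rwa [← hmap, Subgroup.map_eq_bot_iff, QuotientGroup.ker_mk'] at hb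

end Cfsg.Agent.S0555
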