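import Cfsg.Statements.S0556
import Cfsg.Agent.Core.CoprimeAction
import Cfsg.Agent.PermGroups.FrobeniusKernel

set_option autoImplicit false
open Cfsg
set_option linter.style.haveILetI false
open scoped commutatorElement Pointwise

namespace Cfsg.Agent.S0556

open Subgroup in
private theorem commutator_le_of_mul {G : Type*} [Group G] {N A : Subgroup G} [N.Normal]
    [IsMulCommutative A] (h : N ⊔ A = ⊤) : commutator G ≤ N := by
  rw [commutator_def, commutator_le]
  intro x _ y _
  obtain ⟨n, hn, a, ha, rfl⟩ := mem_sup_of_normal_left.mp (h ▸ mem_top x)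
  obtain ⟨m, hm, b, hb, rfl⟩ := mem_sup_of_normal_left.mp (h ▸ mem_top y)
  rw [← QuotientGroup.eq_one_iff, ← QuotientGroup.mk'_apply, map_commutatorElement,
    commutatorElement_eq_one_iff_commute, map_mul, map_mul]
  simp only [QuotientGroup.mk'_apply, (QuotientGroup.eq_one_iff n).mpr hn,
    (QuotientGroup.eq_one_iff m).mpr hm, one_mul]
  exact (show Commute a b from setLike_mul_comm ha hb).map (QuotientGroup.mk' N)

open Subgroup in
private theorem core_free {Q : Type*} [Group Q] [Finite Q] (A : Subgroup Q) (hA : IsCoatom A)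
    [IsMulCommutative A] (hne : A ≠ ⊥) (hcore : A.normalCore = ⊥) : derivedSeries Q 2 = ⊥ := by
  have hbot : ∀ X : Subgroup Q, X.Normal → X ≤ A → X = ⊥ := fun X hX hle => by
    haveI := hX
    exact le_bot_iff.mp (hcore ▸ normal_le_normalCore.mpr hle)
  have hN : normalizer (A : Set Q) = A := by
    by_contra h
    exact hne (hbot A (normalizer_eq_top_iff.mp (hA.2 _ (lt_of_le_of_ne le_normalizer (Ne.symm h)))) le_rfl)
  have hF : Cfsg.IsFrobeniusComplement A := by
    refine ⟨hne, hA.1, fun g hg => hbot _ ?_ inf_le_left⟩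
    rw [← normalizer_eq_top_iff, eq_top_iff]
    refine le_trans ?_ (centralizer_le_normalizer _)
    have hne' : ¬ MulAut.conj g • A ≤ A := fun hle => hg (hN ▸ mem_normalizer_iff_map_conj_eq.mpr
      (eq_of_le_of_card_ge hle (Core.card_conj_smul g A).ge))
    have hsup : A ⊔ MulAut.conj g • A = ⊤ :=
      hA.2 _ (lt_of_le_of_ne le_sup_left fun e => hne' (le_sup_right.trans e.ge))
    rw [← hsup]
    refine sup_le (fun a ha => mem_centralizer_iff.mpr fun x hx => setLike_mul_comm (Subgroup.mem_inf.mp hx).1 ha) ?_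
    intro a ha
    refine mem_centralizer_iff.mpr fun x hx => ?_
    have h1 := setLike_mul_comm (Core.mem_conj_smul_iff.mp (Subgroup.mem_inf.mp hx).2) (Core.mem_conj_smul_iff.mp ha)
    calc x * a = g * ((g⁻¹ * x * g) * (g⁻¹ * a * g)) * g⁻¹ := by group
      _ = g * ((g⁻¹ * a * g) * (g⁻¹ * x * g)) * g⁻¹ := by rw [h1]
      _ = a * x := by group
  obtain ⟨N, -, hNn, hc⟩ := PermGroups.Frobenius.exists_kernel hF
  haveI := hNn
  have hNb : N ≠ ⊥ := fun e => hA.1 (by
    have := hc.sup_eq_top
    rwa [e, bot_sup_eq] at this)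
  have hcop : (Nat.card A).Coprime (Nat.card N) := by
    rw [← hc.index_eq_card]
    exact PermGroups.Frobenius.coprime hF
  obtain ⟨r, hr, hrd⟩ := Nat.exists_prime_and_dvd (mt (card_eq_one (H := N)).mp hNb)
  haveI := Fact.mk hr
  have hnorm : ∀ X : Subgroup Q, A ≤ normalizer (X : Set Q) → X ≤ N → X ≠ ⊥ → X = N := by
    intro X hXA hXN hXb
    have htop : A ⊔ X = ⊤ := hA.2 _ (lt_of_le_of_ne le_sup_left fun e => hXb (le_bot_iff.mp
      (hc.disjoint.eq_bot ▸ le_inf hXN (le_sup_right.trans e.ge))))
    refine le_antisymm hXN fun n hn => ?_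
    obtain ⟨x, hx, a, ha, e⟩ := Coprime.exists_mul_of_mem_sup hXA
      (show n ∈ X ⊔ A by rw [sup_comm, htop]; exact mem_top n)
    have : a ∈ N ⊓ A := Subgroup.mem_inf.mpr
      ⟨by simpa [← e] using Subgroup.mul_mem _ (Subgroup.inv_mem _ (hXN hx)) hn, ha⟩
    rw [hc.disjoint.eq_bot, mem_bot] at this
    rw [← e, this, mul_one]; exact hx
  obtain ⟨R, hRN, hR, hRi, hRA⟩ := Core.exists_invariant_sylow (N := N) (A := A)
    (normalizer_eq_top_iff.mpr hNn ▸ le_top)
    (Or.inl (Group.isSolvable_of_comm fun a b => mul_comm' a b)) hcop r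
  have hRb : R ≠ ⊥ := fun e => hRi (by rwa [e, relIndex_bot_left])
  obtain rfl := hnorm R hRA hRN hRb
  haveI := hR.isNilpotent
  haveI : Nontrivial R := (nontrivial_iff_ne_bot R).2 hNb
  have hRab : ⁅R, R⁆ = ⊥ := by
    by_contra hb
    have h0 : (⁅R, R⁆ : Subgroup Q).Normal := inferInstance
    have h1 := hnorm ⁅R, R⁆ (normalizer_eq_top_iff.mpr h0 ▸ le_top) (commutator_le_left R R) hb
    refine (Group.IsSolvable.commutator_lt_top_of_nontrivial R).ne ?_
    apply map_injective R.subtype_injective
    rw [map_subtype_commutator, h1, ← MonoidHom.range_eq_map, range_subtype]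
  rw [derivedSeries_succ, derivedSeries_one, eq_bot_iff, ← hRab]
  exact commutator_mono (commutator_le_of_mul hc.sup_eq_top) (commutator_le_of_mul hc.sup_eq_top)

open Subgroup in
private theorem main {G : Type*} [Group G] [Finite G] (A : Subgroup G) (hA : IsCoatom A)
    [IsMulCommutative A] : derivedSeries G 3 = ⊥ := by
  have hAA : ⁅A, A⁆ = ⊥ := by
    rw [commutator_eq_bot_iff_le_centralizer]
    exact fun a ha => mem_centralizer_iff.mpr fun x hx => setLike_mul_comm hx ha
  have key : derivedSeries G 2 ≤ A := by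
    by_cases hn : A.Normal
    · haveI := hn
      refine (derivedSeries_antitone G (by norm_num : 1 ≤ 2)).trans ?_
      rw [derivedSeries_one]
      obtain ⟨g, -, hg⟩ := SetLike.exists_of_lt (lt_top_iff_ne_top.2 hA.1 : A < ⊤)
      have htop : A ⊔ zpowers g = ⊤ := hA.2 _ (left_lt_sup.mpr fun h => hg (zpowers_le.mp h))
      haveI : IsMulCommutative (zpowers g) := inferInstance
      exact commutator_le_of_mul (A := zpowers g) htop
    obtain ⟨C, hC⟩ : ∃ C, C = A.normalCore := ⟨_, rfl⟩
    haveI hCn : C.Normal := hC ▸ normalCore_normal A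
    have hCA : C ≤ A := hC ▸ normalCore_le A
    have hsurj := QuotientGroup.mk'_surjective C
    have hcm : (A.map (QuotientGroup.mk' C)).comap (QuotientGroup.mk' C) = A := by
      rw [comap_map_eq, QuotientGroup.ker_mk', sup_eq_left.mpr hCA]
    have hA' : IsCoatom (A.map (QuotientGroup.mk' C)) := by
      refine ⟨fun e => hA.1 (by rw [← hcm, e, comap_top]), fun X hX => ?_⟩
      have hlt : A < X.comap (QuotientGroup.mk' C) := by
        rw [← hcm]; exact (comap_lt_comap_of_surjective hsurj).mpr hX
      rw [← map_comap_eq_self_of_surjective hsurj X, hA.2 _ hlt, map_top_of_surjective _ hsurj]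
    have h2 := core_free (A.map (QuotientGroup.mk' C)) hA' (fun e => hn (by
      rw [Subgroup.map_eq_bot_iff, QuotientGroup.ker_mk'] at e
      exact le_antisymm e hCA ▸ hCn)) (by
      rw [eq_bot_iff]
      have h3 : (A.map (QuotientGroup.mk' C)).normalCore.comap (QuotientGroup.mk' C) ≤ C := by
        haveI : ((A.map (QuotientGroup.mk' C)).normalCore.comap (QuotientGroup.mk' C)).Normal :=
          (normalCore_normal _).comap _
        have h4 : (A.map (QuotientGroup.mk' C)).normalCore.comap (QuotientGroup.mk' C) ≤ A.normalCore :=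
          normal_le_normalCore.mpr ((comap_mono (normalCore_le _)).trans hcm.le)
        rw [← hC] at h4; exact h4
      rw [← map_comap_eq_self_of_surjective hsurj (A.map (QuotientGroup.mk' C)).normalCore,
        le_bot_iff, Subgroup.map_eq_bot_iff, QuotientGroup.ker_mk']
      exact h3)
    rw [← map_derivedSeries_eq hsurj, Subgroup.map_eq_bot_iff, QuotientGroup.ker_mk'] at h2
    exact h2.trans hCA
  rw [derivedSeries_succ, eq_bot_iff, ← hAA]
  exact commutator_mono key key

/-- If a finite group has a maximal subgroup that is abelian, then the third term of its derived series is trivial (so the group is solvable of derived length at most three). -/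
theorem result {G : Type*} [Group G] [Finite G] (A : Subgroup G) (hA : IsCoatom A) [IsMulCommutative A] : derivedSeries G 3 = ⊥ := by
  exact main A hA

end Cfsg.Agent.S0556
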