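import Cfsg.Statements.S0557
import Cfsg.Agent.Core.Cores

set_option autoImplicit false
open Cfsg
set_option linter.style.haveILetI false
open scoped commutatorElement

namespace Cfsg.Agent.S0557

open Subgroup in
private theorem map_focal_le {G : Type*} [Group G] {K : Subgroup G} {X : Subgroup K} {Y : Subgroup G}
    (h : X.map K.subtype ≤ Y) : (focalSubgroup X).map K.subtype ≤ focalSubgroup Y := by
  rw [focalSubgroup_def, MonoidHom.map_closure, closure_le]
  rintro _ ⟨g, ⟨hg, x, hx, u, rfl⟩, rfl⟩
  exact subset_closure ⟨h (mem_map_of_mem _ hg), x, h (mem_map_of_mem _ hx), u,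
    map_commutatorElement K.subtype x u⟩

universe u in
open Subgroup in
private theorem main : ∀ (n : ℕ) {G : Type u} [Group G] [Finite G] (H : Subgroup G),
    (Nat.card H).Coprime H.index → (fun K : Subgroup G => focalSubgroup K)^[n] H = ⊥ →
    ∃ N : Subgroup G, N.Normal ∧ IsComplement' N H := by
  intro n
  induction n with
  | zero =>
    intro G _ _ H _ hf
    simp only [Function.iterate_zero, id] at hf
    exact ⟨⊤, inferInstance, hf ▸ isComplement'_top_bot⟩
  | succ n ih =>
    intro G _ _ H hcop hf
    rw [Function.iterate_succ_apply] at hf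
    obtain ⟨K, hK⟩ : ∃ K, K = (transferFocal H).ker := ⟨_, rfl⟩
    haveI hKn : K.Normal := hK ▸ inferInstance
    have hcq : (Nat.card (H ⧸ focalSubgroupOf H)).Coprime H.index :=
      hcop.coprime_dvd_left (card_quotient_dvd_card _)
    have hbij : Function.Bijective fun y : H ⧸ focalSubgroupOf H => y ^ H.index :=
      (powCoprime hcq).bijective
    have hinf : K ⊓ H = focalSubgroup H := by
      ext g
      constructor
      · rintro ⟨hgK, hgH⟩
        rw [hK] at hgK
        have h1 : transferFocal H ((⟨g, hgH⟩ : H) : G) = 1 := hgK
        rw [transferFocal_eq_pow] at h1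
        have h2 : (QuotientGroup.mk ⟨g, hgH⟩ : H ⧸ focalSubgroupOf H) = 1 :=
          hbij.1 (h1.trans (one_pow _).symm)
        rw [QuotientGroup.eq_one_iff, focalSubgroupOf_def, mem_subgroupOf] at h2
        exact h2
      · intro hg
        have hgH := focalSubgroup_le H hg
        refine ⟨?_, hgH⟩
        rw [hK]
        show transferFocal H ((⟨g, hgH⟩ : H) : G) = 1
        rw [transferFocal_eq_pow, (QuotientGroup.eq_one_iff (⟨g, hgH⟩ : H)).mpr
          (by rw [focalSubgroupOf_def, mem_subgroupOf]; exact hg), one_pow]
    have hsurj : Function.Surjective (transferFocal H) := fun y => by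
      obtain ⟨z, rfl⟩ := hbij.2 y
      obtain ⟨x, rfl⟩ := QuotientGroup.mk_surjective z
      exact ⟨x, transferFocal_eq_pow H x⟩
    have hKi : K.index = (focalSubgroupOf H).index := by
      rw [hK, index_ker, MonoidHom.range_eq_top.mpr hsurj, card_top, index_eq_card]
    have hcardK : Nat.card K = Nat.card (focalSubgroup H) * H.index := by
      have h1 := K.card_mul_index
      have h2 := (focalSubgroupOf H).card_mul_index
      have h3 := H.card_mul_index
      have h4 : Nat.card (focalSubgroupOf H) = Nat.card (focalSubgroup H) :=
        Nat.card_congr (subgroupOfEquivOfLe (focalSubgroup_le H)).toEquiv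
      rw [hKi, ← h3, ← h2, h4] at h1
      refine Nat.eq_of_mul_eq_mul_right (Nat.pos_of_ne_zero (focalSubgroupOf H).index_ne_zero_of_finite)
        (h1.trans ?_)
      ring
    obtain ⟨H', hH'⟩ : ∃ H', H' = (focalSubgroup H).subgroupOf K := ⟨_, rfl⟩
    have hfK : focalSubgroup H ≤ K := hinf ▸ inf_le_left
    have hH'c : Nat.card H' = Nat.card (focalSubgroup H) :=
      hH' ▸ Nat.card_congr (subgroupOfEquivOfLe hfK).toEquiv
    have hH'i : H'.index = H.index := by
      have h1 := H'.card_mul_index
      rw [hH'c, hcardK] at h1
      exact Nat.eq_of_mul_eq_mul_left Nat.card_pos h1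
    have hcop' : (Nat.card H').Coprime H'.index := by
      rw [hH'c, hH'i]
      exact hcop.coprime_dvd_left (card_dvd_of_le (focalSubgroup_le H))
    have hle : ∀ m, ((fun L : Subgroup K => focalSubgroup L)^[m] H').map K.subtype ≤
        (fun L : Subgroup G => focalSubgroup L)^[m] (focalSubgroup H) := by
      intro m
      induction m with
      | zero => exact hH' ▸ map_comap_le _ _
      | succ m ihm =>
        rw [Function.iterate_succ_apply', Function.iterate_succ_apply']
        exact map_focal_le ihm
    obtain ⟨N, hN, hNc⟩ := ih H' hcop' (by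
      have := hle n
      rw [hf, le_bot_iff, map_eq_bot_iff_of_injective _ K.subtype_injective] at this
      exact this)
    haveI := hN
    haveI hNchar : N.Characteristic := characteristic_iff_le_comap.mpr fun φ => by
      rw [← map_le_iff_le_comap]
      refine Core.le_of_coprime_index ?_
      rw [card_map_of_injective φ.injective, hNc.symm.index_eq_card]
      have h2 : Nat.card N = H'.index := hNc.index_eq_card.symm
      rw [h2]
      exact hcop'.symm
    refine ⟨N.map K.subtype, Core.normal_map_subtype_of_characteristic N, isComplement'_of_coprime ?_ ?_⟩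
    · rw [card_map_of_injective K.subtype_injective, ← hNc.index_eq_card, hH'i, mul_comm,
        card_mul_index]
    · rw [card_map_of_injective K.subtype_injective, ← hNc.index_eq_card, hH'i]
      exact hcop.symm

/-- Let H be a subgroup of a finite group G with order coprime to its index. If iterating the focal-subgroup construction starting from H reaches the trivial subgroup after finitely many steps, then H has a normal complement in G. -/
theorem result {G : Type*} [Group G] [Finite G] (H : Subgroup G) (hHall : (Nat.card H).Coprime H.index) (n : ℕ) (hfoc : (fun K : Subgroup G => Subgroup.focalSubgroup K)^[n] H = ⊥) : ∃ N : Subgroup G, N.Normal ∧ Subgroup.IsComplement' N H := by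
  exact main n H hHall hfoc

end Cfsg.Agent.S0557
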