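import Cfsg.Statements.S0558
import Cfsg.Agent.OddLocal.Basic
import Cfsg.Agent.Transfer.Burnside
import Cfsg.Agent.Transfer.Complement

set_option autoImplicit false
open Cfsg

namespace Cfsg.Agent.S0558


variable {G : Type*} [Group G] [Finite G]

theorem exists_pow_coprime (p : ℕ) (hp : p.Prime) (h : G) :
    ∃ k : ℕ, (orderOf (h ^ p ^ k)).Coprime p := by
  refine ⟨(orderOf h).factorization p, ?_⟩
  rw [orderOf_pow' h (pow_ne_zero _ hp.ne_zero), Nat.gcd_eq_right (Nat.ordProj_dvd _ _)]
  exact (Nat.coprime_ordCompl hp (orderOf_pos h).ne').symm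

theorem mem_of_pow_mem {C : Subgroup G} {g : G} {n : ℕ} (hc : (orderOf g).Coprime n)
    (h : g ^ n ∈ C) : g ∈ C := by
  obtain ⟨m, hm⟩ := exists_pow_eq_self_of_coprime hc.symm
  rw [← hm]
  exact pow_mem h m

theorem mul_pow_mem {C : Subgroup G} {g : G} (hg : g ∈ Subgroup.normalizer (C : Set G)) {c : G}
    (hc : c ∈ C) (n : ℕ) : (c * g) ^ n * (g ^ n)⁻¹ ∈ C := by
  induction n with
  | zero => simp
  | succ n ih =>
    have e : (c * g) ^ (n + 1) * (g ^ (n + 1))⁻¹ =
        ((c * g) ^ n * (g ^ n)⁻¹) * (g ^ n * c * (g ^ n)⁻¹) := by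
      rw [pow_succ, pow_succ]; group
    rw [e]
    exact mul_mem ih ((Subgroup.mem_normalizer_iff.mp (pow_mem hg n) c).mp hc)

theorem eq_of_pgroup_le {p : ℕ} [Fact p.Prime] (R : Sylow p G) {A : Subgroup G}
    (hA : A ≤ (R : Subgroup G))
    (hmax : Subgroup.normalizer (A : Set G) ⊓ (R : Subgroup G) ≤ A) : A = (R : Subgroup G) := by
  haveI := R.2.isNilpotent
  have hN := normalizerCondition_iff_only_full_group_self_normalizing.mp (Group.normalizerCondition_of_isNilpotent (G := ↥(R : Subgroup G)))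
    (A.subgroupOf (R : Subgroup G)) (le_antisymm (fun x hx => ?_) Subgroup.le_normalizer)
  · exact le_antisymm hA (Subgroup.subgroupOf_eq_top.mp hN)
  · refine Subgroup.mem_subgroupOf.mpr (hmax ⟨Subgroup.mem_normalizer_iff.mpr fun a => ?_, x.2⟩)
    constructor
    · intro ha
      exact Subgroup.mem_subgroupOf.mp ((Subgroup.mem_normalizer_iff.mp hx ⟨a, hA ha⟩).mp (Subgroup.mem_subgroupOf.mpr ha))
    · intro ha
      have h2 : a ∈ (R : Subgroup G) := by
        have := mul_mem (mul_mem ((R : Subgroup G).inv_mem x.2) (hA ha)) x.2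
        simpa [mul_assoc] using this
      exact Subgroup.mem_subgroupOf.mp ((Subgroup.mem_normalizer_iff.mp hx ⟨a, h2⟩).mpr (Subgroup.mem_subgroupOf.mpr ha))

theorem map_sylow {p : ℕ} [Fact p.Prime] {H : Subgroup G} (P : Sylow p H)
    (hP : Subgroup.normalizer (((P : Subgroup H).map H.subtype : Subgroup G) : Set G) = H) :
    ∃ R : Sylow p G, (R : Subgroup G) = (P : Subgroup H).map H.subtype := by
  obtain ⟨R, hR⟩ := (P.2.map H.subtype).exists_le_sylow
  refine ⟨R, (eq_of_pgroup_le R hR ?_).symm⟩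
  rw [hP]
  intro x hx
  have hle : (P : Subgroup H) ≤ (R : Subgroup G).subgroupOf H := fun y hy =>
    Subgroup.mem_subgroupOf.mpr (hR ⟨y, hy, rfl⟩)
  have := P.3 (R.2.comap_of_injective H.subtype H.subtype_injective) hle
  exact ⟨⟨x, hx.1⟩, this ▸ Subgroup.mem_subgroupOf.mpr hx.2, rfl⟩



theorem index_biInf_le (s : Finset ℕ) (f : ℕ → Subgroup G) :
    (⨅ p ∈ s, f p).index ≤ ∏ p ∈ s, (f p).index := by
  classical
  induction s using Finset.induction_on with
  | empty => simp
  | insert a s ha ih =>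
    rw [Finset.iInf_insert, Finset.prod_insert ha]
    exact Subgroup.index_inf_le.trans (Nat.mul_le_mul_left _ ih)

theorem isComplement'_of_index_le {N H : Subgroup G} [Finite G] (hd : Disjoint N H)
    (h : N.index ≤ Nat.card H) : N.IsComplement' H := by
  refine Subgroup.isComplement'_of_card_mul_and_disjoint (le_antisymm ?_ ?_) hd
  · have hinj : Function.Injective (fun x : N × H => (x.1 : G) * x.2) :=
      Subgroup.mul_injective_of_disjoint hd
    rw [← Nat.card_prod]
    exact Nat.card_le_card_of_injective _ hinj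
  · rw [← N.card_mul_index]
    exact Nat.mul_le_mul_left _ h

/-- Let H be a subgroup of a finite group G that is not a Sylow subgroup of G for any prime, and suppose that for every prime p dividing the order of H and every Sylow p-subgroup P of H the normalizer of P in G is exactly H. Then some normal subgroup of G is a complement to H. -/
theorem result {G : Type*} [Group G] [Finite G] (H : Subgroup G) (hnot : ∀ p : ℕ, p.Prime → ∀ P : Sylow p G, (P : Subgroup G) ≠ H) (hnorm : ∀ p : ℕ, p.Prime → p ∣ Nat.card H → ∀ P : Sylow p H, Subgroup.normalizer (((P : Subgroup H).map H.subtype : Subgroup G) : Set G) = H) : ∃ N : Subgroup G, N.Normal ∧ Subgroup.IsComplement' N H := by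
  classical
  haveI hnil : Group.IsNilpotent H := Cfsg.Agent.Core.isNilpotent_iff_forall_sylow_normal.mpr
    fun p hp P => by
      rcases Nat.eq_zero_or_pos ((Nat.card H).factorization p) with h0 | h0
      · have : (P : Subgroup H) = ⊥ := Subgroup.card_eq_one.mp (by rw [P.card_eq_multiplicity, h0, pow_zero])
        rw [this]; infer_instance
      · refine ⟨fun a ha h => ?_⟩
        have hN := hnorm p hp.out (Nat.dvd_of_factorization_pos h0.ne') P
        have hh : (h : G) ∈ Subgroup.normalizer (((P : Subgroup H).map H.subtype : Subgroup G) : Set G) := by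
          rw [hN]; exact h.2
        obtain ⟨y, hy, e⟩ := (Subgroup.mem_normalizer_iff.mp hh a.1).mp ⟨a, ha, rfl⟩
        rwa [show h * a * h⁻¹ = y from Subtype.ext e.symm]
  have hcomm : ∀ x y : G, x ∈ H → y ∈ H → (orderOf x).Coprime (orderOf y) → Commute x y := by
    intro x y hx hy hc
    have := Cfsg.Agent.OddLocal.commute_of_coprime_orderOf (x := (⟨x, hx⟩ : H)) (y := ⟨y, hy⟩)
      (by rwa [← Subgroup.orderOf_coe, ← Subgroup.orderOf_coe])
    exact this.map H.subtype
  have hsyl : ∀ p : ℕ, p.Prime → p ∣ Nat.card H → ∃ R : Sylow p G, (R : Subgroup G) ≤ H ∧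
      Subgroup.normalizer ((R : Subgroup G) : Set G) = H := by
    intro p hp hdvd
    haveI := Fact.mk hp
    obtain ⟨P⟩ : Nonempty (Sylow p H) := inferInstance
    obtain ⟨R, hR⟩ := map_sylow P (hnorm p hp hdvd P)
    exact ⟨R, hR ▸ Subgroup.map_subtype_le _, by rw [hR]; exact hnorm p hp hdvd P⟩
  have hpn : ∀ p : ℕ, p.Prime → p ∣ Nat.card H → Cfsg.HasNormalPComplement p G := by
    intro p hp hdvd
    haveI := Fact.mk hp
    obtain ⟨P0, hP0, -⟩ := hsyl p hp hdvd
    obtain ⟨q, hq, hqd, hqp⟩ : ∃ q, q.Prime ∧ q ∣ Nat.card H ∧ q ≠ p := by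
      by_contra hcon
      push Not at hcon
      have hH : IsPGroup p H := IsPGroup.of_card
        (Nat.eq_prime_pow_of_unique_prime_dvd Nat.card_pos.ne' fun {d} hd hd' => hcon d hd hd')
      exact hnot p hp P0 (P0.3 hH hP0).symm
    haveI := Fact.mk hq
    obtain ⟨R, hRH, hRN⟩ := hsyl q hq hqd
    refine Cfsg.Agent.Transfer.hasNormalPComplement_of_frobenius P0 fun U hU _ g hg hgp => ?_
    set C := Subgroup.centralizer (U : Set G) with hC
    have hgC : g ∈ Subgroup.normalizer (C : Set G) := Subgroup.mem_normalizer_iff.mpr fun a => by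
      have hgU : ∀ u ∈ U, g⁻¹ * u * g ∈ U ∧ g * u * g⁻¹ ∈ U := fun u hu =>
        ⟨(Subgroup.mem_normalizer_iff.mp hg _).mpr (by simpa [mul_assoc] using hu),
          (Subgroup.mem_normalizer_iff.mp hg _).mp hu⟩
      simp only [hC, Subgroup.mem_centralizer_iff]
      constructor
      · intro ha u hu
        have := ha _ (hgU u hu).1
        calc u * (g * a * g⁻¹) = g * ((g⁻¹ * u * g) * a) * g⁻¹ := by group
          _ = g * (a * (g⁻¹ * u * g)) * g⁻¹ := by rw [this]
          _ = g * a * g⁻¹ * u := by group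
      · intro ha u hu
        have := ha _ (hgU u hu).2
        calc u * a = g⁻¹ * ((g * u * g⁻¹) * (g * a * g⁻¹)) * g := by group
          _ = g⁻¹ * ((g * a * g⁻¹) * (g * u * g⁻¹)) * g := by rw [this]
          _ = a * u := by group
    have hRC : (R : Subgroup G) ≤ C := fun x hx => Subgroup.mem_centralizer_iff.mpr fun u hu => by
      refine (hcomm u x (hP0 (hU hu)) (hRH hx) ?_).eq
      obtain ⟨a, ha⟩ := IsPGroup.iff_orderOf.mp P0.2 ⟨u, hU hu⟩
      obtain ⟨b, hb⟩ := IsPGroup.iff_orderOf.mp R.2 ⟨x, hx⟩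
      rw [← Subgroup.orderOf_coe] at ha hb
      rw [show orderOf u = p ^ a from ha, show orderOf x = q ^ b from hb]
      exact Nat.Coprime.pow _ _ ((Nat.coprime_primes hp hq).mpr hqp.symm)
    have hgR : ((g • R : Sylow q G) : Subgroup G) ≤ C := by
      rintro _ ⟨z, hz, rfl⟩
      exact (Subgroup.mem_normalizer_iff.mp hgC z).mp (hRC hz)
    obtain ⟨c, hc⟩ := MulAction.exists_smul_eq C ((g • R).subtype hgR) (R.subtype hRC)
    simp_rw [Sylow.smul_subtype, Subgroup.smul_def, smul_smul] at hc
    have hcg : (c : G) * g ∈ H := by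
      have := Sylow.smul_eq_iff_mem_normalizer.mp (Sylow.subtype_injective hc)
      rwa [← hRN]
    obtain ⟨k, hk⟩ := exists_pow_coprime p hp ((c : G) * g)
    have h1 : ((c : G) * g) ^ p ^ k ∈ C := Subgroup.mem_centralizer_iff.mpr fun u hu => by
      refine (hcomm u _ (hP0 (hU hu)) (pow_mem hcg _) ?_).eq
      obtain ⟨a, ha⟩ := IsPGroup.iff_orderOf.mp P0.2 ⟨u, hU hu⟩
      rw [← Subgroup.orderOf_coe] at ha
      rw [show orderOf u = p ^ a from ha]
      exact Nat.Coprime.pow_left _ hk.symm
    have h2 := mul_pow_mem hgC c.2 (p ^ k)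
    refine mem_of_pow_mem (Nat.Coprime.pow_right k hgp) ?_
    have h3 := mul_mem (inv_mem h2) h1
    rw [mul_inv_rev, inv_inv, mul_assoc, inv_mul_cancel, mul_one] at h3
    exact h3
  let N : Subgroup G := ⨅ p ∈ (Nat.card H).primeFactors, Cfsg.pResidual p G
  have hNn : N.Normal := by
    refine ⟨fun a ha g => ?_⟩
    simp only [N, Subgroup.mem_iInf] at ha ⊢
    exact fun p hp => Subgroup.Normal.conj_mem (Cfsg.Agent.Transfer.pResidual_normal) a (ha p hp) g
  refine ⟨N, hNn, ?_⟩
  have hidx : ∀ p ∈ (Nat.card H).primeFactors, (Cfsg.pResidual p G).index = p ^ (Nat.card H).factorization p := by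
    intro p hp
    obtain ⟨hp, hd, -⟩ := Nat.mem_primeFactors.mp hp
    haveI := Fact.mk hp
    obtain ⟨R, hRH, -⟩ := hsyl p hp hd
    have hcR : Nat.card R = p ^ (Nat.card H).factorization p := by
      rw [← Nat.card_congr (Subgroup.subgroupOfEquivOfLe hRH).toEquiv]
      exact (R.subtype hRH).card_eq_multiplicity
    rw [← hcR]
    exact (Cfsg.Agent.Transfer.isComplement'_pResidual R (hpn p hp hd)).symm.index_eq_card
  have hNH : Disjoint N H := by
    rw [Subgroup.disjoint_def]
    intro x hxN hxH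
    by_contra hx1
    obtain ⟨p, hp, hpx⟩ := Nat.exists_prime_and_dvd (by rwa [Ne, orderOf_eq_one_iff] : orderOf x ≠ 1)
    haveI := Fact.mk hp
    have hd : p ∣ Nat.card H := hpx.trans (Subgroup.orderOf_dvd_natCard _ hxH)
    have hm : x ∈ Cfsg.pResidual p G := by
      simp only [N, Subgroup.mem_iInf] at hxN
      exact hxN p (Nat.mem_primeFactors.mpr ⟨hp, hd, Nat.card_pos.ne'⟩)
    exact (hp.coprime_iff_not_dvd.mp ((Cfsg.Agent.Transfer.mem_pResidual_iff (hpn p hp hd)).mp hm).symm) hpx
  have hbd : N.index ≤ Nat.card H := by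
    calc N.index ≤ ∏ p ∈ (Nat.card H).primeFactors, (Cfsg.pResidual p G).index := by
          simp only [N]
          exact Cfsg.Agent.S0558.index_biInf_le _ _
      _ = ∏ p ∈ (Nat.card H).primeFactors, p ^ (Nat.card H).factorization p := Finset.prod_congr rfl hidx
      _ = Nat.card H := by
          rw [← Nat.prod_factorization_eq_prod_primeFactors (f := (· ^ ·))]
          exact Nat.prod_factorization_pow_eq_self Nat.card_pos.ne'
  exact Cfsg.Agent.S0558.isComplement'_of_index_le hNH hbd

end Cfsg.Agent.S0558
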