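import Cfsg.Statements.S0560
import Cfsg.Agent.Core.Products
-- import your own Cfsg.Agent.* helpers here

set_option autoImplicit false
open Pointwise
open Cfsg

namespace Cfsg.Agent.S0560

/-- Let the finite group G be the product HK of two subgroups and p a prime. Then there are Sylow p-subgroups P of H and Q of K and a Sylow p-subgroup R of G whose underlying set is the product set of P and Q. -/
theorem result {G : Type*} [Group G] [Finite G] (H K : Subgroup G) (hHK : ∀ g : G, ∃ h ∈ H, ∃ k ∈ K, g = h * k) (p : ℕ) [Fact p.Prime] : ∃ (P : Sylow p H) (Q : Sylow p K) (R : Sylow p G), ((R : Subgroup G) : Set G) = (((P : Subgroup H).map H.subtype : Subgroup G) : Set G) * (((Q : Subgroup K).map K.subtype : Subgroup G) : Set G) := by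
  obtain ⟨P₁⟩ := (inferInstance : Nonempty (Sylow p H))
  obtain ⟨Q₂⟩ := (inferInstance : Nonempty (Sylow p K))
  obtain ⟨R₁, hR₁⟩ := P₁.exists_comap_subtype_eq
  obtain ⟨R₂, hR₂⟩ := Q₂.exists_comap_subtype_eq
  obtain ⟨x, hx⟩ := MulAction.exists_smul_eq G R₁ R₂
  obtain ⟨k, hk, h, hh, rfl⟩ := Cfsg.Agent.Core.forall_exists_mul_symm hHK x
  let R : Sylow p G := h • R₁
  let P : Sylow p H := (⟨h, hh⟩ : H) • P₁
  let Q : Sylow p K := (⟨k⁻¹, K.inv_mem hk⟩ : K) • Q₂
  have hfix : ∀ (S : Subgroup G) (s : G), s ∈ S → MulAut.conj s • S = S := fun S s hs =>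
    Subgroup.mem_normalizer_iff_map_conj_eq.mp (Subgroup.le_normalizer hs)
  have hP : (P : Subgroup H).map H.subtype = (R : Subgroup G) ⊓ H := by
    rw [Sylow.coe_subgroup_smul, Cfsg.Agent.Core.map_conj_smul, ← hR₁,
      Subgroup.map_comap_eq, Subgroup.range_subtype, inf_comm, Subgroup.smul_inf,
      Sylow.coe_subgroup_smul]
    congr 1
    exact hfix H h hh
  have hQ : (Q : Subgroup K).map K.subtype = (R : Subgroup G) ⊓ K := by
    rw [Sylow.coe_subgroup_smul, Cfsg.Agent.Core.map_conj_smul, ← hR₂,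
      Subgroup.map_comap_eq, Subgroup.range_subtype, inf_comm, Subgroup.smul_inf, ← hx,
      Sylow.coe_subgroup_smul, Sylow.coe_subgroup_smul, Cfsg.Agent.Core.conj_mul_smul]
    congr 1
    · change MulAut.conj k⁻¹ • MulAut.conj k • _ = _
      rw [Cfsg.Agent.Core.conj_inv_smul_smul]
    · exact hfix K _ (K.inv_mem hk)
  refine ⟨P, Q, R, ?_⟩
  rw [hP, hQ]
  obtain ⟨n, hn⟩ := IsPGroup.iff_card.mp R.isPGroup'
  have hp : p.Prime := Fact.out
  set A := (R : Subgroup G) ⊓ H
  set B := (R : Subgroup G) ⊓ K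
  have hAi : ¬ p ∣ A.relIndex H := by
    have : A.relIndex H = (P : Subgroup H).index := by
      rw [← hP, Subgroup.relIndex, Subgroup.subgroupOf,
        Subgroup.comap_map_eq_self_of_injective H.subtype_injective]
    rw [this]; exact P.not_dvd_index
  have hBi : ¬ p ∣ B.relIndex K := by
    have : B.relIndex K = (Q : Subgroup K).index := by
      rw [← hQ, Subgroup.relIndex, Subgroup.subgroupOf,
        Subgroup.comap_map_eq_self_of_injective K.subtype_injective]
    rw [this]; exact Q.not_dvd_index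
  have hAR : A ≤ R := inf_le_left
  have hBR : B ≤ R := inf_le_left
  have e1 : A.relIndex B * B.relIndex K = A.relIndex K * (A ⊓ B).relIndex (A ⊓ K) := by
    have h1 := Subgroup.relIndex_mul_relIndex (A ⊓ B) B K inf_le_right inf_le_right
    have h2 := Subgroup.relIndex_mul_relIndex (A ⊓ B) (A ⊓ K) K
      (inf_le_inf_left _ inf_le_right) inf_le_right
    rw [Subgroup.inf_relIndex_right] at h1
    rw [Subgroup.inf_relIndex_right] at h2
    rw [h1, ← h2, mul_comm]
  have e2 : H.relIndex K = H.index := Cfsg.Agent.Core.relIndex_eq_index_of_forall hHK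
  have e3 : H.relIndex K ∣ A.relIndex K := Subgroup.relIndex_dvd_of_le_left K inf_le_right
  have e4 : A.relIndex (R : Subgroup G) ∣ A.relIndex B * B.relIndex K := by
    have h5 : A.relIndex (R : Subgroup G) ∣ A.relIndex H * H.index := by
      rw [Subgroup.relIndex_mul_index (inf_le_right : A ≤ H), ← Subgroup.relIndex_mul_index hAR]
      exact Dvd.intro _ rfl
    have h6 : (A.relIndex (R : Subgroup G)).Coprime (A.relIndex H) := by
      obtain ⟨j, -, hj⟩ := (Nat.dvd_prime_pow hp).mp (hn ▸ Subgroup.relIndex_dvd_card A R)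
      rw [hj]; exact (hp.coprime_iff_not_dvd.mpr hAi).pow_left j
    refine (h6.dvd_of_dvd_mul_left h5).trans ?_
    rw [e1, ← e2]
    exact e3.mul_right _
  have e5 : A.relIndex (R : Subgroup G) ∣ A.relIndex B := by
    refine Nat.Coprime.dvd_of_dvd_mul_right ?_ e4
    obtain ⟨j, -, hj⟩ := (Nat.dvd_prime_pow hp).mp (hn ▸ Subgroup.relIndex_dvd_card A R)
    rw [hj]; exact (hp.coprime_iff_not_dvd.mpr hBi).pow_left j
  have e6 : (A.subgroupOf R).index ≤ (A.subgroupOf R).relIndex (B.subgroupOf R) := by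
    rw [Subgroup.relIndex_subgroupOf hBR]
    refine Nat.le_of_dvd (Nat.pos_of_ne_zero ?_) e5
    exact Subgroup.index_ne_zero_of_finite
  ext g
  constructor
  · intro hg
    obtain ⟨a, ha, b, hb, hab⟩ := Cfsg.Agent.Core.exists_mul_of_index_le_relIndex e6 ⟨g, hg⟩
    exact Set.mem_mul.mpr ⟨a, ha, b, hb, (congrArg Subtype.val hab).symm⟩
  · rintro ⟨a, ha, b, hb, rfl⟩
    exact (R : Subgroup G).mul_mem (hAR ha) (hBR hb)

end Cfsg.Agent.S0560
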