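import Cfsg.Statements.S0561
import Cfsg.Agent.Core.Hall
import Cfsg.Agent.Core.Products

set_option autoImplicit false
open Pointwise
open Cfsg

namespace Cfsg.Agent.S0561

open scoped Pointwise
open Cfsg.Agent.Core

theorem aux {G : Type*} [Group G] [Finite G] [Group.IsSolvable G] {H K A B : Subgroup G}
    (hHK : ∀ g : G, ∃ h ∈ H, ∃ k ∈ K, g = h * k)
    (hA : A ≤ H) (hAn : (A.subgroupOf H).Normal) (hB : B ≤ K) (hBn : (B.subgroupOf K).Normal)
    (hAh : (Nat.card A).Coprime A.index) (hBh : (Nat.card B).Coprime B.index) :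
    ∃ S : Subgroup G, (S : Set G) = (A : Set G) * (B : Set G) := by
  set τ : Set ℕ := {q | q ∣ Nat.card A * Nat.card B}
  have hAt : IsPiNat τ (Nat.card A) := fun q _ hd => hd.trans (dvd_mul_right _ _)
  have hBt : IsPiNat τ (Nat.card B) := fun q _ hd => hd.trans (dvd_mul_left _ _)
  obtain ⟨R0, hR0, hAR0⟩ := exists_isPiHall_ge_of_isSolvable hAt
  obtain ⟨R1, hR1, hBR1⟩ := exists_isPiHall_ge_of_isSolvable hBt
  obtain ⟨g, hg⟩ := exists_conj_eq_of_isPiHall_of_isSolvable hR1 hR0
  obtain ⟨a, ha, b, hb, hgab⟩ := hHK g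
  have hfix : ∀ (X Y : Subgroup G), X ≤ Y → (X.subgroupOf Y).Normal → ∀ y ∈ Y, MulAut.conj y • X = X :=
    fun X Y hXY hn y hy => Subgroup.mem_normalizer_iff_map_conj_eq.mp
      ((Subgroup.normal_subgroupOf_iff_le_normalizer hXY).mp hn hy)
  set R := MulAut.conj a⁻¹ • R0 with hR
  have hRH : IsPiHall τ R := isPiHall_conj_smul _ hR0
  have hAR : A ≤ R := by
    rw [hR, ← hfix A H hA hAn a⁻¹ (H.inv_mem ha)]
    exact Subgroup.pointwise_smul_le_pointwise_smul_iff.mpr hAR0
  have hBR : B ≤ R := by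
    have h1 : MulAut.conj g • B ≤ R0 := hg ▸ Subgroup.pointwise_smul_le_pointwise_smul_iff.mpr hBR1
    rw [hgab, conj_mul_smul, hfix B K hB hBn b hb] at h1
    have h2 : MulAut.conj a⁻¹ • MulAut.conj a • B ≤ R :=
      Subgroup.pointwise_smul_le_pointwise_smul_iff.mpr h1
    rwa [conj_inv_smul_smul] at h2
  have hfull : ∀ X : Subgroup G, (Nat.card X).Coprime X.index → ∀ p, p.Prime → p ∣ Nat.card X →
      (Nat.card X).factorization p = (Nat.card G).factorization p := by
    intro X hX p hp hd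
    rw [← X.card_mul_index, Nat.factorization_mul Nat.card_pos.ne' Subgroup.index_ne_zero_of_finite,
      Finsupp.add_apply, Nat.factorization_eq_zero_of_not_dvd (fun h =>
        hp.ne_one (Nat.eq_one_of_dvd_coprimes hX hd h)), add_zero]
  have hle : ∀ (X : Subgroup G) (p : ℕ), (Nat.card X).factorization p ≤ (Nat.card G).factorization p :=
    fun X p => (Nat.factorization_le_iff_dvd Nat.card_pos.ne' Nat.card_pos.ne').mpr
      (Subgroup.card_subgroup_dvd_card X) p
  have hz : ∀ (X : Subgroup G) (p : ℕ), ¬ p ∣ Nat.card X → (Nat.card X).factorization p = 0 :=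
    fun X p h => Nat.factorization_eq_zero_of_not_dvd h
  have hdvd : Nat.card R * Nat.card (A ⊓ B : Subgroup G) ∣ Nat.card A * Nat.card B := by
    rw [← Nat.factorization_le_iff_dvd (mul_ne_zero Nat.card_pos.ne' Nat.card_pos.ne')
      (mul_ne_zero Nat.card_pos.ne' Nat.card_pos.ne')]
    intro p
    rw [Nat.factorization_mul Nat.card_pos.ne' Nat.card_pos.ne',
      Nat.factorization_mul Nat.card_pos.ne' Nat.card_pos.ne', Finsupp.add_apply, Finsupp.add_apply]
    by_cases hp : p.Prime
    swap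
    · simp [Nat.factorization_eq_zero_of_not_prime _ hp]
    have hR' := hle R p
    have hI := hle (A ⊓ B) p
    by_cases hpA : p ∣ Nat.card A <;> by_cases hpB : p ∣ Nat.card B
    · rw [hfull A hAh p hp hpA, hfull B hBh p hp hpB]; omega
    · rw [hfull A hAh p hp hpA, hz B p hpB,
        hz (A ⊓ B) p fun h => hpB (h.trans (Subgroup.card_dvd_of_le inf_le_right))]; omega
    · rw [hfull B hBh p hp hpB, hz A p hpA,
        hz (A ⊓ B) p fun h => hpA (h.trans (Subgroup.card_dvd_of_le inf_le_left))]; omega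
    · rw [hz R p fun h => ((hp.dvd_mul.mp ((isPiHall_iff.mp hRH).1 p hp h)).elim hpA hpB),
        hz (A ⊓ B) p fun h => hpA (h.trans (Subgroup.card_dvd_of_le inf_le_left))]
      exact Nat.zero_le _
  have hidx : (A.subgroupOf R).index ≤ (A.subgroupOf R).relIndex (B.subgroupOf R) := by
    rw [Subgroup.relIndex_subgroupOf hBR, ← Subgroup.relIndex]
    have h1 := card_mul_relIndex hAR
    have h2 := card_mul_relIndex (inf_le_right : A ⊓ B ≤ B)
    rw [Subgroup.inf_relIndex_right] at h2
    have h3 := Nat.le_of_dvd (Nat.mul_pos Nat.card_pos Nat.card_pos) hdvd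
    rw [← h1, ← h2] at h3
    have hpos := Nat.mul_pos (Nat.card_pos (α := A)) (Nat.card_pos (α := (A ⊓ B : Subgroup G)))
    refine Nat.le_of_mul_le_mul_left (c := Nat.card A * Nat.card (A ⊓ B : Subgroup G)) ?_ hpos
    calc Nat.card A * Nat.card (A ⊓ B : Subgroup G) * A.relIndex R
        = Nat.card A * A.relIndex R * Nat.card (A ⊓ B : Subgroup G) := by ring
      _ ≤ _ := h3
      _ = _ := by ring
  refine ⟨R, Set.Subset.antisymm (fun r hr => ?_) ?_⟩
  · obtain ⟨x, hx, y, hy, e⟩ := exists_mul_of_index_le_relIndex hidx ⟨r, hr⟩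
    exact ⟨x, hx, y, hy, (congrArg Subtype.val e).symm⟩
  · rintro _ ⟨x, hx, y, hy, rfl⟩
    exact R.mul_mem (hAR hx) (hBR hy)


/-- Let the finite solvable group G be the product HK of subgroups, and let A be normal in H and B normal in K, where A and B are Hall subgroups of G (order coprime to index). Then for all x, y the product set of xAx⁻¹ and yBy⁻¹ is a subgroup of G. -/
theorem result {G : Type*} [Group G] [Finite G] [Group.IsSolvable G] (H K A B : Subgroup G) (hHK : ∀ g : G, ∃ h ∈ H, ∃ k ∈ K, g = h * k) (hA : A ≤ H) (hAn : (A.subgroupOf H).Normal) (hB : B ≤ K) (hBn : (B.subgroupOf K).Normal) (hAh : (Nat.card A).Coprime A.index) (hBh : (Nat.card B).Coprime B.index) (x y : G) : ∃ S : Subgroup G, (S : Set G) = ((MulAut.conj x • A : Subgroup G) : Set G) * ((MulAut.conj y • B : Subgroup G) : Set G) := by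
  obtain ⟨a, ha, b, hb, hab⟩ := hHK (x⁻¹ * y)
  obtain ⟨S, hS⟩ := aux hHK hA hAn hB hBn hAh hBh
  have hA' : MulAut.conj x • A = MulAut.conj (x * a) • A := by
    rw [Cfsg.Agent.Core.conj_mul_smul, show MulAut.conj a • A = A from Subgroup.mem_normalizer_iff_map_conj_eq.mp
      ((Subgroup.normal_subgroupOf_iff_le_normalizer hA).mp hAn ha)]
  have hB' : MulAut.conj y • B = MulAut.conj (x * a) • B := by
    rw [show y = x * a * b by rw [mul_assoc, ← hab, mul_inv_cancel_left], Cfsg.Agent.Core.conj_mul_smul (x * a) b,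
      show MulAut.conj b • B = B from Subgroup.mem_normalizer_iff_map_conj_eq.mp
      ((Subgroup.normal_subgroupOf_iff_le_normalizer hB).mp hBn hb)]
  refine ⟨MulAut.conj (x * a) • S, ?_⟩
  rw [hA', hB', Cfsg.Agent.Core.conj_smul_eq_map, Cfsg.Agent.Core.conj_smul_eq_map,
    Cfsg.Agent.Core.conj_smul_eq_map, Subgroup.coe_map, Subgroup.coe_map, Subgroup.coe_map, hS, Set.image_mul]

end Cfsg.Agent.S0561
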