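import Cfsg.Statements.S0562
import Cfsg.Agent.Core.Conj

set_option autoImplicit false
open Cfsg
set_option linter.style.haveILetI false
open scoped commutatorElement Pointwise

namespace Cfsg.Agent.S0562

/-- Let the finite group G be the product HK of subgroups, A normal in H, B normal in K, and L the normalizer of the subgroup generated by A and B. Then every element of L is a product of an element of L ∩ H and an element of L ∩ K. -/
theorem result {G : Type*} [Group G] [Finite G] (H K A B : Subgroup G) (hHK : ∀ g : G, ∃ h ∈ H, ∃ k ∈ K, g = h * k) (hA : A ≤ H) (hAn : (A.subgroupOf H).Normal) (hB : B ≤ K) (hBn : (B.subgroupOf K).Normal) : ∀ g ∈ Subgroup.normalizer ((A ⊔ B : Subgroup G) : Set G), ∃ h ∈ Subgroup.normalizer ((A ⊔ B : Subgroup G) : Set G) ⊓ H, ∃ k ∈ Subgroup.normalizer ((A ⊔ B : Subgroup G) : Set G) ⊓ K, g = h * k := by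
  intro g hg
  obtain ⟨h, hh, k, hk, rfl⟩ := hHK g
  obtain ⟨J, hJ⟩ : ∃ J, J = A ⊔ B := ⟨_, rfl⟩
  rw [← hJ] at hg ⊢
  have hgJ : MulAut.conj h • MulAut.conj k • J = J := by
    rw [← Core.conj_mul_smul]
    exact Subgroup.mem_normalizer_iff_map_conj_eq.mp hg
  have hh' : MulAut.conj h • A = A :=
    Subgroup.mem_normalizer_iff_map_conj_eq.mp ((Subgroup.normal_subgroupOf_iff_le_normalizer hA).mp hAn hh)
  have hk' : MulAut.conj k • B = B :=
    Subgroup.mem_normalizer_iff_map_conj_eq.mp ((Subgroup.normal_subgroupOf_iff_le_normalizer hB).mp hBn hk)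
  have hle : J ≤ MulAut.conj k • J := by
    rw [hJ]
    refine sup_le ?_ ?_
    · rw [← hJ, ← Subgroup.pointwise_smul_le_pointwise_smul_iff (a := MulAut.conj h), hgJ, hh', hJ]
      exact le_sup_left
    · conv_lhs => rw [← hk']
      exact Subgroup.pointwise_smul_le_pointwise_smul_iff.mpr le_sup_right
  have hkJ : k ∈ Subgroup.normalizer (J : Set G) := Subgroup.mem_normalizer_iff_map_conj_eq.mpr
    (Subgroup.eq_of_le_of_card_ge hle (by rw [Core.card_conj_smul])).symm
  refine ⟨h, ⟨?_, hh⟩, k, ⟨hkJ, hk⟩, rfl⟩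
  simpa using mul_mem hg (inv_mem hkJ)

end Cfsg.Agent.S0562
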