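import Cfsg.Statements.S0567
import Mathlib.GroupTheory.IsSubnormal

set_option autoImplicit false
open Cfsg
set_option linter.style.haveILetI false
open scoped commutatorElement Pointwise

namespace Cfsg.Agent.S0567

/-- A subgroup H of a group G is subnormal exactly when, for some m, the subgroup obtained from G by taking the commutator with H m times in succession is contained in H. -/
theorem result {G : Type*} [Group G] (H : Subgroup G) : H.IsSubnormal ↔ ∃ m : ℕ, (fun K : Subgroup G => ⁅K, H⁆)^[m] ⊤ ≤ H := by
  open Subgroup in
  constructor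
  · intro hH
    suffices key : ∀ L : Subgroup G, L.IsSubnormal → H ≤ L →
        ∃ m : ℕ, (fun K : Subgroup G => ⁅K, H⁆)^[m] ⊤ ≤ L from key H hH le_rfl
    intro L hL
    induction hL with
    | top => exact fun _ => ⟨0, le_top⟩
    | step L L' hle _ hN ih =>
      intro hHL
      obtain ⟨m, hm⟩ := ih (hHL.trans hle)
      refine ⟨m + 1, ?_⟩
      rw [Function.iterate_succ_apply']
      refine (commutator_mono hm hHL).trans (commutator_le.mpr fun x hx y hy => ?_)
      rw [commutatorElement_def]
      exact mul_mem ((mem_normalizer_iff.mp ((normal_subgroupOf_iff_le_normalizer hle).mp hN hx) y).mp hy)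
        (inv_mem hy)
  · rintro ⟨m, hm⟩
    suffices key : ∀ i, ((fun K : Subgroup G => ⁅K, H⁆)^[i] ⊤ ⊔ H).IsSubnormal by
      have := key m
      rwa [sup_eq_right.mpr hm] at this
    have hdec : ∀ i, (fun K : Subgroup G => ⁅K, H⁆)^[i + 1] ⊤ ≤ (fun K : Subgroup G => ⁅K, H⁆)^[i] ⊤ := by
      intro i
      induction i with
      | zero => exact le_top
      | succ i ih =>
        rw [Function.iterate_succ_apply'] at ih
        rw [Function.iterate_succ_apply', Function.iterate_succ_apply']
        exact commutator_mono ih le_rfl
    intro i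
    induction i with
    | zero => simp
    | succ i ih =>
      refine IsSubnormal.step _ _ (sup_le_sup_right (hdec i) H) ih
        (normal_subgroupOf_of_le_normalizer (sup_le ?_ (le_sup_right.trans le_normalizer)))
      obtain ⟨C, hC⟩ : ∃ C, C = (fun K : Subgroup G => ⁅K, H⁆)^[i] ⊤ := ⟨_, rfl⟩
      rw [Function.iterate_succ_apply', ← hC]
      intro c hc
      have key : ∀ d ∈ C, (⁅C, H⁆ ⊔ H).map (MulAut.conj d).toMonoidHom ≤ ⁅C, H⁆ ⊔ H := by
        intro d hd
        rw [Subgroup.map_sup]
        refine sup_le ?_ ?_
        · exact ((mem_normalizer_iff_map_conj_eq.mp (normalizer_commutator_ge_left C H hd)).le).trans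
            le_sup_left
        · rintro _ ⟨y, hy, rfl⟩
          have h1 : MulAut.conj d y = ⁅d, y⁆ * y := by
            simp [MulAut.conj_apply, commutatorElement_def]
          show MulAut.conj d y ∈ _
          rw [h1]
          exact mul_mem_sup (commutator_mem_commutator hd hy) hy
      refine mem_normalizer_iff.mpr fun x => ⟨fun hx => key c hc ⟨x, hx, rfl⟩, fun hx => ?_⟩
      have := key c⁻¹ (inv_mem hc) ⟨_, hx, rfl⟩
      simpa [MulAut.conj_apply, mul_assoc] using this

end Cfsg.Agent.S0567
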