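import Cfsg.Agent.Core.Ito
import Cfsg.Agent.Core.MinimalNormal
import Cfsg.Agent.Screen.KegelWielandt.Main

set_option autoImplicit false
set_option linter.style.haveILetI false
open Cfsg

namespace Cfsg.Agent.S0574

open scoped commutatorElement

universe u

/-- In a class two group, `⁅b₁ ^ n, b₂⁆ = ⁅b₁, b₂⁆ ^ n`. -/
theorem aux_pow_left {G : Type*} [Group G] {a b : G} (h : Commute a ⁅a, b⁆) :
    ∀ n : ℕ, ⁅a ^ n, b⁆ = ⁅a, b⁆ ^ n
  | 0 => by simp
  | n + 1 => by
    have ih := aux_pow_left h n
    have h1 : ⁅a ^ (n + 1), b⁆ = a * ⁅a ^ n, b⁆ * a⁻¹ * ⁅a, b⁆ := by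
      rw [pow_succ']
      simp only [commutatorElement_def, mul_inv_rev]
      group
    rw [h1, ih, (h.pow_right n).eq, mul_inv_cancel_right, pow_succ]

theorem aux_pow_both {G : Type*} [Group G] {a b : G} (ha : Commute a ⁅a, b⁆)
    (hb : Commute b ⁅a, b⁆) (m n : ℕ) : ⁅a ^ m, b ^ n⁆ = ⁅a, b⁆ ^ (m * n) := by
  have hb' : Commute b ⁅b, a⁆ := by
    rw [← commutatorElement_inv a b]; exact hb.inv_right
  have h2 : ⁅a, b ^ n⁆ = ⁅a, b⁆ ^ n := by
    rw [← commutatorElement_inv (b ^ n) a, aux_pow_left hb' n, ← inv_pow,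
      commutatorElement_inv]
  have ha' : Commute a ⁅a, b ^ n⁆ := by rw [h2]; exact ha.pow_right n
  rw [aux_pow_left ha' m, h2, ← pow_mul, mul_comm n m]

/-- The key step: in a solvable group generated by an abelian subgroup and the normal closure of
the commutator of a class two subgroup, that commutator is trivial. -/
theorem aux_key {G : Type*} [Group G] [Finite G] [Group.IsSolvable G] {A B : Subgroup G}
    [IsMulCommutative A] (hB : B ≤ Subgroup.centralizer (⁅B, B⁆ : Subgroup G))
    (h : A ⊔ Subgroup.normalClosure ((⁅B, B⁆ : Subgroup G) : Set G) = ⊤) : ⁅B, B⁆ = ⊥ := by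
  classical
  by_contra hC
  let M := Subgroup.normalClosure ((⁅B, B⁆ : Subgroup G) : Set G)
  have hCM : ⁅B, B⁆ ≤ M := Subgroup.le_normalClosure
  haveI hMn : M.Normal := Subgroup.normalClosure_normal
  -- a maximal normal subgroup properly below `M`
  have hM0 : M ≠ ⊥ := fun e => hC (le_bot_iff.mp (hCM.trans e.le))
  obtain ⟨K, ⟨hKn, hKM⟩, hmax⟩ := (Set.toFinite
    {K : Subgroup G | K.Normal ∧ K < M}).exists_maximal
      ⟨⊥, inferInstance, bot_lt_iff_ne_bot.mpr hM0⟩
  haveI := hKn
  let π := QuotientGroup.mk' K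
  have hπ : Function.Surjective π := QuotientGroup.mk'_surjective K
  haveI : Group.IsSolvable (G ⧸ K) := Group.isSolvable_of_surjective hπ
  let V := M.map π
  haveI hVn : V.Normal := hMn.map π hπ
  have hVmin : Cfsg.Agent.Core.IsMinNormal V := by
    refine ⟨hVn, fun e => ?_, fun W hW hWV => ?_⟩
    · rw [Subgroup.map_eq_bot_iff, QuotientGroup.ker_mk'] at e
      exact hKM.not_ge e
    · haveI := hW.comap π
      have hle : W.comap π ≤ M := by
        refine (Subgroup.comap_mono hWV).trans ?_
        rw [Subgroup.comap_map_eq, QuotientGroup.ker_mk']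
        exact sup_le le_rfl hKM.le
      have hK : K ≤ W.comap π := by
        intro x hx
        rw [Subgroup.mem_comap, show π x = 1 from (QuotientGroup.eq_one_iff x).mpr hx]
        exact W.one_mem
      rcases eq_or_lt_of_le hle with e | e
      · exact Or.inr (by rw [← Subgroup.map_comap_eq_self_of_surjective hπ W, e])
      · refine Or.inl ?_
        rw [← Subgroup.map_comap_eq_self_of_surjective hπ W, Subgroup.map_eq_bot_iff,
          QuotientGroup.ker_mk']
        exact hmax ⟨inferInstance, e⟩ hK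
  obtain ⟨hVc, p, hp, hVexp, hVp⟩ := hVmin.elementaryAbelian_of_isSolvable
  haveI := Fact.mk hp
  -- every element is `v * a`
  have hQ : ∀ x : G ⧸ K, ∃ v ∈ V, ∃ a ∈ A.map π, x = v * a := by
    intro x
    have hx : x ∈ ((M ⊔ A).map π : Subgroup (G ⧸ K)) := by
      rw [sup_comm, show A ⊔ M = ⊤ from h, Subgroup.map_top_of_surjective π hπ]; trivial
    rw [Subgroup.map_sup] at hx
    obtain ⟨v, hv, a, ha, e⟩ := Subgroup.mem_sup_of_normal_left.mp hx
    exact ⟨v, hv, a, ha, e.symm⟩
  have hAc : ∀ a ∈ A.map π, ∀ b ∈ A.map π, a * b = b * a := by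
    rintro _ ⟨a, ha, rfl⟩ _ ⟨b, hb, rfl⟩
    rw [← map_mul, ← map_mul]
    exact congrArg π (congrArg Subtype.val (mul_comm' (⟨a, ha⟩ : A) ⟨b, hb⟩))
  -- the quotient by `V` is commutative
  have hcomV : ∀ x y : G ⧸ K, ⁅x, y⁆ ∈ V := by
    intro x y
    obtain ⟨v, hv, a, ha, rfl⟩ := hQ x
    obtain ⟨w, hw, b, hb, rfl⟩ := hQ y
    rw [← QuotientGroup.eq_one_iff, ← QuotientGroup.mk'_apply (N := V), map_commutatorElement,
      map_mul, map_mul, show QuotientGroup.mk' V v = 1 from (QuotientGroup.eq_one_iff v).mpr hv,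
      show QuotientGroup.mk' V w = 1 from (QuotientGroup.eq_one_iff w).mpr hw, one_mul, one_mul,
      ← map_commutatorElement]
    rw [commutatorElement_eq_one_iff_mul_comm.mpr (hAc a ha b hb), map_one]
  let S : Sylow p (G ⧸ K) := default
  have hVS : V ≤ S := by
    have h1 : IsPGroup p (S ⊔ V : Subgroup (G ⧸ K)) := S.isPGroup'.to_sup_of_normal_right hVp
    exact (le_sup_right : V ≤ _).trans (S.is_maximal' h1 le_sup_left).le
  haveI hSn : (S : Subgroup (G ⧸ K)).Normal := ⟨fun s hs g => by
    have : g * s * g⁻¹ = ⁅g, s⁆ * s := by simp [commutatorElement_def, mul_assoc]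
    rw [this]
    exact Subgroup.mul_mem _ (hVS (hcomV g s)) hs⟩
  have hSF : (S : Subgroup (G ⧸ K)) ≤ Subgroup.centralizer (V : Set (G ⧸ K)) :=
    (Cfsg.Agent.Core.le_fittingSubgroup hSn
      S.isPGroup'.isNilpotent).trans hVmin.fittingSubgroup_le_centralizer
  have hScomm : ∀ s ∈ (S : Subgroup (G ⧸ K)), ∀ t ∈ (S : Subgroup (G ⧸ K)), Commute s t := by
    intro s hs t ht
    obtain ⟨v, hv, a, ha, rfl⟩ := hQ s
    obtain ⟨w, hw, b, hb, rfl⟩ := hQ t
    have haS : a ∈ (S : Subgroup (G ⧸ K)) := by
      simpa [← mul_assoc] using Subgroup.mul_mem _ (Subgroup.inv_mem _ (hVS hv)) hs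
    have hbS : b ∈ (S : Subgroup (G ⧸ K)) := by
      simpa [← mul_assoc] using Subgroup.mul_mem _ (Subgroup.inv_mem _ (hVS hw)) ht
    have c1 : Commute v w := congrArg Subtype.val (mul_comm' (⟨v, hv⟩ : V) ⟨w, hw⟩)
    have c2 : Commute v b := hSF hbS v hv
    have c3 : Commute a w := Commute.symm (hSF haS w hw)
    have c4 : Commute a b := hAc a ha b hb
    exact (c1.mul_right c2).mul_left (c3.mul_right c4)
  have hpow : ∀ x : G ⧸ K, x ^ (orderOf x / p ^ (orderOf x).factorization p) ∈
      (S : Subgroup (G ⧸ K)) := by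
    intro x
    have hdvd : p ^ (orderOf x).factorization p ∣ orderOf x := Nat.ordProj_dvd _ _
    have hs : IsPGroup p (Subgroup.zpowers (x ^ (orderOf x / p ^ (orderOf x).factorization p))) := by
      refine IsPGroup.of_card (n := (orderOf x).factorization p) ?_
      rw [Nat.card_zpowers, orderOf_pow_of_dvd (Nat.div_ne_zero_iff.mpr ⟨by
          exact (pow_pos hp.pos _).ne', Nat.le_of_dvd (orderOf_pos x) hdvd⟩)
        (Nat.div_dvd_of_dvd hdvd), Nat.div_div_self hdvd (orderOf_pos x).ne']
    obtain ⟨T, hT⟩ := hs.exists_le_sylow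
    have : T = S := by
      obtain ⟨g, rfl⟩ := MulAction.exists_smul_eq (G ⧸ K) S T
      exact Sylow.smul_eq_of_normal
    exact this ▸ hT (Subgroup.mem_zpowers _)
  -- the image of `⁅B, B⁆` is trivial
  have hBK : ⁅B, B⁆ ≤ K := by
    rw [Subgroup.commutator_le]
    intro a ha b hb
    rw [← QuotientGroup.eq_one_iff, ← QuotientGroup.mk'_apply (N := K), map_commutatorElement]
    change ⁅π a, π b⁆ = 1
    have hc : ⁅a, b⁆ ∈ ⁅B, B⁆ := Subgroup.commutator_mem_commutator ha hb
    have hca : Commute (π a) ⁅π a, π b⁆ := by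
      rw [← map_commutatorElement]; exact (Commute.symm (hB ha _ hc)).map π
    have hcb : Commute (π b) ⁅π a, π b⁆ := by
      rw [← map_commutatorElement]; exact (Commute.symm (hB hb _ hc)).map π
    have h1 := aux_pow_both hca hcb
      (orderOf (π a) / p ^ (orderOf (π a)).factorization p)
      (orderOf (π b) / p ^ (orderOf (π b)).factorization p)
    rw [commutatorElement_eq_one_iff_commute.mpr (hScomm _ (hpow _) _ (hpow _))] at h1
    have hcV := hcomV (π a) (π b)
    rw [← orderOf_eq_one_iff]
    rcases (Nat.dvd_prime hp).mp (orderOf_dvd_of_pow_eq_one (hVexp _ hcV)) with e | e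
    · exact e
    · exfalso
      have h2 := orderOf_dvd_of_pow_eq_one h1.symm
      rw [e] at h2
      rcases (Nat.Prime.dvd_mul hp).mp h2 with h3 | h3
      · exact Nat.not_dvd_ordCompl hp (orderOf_pos (π a)).ne' h3
      · exact Nat.not_dvd_ordCompl hp (orderOf_pos (π b)).ne' h3
  exact hKM.not_ge (Subgroup.normalClosure_le_normal hBK)

theorem aux_length_lt {m n : ℕ} (hn : n ≠ 0) (h : m ∣ n) (hlt : m < n) :
    m.primeFactorsList.length < n.primeFactorsList.length := by
  obtain ⟨q, rfl⟩ := h
  have hm : m ≠ 0 := left_ne_zero_of_mul hn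
  have hq : q ≠ 0 := right_ne_zero_of_mul hn
  rw [(Nat.perm_primeFactorsList_mul hm hq).length_eq, List.length_append]
  have : q.primeFactorsList ≠ [] := by
    rw [ne_eq, Nat.primeFactorsList_eq_nil]
    rintro (e | e)
    · exact hq e
    · subst e; omega
  have := List.length_pos_iff.mpr this
  omega

theorem aux_main : ∀ (k : ℕ) (G : Type u) [Group G] [Finite G] (A B : Subgroup G)
    [IsMulCommutative A], B ≤ Subgroup.centralizer (⁅B, B⁆ : Subgroup G) →
    (∀ g : G, ∃ a ∈ A, ∃ b ∈ B, g = a * b) →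
    (Nat.card ↥⁅B, B⁆).primeFactorsList.length = k → derivedSeries G (2 * (1 + k)) = ⊥ := by
  intro k
  induction k using Nat.strong_induction_on with
  | _ k IH =>
    intro G _ _ A B _ hB hAB hk
    rcases eq_or_ne ⁅B, B⁆ ⊥ with hC | hC
    · haveI : IsMulCommutative B :=
        Subgroup.le_centralizer_iff_isMulCommutative.mp
          (Subgroup.commutator_eq_bot_iff_le_centralizer.mp hC)
      exact le_bot_iff.mp ((derivedSeries_antitone G (show 2 ≤ 2 * (1 + k) by omega)).trans
        (Cfsg.Agent.Core.derivedSeries_two_eq_bot_of_forall hAB).le)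
    have hnilA : Group.IsNilpotent A := Cfsg.Agent.Core.isNilpotent_of_commutator_le_centralizer
      (Z := ⁅A, A⁆) le_rfl (by
        rw [Subgroup.commutator_eq_bot_iff_le_centralizer.mpr
          (Subgroup.le_centralizer_iff_isMulCommutative.mpr inferInstance)]
        intro x _ y hy; rw [Subgroup.mem_bot.mp hy, one_mul, mul_one])
    have hnilB : Group.IsNilpotent B :=
      Cfsg.Agent.Core.isNilpotent_of_commutator_le_centralizer le_rfl hB
    haveI : Group.IsSolvable G := Agent.Screen.KW.isSolvable_of_products hnilA hnilB hAB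
    let M := Subgroup.normalClosure ((⁅B, B⁆ : Subgroup G) : Set G)
    have hCM : ⁅B, B⁆ ≤ M := Subgroup.le_normalClosure
    haveI hMn : M.Normal := Subgroup.normalClosure_normal
    let π := QuotientGroup.mk' M
    have hπ : Function.Surjective π := QuotientGroup.mk'_surjective M
    -- `G'' ≤ M`
    have hG2 : derivedSeries G 2 ≤ M := by
      haveI : IsMulCommutative (A.map π) := inferInstance
      haveI : IsMulCommutative (B.map π) := by
        rw [← Subgroup.le_centralizer_iff_isMulCommutative,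
          ← Subgroup.commutator_eq_bot_iff_le_centralizer, ← Subgroup.map_commutator,
          Subgroup.map_eq_bot_iff, QuotientGroup.ker_mk']
        exact hCM
      have h2 := Cfsg.Agent.Core.derivedSeries_two_eq_bot_of_forall (A := A.map π) (B := B.map π)
        (fun g => by
          obtain ⟨g, rfl⟩ := hπ g
          obtain ⟨a, ha, b, hb, rfl⟩ := hAB g
          exact ⟨π a, ⟨a, ha, rfl⟩, π b, ⟨b, hb, rfl⟩, map_mul π a b⟩)
      have h3 := map_derivedSeries_le_derivedSeries π 2
      rw [h2, le_bot_iff, Subgroup.map_eq_bot_iff, QuotientGroup.ker_mk'] at h3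
      exact h3
    let X := A ⊔ M
    let B₁ := B ⊓ X
    haveI : IsMulCommutative (A.subgroupOf X) := inferInstance
    have hAX : A ≤ X := le_sup_left
    have hB₁ : ⁅B₁, B₁⁆ ≤ ⁅B, B⁆ := Subgroup.commutator_mono inf_le_left inf_le_left
    have hmapB : (B₁.subgroupOf X).map X.subtype = B₁ :=
      Subgroup.map_subgroupOf_eq_of_le inf_le_right
    have hmapC : (⁅B₁.subgroupOf X, B₁.subgroupOf X⁆ : Subgroup X).map X.subtype = ⁅B₁, B₁⁆ := by
      rw [Subgroup.map_commutator, hmapB]
    have hBX : B₁.subgroupOf X ≤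
        Subgroup.centralizer (⁅B₁.subgroupOf X, B₁.subgroupOf X⁆ : Subgroup X) := by
      intro x hx c hc
      have : (c : G) ∈ ⁅B, B⁆ := hB₁ (hmapC.le ⟨c, hc, rfl⟩)
      exact Subtype.ext (hB (Subgroup.mem_subgroupOf.mp hx).1 _ this)
    have hABX : ∀ g : X, ∃ a ∈ A.subgroupOf X, ∃ b ∈ B₁.subgroupOf X, g = a * b := by
      intro g
      obtain ⟨a, ha, b, hb, e⟩ := hAB (g : G)
      have hbX : b ∈ X := by
        have : b = a⁻¹ * g := by rw [e, inv_mul_cancel_left]
        rw [this]; exact X.mul_mem (X.inv_mem (hAX ha)) g.2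
      exact ⟨⟨a, hAX ha⟩, ha, ⟨b, hbX⟩, ⟨hb, hbX⟩, Subtype.ext e⟩
    have hcard : Nat.card ↥(⁅B₁.subgroupOf X, B₁.subgroupOf X⁆ : Subgroup X) =
        Nat.card ↥⁅B₁, B₁⁆ := by
      rw [← hmapC, Subgroup.card_map_of_injective X.subtype_injective]
    have hne : ⁅B₁, B₁⁆ ≠ ⁅B, B⁆ := by
      intro heq
      -- then `A` and the normal closure generate `X`
      haveI : Group.IsSolvable X := inferInstance
      refine hC ?_
      have hMX : M ≤ X := le_sup_right
      have hkey := aux_key (A := A.subgroupOf X) hBX ?_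
      · rw [← heq, ← hmapC, hkey, Subgroup.map_bot]
      · rw [eq_top_iff]
        set N := Subgroup.normalClosure
          ((⁅B₁.subgroupOf X, B₁.subgroupOf X⁆ : Subgroup X) : Set X)
        -- the normal closure in `X` is already all of `M`
        have hN : M ≤ N.map X.subtype := by
          refine (Subgroup.closure_le _).mpr ?_
          intro y hy
          obtain ⟨c, hc, hcy⟩ := Group.mem_conjugatesOfSet_iff.mp hy
          obtain ⟨g, rfl⟩ := isConj_iff.mp hcy
          obtain ⟨a, ha, b, hb, rfl⟩ := hAB g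
          have hbc : b * c * b⁻¹ ∈ ⁅B, B⁆ := by
            rw [← hB hb c hc, mul_inv_cancel_right]; exact hc
          rw [← heq, ← hmapC] at hbc
          obtain ⟨c', hc', e⟩ := hbc
          refine ⟨⟨a, hAX ha⟩ * c' * (⟨a, hAX ha⟩ : X)⁻¹,
            Subgroup.normalClosure_normal.conj_mem _ (Subgroup.le_normalClosure hc') _, ?_⟩
          simp only [map_mul, map_inv, Subgroup.coe_subtype] at e ⊢
          rw [e]; group
        rw [← Subgroup.map_subtype_le_map_subtype, Subgroup.map_sup, Subgroup.map_subgroupOf_eq_of_le hAX,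
          ← MonoidHom.range_eq_map, Subgroup.range_subtype]
        exact sup_le_sup_left hN A
    have hlt : (Nat.card ↥⁅B₁, B₁⁆).primeFactorsList.length < k := by
      rw [← hk]
      refine aux_length_lt Nat.card_pos.ne' (Subgroup.card_dvd_of_le hB₁) ?_
      refine lt_of_le_of_ne (Subgroup.card_le_of_le hB₁) fun e => hne ?_
      exact Subgroup.eq_of_le_of_card_ge hB₁ e.ge
    have hX := IH _ hlt X (A.subgroupOf X) (B₁.subgroupOf X) hBX hABX (by rw [hcard])
    have hstep : ∀ j, derivedSeries G (2 + j) ≤ (derivedSeries X j).map X.subtype := by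
      intro j
      induction j with
      | zero =>
        rw [derivedSeries_zero, ← MonoidHom.range_eq_map, Subgroup.range_subtype]
        exact hG2.trans le_sup_right
      | succ j ih =>
        rw [← add_assoc, derivedSeries_succ, derivedSeries_succ, Subgroup.map_commutator]
        exact Subgroup.commutator_mono ih ih
    have h4 := hstep (2 * (1 + (Nat.card ↥⁅B₁, B₁⁆).primeFactorsList.length))
    rw [hX, Subgroup.map_bot, le_bot_iff] at h4
    exact le_bot_iff.mp ((derivedSeries_antitone G (by omega)).trans h4.le)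

/-- Let the finite group G be the product AB of an abelian subgroup A and a subgroup B of nilpotency class at most two, and let Ω be the number of prime factors, with multiplicity, of the order of the commutator subgroup of B. Then the term of index 2(1 + Ω) of the derived series of G is trivial. -/
theorem result {G : Type*} [Group G] [Finite G] (A B : Subgroup G) [IsMulCommutative A] (hB : commutator ↥B ≤ Subgroup.center ↥B) (hAB : ∀ g : G, ∃ a ∈ A, ∃ b ∈ B, g = a * b) : derivedSeries G (2 * (1 + (Nat.card ↥(commutator ↥B)).primeFactorsList.length)) = ⊥ := by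
  have hmap : (commutator ↥B).map B.subtype = ⁅B, B⁆ := Subgroup.map_subtype_commutator B
  have hc : Nat.card ↥⁅B, B⁆ = Nat.card ↥(commutator ↥B) := by
    rw [← hmap, Subgroup.card_map_of_injective B.subtype_injective]
  refine aux_main _ G A B ?_ hAB (by rw [hc])
  intro x hx c hc'
  rw [← hmap] at hc'
  obtain ⟨d, hd, rfl⟩ := hc'
  exact congrArg Subtype.val (Subgroup.mem_center_iff.mp (hB hd) ⟨x, hx⟩).symm

end Cfsg.Agent.S0574
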