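import Cfsg.Statements.S0576
import Cfsg.Agent.Core.Frattini

set_option autoImplicit false
open Cfsg
set_option linter.style.haveILetI false
open scoped Pointwise

namespace Cfsg.Agent.S0576

/-- Let H be a normal subgroup of a finite group G with H contained in the Frattini subgroup of G. Then the group of inner automorphisms of H is contained in the Frattini subgroup of the automorphism group of H. -/
theorem result {G : Type*} [Group G] [Finite G] (H : Subgroup G) [H.Normal] (hH : H ≤ frattini G) : (MulAut.conj : ↥H →* MulAut ↥H).range ≤ frattini (MulAut ↥H) := by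
  refine le_iInf₂ fun M hM => ?_
  by_contra hle
  obtain ⟨R, hR⟩ : ∃ R, R = (MulAut.conj : ↥H →* MulAut ↥H).range := ⟨_, rfl⟩
  rw [← hR] at hle
  haveI hRn : R.Normal := ⟨by
    rw [hR]
    rintro _ ⟨h, rfl⟩ f
    refine ⟨f h, MulEquiv.ext fun x => ?_⟩
    simp [MulAut.mul_apply]⟩
  have htop : R ⊔ M = ⊤ := Core.sup_eq_top_of_coatom hM hle
  obtain ⟨S, hS⟩ : ∃ S, S = M.comap (MulAut.conjNormal (H := H)) := ⟨_, rfl⟩
  have hsup : S ⊔ H = ⊤ := by
    rw [eq_top_iff]
    intro g _
    obtain ⟨a, ha, m, hm, e⟩ := Subgroup.mem_sup_of_normal_left.mp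
      (htop.ge (Subgroup.mem_top (MulAut.conjNormal (H := H) g)))
    rw [hR] at ha
    obtain ⟨h, rfl⟩ := ha
    have hh : MulAut.conjNormal (H := H) (h : G) = MulAut.conj h :=
      MulEquiv.ext fun x => Subtype.ext (by simp)
    have : (h : G)⁻¹ * g ∈ S := by
      rw [hS, Subgroup.mem_comap, map_mul, map_inv, hh, ← e, inv_mul_cancel_left]
      exact hm
    have h2 := Subgroup.mul_mem (S ⊔ H) (Subgroup.mem_sup_right (S := S) h.2) (Subgroup.mem_sup_left (T := H) this)
    rwa [mul_inv_cancel_left] at h2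
  have hStop : S = ⊤ := frattini_nongenerating
    (le_antisymm le_top (hsup.ge.trans (sup_le_sup_left hH S)))
  refine hle ?_
  rw [hR]
  rintro _ ⟨h, rfl⟩
  have hh : MulAut.conjNormal (H := H) (h : G) = MulAut.conj h :=
    MulEquiv.ext fun x => Subtype.ext (by simp)
  have : (h : G) ∈ S := hStop ▸ Subgroup.mem_top _
  rw [hS, Subgroup.mem_comap, hh] at this
  exact this

end Cfsg.Agent.S0576
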