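import Cfsg.Statements.S0577
import Cfsg.Agent.Core.Schmidt

set_option autoImplicit false
open Cfsg
set_option linter.style.haveILetI false
open scoped Pointwise commutatorElement

namespace Cfsg.Agent.S0577

/-- Let G be a finite minimal non-nilpotent group and Q a normal Sylow q-subgroup of G, and let D be the commutator subgroup of Q regarded in G (a normal subgroup). Then G modulo D is non-abelian and all its proper subgroups are abelian. -/
theorem result {G : Type*} [Group G] [Finite G] (hG : Cfsg.IsMinimalNonNilpotent G) (q : ℕ) [Fact q.Prime] (hq : q ∣ Nat.card G) (Q : Sylow q G) (hQ : (Q : Subgroup G).Normal) (D : Subgroup G) [D.Normal] (hD : D = (commutator ↥(Q : Subgroup G)).map (Q : Subgroup G).subtype) : ¬ IsMulCommutative (G ⧸ D) ∧ ∀ K : Subgroup (G ⧸ D), K ≠ ⊤ → IsMulCommutative K := by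
  open Subgroup in
  classical
  obtain ⟨p, q', hp, hq', hpq, P, Q', hPc, hPn, hQn', hPQ, hcomm⟩ :=
    Core.exists_structure_of_isMinimalNonNilpotent hG
  haveI := Fact.mk hp
  haveI := Fact.mk hq'
  haveI := hQn'
  obtain ⟨a, ha⟩ := IsPGroup.iff_card.mp P.2
  obtain ⟨b, hb⟩ := IsPGroup.iff_card.mp Q'.2
  have hidx : (Q' : Subgroup G).index ∣ p ^ a := by
    rw [← ha, ← relIndex_top_right, ← hPQ, relIndex_sup_right]
    exact relIndex_dvd_card _ _
  have hprimes : ∀ r : ℕ, r.Prime → r ∣ Nat.card G → r = p ∨ r = q' := fun r hr hd => by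
    rw [← (Q' : Subgroup G).card_mul_index, hb] at hd
    rcases hr.dvd_mul.mp hd with h | h
    · exact Or.inr ((Nat.prime_dvd_prime_iff_eq hr hq').mp (hr.dvd_of_dvd_pow h))
    · exact Or.inl ((Nat.prime_dvd_prime_iff_eq hr hp).mp (hr.dvd_of_dvd_pow (h.trans hidx)))
  have hqq : q' = q := by
    rcases hprimes q Fact.out hq with h | h
    · subst h
      haveI := Q.unique_of_normal hQ
      exact absurd ((Unique.eq_default P).trans (Unique.eq_default Q).symm ▸ hQ) hPn
    · exact h.symm
  subst hqq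
  haveI := Q.unique_of_normal hQ
  obtain rfl : Q' = Q := (Unique.eq_default Q').trans (Unique.eq_default Q).symm
  have hDQ : D ≤ (Q' : Subgroup G) := hD ▸ map_subtype_le _
  have hQ1 : Nontrivial (Q' : Subgroup G) := by
    rw [nontrivial_iff_ne_bot]
    intro e
    rw [e, sup_bot_eq] at hPQ
    exact hPn (hPQ ▸ inferInstance)
  refine ⟨fun hab => ?_, fun K hK => ?_⟩
  · have hle : (Q' : Subgroup G) ≤ D := by
      rw [← hcomm, commutator_le]
      intro x _ y _
      rw [← QuotientGroup.eq_one_iff, ← QuotientGroup.mk'_apply, map_commutatorElement,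
        commutatorElement_eq_one_iff_commute]
      exact hab.1.1 _ _
    haveI := Q'.2.isNilpotent
    refine (Group.IsSolvable.commutator_lt_top_of_nontrivial (Q' : Subgroup G)).ne ?_
    refine eq_top_iff.mpr fun x _ => ?_
    obtain ⟨y, hy, hyx⟩ := (hD ▸ hle) x.2
    exact (Subtype.ext hyx : y = x) ▸ hy
  · obtain ⟨H, hH⟩ : ∃ H, H = K.comap (QuotientGroup.mk' D) := ⟨_, rfl⟩
    have hKH : H.map (QuotientGroup.mk' D) = K :=
      hH ▸ map_comap_eq_self_of_surjective (QuotientGroup.mk'_surjective D) K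
    have hHt : H ≠ ⊤ := fun e => hK (by
      rw [← hKH, e, map_top_of_surjective _ (QuotientGroup.mk'_surjective D)])
    obtain ⟨S₀⟩ := (inferInstance : Nonempty (Sylow p H))
    obtain ⟨S, hS⟩ : ∃ S, S = (S₀ : Subgroup H).map H.subtype := ⟨_, rfl⟩
    have hSH : S ≤ H := hS ▸ map_subtype_le _
    have hSp : IsPGroup p S := hS ▸ S₀.2.map _
    have hgen : H ≤ (H ⊓ Q') ⊔ S := Core.le_of_forall_exists_sylow_le fun r hr => by
      haveI := Fact.mk hr
      by_cases hrp : r = p
      · subst hrp; exact ⟨S₀, hS ▸ le_sup_right⟩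
      obtain ⟨R⟩ := (inferInstance : Nonempty (Sylow r H))
      refine ⟨R, ?_⟩
      by_cases hrd : r ∣ Nat.card G
      · obtain rfl := (hprimes r hr hrd).resolve_left hrp
        refine le_trans (le_inf (map_subtype_le _) ?_) le_sup_left
        obtain ⟨R', hR'⟩ := (R.2.map H.subtype).exists_le_sylow
        rwa [(Unique.eq_default R').trans (Unique.eq_default Q').symm] at hR'
      · obtain ⟨k, hk⟩ := IsPGroup.iff_card.mp (R.2.map H.subtype)
        have hk0 : k = 0 := by
          by_contra hk0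
          exact hrd ((dvd_pow_self r hk0).trans (hk ▸ card_subgroup_dvd_card _))
        rw [(card_eq_one (H := (R : Subgroup H).map H.subtype)).mp (by rw [hk, hk0, pow_zero])]
        exact bot_le
    obtain ⟨P', hP'⟩ := hSp.exists_le_sylow
    haveI hP'c : IsCyclic (P' : Subgroup G) :=
      isCyclic_of_surjective (P.equiv P').toMonoidHom (P.equiv P').surjective
    let f := QuotientGroup.mk' D
    have c1 : ∀ x ∈ (Q' : Subgroup G), ∀ y ∈ (Q' : Subgroup G), f x * f y = f y * f x := by
      intro x hx y hy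
      rw [← commutatorElement_eq_one_iff_mul_comm, ← map_commutatorElement]
      exact (QuotientGroup.eq_one_iff _).mpr (hD ▸ ⟨⁅⟨x, hx⟩, ⟨y, hy⟩⁆,
        commutator_mem_commutator (mem_top _) (mem_top _), map_commutatorElement _ _ _⟩)
    have c2 : ∀ x ∈ S, ∀ y ∈ S, f x * f y = f y * f x := fun x hx y hy => by
      haveI := IsCyclic.isMulCommutative (α := (P' : Subgroup G))
      rw [← map_mul, ← map_mul, setLike_mul_comm (hP' hx) (hP' hy)]
    have c3 : ∀ x ∈ H ⊓ (Q' : Subgroup G), ∀ y ∈ S, f x * f y = f y * f x := fun x hx y hy => by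
      rw [← map_mul, ← map_mul, Core.commute_of_mem_nilpotent (hG.2 H hHt) inf_le_left hSH
        hpq.symm (Q'.2.to_le inf_le_right) hSp hx hy]
    have hle : K ≤ centralizer (K : Set (G ⧸ D)) := by
      have hK' : K ≤ ((H ⊓ (Q' : Subgroup G)).map f) ⊔ S.map f := by
        rw [← Subgroup.map_sup, ← hKH]
        exact map_mono hgen
      refine hK'.trans (le_trans ?_ (centralizer_le (SetLike.coe_subset_coe.mpr hK')))
      refine sup_le ?_ ?_ <;> rw [le_centralizer_iff] <;> refine sup_le ?_ ?_ <;>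
        rintro _ ⟨x, hx, rfl⟩ <;> refine mem_centralizer_iff.mpr ?_ <;> rintro _ ⟨y, hy, rfl⟩
      · exact c1 y hy.2 x hx.2
      · exact c3 y hy x hx
      · exact (c3 x hx y hy).symm
      · exact c2 y hy x hx
    exact ⟨⟨fun x y => Subtype.ext (mem_centralizer_iff.mp (hle y.2) x x.2)⟩⟩

end Cfsg.Agent.S0577
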