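import Cfsg.Statements.S0578
import Cfsg.Agent.Core.Frattini

set_option autoImplicit false
open Cfsg
set_option linter.style.haveILetI false
open scoped commutatorElement Pointwise

namespace Cfsg.Agent.S0578

universe u in
open Subgroup in
private theorem main : ∀ (n : ℕ) {G : Type u} [Group G] [Finite G], Nat.card G = n →
    (∀ A : Subgroup G, IsMulCommutative A → normalizer (A : Set G) = centralizer (A : Set G)) →
    IsMulCommutative G := by
  intro n
  induction n using Nat.strong_induction_on with
  | _ n ih =>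
  intro G _ _ hn h
  by_contra hna
  have hsub : ∀ H : Subgroup G, H ≠ ⊤ → IsMulCommutative H := fun H hH => by
    refine ih _ (hn ▸ lt_of_le_of_ne (Finite.card_subtype_le _)
      fun hc => hH (eq_top_of_card_eq H hc)) rfl fun A hA => ?_
    haveI := hA
    refine le_antisymm (fun x hx => ?_) (centralizer_le_normalizer _)
    have hx1 : (x : G) ∈ normalizer (A.map H.subtype : Set G) :=
      le_normalizer_map H.subtype ⟨x, hx, rfl⟩
    rw [h (A.map H.subtype) inferInstance, mem_centralizer_iff] at hx1
    exact mem_centralizer_iff.mpr fun a ha => Subtype.ext (hx1 a ⟨a, ha, rfl⟩)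
  have hcentral : ∀ N : Subgroup G, N.Normal → N ≠ ⊤ → N ≤ center G := fun N hN hNt x hx => by
    have h1 := h N (hsub N hNt)
    rw [normalizer_eq_top_iff.mpr hN] at h1
    exact mem_center_iff.mpr fun g => (mem_centralizer_iff.mp (h1 ▸ mem_top g) x hx).symm
  rcases subsingleton_or_nontrivial G with hs | hs
  · exact hna ⟨⟨fun a b => Subsingleton.elim _ _⟩⟩
  obtain ⟨p, hp, hd⟩ := Nat.exists_prime_and_dvd (Finite.one_lt_card (α := G)).ne'
  haveI := Fact.mk hp
  obtain ⟨P⟩ := (inferInstance : Nonempty (Sylow p G))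
  by_cases hPt : (P : Subgroup G) = ⊤
  · -- a `p`-group: a maximal subgroup is central
    obtain ⟨M, hM⟩ : ∃ M : Subgroup G, IsCoatom M :=
      ((eq_top_or_exists_le_coatom ⊥).resolve_left bot_ne_top).imp fun _ h => h.1
    haveI : Group.IsNilpotent G :=
      (IsPGroup.of_equiv P.2 ((MulEquiv.subgroupCongr hPt).trans topEquiv)).isNilpotent
    haveI hMn : M.Normal :=
      NormalizerCondition.normal_of_coatom M Group.normalizerCondition_of_isNilpotent hM
    haveI : IsCyclic (G ⧸ M) := by
      obtain ⟨g, -, hg⟩ := SetLike.exists_of_lt (lt_top_iff_ne_top.2 hM.1 : M < ⊤)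
      refine ⟨⟨(g : G ⧸ M), fun y => ?_⟩⟩
      induction y using QuotientGroup.induction_on with
      | H y =>
      have htop : M ⊔ zpowers g = ⊤ := hM.2 _ (left_lt_sup.mpr (fun h => hg (zpowers_le.mp h)))
      obtain ⟨m, hm, w, hw, rfl⟩ := mem_sup_of_normal_left.mp (htop ▸ mem_top y)
      obtain ⟨k, rfl⟩ := mem_zpowers_iff.mp hw
      refine ⟨k, ?_⟩
      show (g : G ⧸ M) ^ k = _
      rw [QuotientGroup.mk_mul, (QuotientGroup.eq_one_iff m).mpr hm, one_mul, QuotientGroup.mk_zpow]
    exact hna (MonoidHom.isMulCommutative_of_isCyclic_of_ker_le_center (QuotientGroup.mk' M)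
      (by rw [QuotientGroup.ker_mk']; exact hcentral M hMn hM.1))
  haveI := hsub _ hPt
  have hPC := (h _ (hsub _ hPt)).le
  have hc := MonoidHom.ker_transferSylow_isComplement' P hPC
  obtain ⟨K, hK⟩ : ∃ K, K = (MonoidHom.transferSylow P hPC).ker := ⟨_, rfl⟩
  rw [← hK] at hc
  have hKn : K.Normal := hK ▸ inferInstance
  have hKt : K ≠ ⊤ := fun he => by
    have := hc.symm.index_eq_card
    rw [he, index_top] at this
    obtain ⟨k, hk⟩ := IsPGroup.iff_card.mp P.2
    have h2 := P.not_dvd_index
    rw [← (P : Subgroup G).card_mul_index] at hd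
    rcases (hp.dvd_mul).mp hd with h3 | h3
    · rw [show Nat.card (P : Subgroup G) = 1 from this.symm] at h3
      exact hp.ne_one (Nat.dvd_one.mp h3)
    · exact h2 h3
  refine hna ⟨⟨fun a b => ?_⟩⟩
  obtain ⟨⟨⟨x, hx⟩, ⟨y, hy⟩⟩, rfl : x * y = a⟩ := hc.2 a
  obtain ⟨⟨⟨z, hz⟩, ⟨w, hw⟩⟩, rfl : z * w = b⟩ := hc.2 b
  have c1 : ∀ g, g * x = x * g := mem_center_iff.mp (hcentral K hKn hKt hx)
  have c2 : ∀ g, g * z = z * g := mem_center_iff.mp (hcentral K hKn hKt hz)
  have c3 : y * w = w * y := setLike_mul_comm hy hw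
  calc x * y * (z * w) = x * (y * z) * w := by group
    _ = x * (z * y) * w := by rw [c2]
    _ = x * z * (y * w) := by group
    _ = z * x * (w * y) := by rw [c3, c1 z]
    _ = z * (x * w) * y := by group
    _ = z * (w * x) * y := by rw [c1 w]
    _ = z * w * (x * y) := by group

/-- If in a finite group the normalizer of each abelian subgroup coincides with its centralizer, then the group is abelian. -/
theorem result {G : Type*} [Group G] [Finite G] (h : ∀ A : Subgroup G, IsMulCommutative A → Subgroup.normalizer (A : Set G) = Subgroup.centralizer (A : Set G)) : IsMulCommutative G := by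
  exact main _ rfl h

end Cfsg.Agent.S0578
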