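import Cfsg.Statements.S0582
import Cfsg.Agent.Core.SupersolvableHall

set_option autoImplicit false
open Pointwise
open Cfsg

namespace Cfsg.Agent.S0582

/-- Let H and K be supersolvable subgroups of a finite group G of the same order, that order being coprime to their index. Then H and K are conjugate in G. -/
theorem result {G : Type*} [Group G] [Finite G] (H K : Subgroup G) (hH : Cfsg.IsSupersolvable H) (hK : Cfsg.IsSupersolvable K) (hcard : Nat.card H = Nat.card K) (hHall : (Nat.card H).Coprime H.index) : ∃ x : G, MulAut.conj x • H = K := by
  exact Agent.Core.exists_conj_eq_of_supersolvableHall hH hK hcard hHall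

end Cfsg.Agent.S0582
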