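import Cfsg.Statements.S0586
import Cfsg.Agent.Core.Frattini
-- import your own Cfsg.Agent.* helpers here

set_option autoImplicit false
open Cfsg

namespace Cfsg.Agent.S0586

/-- If the Frattini subgroup of a finite group G is trivial, then the Fitting subgroup of G equals the join of all abelian minimal normal subgroups of G. -/
theorem result {G : Type*} [Group G] [Finite G] (hΦ : frattini G = ⊥) : Cfsg.fittingSubgroup G = sSup {N : Subgroup G | N.Normal ∧ N ≠ ⊥ ∧ IsMulCommutative N ∧ ∀ K : Subgroup G, K.Normal → K ≤ N → K = ⊥ ∨ K = N} := by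
  set F := Cfsg.fittingSubgroup G with hF
  set A := sSup {N : Subgroup G | N.Normal ∧ N ≠ ⊥ ∧ IsMulCommutative N ∧
    ∀ K : Subgroup G, K.Normal → K ≤ N → K = ⊥ ∨ K = N}
  have hAF : A ≤ F := sSup_le fun N hN => by
    haveI := hN.2.2.1
    exact Cfsg.Agent.Core.le_fittingSubgroup hN.1 (by open scoped IsMulCommutative in infer_instance)
  haveI hFn := Cfsg.Agent.Core.isNilpotent_fittingSubgroup G
  haveI hFc : IsMulCommutative F := by
    have h1 : commutator F ≤ ⊥ := by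
      intro x hx
      have := Cfsg.Agent.Core.map_frattini_subtype_le F
        ⟨x, Cfsg.Agent.Core.commutator_le_frattini_of_isNilpotent hx, rfl⟩
      rw [hΦ, Subgroup.mem_bot] at this
      exact Subgroup.mem_bot.mpr (Subtype.ext this)
    rw [le_bot_iff, commutator_def, Subgroup.commutator_eq_bot_iff_le_centralizer] at h1
    exact ⟨⟨fun a b => h1 (Subgroup.mem_top b) a (Subgroup.mem_top a)⟩⟩
  haveI hAn : A.Normal := Subgroup.sSup_normal _ fun N hN => hN.1
  haveI hAc : IsMulCommutative A := ⟨⟨fun a b => Subtype.ext (congrArg (fun z : F => (z : G))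
    (hFc.1.1 ⟨a, hAF a.2⟩ ⟨b, hAF b.2⟩))⟩⟩
  obtain ⟨H, hH⟩ := Cfsg.Agent.Core.exists_isComplement'_of_inf_frattini (A := A)
    (by rw [hΦ, inf_bot_eq])
  haveI : (F ⊓ H).Normal := Cfsg.Agent.Core.inf_normal_of_sup_eq_top
    (top_le_iff.mp (hH.sup_eq_top.ge.trans (sup_le_sup_right hAF _)))
  have hbot : F ⊓ H = ⊥ := by
    by_contra hne
    obtain ⟨N, hN, hNle⟩ := Cfsg.Agent.Core.exists_isMinNormal_le ‹_› hne
    haveI hNc : IsMulCommutative N := ⟨⟨fun a b => Subtype.ext (congrArg (fun z : F => (z : G))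
      (hFc.1.1 ⟨a, (hNle a.2).1⟩ ⟨b, (hNle b.2).1⟩))⟩⟩
    have hNA : N ≤ A := le_sSup ⟨hN.1, hN.2.1, hNc, hN.2.2⟩
    exact hN.2.1 (le_bot_iff.mp (hH.disjoint.eq_bot ▸ le_inf hNA (hNle.trans inf_le_right)))
  refine le_antisymm (fun x hx => ?_) hAF
  have hxm : x ∈ A ⊔ H := by rw [hH.sup_eq_top]; exact Subgroup.mem_top x
  rw [← SetLike.mem_coe, Subgroup.normal_mul] at hxm
  obtain ⟨a, ha, h, hh, rfl⟩ := hxm
  have hhF : h ∈ F ⊓ H := ⟨by
    have := F.mul_mem (F.inv_mem (hAF ha)) hx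
    rwa [inv_mul_cancel_left] at this, hh⟩
  rw [hbot, Subgroup.mem_bot] at hhF
  simpa [hhF] using ha

end Cfsg.Agent.S0586
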