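import Cfsg.Statements.S0587
import Cfsg.Agent.Core.Primitive
-- import your own Cfsg.Agent.* helpers here

set_option autoImplicit false
open Cfsg

namespace Cfsg.Agent.S0587

/-- Let G be a finite group whose largest normal p-subgroup L is nontrivial, and M a maximal subgroup of G with trivial normal core. Then L is elementary abelian, M is a complement to L, L is a minimal normal subgroup of G, the centralizer of L is L, and for every prime q such that the largest normal q-subgroup of M is nontrivial, the order of L is congruent to 1 modulo q and q ≠ p. -/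
theorem result {G : Type*} [Group G] [Finite G] (p : ℕ) [Fact p.Prime] (hL : Cfsg.pCore p G ≠ ⊥) (M : Subgroup G) (hM : IsCoatom M) (hcore : M.normalCore = ⊥) : Cfsg.IsElementaryAbelian p (Cfsg.pCore p G) ∧ Subgroup.IsComplement' (Cfsg.pCore p G) M ∧ (∀ K : Subgroup G, K.Normal → K ≤ Cfsg.pCore p G → K = ⊥ ∨ K = Cfsg.pCore p G) ∧ Subgroup.centralizer ((Cfsg.pCore p G : Subgroup G) : Set G) = Cfsg.pCore p G ∧ ∀ (q : ℕ) [Fact q.Prime], Cfsg.pCore q ↥M ≠ ⊥ → Nat.card (Cfsg.pCore p G) % q = 1 % q ∧ q ≠ p := by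
  set L := Cfsg.pCore p G with hLdef
  have hp : p.Prime := Fact.out
  obtain ⟨N, hN, hNL⟩ := Cfsg.Agent.Core.exists_isMinNormal_le (inferInstance : L.Normal) hL
  have hNp : IsPGroup p N := (Cfsg.Agent.Core.isPGroup_pCore p G).to_le hNL
  haveI := hNp.isNilpotent
  obtain ⟨hc, q0, hq0, hpow, -⟩ := hN.elementaryAbelian inferInstance
  haveI := hc
  haveI := hN.1
  have hCN := Cfsg.Agent.Core.centralizer_eq_self_of_abelian hM hcore hN.2.1
  have hLN : L = N := le_antisymm (hCN ▸
    (Cfsg.Agent.Core.pCore_le_fittingSubgroup p G).trans hN.fittingSubgroup_le_centralizer) hNL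
  have hpow' : ∀ x ∈ N, x ^ p = 1 := by
    obtain ⟨x, hx, hx1⟩ := (Subgroup.bot_or_exists_ne_one N).resolve_left hN.2.1
    obtain ⟨k, hk⟩ := hNp.exists_orderOf_eq_pow ⟨x, hx⟩
    have h2 := orderOf_dvd_of_pow_eq_one (hpow x hx)
    rw [Subgroup.orderOf_mk] at hk
    rw [hk] at h2
    have hk0 : k ≠ 0 := fun h0 => hx1 (orderOf_eq_one_iff.mp (by rw [hk, h0, pow_zero]))
    have : p = q0 := (Nat.prime_dvd_prime_iff_eq hp hq0).mp ((dvd_pow_self p hk0).trans h2)
    exact fun y hy => this ▸ hpow y hy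
  rw [hLN]
  have hcompl := Cfsg.Agent.Core.isComplement'_of_abelian hM hcore hN.2.1
  refine ⟨⟨hc, hpow'⟩, hcompl, hN.2.2, hCN, fun q hqf hne => ?_⟩
  have hq : q.Prime := Fact.out
  let Q : Subgroup G := (Cfsg.pCore q M).map M.subtype
  have hQne : Q ≠ ⊥ := fun h =>
    hne ((Subgroup.map_eq_bot_iff_of_injective _ M.subtype_injective).mp h)
  have hMQ : M ≤ Subgroup.normalizer (Q : Set G) := by
    have h1 := Subgroup.le_normalizer_map (H := Cfsg.pCore q M) M.subtype
    rw [Subgroup.normalizer_eq_top (H := Cfsg.pCore q M), ← MonoidHom.range_eq_map,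
      Subgroup.range_subtype] at h1
    exact h1
  have hQp : IsPGroup q Q := (Cfsg.Agent.Core.isPGroup_pCore q M).map _
  have hQN : Q ⊓ N = ⊥ := by
    rw [← le_bot_iff, ← hcompl.disjoint.eq_bot, inf_comm N M]
    exact inf_le_inf_right _ (Subgroup.map_subtype_le _)
  have hCNQ : N ⊓ Subgroup.centralizer (Q : Set G) = ⊥ := by
    have hMC : M ≤ Subgroup.normalizer (Subgroup.centralizer (Q : Set G) : Set G) := fun g hg => by
      rw [Subgroup.mem_normalizer_iff]
      intro c
      simp only [Subgroup.mem_centralizer_iff, SetLike.mem_coe]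
      constructor
      · intro hc y hy
        have h1 := hc (g⁻¹ * y * g) ((Subgroup.mem_normalizer_iff''.mp (hMQ hg) y).mp hy)
        calc y * (g * c * g⁻¹) = g * (g⁻¹ * y * g * c) * g⁻¹ := by group
          _ = g * (c * (g⁻¹ * y * g)) * g⁻¹ := by rw [h1]
          _ = g * c * g⁻¹ * y := by group
      · intro hc y hy
        have h1 := hc (g * y * g⁻¹) ((Subgroup.mem_normalizer_iff.mp (hMQ hg) y).mp hy)
        calc y * c = g⁻¹ * (g * y * g⁻¹ * (g * c * g⁻¹)) * g := by group
          _ = g⁻¹ * (g * c * g⁻¹ * (g * y * g⁻¹)) * g := by rw [h1]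
          _ = c * y := by group
    rcases Cfsg.Agent.Core.eq_bot_or_eq_of_le_normalizer hM hcore hN.2.1 inf_le_left
      ((le_inf (Subgroup.normalizer_eq_top (H := N) ▸ le_top) hMC).trans
        Subgroup.inf_normalizer_le_normalizer_inf) with h | h
    · exact h
    · refine absurd (le_bot_iff.mp (hQN ▸ le_inf le_rfl ?_)) hQne
      rw [← hCN]
      exact Subgroup.le_centralizer_iff.mp (inf_eq_left.mp h)
  letI : MulAction Q N :=
    MulAction.compHom N (N.normalizerMonoidHom.comp (Subgroup.inclusion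
      (show Q ≤ Subgroup.normalizer (N : Set G) by rw [Subgroup.normalizer_eq_top (H := N)]; exact le_top)))
  have hfix : MulAction.fixedPoints Q N = {1} := by
    ext n
    constructor
    · intro hn
      have h2 : (n : G) ∈ N ⊓ Subgroup.centralizer (Q : Set G) := by
        refine ⟨n.2, Subgroup.mem_centralizer_iff.mpr fun y hy => ?_⟩
        have h1 : y * (n : G) * y⁻¹ = n := congrArg Subtype.val (hn ⟨y, hy⟩)
        exact mul_inv_eq_iff_eq_mul.mp h1
      rw [hCNQ, Subgroup.mem_bot] at h2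
      exact Subtype.ext h2
    · rintro rfl y
      exact map_one (N.normalizerMonoidHom _)
  have hmod := hQp.card_modEq_card_fixedPoints N
  rw [hfix, Nat.card_coe_set_eq, Set.ncard_singleton] at hmod
  refine ⟨hmod, fun hqp => ?_⟩
  subst hqp
  obtain ⟨j, hj⟩ := IsPGroup.iff_card.mp hNp
  have hj0 : j ≠ 0 := fun h0 => hN.2.1 (Subgroup.card_eq_one.mp (by rw [hj, h0, pow_zero]))
  have : Nat.card N % q = 1 % q := hmod
  rw [hj, Nat.mod_eq_zero_of_dvd (dvd_pow_self q hj0), Nat.mod_eq_of_lt hq.one_lt] at this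
  exact absurd this (by omega)

end Cfsg.Agent.S0587
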