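import Cfsg.Statements.S0588
import Cfsg.Agent.Core.Cores
-- import your own Cfsg.Agent.* helpers here

set_option autoImplicit false
open Cfsg

namespace Cfsg.Agent.S0588

/-- If a subgroup H of a finite group G contains the centralizer of every non-identity element of H, then the order of H is coprime to its index. -/
theorem result {G : Type*} [Group G] [Finite G] (H : Subgroup G) (h : ∀ x ∈ H, x ≠ 1 → Subgroup.centralizer ({x} : Set G) ≤ H) : (Nat.card H).Coprime H.index := by
  refine Nat.coprime_of_dvd fun p hp hdH hdI => ?_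
  haveI := Fact.mk hp
  obtain ⟨P⟩ := (inferInstance : Nonempty (Sylow p H))
  obtain ⟨R, hR⟩ := P.exists_comap_subtype_eq
  have hRH : ¬ (R : Subgroup G) ≤ H := by
    intro hle
    have h1 := (Subgroup.relIndex_mul_index hle).symm
    exact R.not_dvd_index (h1 ▸ hdI.mul_left _)
  have hx : ∃ x, x ∈ (R : Subgroup G) ∧ x ∈ H ∧ x ≠ 1 := by
    obtain ⟨z, hz⟩ := exists_prime_orderOf_dvd_card' (G := P) p (P.dvd_card_of_dvd_card hdH)
    refine ⟨((z : H) : G), ?_, (z : H).2, fun h => ?_⟩
    · have : (z : H) ∈ (R : Subgroup G).comap H.subtype := hR.symm ▸ z.2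
      exact this
    · rw [← Subgroup.orderOf_coe, ← Subgroup.orderOf_coe, h, orderOf_one] at hz
      exact hp.ne_one hz.symm
  obtain ⟨x, hxR, hxH, hx1⟩ := hx
  haveI : Nontrivial (R : Subgroup G) :=
    ⟨⟨1, ⟨x, hxR⟩, fun e => hx1 (congrArg Subtype.val e).symm⟩⟩
  haveI := R.isPGroup'.center_nontrivial
  obtain ⟨⟨z, hz⟩, hz1⟩ := exists_ne (1 : Subgroup.center (R : Subgroup G))
  have hzc : ∀ y ∈ (R : Subgroup G), y * (z : G) = (z : G) * y := fun y hy =>
    congrArg Subtype.val (Subgroup.mem_center_iff.mp hz ⟨y, hy⟩)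
  have hzH : (z : G) ∈ H := h x hxH hx1 (Subgroup.mem_centralizer_singleton_iff.mpr
    (hzc x hxR).symm)
  have hzne : (z : G) ≠ 1 := fun e => hz1 (Subtype.ext (Subtype.ext e))
  exact hRH fun y hy => h z hzH hzne (Subgroup.mem_centralizer_singleton_iff.mpr (hzc y hy))

end Cfsg.Agent.S0588
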