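import Cfsg.Statements.S0590
import Cfsg.Agent.PLocal.ElemAb

set_option autoImplicit false
open Cfsg
open scoped commutatorElement

namespace Cfsg.Agent.S0590

/-- Quadratic action on an elementary abelian p-group forces the acting group modulo the kernel of the action to be elementary abelian. -/
theorem result {G : Type*} [Group G] [Finite G] {p : ℕ} [Fact p.Prime] (V H : Subgroup G) (hV : Cfsg.IsElementaryAbelian p V) (hHV : H ≤ Subgroup.normalizer (V : Set G)) (hq : ⁅⁅V, H⁆, H⁆ = ⊥) : ⁅H, H⁆ ≤ Subgroup.centralizer (V : Set G) ∧ ∀ a ∈ H, a ^ p ∈ Subgroup.centralizer (V : Set G) := by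
  refine ⟨?_, fun a ha => ?_⟩
  · rw [← Subgroup.commutator_eq_bot_iff_le_centralizer]
    refine Subgroup.commutator_commutator_eq_bot_of_rotate ?_ hq
    rw [Subgroup.commutator_comm H V]; exact hq
  · rw [Coprime.mem_centralizer_iff_conj]
    intro v hv
    have hw : ⁅a, v⁆ ∈ ⁅V, H⁆ := by
      rw [← commutatorElement_inv]
      exact Subgroup.inv_mem _ (Subgroup.commutator_mem_commutator hv ha)
    have hwV : ⁅a, v⁆ ∈ V := Coprime.commutator_le_of_le_normalizer hHV hw
    have hc : a * ⁅a, v⁆ = ⁅a, v⁆ * a :=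
      ((Subgroup.mem_centralizer_iff.mp
        ((Subgroup.commutator_eq_bot_iff_le_centralizer.mp hq) hw)) a ha)
    rw [PLocal.conj_pow_eq (w := ⁅a, v⁆) (by simp [commutatorElement_def]) hc p, hV.2 _ hwV, one_mul]

end Cfsg.Agent.S0590
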