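import Cfsg.Statements.S0591
import Cfsg.Agent.PLocal.ElemAb

set_option autoImplicit false
open Cfsg
open scoped commutatorElement

namespace Cfsg.Agent.S0591

/-- For a quadratically acting element a on an elementary abelian p-group V, the fixed points C_V(a) have order at least the square root of the order of V. -/
theorem result {G : Type*} [Group G] [Finite G] {p : ℕ} [Fact p.Prime] (V : Subgroup G) (hV : Cfsg.IsElementaryAbelian p V) (a : G) (ha : a ∈ Subgroup.normalizer (V : Set G)) (hq : ⁅⁅V, Subgroup.zpowers a⁆, Subgroup.zpowers a⁆ = ⊥) : Nat.card V ≤ Nat.card ↥(V ⊓ Subgroup.centralizer (Subgroup.zpowers a : Set G)) ^ 2 := by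
  set C := V ⊓ Subgroup.centralizer (Subgroup.zpowers a : Set G) with hC
  have hin : ∀ v ∈ V, ⁅a, v⁆ ∈ V := fun v hv => by
    rw [commutatorElement_def]
    exact V.mul_mem ((Subgroup.mem_normalizer_iff.mp ha v).mp hv) (V.inv_mem hv)
  have hmem : ∀ v ∈ V, ⁅a, v⁆ ∈ Subgroup.centralizer (Subgroup.zpowers a : Set G) := fun v hv => by
    refine (Subgroup.commutator_eq_bot_iff_le_centralizer.mp hq) ?_
    rw [← commutatorElement_inv]
    exact Subgroup.inv_mem _ (Subgroup.commutator_mem_commutator hv (Subgroup.mem_zpowers a))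
  let φ : V →* G :=
    { toFun := fun v => ⁅a, (v : G)⁆
      map_one' := by simp
      map_mul' := fun u v => by
        have h1 := PLocal.comm_of_EA hV u.2 (hin v v.2)
        rw [Subgroup.coe_mul, commutatorElement_mul_right_eq_mul_conj,
          mul_assoc (⁅a, (u : G)⁆), h1, ← mul_assoc, mul_inv_cancel_right] }
  have hker : φ.ker.map V.subtype ≤ C := by
    rintro _ ⟨v, hv, rfl⟩
    refine ⟨v.2, ?_⟩
    rw [Subgroup.zpowers_eq_closure, Subgroup.centralizer_closure]
    show (v : G) ∈ Subgroup.centralizer {a}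
    rw [Subgroup.mem_centralizer_singleton_iff]
    exact ((commutatorElement_eq_one_iff_mul_comm).mp hv).symm
  have hran : φ.range ≤ C := by
    rintro _ ⟨v, rfl⟩
    exact ⟨hin v v.2, hmem v v.2⟩
  rw [← Subgroup.card_mul_index φ.ker, Subgroup.index_ker, sq,
    ← Subgroup.card_map_of_injective V.subtype_injective]
  exact Nat.mul_le_mul (Subgroup.card_le_of_le hker) (Subgroup.card_le_of_le hran)

end Cfsg.Agent.S0591
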