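import Cfsg.Statements.S0592
import Cfsg.Agent.Linear.QuadraticPair

set_option autoImplicit false
open Cfsg

namespace Cfsg.Agent.S0592

/-- Two quadratically acting generators of a linear group that is not a p-group, with the p'-part of the order of their product dividing q - 1, give a homomorphism onto a subgroup of SL(2, q) that is not a p-group. -/
theorem result {K : Type*} [Field K] [Fintype K] {p : ℕ} [Fact p.Prime] [CharP K p] {W : Type*} [AddCommGroup W] [Module K W] [FiniteDimensional K W] [Finite W] [Nontrivial W] (H : Subgroup (W ≃ₗ[K] W)) (a b : W ≃ₗ[K] W) (hH : H = Subgroup.closure {a, b}) (ha : ∀ w : W, a (a w - w) = a w - w) (hb : ∀ w : W, b (b w - w) = b w - w) (hnp : ¬ IsPGroup p H) (hk : ∃ e k : ℕ, orderOf (a * b) = p ^ e * k ∧ k ∣ Fintype.card K - 1) : ∃ φ : H →* Matrix.SpecialLinearGroup (Fin 2) K, ¬ IsPGroup p φ.range := by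
  subst hH
  haveI : Finite (W ≃ₗ[K] W) := Finite.of_injective (fun f => (f : W → W)) DFunLike.coe_injective
  let H := Subgroup.closure ({a, b} : Set (W ≃ₗ[K] W))
  let ρ : ↥H →* Module.End K W :=
    { toFun := fun g => ((g : W ≃ₗ[K] W) : W →ₗ[K] W)
      map_one' := rfl
      map_mul' := fun _ _ => rfl }
  let s : ↥H := ⟨a, Subgroup.subset_closure (Set.mem_insert _ _)⟩
  let t : ↥H := ⟨b, Subgroup.subset_closure (Set.mem_insert_of_mem _ rfl)⟩
  have hgen : Subgroup.closure {s, t} = (⊤ : Subgroup ↥H) := by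
    refine Subgroup.map_injective H.subtype_injective ?_
    rw [MonoidHom.map_closure, ← MonoidHom.range_eq_map, Subgroup.range_subtype, Set.image_pair]
    rfl
  have hquad : ∀ (g : ↥H), (∀ w : W, (g : W ≃ₗ[K] W) ((g : W ≃ₗ[K] W) w - w) =
      (g : W ≃ₗ[K] W) w - w) → (ρ g - 1) ^ 2 = 0 := by
    intro g hg
    refine LinearMap.ext fun w => ?_
    rw [sq, Module.End.mul_apply, LinearMap.sub_apply, LinearMap.sub_apply, Module.End.one_apply,
      Module.End.one_apply]
    exact sub_eq_zero.2 (hg w)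
  obtain ⟨e, k, hek, hkq⟩ := hk
  refine Cfsg.Agent.Linear.QuadraticPair.exists_sl_two s t hgen (p := p) (e := e) (k := k)
    (Subtype.ext ?_) hkq _ W rfl ρ (hquad s ha) (hquad t hb) fun h => hnp fun g => ?_
  · show (a * b) ^ (p ^ e * k) = 1
    rw [← hek, pow_orderOf_eq_one]
  · obtain ⟨j, hj⟩ := h g
    refine ⟨j, Subtype.ext (LinearEquiv.toLinearMap_injective ?_)⟩
    show ρ (g ^ p ^ j) = 1
    rw [map_pow, hj]

end Cfsg.Agent.S0592
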