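import Cfsg.Statements.S0593
import Cfsg.Agent.Dickson.Stability

set_option autoImplicit false
open Cfsg

namespace Cfsg.Agent.S0593

/-- For odd p, a faithful group on an elementary abelian p-group generated by two quadratically acting elements is a p-group or has non-abelian Sylow 2-subgroups. -/
theorem result {G : Type*} [Group G] [Finite G] {p : ℕ} [Fact p.Prime] (hp : p ≠ 2) (V H : Subgroup G) (hV : Cfsg.IsElementaryAbelian p V) (hHV : H ≤ Subgroup.normalizer (V : Set G)) (hf : H ⊓ Subgroup.centralizer (V : Set G) = ⊥) (a b : G) (hab : H = Subgroup.closure {a, b}) (ha : ⁅⁅V, Subgroup.zpowers a⁆, Subgroup.zpowers a⁆ = ⊥) (hb : ⁅⁅V, Subgroup.zpowers b⁆, Subgroup.zpowers b⁆ = ⊥) (hnp : ¬ IsPGroup p H) (T : Sylow 2 H) : ¬ IsMulCommutative T := by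
  rcases Dickson.centralizes_or_section hp _ V H le_rfl (PLocal.isPGroup_of_EA hV) hHV a b hab ha hb with h | h
  · refine absurd (fun x => ?_) hnp
    obtain ⟨i, m, hm, hxm⟩ := Nat.exists_eq_pow_mul_and_not_dvd (orderOf_pos (x : G)).ne' p
      (Fact.out : p.Prime).ne_one
    refine ⟨i, Subtype.ext ?_⟩
    have hy : (x : G) ^ p ^ i ∈ H ⊓ Subgroup.centralizer (V : Set G) := by
      refine Subgroup.mem_inf.mpr ⟨pow_mem x.2 _, h _ (pow_mem x.2 _) ?_⟩
      rw [orderOf_pow' _ (pow_pos (Fact.out : p.Prime).pos i).ne', hxm, Nat.gcd_mul_right_left,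
        Nat.mul_div_cancel_left _ (pow_pos (Fact.out : p.Prime).pos i)]
      exact ((Fact.out : p.Prime).coprime_iff_not_dvd.mpr hm).symm
    rw [hf, Subgroup.mem_bot] at hy
    simpa using hy
  · exact h.sylow_two_nonabelian hp T

end Cfsg.Agent.S0593
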