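import Cfsg.Statements.S0594
import Cfsg.Agent.Dickson.PSolvable

set_option autoImplicit false
open Cfsg
open scoped commutatorElement

namespace Cfsg.Agent.S0594

/-- For odd p, two quadratic generators of a faithful group that is not a p-group, one of which acts nontrivially on a normal subgroup of order prime to p, force p = 3 and a section isomorphic to SL(2,3). -/
theorem result {G : Type*} [Group G] [Finite G] {p : ℕ} [Fact p.Prime] (hp : p ≠ 2) (V H : Subgroup G) (hV : Cfsg.IsElementaryAbelian p V) (hHV : H ≤ Subgroup.normalizer (V : Set G)) (hf : H ⊓ Subgroup.centralizer (V : Set G) = ⊥) (a b : G) (hab : H = Subgroup.closure {a, b}) (ha : ⁅⁅V, Subgroup.zpowers a⁆, Subgroup.zpowers a⁆ = ⊥) (hb : ⁅⁅V, Subgroup.zpowers b⁆, Subgroup.zpowers b⁆ = ⊥) (hnp : ¬ IsPGroup p H) (Q : Subgroup G) (hQH : Q ≤ H) (hQn : H ≤ Subgroup.normalizer (Q : Set G)) (hQ : (Nat.card Q).Coprime p) (hQa : ⁅Q, Subgroup.zpowers a⁆ ≠ ⊥) : p = 3 ∧ ∃ (K L : Subgroup G) (hL : (L.subgroupOf K).Normal),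 K ≤ H ∧ Nonempty ((K ⧸ L.subgroupOf K) ≃* Matrix.SpecialLinearGroup (Fin 2) (ZMod 3)) := by
  have haH : a ∈ H := hab ▸ Subgroup.subset_closure (by simp)
  set A := Subgroup.zpowers a with hA
  set H' : Subgroup G := Q ⊔ A with hH'
  have hle : H' ≤ H := sup_le hQH (Subgroup.zpowers_le.mpr haH)
  have hHV' : H' ≤ Subgroup.normalizer (V : Set G) := hle.trans hHV
  have hf' : H' ⊓ Subgroup.centralizer (V : Set G) = ⊥ :=
    le_bot_iff.mp ((inf_le_inf_right _ hle).trans hf.le)
  have hAQ : A ≤ Subgroup.normalizer (Q : Set G) := (Subgroup.zpowers_le.mpr haH).trans hQn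
  have hap := Dickson.pow_eq_one_of_quadratic hV hHV hf haH ha
  haveI hQn' : (Q.subgroupOf H').Normal :=
    Subgroup.normal_subgroupOf_of_le_normalizer (sup_le Subgroup.le_normalizer hAQ)
  have hcopQ : (Nat.card (Q.subgroupOf H')).Coprime p := by
    rw [Nat.card_congr (Subgroup.subgroupOfEquivOfLe (le_sup_left : Q ≤ H')).toEquiv]; exact hQ
  have hsep : Cfsg.IsPSolvable p H' := by
    refine Core.isPSolvable_of_normal (Q.subgroupOf H') ?_ ?_
    · refine Core.isPSolvable_iff.mpr ?_
      have h := Core.isPiSeparable_compl (Core.isPiSeparable_of_isPiNat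
        ((Core.isPiNat_compl_singleton_iff_coprime (Fact.out : p.Prime)).mpr hcopQ))
      rwa [compl_compl] at h
    · haveI : Group.IsSolvable (↥H' ⧸ Q.subgroupOf H') := by
        have hcomm : ∀ x y : ↥H' ⧸ Q.subgroupOf H', x * y = y * x := by
          intro x y
          obtain ⟨x, rfl⟩ := QuotientGroup.mk'_surjective _ x
          obtain ⟨y, rfl⟩ := QuotientGroup.mk'_surjective _ y
          obtain ⟨q, hq, c, hc, hxe⟩ := Coprime.exists_mul_of_mem_sup hAQ x.2
          obtain ⟨q', hq', c', hc', hye⟩ := Coprime.exists_mul_of_mem_sup hAQ y.2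
          have e : ∀ (w : H') (q c : G) (hq : q ∈ Q) (hc : c ∈ A), (w : G) = q * c →
              QuotientGroup.mk' (Q.subgroupOf H') w =
                QuotientGroup.mk' (Q.subgroupOf H') ⟨c, Subgroup.mem_sup_right hc⟩ := by
            intro w q c hq hc hw
            have : w = ⟨q, Subgroup.mem_sup_left hq⟩ * ⟨c, Subgroup.mem_sup_right hc⟩ := Subtype.ext hw
            rw [this, map_mul, QuotientGroup.mk'_apply, (QuotientGroup.eq_one_iff _).mpr
              (Subgroup.mem_subgroupOf.mpr hq), one_mul]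
          rw [e x q c hq hc hxe.symm, e y q' c' hq' hc' hye.symm, ← map_mul, ← map_mul]
          congr 1
          obtain ⟨i, rfl⟩ := hc
          obtain ⟨j, rfl⟩ := hc'
          exact Subtype.ext ((Commute.refl a).zpow_zpow i j).eq
        exact Group.isSolvable_of_comm hcomm
      exact Core.isPSolvable_of_isSolvable
  have haH' : a ∈ H' := Subgroup.mem_sup_right (Subgroup.mem_zpowers a)
  have hna : (⟨a, haH'⟩ : H') ∉ Cfsg.pCore p H' := by
    intro e
    apply hQa
    rw [eq_bot_iff, Subgroup.commutator_le]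
    intro q hq z hz
    have hzc : (⟨z, Subgroup.mem_sup_right hz⟩ : H') ∈ Cfsg.pCore p H' := by
      obtain ⟨i, rfl⟩ := hz
      exact zpow_mem (show (⟨a, haH'⟩ : H') ∈ Cfsg.pCore p H' from e) i
    set qq : H' := ⟨q, Subgroup.mem_sup_left hq⟩
    set zz : H' := ⟨z, Subgroup.mem_sup_right hz⟩
    have h1 : ⁅qq, zz⁆ ∈ Cfsg.pCore p H' := by
      rw [commutatorElement_def]
      exact mul_mem ((inferInstance : (Cfsg.pCore p H').Normal).conj_mem zz hzc qq) (inv_mem hzc)
    have h2 : ⁅qq, zz⁆ ∈ Q.subgroupOf H' := by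
      rw [commutatorElement_def, mul_assoc qq, mul_assoc qq]
      exact mul_mem (show qq ∈ Q.subgroupOf H' from Subgroup.mem_subgroupOf.mpr hq)
        (hQn'.conj_mem _ (inv_mem (show qq ∈ Q.subgroupOf H' from Subgroup.mem_subgroupOf.mpr hq)) zz)
    obtain ⟨k, hk⟩ := IsPGroup.iff_card.mp (Core.isPGroup_pCore p H')
    have h3 : (⁅qq, zz⁆ : H') = 1 := by
      have hd1 := Subgroup.orderOf_dvd_natCard _ h1
      have hd2 := Subgroup.orderOf_dvd_natCard _ h2
      rw [hk] at hd1
      exact orderOf_eq_one_iff.mp (Nat.eq_one_of_dvd_coprimes (hcopQ.pow_right k) hd2 hd1)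
    rw [Subgroup.mem_bot]
    exact congrArg Subtype.val h3
  have hsec := Dickson.section_of_faithful hp (PLocal.isPGroup_of_EA hV) hHV' hf' (g := ⟨a, haH'⟩) ha hna
  obtain rfl : p = 3 := hsec.eq_three hp hsep
  exact ⟨rfl, (hsec.mono hle).exists_iso⟩

end Cfsg.Agent.S0594
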