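import Cfsg.Statements.S0599
import Cfsg.Agent.PLocal.Timmesfeld

set_option autoImplicit false
open Cfsg
open scoped commutatorElement

namespace Cfsg.Agent.S0599

/-- The Timmesfeld replacement Theorem: replacing a best offender A by C_A([U, A]) gives a best offender with fixed points [U, A]C_V(A), still nontrivial on V if A was. -/
theorem result {G : Type*} [Group G] [Finite G] {p : ℕ} [Fact p.Prime] (V A : Subgroup G) (hV : Cfsg.IsElementaryAbelian p V) (hAV : A ≤ Subgroup.normalizer (V : Set G)) (hA : Cfsg.IsBestOffenderOn p V A) (U : Subgroup G) (hU : U ≤ V) : Cfsg.IsBestOffenderOn p V (A ⊓ Subgroup.centralizer ((⁅U, A⁆ : Subgroup G) : Set G)) ∧ V ⊓ Subgroup.centralizer ((A ⊓ Subgroup.centralizer ((⁅U, A⁆ : Subgroup G) : Set G) : Subgroup G) : Set G) = ⁅U, A⁆ ⊔ (V ⊓ Subgroup.centralizer (A : Set G)) ∧ (⁅V, A⁆ ≠ ⊥ → ⁅V, A ⊓ Subgroup.centralizer ((⁅U, A⁆ : Subgroup G) : Set G)⁆ ≠ ⊥) := by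
  obtain ⟨h1, h2⟩ := PLocal.timmesfeld V A hV.1 hAV hA.2.1 hA.1 U hU
  refine ⟨⟨fun B hB => ?_, ?_, fun a ha => hA.2.2 a ha.1⟩, h1,
    fun h => PLocal.commutator_replacement_ne_bot hV hAV hA hU h⟩
  · exact (hA.1 B (hB.trans inf_le_left)).trans h2.ge
  · exact (Subgroup.commutator_mono inf_le_left inf_le_left).trans hA.2.1

end Cfsg.Agent.S0599
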