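import Cfsg.Statements.S0603
import Cfsg.Agent.PLocal.ElemAb

set_option autoImplicit false
open Cfsg
open scoped commutatorElement

namespace Cfsg.Agent.S0603

/-- The Thompson subgroup of any subgroup containing J(G) is J(G) itself. -/
theorem result {G : Type*} [Group G] [Finite G] {p : ℕ} [Fact p.Prime] (U : Subgroup G) (hU : Cfsg.thompsonSubgroup p G ≤ U) : Cfsg.thompsonSubgroupOf p U = Cfsg.thompsonSubgroup p G := by
  apply le_antisymm
  · refine PLocal.thompsonSubgroupOf_le fun B hB => ?_
    obtain ⟨A, hA⟩ := PLocal.exists_maxEA (G := G) (p := p)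
    exact ⟨A, hA.1, (PLocal.le_thompsonSubgroup hA).trans hU, hA.2 B hB⟩
  · exact sSup_le fun A hA => PLocal.le_thompsonSubgroupOf ((PLocal.le_thompsonSubgroup hA).trans hU) hA

end Cfsg.Agent.S0603
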