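import Cfsg.Statements.S0604
import Cfsg.Agent.PLocal.ElemAb

set_option autoImplicit false
open Cfsg
open scoped commutatorElement

namespace Cfsg.Agent.S0604

/-- The Thompson subgroup of G is the join of the Thompson subgroups of its Sylow p-subgroups. -/
theorem result {G : Type*} [Group G] [Finite G] {p : ℕ} [Fact p.Prime] : Cfsg.thompsonSubgroup p G = ⨆ S : Sylow p G, Cfsg.thompsonSubgroupOf p (S : Subgroup G) := by
  apply le_antisymm
  · refine sSup_le fun A hA => ?_
    obtain ⟨S, hS⟩ := (PLocal.isPGroup_of_EA hA.1).exists_le_sylow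
    exact (PLocal.le_thompsonSubgroupOf hS hA).trans (le_iSup (fun S : Sylow p G => thompsonSubgroupOf p (S : Subgroup G)) S)
  · refine iSup_le fun S => PLocal.thompsonSubgroupOf_le fun B hB => ?_
    obtain ⟨g, hg⟩ := PLocal.exists_conj_le_sylow (PLocal.isPGroup_of_EA hB) S
    exact ⟨_, PLocal.isEA_map hB _, hg, (Coprime.card_map_conj B g).ge⟩

end Cfsg.Agent.S0604
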