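import Cfsg.Statements.S0607
import Cfsg.Agent.PLocal.Timmesfeld

set_option autoImplicit false
open Cfsg
open scoped commutatorElement

namespace Cfsg.Agent.S0607

/-- The replacement Theorem for the Thompson subgroup: from A of maximal order among elementary abelian p-subgroups one obtains A₀ = [V, A] C_A([V, A]) of the same kind, quadratic on V and nontrivial on V when A is. -/
theorem result {G : Type*} [Group G] [Finite G] {p : ℕ} [Fact p.Prime] (V : Subgroup G) [V.Normal] (hV : Cfsg.IsElementaryAbelian p V) (A : Subgroup G) (hA : A ∈ Cfsg.maxElementaryAbelianSubgroups p G) : (⁅V, A⁆ ⊔ (A ⊓ Subgroup.centralizer ((⁅V, A⁆ : Subgroup G) : Set G))) ∈ Cfsg.maxElementaryAbelianSubgroups p G ∧ ⁅⁅V, ⁅V, A⁆ ⊔ (A ⊓ Subgroup.centralizer ((⁅V, A⁆ : Subgroup G) : Set G))⁆, ⁅V, A⁆ ⊔ (A ⊓ Subgroup.centralizer ((⁅V, A⁆ : Subgroup G) : Set G))⁆ = ⊥ ∧ (⁅V, A⁆ ≠ ⊥ → ⁅V, ⁅V, A⁆ ⊔ (A ⊓ Subgroup.centralizer ((⁅V, A⁆ : Subgroup G) : Set G))⁆ ≠ ⊥) := by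
  have hVA : A ≤ Subgroup.normalizer (V : Set G) := by rw [Subgroup.normalizer_eq_top]; exact le_top
  have hoff := PLocal.isBestOffenderOn_of_maxEA hV hA
  obtain ⟨h1, h2⟩ := PLocal.timmesfeld V A hV.1 hVA hoff.2.1 hoff.1 V le_rfl
  set W := ⁅V, A⁆ with hW
  set B := A ⊓ Subgroup.centralizer (W : Set G) with hB
  set C₀ := V ⊓ Subgroup.centralizer (A : Set G) with hC₀
  have hWV : W ≤ V := Subgroup.commutator_le_left V A
  have hBA : B ≤ A := inf_le_left
  have hWc : W ≤ Subgroup.centralizer (W : Set G) := fun x hx => Subgroup.mem_centralizer_iff.mpr fun y hy =>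
    PLocal.comm_of_EA hV (hWV hy) (hWV hx)
  have hBW : B ≤ Subgroup.centralizer (W : Set G) := inf_le_right
  have hXc : W ⊔ B ≤ Subgroup.centralizer (W : Set G) := sup_le hWc hBW
  have hX : IsElementaryAbelian p (W ⊔ B : Subgroup G) :=
    PLocal.isEA_sup (PLocal.isEA_mono hV hWV) (PLocal.isEA_mono hA.1 hBA) (Subgroup.le_centralizer_iff.mp hBW)
  have hC₀A : C₀ ≤ A := by
    intro c hc
    have hEA : IsElementaryAbelian p (A ⊔ Subgroup.zpowers c : Subgroup G) :=
      PLocal.isEA_sup hA.1 (PLocal.isEA_zpowers (hV.2 c hc.1))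
        (Subgroup.le_centralizer_iff.mp (Subgroup.zpowers_le.mpr hc.2))
    exact (Subgroup.eq_of_le_of_card_ge le_sup_left (hA.2 _ hEA)).ge
      (Subgroup.mem_sup_right (Subgroup.mem_zpowers c))
  refine ⟨⟨hX, fun E hE => (hA.2 E hE).trans ?_⟩, ?_, ?_⟩
  · have hWB : W ⊓ B = W ⊓ C₀ := by
      refine le_antisymm (le_inf inf_le_left (le_inf (inf_le_left.trans hWV) ?_)) (le_inf inf_le_left ?_)
      · exact (inf_le_right.trans hBA).trans (Subgroup.le_centralizer_iff_isMulCommutative.mpr hA.1.1)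
      · exact le_inf (inf_le_right.trans hC₀A) (inf_le_left.trans hWc)
    have e1 := PLocal.card_sup_mul_card_inf (A := W) (B := B)
      ((Subgroup.le_centralizer_iff.mp hBW).trans (Subgroup.centralizer_le_normalizer _))
    have e2 := PLocal.card_sup_mul_card_inf (A := W) (B := C₀)
      ((hWV.trans (Subgroup.le_centralizer_iff_isMulCommutative.mpr hV.1)).trans
        ((Subgroup.centralizer_le inf_le_left).trans (Subgroup.centralizer_le_normalizer _)))
    unfold PLocal.offVal at h2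
    rw [h1] at h2
    rw [hWB] at e1
    -- |A| |C₀| = |B| |W C₀|
    refine Nat.le_of_mul_le_mul_right (le_of_eq ?_)
      (Nat.mul_pos (Nat.card_pos (α := C₀)) (Nat.card_pos (α := (W ⊓ C₀ : Subgroup G))))
    calc Nat.card A * (Nat.card C₀ * Nat.card (W ⊓ C₀ : Subgroup G))
        = Nat.card B * (Nat.card (W ⊔ C₀ : Subgroup G) * Nat.card (W ⊓ C₀ : Subgroup G)) := by
          rw [← mul_assoc, ← h2]; ring
      _ = Nat.card B * (Nat.card W * Nat.card C₀) := by rw [e2]
      _ = Nat.card (W ⊔ B : Subgroup G) * Nat.card (W ⊓ C₀ : Subgroup G) * Nat.card C₀ := by rw [e1]; ring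
      _ = _ := by ring
  · rw [Subgroup.commutator_eq_bot_iff_le_centralizer]
    have hle : ⁅V, W ⊔ B⁆ ≤ W := by
      rw [Subgroup.commutator_le]
      intro v hv x hx
      obtain ⟨b, hb, w, hw, rfl⟩ := Coprime.exists_mul_of_mem_sup
        ((Subgroup.le_centralizer_iff.mp hBW).trans (Subgroup.centralizer_le_normalizer _))
        (sup_comm W B ▸ hx)
      have e : ⁅v, b * w⁆ = ⁅v, b⁆ * (b * ⁅v, w⁆ * b⁻¹) := by simp only [commutatorElement_def]; group
      have e0 : ⁅v, w⁆ = 1 := commutatorElement_eq_one_iff_mul_comm.mpr (PLocal.comm_of_EA hV hv (hWV hw))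
      rw [e, e0, mul_one, mul_inv_cancel, mul_one]
      exact Subgroup.commutator_mem_commutator hv (hBA hb)
    exact hle.trans (Subgroup.le_centralizer_iff.mp hXc)
  · intro h hbot
    refine PLocal.commutator_replacement_ne_bot hV hVA hoff le_rfl h (le_bot_iff.mp ?_)
    exact (Subgroup.commutator_mono le_rfl le_sup_right).trans hbot.le

end Cfsg.Agent.S0607
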