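import Cfsg.Statements.S0613
import Cfsg.Agent.PLocal.OffenderDirect

set_option autoImplicit false
open Cfsg

namespace Cfsg.Agent.S0613

open Subgroup Cfsg.Agent.PLocal

/-- A minimal nontrivially-acting best offender and a conjugate of it under a non-centralizing element of the p'-core generate SL(2, p) acting naturally on a plane, and p is 2 or 3. -/
theorem result {G : Type*} [Group G] [Finite G] {p : ℕ} [Fact p.Prime] (V H : Subgroup G) (hV : Cfsg.IsElementaryAbelian p V) (hHV : H ≤ Subgroup.normalizer (V : Set G)) (hf : H ⊓ Subgroup.centralizer (V : Set G) = ⊥) (hS1 : Subgroup.centralizer (Cfsg.pPrimeCore p ↥H : Set ↥H) ≤ Cfsg.pPrimeCore p ↥H) (hS3 : H = ⨆ A : {A : Subgroup G // A ≤ H ∧ Cfsg.IsBestOffenderOn p V A}, (A : Subgroup G)) (hH1 : H ≠ ⊥) (A : Subgroup G) (hAH : A ≤ H) (hA : Cfsg.IsBestOffenderOn p V A) (hAV : ⁅V, A⁆ ≠ ⊥) (hmin : ∀ B : Subgroup G, B ≤ A → Cfsg.IsBestOffenderOn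 p V B → ⁅V, B⁆ ≠ ⊥ → B = A) (x : G) (hx : x ∈ ((Cfsg.pPrimeCore p ↥H).map H.subtype)) (hxA : x ∉ Subgroup.centralizer (A : Set G)) : (p = 2 ∨ p = 3) ∧ Nat.card ↥(⁅V, A ⊔ A.map (MulAut.conj x).toMonoidHom⁆) = p ^ 2 ∧ (A ⊔ A.map (MulAut.conj x).toMonoidHom) ⊓ Subgroup.centralizer ((⁅V, A ⊔ A.map (MulAut.conj x).toMonoidHom⁆ : Subgroup G) : Set G) = ⊥ ∧ Nonempty (↥(A ⊔ A.map (MulAut.conj x).toMonoidHom) ≃* Matrix.SpecialLinearGroup (Fin 2) (ZMod p)) := by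
  have hc := offCtx_of hV hHV hf hS1
  have hT := hc.trans_of_min hAH hA hAV hmin
  obtain ⟨-, -, hE⟩ := hc.eOff_facts_of hAH hT hx hxA
  obtain ⟨hcard, -, -, hiso⟩ := hc.eOff_decomp hAH hT
  rw [← hE]
  refine ⟨hc.prime_eq hAH hT, hcard, ?_, hiso⟩
  rw [Subgroup.eq_bot_iff_forall]
  exact fun g hg => hc.eq_one_of_fix_plane hAH hT hg.1 fun u hu =>
    (Subgroup.mem_centralizer_iff.mp hg.2 u hu).symm

end Cfsg.Agent.S0613
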