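import Cfsg.Statements.S0615
import Cfsg.Agent.PLocal.SubnormalPair

set_option autoImplicit false
open Cfsg
open scoped commutatorElement

namespace Cfsg.Agent.S0615

/-- Two subnormal subgroups acting irreducibly on their incomparable commutator modules, in a faithful group with trivial largest normal p-subgroup, generate their direct product, and the commutator module splits accordingly. -/
theorem result {G : Type*} [Group G] [Finite G] {p : ℕ} [Fact p.Prime] (V E E₁ E₂ : Subgroup G) (hV : Cfsg.IsElementaryAbelian p V) (hEV : E ≤ Subgroup.normalizer (V : Set G)) (hf : E ⊓ Subgroup.centralizer (V : Set G) = ⊥) (hgen : E = E₁ ⊔ E₂) (hs₁ : (E₁.subgroupOf E).IsSubnormal) (hs₂ : (E₂.subgroupOf E).IsSubnormal) (hOp : Cfsg.pCore p ↥E = ⊥) (hirr₁ : (∀ U : Subgroup G, U ≤ ⁅V, E₁⁆ → E₁ ≤ Subgroup.normalizer (U : Set G) → U = ⊥ ∨ U = ⁅V, E₁⁆)) (hirr₂ : (∀ U : Subgroup G, U ≤ ⁅V, E₂⁆ → E₂ ≤ Subgroup.normalizer (U : Set G)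 → U = ⊥ ∨ U = ⁅V, E₂⁆)) (h12 : ¬ ⁅V, E₁⁆ ≤ ⁅V, E₂⁆) (h21 : ¬ ⁅V, E₂⁆ ≤ ⁅V, E₁⁆) (hc₁ : 2 < Nat.card E₁) (hc₂ : 2 < Nat.card E₂) : ⁅E₁, E₂⁆ = ⊥ ∧ E₁ ⊓ E₂ = ⊥ ∧ ⁅V, E₁⁆ ⊓ ⁅V, E₂⁆ = ⊥ ∧ ⁅V, E⁆ = ⁅V, E₁⁆ ⊔ ⁅V, E₂⁆ := by
  have hF : PLocal.FaithfulCore p V E := ⟨hV, hEV, hf, hOp⟩
  have hle₁ : E₁ ≤ E := hgen ▸ le_sup_left
  have hle₂ : E₂ ≤ E := hgen ▸ le_sup_right
  have I₁ : PLocal.IrrSub p V E E₁ := ⟨hle₁, hs₁, hirr₁, hc₁⟩
  have I₂ : PLocal.IrrSub p V E E₂ := ⟨hle₂, hs₂, hirr₂, hc₂⟩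
  have hcomm := PLocal.irr_pair_commute _ V E E₁ E₂ rfl hF I₁ I₂ h12 h21
  have hn : E₁ ≤ Subgroup.normalizer ((⁅V, E₂⁆ : Subgroup G) : Set G) :=
    hF.norm_of_commute I₂ (by rw [Subgroup.commutator_comm]; exact hcomm) hle₁
  have hdisj := hF.inf_eq_bot_of_norm I₁ h12 hn
  refine ⟨hcomm, ?_, hdisj, ?_⟩
  · rw [Subgroup.eq_bot_iff_forall]
    intro g hg
    refine hF.eq_one (hle₁ hg.1) fun v hv => ?_
    have h : ⁅v, g⁆ = 1 := Subgroup.mem_bot.mp (hdisj ▸
      ⟨Subgroup.commutator_mem_commutator hv hg.1, Subgroup.commutator_mem_commutator hv hg.2⟩)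
    exact (commutatorElement_eq_one_iff_mul_comm.mp h).symm
  · refine le_antisymm ?_ (sup_le (Subgroup.commutator_mono le_rfl hle₁) (Subgroup.commutator_mono le_rfl hle₂))
    rw [hgen, Subgroup.commutator_le]
    have key : E₁ ⊔ E₂ ≤ Subgroup.normalizer ((⁅V, E₁⁆ ⊔ ⁅V, E₂⁆ : Subgroup G) : Set G) := by
      refine sup_le (fun g hg => Subgroup.mem_normalizer_fintype fun x hx => ?_)
        (fun g hg => Subgroup.mem_normalizer_fintype fun x hx => ?_)
      · rw [show g * x * g⁻¹ = ⁅x, g⁆⁻¹ * x by simp only [commutatorElement_def]; group]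
        exact mul_mem (Subgroup.mem_sup_left (inv_mem (Subgroup.commutator_mem_commutator
          (sup_le (hF.plane_le hle₁) (hF.plane_le hle₂) hx) hg))) hx
      · rw [show g * x * g⁻¹ = ⁅x, g⁆⁻¹ * x by simp only [commutatorElement_def]; group]
        exact mul_mem (Subgroup.mem_sup_right (inv_mem (Subgroup.commutator_mem_commutator
          (sup_le (hF.plane_le hle₁) (hF.plane_le hle₂) hx) hg))) hx
    intro v hv g hg
    revert v
    rw [Subgroup.sup_eq_closure] at hg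
    induction hg using Subgroup.closure_induction with
    | mem y hy =>
      intro v hv
      rcases hy with hy | hy
      · exact Subgroup.mem_sup_left (Subgroup.commutator_mem_commutator hv hy)
      · exact Subgroup.mem_sup_right (Subgroup.commutator_mem_commutator hv hy)
    | one => intro v hv; rw [commutatorElement_one_right]; exact one_mem _
    | mul a b ha _ iha ihb =>
      intro v hv
      rw [show ⁅v, a * b⁆ = ⁅v, a⁆ * (a * ⁅v, b⁆ * a⁻¹) by simp only [commutatorElement_def]; group]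
      rw [← Subgroup.sup_eq_closure] at ha
      exact mul_mem (iha v hv) ((Subgroup.mem_normalizer_iff.mp (key ha) _).mp (ihb v hv))
    | inv a ha iha =>
      intro v hv
      rw [show ⁅v, a⁻¹⁆ = a⁻¹ * ⁅v, a⁆⁻¹ * a by simp only [commutatorElement_def]; group]
      rw [← Subgroup.sup_eq_closure] at ha
      exact (Subgroup.mem_normalizer_iff''.mp (key ha) _).mp (inv_mem (iha v hv))

end Cfsg.Agent.S0615
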