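import Cfsg.Statements.S0625
import Cfsg.Agent.Dickson.PSolvable

set_option autoImplicit false
open Cfsg

namespace Cfsg.Agent.S0625

/-- A p-separable group with p at least 5 is p-stable in the action sense. -/
theorem result {G : Type*} [Group G] [Finite G] {p : ℕ} [Fact p.Prime] (hp : 5 ≤ p) (hsep : Cfsg.IsPSolvable p G) : Cfsg.IsActionPStable p G := by
  exact Dickson.isActionPStable_of_no_section (by omega) (Dickson.no_section_of_isPSolvable hp hsep)

end Cfsg.Agent.S0625
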