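import Cfsg.Statements.S0631
import Cfsg.Agent.Components.ExtendedLayer
import Cfsg.Agent.Components.Local
import Cfsg.Agent.Components.PComponent
import Cfsg.Agent.Core.Cores

set_option autoImplicit false
open Cfsg
open scoped commutatorElement

namespace Cfsg.Agent.S0631

/-- In a p-constrained group the normalizer and the centralizer of any p-subgroup are again p-constrained. -/
theorem result {G : Type*} [Group G] [Finite G] {p : ℕ} [Fact p.Prime] (hG : Cfsg.IsPConstrained p G) (P : Subgroup G) (hP : IsPGroup p P) : Cfsg.IsPConstrained p ↥(Subgroup.normalizer (P : Set G)) ∧ Cfsg.IsPConstrained p ↥(Subgroup.centralizer (P : Set G)) := by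
  have hL := (Components.isPConstrained_iff_pLayer_eq_bot p).mp hG
  set N := Subgroup.normalizer (P : Set G) with hNdef
  have hLN : Cfsg.pLayer p N = ⊥ := (Components.pLayer_normalizer_eq_bot hL hP).1
  refine ⟨(Components.isPConstrained_iff_pLayer_eq_bot p).mpr hLN, ?_⟩
  have hCN : Subgroup.centralizer (P : Set G) ≤ N := fun x hx => Coprime.mem_normalizer_of_conj_mem fun y hy => by
      rw [← Subgroup.mem_centralizer_iff.mp hx y hy, mul_inv_cancel_right]; exact hy
  set H := (Subgroup.centralizer (P : Set G)).subgroupOf N with hHdef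
  haveI hHn : H.Normal := by
    refine ⟨fun c hc n => ?_⟩
    rw [hHdef, Subgroup.mem_subgroupOf] at hc ⊢
    rw [Subgroup.mem_centralizer_iff] at hc ⊢
    intro x hx
    have hn : (n : G) ∈ N := n.2
    have h1 : (n : G)⁻¹ * x * n ∈ P := by
      have := (Subgroup.mem_normalizer_iff.mp (inv_mem hn) x).mp hx
      rwa [inv_inv] at this
    have h2 := hc _ h1
    show x * ((n : G) * c * (n : G)⁻¹) = (n : G) * c * (n : G)⁻¹ * x
    calc x * ((n : G) * c * (n : G)⁻¹) = n * ((n : G)⁻¹ * x * n * c) * (n : G)⁻¹ := by group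
      _ = _ := by rw [h2]; group
  have key : Cfsg.pLayer p H = ⊥ := by
    rw [Components.pLayer_eq_bot_iff, Components.layer_eq_bot_iff]
    have hO := Core.pPrimeCore_eq_subgroupOf p H
    let f : (↥H ⧸ pPrimeCore p H) →* (↥N ⧸ pPrimeCore p N) :=
      QuotientGroup.map _ _ H.subtype (fun x hx => by rw [hO] at hx; exact hx)
    have hf : Function.Injective f := by
      rw [injective_iff_map_eq_one]
      intro a ha
      obtain ⟨x, rfl⟩ := QuotientGroup.mk'_surjective _ a
      rw [QuotientGroup.mk'_apply, QuotientGroup.eq_one_iff, hO]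
      exact (QuotientGroup.eq_one_iff (N := pPrimeCore p N) (x : N)).mp ha
    have hr : f.range = H.map (QuotientGroup.mk' (pPrimeCore p N)) := by
      ext y
      constructor
      · rintro ⟨a, rfl⟩
        obtain ⟨x, rfl⟩ := QuotientGroup.mk'_surjective _ a
        exact ⟨x, x.2, rfl⟩
      · rintro ⟨x, hx, rfl⟩
        exact ⟨QuotientGroup.mk' _ ⟨x, hx⟩, rfl⟩
    have hrs : f.range.IsSubnormal := by
      rw [hr]
      exact (hHn.map _ (QuotientGroup.mk'_surjective _)).isSubnormal
    intro K hK
    exact Components.layer_eq_bot_iff.mp (Components.pLayer_eq_bot_iff.mp hLN) _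
      ((Components.isComponent_map_iff hf hrs K).mpr hK)
  rw [Components.isPConstrained_iff_pLayer_eq_bot]
  have h1 := Components.map_equiv_pLayer (p := p) (Subgroup.subgroupOfEquivOfLe hCN).symm
  replace h1 := h1.trans key.le
  exact (Subgroup.map_eq_bot_iff_of_injective _ (Subgroup.subgroupOfEquivOfLe hCN).symm.injective).mp (le_bot_iff.mp h1)

end Cfsg.Agent.S0631
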