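import Cfsg.Statements.S0633
import Cfsg.Agent.Core.HallHigman.TheoremB
import Mathlib.FieldTheory.IsAlgClosed.AlgebraicClosure
import Mathlib.LinearAlgebra.Matrix.ToLin
import Mathlib.LinearAlgebra.Dimension.Free
import Mathlib.FieldTheory.Minpoly.Field
-- import your own Cfsg.Agent.* helpers here

set_option autoImplicit false
open Cfsg

namespace Cfsg.Agent.S0633

/-- Theorem B of Hall and Higman on the minimal polynomial of a p-element of order p^n in a p-solvable linear group on a nonzero vector space in characteristic p with no nontrivial normal p-subgroup: its degree is p^n, except when some p^n₀ - 1 (n₀ ≤ n) is a power of a prime q for which the Sylow q-subgroups are non-abelian, in which case the degree is at least p^(n-n₀)(p^n₀ - 1). -/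
theorem result {F : Type*} [Field F] {p : ℕ} [Fact p.Prime] [CharP F p] {V : Type*} [AddCommGroup V] [Module F V] [FiniteDimensional F V] [Nontrivial V] (H : Subgroup (V ≃ₗ[F] V)) [Finite H] (hsol : Cfsg.IsPSolvable p H) (hOp : Cfsg.pCore p H = ⊥) (x : V ≃ₗ[F] V) (hx : x ∈ H) (n : ℕ) (hn : orderOf x = p ^ n) (r : ℕ) (hr : minpoly F (x : Module.End F V) = (Polynomial.X - 1) ^ r) : r = p ^ n ∨ ∃ n₀ q m : ℕ, 1 ≤ n₀ ∧ n₀ ≤ n ∧ q.Prime ∧ 1 ≤ m ∧ p ^ n₀ - 1 = q ^ m ∧ (∀ Q : Sylow q H, ¬ IsMulCommutative Q) ∧ p ^ (n - n₀) * (p ^ n₀ - 1) ≤ r := by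
  classical
  have hxx : (x : Module.End F V) ^ (p ^ n) = 1 := by
    have h : (x ^ (p ^ n) : V ≃ₗ[F] V) = 1 := by rw [← hn, pow_orderOf_eq_one]
    refine LinearMap.ext fun v => ?_
    have h1 : ∀ k : ℕ, ((x : Module.End F V) ^ k) v = (x ^ k : V ≃ₗ[F] V) v := by
      intro k
      induction k with
      | zero => rfl
      | succ k ih => rw [pow_succ', Module.End.mul_apply, ih, pow_succ']; rfl
    rw [h1, h]; rfl
  have hr0 : ((x : Module.End F V) - 1) ^ r = 0 := by
    have h := minpoly.aeval F (x : Module.End F V)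
    rw [hr] at h
    simpa using h
  have hrle : r ≤ p ^ n := by
    have hd : minpoly F (x : Module.End F V) ∣ (Polynomial.X - 1) ^ (p ^ n) := minpoly.dvd F _ (by
      rw [sub_pow_char_pow, one_pow]; simp [hxx])
    rw [hr] at hd
    have hmon : (Polynomial.X - 1 : Polynomial F).natDegree = 1 := by
      rw [← Polynomial.C_1, Polynomial.natDegree_X_sub_C]
    have := Polynomial.natDegree_le_of_dvd hd (pow_ne_zero _ (by
      rw [← Polynomial.C_1]; exact Polynomial.X_sub_C_ne_zero 1))
    rwa [Polynomial.natDegree_pow, Polynomial.natDegree_pow, hmon, mul_one, mul_one] at this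
  rcases Nat.eq_zero_or_pos n with rfl | hnpos
  · refine Or.inl ?_
    rw [pow_zero] at hrle ⊢
    rcases Nat.eq_zero_or_pos r with h | h
    · rw [h, pow_zero] at hr0
      exact absurd hr0 one_ne_zero
    · omega
  let K := AlgebraicClosure F
  haveI : CharP K p := charP_of_injective_algebraMap (algebraMap F K).injective p
  let b := Module.finBasis F V
  let φ : Module.End F V →* Module.End K (Fin (Module.finrank F V) → K) :=
    ((Matrix.toLinAlgEquiv' (R := K)).toMonoidHom.comp
      ((algebraMap F K).mapMatrix.toMonoidHom.comp (LinearMap.toMatrixAlgEquiv b).toMonoidHom))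
  have hφ : Function.Injective φ := by
    intro A B hAB
    simp only [φ, MonoidHom.comp_apply] at hAB
    exact (LinearMap.toMatrixAlgEquiv b).injective (Matrix.map_injective (algebraMap F K).injective
      ((Matrix.toLinAlgEquiv' (R := K)).injective hAB))
  let coeHom : H →* Module.End F V :=
    { toFun := fun h => ((h : V ≃ₗ[F] V) : Module.End F V)
      map_one' := rfl
      map_mul' := fun _ _ => rfl }
  have hk : ((φ.comp coeHom) ⟨x, hx⟩ - 1) ^ r = 0 := by
    have h := congrArg (fun A => (Matrix.toLinAlgEquiv' (R := K)) ((algebraMap F K).mapMatrix (LinearMap.toMatrixAlgEquiv b A))) hr0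
    simp only [map_pow, map_sub, map_one, map_zero] at h
    exact h
  rcases Cfsg.Agent.Core.HH.theoremB (φ.comp coeHom) (hφ.comp fun a c h => Subtype.ext
    (LinearEquiv.toLinearMap_injective h)) hsol hOp ⟨x, hx⟩ hnpos
    (by rw [← hn, ← Subgroup.orderOf_coe]) r hk with h | ⟨a, m, q, ha, hq, hm, hpm, hab, hle⟩
  · exact Or.inl (le_antisymm hrle h)
  · refine Or.inr ⟨n - a, q, m, by omega, by omega, hq, hm, hpm, hab, ?_⟩
    rwa [show n - (n - a) = a by omega]

end Cfsg.Agent.S0633
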