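import Cfsg.Statements.S0635
import Cfsg.Agent.Core.PLength
import Cfsg.Agent.Core.PiSeparable

set_option autoImplicit false
open Cfsg

namespace Cfsg.Agent.S0635

universe v

theorem aux : ∀ (c : ℕ) (G : Type v) [Group G] [Finite G] (p : ℕ) [Fact p.Prime], Cfsg.IsPSolvable p G →
    ∀ S : Sylow p G, Group.nilpotencyClass ↥(S : Subgroup G) ≤ c → Cfsg.PLengthLE p c G := by
  intro c
  induction c with
  | zero =>
    intro G _ _ p hpf _ S hc
    haveI : Group.IsNilpotent ↥(S : Subgroup G) := S.isPGroup'.isNilpotent
    haveI : Subsingleton ↥(S : Subgroup G) := Group.nilpotencyClass_zero_iff_subsingleton.mp (Nat.le_zero.mp hc)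
    rw [Core.pLengthLE_zero_iff]
    refine Nat.Coprime.symm ((Fact.out : p.Prime).coprime_iff_not_dvd.mpr fun h => ?_)
    obtain ⟨g, hg⟩ := exists_prime_orderOf_dvd_card' p h
    obtain ⟨P, hP⟩ := IsPGroup.exists_le_sylow (IsPGroup.of_card (G := Subgroup.zpowers g) (n := 1)
      (by rw [Nat.card_zpowers, hg, pow_one]))
    have h1 := Subgroup.card_le_of_le hP
    rw [Nat.card_zpowers, hg, P.card_eq_multiplicity, ← S.card_eq_multiplicity, Nat.card_unique] at h1
    exact absurd h1 (not_le.mpr (Fact.out : p.Prime).one_lt)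
  | succ c ih =>
    intro G _ _ p hpf hsol S hc
    haveI : Group.IsNilpotent ↥(S : Subgroup G) := S.isPGroup'.isNilpotent
    rw [Core.pLengthLE_succ_iff]
    let π := QuotientGroup.mk' (pPrimePCore p G)
    have hπ : Function.Surjective π := QuotientGroup.mk'_surjective _
    let π₀ := QuotientGroup.mk' (pPrimeCore p G)
    have hπ₀ : Function.Surjective π₀ := QuotientGroup.mk'_surjective _
    -- the centre of `S` lies in `O_{p',p}`
    have hz : ∀ z : ↥(S : Subgroup G), z ∈ Subgroup.center ↥(S : Subgroup G) → (z : G) ∈ pPrimePCore p G := by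
      intro z hz
      show π₀ z ∈ pCore p (G ⧸ pPrimeCore p G)
      have hc := Core.centralizer_piCore_le (π := {p})
        (Core.isPiSeparable_of_isPSolvable (Core.isPSolvable_quotient hsol (pPrimeCore p G)))
        (by rw [← Core.pPrimeCore_eq_piCore]; exact Core.pPrimeCore_quotient_pPrimeCore p G)
      rw [← Core.pCore_eq_piCore] at hc
      refine hc (Subgroup.mem_centralizer_iff.mpr fun q hq => ?_)
      have h1 := Core.pCore_le_sylow (S.mapSurjective hπ₀) hq
      rw [Sylow.coe_mapSurjective] at h1
      obtain ⟨s, hs, rfl⟩ := h1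
      rw [← map_mul, ← map_mul]
      exact congrArg π₀ (congrArg Subtype.val (Subgroup.mem_center_iff.mp hz ⟨s, hs⟩))
    refine ih _ p (Core.isPSolvable_quotient hsol _) (S.mapSurjective hπ) ?_
    rw [Sylow.coe_mapSurjective]
    -- the quotient by the centre maps onto
    let f := π.subgroupMap (S : Subgroup G)
    have hker : Subgroup.center ↥(S : Subgroup G) ≤ f.ker := fun z hz' => by
      rw [MonoidHom.mem_ker]
      exact Subtype.ext ((QuotientGroup.eq_one_iff (z : G)).mpr (hz z hz'))
    let g := QuotientGroup.lift (Subgroup.center ↥(S : Subgroup G)) f hker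
    have hg : Function.Surjective g := fun y => by
      obtain ⟨x, hx⟩ := π.subgroupMap_surjective (S : Subgroup G) y
      exact ⟨QuotientGroup.mk x, hx⟩
    refine (Group.nilpotencyClass_le_of_surjective g hg).trans ?_
    rw [Group.nilpotencyClass_quotient_center]
    omega

/-- The p-length of a p-soluble group is at most the nilpotency class of its Sylow p-subgroups. -/
theorem result {G : Type*} [Group G] [Finite G] {p : ℕ} [Fact p.Prime] (hsol : Cfsg.IsPSolvable p G) (S : Sylow p G) : Cfsg.PLengthLE p (Group.nilpotencyClass ↥(S : Subgroup G)) G := by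
  exact aux _ G p hsol S le_rfl

end Cfsg.Agent.S0635
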