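import Cfsg.Statements.S0637
import Cfsg.Agent.Transfer.PGroupNormal
import Cfsg.Agent.FGS3.PolySeq
import Cfsg.Agent.TwoGroups.OddRankTwo

set_option autoImplicit false
open Cfsg

namespace Cfsg.Agent.S0637

open Subgroup
open scoped commutatorElement

universe v

variable {p : ℕ} [hpf : Fact p.Prime]

/-- Quotient by a central subgroup of order `p`. -/
theorem step {R : Type v} [Group R] [Finite R] (hp : 3 < p) (hR : IsPGroup p R)
    (hO : Nat.card ↥(Cfsg.omegaOne p (⊤ : Subgroup R)) ≤ p ^ 2) (Z : Subgroup R) [Z.Normal]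
    (hZc : Z ≤ center R) (hZ : Nat.card Z = p) :
    Nat.card ↥(Cfsg.omegaOne p (⊤ : Subgroup (R ⧸ Z))) ≤ p ^ 2 := by
  classical
  have hpp : p.Prime := hpf.out
  have hp2 : p ≠ 2 := by omega
  set π := QuotientGroup.mk' Z
  have hπ : Function.Surjective π := QuotientGroup.mk'_surjective Z
  have hR' : IsPGroup p (R ⧸ Z) := hR.to_quotient Z
  by_contra hbig
  push Not at hbig
  have hnc : ¬ IsCyclic (R ⧸ Z) := by
    intro hc
    letI := IsCyclic.commGroup (α := R ⧸ Z)
    have hsub : Cfsg.omegaOne p (⊤ : Subgroup (R ⧸ Z)) ≤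
        (powMonoidHom p : (R ⧸ Z) →* (R ⧸ Z)).ker := by
      rw [Cfsg.omegaOne, Subgroup.closure_le]
      exact fun x hx => hx.2
    have h1 := IsCyclic.card_powMonoidHom_ker (R ⧸ Z) p
    have h2 := Subgroup.card_le_of_le hsub
    have h3 : Nat.gcd (Nat.card (R ⧸ Z)) p ≤ p := Nat.gcd_le_right _ hpp.pos
    have h4 : p ≤ p ^ 2 := Nat.le_self_pow two_ne_zero _
    omega
  obtain ⟨E, hEn, hE, hEc⟩ := Transfer.PNormal.exists_normal_ea_sq hp2 hR' hnc
  haveI := hEn
  obtain ⟨x, hxp, hxE⟩ : ∃ x : R ⧸ Z, x ^ p = 1 ∧ x ∉ E := by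
    by_contra hcon
    push Not at hcon
    have h : Cfsg.omegaOne p (⊤ : Subgroup (R ⧸ Z)) ≤ E :=
      (Subgroup.closure_le E).mpr fun y hy => hcon y hy.2
    have := Subgroup.card_le_of_le h
    omega
  set A := E ⊔ zpowers x
  have hxc : Nat.card (zpowers x) = p := by
    rw [Nat.card_zpowers, orderOf_eq_prime hxp fun e => hxE (e ▸ one_mem E)]
  have hinf : E ⊓ zpowers x = ⊥ := by
    rcases (Nat.dvd_prime hpp).mp (hxc ▸ Subgroup.card_dvd_of_le (inf_le_right : E ⊓ zpowers x ≤ _)) with h | h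
    · exact Subgroup.eq_bot_of_card_eq _ h
    · exact absurd (((Subgroup.eq_of_le_of_card_ge inf_le_right (by rw [h, hxc])).ge.trans inf_le_left)
        (mem_zpowers x)) hxE
  have hnE : zpowers x ≤ normalizer (E : Set (R ⧸ Z)) := by rw [Subgroup.normalizer_eq_top]; exact le_top
  have hAc : Nat.card A = p ^ 3 := by rw [Coprime.card_sup hnE hinf, hEc, hxc, ← pow_succ]
  -- class two in the quotient
  have hA2 : ∀ a ∈ A, ∀ b ∈ A, ∀ c ∈ A, ⁅⁅a, b⁆, c⁆ = 1 := by
    intro a ha b hb c hc
    have hAp : IsPGroup p A := hR'.to_subgroup A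
    haveI : Nontrivial A := Finite.one_lt_card_iff_nontrivial.mp (by rw [hAc]; exact Nat.one_lt_pow (by norm_num) hpp.one_lt)
    haveI : Nontrivial (center A) := hAp.center_nontrivial
    obtain ⟨k, hk, hkc⟩ := (Nat.dvd_prime_pow hpp).mp (hAc ▸ Subgroup.card_subgroup_dvd_card (center A))
    have hk0 : k ≠ 0 := by
      rintro rfl
      exact absurd (hkc.trans (pow_zero p)) (Finite.one_lt_card (α := center A)).ne'
    have hab : ∀ u v : A ⧸ center A, u * v = v * u := by
      have hq : Nat.card (A ⧸ center A) * p ^ k = p ^ 3 := by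
        rw [← hkc, ← Subgroup.card_eq_card_quotient_mul_card_subgroup, hAc]
      obtain ⟨j, hj, hjc⟩ := (Nat.dvd_prime_pow hpp).mp (Dvd.intro _ hq)
      rw [hjc, ← pow_add] at hq
      have := Nat.pow_right_injective hpp.two_le hq
      interval_cases j
      · intro u v
        haveI := (Nat.card_eq_one_iff_unique.mp (hjc.trans (pow_zero p))).1
        exact Subsingleton.elim _ _
      · haveI := isCyclic_of_prime_card (hjc.trans (pow_one p))
        letI := IsCyclic.commGroup (α := A ⧸ center A)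
        exact fun u v => mul_comm u v
      · exact IsPGroup.commutative_of_card_eq_prime_sq hjc
      · omega
    have hcen : ⁅(⟨a, ha⟩ : A), ⟨b, hb⟩⁆ ∈ center A := by
      rw [← QuotientGroup.eq_one_iff]
      show QuotientGroup.mk' (center A) _ = 1
      rw [map_commutatorElement, commutatorElement_eq_one_iff_mul_comm]
      exact hab _ _
    rw [commutatorElement_eq_one_iff_mul_comm]
    exact congrArg Subtype.val (Subgroup.mem_center_iff.mp hcen ⟨c, hc⟩).symm
  -- the preimage
  set X := A.comap π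
  have hXc : Nat.card X = p ^ 4 := by
    have h := Subgroup.card_mul_index (π.comp X.subtype).ker
    rw [Subgroup.index_ker, MonoidHom.range_comp, Subgroup.range_subtype,
      Subgroup.map_comap_eq_self_of_surjective hπ, hAc] at h
    have hk : Nat.card (π.comp X.subtype).ker = Nat.card Z := Nat.card_congr
      { toFun := fun u => ⟨u.1.1, (QuotientGroup.eq_one_iff _).mp u.2⟩
        invFun := fun z => ⟨⟨z.1, by
          show π z.1 ∈ A
          rw [show π z.1 = 1 from (QuotientGroup.eq_one_iff _).mpr z.2]; exact one_mem _⟩,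
          (QuotientGroup.eq_one_iff _).mpr z.2⟩
        left_inv := fun u => rfl
        right_inv := fun u => rfl }
    rw [← h, hk, hZ]; ring
  have hXp : ∀ u : X, (u : R) ^ p ∈ Z := fun u => by
    rw [← QuotientGroup.eq_one_iff]
    show π ((u : R) ^ p) = 1
    rw [map_pow]
    obtain ⟨e, he, t, ht, het⟩ := Coprime.exists_mul_of_mem_sup hnE (show π u ∈ E ⊔ zpowers x from u.2)
    have hexp : ∀ s ∈ A, s ^ p = 1 := by
      intro s hs
      obtain ⟨e, he, t, ht, rfl⟩ := Coprime.exists_mul_of_mem_sup hnE hs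
      have ht' : t ^ p = 1 := by
        obtain ⟨k, rfl⟩ := Subgroup.mem_zpowers_iff.mp ht
        rw [← zpow_natCast, ← zpow_mul, mul_comm, zpow_mul, zpow_natCast, hxp, one_zpow]
      have hcE : ⁅t, e⁆ ∈ E := by
        rw [commutatorElement_def]
        exact mul_mem (hEn.conj_mem e he t) (inv_mem he)
      have hca : Commute ⁅t, e⁆ e := congrArg Subtype.val (hE.1.is_comm.comm (⟨_, hcE⟩ : E) ⟨e, he⟩)
      have hcb : Commute ⁅t, e⁆ t := commutatorElement_eq_one_iff_mul_comm.mp
        (hA2 t (mem_sup_right ht) e (mem_sup_left he) t (mem_sup_right ht))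
      rw [TwoGroups.OddRankTwo.mul_pow_prime hp2 hca hcb (hE.2 _ hcE), hE.2 e he, ht', one_mul]
    exact hexp _ u.2
  -- commutators
  have hthree : ∀ u v w : X, ⁅⁅(u : R), (v : R)⁆, (w : R)⁆ ∈ Z := fun u v w => by
    rw [← QuotientGroup.eq_one_iff]
    show π ⁅⁅(u : R), (v : R)⁆, (w : R)⁆ = 1
    rw [map_commutatorElement, map_commutatorElement]
    exact hA2 _ u.2 _ v.2 _ w.2
  have hZp : ∀ z ∈ Z, z ^ p = 1 := fun z hz => by
    have h : (⟨z, hz⟩ : Z) ^ p = 1 := hZ ▸ pow_card_eq_one'
    exact congrArg Subtype.val h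
  have hlcs : (⊤ : Subgroup X).lowerCentralSeries (p - 1) = ⊥ := by
    refine eq_bot_iff.mpr ((Subgroup.lowerCentralSeries_antitone _ (show 3 ≤ p - 1 by omega)).trans ?_)
    have h2 : (⊤ : Subgroup X).lowerCentralSeries 2 ≤ center X := by
      have h1 : (⊤ : Subgroup X).lowerCentralSeries 1 ≤ (Subgroup.upperCentralSeries X 2) := by
        rw [Subgroup.top_lowerCentralSeries_one, _root_.commutator_def, Subgroup.commutator_le]
        intro u _ v _
        rw [Subgroup.mem_upperCentralSeries_succ_iff]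
        intro w
        rw [Subgroup.upperCentralSeries_one, Subgroup.mem_center_iff]
        intro q
        apply Subtype.ext
        exact Subgroup.mem_center_iff.mp (hZc (hthree u v w)) q
      rw [Subgroup.lowerCentralSeries_succ, Subgroup.commutator_le]
      intro u hu w _
      rw [← Subgroup.upperCentralSeries_one]
      exact Subgroup.mem_upperCentralSeries_succ_iff.mp (h1 hu) w
    rw [Subgroup.lowerCentralSeries_succ, Subgroup.commutator_le]
    intro u hu w _
    rw [Subgroup.mem_bot, commutatorElement_eq_one_iff_mul_comm]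
    exact (Subgroup.mem_center_iff.mp (h2 hu) w).symm
  have hmul : ∀ a b : R, ⁅b, a⁆ ∈ Z → (a * b) ^ p = a ^ p * b ^ p := fun a b h =>
    TwoGroups.OddRankTwo.mul_pow_prime hp2 (Subgroup.mem_center_iff.mp (hZc h) a).symm
      (Subgroup.mem_center_iff.mp (hZc h) b).symm (hZp _ h)
  have hcomm : ∀ u v : X, ⁅(u : R), (v : R)⁆ ^ p = 1 := fun u v => by
    set c := ⁅(u : R), (v : R)⁆
    have h1 : c * (v : R) = (u : R) * (v : R) * (u : R)⁻¹ := by
      show ⁅(u : R), (v : R)⁆ * (v : R) = _
      rw [commutatorElement_def]; group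
    have h2 : ((u : R) * v * (u : R)⁻¹) ^ p = (v : R) ^ p := by
      rw [conj_pow]
      exact mul_inv_eq_iff_eq_mul.mpr (Subgroup.mem_center_iff.mp (hZc (hXp v)) (u : R))
    have h3 : ⁅(v : R), c⁆ ∈ Z := by
      rw [← commutatorElement_inv]; exact inv_mem (hthree u v v)
    rw [← h1, hmul _ _ h3] at h2
    exact mul_eq_right.mp h2
  have hder : ∀ g ∈ commutator X, g ^ p = 1 := by
    intro g hg
    have key : (g : R) ^ p = 1 ∧ ∀ w : X, ⁅(g : R), (w : R)⁆ ∈ Z := by
      rw [commutator_eq_closure] at hg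
      induction hg using Subgroup.closure_induction with
      | mem z hz =>
        obtain ⟨u, v, rfl⟩ := hz
        exact ⟨hcomm u v, hthree u v⟩
      | one =>
        refine ⟨one_pow _, fun w => ?_⟩
        show ⁅(1 : R), (w : R)⁆ ∈ Z
        rw [commutatorElement_one_left]; exact one_mem Z
      | mul a b _ _ ha hb =>
        refine ⟨?_, fun w => ?_⟩
        · show ((a : R) * b) ^ p = 1
          rw [hmul _ _ (hb.2 a), ha.1, hb.1, one_mul]
        · show ⁅(a : R) * b, (w : R)⁆ ∈ Z
          rw [commutatorElement_mul_left_eq_conj_mul]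
          exact mul_mem ((inferInstance : Z.Normal).conj_mem _ (hb.2 w) _) (ha.2 w)
      | inv a _ ha =>
        refine ⟨?_, fun w => ?_⟩
        · show ((a : R)⁻¹) ^ p = 1
          rw [inv_pow, ha.1, inv_one]
        · show ⁅(a : R)⁻¹, (w : R)⁆ ∈ Z
          rw [show ⁅(a : R)⁻¹, (w : R)⁆ = (a : R)⁻¹ * ⁅(a : R), (w : R)⁆⁻¹ * (a : R)⁻¹⁻¹ by
            simp only [commutatorElement_def]; group]
          exact (inferInstance : Z.Normal).conj_mem _ (inv_mem (ha.2 w)) _
    exact Subtype.ext key.1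
  have hhom : ∀ u v : X, ((u * v : X) : R) ^ p = (u : R) ^ p * (v : R) ^ p := fun u v => by
    have h := FGS3.PolySeq.mul_pow_prime_mem (G := X) hpp hlcs (L := ⊥)
      (fun g hg => Subgroup.mem_bot.mpr (hder g hg)) u v
    rw [Subgroup.mem_bot, mul_assoc, inv_mul_eq_one, eq_inv_mul_iff_mul_eq] at h
    exact congrArg Subtype.val h.symm
  let φ : X →* Z :=
    { toFun := fun u => ⟨(u : R) ^ p, hXp u⟩
      map_one' := Subtype.ext (one_pow p)
      map_mul' := fun u v => Subtype.ext (hhom u v) }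
  have hker : φ.ker.map X.subtype ≤ Cfsg.omegaOne p (⊤ : Subgroup R) := by
    rintro _ ⟨u, hu, rfl⟩
    exact Subgroup.subset_closure ⟨trivial, congrArg Subtype.val (MonoidHom.mem_ker.mp hu)⟩
  have h1 := Subgroup.card_le_of_le hker
  rw [Subgroup.card_map_of_injective X.subtype_injective] at h1
  have h2 := Subgroup.card_mul_index φ.ker
  rw [hXc, Subgroup.index_ker] at h2
  have h3 : Nat.card φ.range ≤ p := hZ ▸ Subgroup.card_le_card_group φ.range
  have h4 : p ^ 4 ≤ p ^ 2 * p := by rw [← h2]; exact Nat.mul_le_mul (h1.trans hO) h3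
  rw [← pow_succ] at h4
  exact absurd ((Nat.pow_le_pow_iff_right hpp.one_lt).mp h4) (by norm_num)

theorem omega_surj_le {A B : Type v} [Group A] [Finite A] [Group B] [Finite B] (e : A ≃* B) :
    Nat.card ↥(Cfsg.omegaOne p (⊤ : Subgroup B)) ≤ Nat.card ↥(Cfsg.omegaOne p (⊤ : Subgroup A)) := by
  rw [← Subgroup.card_map_of_injective (f := e.toMonoidHom) e.injective (K := Cfsg.omegaOne p (⊤ : Subgroup A))]
  refine Subgroup.card_le_of_le ((Subgroup.closure_le _).mpr ?_)
  rintro b ⟨-, hb⟩
  exact ⟨e.symm b, Subgroup.subset_closure ⟨trivial, by rw [← map_pow, hb, map_one]⟩, e.apply_symm_apply b⟩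

theorem aux (hp : 3 < p) : ∀ (n : ℕ) (R : Type v) [Group R] [Finite R], IsPGroup p R →
    Nat.card ↥(Cfsg.omegaOne p (⊤ : Subgroup R)) ≤ p ^ 2 → ∀ (T : Subgroup R) [T.Normal], Nat.card T = n →
    Nat.card ↥(Cfsg.omegaOne p (⊤ : Subgroup (R ⧸ T))) ≤ p ^ 2 := by
  intro n
  induction n using Nat.strong_induction_on with
  | _ n ih =>
  intro R _ _ hR hO T hT hn
  rcases eq_or_ne T ⊥ with rfl | hne
  · exact (omega_surj_le QuotientGroup.quotientBot.symm).trans hO
  haveI : Nontrivial (T ⊓ center R : Subgroup R) := by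
    rw [Subgroup.nontrivial_iff_ne_bot]
    haveI := hT
    haveI := (Subgroup.nontrivial_iff_ne_bot T).mpr hne
    have hd : p ∣ Nat.card T := by
      obtain ⟨k, hk⟩ := IsPGroup.iff_card.mp (hR.to_subgroup T)
      rw [hk]
      refine dvd_pow_self p fun e => ?_
      rw [e, pow_zero] at hk
      exact absurd hk (Finite.one_lt_card (α := T)).ne'
    obtain ⟨b, hb, hb1⟩ := IsPGroup.exists_fixed_point_of_prime_dvd_card_of_fixed_point
      (hR.of_equiv (ConjAct.toConjAct : R ≃* ConjAct R)) T hd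
      (a := 1) (fun g => smul_one g)
    intro e
    refine hb1 (Subtype.ext (Eq.symm (Subgroup.mem_bot.mp (e ▸ (⟨b.2, ?_⟩ : (b : R) ∈ T ⊓ center R)))))
    refine Subgroup.mem_center_iff.mpr fun g => ?_
    have h := congrArg Subtype.val (hb (ConjAct.toConjAct g))
    change g * (b : R) * g⁻¹ = b at h
    exact mul_inv_eq_iff_eq_mul.mp h
  obtain ⟨z, hz⟩ := exists_prime_orderOf_dvd_card' (G := (T ⊓ center R : Subgroup R)) p (by
    obtain ⟨k, hk⟩ := IsPGroup.iff_card.mp (hR.to_subgroup (T ⊓ center R))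
    rw [hk]
    refine dvd_pow_self p fun e => ?_
    rw [e, pow_zero] at hk
    exact absurd hk (Finite.one_lt_card (α := (T ⊓ center R : Subgroup R))).ne')
  set Z := zpowers (z : R)
  have hZc : Z ≤ center R := zpowers_le.mpr z.2.2
  haveI : Z.Normal := ⟨fun a ha g => by
    rw [Subgroup.mem_center_iff.mp (hZc ha) g, mul_inv_cancel_right]; exact ha⟩
  have hZ : Nat.card Z = p := by rw [Nat.card_zpowers, Subgroup.orderOf_coe, hz]
  have hZT : Z ≤ T := zpowers_le.mpr z.2.1
  have h1 := step hp hR hO Z hZc hZ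
  haveI := hT
  haveI : (T.map (QuotientGroup.mk' Z)).Normal := hT.map _ (QuotientGroup.mk'_surjective Z)
  have hlt : Nat.card (T.map (QuotientGroup.mk' Z)) < n := by
    have e := Subgroup.card_mul_index ((QuotientGroup.mk' Z).comp T.subtype).ker
    rw [Subgroup.index_ker, MonoidHom.range_comp, Subgroup.range_subtype, hn] at e
    have hk : 1 < Nat.card ((QuotientGroup.mk' Z).comp T.subtype).ker := by
      rw [Finite.one_lt_card_iff_nontrivial]
      refine ⟨⟨⟨⟨z, z.2.1⟩, (QuotientGroup.eq_one_iff _).mpr (mem_zpowers _)⟩, 1, fun e => ?_⟩⟩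
      have e' : (z : R) = 1 := congrArg (fun u => ((u.1 : T) : R)) e
      rw [← Subgroup.orderOf_coe, e', orderOf_one] at hz
      exact hpf.out.one_lt.ne hz
    rw [← e]
    exact lt_mul_of_one_lt_left Nat.card_pos hk
  exact (omega_surj_le (QuotientGroup.quotientQuotientEquivQuotient Z T hZT)).trans
    (ih _ hlt (R ⧸ Z) (hR.to_quotient Z) h1 _ rfl)

/-- For p greater than 3, the bound p² on the order of the subgroup generated by the elements of order dividing p passes from a p-group to all its quotients. -/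
theorem result {R : Type*} [Group R] [Finite R] {p : ℕ} [Fact p.Prime] (hp : 3 < p) (hR : IsPGroup p R) (hO : Nat.card ↥(Cfsg.omegaOne p (⊤ : Subgroup R)) ≤ p ^ 2) (T : Subgroup R) [T.Normal] : Nat.card ↥(Cfsg.omegaOne p (⊤ : Subgroup (R ⧸ T))) ≤ p ^ 2 := by
  exact aux hp _ R hR hO T rfl

end Cfsg.Agent.S0637
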