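import Cfsg.Statements.S0640
import Cfsg.Agent.OddLocal.RankTwo.SmallAut

set_option autoImplicit false
open Cfsg

namespace Cfsg.Agent.S0640

/-- For odd p, a prime q ≠ p dividing the order of the automorphism group of a p-group of rank at most 2 divides p² - 1 and is less than p. -/
theorem result {R : Type*} [Group R] [Finite R] {p : ℕ} [Fact p.Prime] (hp : p ≠ 2) (hR : IsPGroup p R) (hrk : Cfsg.PRankLE p 2 R) (q : ℕ) (hq : q.Prime) (hqp : q ≠ p) (hdvd : q ∣ Nat.card (MulAut R)) : q ∣ p ^ 2 - 1 ∧ q < p := by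
  haveI := Fact.mk hq
  obtain ⟨a, ha⟩ := exists_prime_orderOf_dvd_card' q hdvd
  have hp2 : 3 ≤ p := by
    have := (Fact.out : p.Prime).two_le
    omega
  have hsq : p ^ 2 - 1 = (p + 1) * (p - 1) := by rw [← one_pow 2, Nat.sq_sub_sq]; simp
  by_cases hq2 : q = 2
  · subst hq2
    refine ⟨?_, by omega⟩
    have := Nat.odd_iff.mp ((Fact.out : p.Prime).odd_of_ne_two hp)
    rw [hsq]
    exact Dvd.dvd.mul_left (by omega) _
  have hs := OddLocal.RankTwo.oddAutSmall_of_rankLE_two hp hR hrk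
  refine ⟨?_, ha ▸ hs.lt hp (ha ▸ hq) (ha ▸ hq2) (ha ▸ hqp)⟩
  rw [hsq]
  rcases hs.2 a (ha ▸ hq) (ha ▸ hq2) (ha ▸ hqp) with h | h
  · exact Dvd.dvd.mul_left (ha ▸ (dvd_mul_left _ 2).trans h) _
  · exact Dvd.dvd.mul_right (ha ▸ (dvd_mul_left _ 2).trans h) _

end Cfsg.Agent.S0640
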