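import Cfsg.Statements.S0641


set_option autoImplicit false
open Cfsg
open scoped commutatorElement

namespace Cfsg.Agent.S0641

/-- Regularity of a p-group passes to quotient groups. -/
theorem result {G : Type*} [Group G] {p : ℕ} [Fact p.Prime] (hG : Cfsg.IsRegularPGroup p G) (N : Subgroup G) [N.Normal] : Cfsg.IsRegularPGroup p (G ⧸ N) := by
  refine ⟨hG.1.to_quotient N, fun a b n => ?_⟩
  obtain ⟨a, rfl⟩ := QuotientGroup.mk'_surjective N a
  obtain ⟨b, rfl⟩ := QuotientGroup.mk'_surjective N b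
  obtain ⟨c, hc, he⟩ := hG.2 a b n
  refine ⟨QuotientGroup.mk' N c, ?_, by rw [← map_mul, ← map_pow, he, map_mul, map_mul, map_pow, map_pow]⟩
  have h1 : (Subgroup.closure ({a, b} : Set G)).map (QuotientGroup.mk' N) =
      Subgroup.closure ({QuotientGroup.mk' N a, QuotientGroup.mk' N b} : Set (G ⧸ N)) := by
    rw [MonoidHom.map_closure, Set.image_pair]
  have h2 : ∀ H : Subgroup G, (powerClosure p n H).map (QuotientGroup.mk' N) ≤
      powerClosure p n (H.map (QuotientGroup.mk' N)) := by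
    intro H
    rw [powerClosure, MonoidHom.map_closure]
    apply Subgroup.closure_mono
    rintro _ ⟨y, ⟨x, hx, rfl⟩, rfl⟩
    exact ⟨QuotientGroup.mk' N x, ⟨x, hx, rfl⟩, map_pow _ _ _⟩
  have h3 := h2 _ (Subgroup.mem_map_of_mem _ hc)
  rwa [Subgroup.map_commutator, h1] at h3

end Cfsg.Agent.S0641
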