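import Cfsg.Statements.S0642
import Cfsg.Agent.FGS3.Regular
import Cfsg.Agent.Transfer.Basic
-- import your own Cfsg.Agent.* helpers here

set_option autoImplicit false
open Cfsg

namespace Cfsg.Agent.S0642

/-- Among finite 2-groups the regular ones are exactly the abelian ones. -/
theorem result {G : Type*} [Group G] [Finite G] (hG : IsPGroup 2 G) : Cfsg.IsRegularPGroup 2 G ↔ ∀ a b : G, a * b = b * a := by
  haveI := Fact.mk Nat.prime_two
  constructor
  · intro hR a b
    set D := ⁅Subgroup.closure ({a, b} : Set G), Subgroup.closure ({a, b} : Set G)⁆ with hD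
    have hR1 : Cfsg.Agent.FGS3.Regular.RegAt 2 1 G := fun x y => hR.2 x y 1
    have key : ∀ x ∈ Subgroup.closure ({a, b} : Set G), ∀ y ∈ Subgroup.closure ({a, b} : Set G),
        y⁻¹ * x * y * x⁻¹ ∈ Cfsg.powerClosure 2 1 D := by
      intro x hx y hy
      obtain ⟨c, hc, he⟩ := hR1 y x
      have hle : Subgroup.closure ({y, x} : Set G) ≤ Subgroup.closure ({a, b} : Set G) :=
        (Subgroup.closure_le _).2 (Set.insert_subset hy (Set.singleton_subset_iff.2 hx))
      have hc' := Cfsg.Agent.FGS3.Regular.powerClosure_mono (Subgroup.commutator_mono hle hle) hc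
      rw [← hD] at hc'
      have hn : Subgroup.closure ({a, b} : Set G) ≤
          Subgroup.normalizer (Cfsg.powerClosure 2 1 D : Set G) := fun g hg => by
        rw [Cfsg.Agent.Transfer.mem_normalizer_iff_map_conj, Cfsg.Agent.FGS3.Regular.map_powerClosure]
        congr 1
        rw [hD, Subgroup.map_commutator, (Cfsg.Agent.Transfer.mem_normalizer_iff_map_conj).1
          (Subgroup.le_normalizer hg)]
      have h3 : y⁻¹ * x * y * x⁻¹ = (x ^ 2) * c * (x ^ 2)⁻¹ := by
        rw [pow_one] at he
        have h4 : y * x * (y * x) = y * y * (x * x) * c := by rw [← pow_two, ← pow_two, ← pow_two, he]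
        have h5 : x * y * x = y * (x * x) * c := by
          apply mul_left_cancel (a := y)
          simpa [mul_assoc] using h4
        calc y⁻¹ * x * y * x⁻¹ = y⁻¹ * (x * y * x) * (x * x)⁻¹ := by group
          _ = _ := by rw [h5, pow_two x]; group
      rw [h3]
      exact (Subgroup.mem_normalizer_iff.1 (hn (pow_mem hx 2)) c).1 hc'
    have hle : D ≤ Cfsg.powerClosure 2 1 D := by
      conv_lhs => rw [hD]
      rw [Subgroup.commutator_le]
      intro x hx y hy
      have := key y hy x⁻¹ (inv_mem hx)
      rwa [inv_inv] at this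
    have hDp := hR.1.to_subgroup D
    have hbot : D = ⊥ := by
      by_contra hne
      haveI : Nontrivial D := (Subgroup.nontrivial_iff_ne_bot D).2 hne
      have h2 : (⊤ : Subgroup D) ≤ frattini D := fun x _ => by
        obtain ⟨y, hy, e⟩ := Cfsg.Agent.FGS3.Regular.mem_powerClosure hR.1 hR1 (hle x.2)
        rw [show x = (⟨y, hy⟩ : D) ^ 2 from Subtype.ext (by rw [Subgroup.coe_pow]; simpa using e)]
        exact Cfsg.Agent.FGS3.pow_mem_frattini hDp _
      have h3 : (⊥ : Subgroup D) = ⊤ :=
        frattini_nongenerating (by rw [bot_sup_eq]; exact top_le_iff.1 h2)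
      exact bot_ne_top h3
    rw [← commutatorElement_eq_one_iff_mul_comm, ← Subgroup.mem_bot, ← hbot]
    exact Subgroup.commutator_mem_commutator (Subgroup.subset_closure (by simp))
      (Subgroup.subset_closure (by simp))
  · intro h
    exact ⟨hG, fun a b n => ⟨1, one_mem _, by
      rw [(show Commute a b from h a b).mul_pow, mul_one]⟩⟩

end Cfsg.Agent.S0642
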