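import Cfsg.Statements.S0657
import Cfsg.Agent.Dickson.Stability

set_option autoImplicit false
open Cfsg

namespace Cfsg.Agent.S0657

/-- For odd p, a group that fails to be p-stable modulo its largest normal subgroup of order prime to p, and whose upper p-series does not stop there, has a section isomorphic to SL(2, p). -/
theorem result {G : Type*} [Group G] [Finite G] {p : ℕ} [Fact p.Prime] (hp : p ≠ 2) (hO : Cfsg.pPrimeCore p G < Cfsg.pPrimePCore p G) (hns : ¬ Cfsg.IsPStable p (G ⧸ Cfsg.pPrimeCore p G)) : ∃ (K L : Subgroup G) (hL : (L.subgroupOf K).Normal), K ≤ ⊤ ∧ Nonempty ((K ⧸ L.subgroupOf K) ≃* Matrix.SpecialLinearGroup (Fin 2) (ZMod p)) := by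
  classical
  set N : Subgroup G := Cfsg.pPrimeCore p G
  have hodd : Odd p := (Fact.out : p.Prime).odd_of_ne_two hp
  have hcore : Cfsg.pCore p (G ⧸ Cfsg.pPrimeCore p G) ≠ ⊥ := by
    intro e
    apply ne_of_lt hO
    rw [Cfsg.pPrimePCore, e, MonoidHom.comap_bot, QuotientGroup.ker_mk']
  simp only [Cfsg.IsPStable, not_and, not_forall] at hns
  obtain ⟨A, P, hA, hP, hAP, -, hn, hq, hnle⟩ := hns hodd hcore
  rw [Core.pPrimeCore_quotient_pPrimeCore, bot_sup_eq] at hn
  obtain ⟨q, ⟨a, haA, rfl⟩, hqn⟩ := SetLike.not_le_iff_exists.mp hnle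
  rw [SetLike.mem_coe, Subgroup.mem_subgroupOf] at haA
  have hsec := Dickson.section_of_quadratic hp hP le_rfl
    (QuotientGroup.mk' ((Subgroup.centralizer (P : Set (G ⧸ Cfsg.pPrimeCore p G))).subgroupOf
      (Subgroup.normalizer (P : Set (G ⧸ Cfsg.pPrimeCore p G))))) (QuotientGroup.mk'_surjective _)
    (fun h => (QuotientGroup.eq_one_iff h).trans Subgroup.mem_subgroupOf) (g := a)
    (le_bot_iff.mp ((Subgroup.commutator_mono (Subgroup.commutator_mono le_rfl (Subgroup.zpowers_le.mpr haA))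
      (Subgroup.zpowers_le.mpr haA)).trans hq.le)) hqn
  refine (Dickson.HasSL2Section.of_map (QuotientGroup.mk' (Cfsg.pPrimeCore p G)) (H := ⊤) ?_).exists_iso
  refine hsec.mono ?_
  rw [← MonoidHom.range_eq_map, MonoidHom.range_eq_top.mpr (QuotientGroup.mk'_surjective _)]
  exact le_top

end Cfsg.Agent.S0657
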