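import Cfsg.Statements.S0660
import Cfsg.Agent.Transfer.AbelianMaschke

set_option autoImplicit false
open Cfsg
open scoped commutatorElement

namespace Cfsg.Agent.S0660

/-- Under a coprime action on an abelian group, an invariant subgroup that is complemented admits an invariant complement. -/
theorem result {G : Type*} [Group G] [Finite G] (V A U : Subgroup G) (hVab : IsMulCommutative V) (hAV : A ≤ Subgroup.normalizer (V : Set G)) (hcop : (Nat.card A).Coprime (Nat.card V)) (hUV : U ≤ V) (hAU : A ≤ Subgroup.normalizer (U : Set G)) (W : Subgroup G) (hWV : W ≤ V) (hUW : U ⊓ W = ⊥) (hUWV : U ⊔ W = V) : ∃ W' : Subgroup G, W' ≤ V ∧ A ≤ Subgroup.normalizer (W' : Set G) ∧ U ⊓ W' = ⊥ ∧ U ⊔ W' = V := by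
  haveI := hVab
  open scoped IsMulCommutative in
  letI : CommGroup V := inferInstance
  let c : A →* MulAut V :=
    { toFun := fun a =>
        { toFun := fun v => ⟨(a : G) * v * (a : G)⁻¹, (Subgroup.mem_normalizer_iff.mp (hAV a.2) _).mp v.2⟩
          invFun := fun v => ⟨(a : G)⁻¹ * v * a, (Subgroup.mem_normalizer_iff''.mp (hAV a.2) _).mp v.2⟩
          left_inv := fun v => by ext; simp [mul_assoc]
          right_inv := fun v => by ext; simp [mul_assoc]
          map_mul' := fun x y => by ext; simp [mul_assoc] }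
      map_one' := by ext; simp
      map_mul' := fun a a' => by ext; simp [mul_assoc] }
  have hX : (Nat.card c.range).Coprime (Nat.card V) := hcop.coprime_dvd_left (Subgroup.card_range_dvd c)
  obtain ⟨M, hM, h1, h2⟩ := Transfer.AbMaschke.exists_inv_complement (A := V) c.range hX
    (P := ⊥) (N := U.subgroupOf V) (M₀ := W.subgroupOf V)
    (fun x _ b hb => by rw [Subgroup.mem_bot.mp hb, map_one]; exact one_mem _)
    (fun x hx b hb => by
      obtain ⟨a, rfl⟩ := hx
      exact (Subgroup.mem_normalizer_iff.mp (hAU a.2) _).mp hb)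
    (by rw [inf_comm]; exact eq_bot_iff.mpr fun x hx => Subtype.ext (Subgroup.mem_bot.mp (hUW ▸ (⟨hx.1, hx.2⟩ : (x : G) ∈ U ⊓ W))))
    (by
      refine Subgroup.map_injective V.subtype_injective ?_
      rw [Subgroup.map_sup, Subgroup.map_subgroupOf_eq_of_le hWV, Subgroup.map_subgroupOf_eq_of_le hUV,
        ← MonoidHom.range_eq_map, Subgroup.range_subtype, sup_comm, hUWV])
  refine ⟨M.map V.subtype, Subgroup.map_subtype_le M, fun a ha => ?_, ?_, ?_⟩
  · refine Subgroup.mem_normalizer_fintype fun x hx => ?_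
    obtain ⟨y, hy, rfl⟩ := hx
    exact ⟨c ⟨a, ha⟩ y, hM _ ⟨⟨a, ha⟩, rfl⟩ y hy, rfl⟩
  · rw [eq_bot_iff]
    rintro _ ⟨hxU, y, hy, rfl⟩
    have h3 : y ∈ M ⊓ U.subgroupOf V := ⟨hy, hxU⟩
    rw [h1, Subgroup.mem_bot] at h3
    rw [h3]; exact one_mem _
  · have h3 := congrArg (Subgroup.map V.subtype) h2
    rw [Subgroup.map_sup, Subgroup.map_subgroupOf_eq_of_le hUV, ← MonoidHom.range_eq_map,
      Subgroup.range_subtype, sup_comm] at h3
    exact h3

end Cfsg.Agent.S0660
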