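import Cfsg.Statements.S0663
import Cfsg.Agent.Coprime.Action
import Cfsg.Agent.Core.Cores

set_option autoImplicit false
open Cfsg

namespace Cfsg.Agent.S0663

open Subgroup
open scoped commutatorElement

theorem eq_bot_of_commutator_eq {L : Type*} [Group L] {K X G : Subgroup L} [Group.IsNilpotent K]
    (hX : X ≤ K) (hG : G ≤ K) (h : ⁅X, G⁆ = X) : X = ⊥ := by
  have key : ∀ k, X ≤ ((⊤ : Subgroup K).lowerCentralSeries k).map K.subtype := by
    intro k
    induction k with
    | zero => rw [Subgroup.lowerCentralSeries_zero, ← MonoidHom.range_eq_map, Subgroup.range_subtype]; exact hX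
    | succ k ih =>
      rw [← h, Subgroup.commutator_le]
      intro x hx g hg
      obtain ⟨y, hy, rfl⟩ := ih hx
      refine ⟨⁅y, ⟨g, hG hg⟩⁆, ?_, map_commutatorElement K.subtype y ⟨g, hG hg⟩⟩
      rw [Subgroup.lowerCentralSeries_succ]
      exact Subgroup.commutator_mem_commutator hy (Subgroup.mem_top _)
  have := key (Group.nilpotencyClass K)
  rwa [Subgroup.lowerCentralSeries_nilpotencyClass, Subgroup.map_bot, le_bot_iff] at this


/-- A p-group acts uniserially on a p-group N of order p^n exactly when the iterated commutator chain from N has length n; in that case the chain terms are all the invariant subgroups of N and they are normal in N. -/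
theorem result {L : Type*} [Group L] [Finite L] {p : ℕ} [Fact p.Prime] (N G : Subgroup L) (hN : IsPGroup p N) (hG : IsPGroup p G) (hGN : G ≤ Subgroup.normalizer (N : Set L)) (n : ℕ) (hn : Nat.card N = p ^ n) : ((∀ H : Subgroup L, H ≤ N → G ≤ Subgroup.normalizer (H : Set L) → H ≠ ⊥ → (⁅H, G⁆).relIndex H = p) ↔ Cfsg.iterCommutator N G (n - 1) ≠ ⊥ ∨ n = 0) ∧ ((∀ H : Subgroup L, H ≤ N → G ≤ Subgroup.normalizer (H : Set L) → H ≠ ⊥ → (⁅H, G⁆).relIndex H = p) → ∀ H : Subgroup L, H ≤ N → G ≤ Subgroup.normalizer (H : Set L) → (∃ i ≤ n, H = Cfsg.iterCommutator N G i) ∧ N ≤ Subgroup.normalizer (H : Set L)) := by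
  classical
  have hp : p.Prime := Fact.out
  -- the group generated by both
  set K := N ⊔ G with hK
  have hKp : IsPGroup p K := by
    rw [hK, sup_comm]
    exact hG.to_sup_of_normal_right' hN hGN
  haveI : Group.IsNilpotent K := hKp.isNilpotent
  have hNn : K ≤ normalizer (N : Set L) := sup_le Subgroup.le_normalizer hGN
  -- invariance
  have hle : ∀ H : Subgroup L, G ≤ normalizer (H : Set L) → ⁅H, G⁆ ≤ H := fun H hH => by
    rw [Subgroup.commutator_le]
    intro h hh g hg
    rw [commutatorElement_def, show h * g * h⁻¹ * g⁻¹ = h * (g * h⁻¹ * g⁻¹) by group]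
    exact mul_mem hh ((Subgroup.mem_normalizer_iff.mp (hH hg) _).mp (inv_mem hh))
  have hinv : ∀ (X H Y : Subgroup L), X ≤ normalizer (H : Set L) → X ≤ normalizer (Y : Set L) →
      X ≤ normalizer ((⁅H, Y⁆ : Subgroup L) : Set L) := by
    intro X H Y hH hY g hg
    refine Coprime.mem_normalizer_of_conj_mem fun z hz => ?_
    have h : ⁅H, Y⁆ ≤ (⁅H, Y⁆ : Subgroup L).comap (MulAut.conj g).toMonoidHom := by
      rw [Subgroup.commutator_le]
      intro a ha b hb
      show g * ⁅a, b⁆ * g⁻¹ ∈ (⁅H, Y⁆ : Subgroup L)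
      rw [show g * ⁅a, b⁆ * g⁻¹ = ⁅g * a * g⁻¹, g * b * g⁻¹⁆ by simp only [commutatorElement_def]; group]
      exact Subgroup.commutator_mem_commutator ((Subgroup.mem_normalizer_iff.mp (hH hg) _).mp ha)
        ((Subgroup.mem_normalizer_iff.mp (hY hg) _).mp hb)
    exact h hz
  have hstep : ∀ (H X : Subgroup L), H ≤ N → X ≤ K → H ≠ ⊥ → ⁅H, X⁆ ≤ H → p * Nat.card ↥(⁅H, X⁆) ≤ Nat.card H := by
    intro H X hHN hX hH1 hsub
    obtain ⟨a, ha⟩ := IsPGroup.iff_card.mp (hN.to_le hHN)
    obtain ⟨b, hb⟩ := IsPGroup.iff_card.mp (hN.to_le (hsub.trans hHN))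
    have hne : ⁅H, X⁆ ≠ H := fun e => hH1 (eq_bot_of_commutator_eq (hHN.trans le_sup_left) hX e)
    have hlt : Nat.card ↥(⁅H, X⁆) < Nat.card H :=
      lt_of_le_of_ne (Subgroup.card_le_of_le hsub) fun e => hne (Subgroup.eq_of_le_of_card_ge hsub e.ge)
    rw [ha, hb] at hlt ⊢
    rw [← pow_succ']
    exact Nat.pow_le_pow_right hp.pos ((Nat.pow_lt_pow_iff_right hp.one_lt).mp hlt)
  -- the chains
  set Ni := Cfsg.iterCommutator N G with hNi
  set Li := Cfsg.iterCommutator N K with hLi
  have hN0 : Ni 0 = N := rfl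
  have hNs : ∀ i, Ni (i + 1) = ⁅Ni i, G⁆ := fun i => rfl
  have hL : ∀ i, Li i ≤ N ∧ K ≤ normalizer (Li i : Set L) := by
    intro i
    induction i with
    | zero => exact ⟨le_rfl, hNn⟩
    | succ i ih =>
      refine ⟨?_, hinv K _ _ ih.2 Subgroup.le_normalizer⟩
      refine le_trans ?_ ih.1
      show ⁅Li i, K⁆ ≤ Li i
      rw [Subgroup.commutator_le]
      intro h hh g hg
      rw [commutatorElement_def, show h * g * h⁻¹ * g⁻¹ = h * (g * h⁻¹ * g⁻¹) by group]
      exact mul_mem hh ((Subgroup.mem_normalizer_iff.mp (ih.2 hg) _).mp (inv_mem hh))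
  have hI : ∀ i, Ni i ≤ N ∧ G ≤ normalizer (Ni i : Set L) ∧ Ni i ≤ Li i := by
    intro i
    induction i with
    | zero => exact ⟨le_rfl, hGN, le_rfl⟩
    | succ i ih =>
      exact ⟨(hle _ ih.2.1).trans ih.1, hinv G _ _ ih.2.1 Subgroup.le_normalizer,
        Subgroup.commutator_mono ih.2.2 le_sup_right⟩
  have hbound : ∀ (M : ℕ → Subgroup L) (X : Subgroup L), X ≤ K → M 0 = N → (∀ i, M (i + 1) = ⁅M i, X⁆) →
      (∀ i, M i ≤ N ∧ ⁅M i, X⁆ ≤ M i) → ∀ i, M i = ⊥ ∨ p ^ i * Nat.card (M i) ≤ p ^ n := by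
    intro M X hX h0 hs hM i
    induction i with
    | zero => right; rw [pow_zero, one_mul, h0, hn]
    | succ i ih =>
      by_cases hb : M i = ⊥
      · left; rw [hs, hb, Subgroup.commutator_bot_left]
      right
      refine le_trans ?_ (ih.resolve_left hb)
      rw [pow_succ, mul_assoc]
      exact Nat.mul_le_mul_left _ (by rw [hs]; exact hstep _ X (hM i).1 hX hb (hM i).2)
  have hNb := hbound Ni G le_sup_right rfl hNs fun i => ⟨(hI i).1, hle _ (hI i).2.1⟩
  have hLb := hbound Li K le_rfl rfl (fun i => rfl) fun i => ⟨(hL i).1, by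
    rw [Subgroup.commutator_le]
    intro h hh g hg
    rw [commutatorElement_def, show h * g * h⁻¹ * g⁻¹ = h * (g * h⁻¹ * g⁻¹) by group]
    exact mul_mem hh ((Subgroup.mem_normalizer_iff.mp ((hL i).2 hg) _).mp (inv_mem hh))⟩
  have hbot : Ni n = ⊥ := (hNb n).elim id fun h => Subgroup.eq_bot_of_card_eq _ (by
    have h1 : 0 < p ^ n := Nat.pow_pos hp.pos
    have h2 := Nat.card_pos (α := Ni n)
    nlinarith)
  -- the length
  have hlen : (∀ H : Subgroup L, H ≤ N → G ≤ normalizer (H : Set L) → H ≠ ⊥ → (⁅H, G⁆).relIndex H = p) →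
      ∀ i ≤ n, p ^ i * Nat.card (Ni i) = p ^ n := by
    intro hu i hi
    induction i with
    | zero => rw [pow_zero, one_mul, hN0, hn]
    | succ i ih =>
      have h1 := ih (by omega)
      have hne : Ni i ≠ ⊥ := fun e => by
        rw [e, Subgroup.card_bot, mul_one] at h1
        have := Nat.pow_right_injective hp.two_le h1
        omega
      rw [← h1, ← Core.card_mul_relIndex (hle _ (hI i).2.1), hu _ (hI i).1 (hI i).2.1 hne, pow_succ, hNs]
      ring
  have hcards : Ni (n - 1) ≠ ⊥ ∨ n = 0 → ∀ i ≤ n, p ^ i * Nat.card (Ni i) = p ^ n := by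
    intro h i hi
    rcases h with h | rfl
    · have hne : ∀ j ≤ n - 1, Ni j ≠ ⊥ := fun j hj e => h (by
        obtain ⟨k, hk⟩ := Nat.exists_eq_add_of_le hj
        rw [hk]
        clear hk
        induction k with
        | zero => exact e
        | succ k ih => rw [← add_assoc, hNs, ih, Subgroup.commutator_bot_left])
      -- from below
      have hlow : ∀ j ≤ n, p ^ (n - j) ≤ Nat.card (Ni j) := by
        intro j hj
        induction h' : n - j generalizing j with
        | zero => rw [pow_zero]; exact Nat.card_pos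
        | succ k ih =>
          have h2 := ih (j + 1) (by omega) (by omega)
          have h3 := hstep _ G (hI j).1 le_sup_right (hne j (by omega)) (hle _ (hI j).2.1)
          rw [← hNs] at h3
          rw [pow_succ']
          exact (Nat.mul_le_mul_left p h2).trans h3
      refine le_antisymm ?_ ?_
      · rcases hNb i with hb | hb
        · rw [hb, Subgroup.card_bot, mul_one]; exact Nat.pow_le_pow_right hp.pos hi
        · exact hb
      · calc p ^ n = p ^ i * p ^ (n - i) := by rw [← pow_add]; congr 1; omega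
          _ ≤ _ := Nat.mul_le_mul_left _ (hlow i hi)
    · obtain rfl : i = 0 := by omega
      rw [pow_zero, one_mul, hN0, hn, pow_zero]
  have hall : (∀ i ≤ n, p ^ i * Nat.card (Ni i) = p ^ n) →
      (∀ i ≤ n, N ≤ normalizer (Ni i : Set L)) ∧
        ∀ H : Subgroup L, H ≤ N → G ≤ normalizer (H : Set L) → ∃ i ≤ n, H = Ni i := by
    intro hc
    have hnorm : ∀ i ≤ n, N ≤ normalizer (Ni i : Set L) := by
      intro i hi
      have e : Ni i = Li i := by
        refine Subgroup.eq_of_le_of_card_ge (hI i).2.2 ?_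
        rcases hLb i with h | h
        · rw [h, Subgroup.card_bot]; exact Nat.card_pos
        · exact Nat.le_of_mul_le_mul_left (h.trans (hc i hi).ge) (Nat.pow_pos hp.pos)
      rw [e]; exact le_sup_left.trans (hL i).2
    refine ⟨hnorm, fun H hHN hHG => ?_⟩
    suffices h : ∀ k i, i ≤ n → n - i = k → ∀ H : Subgroup L, H ≤ Ni i → G ≤ normalizer (H : Set L) →
        ∃ j ≤ n, i ≤ j ∧ H = Ni j by
      obtain ⟨j, hj, -, e⟩ := h n 0 n.zero_le (by omega) H hHN hHG
      exact ⟨j, hj, e⟩
    intro k
    induction k with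
    | zero =>
      intro i hi hk H hH _
      obtain rfl : i = n := by omega
      exact ⟨i, le_rfl, le_rfl, le_antisymm hH (by rw [hbot]; exact bot_le)⟩
    | succ k ih =>
      intro i hi hk H hH hHG
      by_cases hH1 : H ≤ Ni (i + 1)
      · obtain ⟨j, hj, hij, e⟩ := ih (i + 1) (by omega) (by omega) H hH1 hHG
        exact ⟨j, hj, by omega, e⟩
      refine ⟨i, hi, le_rfl, le_antisymm hH ?_⟩
      have hci := hc i hi
      have hci1 := hc (i + 1) (by omega)
      have hidx : Nat.card (Ni i) = p * Nat.card (Ni (i + 1)) := by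
        rw [← hci1, pow_succ, mul_assoc] at hci
        exact Nat.eq_of_mul_eq_mul_left (Nat.pow_pos hp.pos) hci
      have hsub : Ni (i + 1) ≤ Ni i := hle _ (hI i).2.1
      have hn1 : Ni i ≤ normalizer (Ni (i + 1) : Set L) := (hI i).1.trans (hnorm _ (by omega))
      have hsup : H ⊔ Ni (i + 1) = Ni i := by
        refine Subgroup.eq_of_le_of_card_ge (sup_le hH hsub) ?_
        obtain ⟨a, ha⟩ := IsPGroup.iff_card.mp (hN.to_le ((sup_le hH hsub).trans (hI i).1))
        obtain ⟨b, hb⟩ := IsPGroup.iff_card.mp (hN.to_le (hI (i + 1)).1)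
        have hlt : Nat.card (Ni (i + 1)) < Nat.card (H ⊔ Ni (i + 1) : Subgroup L) := by
          by_contra h
          push Not at h
          exact hH1 (le_sup_left.trans (Subgroup.eq_of_le_of_card_ge le_sup_right h).ge)
        rw [hidx, hb, ha] at *
        rw [← pow_succ']
        exact Nat.pow_le_pow_right hp.pos ((Nat.pow_lt_pow_iff_right hp.one_lt).mp hlt)
      obtain ⟨j, hj, hij, hjH⟩ := ih (i + 1) (by omega) (by omega) (H ⊓ Ni (i + 1)) inf_le_right
        (fun g hg => Coprime.mem_normalizer_of_conj_mem fun z hz =>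
          ⟨(Subgroup.mem_normalizer_iff.mp (hHG hg) _).mp hz.1,
            (Subgroup.mem_normalizer_iff.mp ((hI (i + 1)).2.1 hg) _).mp hz.2⟩)
      suffices hle' : Ni (i + 1) ≤ H by rw [← hsup]; exact sup_le le_rfl hle'
      rcases Nat.eq_or_lt_of_le hij with rfl | hlt
      · exact hjH.ge.trans inf_le_left
      · -- the commutators fall too deep
        have h2 : i + 2 ≤ n := by omega
        have hdeep : Ni (i + 1) ≤ Ni (i + 2) := by
          rw [hNs i, Subgroup.commutator_le]
          intro x hx g hg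
          rw [← hsup] at hx
          obtain ⟨h', hh', z, hz, rfl⟩ := Coprime.exists_mul_of_mem_sup
            (show H ≤ normalizer (Ni (i + 1) : Set L) from hH.trans hn1) (sup_comm H _ ▸ hx)
          rw [commutatorElement_mul_left_eq_conj_mul]
          refine mul_mem ?_ ?_
          · have hh1 : h' ∈ N := (hI (i + 1)).1 hh'
            refine (Subgroup.mem_normalizer_iff.mp (hnorm _ h2 hh1) _).mp ?_
            have hj' : ⁅z, g⁆ ∈ H ⊓ Ni (i + 1) :=
              ⟨hle _ hHG (Subgroup.commutator_mem_commutator hz hg),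
                by rw [hNs]; exact Subgroup.commutator_mem_commutator (hH hz) hg⟩
            rw [hjH] at hj'
            have hmono : ∀ a b, a ≤ b → Ni b ≤ Ni a := fun a b hab => by
              induction b, hab using Nat.le_induction with
              | base => exact le_rfl
              | succ b hb ih' => exact (hle _ (hI b).2.1).trans ih'
            exact hmono (i + 2) j hlt hj'
          · rw [hNs (i + 1)]; exact Subgroup.commutator_mem_commutator hh' hg
        exfalso
        have h3 := hc (i + 2) h2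
        rw [← le_antisymm hdeep (hle _ (hI (i + 1)).2.1), ← hci1, pow_succ p (i + 1), mul_assoc] at h3
        have h4 := Nat.eq_of_mul_eq_mul_left (Nat.pow_pos hp.pos) h3
        have := Nat.card_pos (α := Ni (i + 1))
        have := hp.two_le
        nlinarith
  refine ⟨⟨fun hu => ?_, fun h H hHN hHG hH1 => ?_⟩, fun hu H hHN hHG => ?_⟩
  · rcases Nat.eq_zero_or_pos n with h0 | h0
    · exact Or.inr h0
    refine Or.inl fun e => ?_
    have h := hlen hu (n - 1) (by omega)
    rw [e, Subgroup.card_bot, mul_one] at h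
    have := Nat.pow_right_injective hp.two_le h
    omega
  · have hc := hcards h
    obtain ⟨i, hi, rfl⟩ := (hall hc).2 H hHN hHG
    have hin : i < n := lt_of_le_of_ne hi fun e => hH1 (e ▸ hbot)
    have h1 := hc i hi
    have h2 := hc (i + 1) hin
    rw [← h2, ← Core.card_mul_relIndex (hle _ (hI i).2.1), pow_succ, hNs, mul_assoc] at h1
    have h3 := Nat.eq_of_mul_eq_mul_left (Nat.pow_pos hp.pos) h1
    rw [mul_comm p] at h3
    exact Nat.eq_of_mul_eq_mul_left Nat.card_pos h3
  · obtain ⟨hnorm, hH⟩ := hall (hlen hu)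
    obtain ⟨i, hi, e⟩ := hH H hHN hHG
    exact ⟨⟨i, hi, e⟩, e ▸ hnorm i hi⟩

end Cfsg.Agent.S0663
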