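import Cfsg.Statements.S0666
import Cfsg.Agent.OddChar.FrobFixed
import Cfsg.Agent.PermGroups.FrobeniusKernel

set_option autoImplicit false
open Cfsg
open scoped commutatorElement

namespace Cfsg.Agent.S0666

/-- A Frobenius group acting on a nontrivial abelian group of order prime to that of its kernel, with the kernel acting without nontrivial fixed points, has a complement with a nontrivial fixed point. -/
theorem result {G : Type*} [Group G] [Finite G] (V F : Subgroup G) (hVab : IsMulCommutative V) (hV1 : V ≠ ⊥) (hFV : F ≤ Subgroup.normalizer (V : Set G)) (H : Subgroup ↥F) (hH : Cfsg.IsFrobeniusComplement H) (hcop : (Nat.card V).Coprime (Nat.card (Cfsg.frobeniusKernel H))) (hCK : V ⊓ Subgroup.centralizer (Subtype.val '' Cfsg.frobeniusKernel H : Set G) = ⊥) : V ⊓ Subgroup.centralizer ((H.map F.subtype : Subgroup G) : Set G) ≠ ⊥ := by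
  classical
  intro hbot
  obtain ⟨K, hK, hKn, hKH⟩ := PermGroups.Frobenius.exists_kernel hH
  haveI := hKn
  haveI := hVab
  haveI := Fintype.ofFinite F
  have hconj : ∀ (x : F) (v : G), v ∈ V → (x : G) * v * (x : G)⁻¹ ∈ V := fun x v hv =>
    (Subgroup.mem_normalizer_iff.mp (hFV x.2) v).mp hv
  have hfpf : ∀ e ∈ H, e ≠ 1 → ∀ u ∈ K, e * u = u * e → u = 1 := by
    intro e he he1 u hu hcomm
    have huH : u ∈ H := PermGroups.Frobenius.mem_of_conj hH he he1 (by
      rw [← hcomm, mul_inv_cancel_right]; exact he)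
    exact Subgroup.mem_bot.mp (hKH.disjoint.eq_bot ▸ Subgroup.mem_inf.mpr ⟨hu, huH⟩)
  open scoped IsMulCommutative in
  have hmain : ∀ v : V, v = 1 := by
    intro v
    let act : F → V →* V := fun x =>
      { toFun := fun w => ⟨(x : G) * w * (x : G)⁻¹, hconj x w w.2⟩
        map_one' := by ext; simp
        map_mul' := fun a b => by ext; simp [mul_assoc] }
    have hact : ∀ x y : F, ∀ w : V, act (x * y) w = act x (act y w) := fun x y w => by
      ext; simp [act, mul_assoc]
    -- sums over subgroups are fixed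
    have hfix : ∀ (L : Subgroup F) [Fintype L] (w : V), ∀ l ∈ L,
        act l (∏ x : L, act x w) = ∏ x : L, act x w := by
      intro L _ w l hl
      rw [map_prod]
      exact Fintype.prod_equiv (Equiv.mulLeft (⟨l, hl⟩ : L)) _ _ fun x => (hact l x w).symm
    have hKfix : ∀ w : V, (∀ k ∈ K, act k w = w) → w = 1 := by
      intro w hw
      refine Subtype.ext (Subgroup.mem_bot.mp (hCK ▸ Subgroup.mem_inf.mpr ⟨w.2, ?_⟩))
      rw [Subgroup.mem_centralizer_iff]
      rintro _ ⟨k, hk, rfl⟩
      rw [← hK] at hk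
      exact mul_inv_eq_iff_eq_mul.mp (congrArg Subtype.val (hw k hk))
    have hHfix : ∀ w : V, (∀ k ∈ H, act k w = w) → w = 1 := by
      intro w hw
      refine Subtype.ext (Subgroup.mem_bot.mp (hbot ▸ Subgroup.mem_inf.mpr ⟨w.2, ?_⟩))
      rw [Subgroup.mem_centralizer_iff]
      rintro _ ⟨k, hk, rfl⟩
      exact mul_inv_eq_iff_eq_mul.mp (congrArg Subtype.val (hw k hk))
    have hsum := OddChar.sum_frobenius K H hKH.card_mul.symm hKH.disjoint.eq_bot hfpf
      (fun x => Additive.ofMul (act x v))
    have e1 : (∑ x : F, Additive.ofMul (act x v)) = 0 := by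
      rw [← ofMul_prod, ofMul_eq_zero]
      refine hKfix _ fun k _ => ?_
      rw [map_prod]
      exact Fintype.prod_equiv (Equiv.mulLeft k) _ _ fun x => (hact k x v).symm
    have e2 : (∑ x : K, Additive.ofMul (act x v)) = 0 := by
      rw [← ofMul_prod, ofMul_eq_zero]
      exact hKfix _ fun k hk => hfix K v k hk
    have e3 : ∀ u : K, (∑ e : H, Additive.ofMul (act ((u : F) * e * (u : F)⁻¹) v)) = 0 := by
      intro u
      rw [← ofMul_prod, ofMul_eq_zero]
      have : ∀ e : H, act ((u : F) * e * (u : F)⁻¹) v = act u (act e (act (u : F)⁻¹ v)) := fun e => by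
        rw [hact, hact]
      rw [Finset.prod_congr rfl (fun e _ => this e), ← map_prod,
        hHfix _ (fun k hk => hfix H _ k hk), map_one]
    rw [e1, e2, Finset.sum_eq_zero (fun u _ => e3 u), zero_add, zero_add] at hsum
    have h1 : act 1 v = v := by ext; simp [act]
    rw [h1, ← ofMul_pow, ofMul_eq_zero] at hsum
    have hcard : Nat.card K = Nat.card (frobeniusKernel H) := by rw [← hK]; rfl
    exact orderOf_eq_one_iff.mp (Nat.eq_one_of_dvd_coprimes hcop
      (orderOf_dvd_natCard v) (hcard ▸ orderOf_dvd_of_pow_eq_one hsum))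
  exact hV1 ((Subgroup.eq_bot_iff_forall _).mpr fun x hx => congrArg Subtype.val (hmain ⟨x, hx⟩))

end Cfsg.Agent.S0666
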