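import Cfsg.Statements.S0668
import Mathlib

set_option autoImplicit false
open Cfsg

namespace Cfsg.Agent.S0668

/-- The equivariant linear maps between the permutation modules of two finite `G`-sets form a space whose dimension is the number of `G`-orbits on the product of the two sets. -/
theorem result {G : Type*} [Group G] {K : Type*} [Field K] {Ω₁ Ω₂ : Type*} [Fintype Ω₁] [Fintype Ω₂] [MulAction G Ω₁] [MulAction G Ω₂] : Module.finrank K ((Cfsg.permRep K G Ω₁).linHom (Cfsg.permRep K G Ω₂)).invariants = Nat.card (MulAction.orbitRel.Quotient G (Ω₁ × Ω₂)) := by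
  classical
  set ρ := (Cfsg.permRep K G Ω₁).linHom (Cfsg.permRep K G Ω₂) with hρ
  have hperm : ∀ (g : G) (f : Ω₁ → K) (x : Ω₁), Cfsg.permRep K G Ω₁ g f x = f (g⁻¹ • x) :=
    fun g f x => rfl
  have hsingle : ∀ (g : G) (x : Ω₁), Cfsg.permRep K G Ω₁ g (Pi.single x 1) = Pi.single (g • x) 1 := by
    intro g x
    funext z
    rw [hperm]
    by_cases h : z = g • x
    · subst h; simp
    · have : g⁻¹ • z ≠ x := fun e => h (by rw [← e, smul_inv_smul])
      simp [h, this]
  have hmem : ∀ T : (Ω₁ → K) →ₗ[K] (Ω₂ → K), T ∈ ρ.invariants ↔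
      ∀ (g : G) (x : Ω₁) (y : Ω₂), T (Pi.single (g • x) 1) (g • y) = T (Pi.single x 1) y := by
    intro T
    constructor
    · intro h g x y
      have := congrArg (fun L => L (Pi.single (g • x) (1 : K)) (g • y)) (h g)
      simp only [hρ, Representation.linHom_apply, LinearMap.coe_comp, Function.comp_apply] at this
      rw [hsingle, inv_smul_smul] at this
      rw [← this]
      simp [Cfsg.permRep]
    · intro h g
      refine LinearMap.pi_ext' fun x => LinearMap.ext_ring (funext fun y => ?_)
      simp only [hρ, Representation.linHom_apply, LinearMap.coe_comp, Function.comp_apply,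
        LinearMap.coe_single]
      rw [hsingle]
      change T (Pi.single (g⁻¹ • x) 1) (g⁻¹ • y) = _
      exact h g⁻¹ x y
  let toFun : ρ.invariants → (MulAction.orbitRel.Quotient G (Ω₁ × Ω₂) → K) := fun T q =>
    Quotient.liftOn' q (fun z => (T : (Ω₁ → K) →ₗ[K] (Ω₂ → K)) (Pi.single z.1 1) z.2) (by
      rintro z w ⟨g, rfl⟩
      exact (hmem _).mp T.2 g w.1 w.2)
  let L : ρ.invariants →ₗ[K] (MulAction.orbitRel.Quotient G (Ω₁ × Ω₂) → K) :=
    { toFun := toFun
      map_add' := fun S T => funext fun q => Quotient.inductionOn' q fun z => rfl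
      map_smul' := fun c T => funext fun q => Quotient.inductionOn' q fun z => rfl }
  have hbij : Function.Bijective L := by
    constructor
    · intro S T h
      refine Subtype.ext (LinearMap.pi_ext' fun x => LinearMap.ext_ring (funext fun y => ?_))
      exact congrFun h (Quotient.mk'' (x, y))
    · intro φ
      let M : (Ω₁ → K) →ₗ[K] (Ω₂ → K) :=
        Matrix.mulVecLin (Matrix.of fun y x => φ (Quotient.mk'' (x, y)))
      have hM : ∀ x y, M (Pi.single x 1) y = φ (Quotient.mk'' (x, y)) := fun x y => by
        simp [M]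
      refine ⟨⟨M, (hmem M).mpr fun g x y => ?_⟩, funext fun q => Quotient.inductionOn' q fun z => ?_⟩
      · rw [hM, hM]
        exact congrArg φ (Quotient.sound' ⟨g, rfl⟩)
      · exact hM z.1 z.2
  have : Fintype (MulAction.orbitRel.Quotient G (Ω₁ × Ω₂)) := Fintype.ofFinite _
  rw [(LinearEquiv.ofBijective L hbij).finrank_eq, Module.finrank_pi, Nat.card_eq_fintype_card]

end Cfsg.Agent.S0668
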