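import Cfsg.Statements.S0671
import Cfsg.Agent.PermGroups.PermModule

set_option autoImplicit false
open Cfsg

namespace Cfsg.Agent.S0671

/-- If the heart of the permutation module in characteristic `p` of a transitive action of degree `p ^ f` has no trivial composition factor, the action is doubly transitive. The hypothesis is phrased without composition series: no invariant subspaces `W < W'` between the constants and the sum-zero functions with trivial action on the quotient. -/
theorem result {G : Type*} [Group G] [Finite G] {K : Type*} [Field K] {p f : ℕ} [Fact p.Prime] [CharP K p] {Ω : Type*} [Fintype Ω] [MulAction G Ω] [MulAction.IsPretransitive G Ω] (hf : 1 ≤ f) (hcard : Fintype.card Ω = p ^ f) (h : ∀ W W' : Subrepresentation (Cfsg.permRep K G Ω), (Cfsg.permConstants K G Ω).toSubmodule ≤ W.toSubmodule → W.toSubmodule < W'.toSubmodule → W'.toSubmodule ≤ (Cfsg.permSumZero K G Ω).toSubmodule → ∃ g : G, ∃ v ∈ W'.toSubmodule, Cfsg.permRep K G Ω g v - v ∉ W.toSubmodule) : MulAction.IsMultiplyPretransitive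 G Ω 2 := by
  classical
  by_contra hno
  have hno' : ∃ a b c d : Ω, a ≠ b ∧ c ≠ d ∧ ∀ g : G, g • a = c → g • b ≠ d := by
    by_contra hh
    push Not at hh
    exact hno (MulAction.is_two_pretransitive_iff.2 fun {a b c d} hab hcd => hh a b c d hab hcd)
  obtain ⟨a, b, c, d, hab, hcd, hne⟩ := hno'
  let R : Ω → Ω → Prop := fun x y => ∃ g : G, g • a = x ∧ g • b = y
  have hR : ∀ (g : G) x y, R (g • x) (g • y) ↔ R x y := fun g x y => by
    constructor
    · rintro ⟨k, h1, h2⟩
      exact ⟨g⁻¹ * k, by rw [mul_smul, h1, inv_smul_smul], by rw [mul_smul, h2, inv_smul_smul]⟩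
    · rintro ⟨k, h1, h2⟩
      exact ⟨g * k, by rw [mul_smul, h1], by rw [mul_smul, h2]⟩
  let N : K := ∑ y, if R a y then (1 : K) else 0
  have hN : ∀ x, (∑ y, if R x y then (1 : K) else 0) = N := fun x => by
    obtain ⟨g, rfl⟩ := MulAction.exists_smul_eq G a x
    refine (Fintype.sum_equiv (MulAction.toPerm g) _ _ fun y => ?_).symm
    show _ = if R (g • a) (g • y) then (1 : K) else 0
    simp only [hR]
  let ψ : (Ω → K) →ₗ[K] (Ω → K) :=
    { toFun := fun f x => (∑ y, if R x y then f y else 0) - N * f x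
      map_add' := fun f f' => funext fun x => by
        have : ∀ y, (if R x y then f y + f' y else 0) =
            (if R x y then f y else 0) + if R x y then f' y else 0 := fun y => by split_ifs <;> simp
        simp only [Pi.add_apply, this, Finset.sum_add_distrib]
        ring
      map_smul' := fun t f => funext fun x => by
        have : ∀ y, (if R x y then t * f y else 0) = t * if R x y then f y else 0 := fun y => by
          split_ifs <;> simp
        simp only [Pi.smul_apply, smul_eq_mul, RingHom.id_apply, this, ← Finset.mul_sum]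
        ring }
  have hψ : ∀ (g : G) f, ψ (Cfsg.permRep K G Ω g f) = Cfsg.permRep K G Ω g (ψ f) := by
    intro g f
    funext x
    show (∑ y, if R x y then f (g⁻¹ • y) else 0) - N * f (g⁻¹ • x) =
      (∑ y, if R (g⁻¹ • x) y then f y else 0) - N * f (g⁻¹ • x)
    congr 1
    refine Fintype.sum_equiv (MulAction.toPerm g⁻¹) _ _ fun y => ?_
    show _ = if R (g⁻¹ • x) (g⁻¹ • y) then f (g⁻¹ • y) else 0
    simp only [hR]
  have hψ1 : ψ (fun _ => 1) = 0 := funext fun x => by
    show (∑ y, if R x y then (1 : K) else 0) - N * 1 = 0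
    rw [hN, mul_one, sub_self]
  set S := (Cfsg.permSumZero K G Ω).toSubmodule with hS
  have hmap : ∀ U : Subrepresentation (Cfsg.permRep K G Ω), ∀ (g : G), ∀ v ∈ U.toSubmodule.map ψ,
      Cfsg.permRep K G Ω g v ∈ U.toSubmodule.map ψ := by
    rintro U g _ ⟨u, hu, rfl⟩
    exact ⟨_, U.apply_mem_toSubmodule g hu, hψ g u⟩
  let W : Subrepresentation (Cfsg.permRep K G Ω) :=
    ⟨S.map ψ, fun g v hv => hmap (Cfsg.permSumZero K G Ω) g v hv⟩
  let W' : Subrepresentation (Cfsg.permRep K G Ω) :=
    ⟨LinearMap.range ψ, fun g v hv => by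
      obtain ⟨u, rfl⟩ := hv
      exact ⟨_, hψ g u⟩⟩
  -- proper invariant subspaces consist of sum-zero functions
  have hmax : ∀ U : Subrepresentation (Cfsg.permRep K G Ω), U.toSubmodule ≠ ⊤ → U.toSubmodule ≤ S := by
    intro U hU u hu
    obtain ⟨φ, hφ0, hφ⟩ := Submodule.exists_le_ker_of_lt_top U.toSubmodule (lt_top_iff_ne_top.2 hU)
    let P : Subrepresentation (Cfsg.permRep K G Ω) :=
      { toSubmodule :=
          { carrier := {h | ∀ u ∈ U.toSubmodule, ∑ x, u x * h x = 0}
            add_mem' := fun {h h'} hh hh' u hu => by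
              simp only [Pi.add_apply, mul_add, Finset.sum_add_distrib]
              rw [hh u hu, hh' u hu, add_zero]
            zero_mem' := fun u _ => by simp
            smul_mem' := fun t {h} hh u hu => by
              simp only [Pi.smul_apply, smul_eq_mul, mul_left_comm _ t, ← Finset.mul_sum]
              rw [hh u hu, mul_zero] }
        apply_mem_toSubmodule := fun g {h} hh u hu => by
          rw [← hh _ (U.apply_mem_toSubmodule g⁻¹ hu)]
          refine Fintype.sum_equiv (MulAction.toPerm g⁻¹) _ _ fun x => ?_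
          show u x * h (g⁻¹ • x) = u (g⁻¹⁻¹ • g⁻¹ • x) * h (g⁻¹ • x)
          rw [inv_inv, smul_inv_smul] }
    have hφsum : ∀ v : Ω → K, φ v = ∑ x, v x * φ (Pi.single x 1) := fun v => by
      conv_lhs => rw [pi_eq_sum_univ' v, map_sum]
      simp
    have hP : P.toSubmodule ≠ ⊥ := by
      intro e
      refine hφ0 (LinearMap.ext fun v => ?_)
      have hmem : (fun x => φ (Pi.single x 1)) ∈ P.toSubmodule := fun u hu => by
        rw [← hφsum]; exact hφ hu
      rw [e, Submodule.mem_bot] at hmem
      rw [hφsum, LinearMap.zero_apply]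
      exact Finset.sum_eq_zero fun x _ => by rw [congrFun hmem x, Pi.zero_apply, mul_zero]
    have h1 : (fun _ => (1 : K)) ∈ P.toSubmodule :=
      PermGroups.constants_le_of_ne_bot hcard P hP (Submodule.subset_span rfl)
    have := h1 u hu
    show ∑ x, u x = 0
    simpa using this
  have hrtop : LinearMap.range ψ ≠ ⊤ := by
    intro e
    have hinj := LinearMap.injective_iff_surjective.2 (LinearMap.range_eq_top.1 e)
    exact one_ne_zero (congrFun (hinj (hψ1.trans (map_zero ψ).symm)) a)
  have hentry : ∀ x y : Ω, x ≠ y →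
      ψ (Pi.single y (1 : K)) x = if R x y then (1 : K) else 0 := by
    intro x y hxy
    show (∑ z, if R x z then (Pi.single y (1 : K) : Ω → K) z else 0) - N * (Pi.single y (1 : K) : Ω → K) x = _
    rw [Pi.single_eq_of_ne hxy, mul_zero, sub_zero, Finset.sum_eq_single y
      (fun z _ hz => by rw [Pi.single_eq_of_ne hz, ite_self]) (fun hh => absurd (Finset.mem_univ y) hh),
      Pi.single_eq_same]
  have hkey : ¬ ∀ v ∈ S, ψ v = 0 := by
    intro hh
    have hconst : ∀ x y z : Ω, ψ (Pi.single y (1 : K)) x = ψ (Pi.single z (1 : K)) x := fun x y z => by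
      have := hh (Pi.single y 1 - Pi.single z 1) (show ∑ w, _ = (0 : K) by
        simp [Finset.sum_sub_distrib, Finset.sum_pi_single'])
      rw [map_sub, sub_eq_zero] at this
      rw [this]
    have hshift : ∀ (g : G) (x y : Ω),
        ψ (Pi.single (g • y) (1 : K)) (g • x) = ψ (Pi.single y (1 : K)) x := fun g x y => by
      have e : (Pi.single (g • y) (1 : K) : Ω → K) = Cfsg.permRep K G Ω g (Pi.single y 1) := by
        funext w
        show _ = (Pi.single y (1 : K) : Ω → K) (g⁻¹ • w)
        simp only [Pi.single_apply, eq_comm (a := g⁻¹ • w), eq_inv_smul_iff, eq_comm (a := g • y)]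
      rw [e, hψ]
      show ψ (Pi.single y 1) (g⁻¹ • g • x) = _
      rw [inv_smul_smul]
    obtain ⟨g, hg⟩ := MulAction.exists_smul_eq G a c
    have h1 := hentry a b hab
    rw [if_pos ⟨1, one_smul _ _, one_smul _ _⟩, ← hshift g, hg, hconst c _ d, hentry c d hcd,
      if_neg (fun ⟨k, h1, h2⟩ => hne k h1 h2)] at h1
    exact zero_ne_one h1
  have hW0 : W.toSubmodule ≠ ⊥ := fun e => hkey fun v hv => by
    have hm : ψ v ∈ W.toSubmodule := ⟨v, hv, rfl⟩
    rwa [e, Submodule.mem_bot] at hm
  have hlt : W.toSubmodule < W'.toSubmodule := by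
    refine lt_of_le_of_ne (fun v hv => by obtain ⟨u, -, rfl⟩ := hv; exact ⟨u, rfl⟩) fun e => ?_
    let Kψ : Subrepresentation (Cfsg.permRep K G Ω) :=
      ⟨LinearMap.ker ψ, fun g v hv => by
        rw [LinearMap.mem_ker] at hv ⊢
        rw [hψ, hv, map_zero]⟩
    have hker : LinearMap.ker ψ ≤ S := hmax Kψ fun e' => hkey fun v _ =>
      LinearMap.mem_ker.1 (show v ∈ Kψ.toSubmodule by rw [e']; trivial)
    have hStop : S = ⊤ := by
      refine eq_top_iff.2 fun v _ => ?_
      obtain ⟨u, hu, huv⟩ := (e ▸ (⟨v, rfl⟩ : ψ v ∈ W'.toSubmodule) : ψ v ∈ W.toSubmodule)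
      have := S.add_mem hu (hker (show v - u ∈ LinearMap.ker ψ by
        rw [LinearMap.mem_ker, map_sub, huv, sub_self]))
      rwa [add_sub_cancel] at this
    have h1 : (Pi.single a (1 : K) : Ω → K) ∈ S := hStop ▸ trivial
    have h2 : ∑ x, (Pi.single a (1 : K) : Ω → K) x = 0 := h1
    rw [Finset.sum_pi_single', if_pos (Finset.mem_univ a)] at h2
    exact one_ne_zero h2
  obtain ⟨g, v, hv, hv'⟩ := h W W' (PermGroups.constants_le_of_ne_bot hcard W hW0) hlt (hmax W' hrtop)
  obtain ⟨u, rfl⟩ := hv
  refine hv' ⟨Cfsg.permRep K G Ω g u - u, ?_, by rw [map_sub, hψ]⟩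
  show ∑ x, (u (g⁻¹ • x) - u x) = 0
  rw [Finset.sum_sub_distrib, sub_eq_zero]
  exact Fintype.sum_equiv (MulAction.toPerm g⁻¹) _ _ fun x => rfl

end Cfsg.Agent.S0671
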