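import Cfsg.Statements.S0680
import Cfsg.Agent.PermGroups.SharplyTwo

set_option autoImplicit false
open Cfsg
open scoped Pointwise

namespace Cfsg.Agent.S0680

/-- A finite sharply doubly transitive permutation group has degree a prime power `p ^ j`; a Sylow `p`-subgroup is normal, elementary abelian and regular, and consists of the identity together with the elements without fixed points. (Frobenius' Theorem is not needed.) -/
theorem result {α : Type*} [Fintype α] [DecidableEq α] (G : Subgroup (Equiv.Perm α)) [MulAction.IsMultiplyPretransitive G α 2] (hsharp : ∀ x : Fin 2 ↪ α, MulAction.stabilizer G x = ⊥) (h2 : 2 ≤ Fintype.card α) : ∃ p j : ℕ, p.Prime ∧ 1 ≤ j ∧ Fintype.card α = p ^ j ∧ ∀ (hp : Fact p.Prime) (P : Sylow p G), (P : Subgroup G).Normal ∧ IsMulCommutative (P : Subgroup G) ∧ (∀ x ∈ (P : Subgroup G), x ^ p = 1) ∧ MulAction.IsPretransitive (P : Subgroup G) α ∧ (∀ a : α, MulAction.stabilizer (P : Subgroup G) a = ⊥) ∧ ∀ g : G, g ∈ (P : Subgroup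 G) ↔ g = 1 ∨ ∀ a : α, g • a ≠ a := by
  obtain ⟨p, j, K, hp, hj, hα, hKn, hcomm, hexp, hKt, hsemi, hcK, hidx, hKmem⟩ :=
    Cfsg.Agent.PermGroups.exists_regular_kernel ‹_› hsharp h2
  refine ⟨p, j, hp, hj, hα, fun hpf P => ?_⟩
  haveI := hpf
  haveI := hKn
  haveI : K.FiniteIndex := Subgroup.finiteIndex_of_finite
  obtain ⟨Q, hQ⟩ := (IsPGroup.of_card hcK).exists_le_sylow
  have hQK : (Q : Subgroup G) = K := by
    refine (Subgroup.eq_of_le_of_card_ge hQ ?_).symm
    obtain ⟨m, hm⟩ := IsPGroup.iff_card.1 Q.2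
    rw [hcK, hm]
    refine Nat.pow_le_pow_right hp.pos ?_
    have h1 : p ^ m ∣ K.index * p ^ j := by
      rw [← hcK, K.index_mul_card, ← hm]; exact Subgroup.card_subgroup_dvd_card _
    exact (Nat.pow_dvd_pow_iff_le_right hp.one_lt).1
      (Nat.Coprime.dvd_of_dvd_mul_left (Nat.Coprime.pow_left _ (hp.coprime_iff_not_dvd.2 hidx)) h1)
  have hPK : (P : Subgroup G) = K := by
    obtain ⟨g, hg⟩ := MulAction.exists_smul_eq G Q P
    rw [← hg, Sylow.coe_subgroup_smul, hQK]
    ext x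
    rw [Cfsg.Agent.PermGroups.mem_conj_smul]
    exact ⟨fun h => by
      have := hKn.conj_mem _ h g
      rwa [show g * (g⁻¹ * x * g) * g⁻¹ = x by group] at this,
      fun h => by
      have := hKn.conj_mem x h g⁻¹
      rwa [inv_inv] at this⟩
  rw [hPK]
  exact ⟨hKn, ⟨⟨hcomm⟩⟩, fun x hx => congrArg Subtype.val (hexp ⟨x, hx⟩), hKt, hsemi, hKmem⟩

end Cfsg.Agent.S0680
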