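import Cfsg.Statements.S0681
import Mathlib

set_option autoImplicit false
open Cfsg

namespace Cfsg.Agent.S0681

/-- The affine maps `x ↦ x * a + b`, `a ≠ 0`, of a near-field form a sharply doubly transitive permutation group. -/
theorem result {F : Type*} [Cfsg.NearField F] : ∃ H : Subgroup (Equiv.Perm F), (∀ σ : Equiv.Perm F, σ ∈ H ↔ ∃ a b : F, a ≠ 0 ∧ ∀ x : F, σ x = x * a + b) ∧ MulAction.IsMultiplyPretransitive H F 2 ∧ ∀ x : Fin 2 ↪ F, MulAction.stabilizer H x = ⊥ := by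
  have zmul : ∀ c : F, 0 * c = 0 := fun c => by
    have h := Cfsg.NearField.right_distrib (0 : F) 0 c
    rw [zero_add] at h
    exact left_eq_add.mp h
  have hinv : ∀ a : F, a ≠ 0 → ∃ b : F, b ≠ 0 ∧ a * b = 1 ∧ b * a = 1 := fun a ha => by
    obtain ⟨b, h1, h2⟩ := Cfsg.NearField.exists_inv a ha
    refine ⟨b, ?_, h1, h2⟩
    rintro rfl
    rw [zmul] at h2
    exact Cfsg.NearField.zero_ne_one h2
  have hne : ∀ a c : F, a ≠ 0 → c ≠ 0 → a * c ≠ 0 := fun a c ha hc h => by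
    obtain ⟨b, -, h1, -⟩ := hinv c hc
    apply ha
    rw [← mul_one a, ← h1, ← mul_assoc, h, zmul]
  have negmul : ∀ a c : F, -a * c = -(a * c) := fun a c => by
    apply eq_neg_of_add_eq_zero_left
    rw [← Cfsg.NearField.right_distrib, neg_add_cancel, zmul]
  let H : Subgroup (Equiv.Perm F) :=
    { carrier := {σ | ∃ a b : F, a ≠ 0 ∧ ∀ x : F, σ x = x * a + b}
      one_mem' := ⟨1, 0, Ne.symm Cfsg.NearField.zero_ne_one, fun x => by simp⟩
      mul_mem' := by
        rintro σ τ ⟨a, b, ha, hσ⟩ ⟨c, d, hc, hτ⟩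
        refine ⟨c * a, d * a + b, hne c a hc ha, fun x => ?_⟩
        simp only [Equiv.Perm.coe_mul, Function.comp_apply, hσ, hτ, Cfsg.NearField.right_distrib,
          mul_assoc, add_assoc]
      inv_mem' := by
        rintro σ ⟨a, b, ha, hσ⟩
        obtain ⟨c, hc, h1, h2⟩ := hinv a ha
        refine ⟨c, -b * c, hc, fun x => ?_⟩
        rw [Equiv.Perm.inv_eq_iff_eq, hσ, ← Cfsg.NearField.right_distrib, mul_assoc, h2, mul_one,
          add_assoc, neg_add_cancel, add_zero] }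
  refine ⟨H, fun σ => Iff.rfl, ?_, fun x => ?_⟩
  · -- transitive on pairs
    have base : ∀ u v : F, u ≠ v → ∃ σ ∈ H, σ 0 = u ∧ σ 1 = v := by
      intro u v huv
      have ha : v + -u ≠ 0 := fun h => huv (add_neg_eq_zero.mp h).symm
      obtain ⟨c, hc, h1, h2⟩ := hinv _ ha
      let σ : Equiv.Perm F :=
        { toFun := fun x => x * (v + -u) + u
          invFun := fun y => (y + -u) * c
          left_inv := fun x => by simp [add_assoc, mul_assoc, h1]
          right_inv := fun y => by simp [mul_assoc, h2] }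
      exact ⟨σ, ⟨_, _, ha, fun x => rfl⟩, by simp [σ, zmul], by simp [σ, add_assoc]⟩
    rw [MulAction.is_two_pretransitive_iff]
    intro a b c d hab hcd
    obtain ⟨σ, hσ, s0, s1⟩ := base a b hab
    obtain ⟨τ, hτ, t0, t1⟩ := base c d hcd
    refine ⟨⟨τ * σ⁻¹, mul_mem hτ (inv_mem hσ)⟩, ?_, ?_⟩
    · change τ (σ⁻¹ a) = c
      rw [Equiv.Perm.inv_eq_iff_eq.mpr s0.symm, t0]
    · change τ (σ⁻¹ b) = d
      rw [Equiv.Perm.inv_eq_iff_eq.mpr s1.symm, t1]
  · rw [eq_bot_iff]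
    rintro ⟨σ, a, b, ha, hσ⟩ hfix
    rw [Subgroup.mem_bot]
    have h0 : σ (x 0) = x 0 := DFunLike.congr_fun hfix 0
    have h1 : σ (x 1) = x 1 := DFunLike.congr_fun hfix 1
    rw [hσ] at h0 h1
    have hne' : x 0 + -(x 1) ≠ 0 := fun h =>
      (show (0 : Fin 2) ≠ 1 by decide) (x.injective (add_neg_eq_zero.mp h))
    have key : (x 0 + -(x 1)) * a = x 0 + -(x 1) := by
      conv_rhs => rw [← h0, ← h1]
      rw [Cfsg.NearField.right_distrib, negmul, neg_add_rev, add_assoc, add_neg_cancel_left]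
    obtain ⟨c, -, -, hc⟩ := hinv _ hne'
    have ha1 : a = 1 := by
      rw [← one_mul a, ← hc, mul_assoc, key]
    rw [ha1, mul_one, add_eq_left] at h0
    apply Subtype.ext
    ext y
    simp [hσ, ha1, h0]

end Cfsg.Agent.S0681
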