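import Cfsg.Statements.S0682
import Cfsg.Agent.PermGroups.HomogeneousGroup

set_option autoImplicit false
open Cfsg

namespace Cfsg.Agent.S0682

/-- A finite near-field has prime-power order; its additive group is commutative of prime exponent. -/
theorem result {F : Type*} [Cfsg.NearField F] [Finite F] : ∃ p j : ℕ, p.Prime ∧ 1 ≤ j ∧ Nat.card F = p ^ j ∧ (∀ x y : F, x + y = y + x) ∧ ∀ x : F, p • x = 0 := by
  have hadd : ∀ a x y : F, (x + y) * a = x * a + y * a := fun a x y =>
    Cfsg.NearField.right_distrib x y a
  have : Nontrivial F := ⟨⟨0, 1, Cfsg.NearField.zero_ne_one⟩⟩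
  have zmul : ∀ c : F, 0 * c = 0 := fun c => by
    have h := hadd c 0 0
    rw [zero_add] at h
    exact left_eq_add.mp h
  obtain ⟨p, j, hp, hj, hcard, hcomm, hexp⟩ :=
    Cfsg.Agent.PermGroups.elementaryAbelian_of_homogeneous (G := Multiplicative F) (fun x y hx hy => by
      obtain ⟨c, hc1, hc2⟩ := Cfsg.NearField.exists_inv x.toAdd (fun e => hx e)
      obtain ⟨d, hd1, hd2⟩ := Cfsg.NearField.exists_inv y.toAdd (fun e => hy e)
      refine ⟨AddEquiv.toMultiplicative
        { toFun := fun z => z * (c * y.toAdd)
          invFun := fun z => z * (d * x.toAdd)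
          left_inv := fun z => ?_
          right_inv := fun z => ?_
          map_add' := fun u v => hadd _ u v }, ?_⟩
      · simp only [mul_assoc]
        rw [← mul_assoc y.toAdd d, hd1, one_mul, hc2, mul_one]
      · simp only [mul_assoc]
        rw [← mul_assoc x.toAdd c, hc1, one_mul, hd2, mul_one]
      · apply Multiplicative.toAdd.injective
        change x.toAdd * (c * y.toAdd) = y.toAdd
        rw [← mul_assoc, hc1, one_mul])
  exact ⟨p, j, hp, hj, hcard ▸ (Nat.card_congr Multiplicative.ofAdd).trans rfl,
    fun x y => hcomm (.ofAdd x) (.ofAdd y), fun x => hexp (.ofAdd x)⟩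

end Cfsg.Agent.S0682
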