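import Cfsg.Statements.S0684
import Cfsg.Agent.PermGroups.RegularLinearStructure

set_option autoImplicit false
open Cfsg

namespace Cfsg.Agent.S0684

/-- Point stabiliser of a sharply doubly transitive group not of semilinear type: a maximal normal abelian subgroup `A` of a linear group `H` that is regular on non-zero vectors and has no irreducible cyclic normal subgroup is cyclic and reducible, and the order of `A` divides `p ^ k - 1` for `k` the dimension of a minimal `A`-invariant subspace. -/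
theorem result {p : ℕ} [Fact p.Prime] {V : Type*} [AddCommGroup V] [Module (ZMod p) V] [Finite V] (H : Subgroup (V ≃ₗ[ZMod p] V)) (hreg : ∀ v w : V, v ≠ 0 → w ≠ 0 → ∃! h : H, (h : V ≃ₗ[ZMod p] V) v = w) (hI : ∀ A : Subgroup H, A.Normal → IsCyclic A → ∃ W : Submodule (ZMod p) V, W ≠ ⊥ ∧ W ≠ ⊤ ∧ ∀ a ∈ A, ∀ v ∈ W, ((a : H) : V ≃ₗ[ZMod p] V) v ∈ W) (A : Subgroup H) (hAn : A.Normal) (hAc : IsMulCommutative A) (hAmax : ∀ B : Subgroup H, B.Normal → IsMulCommutative B → A ≤ B → B = A) : IsCyclic A ∧ ∃ W : Submodule (ZMod p) V, W ≠ ⊥ ∧ W ≠ ⊤ ∧ (∀ a ∈ A, ∀ v ∈ W, ((a : H) : V ≃ₗ[ZMod p] V) v ∈ W) ∧ (∀ W' : Submodule (ZMod p) V, W' ≤ W → (∀ a ∈ A, ∀ v ∈ W', ((a : H) : V ≃ₗ[ZMod p] V) v ∈ W') → W' = ⊥ ∨ W' = W) ∧ Nat.card A ∣ p ^ Module.finrank (ZMod p) W - 1 := by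
  haveI := hAn
  haveI := PermGroups.RegLin.finite_group H
  haveI := (PermGroups.RegLin.NoIrrCyclic.nontrivial hI).1
  obtain ⟨hcyc, hdvd⟩ := PermGroups.RegLin.IsReg.isCyclic_and_dvd hreg hAc
  refine ⟨hcyc, ?_⟩
  obtain ⟨W₀, hW₀, hW₁, hWA⟩ := hI A hAn hcyc
  obtain ⟨w, hw, hw0⟩ := Submodule.exists_mem_ne_zero_of_ne_bot hW₀
  set R := PermGroups.RegLin.genAlg A with hR
  let ev : R →ₗ[ZMod p] V := (LinearMap.applyₗ w).comp R.val.toLinearMap
  have hev : Function.Injective ev := by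
    refine (injective_iff_map_eq_zero ev).2 fun r h => Subtype.ext ?_
    exact PermGroups.RegLin.IsReg.genAlg_eq_zero hreg hAc r.2 hw0 h
  have hstab : ∀ U : Submodule (ZMod p) V,
      (∀ a ∈ A, ∀ v ∈ U, ((a : H) : V ≃ₗ[ZMod p] V) v ∈ U) → ∀ r ∈ R, ∀ v ∈ U, r v ∈ U := by
    intro U hU r hr
    induction hr using Algebra.adjoin_induction with
    | mem y hy => obtain ⟨a, ha, rfl⟩ := hy; exact hU a ha
    | algebraMap c => intro x hx; rw [Module.algebraMap_end_apply]; exact U.smul_mem c hx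
    | add y z _ _ hy hz => intro x hx; exact add_mem (hy x hx) (hz x hx)
    | mul y z _ _ hy hz => intro x hx; exact hy _ (hz x hx)
  refine ⟨LinearMap.range ev, ?_, ?_, ?_, ?_, ?_⟩
  · rw [Submodule.ne_bot_iff]
    exact ⟨w, ⟨1, rfl⟩, hw0⟩
  · intro h
    refine hW₁ (Submodule.eq_top_iff'.2 fun x => ?_)
    obtain ⟨r, rfl⟩ : x ∈ LinearMap.range ev := h ▸ Submodule.mem_top
    exact hstab W₀ hWA r.1 r.2 w hw
  · rintro a ha _ ⟨r, rfl⟩
    exact ⟨⟨PermGroups.RegLin.toEnd a * r.1, mul_mem (PermGroups.RegLin.mem_genAlg ha) r.2⟩, rfl⟩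
  · intro W' hle hW'
    refine or_iff_not_imp_left.2 fun hne => le_antisymm hle ?_
    obtain ⟨x, hx, hx0⟩ := Submodule.exists_mem_ne_zero_of_ne_bot hne
    obtain ⟨r, rfl⟩ := hle hx
    haveI := PermGroups.RegLin.finite_genAlg A
    have hinj : Function.Injective (fun s : R => s * r) := fun s t e => by
      have e' : (s.1 * r.1 : Module.End (ZMod p) V) = t.1 * r.1 := congrArg Subtype.val e
      refine Subtype.ext (sub_eq_zero.1 (PermGroups.RegLin.IsReg.genAlg_eq_zero hreg hAc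
        (sub_mem s.2 t.2) hx0 ?_))
      show s.1 (r.1 w) - t.1 (r.1 w) = 0
      rw [sub_eq_zero]
      exact LinearMap.congr_fun e' w
    rintro _ ⟨s, rfl⟩
    obtain ⟨t, rfl⟩ := (Finite.injective_iff_surjective.1 hinj) s
    exact hstab W' hW' t.1 t.2 _ hx
  · rw [LinearMap.finrank_range_of_inj hev, ← PermGroups.RegLin.card_genAlg]
    exact hdvd

end Cfsg.Agent.S0684
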