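import Cfsg.Statements.S0689
import Cfsg.Agent.PermGroups.RegularLinearStructure

set_option autoImplicit false
open Cfsg

namespace Cfsg.Agent.S0689

/-- The insoluble sharply doubly transitive groups: a non-solvable linear group over the prime field that is regular on the non-zero vectors of `V` occurs only for `|V| = 11², 29², 59²`, and is `SL(2,5) × C_m` with `m = 1, 7, 29` respectively. -/
theorem result {p : ℕ} [Fact p.Prime] {V : Type*} [AddCommGroup V] [Module (ZMod p) V] [Finite V] (H : Subgroup (V ≃ₗ[ZMod p] V)) (hreg : ∀ v w : V, v ≠ 0 → w ≠ 0 → ∃! h : H, (h : V ≃ₗ[ZMod p] V) v = w) (hsolv : ¬ Group.IsSolvable H) : (Nat.card V = 121 ∧ Nonempty (H ≃* Matrix.SpecialLinearGroup (Fin 2) (ZMod 5))) ∨ (Nat.card V = 841 ∧ Nonempty (H ≃* Matrix.SpecialLinearGroup (Fin 2) (ZMod 5) × Multiplicative (ZMod 7))) ∨ (Nat.card V = 3481 ∧ Nonempty (H ≃* Matrix.SpecialLinearGroup (Fin 2) (ZMod 5) × Multiplicative (ZMod 29))) := by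
  classical
  haveI := PermGroups.RegLin.finite_group H
  haveI : Nontrivial V := by
    by_contra h
    rw [not_nontrivial_iff_subsingleton] at h
    exact hsolv (Group.isSolvable_of_comm fun a b => Subtype.ext (LinearEquiv.ext fun v => Subsingleton.elim _ _))
  have hI : PermGroups.RegLin.NoIrrCyclic H := by
    intro A hAn hcyc
    by_contra hcon
    push Not at hcon
    haveI := hAn
    have hAc : IsMulCommutative A := IsCyclic.isMulCommutative
    obtain ⟨v, hv⟩ := exists_ne (0 : V)
    set R := PermGroups.RegLin.genAlg A with hR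
    let ev : R →ₗ[ZMod p] V := (LinearMap.applyₗ v).comp R.val.toLinearMap
    have htop : LinearMap.range ev = ⊤ := by
      by_contra hne
      obtain ⟨a, ha, x, hx, hax⟩ := hcon (LinearMap.range ev)
        (by rw [Submodule.ne_bot_iff]; exact ⟨v, ⟨1, rfl⟩, hv⟩) hne
      obtain ⟨r, rfl⟩ := hx
      exact hax ⟨⟨PermGroups.RegLin.toEnd a * r.1, mul_mem (PermGroups.RegLin.mem_genAlg ha) r.2⟩, rfl⟩
    have hcomm : ∀ c ∈ Subgroup.centralizer (A : Set H), ∃ r ∈ R, PermGroups.RegLin.toEnd c = r := by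
      intro c hc
      obtain ⟨r, hr⟩ : PermGroups.RegLin.toEnd c v ∈ LinearMap.range ev := htop ▸ Submodule.mem_top
      refine ⟨r.1, r.2, LinearMap.ext fun x => ?_⟩
      obtain ⟨s, rfl⟩ : x ∈ LinearMap.range ev := htop ▸ Submodule.mem_top
      have h1 := PermGroups.RegLin.genAlg_commute_of_commute (x := PermGroups.RegLin.toEnd c) (fun a ha => by
        show _ * _ = _ * _
        rw [← PermGroups.RegLin.toEnd_mul, ← PermGroups.RegLin.toEnd_mul,
          Subgroup.mem_centralizer_iff.1 hc a ha]) s.2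
      have h2 := PermGroups.RegLin.genAlg_comm hAc r.2 s.2
      show PermGroups.RegLin.toEnd c (s.1 v) = r.1 (s.1 v)
      have e1 := LinearMap.congr_fun h1.eq v
      have e2 := LinearMap.congr_fun h2 v
      change PermGroups.RegLin.toEnd c (s.1 v) = s.1 (PermGroups.RegLin.toEnd c v) at e1
      change r.1 (s.1 v) = s.1 (r.1 v) at e2
      rw [e1, e2]
      exact congrArg s.1 hr.symm
    haveI : Group.IsSolvable (Subgroup.centralizer (A : Set H)) := Group.isSolvable_of_comm fun a b => by
      obtain ⟨r, hr, ea⟩ := hcomm a a.2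
      obtain ⟨s, hs, eb⟩ := hcomm b b.2
      refine Subtype.ext (PermGroups.RegLin.toEnd_injective ?_)
      rw [Subgroup.coe_mul, Subgroup.coe_mul, PermGroups.RegLin.toEnd_mul, PermGroups.RegLin.toEnd_mul, ea, eb]
      exact PermGroups.RegLin.genAlg_comm hAc hr hs
    refine hsolv (solvable_of_ker_le_range (Subgroup.centralizer (A : Set H)).subtype Abelianization.of ?_)
    rw [Subgroup.range_subtype, Abelianization.ker_of]
    exact (PermGroups.RegLin.IsReg.index_centralizer_dvd hreg hAc).2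
  obtain ⟨A, hA⟩ := PermGroups.RegLin.exists_isMaxAb H
  obtain ⟨N, hN⟩ := PermGroups.RegLin.exists_isMinNA hreg hI hA
  obtain ⟨hC, -, hV, h⟩ := PermGroups.RegLin.structure_of_minNA hreg hI hA hN
  rcases h with ⟨-, hs, -⟩ | ⟨⟨e⟩, h2, hH, hcase⟩
  · exact absurd hs hsolv
  haveI := hN.1
  haveI := hA.1
  obtain ⟨g, hg⟩ := (PermGroups.RegLin.IsReg.isCyclic_and_dvd hreg hA.2.1).1.exists_generator
  have hgord : orderOf (g : H) = Nat.card A := by
    rw [Subgroup.orderOf_coe]; exact orderOf_eq_card_of_forall_mem_zpowers hg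
  have key : ∀ m : ℕ, Nat.card A = 2 * m → Nat.Coprime 120 m →
      Nonempty (H ≃* Matrix.SpecialLinearGroup (Fin 2) (ZMod 5) × Multiplicative (ZMod m)) := by
    intro m hm hcop
    have hApos : 0 < Nat.card A := Nat.card_pos
    haveI : NeZero m := ⟨by omega⟩
    let M : Subgroup H := Subgroup.zpowers ((g : H) ^ 2)
    have hMA : M ≤ A := by rw [Subgroup.zpowers_le]; exact pow_mem g.2 2
    have hMc : Nat.card M = m := by
      rw [Nat.card_zpowers, orderOf_pow' _ two_ne_zero, hgord, hm, Nat.gcd_eq_right (dvd_mul_right 2 m)]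
      omega
    have hcomm : ∀ (x : N) (y : M), Commute (N.subtype x) (M.subtype y) := fun x y =>
      (Subgroup.mem_centralizer_iff.1 (hN.2.1 x.2) y (hMA y.2)).symm
    let φ : N × M →* H := MonoidHom.noncommCoprod N.subtype M.subtype hcomm
    have hφ : Function.Injective φ := by
      rw [injective_iff_map_eq_one]
      rintro ⟨x, y⟩ hxy
      have h1 : (x : H) * y = 1 := hxy
      have hx1 : (x : H) = ((y : H))⁻¹ := eq_inv_of_mul_eq_one_left h1
      have d1 : orderOf (x : H) ∣ 120 := by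
        rw [Subgroup.orderOf_coe, ← FGS4.Zass.card_T5, ← Nat.card_congr e.toEquiv]
        exact orderOf_dvd_natCard x
      have d2 : orderOf (x : H) ∣ m := by
        rw [hx1, orderOf_inv, Subgroup.orderOf_coe, ← hMc]
        exact orderOf_dvd_natCard y
      have hx : (x : H) = 1 := orderOf_eq_one_iff.1 (Nat.eq_one_of_dvd_coprimes hcop d1 d2)
      have hy : (y : H) = 1 := by rwa [hx, one_mul] at h1
      exact Prod.ext (Subtype.ext hx) (Subtype.ext hy)
    have hbij : Function.Bijective φ := by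
      refine hφ.bijective_of_nat_card_le (le_of_eq ?_)
      rw [Nat.card_prod, hH, hMc, hm, Nat.card_congr e.toEquiv, FGS4.Zass.card_T5]
      ring
    haveI : IsCyclic M := inferInstance
    exact ⟨(MulEquiv.ofBijective φ hbij).symm.trans (MulEquiv.prodCongr e
      (mulEquivOfCyclicCardEq (by rw [hMc, Nat.card_congr Multiplicative.toAdd, Nat.card_zmod])))⟩
  rcases hcase with ⟨rfl, ha⟩ | ⟨rfl, ha⟩ | ⟨rfl, ha⟩
  · refine Or.inl ⟨by rw [hV]; norm_num, ?_⟩
    obtain ⟨E⟩ := key 1 (by rw [ha]) (Nat.coprime_one_right _)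
    haveI : Unique (Multiplicative (ZMod 1)) := uniqueOfSubsingleton 1
    exact ⟨E.trans MulEquiv.prodUnique⟩
  · exact Or.inr (Or.inl ⟨by rw [hV]; norm_num, key 7 (by rw [ha]) (by norm_num)⟩)
  · exact Or.inr (Or.inr ⟨by rw [hV]; norm_num, key 29 (by rw [ha]) (by norm_num)⟩)

end Cfsg.Agent.S0689
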