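import Cfsg.Statements.S0690
import Cfsg.Agent.FGS4.Zass.Main
import Cfsg.Agent.FGS4.FrobeniusFPF
import Mathlib.Algebra.Group.End

set_option autoImplicit false
open Cfsg

namespace Cfsg.Agent.S0690

/-- Zassenhaus: a perfect non-trivial group of fixed-point-free automorphisms of a finite group is isomorphic to `SL(2,5)`. -/
theorem result {K : Type*} [Group K] [Finite K] (G : Subgroup (MulAut K)) (hfpf : ∀ φ ∈ G, φ ≠ 1 → ∀ k : K, φ k = k → k = 1) (hperf : commutator G = ⊤) (hne : G ≠ ⊥) : Nonempty (G ≃* Matrix.SpecialLinearGroup (Fin 2) (ZMod 5)) := by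
  haveI : Nontrivial G := (Subgroup.nontrivial_iff_ne_bot G).mpr hne
  haveI : Finite (MulAut K) :=
    Finite.of_injective (fun φ : MulAut K => (φ : K → K)) DFunLike.coe_injective
  haveI : Nontrivial K := by
    by_contra h
    rw [not_nontrivial_iff_subsingleton] at h
    exact hne ((Subgroup.eq_bot_iff_forall _).mpr fun φ _ => MulEquiv.ext fun k => Subsingleton.elim _ _)
  have hFC := FGS4.exists_complement_of_fpf G.subtype fun φ hφ k hk =>
    hfpf φ φ.2 (fun h => hφ (Subtype.ext h)) k hk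
  obtain ⟨m, hm, ⟨F⟩⟩ := FGS4.Zass.exists_fpfRep hFC
  haveI : Nonempty (Fin m) := ⟨⟨0, hm⟩⟩
  exact F.equiv_of_perfect hperf

end Cfsg.Agent.S0690
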