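import Cfsg.Statements.S0692
import Cfsg.Agent.PermGroups.MatTwoClosure

set_option autoImplicit false
open Cfsg

namespace Cfsg.Agent.S0692

/-- An exceptional sharply doubly transitive group of degree 11^2: the listed matrices generate a subgroup of GL(2,11) of order 120 acting regularly on the non-zero vectors. -/
theorem result (A : Matrix.GeneralLinearGroup (Fin 2) (ZMod 11)) (B : Matrix.GeneralLinearGroup (Fin 2) (ZMod 11)) (hA : (A : Matrix (Fin 2) (Fin 2) (ZMod 11)) = !![0, -1; 1, 0]) (hB : (B : Matrix (Fin 2) (Fin 2) (ZMod 11)) = !![2, 4; 1, -3]) : Nat.card (Subgroup.closure ({A, B} : Set (Matrix.GeneralLinearGroup (Fin 2) (ZMod 11)))) = 120 ∧ ∀ v w : Fin 2 → ZMod 11, v ≠ 0 → w ≠ 0 → ∃! h : Subgroup.closure ({A, B} : Set (Matrix.GeneralLinearGroup (Fin 2) (ZMod 11))), Matrix.mulVec ((h : Matrix.GeneralLinearGroup (Fin 2) (ZMod 11)) : Matrix (Fin 2) (Fin 2) (ZMod 11)) v = w := by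
  have : Fact (Nat.Prime 11) := ⟨by norm_num⟩
  refine Cfsg.Agent.PermGroups.closure_regular_of_quadCheck 11
    [(0, 10, 1, 0), (2, 4, 1, 8)] 20 _ ?_ ?_ (by decide +kernel)
  · rintro s (rfl | rfl)
    · exact ⟨(0, 10, 1, 0), by simp, hA.trans (by decide)⟩
    · exact ⟨(2, 4, 1, 8), by simp, hB.trans (by decide)⟩
  · intro g hg
    simp only [List.mem_cons, List.not_mem_nil, or_false] at hg
    rcases hg with rfl | rfl
    · exact ⟨A, by simp, hA.trans (by decide)⟩
    · exact ⟨B, by simp, hB.trans (by decide)⟩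

end Cfsg.Agent.S0692
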