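import Cfsg.Statements.S0693
import Mathlib

set_option autoImplicit false
open Cfsg

namespace Cfsg.Agent.S0693

/-- A `2 × 2` matrix over `ZMod 59`, written with natural entries. -/
abbrev Q : Type := ℕ × ℕ × ℕ × ℕ

/-- The first generator. -/
def qA : Q := (0, 58, 1, 0)

/-- The second generator. -/
def qB : Q := (9, 15, 49, 49)

/-- Product modulo 59. -/
def qmul (x y : Q) : Q :=
  ((x.1 * y.1 + x.2.1 * y.2.2.1) % 59, (x.1 * y.2.1 + x.2.1 * y.2.2.2) % 59,
    (x.2.2.1 * y.1 + x.2.2.2 * y.2.2.1) % 59, (x.2.2.1 * y.2.1 + x.2.2.2 * y.2.2.2) % 59)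

/-- The elements of the subgroup generated by the first two generators. -/
def elems : List Q :=
  [(1,0,0,1), (0,58,1,0), (9,15,49,49), (58,0,0,58), (15,50,49,10), (10,10,9,15),
    (49,44,10,9), (0,1,58,0), (50,44,10,10), (10,49,15,50), (44,10,9,49), (48,20,46,45),
    (49,50,49,44), (44,9,10,49), (49,49,50,44), (10,15,49,50), (20,11,45,13), (50,10,44,10),
    (13,14,48,20), (1,29,4,58), (55,48,23,4), (49,10,44,9), (15,49,50,10), (11,39,13,14),
    (10,9,10,15), (14,46,20,11), (29,58,58,55), (48,4,4,36), (11,13,39,14), (55,1,1,29),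
    (36,55,55,48), (14,20,46,11), (39,48,14,46), (9,49,15,49), (46,45,11,39), (58,30,55,1),
    (4,11,36,55), (13,48,14,20), (1,4,29,58), (55,23,48,4), (20,45,11,13), (35,32,31,25),
    (38,31,30,54), (28,35,34,32), (45,13,39,48), (30,1,1,4), (11,55,55,23), (48,46,20,45),
    (4,58,58,30), (23,4,4,11), (45,39,13,48), (32,24,25,28), (31,21,54,29), (35,31,32,25),
    (28,34,35,32), (29,5,38,31), (25,27,28,35), (54,28,29,38), (46,11,45,39), (58,55,30,1),
    (4,36,11,55), (39,14,48,46), (24,27,28,34), (21,28,29,5), (31,24,25,27), (34,31,32,24),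
    (5,30,31,21), (27,34,35,31), (28,5,38,30), (10,19,19,48), (5,38,38,53), (30,21,54,28),
    (27,35,34,31), (28,38,5,30), (24,28,27,34), (31,25,24,27), (30,54,21,28), (34,32,31,24),
    (5,31,30,21), (19,49,48,40), (38,54,53,21), (21,29,28,5), (40,11,10,19), (21,6,5,38),
    (25,16,42,34), (18,19,45,41), (25,28,27,35), (54,29,28,38), (32,25,24,28), (31,54,21,29),
    (49,40,40,11), (54,21,21,6), (29,38,5,31), (11,19,19,49), (6,38,38,54), (16,34,34,17),
    (19,41,41,14), (38,30,31,54), (17,25,25,16), (14,18,18,19), (40,10,11,19), (21,5,6,38),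
    (19,48,49,40), (38,53,54,21), (34,43,17,25), (41,40,14,18), (25,42,16,34), (18,45,19,41),
    (40,18,18,45), (56,52,52,3), (42,34,34,43), (48,40,40,10), (53,21,21,5), (43,25,25,42),
    (45,41,41,40), (52,3,3,7), (34,17,43,25), (41,14,40,18), (7,56,56,52), (3,7,7,56)]

/-- A predecessor for each element under left multiplication by a generator. -/
def parents : List ℕ :=
  [0, 0, 0, 1, 1, 2, 2, 3, 3, 4, 4, 5, 6, 7, 8, 8, 9, 10, 11, 11,
    12, 13, 13, 14, 15, 16, 16, 17, 18, 19, 20, 20, 21, 22, 23, 23, 24, 25, 26, 27,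
    27, 28, 29, 30, 32, 32, 33, 34, 35, 36, 36, 37, 38, 39, 41, 42, 42, 43, 44, 45,
    46, 46, 47, 48, 49, 51, 52, 52, 53, 54, 55, 57, 58, 59, 60, 62, 63, 63, 64, 65,
    66, 68, 69, 69, 70, 71, 72, 73, 73, 74, 75, 76, 78, 79, 79, 80, 81, 82, 84, 85,
    86, 87, 90, 90, 91, 92, 95, 96, 97, 98, 99, 100, 100, 101, 105, 106, 107, 108, 109, 110]

/-- The element with a given index. -/
def el (i : ℕ) : Q := elems.getD i (1, 0, 0, 1)

theorem elems_length : elems.length = 120 := by decide +kernel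

theorem elems_nodup : elems.Nodup := by decide +kernel

theorem elems_closed : ∀ x ∈ elems, qmul qA x ∈ elems ∧ qmul qB x ∈ elems := by decide +kernel

theorem elems_lt : ∀ x ∈ elems, x.1 < 59 ∧ x.2.1 < 59 ∧ x.2.2.1 < 59 ∧ x.2.2.2 < 59 := by decide +kernel

theorem elems_det : ∀ x ∈ elems, (x.1 * x.2.2.2 + 58 * (x.2.1 * x.2.2.1)) % 59 = 1 := by decide +kernel

theorem elems_parent : ∀ i < 120, i = 0 ∨ parents.getD i 0 < i ∧
    (el i = qmul qA (el (parents.getD i 0)) ∨ el i = qmul qB (el (parents.getD i 0))) := by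
  decide +kernel

theorem elems_fpf : ∀ k < 29, ∀ x ∈ elems,
    (4 ^ (2 * k) + 58 * (4 ^ k * (x.1 + x.2.2.2)) + 1) % 59 = 0 → k = 0 ∧ x = (1, 0, 0, 1) := by
  decide +kernel

theorem pow_four_inj : ∀ k < 29, ∀ l < 29, 4 ^ (2 * k) % 59 = 4 ^ (2 * l) % 59 → k = l := by
  decide +kernel

/-- The matrix of a quadruple. -/
def toM (x : Q) : Matrix (Fin 2) (Fin 2) (ZMod 59) :=
  !![(x.1 : ZMod 59), (x.2.1 : ZMod 59); (x.2.2.1 : ZMod 59), (x.2.2.2 : ZMod 59)]

theorem toM_qmul (x y : Q) : toM (qmul x y) = toM x * toM y := by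
  simp only [toM, qmul, Matrix.mul_fin_two, ZMod.natCast_mod, Nat.cast_add, Nat.cast_mul]

theorem cast_58 : ((58 : ℕ) : ZMod 59) = -1 := by decide

theorem det_toM {x : Q} (hx : x ∈ elems) : (toM x).det = 1 := by
  have h := congrArg (Nat.cast : ℕ → ZMod 59) (elems_det x hx)
  rw [ZMod.natCast_mod, Nat.cast_add, Nat.cast_mul, Nat.cast_mul, Nat.cast_mul, cast_58, Nat.cast_one] at h
  rw [toM, Matrix.det_fin_two_of]
  linear_combination h

theorem toM_inj {x y : Q} (hx : x ∈ elems) (hy : y ∈ elems) (h : toM x = toM y) : x = y := by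
  have hc : ∀ {a b : ℕ}, a < 59 → b < 59 → (a : ZMod 59) = b → a = b := fun ha hb hab => by
    have := congrArg ZMod.val hab
    rwa [ZMod.val_cast_of_lt ha, ZMod.val_cast_of_lt hb] at this
  obtain ⟨x1, x2, x3, x4⟩ := elems_lt x hx
  obtain ⟨y1, y2, y3, y4⟩ := elems_lt y hy
  have h00 := congrFun (congrFun h 0) 0
  have h01 := congrFun (congrFun h 0) 1
  have h10 := congrFun (congrFun h 1) 0
  have h11 := congrFun (congrFun h 1) 1
  simp only [toM, Matrix.of_apply, Matrix.cons_val', Matrix.cons_val_zero, Matrix.cons_val_one,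
    Matrix.cons_val_fin_one, Matrix.empty_val'] at h00 h01 h10 h11
  exact Prod.ext (hc x1 y1 h00) (Prod.ext (hc x2 y2 h01) (Prod.ext (hc x3 y3 h10) (hc x4 y4 h11)))


/-- An exceptional sharply doubly transitive group of degree 59^2: the listed matrices generate a subgroup of GL(2,59) of order 3480 acting regularly on the non-zero vectors. -/
theorem result (A : Matrix.GeneralLinearGroup (Fin 2) (ZMod 59)) (B : Matrix.GeneralLinearGroup (Fin 2) (ZMod 59)) (C : Matrix.GeneralLinearGroup (Fin 2) (ZMod 59)) (hA : (A : Matrix (Fin 2) (Fin 2) (ZMod 59)) = !![0, -1; 1, 0]) (hB : (B : Matrix (Fin 2) (Fin 2) (ZMod 59)) = !![9, 15; -10, -10]) (hC : (C : Matrix (Fin 2) (Fin 2) (ZMod 59)) = !![4, 0; 0, 4]) : Nat.card (Subgroup.closure ({A, B, C} : Set (Matrix.GeneralLinearGroup (Fin 2) (ZMod 59)))) = 3480 ∧ ∀ v w : Fin 2 → ZMod 59, v ≠ 0 → w ≠ 0 → ∃! h : Subgroup.closure ({A, B, C} : Set (Matrix.GeneralLinearGroup (Fin 2) (ZMod 59))), Matrix.mulVec ((h : Matrix.GeneralLinearGroup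 (Fin 2) (ZMod 59)) : Matrix (Fin 2) (Fin 2) (ZMod 59)) v = w := by
  classical
  have h429 : (4 : ZMod 59) ^ 29 = 1 := by decide
  have h4ne : (4 : ZMod 59) ≠ 0 := by decide
  have he1 : (![1, 0] : Fin 2 → ZMod 59) ≠ 0 := by decide
  have h4M : (!![4, 0; 0, 4] : Matrix (Fin 2) (Fin 2) (ZMod 59)) = (4 : ZMod 59) • 1 := by decide
  haveI : Fact (Nat.Prime 59) := ⟨by norm_num⟩
  set H := Subgroup.closure ({A, B, C} : Set (Matrix.GeneralLinearGroup (Fin 2) (ZMod 59))) with hH
  have hAM : (A : Matrix (Fin 2) (Fin 2) (ZMod 59)) = toM qA := by rw [hA]; decide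
  have hBM : (B : Matrix (Fin 2) (Fin 2) (ZMod 59)) = toM qB := by rw [hB]; decide
  have hCM : (C : Matrix (Fin 2) (Fin 2) (ZMod 59)) = (4 : ZMod 59) • 1 := by
    rw [hC]; exact h4M
  have hmem : ∀ i : Fin 120, el i ∈ elems := fun i => by
    rw [el, List.getD_eq_getElem elems _ (by rw [elems_length]; exact i.2)]
    exact List.getElem_mem _
  have hgen : ∀ i : ℕ, i < 120 → ∃ g ∈ H,
      (g : Matrix (Fin 2) (Fin 2) (ZMod 59)) = toM (el i) := by
    intro i
    induction i using Nat.strong_induction_on with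
    | _ i ih =>
      intro hi
      rcases elems_parent i hi with rfl | ⟨hlt, heq⟩
      · refine ⟨1, one_mem _, ?_⟩
        rw [Units.val_one, show el 0 = (1, 0, 0, 1) by decide +kernel, toM, Matrix.one_fin_two]
        simp
      · obtain ⟨g, hg, hgM⟩ := ih _ hlt (by omega)
        rcases heq with heq | heq
        · exact ⟨A * g, mul_mem (Subgroup.subset_closure (by simp)) hg,
            by rw [Units.val_mul, heq, toM_qmul, hAM, hgM]⟩
        · exact ⟨B * g, mul_mem (Subgroup.subset_closure (by simp)) hg,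
            by rw [Units.val_mul, heq, toM_qmul, hBM, hgM]⟩
  have hCk : ∀ k : ℕ, ((C ^ k : Matrix.GeneralLinearGroup (Fin 2) (ZMod 59)) :
      Matrix (Fin 2) (Fin 2) (ZMod 59)) = ((4 : ZMod 59) ^ k) • 1 := fun k => by
    rw [Units.val_pow_eq_pow_val, hCM, smul_pow, one_pow]
  -- every element has the normal form `4 ^ k • x`
  have hform : ∀ g ∈ H, ∃ k < 29, ∃ x ∈ elems,
      (g : Matrix (Fin 2) (Fin 2) (ZMod 59)) = ((4 : ZMod 59) ^ k) • toM x := by
    intro g hg
    rw [hH, ← Subgroup.mem_toSubmonoid, Subgroup.closure_toSubmonoid_of_finite] at hg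
    induction hg using Submonoid.closure_induction_left with
    | one =>
      refine ⟨0, by norm_num, _, hmem 0, ?_⟩
      rw [Units.val_one, pow_zero, one_smul, show el (0 : Fin 120) = (1, 0, 0, 1) by decide +kernel,
        toM, Matrix.one_fin_two]
      simp
    | mul_left s hs y _ ih =>
      obtain ⟨k, hk, x, hx, hyM⟩ := ih
      rcases hs with rfl | rfl | rfl
      · exact ⟨k, hk, _, (elems_closed x hx).1, by rw [Units.val_mul, hAM, hyM, Matrix.mul_smul, toM_qmul]⟩
      · exact ⟨k, hk, _, (elems_closed x hx).2, by rw [Units.val_mul, hBM, hyM, Matrix.mul_smul, toM_qmul]⟩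
      · refine ⟨(k + 1) % 29, Nat.mod_lt _ (by norm_num), x, hx, ?_⟩
        rw [Units.val_mul, hCM, hyM, Matrix.smul_mul, one_mul, smul_smul, ← pow_succ',
          pow_eq_pow_mod _ h429]
  -- only the identity fixes a non-zero vector
  have hfpf : ∀ g ∈ H, ∀ v : Fin 2 → ZMod 59, v ≠ 0 →
      (g : Matrix (Fin 2) (Fin 2) (ZMod 59)).mulVec v = v → g = 1 := by
    intro g hg v hv hgv
    obtain ⟨k, hk, x, hx, hgM⟩ := hform g hg
    have h0 : ((g : Matrix (Fin 2) (Fin 2) (ZMod 59)) - 1).det = 0 :=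
      Matrix.exists_mulVec_eq_zero_iff.1 ⟨v, hv, by rw [Matrix.sub_mulVec, hgv, Matrix.one_mulVec, sub_self]⟩
    have hdet := det_toM hx
    rw [toM, Matrix.det_fin_two_of] at hdet
    rw [hgM, Matrix.det_fin_two] at h0
    simp only [toM, Matrix.sub_apply, Matrix.smul_apply, Matrix.of_apply, Matrix.cons_val',
      Matrix.cons_val_zero, Matrix.cons_val_one, Matrix.cons_val_fin_one, Matrix.empty_val',
      Matrix.one_apply_eq, smul_eq_mul, Matrix.one_apply_ne (show (0 : Fin 2) ≠ 1 by decide),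
      Matrix.one_apply_ne (show (1 : Fin 2) ≠ 0 by decide)] at h0
    have hn : ((4 ^ (2 * k) + 58 * (4 ^ k * (x.1 + x.2.2.2)) + 1 : ℕ) : ZMod 59) = 0 := by
      rw [Nat.cast_add, Nat.cast_add, Nat.cast_mul, cast_58, Nat.cast_mul, Nat.cast_pow, Nat.cast_pow,
        Nat.cast_add, Nat.cast_one, Nat.cast_ofNat, pow_mul']
      linear_combination h0 - ((4 : ZMod 59) ^ k) ^ 2 * hdet
    rw [ZMod.natCast_eq_zero_iff] at hn
    obtain ⟨rfl, rfl⟩ := elems_fpf k hk x hx (Nat.mod_eq_zero_of_dvd hn)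
    refine Units.ext (hgM.trans ?_)
    rw [pow_zero, one_smul, Units.val_one, toM, Matrix.one_fin_two]
    simp
  -- so the group has order 3480
  choose gi hgi hgiM using hgen
  have hlow : 3480 ≤ Nat.card H := by
    let f : Fin 29 × Fin 120 → H := fun p =>
      ⟨C ^ (p.1 : ℕ) * gi p.2 p.2.2,
        mul_mem (pow_mem (Subgroup.subset_closure (by simp)) _) (hgi _ _)⟩
    have hf : Function.Injective f := by
      rintro ⟨k, i⟩ ⟨l, j⟩ hkl
      have hM := congrArg (fun h : H => ((h : Matrix.GeneralLinearGroup (Fin 2) (ZMod 59)) :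
        Matrix (Fin 2) (Fin 2) (ZMod 59))) hkl
      simp only [f, Units.val_mul, hCk, hgiM, Matrix.smul_mul, one_mul] at hM
      have hdk := congrArg Matrix.det hM
      simp only [Matrix.det_smul, Fintype.card_fin, det_toM (hmem _), mul_one, ← pow_mul] at hdk
      have hkl' : (k : ℕ) = l := by
        refine pow_four_inj _ k.2 _ l.2 ?_
        rw [← ZMod.natCast_eq_natCast_iff']
        push_cast
        rw [mul_comm 2, mul_comm 2]
        exact hdk
      rw [hkl'] at hM
      have hM' := toM_inj (hmem i) (hmem j)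
        ((smul_right_injective _ (pow_ne_zero _ h4ne)) hM)
      refine Prod.ext (Fin.ext hkl') (Fin.ext ?_)
      have hi : (i : ℕ) < elems.length := by rw [elems_length]; exact i.2
      have hj : (j : ℕ) < elems.length := by rw [elems_length]; exact j.2
      rw [el, el, List.getD_eq_getElem _ _ hi, List.getD_eq_getElem _ _ hj] at hM'
      exact (elems_nodup.getElem_inj_iff).1 hM'
    refine le_trans (le_of_eq ?_) (Nat.card_le_card_of_injective f hf)
    simp
  have hone : ∀ v : Fin 2 → ZMod 59, v ≠ 0 →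
      ∃ F : H → {w : Fin 2 → ZMod 59 // w ≠ 0}, Function.Injective F ∧
        ∀ h, (F h : Fin 2 → ZMod 59) = ((h : Matrix.GeneralLinearGroup (Fin 2) (ZMod 59)) : Matrix (Fin 2) (Fin 2) (ZMod 59)).mulVec v := by
    intro v hv
    refine ⟨fun h => ⟨((h : Matrix.GeneralLinearGroup (Fin 2) (ZMod 59)) : Matrix (Fin 2) (Fin 2) (ZMod 59)).mulVec v,
      fun h0 => hv ?_⟩, fun h h' heq => ?_, fun h => rfl⟩
    · have := congrArg (((h : Matrix.GeneralLinearGroup (Fin 2) (ZMod 59))⁻¹ :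
        Matrix.GeneralLinearGroup (Fin 2) (ZMod 59)) : Matrix (Fin 2) (Fin 2) (ZMod 59)).mulVec h0
      rwa [Matrix.mulVec_mulVec, ← Units.val_mul, inv_mul_cancel, Units.val_one, Matrix.one_mulVec,
        Matrix.mulVec_zero] at this
    · have heq' : ((h : Matrix.GeneralLinearGroup (Fin 2) (ZMod 59)) : Matrix (Fin 2) (Fin 2) (ZMod 59)).mulVec v =
          ((h' : Matrix.GeneralLinearGroup (Fin 2) (ZMod 59)) : Matrix (Fin 2) (Fin 2) (ZMod 59)).mulVec v :=
        congrArg Subtype.val heq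
      have hfix : (((h'⁻¹ * h : H) : Matrix.GeneralLinearGroup (Fin 2) (ZMod 59)) :
          Matrix (Fin 2) (Fin 2) (ZMod 59)).mulVec v = v := by
        rw [Subgroup.coe_mul, Subgroup.coe_inv, Units.val_mul, ← Matrix.mulVec_mulVec, heq',
          Matrix.mulVec_mulVec, ← Units.val_mul, inv_mul_cancel, Units.val_one, Matrix.one_mulVec]
      exact (inv_mul_eq_one.1 (Subtype.ext (hfpf _ (h'⁻¹ * h).2 v hv hfix))).symm
  have hvec : Nat.card {w : Fin 2 → ZMod 59 // w ≠ 0} = 3480 := by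
    rw [Nat.card_eq_fintype_card, Fintype.card_subtype_compl, Fintype.card_subtype_eq,
      Fintype.card_fun, ZMod.card, Fintype.card_fin]
    norm_num
  obtain ⟨F0, hF0, -⟩ := hone ![1, 0] he1
  have hcard : Nat.card H = 3480 :=
    le_antisymm (hvec ▸ Nat.card_le_card_of_injective F0 hF0) hlow
  refine ⟨hcard, fun v w hv hw => ?_⟩
  obtain ⟨F, hF, hFv⟩ := hone v hv
  obtain ⟨h, hh⟩ := (hF.bijective_of_nat_card_le (hvec.trans hcard.symm).le).2 ⟨w, hw⟩
  refine ⟨h, ?_, fun y hy => hF (Subtype.ext ?_)⟩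
  · show Matrix.mulVec _ v = w
    rw [← hFv, hh]
  · rw [hFv, hFv]
    exact hy.trans (by rw [← hFv, hh])

end Cfsg.Agent.S0693
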