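import Cfsg.Statements.S0698
import Cfsg.Agent.PermGroups.Wagner
import Cfsg.Agent.PermGroups.NormalTransitive

set_option autoImplicit false
open Cfsg

namespace Cfsg.Agent.S0698

/-- Jordan's Theorem on normal subgroups of multiply transitive groups: if `G` is `k`-transitive (`k > 1`) of degree greater than `k`, a non-trivial normal subgroup is `(k-1)`-transitive, except possibly for `k = 3` when it may be an elementary abelian 2-group. -/
theorem result {α : Type*} [Fintype α] [DecidableEq α] (G : Subgroup (Equiv.Perm α)) {k : ℕ} (hk : 1 < k) (hdeg : k < Fintype.card α) (hG : MulAction.IsMultiplyPretransitive G α k) (N : Subgroup G) [N.Normal] (hN : N ≠ ⊥) : MulAction.IsMultiplyPretransitive N α (k - 1) ∨ (k = 3 ∧ IsMulCommutative N ∧ ∀ n ∈ N, n ^ 2 = 1) := by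
  classical
  have hn : Nat.card α = Fintype.card α := Nat.card_eq_fintype_card
  have hG2 : MulAction.IsMultiplyPretransitive G α 2 :=
    MulAction.isMultiplyPretransitive_of_le (n := k) (by omega) (by omega)
  haveI hprim : MulAction.IsPreprimitive G α := MulAction.isPreprimitive_of_is_two_pretransitive hG2
  haveI hNt : MulAction.IsPretransitive N α := PermGroups.pretransitive_of_normal N hN
  rcases Nat.lt_or_ge k 3 with h3 | h3
  · obtain rfl : k = 2 := by omega
    exact Or.inl (MulAction.is_one_pretransitive_iff.2 hNt)
  have hG3 : MulAction.IsMultiplyPretransitive G α 3 :=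
    MulAction.isMultiplyPretransitive_of_le (n := k) (by omega) (by omega)
  by_cases hnr : ∃ a : α, MulAction.stabilizer N a ≠ ⊥
  · refine Or.inl ?_
    obtain ⟨a, ha⟩ := hnr
    rcases Nat.lt_or_ge k 4 with h4 | h4
    · obtain rfl : k = 3 := by omega
      exact PermGroups.two_transitive_of_nonregular_normal (by omega) hG3 N ha
    by_cases hfull : MulAction.IsMultiplyPretransitive G α (Nat.card α - 1)
    · have hGt : G = ⊤ := Equiv.Perm.eq_top_of_isMultiplyPretransitive hfull
      have hmn : (N.map G.subtype).Normal := by
        refine ⟨?_⟩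
        rintro _ ⟨n, hn', rfl⟩ t
        have ht : t ∈ G := by rw [hGt]; exact Subgroup.mem_top t
        exact ⟨(⟨t, ht⟩ : G) * n * (⟨t, ht⟩ : G)⁻¹, ‹N.Normal›.conj_mem n hn' _, rfl⟩
      haveI := hmn
      have hle : alternatingGroup α ≤ N.map G.subtype :=
        Equiv.Perm.alternatingGroup_le_of_normal (by omega) ((Subgroup.nontrivial_iff_ne_bot _).2 fun e =>
          hN ((Subgroup.map_eq_bot_iff_of_injective _ G.subtype_injective).1 e))
      have halt : MulAction.IsMultiplyPretransitive (alternatingGroup α) α (k - 1) :=
        haveI := alternatingGroup.isMultiplyPretransitive α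
        MulAction.isMultiplyPretransitive_of_le (n := Nat.card α - 2) (by omega) (by omega)
      refine ⟨fun x y => ?_⟩
      obtain ⟨⟨g, hg⟩, hgxy⟩ := halt.exists_smul_eq x y
      obtain ⟨n, hn', rfl⟩ := hle hg
      exact ⟨⟨n, hn'⟩, hgxy⟩
    · have hkp : MulAction.IsMultiplyPreprimitive G α (k - 1) := by
        haveI : MulAction.IsMultiplyPretransitive G α (k - 1).succ := by
          rw [show (k - 1).succ = k by omega]; exact hG
        exact MulAction.isMultiplyPreprimitive_of_isMultiplyPretransitive_succ G α (by
          rw [ENat.card_eq_coe_natCard]; exact_mod_cast (show (k - 1).succ ≤ Nat.card α by omega))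
      exact PermGroups.normal_multiplyPretransitive (k - 1) (by omega) (by omega) hkp hfull N
        inferInstance hN ⟨a, ha⟩
  · push Not at hnr
    have h2p : MulAction.IsMultiplyPreprimitive G α 2 :=
      MulAction.isMultiplyPreprimitive_of_isMultiplyPretransitive_succ G α (by
        rw [ENat.card_eq_coe_natCard]; exact_mod_cast (show 2 + 1 ≤ Nat.card α by omega))
    rcases PermGroups.two_primitive_regular_normal (by omega) h2p N hNt hnr with h | ⟨hc, he, -⟩
    · omega
    rcases Nat.lt_or_ge k 4 with h4 | h4
    · exact Or.inr ⟨by omega, ⟨⟨hc⟩⟩, fun n hn' => congrArg Subtype.val (he ⟨n, hn'⟩)⟩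
    have h3p : MulAction.IsMultiplyPreprimitive G α 3 := by
      haveI : MulAction.IsMultiplyPretransitive G α 4 :=
        MulAction.isMultiplyPretransitive_of_le (n := k) (by omega) (by omega)
      exact MulAction.isMultiplyPreprimitive_of_isMultiplyPretransitive_succ G α (by
        rw [ENat.card_eq_coe_natCard]; exact_mod_cast (show 3 + 1 ≤ Nat.card α by omega))
    rcases PermGroups.three_primitive_regular_normal (by omega) h3p N hNt hnr with h | h <;> omega

end Cfsg.Agent.S0698
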