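import Cfsg.Statements.S0701
import Mathlib

set_option autoImplicit false
open Cfsg

namespace Cfsg.Agent.S0701

/-- The centraliser in the full symmetric group of a transitive permutation group `G` is semiregular, and it is transitive if and only if `G` is regular. -/
theorem result {α : Type*} (G : Subgroup (Equiv.Perm α)) [MulAction.IsPretransitive G α] : (∀ c ∈ Subgroup.centralizer (G : Set (Equiv.Perm α)), ∀ a : α, c a = a → c = 1) ∧ (MulAction.IsPretransitive (Subgroup.centralizer (G : Set (Equiv.Perm α))) α ↔ ∀ a : α, MulAction.stabilizer G a = ⊥) := by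
  have semi : ∀ c ∈ Subgroup.centralizer (G : Set (Equiv.Perm α)), ∀ a : α, c a = a → c = 1 := by
    intro c hc a ha
    ext x
    obtain ⟨g, rfl⟩ := MulAction.exists_smul_eq G a x
    have := DFunLike.congr_fun (Subgroup.mem_centralizer_iff.mp hc g g.2) a
    simp only [Equiv.Perm.coe_mul, Function.comp_apply, ha] at this
    simpa [Subgroup.smul_def] using this.symm
  refine ⟨semi, ?_, ?_⟩
  · intro hC a
    rw [eq_bot_iff]
    intro g hg
    rw [Subgroup.mem_bot]
    apply Subtype.ext
    ext x
    obtain ⟨c, hc⟩ := MulAction.exists_smul_eq (Subgroup.centralizer (G : Set (Equiv.Perm α))) a x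
    have := DFunLike.congr_fun (Subgroup.mem_centralizer_iff.mp c.2 g g.2) a
    have hga : (g : Equiv.Perm α) a = a := hg
    have hca : (c : Equiv.Perm α) a = x := hc
    simp only [Equiv.Perm.coe_mul, Function.comp_apply, hga, hca] at this
    simpa using this
  · intro hreg
    have bij : ∀ a : α, Function.Bijective (fun g : G => g • a) := by
      intro a
      refine ⟨fun g h hgh => ?_, fun x => MulAction.exists_smul_eq G a x⟩
      have h1 : h⁻¹ * g ∈ MulAction.stabilizer G a := by
        simp only [MulAction.mem_stabilizer_iff, mul_smul] at *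
        rw [hgh, inv_smul_smul]
      rw [hreg a, Subgroup.mem_bot] at h1
      exact (inv_mul_eq_one.mp h1).symm
    refine ⟨fun a b => ?_⟩
    let c : Equiv.Perm α := (Equiv.ofBijective _ (bij a)).symm.trans (Equiv.ofBijective _ (bij b))
    have hc : ∀ g : G, c (g • a) = g • b := by
      intro g
      simp only [c, Equiv.trans_apply]
      have : (Equiv.ofBijective _ (bij a)).symm (g • a) = g :=
        (Equiv.ofBijective _ (bij a)).symm_apply_apply g
      rw [this]
      rfl
    refine ⟨⟨c, ?_⟩, ?_⟩
    · rw [Subgroup.mem_centralizer_iff]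
      intro h hh
      ext x
      obtain ⟨g, rfl⟩ := MulAction.exists_smul_eq G a x
      have h2 := hc ((⟨h, hh⟩ : G) * g)
      simp only [Equiv.Perm.coe_mul, Function.comp_apply]
      rw [hc g]
      exact h2.symm
    · have h3 := hc 1
      rw [one_smul, one_smul] at h3
      exact h3

end Cfsg.Agent.S0701
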