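import Cfsg.Statements.S0702
import Mathlib

set_option autoImplicit false
open Cfsg

namespace Cfsg.Agent.S0702

/-- For a transitive permutation group `G` on a finite set, the centraliser of `G` in the symmetric group is isomorphic to `N_G(G_ω)/G_ω`, and its orbit of `ω` is the set of fixed points of `G_ω`. -/
theorem result {α : Type*} [Finite α] (G : Subgroup (Equiv.Perm α)) [MulAction.IsPretransitive G α] (a : α) : Nonempty (Subgroup.centralizer (G : Set (Equiv.Perm α)) ≃* Subgroup.normalizer ((MulAction.stabilizer G a : Subgroup G) : Set G) ⧸ (MulAction.stabilizer G a).subgroupOf (Subgroup.normalizer ((MulAction.stabilizer G a : Subgroup G) : Set G))) ∧ MulAction.orbit (Subgroup.centralizer (G : Set (Equiv.Perm α))) a = MulAction.fixedPoints (MulAction.stabilizer G a) α := by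
  classical
  set S := MulAction.stabilizer G a with hS
  set N := Subgroup.normalizer ((MulAction.stabilizer G a : Subgroup G) : Set G) with hN
  set C := Subgroup.centralizer (G : Set (Equiv.Perm α)) with hC
  have cl : ∀ c : C, ∀ g : G, ∀ x : α, (c : Equiv.Perm α) (g • x) = g • (c : Equiv.Perm α) x := by
    intro c g x
    have := DFunLike.congr_fun (Subgroup.mem_centralizer_iff.mp c.2 g g.2) x
    simpa [Subgroup.smul_def] using this.symm
  choose t ht using fun x : α => MulAction.exists_smul_eq G a x
  -- normalising criterion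
  have normal_of : ∀ g : G, (∀ s ∈ S, s • g • a = g • a) → g ∈ N := by
    intro g hg
    have hle : S.map (MulEquiv.toMonoidHom (MulAut.conj g⁻¹)) ≤ S := by
      rintro _ ⟨s, hs, rfl⟩
      simp [hS, MulAction.mem_stabilizer_iff, mul_smul, MulAut.conj_apply, hg s hs]
    have heq : S.map (MulEquiv.toMonoidHom (MulAut.conj g⁻¹)) = S :=
      Subgroup.eq_of_le_of_card_ge hle
        (Nat.le_of_eq (Nat.card_congr (S.equivMapOfInjective _ (MulAut.conj g⁻¹).injective).toEquiv))
    rw [hN, Subgroup.mem_normalizer_iff]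
    intro h
    have : h ∈ S ↔ g * h * g⁻¹ ∈ S := by
      constructor
      · intro hh
        rw [← heq] at hh
        obtain ⟨s, hs, rfl⟩ := hh
        simpa [MulAut.conj_apply, mul_assoc] using hs
      · intro hh
        rw [← heq]
        exact ⟨_, hh, by simp [MulAut.conj_apply, mul_assoc]⟩
    exact this
  have key : ∀ n ∈ N, ∀ g h : G, g • a = h • a → g • n⁻¹ • a = h • n⁻¹ • a := by
    intro n hn g h e
    have h1 : h⁻¹ * g ∈ S := by
      simp [hS, MulAction.mem_stabilizer_iff, mul_smul, e]
    have h2 := (Subgroup.mem_normalizer_iff.mp hn (h⁻¹ * g)).mp h1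
    have h3 : n • h⁻¹ • g • n⁻¹ • a = a := by
      simpa [hS, MulAction.mem_stabilizer_iff, mul_smul] using h2
    calc g • n⁻¹ • a = h • n⁻¹ • n • h⁻¹ • g • n⁻¹ • a := by simp
      _ = h • n⁻¹ • a := by rw [h3]
  let f : N → α → α := fun n x => t x • ((n : G)⁻¹) • a
  have fapp : ∀ (n : N) (g : G), f n (g • a) = g • ((n : G)⁻¹) • a := fun n g =>
    key _ n.2 _ _ (ht (g • a))
  have fmul : ∀ (m n : N) (x : α), f (m * n) x = f m (f n x) := by
    intro m n x
    obtain ⟨g, rfl⟩ := MulAction.exists_smul_eq G a x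
    rw [fapp (m * n) g, fapp n g, ← mul_smul g ((n : G)⁻¹) a, fapp]
    simp [mul_smul]
  have fone : ∀ x, f 1 x = x := by
    intro x
    simp [f, ht]
  let e : N → Equiv.Perm α := fun n =>
    ⟨f n, f n⁻¹, fun x => by rw [← fmul, inv_mul_cancel, fone],
      fun x => by rw [← fmul, mul_inv_cancel, fone]⟩
  have emem : ∀ n, e n ∈ C := by
    intro n
    rw [hC, Subgroup.mem_centralizer_iff]
    intro h hh
    ext x
    obtain ⟨g, rfl⟩ := MulAction.exists_smul_eq G a x
    have h4 := fapp n ((⟨h, hh⟩ : G) * g)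
    have h5 := fapp n g
    simp only [mul_smul] at h4
    change h (f n (g • a)) = f n (h (g • a))
    rw [h5]
    exact h4.symm
  let φ : N →* C := MonoidHom.mk' (fun n => ⟨e n, emem n⟩) (fun m n => by
    apply Subtype.ext
    ext x
    exact fmul m n x)
  have surj : Function.Surjective φ := by
    intro c
    obtain ⟨g, hg⟩ := MulAction.exists_smul_eq G a ((c : Equiv.Perm α) a)
    have hn : g ∈ N := normal_of g fun s hs => by
      rw [hg, ← cl c s a]
      rw [show s • a = a from hs]
    refine ⟨⟨g⁻¹, inv_mem hn⟩, ?_⟩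
    apply Subtype.ext
    ext x
    obtain ⟨h, rfl⟩ := MulAction.exists_smul_eq G a x
    change f _ (h • a) = _
    rw [fapp, cl c h a]
    simp [hg]
  have ker : φ.ker = S.subgroupOf N := by
    ext n
    rw [MonoidHom.mem_ker, Subgroup.mem_subgroupOf]
    constructor
    · intro h
      have h6 : f n ((1 : G) • a) = (1 : G) • a := by
        have := DFunLike.congr_fun (congrArg Subtype.val h) ((1 : G) • a)
        exact this
      rw [fapp, one_smul, one_smul] at h6
      exact (inv_mem_iff).mp (show (n : G)⁻¹ ∈ S from h6)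
    · intro h
      apply Subtype.ext
      ext x
      obtain ⟨g, rfl⟩ := MulAction.exists_smul_eq G a x
      change f n (g • a) = g • a
      rw [fapp, show ((n : G)⁻¹) • a = a from (inv_mem (show (n : G) ∈ S from h) :)]
  refine ⟨⟨((QuotientGroup.quotientMulEquivOfEq ker.symm).trans
    (QuotientGroup.quotientKerEquivOfSurjective φ surj)).symm⟩, ?_⟩
  ext x
  constructor
  · rintro ⟨c, rfl⟩ ⟨s, hs⟩
    change s • (c : Equiv.Perm α) a = (c : Equiv.Perm α) a
    rw [← cl c s a, show s • a = a from hs]
  · intro hx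
    obtain ⟨g, rfl⟩ := MulAction.exists_smul_eq G a x
    have hn : g ∈ N := normal_of g fun s hs => hx ⟨s, hs⟩
    refine ⟨φ ⟨g⁻¹, inv_mem hn⟩, ?_⟩
    change f _ a = g • a
    have := fapp ⟨g⁻¹, inv_mem hn⟩ 1
    simpa using this

end Cfsg.Agent.S0702
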