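import Cfsg.Statements.S0703
import Cfsg.Agent.PermGroups.TransitiveMinNormal
import Cfsg.Agent.Core.MinimalNormal

set_option autoImplicit false
open Cfsg

namespace Cfsg.Agent.S0703

/-- An abelian transitive minimal normal subgroup `M` of a permutation group on a finite set is self-centralising in the symmetric group, regular, elementary abelian, and is the unique minimal normal subgroup. -/
theorem result {α : Type*} [Finite α] (G : Subgroup (Equiv.Perm α)) (M : Subgroup G) [M.Normal] (hM : M ≠ ⊥) (hmin : ∀ L : Subgroup G, L.Normal → L ≤ M → L = ⊥ ∨ L = M) (hab : IsMulCommutative M) (htrans : MulAction.IsPretransitive M α) : Subgroup.centralizer ((M.map G.subtype : Subgroup (Equiv.Perm α)) : Set (Equiv.Perm α)) = M.map G.subtype ∧ (∀ a : α, MulAction.stabilizer M a = ⊥) ∧ (∃ p : ℕ, p.Prime ∧ ∀ m ∈ M, m ^ p = 1) ∧ ∀ L : Subgroup G, L.Normal → L ≠ ⊥ → (∀ L' : Subgroup G, L'.Normal → L' ≤ L → L' = ⊥ ∨ L' = L) → L = M := by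
  have := Cfsg.Agent.PermGroups.nonempty_of_ne_bot hM
  have hcomm : ∀ x ∈ M, ∀ y ∈ M, x * y = y * x := fun x hx y hy =>
    congrArg Subtype.val (hab.1.1 ⟨x, hx⟩ ⟨y, hy⟩)
  have hC := Cfsg.Agent.PermGroups.centralizer_map_eq htrans htrans hcomm
  obtain ⟨-, p, hp, hpow, -⟩ := Cfsg.Agent.Core.IsMinNormal.elementaryAbelian
    ⟨inferInstance, hM, hmin⟩ (Group.isSolvable_of_comm fun a b : M => hab.1.1 a b)
  refine ⟨hC, Cfsg.Agent.PermGroups.stabilizer_eq_bot_of_centralizes htrans hcomm,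
    ⟨p, hp, hpow⟩, fun L hL hL0 hLmin => ?_⟩
  by_contra hne
  haveI := hL
  have hle : L ≤ M := fun y hy => by
    have : (y : Equiv.Perm α) ∈ M.map G.subtype := by
      rw [← hC]
      rintro _ ⟨x, hx, rfl⟩
      exact congrArg Subtype.val
        (Cfsg.Agent.PermGroups.commute_of_minimal hM hmin hLmin (Ne.symm hne) x hx y hy)
    obtain ⟨z, hz, e⟩ := this
    rwa [← Subtype.ext e]
  rcases hmin L hL hle with h | h
  · exact hL0 h
  · exact hne h

end Cfsg.Agent.S0703
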