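import Cfsg.Statements.S0704
import Cfsg.Agent.PermGroups.TransitiveMinNormal

set_option autoImplicit false
open Cfsg

namespace Cfsg.Agent.S0704

/-- Two distinct transitive minimal normal subgroups `M`, `N` of a permutation group are regular, non-abelian, isomorphic, each other's centraliser in the symmetric group, and the only minimal normal subgroups. -/
theorem result {α : Type*} (G : Subgroup (Equiv.Perm α)) (M N : Subgroup G) [M.Normal] [N.Normal] (hM : M ≠ ⊥) (hN : N ≠ ⊥) (hMmin : ∀ L : Subgroup G, L.Normal → L ≤ M → L = ⊥ ∨ L = M) (hNmin : ∀ L : Subgroup G, L.Normal → L ≤ N → L = ⊥ ∨ L = N) (hMN : M ≠ N) (hMt : MulAction.IsPretransitive M α) (hNt : MulAction.IsPretransitive N α) : (∀ a : α, MulAction.stabilizer M a = ⊥) ∧ (∀ a : α, MulAction.stabilizer N a = ⊥) ∧ ¬ IsMulCommutative M ∧ Nonempty (M ≃* N) ∧ Subgroup.centralizer ((M.map G.subtype : Subgroup (Equiv.Perm α)) : Set (Equiv.Perm α)) = N.map G.subtype ∧ Subgroup.centralizer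 ((N.map G.subtype : Subgroup (Equiv.Perm α)) : Set (Equiv.Perm α)) = M.map G.subtype ∧ ∀ L : Subgroup G, L.Normal → L ≠ ⊥ → (∀ L' : Subgroup G, L'.Normal → L' ≤ L → L' = ⊥ ∨ L' = L) → L = M ∨ L = N := by
  have := Cfsg.Agent.PermGroups.nonempty_of_ne_bot hM
  have hcomm := Cfsg.Agent.PermGroups.commute_of_minimal hM hMmin hNmin hMN
  have hcomm' : ∀ y ∈ N, ∀ x ∈ M, y * x = x * y := fun y hy x hx => (hcomm x hx y hy).symm
  have hMs := Cfsg.Agent.PermGroups.stabilizer_eq_bot_of_centralizes hNt hcomm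
  have hNs := Cfsg.Agent.PermGroups.stabilizer_eq_bot_of_centralizes hMt hcomm'
  have hCM := Cfsg.Agent.PermGroups.centralizer_map_eq hMt hNt hcomm
  have hinj : ∀ L : Subgroup G, L.map G.subtype ≤ N.map G.subtype → L ≤ N := fun L h =>
    (Subgroup.map_le_map_iff_of_injective G.subtype_injective).1 h
  refine ⟨hMs, hNs, fun hab => ?_,
    Cfsg.Agent.PermGroups.nonempty_mulEquiv_of_regular hMt hNt hMs hNs hcomm, hCM,
    Cfsg.Agent.PermGroups.centralizer_map_eq hNt hMt hcomm', fun L hL hL0 hLmin => ?_⟩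
  · refine ((hNmin M inferInstance (hinj M ?_)).elim hM hMN)
    rw [← hCM]
    rintro _ ⟨y, hy, rfl⟩ _ ⟨x, hx, rfl⟩
    exact congrArg (fun z : M => ((z : G) : Equiv.Perm α)) (hab.1.1 ⟨x, hx⟩ ⟨y, hy⟩)
  · by_contra hne
    rw [not_or] at hne
    haveI := hL
    refine (hNmin L hL (hinj L ?_)).elim hL0 hne.2
    rw [← hCM]
    rintro _ ⟨y, hy, rfl⟩ _ ⟨x, hx, rfl⟩
    exact congrArg Subtype.val
      (Cfsg.Agent.PermGroups.commute_of_minimal hM hMmin hLmin (Ne.symm hne.1) x hx y hy)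

end Cfsg.Agent.S0704
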