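import Cfsg.Statements.S0705
import Cfsg.Agent.PermGroups.Transitivity

set_option autoImplicit false
open scoped Pointwise
open Cfsg

namespace Cfsg.Agent.S0705

/-- A generously `k`-transitive permutation group (every `(k+1)`-subset has its full symmetric group induced by the setwise stabiliser) of degree greater than `k` is `k`-transitive, and for a `k`-subset the setwise and pointwise stabilisers have the same orbits outside it. -/
theorem result {α : Type*} [Fintype α] [DecidableEq α] (G : Subgroup (Equiv.Perm α)) {k : ℕ} (hk : k < Fintype.card α) (hgen : ∀ s : Finset α, s.card = k + 1 → ∀ σ : Equiv.Perm ↥s, ∃ g ∈ G, ∀ x : ↥s, g (x : α) = σ x) : MulAction.IsMultiplyPretransitive G α k ∧ ∀ s : Finset α, s.card = k → ∀ a b : α, a ∉ s → b ∉ s → (∃ g ∈ G, g • s = s ∧ g a = b) → ∃ g ∈ G, (∀ x ∈ s, g x = x) ∧ g a = b := by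
  classical
  refine ⟨Cfsg.Agent.PermGroups.isMultiplyPretransitive_of_fixator hk fun s hs a b ha hb => ?_, ?_⟩
  · by_cases hab : a = b
    · exact ⟨1, fun x _ => one_smul _ x, by rw [one_smul]; exact hab⟩
    have hc : (insert a (insert b s)).card = k + 1 := by
      rw [Finset.card_insert_of_notMem (by simp [hab, ha]), Finset.card_insert_of_notMem hb]
      omega
    obtain ⟨g, hg, he⟩ := hgen _ hc (Equiv.swap ⟨a, by simp⟩ ⟨b, by simp⟩)
    refine ⟨⟨g, hg⟩, fun x hx => ?_, ?_⟩
    · change g x = x
      have := he ⟨x, by simp [hx]⟩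
      rw [Equiv.swap_apply_of_ne_of_ne] at this
      · exact this
      · simp only [ne_eq, Subtype.mk.injEq]; rintro rfl; exact ha hx
      · simp only [ne_eq, Subtype.mk.injEq]; rintro rfl; exact hb hx
    · change g a = b
      have := he ⟨a, by simp⟩
      rwa [Equiv.swap_apply_left] at this
  · rintro s hs a b ha hb ⟨g, hg, hgs, hgab⟩
    by_cases hab : a = b
    · exact ⟨1, one_mem G, fun x _ => rfl, hab⟩
    have hginv : ∀ x, g x ∈ s ↔ x ∈ s := by
      intro x
      conv_lhs => rw [← hgs]
      exact Finset.smul_mem_smul_finset_iff g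
    let τ : Equiv.Perm ↥(insert b s) :=
      { toFun := fun x => if h : (x : α) ∈ s then ⟨g.symm x, Finset.mem_insert_of_mem (by
            rw [← hginv]; simpa using h)⟩ else x
        invFun := fun x => if h : (x : α) ∈ s then ⟨g x, Finset.mem_insert_of_mem
            ((hginv _).mpr h)⟩ else x
        left_inv := fun x => by
          by_cases h : (x : α) ∈ s
          · have : g.symm (x : α) ∈ s := by rw [← hginv]; simpa using h
            simp [h, this]
          · simp [h]
        right_inv := fun x => by
          by_cases h : (x : α) ∈ s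
          · simp [h, (hginv _).mpr h]
          · simp [h] }
    obtain ⟨h', hh', he⟩ := hgen _ (by rw [Finset.card_insert_of_notMem hb, hs]) τ
    refine ⟨h' * g, mul_mem hh' hg, fun x hx => ?_, ?_⟩
    · have := he ⟨g x, Finset.mem_insert_of_mem ((hginv x).mpr hx)⟩
      simp only [τ, Equiv.coe_fn_mk, dif_pos ((hginv x).mpr hx), Equiv.symm_apply_apply] at this
      exact this
    · have := he ⟨b, Finset.mem_insert_self b s⟩
      simp only [τ, Equiv.coe_fn_mk, dif_neg hb] at this
      simp only [Equiv.Perm.coe_mul, Function.comp_apply, hgab]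
      exact this

end Cfsg.Agent.S0705
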