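import Cfsg.Statements.S0706
import Cfsg.Agent.S0705

set_option autoImplicit false
open Cfsg
open scoped Pointwise

namespace Cfsg.Agent.S0706

/-- In a generously `k`-transitive permutation group, for a prime `p ≤ k` and a `k`-set `Γ`, there are no `p` points outside `Γ` lying in distinct orbits of the pointwise stabiliser of `Γ` all of length prime to `p` (at most `p - 1` such orbits). -/
theorem result {α : Type*} [Fintype α] [DecidableEq α] (G : Subgroup (Equiv.Perm α)) {k : ℕ} (hk : k < Fintype.card α) (hgen : ∀ s : Finset α, s.card = k + 1 → ∀ σ : Equiv.Perm ↥s, ∃ g ∈ G, ∀ x : ↥s, g (x : α) = σ x) {p : ℕ} (hp : p.Prime) (hpk : p ≤ k) (Γ : Finset α) (hΓ : Γ.card = k) (f : Fin p → α) (hf : ∀ i, f i ∉ Γ) (hdist : ∀ i j, i ≠ j → f j ∉ MulAction.orbit (fixingSubgroup G (Γ : Set α)) (f i)) : ∃ i, p ∣ Nat.card (MulAction.orbit (fixingSubgroup G (Γ : Set α)) (f i)) := by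
  classical
  haveI := Fact.mk hp
  obtain ⟨hT, hO⟩ := Cfsg.Agent.S0705.result G hk hgen
  by_contra hcon
  push Not at hcon
  obtain ⟨Δ, hΔsub, hΔcard⟩ := Finset.exists_subset_card_eq (s := Γ) (n := k - p) (by omega)
  have hγcard : (Γ \ Δ).card = p := by rw [Finset.card_sdiff_of_subset hΔsub]; omega
  set π : Equiv.Perm α := (Γ \ Δ).toList.formPerm with hπdef
  have hπfix : ∀ x, x ∉ Γ \ Δ → π x = x := fun x hx =>
    List.formPerm_apply_of_notMem (by simpa [Finset.mem_toList] using hx)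
  have hπmem : ∀ x, π x ∈ Γ \ Δ ↔ x ∈ Γ \ Δ := fun x => by
    rw [← Finset.mem_toList, ← Finset.mem_toList (s := Γ \ Δ) (a := x), hπdef, List.formPerm_mem_iff_mem]
  have hπp : π ^ p = 1 := by
    rw [← hγcard, ← Finset.length_toList]
    exact List.formPerm_pow_length_eq_one_of_nodup _ (Finset.nodup_toList _)
  have hπne : π ≠ 1 := by
    rw [hπdef, Ne, List.formPerm_eq_one_iff _ (Finset.nodup_toList _), Finset.length_toList, hγcard]
    have := hp.two_le
    omega
  set f₀ := f ⟨0, hp.pos⟩ with hf₀def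
  have hf₀ : f₀ ∉ Γ := hf _
  have hπins : ∀ x, π x ∈ insert f₀ Γ ↔ x ∈ insert f₀ Γ := fun x => by
    by_cases hx : x ∈ Γ \ Δ
    · simp [Finset.mem_insert, (Finset.mem_sdiff.1 hx).1, (Finset.mem_sdiff.1 ((hπmem x).2 hx)).1]
    · rw [hπfix x hx]
  obtain ⟨g, hg, hgπ⟩ := hgen (insert f₀ Γ) (by rw [Finset.card_insert_of_notMem hf₀, hΓ])
    (π.subtypePerm hπins)
  have hgπ' : ∀ x ∈ Γ, g x = π x := fun x hx => hgπ ⟨x, Finset.mem_insert_of_mem hx⟩
  have hπΓ : ∀ x ∈ Γ, π x ∈ Γ := fun x hx => by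
    by_cases hx' : x ∈ Γ \ Δ
    · exact (Finset.mem_sdiff.1 ((hπmem x).2 hx')).1
    · rwa [hπfix x hx']
  let H : Subgroup G := fixingSubgroup G (Γ : Set α)
  let S : Subgroup G := fixingSubgroup G (Δ : Set α) ⊓ MulAction.stabilizer G Γ
  have hinvΓ : ∀ z : S, ∀ x, ((z : G) : Equiv.Perm α) x ∈ Γ ↔ x ∈ Γ := fun z x => by
    conv_lhs => rw [← z.2.2]
    exact Finset.smul_mem_smul_finset_iff (z : G)
  let ρ : S →* Equiv.Perm ↥Γ :=
    { toFun := fun z => ((z : G) : Equiv.Perm α).subtypePerm (hinvΓ z)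
      map_one' := Equiv.ext fun x => rfl
      map_mul' := fun z w => Equiv.ext fun x => rfl }
  have hgS : (⟨g, hg⟩ : G) ∈ S := by
    refine ⟨fun x => ?_, MulAction.mem_stabilizer_iff.2 ?_⟩
    · have hxΓ := hΔsub (Finset.mem_coe.1 x.2)
      show g (x : α) = (x : α)
      rw [hgπ' _ hxΓ, hπfix _ (fun h => (Finset.mem_sdiff.1 h).2 (Finset.mem_coe.1 x.2))]
    · refine Finset.eq_of_subset_of_card_le ?_ (by rw [Finset.card_smul_finset])
      intro y hy
      obtain ⟨x, hx, rfl⟩ := Finset.mem_smul_finset.1 hy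
      show g x ∈ Γ
      rw [hgπ' x hx]
      exact hπΓ x hx
  have hρg : orderOf (ρ ⟨⟨g, hg⟩, hgS⟩) = p := by
    have hρπ : ∀ (n : ℕ) (x : ↥Γ), (((ρ ⟨⟨g, hg⟩, hgS⟩) ^ n) x : α) = (π ^ n) (x : α) := by
      intro n
      induction n with
      | zero => intro x; rfl
      | succ n ih =>
        intro x
        rw [pow_succ', Equiv.Perm.mul_apply, pow_succ', Equiv.Perm.mul_apply]
        show g _ = _
        rw [ih, hgπ' _ (by rw [← ih]; exact Subtype.coe_prop _)]
    refine orderOf_eq_prime (Equiv.ext fun x => Subtype.ext ?_) fun e => hπne (Equiv.ext fun x => ?_)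
    · rw [hρπ, hπp]; rfl
    · by_cases hx : x ∈ Γ
      · have := hρπ 1 ⟨x, hx⟩
        rw [pow_one, pow_one, e] at this
        exact this.symm
      · exact hπfix x fun h => hx (Finset.mem_sdiff.1 h).1
  have hker : ρ.ker = H.subgroupOf S := by
    ext z
    rw [MonoidHom.mem_ker, Subgroup.mem_subgroupOf]
    refine ⟨fun e x => congrArg Subtype.val (Equiv.Perm.ext_iff.1 e ⟨(x : α), x.2⟩), fun h => ?_⟩
    exact Equiv.ext fun x => Subtype.ext (h ⟨(x : α), x.2⟩)
  have hHS : H ≤ S := fun z hz => ⟨fun x => hz ⟨(x : α), hΔsub x.2⟩, MulAction.mem_stabilizer_iff.2 <| by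
    refine Finset.eq_of_subset_of_card_le ?_ (by rw [Finset.card_smul_finset])
    intro y hy
    obtain ⟨x, hx, rfl⟩ := Finset.mem_smul_finset.1 hy
    rw [show z • x = x from hz ⟨x, hx⟩]
    exact hx⟩
  have hdvd : p * Nat.card H ∣ Nat.card S := by
    rw [← Subgroup.index_mul_card ρ.ker, Subgroup.index_ker, hker,
      Nat.card_congr (Subgroup.subgroupOfEquivOfLe hHS).toEquiv]
    refine Nat.mul_dvd_mul_right ?_ _
    rw [← hρg]
    exact Subgroup.orderOf_dvd_natCard _ ⟨_, rfl⟩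
  obtain ⟨P⟩ : Nonempty (Sylow p S) := inferInstance
  let P' : Subgroup G := (P : Subgroup S).map S.subtype
  have hP'p : IsPGroup p P' := P.2.map S.subtype
  have horb : ∀ i, ∀ z : S, ∀ x ∈ MulAction.orbit H (f i), (z : G) • x ∈ MulAction.orbit H (f i) := by
    intro i z x hx
    have hxΓ : x ∉ Γ := by
      obtain ⟨h, rfl⟩ := hx
      intro hmem
      have := hinvΓ ⟨(h : G), hHS h.2⟩ (f i)
      exact hf i (this.1 hmem)
    have hzx : ((z : G) : Equiv.Perm α) x ∉ Γ := fun h => hxΓ ((hinvΓ z x).1 h)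
    obtain ⟨u, hu, hufix, hux⟩ := hO Γ hΓ x _ hxΓ hzx ⟨((z : G) : Equiv.Perm α), (z : G).2, z.2.2, rfl⟩
    rw [← MulAction.orbit_eq_iff.2 hx]
    exact ⟨⟨⟨u, hu⟩, fun y => hufix (y : α) y.2⟩, hux⟩
  have hfix : ∀ i, ∃ x ∈ MulAction.orbit H (f i), ∀ z ∈ P', z • x = x := by
    intro i
    let T : SubMulAction P' α := ⟨MulAction.orbit H (f i), fun z {x} hx => by
      obtain ⟨w, hw, e⟩ := z.2
      have := horb i w x hx
      show (z : G) • x ∈ _
      rw [← e]
      exact this⟩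
    have hmod := hP'p.card_modEq_card_fixedPoints (α := T)
    have hne : Nat.card (MulAction.fixedPoints P' T) ≠ 0 := by
      intro h0
      rw [h0] at hmod
      exact hcon i (Nat.modEq_zero_iff_dvd.1 hmod)
    obtain ⟨⟨x, hx⟩⟩ := (Nat.card_pos_iff.1 (Nat.pos_of_ne_zero hne)).1
    exact ⟨x.1, x.2, fun z hz => congrArg Subtype.val (hx ⟨z, hz⟩)⟩
  choose x hxorb hxfix using hfix
  have hxinj : Function.Injective x := by
    intro i j e
    by_contra hij
    refine hdist i j hij ?_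
    show f j ∈ MulAction.orbit H (f i)
    rw [← MulAction.orbit_eq_iff.2 (hxorb i), e, MulAction.orbit_eq_iff.2 (hxorb j)]
    exact MulAction.mem_orbit_self _
  have hxΓ : ∀ i, x i ∉ Γ := by
    intro i
    obtain ⟨h, hh⟩ := hxorb i
    intro hmem
    rw [← hh] at hmem
    exact hf i ((hinvΓ ⟨(h : G), hHS h.2⟩ (f i)).1 hmem)
  let Γ' : Finset α := Δ ∪ Finset.univ.image x
  have hΓ'card : Γ'.card = k := by
    rw [Finset.card_union_of_disjoint ?_, Finset.card_image_of_injective _ hxinj, Finset.card_univ,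
      Fintype.card_fin, hΔcard]
    · omega
    · rw [Finset.disjoint_left]
      intro y hy hy'
      obtain ⟨i, -, rfl⟩ := Finset.mem_image.1 hy'
      exact hxΓ i (hΔsub hy)
  have hP'fix : ∀ z ∈ P', ∀ y ∈ Γ', z • y = y := by
    intro z hz y hy
    rcases Finset.mem_union.1 hy with hy | hy
    · obtain ⟨w, -, rfl⟩ := hz
      exact w.2.1 ⟨y, hy⟩
    · obtain ⟨i, -, rfl⟩ := Finset.mem_image.1 hy
      exact hxfix i z hz
  obtain ⟨e, he⟩ : ∃ e : Fin k ↪ α, ∀ y ∈ Γ, ∃ i, e i = y :=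
    ⟨(Γ.equivFinOfCardEq hΓ).symm.toEmbedding.trans (Function.Embedding.subtype _),
      fun y hy => ⟨Γ.equivFinOfCardEq hΓ ⟨y, hy⟩, by simp⟩⟩
  obtain ⟨e', he'⟩ : ∃ e' : Fin k ↪ α, ∀ i, e' i ∈ Γ' :=
    ⟨(Γ'.equivFinOfCardEq hΓ'card).symm.toEmbedding.trans (Function.Embedding.subtype _),
      fun i => Subtype.coe_prop _⟩
  obtain ⟨t, ht⟩ := hT.exists_smul_eq e e'
  have hle : P'.map (MulAut.conj t⁻¹).toMonoidHom ≤ H := by
    rintro _ ⟨z, hz, rfl⟩ ⟨y, hy⟩
    obtain ⟨i, rfl⟩ := he y hy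
    show (t⁻¹ * z * t⁻¹⁻¹) • e i = e i
    rw [inv_inv, mul_smul, mul_smul, inv_smul_eq_iff]
    have h1 : t • e i = e' i := congrArg (fun q : Fin k ↪ α => q i) ht
    rw [h1, hP'fix z hz _ (he' i)]
  have hPH : Nat.card P' ∣ Nat.card H := by
    rw [← Subgroup.card_map_of_injective (K := P') (f := (MulAut.conj t⁻¹).toMonoidHom)
      (fun a b h => (MulAut.conj t⁻¹).injective h)]
    exact Subgroup.card_dvd_of_le hle
  rw [Subgroup.card_subtype, P.card_eq_multiplicity] at hPH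
  have h1 : (Nat.card H).factorization p + 1 ≤ (Nat.card S).factorization p := by
    have h2 := (Nat.factorization_le_iff_dvd (mul_ne_zero hp.ne_zero Nat.card_pos.ne') Nat.card_pos.ne').2 hdvd p
    rw [Nat.factorization_mul hp.ne_zero Nat.card_pos.ne', Finsupp.add_apply, hp.factorization_self] at h2
    omega
  have h3 := (hp.pow_dvd_iff_le_factorization Nat.card_pos.ne').1 hPH
  omega

end Cfsg.Agent.S0706
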