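import Cfsg.Statements.S0707
import Cfsg.Agent.PermGroups.Basic

set_option autoImplicit false
open Cfsg

namespace Cfsg.Agent.S0707

/-- In a primitive permutation group, distinct points have distinct stabilisers unless the group is regular of prime degree. -/
theorem result {α : Type*} (G : Subgroup (Equiv.Perm α)) [MulAction.IsPreprimitive G α] (h : ¬ (Nat.card α).Prime ∨ ∃ a : α, MulAction.stabilizer G a ≠ ⊥) {a b : α} (hab : a ≠ b) : MulAction.stabilizer G a ≠ MulAction.stabilizer G b := by
  intro he
  obtain ⟨h1, _, h3, h4⟩ := Cfsg.Agent.PermGroups.regular_prime_of_stabilizer_le (G := G) hab he.le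
  rcases h with h | ⟨x, hx⟩
  · exact h (h4 ▸ h3)
  · exact hx (h1 x)

end Cfsg.Agent.S0707
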