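import Cfsg.Statements.S0709
import Cfsg.Agent.PermGroups.WittExtension

set_option autoImplicit false
open Cfsg

namespace Cfsg.Agent.S0709

/-- Witt's Lemma for constructing transitive extensions. Points `q 1, …, q t` (`t ≥ 2`) of a finite set are given; `G` fixes `q i` for `i ≥ 3` and is doubly transitive on the remaining points; `s 1 ∈ G` swaps `q 1, q 2`; for `2 ≤ i ≤ t-1`, `s i` swaps `q i, q (i+1)` and fixes the other `q j`; with `H` the stabiliser of `q 1, q 2` in `G`: `s i ^ 2 ∈ H`, `(s i * s (i+1)) ^ 3 ∈ H`, `(s i * s j) ^ 2 ∈ H` for `j ≥ i + 2`, and `s i` (`i ≥ 2`) normalises the stabiliser of `q 2` in `G`. Then `G` and the `s i` generate a `t`-transitive group whose pointwise stabiliser of the `q`'s is `H`. -/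
theorem result {α : Type*} [Fintype α] [DecidableEq α] (t : ℕ) (ht : 2 ≤ t) (q : ℕ → α) (hq : ∀ i j : ℕ, 1 ≤ i → i ≤ t → 1 ≤ j → j ≤ t → q i = q j → i = j) (G : Subgroup (Equiv.Perm α)) (hfix : ∀ g ∈ G, ∀ i : ℕ, 3 ≤ i → i ≤ t → g (q i) = q i) (h2 : ∀ a b c d : α, (∀ i, 3 ≤ i → i ≤ t → a ≠ q i ∧ b ≠ q i ∧ c ≠ q i ∧ d ≠ q i) → a ≠ b → c ≠ d → ∃ g ∈ G, g a = c ∧ g b = d) (s : ℕ → Equiv.Perm α) (hs1 : s 1 ∈ G) (hs1q : s 1 (q 1) = q 2 ∧ s 1 (q 2) = q 1) (hsq : ∀ i : ℕ, 2 ≤ i → i + 1 ≤ t → s i (q i) = q (i + 1) ∧ s i (q (i + 1)) = q i ∧ ∀ j : ℕ, 1 ≤ j → j ≤ t → j ≠ i → j ≠ i + 1 → s i (q j) = q j) (H : Subgroup (Equiv.Perm α)) (hH : H = G ⊓ MulAction.stabilizer (Equiv.Perm α) (q 1) ⊓ MulAction.stabilizer (Equiv.Perm α) (q 2)) (hsq2 : ∀ i : ℕ, 1 ≤ i → i + 1 ≤ t → s i ^ 2 ∈ H) (hbraid : ∀ i : ℕ, 1 ≤ i → i + 2 ≤ t → (s i * s (i + 1)) ^ 3 ∈ H) (hcomm : ∀ i j : ℕ, 1 ≤ i → i + 2 ≤ j → j + 1 ≤ t → (s i * s j) ^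 2 ∈ H ∧ (s j * s i) ^ 2 ∈ H) (hnorm : ∀ i : ℕ, 2 ≤ i → i + 1 ≤ t → ∀ g ∈ G ⊓ MulAction.stabilizer (Equiv.Perm α) (q 2), s i * g * (s i)⁻¹ ∈ G ⊓ MulAction.stabilizer (Equiv.Perm α) (q 2)) : MulAction.IsMultiplyPretransitive ↥(Subgroup.closure ((G : Set (Equiv.Perm α)) ∪ {x | ∃ i : ℕ, 2 ≤ i ∧ i + 1 ≤ t ∧ x = s i})) α t ∧ Subgroup.closure ((G : Set (Equiv.Perm α)) ∪ {x | ∃ i : ℕ, 2 ≤ i ∧ i + 1 ≤ t ∧ x = s i}) ⊓ fixingSubgroup (Equiv.Perm α) {x | ∃ i : ℕ, 1 ≤ i ∧ i ≤ t ∧ x = q i} = H := by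
  obtain ⟨h1, h2', hHG, hHfix⟩ := PermGroups.WittExtension.witt t q G s ht hq hfix h2 hs1 hs1q hsq H hH hsq2 hbraid hcomm hnorm
  set K := Subgroup.closure ((G : Set (Equiv.Perm α)) ∪ {x | ∃ i : ℕ, 2 ≤ i ∧ i + 1 ≤ t ∧ x = s i}) with hK
  have hGK : G ≤ K := fun x hx => Subgroup.subset_closure (Or.inl hx)
  have hchain : PermGroups.WittExtension.chain G q s (t - 1) = K := by
    apply le_antisymm
    · have : ∀ m, m + 1 ≤ t → PermGroups.WittExtension.chain G q s m ≤ K := by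
        intro m
        induction m with
        | zero => intro _; exact inf_le_left.trans hGK
        | succ m ih =>
          intro hm
          rcases m with _ | m
          · exact hGK
          · show Subgroup.closure _ ≤ K
            rw [Subgroup.closure_le]
            rintro x (hx | hx)
            · exact ih (by omega) hx
            · rw [Set.mem_singleton_iff.mp hx]
              exact Subgroup.subset_closure (Or.inr ⟨m + 2, by omega, hm, rfl⟩)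
      exact this _ (by omega)
    · rw [hK, Subgroup.closure_le]
      rintro x (hx | ⟨i, hi, hit, rfl⟩)
      · exact PermGroups.WittExtension.chain_mono G q s (show 1 ≤ t - 1 by omega) hx
      · refine PermGroups.WittExtension.chain_mono G q s (show i ≤ t - 1 by omega) ?_
        obtain ⟨k, rfl⟩ := Nat.exists_eq_add_of_le hi
        rw [show 2 + k = k + 2 by omega]
        exact Subgroup.subset_closure (Or.inr rfl)
  rw [hchain] at h1 h2'
  constructor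
  · have hext : ∀ x : Fin t ↪ α, ∃ k ∈ K, ∀ j : Fin t, k (q (j.val + 1)) = x j := by
      intro x
      obtain ⟨k, hk, hkx⟩ := h1 (fun n => if h : 1 ≤ n ∧ n ≤ t then x ⟨n - 1, by omega⟩ else q 1)
        (fun i j hi hi' hj hj' h => by
          simp only [dif_pos (And.intro hi hi'), dif_pos (And.intro hj hj')] at h
          have h' := congrArg Fin.val (x.injective h)
          simp only at h'
          omega)
      refine ⟨k, hk, fun j => ?_⟩
      rw [hkx (j.val + 1) (by omega) (by omega)]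
      simp
    refine ⟨fun x y => ?_⟩
    obtain ⟨k1, hk1, hk1x⟩ := hext x
    obtain ⟨k2, hk2, hk2y⟩ := hext y
    refine ⟨⟨k2 * k1⁻¹, mul_mem hk2 (inv_mem hk1)⟩, ?_⟩
    ext j
    show (k2 * k1⁻¹) (x j) = y j
    rw [← hk1x j, ← Equiv.Perm.mul_apply, inv_mul_cancel_right, hk2y j]
  · apply le_antisymm
    · rintro k ⟨hk, hkf⟩
      exact h2' k hk (fun j hj hj' => (mem_fixingSubgroup_iff _).mp hkf (q j) ⟨j, hj, hj', rfl⟩)
    · intro k hk
      refine ⟨hGK (hHG hk), (mem_fixingSubgroup_iff _).mpr ?_⟩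
      rintro _ ⟨j, hj, hj', rfl⟩
      exact hHfix k hk j hj hj'

end Cfsg.Agent.S0709
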