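import Cfsg.Statements.S0712
import Cfsg.Agent.PermGroups.TransitivityTop

set_option autoImplicit false
open Cfsg

namespace Cfsg.Agent.S0712

/-- Jordan: a primitive group in which the pointwise stabiliser of a set `s` is doubly transitive on the complement of `s` (which has at least 2 points) is `(|s| + 2)`-transitive. -/
theorem result {α : Type*} [Fintype α] [DecidableEq α] (G : Subgroup (Equiv.Perm α)) (hG : MulAction.IsPreprimitive G α) (s : Set α) {m : ℕ} (hsm : s.ncard = m) (hm : m + 2 ≤ Fintype.card α) (h2 : MulAction.IsMultiplyPretransitive (fixingSubgroup G s) (SubMulAction.ofFixingSubgroup G s) 2) : MulAction.IsMultiplyPretransitive G α (m + 2) := by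
  rw [← Nat.card_eq_fintype_card] at hm
  rcases Nat.eq_zero_or_pos m with rfl | hm0
  · have hs : s = ∅ := (Set.ncard_eq_zero (Set.toFinite s)).mp hsm
    subst hs
    have := h2
    exact (MulAction.IsPretransitive.of_embedding_congr
      SubMulAction.of_fixingSubgroupEmpty_mapScalars_surjective
      SubMulAction.ofFixingSubgroupEmpty_equivariantMap_bijective).mp h2
  obtain ⟨n, rfl⟩ := Nat.exists_eq_add_of_le hm0
  have hprim2 : MulAction.IsPreprimitive (fixingSubgroup G s) (SubMulAction.ofFixingSubgroup G s) :=
    MulAction.isPreprimitive_of_is_two_pretransitive h2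
  have hmp := hG.isMultiplyPreprimitive (s := s) (n := n) (by omega) (by omega) hprim2
  have ht : MulAction.IsMultiplyPretransitive G α (n + 2) := hmp.isMultiplyPretransitive
  rcases Nat.lt_or_ge (Nat.succ 0 + n + 2) (Fintype.card α) with hlt | hge
  · refine Cfsg.Agent.PermGroups.isMultiplyPretransitive_of_fixator hlt fun t htc a b ha hb => ?_
    classical
    obtain ⟨c, hc⟩ : t.Nonempty := Finset.card_pos.mp (by omega)
    have hcard : (t.erase c).card = n + 1 := by rw [Finset.card_erase_of_mem hc]; omega
    set x : Fin (n + 1) ↪ α := (Fintype.equivFinOfCardEq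
      (show Fintype.card s = n + 1 by rw [← Nat.card_eq_fintype_card, Nat.card_coe_set_eq, hsm]; omega)).symm.toEmbedding.trans
        (Function.Embedding.subtype _)
    set y : Fin (n + 1) ↪ α := ((t.erase c).equivFinOfCardEq hcard).symm.toEmbedding.trans
        (Function.Embedding.subtype _)
    have ht1 : MulAction.IsMultiplyPretransitive G α (n + 1) :=
      MulAction.isMultiplyPretransitive_of_le (n := n + 2) (by omega) (by
        rw [Nat.card_eq_fintype_card]; omega)
    obtain ⟨g, hg⟩ := ht1.exists_smul_eq x y
    have hmap : ∀ z, g • z ∈ t.erase c ↔ z ∈ s := by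
      intro z
      constructor
      · intro hz
        have := DFunLike.congr_fun hg (((t.erase c).equivFinOfCardEq hcard) ⟨_, hz⟩)
        simp only [Function.Embedding.smul_apply, y, Function.Embedding.trans_apply,
          Equiv.coe_toEmbedding, Equiv.symm_apply_apply, Function.Embedding.subtype_apply,
          smul_left_cancel_iff] at this
        rw [← this]
        exact Subtype.prop _
      · intro hz
        have := DFunLike.congr_fun hg ((Fintype.equivFinOfCardEq
          (show Fintype.card s = n + 1 by
            rw [← Nat.card_eq_fintype_card, Nat.card_coe_set_eq, hsm]; omega)) ⟨z, hz⟩)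
        simp only [Function.Embedding.smul_apply, x, Function.Embedding.trans_apply,
          Equiv.coe_toEmbedding, Equiv.symm_apply_apply, Function.Embedding.subtype_apply] at this
        rw [this]
        exact Subtype.prop _
    have hout : ∀ z, z ∉ t.erase c → g⁻¹ • z ∉ s := fun z hz h =>
      hz (by have := (hmap (g⁻¹ • z)).mpr h; rwa [smul_inv_smul] at this)
    have hac : a ≠ c := fun e => ha (e ▸ hc)
    have hbc : b ≠ c := fun e => hb (e ▸ hc)
    rw [MulAction.is_two_pretransitive_iff] at h2
    obtain ⟨k, hk1, hk2⟩ := h2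
      (a := ⟨g⁻¹ • c, hout c (by simp)⟩) (b := ⟨g⁻¹ • a, hout a (fun h => ha (Finset.mem_of_mem_erase h))⟩)
      (c := ⟨g⁻¹ • c, hout c (by simp)⟩) (d := ⟨g⁻¹ • b, hout b (fun h => hb (Finset.mem_of_mem_erase h))⟩)
      (fun e => hac (smul_left_cancel g⁻¹ (congrArg Subtype.val e)).symm)
      (fun e => hbc (smul_left_cancel g⁻¹ (congrArg Subtype.val e)).symm)
    have hk1' : (k : G) • g⁻¹ • c = g⁻¹ • c := congrArg Subtype.val hk1
    have hk2' : (k : G) • g⁻¹ • a = g⁻¹ • b := congrArg Subtype.val hk2
    refine ⟨g * k * g⁻¹, fun z hz => ?_, ?_⟩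
    · rw [mul_smul, mul_smul]
      by_cases hzc : z = c
      · rw [hzc, hk1', smul_inv_smul]
      · have hzs : g⁻¹ • z ∈ s := (hmap _).mp (by
          rw [smul_inv_smul]; exact Finset.mem_erase.mpr ⟨hzc, hz⟩)
        rw [(mem_fixingSubgroup_iff G).mp k.2 _ hzs, smul_inv_smul]
    · rw [mul_smul, mul_smul, hk2', smul_inv_smul]
  · have := Cfsg.Agent.PermGroups.isMultiplyPretransitive_succ_of_card_eq (k := n + 2)
      (by rw [Nat.card_eq_fintype_card] at hm; omega) ht
    rwa [show Nat.succ 0 + n + 2 = n + 2 + 1 by omega]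

end Cfsg.Agent.S0712
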