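import Cfsg.Statements.S0714
import Cfsg.Agent.PermGroups.AltModule

set_option autoImplicit false
open Cfsg

namespace Cfsg.Agent.S0714

/-- Over any field, the permutation module of the alternating group of degree at least 5 has exactly four invariant subspaces: zero, the constant functions, the functions with coordinate sum zero, and everything. -/
theorem result {α : Type*} [Fintype α] [DecidableEq α] (hα : 5 ≤ Fintype.card α) {K : Type*} [Field K] (W : Subrepresentation (Cfsg.permRep K (alternatingGroup α) α)) : W.toSubmodule = ⊥ ∨ W = Cfsg.permConstants K (alternatingGroup α) α ∨ W = Cfsg.permSumZero K (alternatingGroup α) α ∨ W.toSubmodule = ⊤ := by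
  exact Cfsg.Agent.PermGroups.alt_permRep_submodules hα W

end Cfsg.Agent.S0714
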