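import Cfsg.Statements.S0716
import Cfsg.Agent.PermGroups.SubdegreeTrace

set_option autoImplicit false
open Cfsg

namespace Cfsg.Agent.S0716

/-- (a) If all non-principal irreducible constituents of the permutation character of a transitive group have the same degree `f`, the character is multiplicity-free and all non-trivial subdegrees equal `f`. (b) A transitive group of rank at most 5 has multiplicity-free permutation character. -/
theorem result {G : Type*} [Group G] [Fintype G] {Ω : Type*} [Fintype Ω] [MulAction G Ω] [MulAction.IsPretransitive G Ω] (a : Ω) : ((f : ℕ) → (∀ χ : G → ℂ, Cfsg.IsIrrCharacter G χ → χ ≠ (fun _ => 1) → Cfsg.classInner (fun g : G => (Nat.card (MulAction.fixedBy Ω g) : ℂ)) χ ≠ 0 → χ 1 = f) → (∀ χ : G → ℂ, Cfsg.IsIrrCharacter G χ → Cfsg.classInner (fun g : G => (Nat.card (MulAction.fixedBy Ω g) : ℂ)) χ = 0 ∨ Cfsg.classInner (fun g : G => (Nat.card (MulAction.fixedBy Ω g) : ℂ)) χ = 1) ∧ ∀ b : Ω, b ≠ a → Nat.card (MulAction.orbit (MulAction.stabilizer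 G a) b) = f) ∧ (Nat.card (MulAction.orbitRel.Quotient (MulAction.stabilizer G a) Ω) ≤ 5 → ∀ χ : G → ℂ, Cfsg.IsIrrCharacter G χ → Cfsg.classInner (fun g : G => (Nat.card (MulAction.fixedBy Ω g) : ℂ)) χ = 0 ∨ Cfsg.classInner (fun g : G => (Nat.card (MulAction.fixedBy Ω g) : ℂ)) χ = 1) := by
  classical
  haveI : Nonempty Ω := ⟨a⟩
  simp only [Cfsg.Agent.PermGroups.fixFun_eq]
  haveI : Fintype (MulAction.orbitRel.Quotient (MulAction.stabilizer G a) Ω) := Fintype.ofFinite _
  obtain ⟨m, hm, hπ⟩ := Chars.exists_eq_sum_nsmul (Chars.isCharacter_of_rep (Cfsg.permRep ℂ G Ω))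
  let one : Cfsg.IrrCharacter G := ⟨fun _ => 1, Chars.isIrrCharacter_one⟩
  have hm1 : m one = 1 := by
    have := hm one
    rw [show (one : G → ℂ) = fun _ => 1 from rfl, PermGroups.classInner_one_of_transitive] at this
    exact_mod_cast this.symm
  -- the rank is the sum of the squared multiplicities
  have hrank : 1 + ∑ χ ∈ Finset.univ.erase one, m χ ^ 2 =
      Nat.card (MulAction.orbitRel.Quotient (MulAction.stabilizer G a) Ω) := by
    have h := Chars.classInner_eq_sum (Chars.isClassFunction_of_isCharacter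
      (Chars.isCharacter_of_rep (Cfsg.permRep ℂ G Ω))) (Cfsg.permRep ℂ G Ω).character
    rw [PermGroups.classInner_self_eq_rank a] at h
    have hN : Nat.card (MulAction.orbitRel.Quotient (MulAction.stabilizer G a) Ω) = ∑ χ : Cfsg.IrrCharacter G, m χ ^ 2 := by
      have h2 : ((Nat.card (MulAction.orbitRel.Quotient (MulAction.stabilizer G a) Ω) : ℕ) : ℂ) = ((∑ χ : Cfsg.IrrCharacter G, m χ ^ 2 : ℕ) : ℂ) := by
        rw [h, Nat.cast_sum]
        refine Finset.sum_congr rfl fun χ _ => ?_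
        rw [← Chars.classInner_conj_symm (Cfsg.permRep ℂ G Ω).character (χ : G → ℂ), hm, map_natCast]
        push_cast; ring
      exact_mod_cast h2
    rw [hN, ← Finset.add_sum_erase _ _ (Finset.mem_univ one), hm1, one_pow]
  have part : ∀ f : ℕ, (∀ χ : G → ℂ, Cfsg.IsIrrCharacter G χ → χ ≠ (fun _ => 1) →
      Cfsg.classInner (Cfsg.permRep ℂ G Ω).character χ ≠ 0 → χ 1 = f) →
      (∀ χ : G → ℂ, Cfsg.IsIrrCharacter G χ → Cfsg.classInner (Cfsg.permRep ℂ G Ω).character χ = 0 ∨
        Cfsg.classInner (Cfsg.permRep ℂ G Ω).character χ = 1) ∧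
      ∀ b : Ω, b ≠ a → Nat.card (MulAction.orbit (MulAction.stabilizer G a) b) = f := by
    intro f hf
    have hdeg : ∀ χ ∈ Finset.univ.erase one, m χ ≠ 0 → (χ : G → ℂ) 1 = f := fun χ hχ h0 =>
      hf _ χ.2 (fun h => Finset.ne_of_mem_erase hχ (Subtype.ext h)) (by rw [hm]; exact_mod_cast h0)
    have hn : Fintype.card Ω = 1 + f * ∑ χ ∈ Finset.univ.erase one, m χ := by
      have h1 : ((Fintype.card Ω : ℕ) : ℂ) = ((1 + f * ∑ χ ∈ Finset.univ.erase one, m χ : ℕ) : ℂ) := by
        rw [← Module.finrank_fintype_fun_eq_card ℂ (η := Ω), ← Representation.char_one (Cfsg.permRep ℂ G Ω), hπ,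
          Finset.sum_apply, ← Finset.add_sum_erase _ _ (Finset.mem_univ one)]
        rw [hm1, one_smul, Nat.cast_add, Nat.cast_mul, Nat.cast_sum, Finset.mul_sum, Nat.cast_one]
        congr 1
        refine Finset.sum_congr rfl fun χ hχ => ?_
        rw [Pi.smul_apply, nsmul_eq_mul]
        rcases eq_or_ne (m χ) 0 with h0 | h0
        · simp [h0]
        · rw [hdeg χ hχ h0, mul_comm]
      exact_mod_cast h1
    let ω₀ : MulAction.orbitRel.Quotient (MulAction.stabilizer G a) Ω := Quotient.mk'' a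
    have hω₀ : Nat.card ω₀.orbit = 1 := by
      rw [Nat.card_eq_one_iff_exists]
      refine ⟨⟨a, by rw [MulAction.orbitRel.Quotient.mem_orbit]⟩, ?_⟩
      rintro ⟨y, hy⟩
      rw [MulAction.orbitRel.Quotient.mem_orbit] at hy
      obtain ⟨⟨g, hg⟩, hgy⟩ : y ∈ MulAction.orbit (MulAction.stabilizer G a) a :=
        MulAction.orbitRel_apply.1 (Quotient.exact' hy)
      exact Subtype.ext (hgy.symm.trans hg)
    have hrep : ∀ ω : MulAction.orbitRel.Quotient (MulAction.stabilizer G a) Ω, ω ≠ ω₀ →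
        f ∣ Nat.card ω.orbit ∧ 0 < Nat.card ω.orbit := by
      intro ω hω
      induction ω using Quotient.inductionOn' with
      | h b =>
        have hb : b ≠ a := fun h => hω (congrArg Quotient.mk'' h)
        rw [MulAction.orbitRel.Quotient.orbit_mk]
        haveI : Nonempty (MulAction.orbit (MulAction.stabilizer G a) b) := ⟨⟨b, MulAction.mem_orbit_self b⟩⟩
        refine ⟨PermGroups.dvd_subdegree f (fun χ hχ h1 h0 => ⟨1, by rw [hf χ hχ h1 h0]; simp⟩) hb, Nat.card_pos⟩
    have hpart := PermGroups.sum_card_suborbits (G := G) a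
    rw [← Finset.add_sum_erase _ _ (Finset.mem_univ ω₀), hω₀, hn] at hpart
    have hge : ∀ ω ∈ Finset.univ.erase ω₀, f ≤ Nat.card (MulAction.orbitRel.Quotient.orbit ω) := fun ω hω =>
      Nat.le_of_dvd (hrep ω (Finset.ne_of_mem_erase hω)).2 (hrep ω (Finset.ne_of_mem_erase hω)).1
    have hQM : ∑ χ ∈ Finset.univ.erase one, m χ ^ 2 = ∑ χ ∈ Finset.univ.erase one, m χ := by
      rcases Nat.eq_zero_or_pos f with rfl | hfpos
      · refine Finset.sum_congr rfl fun χ hχ => ?_
        rcases eq_or_ne (m χ) 0 with h0 | h0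
        · simp [h0]
        · exact absurd (by simpa using hdeg χ hχ h0) (Chars.irr_apply_one_ne_zero χ.2)
      have h1 : (Finset.univ.erase ω₀).card * f ≤ ∑ ω ∈ Finset.univ.erase ω₀, Nat.card (MulAction.orbitRel.Quotient.orbit ω) := by
        rw [← smul_eq_mul]; exact Finset.card_nsmul_le_sum _ _ _ hge
      rw [Finset.card_erase_of_mem (Finset.mem_univ _), Finset.card_univ, ← Nat.card_eq_fintype_card, ← hrank,
        Nat.add_sub_cancel_left] at h1
      refine le_antisymm ?_ (Finset.sum_le_sum fun χ _ => Nat.le_self_pow (by norm_num) _)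
      refine Nat.le_of_mul_le_mul_right ?_ hfpos
      rw [mul_comm _ f] at h1 ⊢
      rw [mul_comm _ f]
      omega
    have hle : ∀ χ : Cfsg.IrrCharacter G, m χ ≤ 1 := by
      intro χ
      by_cases hχ : χ = one
      · rw [hχ, hm1]
      have := (Finset.sum_eq_sum_iff_of_le fun χ _ => Nat.le_self_pow (by norm_num : 2 ≠ 0) (m χ)).1 hQM.symm χ
        (Finset.mem_erase.2 ⟨hχ, Finset.mem_univ _⟩)
      by_contra h2
      push Not at h2
      nlinarith
    refine ⟨fun χ hχ => ?_, fun b hb => ?_⟩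
    · have h := hm ⟨χ, hχ⟩
      rcases Nat.le_one_iff_eq_zero_or_eq_one.1 (hle ⟨χ, hχ⟩) with h0 | h0 <;> rw [h0] at h
      · exact Or.inl (by simpa using h)
      · exact Or.inr (by simpa using h)
    · have hcard : (Finset.univ.erase ω₀).card = ∑ χ ∈ Finset.univ.erase one, m χ := by
        rw [Finset.card_erase_of_mem (Finset.mem_univ _), Finset.card_univ, ← Nat.card_eq_fintype_card, ← hrank,
          Nat.add_sub_cancel_left, hQM]
      have hsum : ∑ ω ∈ Finset.univ.erase ω₀, f = ∑ ω ∈ Finset.univ.erase ω₀, Nat.card (MulAction.orbitRel.Quotient.orbit ω) := by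
        rw [Finset.sum_const, smul_eq_mul, hcard, mul_comm]
        omega
      have := (Finset.sum_eq_sum_iff_of_le hge).1 hsum (Quotient.mk'' b) (Finset.mem_erase.2 ⟨fun h => ?_, Finset.mem_univ _⟩)
      · rw [MulAction.orbitRel.Quotient.orbit_mk] at this
        exact this.symm
      · obtain ⟨⟨g, hg⟩, hgb⟩ : b ∈ MulAction.orbit (MulAction.stabilizer G a) a :=
          MulAction.orbitRel_apply.1 (Quotient.exact' h)
        exact hb (hgb.symm.trans hg)
  refine ⟨part, fun h5 χ hχ => ?_⟩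
  by_contra hcon
  push Not at hcon
  have hge2 : 2 ≤ m ⟨χ, hχ⟩ := by
    have h := hm ⟨χ, hχ⟩
    by_contra hlt
    rcases Nat.le_one_iff_eq_zero_or_eq_one.1 (Nat.lt_succ_iff.1 (not_le.1 hlt)) with h0 | h0 <;> rw [h0] at h
    · exact hcon.1 (by simpa using h)
    · exact hcon.2 (by simpa using h)
  have hne : (⟨χ, hχ⟩ : Cfsg.IrrCharacter G) ≠ one := fun h => by rw [h, hm1] at hge2; omega
  have hmemχ : (⟨χ, hχ⟩ : Cfsg.IrrCharacter G) ∈ Finset.univ.erase one := Finset.mem_erase.2 ⟨hne, Finset.mem_univ _⟩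
  have honly : ∀ ψ ∈ Finset.univ.erase one, ψ ≠ (⟨χ, hχ⟩ : Cfsg.IrrCharacter G) → m ψ = 0 := by
    intro ψ hψ hψχ
    by_contra h0
    have h2 : m ⟨χ, hχ⟩ ^ 2 + m ψ ^ 2 ≤ ∑ c ∈ Finset.univ.erase one, m c ^ 2 := by
      rw [← Finset.sum_pair (f := fun c => m c ^ 2) (Ne.symm hψχ)]
      exact Finset.sum_le_sum_of_subset (by
        intro c hc
        simp only [Finset.mem_insert, Finset.mem_singleton] at hc
        rcases hc with rfl | rfl
        · exact hmemχ
        · exact hψ)
    have : 1 ≤ m ψ ^ 2 := Nat.one_le_pow _ _ (Nat.pos_of_ne_zero h0)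
    have h4 : 4 ≤ m ⟨χ, hχ⟩ ^ 2 := by nlinarith
    omega
  obtain ⟨f, hf⟩ := Chars.exists_irr_apply_one_eq hχ
  have := (part f fun ψ hψ hψ1 hψ0 => ?_).1 χ hχ
  · exact absurd this (by push Not; exact hcon)
  · by_cases hψχ : ψ = χ
    · simpa [hψχ] using hf.2
    exfalso
    refine hψ0 ?_
    have h := hm ⟨ψ, hψ⟩
    rw [honly _ (Finset.mem_erase.2 ⟨fun h => hψ1 (congrArg Subtype.val h), Finset.mem_univ _⟩)
      (fun h => hψχ (congrArg Subtype.val h))] at h
    simpa using h

end Cfsg.Agent.S0716
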