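import Cfsg.Statements.S0717
import Cfsg.Agent.PermGroups.SubdegreeTrace

set_option autoImplicit false
open Cfsg

namespace Cfsg.Agent.S0717

/-- All suborbits of a transitive group are self-paired (every pair of points is interchanged by some group element) if and only if the permutation character is multiplicity-free and each of its irreducible constituents is real-valued. -/
theorem result {G : Type*} [Group G] [Fintype G] {Ω : Type*} [Fintype Ω] [MulAction G Ω] [MulAction.IsPretransitive G Ω] : (∀ a b : Ω, ∃ g : G, g • a = b ∧ g • b = a) ↔ ∀ χ : G → ℂ, Cfsg.IsIrrCharacter G χ → Cfsg.classInner (fun g : G => (Nat.card (MulAction.fixedBy Ω g) : ℂ)) χ ≠ 0 → Cfsg.classInner (fun g : G => (Nat.card (MulAction.fixedBy Ω g) : ℂ)) χ = 1 ∧ ∀ g : G, (starRingEnd ℂ) (χ g) = χ g := by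
  classical
  rw [Cfsg.Agent.PermGroups.fixFun_eq]
  set ρ := Cfsg.permRep ℂ G Ω with hρ
  constructor
  · intro hswap χ hχ hne
    have hsym : ∀ T : (Ω → ℂ) →ₗ[ℂ] (Ω → ℂ), (∀ g : G, T ∘ₗ ρ g = ρ g ∘ₗ T) →
        ∀ x y, PermGroups.entry T x y = PermGroups.entry T y x := by
      intro T hT x y
      obtain ⟨g, h1, h2⟩ := hswap x y
      conv_lhs => rw [← (PermGroups.commute_iff_entry T).1 hT g, h1, h2]
    have hmf : ∀ ψ : G → ℂ, Cfsg.IsIrrCharacter G ψ →
        Cfsg.classInner ρ.character ψ = 0 ∨ Cfsg.classInner ρ.character ψ = 1 := fun ψ hψ =>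
      PermGroups.multiplicityFree_of_commute ρ (fun S T hS hT => PermGroups.commute_of_symmetric hsym hS hT) hψ
    refine ⟨(hmf χ hχ).resolve_left hne, fun g => ?_⟩
    by_contra hreal
    have hχ' : Cfsg.IsIrrCharacter G (fun g => starRingEnd ℂ (χ g)) := Chars.isIrrCharacter_star hχ
    have hE : PermGroups.charProj ρ χ = PermGroups.charProj ρ (fun g => starRingEnd ℂ (χ g)) :=
      PermGroups.entry_ext fun x y => by
        rw [PermGroups.entry_charProj_swap hχ]
        exact hsym _ (fun g => PermGroups.charProj_commute ρ hχ' g) y x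
    have h0 := (PermGroups.charProj_mul ρ hχ hχ').2 (fun h => hreal (congrFun h g).symm)
    rw [← hE, (PermGroups.charProj_mul ρ hχ hχ).1 rfl] at h0
    exact PermGroups.charProj_ne_zero ρ hχ hne h0
  · intro h a b
    have hmf : ∀ χ : G → ℂ, Cfsg.IsIrrCharacter G χ →
        Cfsg.classInner ρ.character χ = 0 ∨ Cfsg.classInner ρ.character χ = 1 := fun χ hχ =>
      (em _).imp_right fun hne => (h χ hχ hne).1
    obtain ⟨c, hc⟩ := PermGroups.mem_span_charProj ρ hmf
      (PermGroups.relOp_commute (PermGroups.orbRel_smul (G := G) a b))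
    have hsym : PermGroups.entry (PermGroups.relOp (PermGroups.orbRel (G := G) a b)) a b =
        PermGroups.entry (PermGroups.relOp (PermGroups.orbRel (G := G) a b)) b a := by
      simp only [hc, PermGroups.entry_sum, PermGroups.entry_smul]
      refine Finset.sum_congr rfl fun χ _ => ?_
      by_cases hne : Cfsg.classInner ρ.character (χ : G → ℂ) = 0
      · rw [PermGroups.charProj_eq_zero ρ χ.2 hne]; simp [PermGroups.entry]
      · have hreal : (fun g => starRingEnd ℂ ((χ : G → ℂ) g)) = (χ : G → ℂ) := funext ((h _ χ.2 hne).2)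
        rw [PermGroups.entry_charProj_swap χ.2 a b, hreal]
    have hab : PermGroups.orbRel (G := G) a b a b := ⟨1, one_smul G a, one_smul G b⟩
    rw [PermGroups.entry_relOp, PermGroups.entry_relOp, if_pos hab] at hsym
    by_cases hba : PermGroups.orbRel (G := G) a b b a
    · exact hba
    · rw [if_neg hba] at hsym
      exact absurd hsym one_ne_zero

end Cfsg.Agent.S0717
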