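import Cfsg.Statements.S0719
import Cfsg.Agent.PermGroups.SubdegreeTrace
import Mathlib.GroupTheory.GroupAction.Primitive
import Mathlib.GroupTheory.Perm.Cycle.Type
import Mathlib.Tactic.Module

set_option autoImplicit false
open Cfsg

namespace Cfsg.Agent.S0719

open MulAction PermGroups in
/-- The integer equations of a rank-three group of degree `2m` have only the expected solutions. -/
theorem solve_equations {m k t θ : ℤ} (hm : 2 ≤ m) (hk2 : 2 ≤ k) (hk : k + 3 ≤ 2 * m)
    (hkθ : k = θ + m * t) (heq : 2 * θ ^ 2 + 4 * t * θ - 2 * θ + t ^ 2 * (m + 1) - 2 * m * t = 0) :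
    ∃ a : ℕ, 0 < a ∧ m = 2 * (a : ℤ) ^ 2 + 2 * a + 1 ∧
      (k = (a : ℤ) * (2 * a + 1) ∨ k = ((a : ℤ) + 1) * (2 * a + 1)) := by
  have hid : (2 * θ + 2 * t - 1) ^ 2 + (2 * (m - 1) * (t * (t - 2)) - 1) = 0 := by linear_combination 2 * heq
  have ht : 0 ≤ t ∧ t ≤ 2 := by
    by_contra hcon
    have h3 : 3 ≤ t * (t - 2) := by
      rcases not_and_or.1 hcon with h | h
      · have : t ≤ -1 := by omega
        nlinarith
      · have : 3 ≤ t := by omega
        nlinarith
    nlinarith [sq_nonneg (2 * θ + 2 * t - 1)]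
  obtain ⟨ht0, ht2⟩ := ht
  interval_cases t
  · have : θ * (θ - 1) = 0 := by linarith
    rcases mul_eq_zero.1 this with h | h <;> omega
  · have hmθ : m = 2 * θ ^ 2 + 2 * θ + 1 := by linarith
    rcases le_or_gt 0 θ with hθ | hθ
    · obtain ⟨a, rfl⟩ := Int.eq_ofNat_of_zero_le hθ
      refine ⟨a, ?_, hmθ, Or.inr ?_⟩
      · rcases Nat.eq_zero_or_pos a with rfl | h
        · norm_num at hmθ; omega
        · exact h
      · rw [hkθ, hmθ]; ring
    · obtain ⟨a, ha⟩ := Int.eq_ofNat_of_zero_le (show 0 ≤ -θ - 1 by omega)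
      have hθa : θ = -(a : ℤ) - 1 := by omega
      refine ⟨a, ?_, by rw [hmθ, hθa]; ring, Or.inl (by rw [hkθ, hmθ, hθa]; ring)⟩
      rcases Nat.eq_zero_or_pos a with rfl | h
      · rw [hθa] at hmθ; norm_num at hmθ; omega
      · exact h
  · have : (θ + 1) * (θ + 2) = 0 := by linarith
    rcases mul_eq_zero.1 this with h | h <;> omega

open MulAction PermGroups in
/-- The subdegree equation of a rank-three group of degree `2m`. -/
theorem subdegree_equation {G : Type*} [Group G] [Fintype G] {Ω : Type*} [Fintype Ω] [MulAction G Ω]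
    (hprim : MulAction.IsPreprimitive G Ω) {m : ℕ} (hm : Fintype.card Ω = 2 * m) (a : Ω)
    (hrank : Nat.card (orbitRel.Quotient (stabilizer G a) Ω) = 3) (χ₁ χ₂ : G → ℂ)
    (h₁ : Cfsg.IsIrrCharacter G χ₁) (h₂ : Cfsg.IsIrrCharacter G χ₂)
    (hπ : (Cfsg.permRep ℂ G Ω).character = fun g => 1 + χ₁ g + χ₂ g)
    (hd₁ : χ₁ 1 = (m : ℂ) - 1) (hd₂ : χ₂ 1 = m) (b : Ω) (hb : b ≠ a) :
    ∃ A : ℕ, 0 < A ∧ m = 2 * A ^ 2 + 2 * A + 1 ∧
      (Nat.card (orbit (stabilizer G a) b) = A * (2 * A + 1) ∨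
        Nat.card (orbit (stabilizer G a) b) = (A + 1) * (2 * A + 1)) := by
  classical
  haveI := hprim.toIsPretransitive
  haveI : Nonempty Ω := ⟨a⟩
  haveI : Nontrivial Ω := ⟨⟨b, a, hb⟩⟩
  haveI : Fintype (orbitRel.Quotient (stabilizer G a) Ω) := Fintype.ofFinite _
  have hn : (Fintype.card Ω : ℂ) ≠ 0 := by exact_mod_cast Fintype.card_ne_zero
  rw [Nat.card_eq_fintype_card] at hrank
  -- the third suborbit
  obtain ⟨c, hca, hcb⟩ : ∃ c : Ω, c ≠ a ∧ c ∉ orbit (stabilizer G a) b := by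
    by_contra hcon
    push Not at hcon
    have hsub : (Finset.univ : Finset (orbitRel.Quotient (stabilizer G a) Ω)) ⊆ {Quotient.mk'' a, Quotient.mk'' b} := by
      intro ω _
      induction ω using Quotient.inductionOn' with
      | h y =>
        by_cases hy : y = a
        · simp [hy]
        · simp only [Finset.mem_insert, Finset.mem_singleton]
          exact Or.inr (Quotient.sound' (orbitRel_apply.2 (hcon y hy)))
    have := (Finset.card_le_card hsub).trans Finset.card_le_two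
    rw [Finset.card_univ, hrank] at this
    omega
  have hfix : ∀ z ∈ orbit (stabilizer G a) a, z = a := by
    rintro z ⟨⟨g, hg⟩, rfl⟩; exact hg
  have hclass : ∀ y, y ≠ a → y ∈ orbit (stabilizer G a) b ∨ y ∈ orbit (stabilizer G a) c := by
    intro y hy
    by_contra hcon
    push Not at hcon
    have hne : ∀ u v : Ω, u ∉ orbit (stabilizer G a) v →
        (Quotient.mk'' u : orbitRel.Quotient (stabilizer G a) Ω) ≠ Quotient.mk'' v :=
      fun u v h he => h (orbitRel_apply.1 (Quotient.exact' he))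
    have hcard : ({Quotient.mk'' a, Quotient.mk'' b, Quotient.mk'' c, Quotient.mk'' y} :
        Finset (orbitRel.Quotient (stabilizer G a) Ω)).card = 4 := by
      have hay := hne y a fun h => hy (hfix _ h)
      have hac := hne c a fun h => hca (hfix _ h)
      have hab := hne b a fun h => hb (hfix _ h)
      simp [hay.symm, hac.symm, hab.symm, (hne c b hcb).symm, (hne y b hcon.1).symm, (hne y c hcon.2).symm]
    have := hcard ▸ Finset.card_le_univ
      ({Quotient.mk'' a, Quotient.mk'' b, Quotient.mk'' c, Quotient.mk'' y} :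
        Finset (orbitRel.Quotient (stabilizer G a) Ω))
    omega
  set R := orbRel (G := G) a b with hRdef
  set R' := orbRel (G := G) a c with hR'def
  have hcover : ∀ x y, x ≠ y → R x y ∨ R' x y := by
    intro x y hxy
    obtain ⟨g, rfl⟩ := exists_smul_eq G a x
    rw [← smul_inv_smul g y, hRdef, hR'def, orbRel_smul, orbRel_smul, orbRel_self_iff, orbRel_self_iff]
    exact hclass _ fun h => hxy (by rw [← smul_inv_smul g y, h])
  have hdisj : ∀ x y, R x y → R' x y → False := by
    intro x y h h'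
    obtain ⟨g, rfl⟩ := exists_smul_eq G a x
    rw [← smul_inv_smul g y, hRdef, orbRel_smul, orbRel_self_iff] at h
    rw [← smul_inv_smul g y, hR'def, orbRel_smul, orbRel_self_iff] at h'
    exact hcb (by rw [← orbit_eq_iff.2 h, orbit_eq_iff.2 h']; exact mem_orbit_self c)
  have hsymm : ∀ x y, R x y → R y x := by
    obtain ⟨t, u, htu, htt⟩ : ∃ (t : G) (u : Ω), t • u ≠ u ∧ t • t • u = u := by
      haveI : IsPretransitive (MulAction.toPermHom G Ω).range Ω :=
        ⟨fun x y => let ⟨g, hg⟩ := exists_smul_eq G x y; ⟨⟨_, g, rfl⟩, hg⟩⟩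
      have hdvd : 2 ∣ Nat.card (MulAction.toPermHom G Ω).range := by
        refine dvd_trans ⟨m, ?_⟩ ((index_stabilizer_of_transitive (MulAction.toPermHom G Ω).range a) ▸ Subgroup.index_dvd_card
          (stabilizer (MulAction.toPermHom G Ω).range a))
        rw [Nat.card_eq_fintype_card, hm]
      haveI : Fact (Nat.Prime 2) := ⟨Nat.prime_two⟩
      obtain ⟨⟨σ, t, rfl⟩, ht⟩ := exists_prime_orderOf_dvd_card' 2 hdvd
      have ht' : orderOf (MulAction.toPermHom G Ω t) = 2 := by rw [← Subgroup.orderOf_coe] at ht; exact ht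
      obtain ⟨u, hu⟩ : ∃ u, t • u ≠ u := by
        by_contra hcon
        push Not at hcon
        rw [show MulAction.toPermHom G Ω t = 1 from Equiv.ext hcon, orderOf_one] at ht'
        omega
      refine ⟨t, u, hu, ?_⟩
      have := Equiv.congr_fun (pow_orderOf_eq_one (MulAction.toPermHom G Ω t)) u
      rw [ht', sq] at this
      exact this
    have hself : ∀ d, orbRel (G := G) a d u (t • u) → ∀ x y,
        orbRel (G := G) a d x y → orbRel (G := G) a d y x := by
      intro d hu x y hxy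
      have hu' : orbRel (G := G) a d (t • u) u := by
        have := (orbRel_smul a d t u (t • u)).2 hu
        rwa [htt] at this
      obtain ⟨g, rfl, rfl⟩ := hxy
      obtain ⟨h, hh1, hh2⟩ := hu
      obtain ⟨k, hk1, hk2⟩ := hu'
      refine ⟨g * h⁻¹ * k, ?_, ?_⟩
      · rw [mul_smul, mul_smul, hk1, ← hh2, inv_smul_smul]
      · rw [mul_smul, mul_smul, hk2, ← hh1, inv_smul_smul]
    rcases hcover u (t • u) htu.symm with h | h
    · exact hself b h
    · intro x y hxy
      refine (hcover y x (orbRel_ne hb hxy).symm).resolve_right fun h' => ?_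
      exact hdisj x y hxy (hself c h y x h')
  -- suborbits are neither trivial
  have hne1 : ∀ d, d ≠ a → Nat.card (orbit (stabilizer G a) d) ≠ 1 := by
    intro d hd h1
    obtain ⟨⟨z, hz⟩, hu⟩ := Nat.card_eq_one_iff_exists.1 h1
    have hle : stabilizer G a ≤ stabilizer G d := fun g hg => by
      have e1 := congrArg Subtype.val (hu ⟨g • d, ⟨⟨g, hg⟩, rfl⟩⟩)
      have e2 := congrArg Subtype.val (hu ⟨d, mem_orbit_self d⟩)
      exact e1.trans e2.symm
    obtain ⟨g, rfl⟩ := exists_smul_eq G a d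
    have heq : stabilizer G (g • a) = stabilizer G a := by
      refine (Subgroup.eq_of_le_of_card_ge hle ?_).symm
      rw [stabilizer_smul_eq_stabilizer_map_conj]
      exact (Nat.card_congr (Subgroup.equivMapOfInjective _ _ (MulEquiv.injective (MulAut.conj g))).toEquiv).ge
    have hN : Subgroup.normalizer ((stabilizer G a : Subgroup G) : Set G) = ⊤ := by
      rcases ((isCoatom_stabilizer_iff_preprimitive G a).2 hprim).le_iff.1 (Subgroup.le_normalizer (H := stabilizer G a)) with h | h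
      · exact h
      · exfalso
        refine hd (mem_stabilizer_iff.1 (h ▸ ?_))
        rw [Subgroup.mem_normalizer_iff]
        intro x
        conv_rhs => rw [← heq, stabilizer_smul_eq_stabilizer_map_conj]
        simp [Subgroup.mem_map_equiv, MulAut.conj_symm_apply, mul_assoc]
    have hall : ∀ (h : stabilizer G a) (y : Ω), h • y = y := by
      intro h y
      obtain ⟨k, rfl⟩ := exists_smul_eq G a y
      have hk : k⁻¹ ∈ Subgroup.normalizer ((stabilizer G a : Subgroup G) : Set G) := hN ▸ Subgroup.mem_top _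
      have := (Subgroup.mem_normalizer_iff.1 hk h).1 h.2
      rw [mem_stabilizer_iff, inv_inv, mul_smul, mul_smul, inv_smul_eq_iff] at this
      exact this
    have hbij : Function.Bijective (fun y : Ω => (Quotient.mk'' y : orbitRel.Quotient (stabilizer G a) Ω)) := by
      refine ⟨fun y z h => ?_, Quotient.mk''_surjective⟩
      obtain ⟨g, hg⟩ := orbitRel_apply.1 (Quotient.exact' h)
      exact hg.symm.trans (hall g z)
    rw [← Fintype.card_of_bijective hbij, hm] at hrank
    omega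
  set ρ := Cfsg.permRep ℂ G Ω with hρ
  set k := Nat.card (orbit (stabilizer G a) b) with hk
  set l := Nat.card (orbit (stabilizer G a) c) with hl
  have hk2 : 2 ≤ k := by
    have : Nonempty (orbit (stabilizer G a) b) := ⟨⟨b, mem_orbit_self b⟩⟩
    have := hne1 b hb
    have : 0 < k := Nat.card_pos
    omega
  have hl2 : 2 ≤ l := by
    have : Nonempty (orbit (stabilizer G a) c) := ⟨⟨c, mem_orbit_self c⟩⟩
    have := hne1 c hca
    have : 0 < l := Nat.card_pos
    omega
  set T : Module.End ℂ (Ω → ℂ) := relOp R with hT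
  set T' : Module.End ℂ (Ω → ℂ) := relOp R' with hT'
  set E₀ : Module.End ℂ (Ω → ℂ) := charProj ρ (fun _ => 1) with hE₀
  have hJ : ∀ x y, entry T x y + entry T' x y + (if x = y then 1 else 0) = 1 := by
    intro x y
    rw [hT, hT', entry_relOp, entry_relOp]
    by_cases hxy : x = y
    · subst hxy
      rw [if_neg fun h => orbRel_ne hb h rfl, if_neg fun h => orbRel_ne hca h rfl]
      simp
    · rcases hcover x y hxy with h | h
      · rw [if_pos h, if_neg (hdisj x y h), if_neg hxy]; simp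
      · rw [if_neg fun h' => hdisj x y h' h, if_pos h, if_neg hxy]; simp
  have hkl : k + l + 1 = 2 * m := by
    have h : ((k + l + 1 : ℕ) : ℂ) = ((2 * m : ℕ) : ℂ) := by
      rw [← hm, Nat.cast_add, Nat.cast_add, ← sum_entry_orbRel (G := G) a b a, ← sum_entry_orbRel (G := G) a c a,
        Nat.cast_one]
      conv_lhs => rw [← Finset.sum_ite_eq Finset.univ a (fun _ : Ω => (1 : ℂ)) |>.trans (if_pos (Finset.mem_univ a)),
        ← Finset.sum_add_distrib, ← Finset.sum_add_distrib]
      rw [Finset.sum_congr rfl fun y _ => hJ a y]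
      simp
    exact_mod_cast h
  have hT1 : T * E₀ = (k : ℂ) • E₀ := by
    refine entry_ext fun x y => ?_
    rw [Module.End.mul_eq_comp, entry_comp, entry_smul]
    simp only [hE₀, hρ, entry_charProj_one, ← Finset.sum_mul, hT, hRdef, sum_entry_orbRel, hk]
  have hJ0 : T + T' + 1 = (Fintype.card Ω : ℂ) • E₀ := by
    refine entry_ext fun x y => ?_
    rw [entry_smul, hE₀, hρ, entry_charProj_one, mul_inv_cancel₀ hn]
    conv_rhs => rw [← hJ x y]
    simp [entry, Pi.single_apply]
  -- the three constituents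
  have h1 : (fun _ => 1 : G → ℂ) ≠ χ₁ ∧ (fun _ => 1 : G → ℂ) ≠ χ₂ := by
    have h := classInner_one_of_transitive (G := G) (Ω := Ω)
    rw [hπ, show (fun g => 1 + χ₁ g + χ₂ g) = (fun _ => (1 : ℂ)) + χ₁ + χ₂ from rfl, Chars.classInner_add_left,
      Chars.classInner_add_left, Chars.classInner_self_irr Chars.isIrrCharacter_one,
      Chars.classInner_irr h₁ Chars.isIrrCharacter_one, Chars.classInner_irr h₂ Chars.isIrrCharacter_one] at h
    by_contra hcon
    rcases not_and_or.1 hcon with e | e <;>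
    · rw [not_not] at e
      rw [if_pos e.symm] at h
      split_ifs at h <;> norm_num at h
  have h12 : χ₁ ≠ χ₂ := fun h => by rw [h, hd₂] at hd₁; exact one_ne_zero (α := ℂ) (by linear_combination hd₁)
  have hinner : ∀ ψ : G → ℂ, Cfsg.IsIrrCharacter G ψ → classInner ρ.character ψ =
      (if (fun _ => 1 : G → ℂ) = ψ then 1 else 0) + (if χ₁ = ψ then 1 else 0) + (if χ₂ = ψ then 1 else 0) := by
    intro ψ hψ
    rw [hπ, show (fun g => 1 + χ₁ g + χ₂ g) = (fun _ => (1 : ℂ)) + χ₁ + χ₂ from rfl, Chars.classInner_add_left,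
      Chars.classInner_add_left, Chars.classInner_irr Chars.isIrrCharacter_one hψ, Chars.classInner_irr h₁ hψ,
      Chars.classInner_irr h₂ hψ]
  have hmf : ∀ ψ : G → ℂ, Cfsg.IsIrrCharacter G ψ → classInner ρ.character ψ = 0 ∨ classInner ρ.character ψ = 1 := by
    intro ψ hψ
    rw [hinner ψ hψ]
    by_cases e0 : (fun _ => 1 : G → ℂ) = ψ
    · subst e0; right; simp [h1.1.symm, h1.2.symm]
    by_cases e1 : χ₁ = ψ
    · subst e1; right; simp [e0, h12.symm]
    by_cases e2 : χ₂ = ψ
    · subst e2; right; simp [e0, h12]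
    left; simp [e0, e1, e2]
  have hone : classInner ρ.character (fun _ => 1) = 1 := classInner_one_of_transitive
  have hin1 : classInner ρ.character χ₁ = 1 := by rw [hinner χ₁ h₁]; simp [h1.1, h12.symm]
  have hin2 : classInner ρ.character χ₂ = 1 := by rw [hinner χ₂ h₂]; simp [h1.2, h12]
  have htrsum : ∀ X : Module.End ℂ (Ω → ℂ), LinearMap.trace ℂ _ X =
      LinearMap.trace ℂ _ (X * E₀) + LinearMap.trace ℂ _ (X * charProj ρ χ₁) + LinearMap.trace ℂ _ (X * charProj ρ χ₂) := by
    intro X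
    conv_lhs => rw [← mul_one X, ← sum_charProj ρ, Finset.mul_sum, map_sum]
    rw [← Finset.sum_subset (Finset.subset_univ
      ({⟨fun _ => 1, Chars.isIrrCharacter_one⟩, ⟨χ₁, h₁⟩, ⟨χ₂, h₂⟩} : Finset (Cfsg.IrrCharacter G)))]
    · rw [Finset.sum_insert, Finset.sum_insert, Finset.sum_singleton, ← add_assoc]
      · simpa [Subtype.ext_iff] using h12
      · simpa [Subtype.ext_iff] using h1
    · intro ψ _ hψ
      simp only [Finset.mem_insert, Finset.mem_singleton, Subtype.ext_iff, not_or] at hψ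
      rw [charProj_eq_zero ρ ψ.2 (by rw [hinner _ ψ.2]; simp [Ne.symm hψ.1, Ne.symm hψ.2.1, Ne.symm hψ.2.2]),
        mul_zero, map_zero]
  have hcT : ∀ g, T * ρ g = ρ g * T := relOp_commute (orbRel_smul a b)
  obtain ⟨θ₁, hθ₁⟩ := exists_scalar_charProj ρ hmf hcT h₁
  obtain ⟨θ₂, hθ₂⟩ := exists_scalar_charProj ρ hmf hcT h₂
  have hint : ∀ (χ : G → ℂ) (hχ : Cfsg.IsIrrCharacter G χ) (θ : ℂ), classInner ρ.character χ = 1 →
      T * charProj ρ χ = θ • charProj ρ χ → IsIntegral ℤ θ := by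
    intro χ hχ θ hin hθ
    obtain ⟨x, hx, htr⟩ := exists_integral_trace ρ hχ T hcT (relOp_isIntegral _)
    rw [hθ, map_smul, trace_charProj ρ hχ, hin, mul_one, smul_eq_mul, mul_comm] at htr
    rwa [mul_left_cancel₀ (Chars.irr_apply_one_ne_zero hχ) htr]
  have hE₀tr : LinearMap.trace ℂ _ E₀ = 1 := by
    rw [hE₀, trace_charProj ρ Chars.isIrrCharacter_one, hone, mul_one]
  -- trace of `T`
  have eq1 : (k : ℂ) + ((m : ℂ) - 1) * θ₁ + (m : ℂ) * θ₂ = 0 := by
    have h := htrsum T
    rw [hT1, hθ₁, hθ₂, map_smul, map_smul, map_smul, hE₀tr, trace_charProj ρ h₁, trace_charProj ρ h₂,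
      hin1, hin2, hd₁, hd₂, hT, trace_relOp_orbRel hb] at h
    simp only [smul_eq_mul, mul_one] at h
    linear_combination -h
  -- trace of the square of `T`
  have hdiag : ∀ x, entry (T * T : Module.End ℂ (Ω → ℂ)) x x = (k : ℂ) := by
    intro x
    rw [Module.End.mul_eq_comp, entry_comp, hk, ← sum_entry_orbRel (G := G) a b x]
    refine Finset.sum_congr rfl fun z _ => ?_
    rw [hT, entry_relOp, entry_relOp]
    by_cases h : R x z
    · rw [if_pos h, if_pos (hsymm x z h), mul_one]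
    · rw [if_neg h, zero_mul]
  have eq2 : (k : ℂ) ^ 2 + ((m : ℂ) - 1) * θ₁ ^ 2 + (m : ℂ) * θ₂ ^ 2 = 2 * m * k := by
    have h := htrsum (T * T)
    have e : ∀ (E : Module.End ℂ (Ω → ℂ)) (θ : ℂ), T * E = θ • E → T * T * E = θ ^ 2 • E := by
      intro E θ hE
      rw [mul_assoc, hE, mul_smul_comm, hE, smul_smul, sq]
    rw [e _ _ hT1, e _ _ hθ₁, e _ _ hθ₂, map_smul, map_smul, map_smul, hE₀tr, trace_charProj ρ h₁,
      trace_charProj ρ h₂, hin1, hin2, hd₁, hd₂, trace_eq_sum_entry,
      Finset.sum_congr rfl fun x _ => hdiag x, Finset.sum_const, Finset.card_univ, hm, nsmul_eq_mul] at h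
    simp only [smul_eq_mul, mul_one] at h
    push_cast at h
    linear_combination -h
  -- the minimal equation
  obtain ⟨lam, hlam⟩ : ∃ n : ℕ, entry (T * T : Module.End ℂ (Ω → ℂ)) a b = n :=
    ⟨(Finset.univ.filter fun z => R a z ∧ R z b).card, by
      rw [Module.End.mul_eq_comp, entry_comp, ← Finset.sum_boole]
      refine Finset.sum_congr rfl fun z _ => ?_
      rw [hT, entry_relOp, entry_relOp, ite_mul, one_mul, zero_mul, ite_and]⟩
  obtain ⟨mu, hmu⟩ : ∃ n : ℕ, entry (T * T : Module.End ℂ (Ω → ℂ)) a c = n :=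
    ⟨(Finset.univ.filter fun z => R a z ∧ R z c).card, by
      rw [Module.End.mul_eq_comp, entry_comp, ← Finset.sum_boole]
      refine Finset.sum_congr rfl fun z _ => ?_
      rw [hT, entry_relOp, entry_relOp, ite_mul, one_mul, zero_mul, ite_and]⟩
  have hTT : T * T = (k : ℂ) • 1 + (lam : ℂ) • T + (mu : ℂ) • T' := by
    have hinv := (commute_iff_entry (T * T : Module.End ℂ (Ω → ℂ))).1 fun g => by
      show T * T * ρ g = ρ g * (T * T)
      rw [mul_assoc, hcT, ← mul_assoc, hcT, mul_assoc]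
    refine entry_ext fun x y => ?_
    have hexp : entry ((k : ℂ) • (1 : Module.End ℂ (Ω → ℂ)) + (lam : ℂ) • T + (mu : ℂ) • T') x y =
        (k : ℂ) * (if x = y then 1 else 0) + (lam : ℂ) * entry T x y + (mu : ℂ) * entry T' x y := by
      simp [entry, Pi.single_apply]
    rw [hexp, hT, hT', entry_relOp, entry_relOp]
    by_cases hxy : x = y
    · subst hxy
      rw [← hT, hdiag, if_pos rfl, if_neg fun h => orbRel_ne hb h rfl, if_neg fun h => orbRel_ne hca h rfl]
      ring
    rw [if_neg hxy]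
    rcases hcover x y hxy with h | h
    · rw [if_pos h, if_neg (hdisj x y h)]
      obtain ⟨g, rfl, rfl⟩ := h
      rw [← hT, hinv, hlam]; ring
    · rw [if_neg fun h' => hdisj x y h' h, if_pos h]
      obtain ⟨g, rfl, rfl⟩ := h
      rw [← hT, hinv, hmu]; ring
  have hroot : ∀ (χ : G → ℂ) (hχ : Cfsg.IsIrrCharacter G χ) (θ : ℂ), classInner ρ.character χ = 1 →
      (fun _ => 1 : G → ℂ) ≠ χ →
      T * charProj ρ χ = θ • charProj ρ χ → θ ^ 2 = k + lam * θ + mu * (-1 - θ) := by
    intro χ hχ θ hin hne hθ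
    have h0 : (T + T' + 1) * charProj ρ χ = 0 := by
      rw [hJ0, smul_mul_assoc, hE₀, (charProj_mul ρ Chars.isIrrCharacter_one hχ).2 hne, smul_zero]
    rw [add_mul, add_mul, one_mul, hθ] at h0
    have hT'E : T' * charProj ρ χ = (-1 - θ) • charProj ρ χ := by
      linear_combination (norm := module) h0
    have h : T * T * charProj ρ χ = ((k : ℂ) + lam * θ + mu * (-1 - θ)) • charProj ρ χ := by
      rw [hTT, add_mul, add_mul, smul_mul_assoc, smul_mul_assoc, smul_mul_assoc, one_mul, hθ, hT'E,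
        smul_smul, smul_smul, add_smul, add_smul]
    rw [mul_assoc, hθ, mul_smul_comm, hθ, smul_smul, ← sq] at h
    exact smul_left_injective ℂ (charProj_ne_zero ρ hχ (by rw [hin]; exact one_ne_zero)) h
  have hi1 := hint χ₁ h₁ θ₁ hin1 hθ₁
  have e1 := hroot χ₁ h₁ θ₁ hin1 h1.1 hθ₁
  have e2 := hroot χ₂ h₂ θ₂ hin2 h1.2 hθ₂
  obtain ⟨θ, hθ⟩ : ∃ θ : ℤ, θ₂ = θ := by
    by_cases heq : θ₁ = θ₂
    · exfalso
      rw [← heq] at eq1
      have hdvd : (2 * (m : ℤ) - 1) ∣ (k : ℤ) :=
        dvd_of_integral_mul hi1.neg (by push_cast; linear_combination -eq1)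
      have := Int.le_of_dvd (by omega) hdvd
      omega
    · refine ⟨-(k : ℤ) - ((m : ℤ) - 1) * ((lam : ℤ) - mu), ?_⟩
      have hs : θ₁ + θ₂ = (lam : ℂ) - mu := by
        refine mul_left_cancel₀ (sub_ne_zero.2 heq) ?_
        linear_combination e1 - e2
      push_cast
      linear_combination eq1 - ((m : ℂ) - 1) * hs
  have hdvd : ((m : ℤ) - 1) ∣ -((k : ℤ) + m * θ) :=
    dvd_of_integral_mul hi1 (by rw [hθ] at eq1; push_cast; linear_combination eq1)
  obtain ⟨θ', hθ'⟩ := hdvd
  have hm2 : 2 ≤ m := by omega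
  have hθ1 : θ₁ = (θ' : ℂ) := by
    have hm1 : ((m : ℂ) - 1) ≠ 0 := by
      rw [sub_ne_zero]
      exact_mod_cast (show m ≠ 1 by omega)
    refine mul_left_cancel₀ hm1 ?_
    have := congrArg (fun z : ℤ => (z : ℂ)) hθ'
    push_cast at this
    rw [hθ] at eq1
    linear_combination eq1 + this
  rw [hθ1, hθ] at eq1 eq2
  have E1 : (k : ℤ) + ((m : ℤ) - 1) * θ' + m * θ = 0 := by exact_mod_cast eq1
  have E2 : (k : ℤ) ^ 2 + ((m : ℤ) - 1) * θ' ^ 2 + m * θ ^ 2 = 2 * m * k := by exact_mod_cast eq2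
  have hkθ : (k : ℤ) = θ' + m * (-θ' - θ) := by linear_combination E1
  obtain ⟨A, hA, hmA, hkA⟩ := solve_equations (m := (m : ℤ)) (k := (k : ℤ)) (t := -θ' - θ) (θ := θ')
    (by omega) (by omega) (by omega) hkθ (by
      refine mul_left_cancel₀ (show (m : ℤ) ≠ 0 by omega) ?_
      rw [hkθ] at E2
      linear_combination E2)
  exact ⟨A, hA, by exact_mod_cast hmA, hkA.imp (fun h => by exact_mod_cast h) fun h => by exact_mod_cast h⟩


/-- Groups of Wielandt type: if a primitive group of degree `2m` has rank 3 and permutation character `1 + χ₁ + χ₂` with irreducible `χ₁, χ₂` of degrees `m - 1` and `m`, then `m = 2a² + 2a + 1` for some positive integer `a` and the two non-trivial subdegrees are `a(2a+1)` and `(a+1)(2a+1)`. -/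
theorem result {G : Type*} [Group G] [Fintype G] {Ω : Type*} [Fintype Ω] [MulAction G Ω] (hprim : MulAction.IsPreprimitive G Ω) {m : ℕ} (hm : Fintype.card Ω = 2 * m) (a₀ : Ω) (hrank : Nat.card (MulAction.orbitRel.Quotient (MulAction.stabilizer G a₀) Ω) = 3) (χ₁ χ₂ : G → ℂ) (h₁ : Cfsg.IsIrrCharacter G χ₁) (h₂ : Cfsg.IsIrrCharacter G χ₂) (hπ : (fun g : G => (Nat.card (MulAction.fixedBy Ω g) : ℂ)) = fun g => 1 + χ₁ g + χ₂ g) (hd₁ : χ₁ 1 = (m : ℂ) - 1) (hd₂ : χ₂ 1 = m) : ∃ a : ℕ, 0 < a ∧ m = 2 * a ^ 2 + 2 * a + 1 ∧ ∀ b : Ω, b ≠ a₀ → Nat.card (MulAction.orbit (MulAction.stabilizer G a₀) b) = a * (2 * a + 1) ∨ Nat.card (MulAction.orbit (MulAction.stabilizer G a₀) b) = (a + 1) * (2 * a + 1) := by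
  rw [Cfsg.Agent.PermGroups.fixFun_eq] at hπ
  classical
  have hΩ : 3 ≤ Fintype.card Ω := by
    rw [← hrank, ← Nat.card_eq_fintype_card]
    exact Nat.card_le_card_of_surjective _ Quotient.mk''_surjective
  haveI : Nontrivial Ω := Fintype.one_lt_card_iff_nontrivial.1 (by omega)
  obtain ⟨b, hb⟩ := exists_ne a₀
  obtain ⟨A, hA, hmA, -⟩ := subdegree_equation hprim hm a₀ hrank χ₁ χ₂ h₁ h₂ hπ hd₁ hd₂ b hb
  refine ⟨A, hA, hmA, fun c hc => ?_⟩
  obtain ⟨B, -, hmB, hcB⟩ := subdegree_equation hprim hm a₀ hrank χ₁ χ₂ h₁ h₂ hπ hd₁ hd₂ c hc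
  obtain rfl : A = B := by
    rcases lt_trichotomy A B with h | h | h
    · exfalso; nlinarith [Nat.pow_lt_pow_left h (show 2 ≠ 0 by norm_num)]
    · exact h
    · exfalso; nlinarith [Nat.pow_lt_pow_left h (show 2 ≠ 0 by norm_num)]
  exact hcB

end Cfsg.Agent.S0719
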