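import Cfsg.Statements.S0722
import Mathlib

set_option autoImplicit false
open Cfsg

namespace Cfsg.Agent.S0722

/-- In a primitive group `H`, with `N` a minimal normal subgroup and `K` a point stabiliser, `K ⊓ N` is maximal among proper `K`-invariant subgroups of `N`. -/
theorem result {α : Type*} [Finite α] (H : Subgroup (Equiv.Perm α)) [MulAction.IsPreprimitive H α] (N : Subgroup H) [N.Normal] (hN : N ≠ ⊥) (hmin : ∀ M : Subgroup H, M.Normal → M ≤ N → M = ⊥ ∨ M = N) (a : α) (X : Subgroup H) (hX : X ≤ N) (hKX : MulAction.stabilizer H a ⊓ N ≤ X) (hinv : MulAction.stabilizer H a ≤ Subgroup.normalizer (X : Set H)) : X = MulAction.stabilizer H a ⊓ N ∨ X = N := by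
  rcases subsingleton_or_nontrivial α with hs | hn
  · exfalso
    apply hN
    rw [eq_bot_iff]
    intro g _
    exact Subgroup.mem_bot.mpr (Subtype.ext (Equiv.ext fun x => Subsingleton.elim _ _))
  set K := MulAction.stabilizer H a with hK
  have hco : IsCoatom K := (MulAction.isCoatom_stabilizer_iff_preprimitive (G := H) a).mpr inferInstance
  rcases eq_or_lt_of_le (le_sup_right : K ≤ X ⊔ K) with h | h
  · left
    refine le_antisymm ?_ hKX
    exact le_inf (h ▸ le_sup_left) hX
  · right
    have htop := hco.2 _ h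
    refine le_antisymm hX ?_
    intro n hn
    have hn' : n ∈ (↑(X ⊔ K) : Set H) := by rw [htop]; trivial
    rw [Subgroup.coe_mul_of_right_le_normalizer_left X K hinv] at hn'
    obtain ⟨x, hx, k, hk, rfl⟩ := Set.mem_mul.mp hn'
    have hkN : k ∈ N := by
      have := N.mul_mem (N.inv_mem (hX hx)) hn
      simpa using this
    exact X.mul_mem hx (hKX ⟨hk, hkN⟩)

end Cfsg.Agent.S0722
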