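import Cfsg.Statements.S0724
import Cfsg.Agent.PermGroups.Counting

set_option autoImplicit false
open Cfsg

namespace Cfsg.Agent.S0724

/-- Blichfeldt's Theorem: if a finite set `L` of natural numbers contains the number of fixed points of every non-identity element of a permutation group `G` of degree `n`, then the order of `G` divides `∏ (n - l)` over `l ∈ L`. -/
theorem result {α : Type*} [Fintype α] [DecidableEq α] (G : Subgroup (Equiv.Perm α)) (L : Finset ℕ) (hL : ∀ g ∈ G, g ≠ 1 → Nat.card (MulAction.fixedBy α g) ∈ L) : Nat.card G ∣ ∏ l ∈ L, (Fintype.card α - l) := by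
  classical
  by_cases hbig : ∃ l ∈ L, Fintype.card α ≤ l
  · obtain ⟨l, hl, hle⟩ := hbig
    rw [Finset.prod_eq_zero hl (Nat.sub_eq_zero_of_le hle)]
    exact dvd_zero _
  push Not at hbig
  have key : ∀ M : Finset ℕ, ∀ j : ℕ, (Nat.card G : ℤ) ∣
      ∑ g : G, (Nat.card (MulAction.fixedBy α g) : ℤ) ^ j *
        ∏ l ∈ M, ((Nat.card (MulAction.fixedBy α g) : ℤ) - l) := by
    intro M
    induction M using Finset.induction_on with
    | empty =>
      intro j
      simp only [Finset.prod_empty, mul_one]
      exact_mod_cast Int.natCast_dvd_natCast.mpr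
        (Cfsg.Agent.PermGroups.natCard_dvd_sum_fixedBy_pow (G := G) (Ω := α) j)
    | insert a M ha ih =>
      intro j
      have := dvd_sub (ih (j + 1)) ((ih j).mul_left (a : ℤ))
      rw [Finset.mul_sum, ← Finset.sum_sub_distrib] at this
      simp only [Finset.prod_insert ha]
      refine (congrArg _ (Finset.sum_congr rfl fun g _ => ?_)).mpr this
      ring
  have h := key L 0
  rw [Finset.sum_eq_single (1 : G)] at h
  · rw [← Int.natCast_dvd_natCast, Nat.cast_prod]
    simp only [pow_zero, one_mul] at h
    have h1 : Nat.card (MulAction.fixedBy α (1 : G)) = Fintype.card α := by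
      rw [MulAction.fixedBy_one_eq_univ]; simp
    rw [h1] at h
    convert h using 1
    exact Finset.prod_congr rfl fun l hl => by rw [Nat.cast_sub (hbig l hl).le]
  · intro g _ hg
    have : Nat.card (MulAction.fixedBy α g) ∈ L :=
      hL g g.2 (fun e => hg (Subtype.ext e))
    rw [Finset.prod_eq_zero this (by simp), mul_zero]
  · simp

end Cfsg.Agent.S0724
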