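import Cfsg.Statements.S0726
import Mathlib

set_option autoImplicit false
open Cfsg

namespace Cfsg.Agent.S0726

/-- The left and right regular permutation representations of a group are each other's centralisers in the symmetric group: the centraliser of the left regular image is the right regular image, and a transitive subgroup centralising the left regular image is the whole right regular image. -/
theorem result {G : Type*} [Group G] : Subgroup.centralizer ((MulAction.toPermHom G G).range : Set (Equiv.Perm G)) = (MulAction.toPermHom Gᵐᵒᵖ G).range ∧ ∀ H : Subgroup (Equiv.Perm G), H ≤ Subgroup.centralizer ((MulAction.toPermHom G G).range : Set (Equiv.Perm G)) → MulAction.IsPretransitive H G → H = (MulAction.toPermHom Gᵐᵒᵖ G).range := by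
  have hmem : ∀ c : Equiv.Perm G,
      c ∈ Subgroup.centralizer ((MulAction.toPermHom G G).range : Set (Equiv.Perm G)) →
        ∀ x, c x = x * c 1 := by
    intro c hc x
    have := DFunLike.congr_fun (Subgroup.mem_centralizer_iff.mp hc (MulAction.toPermHom G G x) ⟨x, rfl⟩) 1
    simpa using this.symm
  have hsurj : ∀ c : Equiv.Perm G,
      c ∈ Subgroup.centralizer ((MulAction.toPermHom G G).range : Set (Equiv.Perm G)) →
        c ∈ (MulAction.toPermHom Gᵐᵒᵖ G).range := fun c hc =>
    ⟨MulOpposite.op (c 1), Equiv.ext fun x => by simpa using (hmem c hc x).symm⟩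
  refine ⟨le_antisymm hsurj ?_, fun H hH ht => le_antisymm (fun c hc => hsurj c (hH hc)) ?_⟩
  · rintro _ ⟨g, rfl⟩
    rw [Subgroup.mem_centralizer_iff]
    rintro _ ⟨x, rfl⟩
    ext y
    simp [mul_assoc]
  · rintro _ ⟨g, rfl⟩
    obtain ⟨⟨h, hh⟩, e⟩ := MulAction.exists_smul_eq H (1 : G) g.unop
    have e' : h 1 = g.unop := e
    have : MulAction.toPermHom Gᵐᵒᵖ G g = h := by
      ext x
      rw [hmem h (hH hh) x, e']
      simp [MulOpposite.smul_eq_mul_unop]
    rw [this]
    exact hh

end Cfsg.Agent.S0726
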