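import Cfsg.Statements.S0733
import Mathlib

set_option autoImplicit false
open Cfsg

open scoped Pointwise

namespace Cfsg.Agent.S0733

/-- A permutation group of affine type — generated by the translations of a finite vector space `V` over `ZMod p` together with a group `G₀` of linear automorphisms — is primitive on `V` if and only if `G₀` is irreducible on `V`. -/
theorem result {p : ℕ} [Fact p.Prime] {V : Type*} [AddCommGroup V] [Module (ZMod p) V] [Finite V] [Nontrivial V] (G₀ : Subgroup (V ≃ₗ[ZMod p] V)) (G : Subgroup (Equiv.Perm V)) (hG : ∀ σ : Equiv.Perm V, σ ∈ G ↔ ∃ g ∈ G₀, ∃ b : V, ∀ x : V, σ x = (g : V ≃ₗ[ZMod p] V) x + b) : MulAction.IsPreprimitive G V ↔ ∀ W : Submodule (ZMod p) V, (∀ g ∈ G₀, ∀ v ∈ W, (g : V ≃ₗ[ZMod p] V) v ∈ W) → W = ⊥ ∨ W = ⊤ := by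
  have htrans : ∀ b : V, ∃ g : G, ∀ x : V, g • x = x + b := fun b =>
    ⟨⟨Equiv.addRight b, (hG _).mpr ⟨1, one_mem G₀, b, fun x => rfl⟩⟩, fun x => rfl⟩
  have hpre : MulAction.IsPretransitive G V := ⟨fun x y => by
    obtain ⟨g, hg⟩ := htrans (-x + y)
    exact ⟨g, by rw [hg]; abel⟩⟩
  constructor
  · intro hprim W hW
    have hblock : MulAction.IsBlock G (W : Set V) := by
      rw [MulAction.isBlock_iff_smul_eq_of_mem]
      intro σ x hx hσx
      obtain ⟨g, hg, b, hb⟩ := (hG σ).mp σ.2
      have hb' : b ∈ W := by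
        have h1 : (g : V ≃ₗ[ZMod p] V) x + b ∈ W := hb x ▸ hσx
        exact (W.add_mem_iff_right (hW g hg x hx)).mp h1
      ext y
      rw [Set.mem_smul_set]
      constructor
      · rintro ⟨z, hz, rfl⟩
        change (σ : Equiv.Perm V) z ∈ W
        rw [hb z]
        exact W.add_mem (hW g hg z hz) hb'
      · intro hy
        refine ⟨(g⁻¹ : V ≃ₗ[ZMod p] V) (y - b), hW _ (inv_mem hg) _ (W.sub_mem hy hb'), ?_⟩
        change (σ : Equiv.Perm V) _ = y
        rw [hb]
        change g (g.symm (y - b)) + b = y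
        rw [g.apply_symm_apply, sub_add_cancel]
    rcases MulAction.IsPreprimitive.isTrivialBlock_of_isBlock hblock with h | h
    · left
      rw [Submodule.eq_bot_iff]
      exact fun x hx => h hx W.zero_mem
    · exact Or.inr (SetLike.coe_injective (h.trans Submodule.top_coe.symm))
  · intro hirr
    refine MulAction.IsPreprimitive.of_isTrivialBlock_base (0 : V) fun {B} h0 hB => ?_
    have hadd : ∀ b ∈ B, ∀ x ∈ B, x + b ∈ B := by
      intro b hb x hx
      obtain ⟨g, hg⟩ := htrans b
      have : g • B = B := hB.smul_eq_of_mem h0 (by rw [hg, zero_add]; exact hb)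
      rw [← this, ← hg x]
      exact Set.smul_mem_smul_set hx
    have hnsmul : ∀ b ∈ B, ∀ n : ℕ, n • b ∈ B := by
      intro b hb n
      induction n with
      | zero => simpa using h0
      | succ n ih => rw [succ_nsmul]; exact hadd b hb _ ih
    let W : Submodule (ZMod p) V :=
      { carrier := B
        add_mem' := fun {x y} hx hy => hadd y hy x hx
        zero_mem' := h0
        smul_mem' := fun c x hx => by
          rw [← ZMod.natCast_zmod_val c, Nat.cast_smul_eq_nsmul]
          exact hnsmul x hx _ }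
    have hWinv : ∀ g ∈ G₀, ∀ v ∈ W, (g : V ≃ₗ[ZMod p] V) v ∈ W := by
      intro g hg v hv
      let σ : G := ⟨g.toEquiv, (hG _).mpr ⟨g, hg, 0, fun x => (add_zero _).symm⟩⟩
      have : σ • B = B := hB.smul_eq_of_mem h0 (by
        change g (0 : V) ∈ B
        rw [map_zero]; exact h0)
      change g v ∈ B
      rw [← this]
      exact Set.smul_mem_smul_set (a := σ) hv
    rcases hirr W hWinv with h | h
    · left
      intro x hx y hy
      have hx' : x ∈ W := hx
      have hy' : y ∈ W := hy
      rw [h, Submodule.mem_bot] at hx' hy'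
      rw [hx', hy']
    · right
      exact congrArg (fun S : Submodule (ZMod p) V => (S : Set V)) h

end Cfsg.Agent.S0733
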