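import Cfsg.Statements.S0734
import Mathlib

set_option autoImplicit false
open Cfsg

open scoped Pointwise

namespace Cfsg.Agent.S0734

/-- Higman's criterion for primitivity: a transitive action on a finite set is primitive if and only if every non-trivial orbital graph (edges = images of a fixed pair of distinct points) is connected. -/
theorem result {G : Type*} [Group G] {Ω : Type*} [Finite Ω] [MulAction G Ω] [MulAction.IsPretransitive G Ω] [Nontrivial Ω] : MulAction.IsPreprimitive G Ω ↔ ∀ a b : Ω, a ≠ b → (SimpleGraph.fromRel fun x y : Ω => ∃ g : G, g • a = x ∧ g • b = y).Connected := by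
  classical
  constructor
  · intro hprim a b hab
    set Γ : SimpleGraph Ω := SimpleGraph.fromRel fun x y : Ω => ∃ g : G, g • a = x ∧ g • b = y
    have hadj : ∀ (g : G) x y, Γ.Adj x y → Γ.Adj (g • x) (g • y) := by
      intro g x y hxy
      simp only [Γ, SimpleGraph.fromRel_adj] at hxy ⊢
      refine ⟨fun e => hxy.1 (smul_left_cancel g e), ?_⟩
      rcases hxy.2 with ⟨h, h1, h2⟩ | ⟨h, h1, h2⟩
      · exact Or.inl ⟨g * h, by rw [mul_smul, h1], by rw [mul_smul, h2]⟩
      · exact Or.inr ⟨g * h, by rw [mul_smul, h1], by rw [mul_smul, h2]⟩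
    let φ : G → Γ →g Γ := fun g => ⟨fun x => g • x, fun {x y} h => hadj g x y h⟩
    set B : Set Ω := {x | Γ.Reachable a x} with hB
    have hblock : MulAction.IsBlock G B := by
      rw [MulAction.isBlock_iff_smul_eq_of_mem]
      intro g x hx hgx
      have h1 : Γ.Reachable a (g • a) :=
        (show Γ.Reachable a (g • x) from hgx).trans (SimpleGraph.Reachable.map (φ g) hx).symm
      ext y
      rw [Set.mem_smul_set_iff_inv_smul_mem]
      constructor
      · intro hy
        have := SimpleGraph.Reachable.map (φ g) hy
        simp only [φ, RelHom.coeFn_mk, smul_inv_smul] at this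
        exact h1.trans this
      · intro hy
        have := SimpleGraph.Reachable.map (φ g⁻¹) (h1.symm.trans hy)
        simp only [φ, RelHom.coeFn_mk, inv_smul_smul] at this
        exact this
    have hab' : Γ.Reachable a b :=
      SimpleGraph.Adj.reachable (by
        simp only [Γ, SimpleGraph.fromRel_adj]
        exact ⟨hab, Or.inl ⟨1, one_smul _ _, one_smul _ _⟩⟩)
    rcases MulAction.IsPreprimitive.isTrivialBlock_of_isBlock hblock with hs | hu
    · exact absurd (hs (SimpleGraph.Reachable.refl a) hab') hab
    · refine ⟨fun u v => ?_⟩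
      exact ((Set.eq_univ_iff_forall.mp hu u : Γ.Reachable a u).symm).trans
        (Set.eq_univ_iff_forall.mp hu v)
  · intro h
    refine ⟨fun {B} hB => ?_⟩
    by_cases hs : B.Subsingleton
    · exact Or.inl hs
    right
    obtain ⟨a, ha, b, hb, hab⟩ := Set.not_subsingleton_iff.mp hs
    rw [Set.eq_univ_iff_forall]
    intro y
    obtain ⟨w⟩ := (h a b hab).preconnected a y
    suffices H : ∀ {u v : Ω}, (SimpleGraph.fromRel fun x y : Ω =>
        ∃ g : G, g • a = x ∧ g • b = y).Walk u v → u ∈ B → v ∈ B from H w ha
    intro u v w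
    induction w with
    | nil => exact id
    | @cons u v z huv _ ih =>
      intro hu
      apply ih
      simp only [SimpleGraph.fromRel_adj] at huv
      rcases huv.2 with ⟨g, h1, h2⟩ | ⟨g, h1, h2⟩
      · rw [← h2, ← hB.smul_eq_of_mem ha (h1 ▸ hu)]
        exact Set.smul_mem_smul_set hb
      · rw [← h1, ← hB.smul_eq_of_mem hb (h2 ▸ hu)]
        exact Set.smul_mem_smul_set ha

end Cfsg.Agent.S0734
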