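import Cfsg.Statements.S0735
import Mathlib

set_option autoImplicit false
open Cfsg

open scoped Pointwise

namespace Cfsg.Agent.S0735

/-- A 2-homogeneous permutation group (transitive on 2-subsets) of even order is doubly transitive; a non-trivial 2-homogeneous group is primitive. -/
theorem result {α : Type*} [Fintype α] [DecidableEq α] (G : Subgroup (Equiv.Perm α)) (h2 : MulAction.IsPretransitive G (Set.powersetCard α 2)) (hα : 3 ≤ Fintype.card α) : (Even (Nat.card G) → MulAction.IsMultiplyPretransitive G α 2) ∧ (G ≠ ⊥ → MulAction.IsPreprimitive G α) := by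
  classical
  have pair : ∀ a b c d : α, a ≠ b → c ≠ d →
      ∃ g : G, (g • a = c ∧ g • b = d) ∨ (g • a = d ∧ g • b = c) := by
    intro a b c d hab hcd
    obtain ⟨g, hg⟩ := h2.exists_smul_eq (⟨{a, b}, Finset.card_pair hab⟩ : Set.powersetCard α 2)
      ⟨{c, d}, Finset.card_pair hcd⟩
    have hg' : g • ({a, b} : Finset α) = {c, d} := congrArg Subtype.val hg
    have h1 : g • a ∈ ({c, d} : Finset α) :=
      hg' ▸ Finset.smul_mem_smul_finset (Finset.mem_insert_self a {b})
    have h2 : g • b ∈ ({c, d} : Finset α) :=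
      hg' ▸ Finset.smul_mem_smul_finset (Finset.mem_insert_of_mem (Finset.mem_singleton_self b))
    simp only [Finset.mem_insert, Finset.mem_singleton] at h1 h2
    have hne : g • a ≠ g • b := fun e => hab (smul_left_cancel g e)
    refine ⟨g, ?_⟩
    rcases h1 with h1 | h1 <;> rcases h2 with h2 | h2
    · exact absurd (h1.trans h2.symm) hne
    · exact Or.inl ⟨h1, h2⟩
    · exact Or.inr ⟨h1, h2⟩
    · exact absurd (h1.trans h2.symm) hne
  refine ⟨fun heven => ?_, fun hne => ?_⟩
  · have : Fact (Nat.Prime 2) := ⟨Nat.prime_two⟩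
    obtain ⟨s, hs⟩ := exists_prime_orderOf_dvd_card' (G := G) 2 heven.two_dvd
    obtain ⟨a, ha⟩ : ∃ a : α, s • a ≠ a := by
      by_contra h
      push Not at h
      have : s = 1 := Subtype.ext (Equiv.ext h)
      rw [this, orderOf_one] at hs
      omega
    have hss : s • s • a = a := by
      have := pow_orderOf_eq_one s
      rw [hs, pow_two] at this
      rw [smul_smul, this, one_smul]
    rw [MulAction.is_two_pretransitive_iff]
    have from_a : ∀ c d : α, c ≠ d → ∃ g : G, g • a = c ∧ g • s • a = d := by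
      intro c d hcd
      obtain ⟨g, h | h⟩ := pair a (s • a) c d (Ne.symm ha) hcd
      · exact ⟨g, h⟩
      · exact ⟨g * s, by rw [mul_smul]; exact h.2, by rw [mul_smul, hss]; exact h.1⟩
    intro a' b c d hab hcd
    obtain ⟨g, g1, g2⟩ := from_a a' b hab
    obtain ⟨k, k1, k2⟩ := from_a c d hcd
    exact ⟨k * g⁻¹, by rw [mul_smul, inv_smul_eq_iff.mpr g1.symm, k1],
      by rw [mul_smul, inv_smul_eq_iff.mpr g2.symm, k2]⟩
  · obtain ⟨k, hk, hk1⟩ := G.bot_or_exists_ne_one.resolve_left hne
    obtain ⟨a, ha⟩ : ∃ a : α, k a ≠ a := by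
      by_contra h
      push Not at h
      exact hk1 (Equiv.ext h)
    have : MulAction.IsPretransitive G α := by
      have horb : ∀ b, b ∈ MulAction.orbit G a := by
        intro b
        by_contra hb
        have hab : a ≠ b := fun e => hb (e ▸ MulAction.mem_orbit_self a)
        obtain ⟨g, h | h⟩ := pair a (k a) a b (Ne.symm ha) hab
        · exact hb ⟨g * ⟨k, hk⟩, (mul_smul _ _ _).trans h.2⟩
        · exact hb ⟨g, h.1⟩
      refine ⟨fun x y => ?_⟩
      obtain ⟨g, hg⟩ := horb x
      obtain ⟨g', hg'⟩ := horb y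
      exact ⟨g' * g⁻¹, by rw [mul_smul, inv_smul_eq_iff.mpr hg.symm]; exact hg'⟩
    refine ⟨fun {B} hB => ?_⟩
    by_cases hsub : B.Subsingleton
    · exact Or.inl hsub
    right
    obtain ⟨x, hx, y, hy, hxy⟩ := Set.not_subsingleton_iff.mp hsub
    rw [Set.eq_univ_iff_forall]
    intro z
    by_contra hz
    have hxz : x ≠ z := fun e => hz (e ▸ hx)
    obtain ⟨g, h | h⟩ := pair x y x z hxy hxz
    · have : g • B = B := hB.smul_eq_of_mem hx (by rw [h.1]; exact hx)
      exact hz (h.2 ▸ this ▸ Set.smul_mem_smul_set hy)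
    · have : g • B = B := hB.smul_eq_of_mem hy (by rw [h.2]; exact hx)
      exact hz (h.1 ▸ this ▸ Set.smul_mem_smul_set hx)

end Cfsg.Agent.S0735
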