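import Cfsg.Statements.S0740
import Mathlib.GroupTheory.GroupAction.MultipleTransitivity
import Mathlib.GroupTheory.Perm.Cycle.Type

set_option autoImplicit false
open Cfsg

namespace Cfsg.Agent.S0740

/-- In a finite Zassenhaus group any two points `a ≠ b` are swapped by an involution; every such involution has exactly one fixed point when the degree is odd and 0 or 2 fixed points when the degree is even; and if the two-point stabiliser has even order, some such involution has exactly 2 fixed points. -/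
theorem result {G Ω : Type*} [Group G] [Finite G] [MulAction G Ω] [Fintype Ω] (hZ : Cfsg.IsZassenhausGroup G Ω) {a b : Ω} (hab : a ≠ b) : (∃ s : G, orderOf s = 2 ∧ s • a = b ∧ s • b = a) ∧ (∀ s : G, orderOf s = 2 → s • a = b → s • b = a → (Odd (Fintype.card Ω) → Nat.card (MulAction.fixedBy Ω s) = 1) ∧ (Even (Fintype.card Ω) → Nat.card (MulAction.fixedBy Ω s) = 0 ∨ Nat.card (MulAction.fixedBy Ω s) = 2)) ∧ (Even (Fintype.card Ω) → Even (Nat.card ↥(MulAction.stabilizer G a ⊓ MulAction.stabilizer G b)) → ∃ s : G, orderOf s = 2 ∧ s • a = b ∧ s • b = a ∧ Nat.card (MulAction.fixedBy Ω s) = 2) := by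
  classical
  obtain ⟨hfaith, h2, hthree, -, -⟩ := hZ
  haveI : Fact (Nat.Prime 2) := ⟨Nat.prime_two⟩
  have hsq : ∀ {s : G}, orderOf s = 2 → ∀ z : Ω, s • s • z = z := fun {s} hs z => by
    have h1 := pow_orderOf_eq_one s
    rw [hs, sq] at h1
    rw [← mul_smul, h1, one_smul]
  -- a nontrivial element fixes at most two points
  have hle : ∀ {s : G}, s ≠ 1 → Nat.card (MulAction.fixedBy Ω s) ≤ 2 := by
    intro s hs
    by_contra hlt
    push Not at hlt
    rw [Nat.card_eq_fintype_card, ← Set.toFinset_card, Finset.two_lt_card] at hlt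
    obtain ⟨x, hx, y, hy, z, hz, hxy, hxz, hyz⟩ := hlt
    simp only [Set.mem_toFinset, MulAction.mem_fixedBy] at hx hy hz
    exact hs (hthree s x y z hxy hyz hxz hx hy hz)
  -- an involution has a transposed pair, which may be moved to `(a, b)`
  have hconj : ∀ {t : G}, orderOf t = 2 → ∃ s : G, orderOf s = 2 ∧ s • a = b ∧ s • b = a ∧
      Nat.card (MulAction.fixedBy Ω s) = Nat.card (MulAction.fixedBy Ω t) := by
    intro t ht
    obtain ⟨c, hc⟩ : ∃ c : Ω, t • c ≠ c := by
      by_contra hcon
      push Not at hcon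
      have : t = 1 := hfaith.eq_of_smul_eq_smul fun z => by rw [hcon z, one_smul]
      rw [this, orderOf_one] at ht
      exact absurd ht (by norm_num)
    obtain ⟨g, hg1, hg2⟩ := MulAction.is_two_pretransitive_iff.1 h2 hc.symm hab
    refine ⟨g * t * g⁻¹, ?_, ?_, ?_, ?_⟩
    · rw [← ht, ← MulAut.conj_apply, MulEquiv.orderOf_eq]
    · rw [← hg1, mul_smul, mul_smul, inv_smul_smul, hg2]
    · rw [← hg2, mul_smul, mul_smul, inv_smul_smul, hsq ht, hg1]
    · refine (Nat.card_congr (Equiv.subtypeEquiv (MulAction.toPerm g) fun z => ?_)).symm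
      simp [MulAction.mem_fixedBy, mul_smul]
  have hpar : ∀ {s : G}, orderOf s = 2 → Even (Fintype.card Ω - Nat.card (MulAction.fixedBy Ω s)) := by
    intro s hs
    have h1 : (MulAction.toPerm s : Equiv.Perm Ω) ^ 2 = 1 := by
      ext z; simpa [sq] using hsq hs z
    have h3 := Equiv.Perm.two_dvd_card_support h1
    rw [even_iff_two_dvd, Nat.card_eq_fintype_card, ← Set.toFinset_card, ← Finset.card_compl]
    have h6 : (MulAction.fixedBy Ω s).toFinsetᶜ = (MulAction.toPerm s : Equiv.Perm Ω).support := by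
      ext z; simp [MulAction.mem_fixedBy]
    rw [h6]; exact h3
  have hne1 : ∀ {s : G}, orderOf s = 2 → s ≠ 1 := fun hs h => by
    rw [h, orderOf_one] at hs; omega
  refine ⟨?_, fun s hs _ _ => ?_, fun _ hev => ?_⟩
  · obtain ⟨g, hg1, hg2⟩ := MulAction.is_two_pretransitive_iff.1 h2 hab hab.symm
    have hdvd : 2 ∣ Nat.card G := by
      refine dvd_trans ?_ (orderOf_dvd_natCard g)
      by_contra hodd
      obtain ⟨k, hk⟩ := Nat.odd_iff.2 (Nat.two_dvd_ne_zero.1 hodd)
      have hg2a : ∀ j : ℕ, (g ^ (2 * j)) • a = a := by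
        intro j
        induction j with
        | zero => simp
        | succ j ih => rw [Nat.mul_succ, pow_add, mul_smul, sq, mul_smul, hg1, hg2, ih]
      have hga : g • a = a := by
        conv_lhs => rw [← hg2a k, ← mul_smul, ← pow_succ', ← hk, pow_orderOf_eq_one, one_smul]
      exact hab (hga.symm.trans hg1)
    obtain ⟨t, ht⟩ := exists_prime_orderOf_dvd_card' 2 hdvd
    obtain ⟨s, h, h', h'', -⟩ := hconj ht
    exact ⟨s, h, h', h''⟩
  · have h1 := hle (hne1 hs)
    have h4 := hpar hs
    have h5 : Nat.card (MulAction.fixedBy Ω s) ≤ Fintype.card Ω := by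
      rw [Nat.card_eq_fintype_card]; exact set_fintype_card_le_univ _
    rw [Nat.even_sub h5] at h4
    generalize Nat.card (MulAction.fixedBy Ω s) = k at h1 h4 h5 ⊢
    refine ⟨fun ho => ?_, fun he => ?_⟩
    · have hk : ¬ Even k := fun hk => Nat.not_even_iff_odd.2 ho (h4.2 hk)
      interval_cases k <;> simp_all
    · have hk : Even k := h4.1 he
      interval_cases k <;> simp_all
  · obtain ⟨t, ht⟩ := exists_prime_orderOf_dvd_card'
      (G := ↥(MulAction.stabilizer G a ⊓ MulAction.stabilizer G b)) 2 hev.two_dvd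
    have ht' : orderOf (t : G) = 2 := by rw [Subgroup.orderOf_coe, ht]
    obtain ⟨s, h, h', h'', h3⟩ := hconj ht'
    refine ⟨s, h, h', h'', h3.trans (le_antisymm (hle (hne1 ht')) ?_)⟩
    rw [Nat.card_eq_fintype_card, ← Set.toFinset_card, ← Finset.card_pair hab]
    refine Finset.card_le_card fun z hz => ?_
    rw [Set.mem_toFinset, MulAction.mem_fixedBy]
    simp only [Finset.mem_insert, Finset.mem_singleton] at hz
    rcases hz with rfl | rfl
    · exact MulAction.mem_stabilizer_iff.1 t.2.1
    · exact MulAction.mem_stabilizer_iff.1 t.2.2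

end Cfsg.Agent.S0740
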