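import Cfsg.Statements.S0743
import Cfsg.Agent.PermGroups.Transitivity

set_option autoImplicit false
open Cfsg

namespace Cfsg.Agent.S0743

/-- Gleason's Lemma: let `p` be a prime and `1 ≤ k < n`; if every `k`-subset of the `n` points is exactly the fixed-point set of some `p`-subgroup of `G`, then `G` is `k`-transitive. -/
theorem result {α : Type*} [Fintype α] [DecidableEq α] (G : Subgroup (Equiv.Perm α)) {p k : ℕ} (hp : p.Prime) (hk : 1 ≤ k) (hkn : k < Fintype.card α) (h : ∀ s : Finset α, s.card = k → ∃ P : Subgroup G, IsPGroup p P ∧ MulAction.fixedPoints P α = (s : Set α)) : MulAction.IsMultiplyPretransitive G α k := by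
  have : Fact p.Prime := ⟨hp⟩
  refine Cfsg.Agent.PermGroups.isMultiplyPretransitive_of_fixator hkn fun s hs a b ha hb => ?_
  classical
  set K : Subgroup G := fixingSubgroup G (s : Set α)
  by_cases hmem : b ∈ MulAction.orbit K a
  · obtain ⟨⟨g, hg⟩, e⟩ := hmem
    exact ⟨g, fun x hx => (mem_fixingSubgroup_iff G).mp hg x hx, e⟩
  exfalso
  -- for `c ∉ s`, an orbit of `K` is `≡ 1` mod `p` if it contains `c`, else `≡ 0`
  have key : ∀ c, c ∉ s → ∀ x, x ∉ s → Nat.card (MulAction.orbit K x) ≡
      (if c ∈ MulAction.orbit K x then 1 else 0) [MOD p] := by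
    intro c hc x hx
    obtain ⟨P, hP, hfix⟩ := h (insert c s) (by rw [Finset.card_insert_of_notMem hc]; omega)
    have hPK : P ≤ K := fun g hg => (mem_fixingSubgroup_iff G).mpr fun y hy => by
      have : y ∈ MulAction.fixedPoints P α := by
        rw [hfix]; exact Finset.mem_coe.mpr (Finset.mem_insert_of_mem hy)
      exact this ⟨g, hg⟩
    let T : SubMulAction P α := ⟨MulAction.orbit K x, fun g {y} hy => by
      obtain ⟨k', rfl⟩ := hy
      exact ⟨⟨g, hPK g.2⟩ * k', mul_smul _ _ _⟩⟩
    have h1 := hP.card_modEq_card_fixedPoints T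
    have hfx : Nat.card (MulAction.fixedPoints P T) = if c ∈ MulAction.orbit K x then 1 else 0 := by
      have hmemfix : ∀ z : T, z ∈ MulAction.fixedPoints P T ↔ (z : α) = c := by
        intro z
        have hzs : (z : α) ∉ s := fun h' =>
          Cfsg.Agent.PermGroups.orbit_fixingSubgroup_subset_compl
            (show x ∉ (s : Set α) by simpa using hx) z.2 (by simpa using h')
        have : (z : α) ∈ MulAction.fixedPoints P α ↔ (z : α) = c := by
          rw [hfix, Finset.coe_insert, Set.mem_insert_iff]
          simp [hzs]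
        rw [← this]
        exact ⟨fun h g => congrArg Subtype.val (h g), fun h g => Subtype.ext (h g)⟩
      split_ifs with hc'
      · rw [Nat.card_eq_one_iff_unique]
        exact ⟨⟨fun u v => Subtype.ext (Subtype.ext (((hmemfix u).mp u.2).trans
          ((hmemfix v).mp v.2).symm))⟩, ⟨⟨⟨c, hc'⟩, (hmemfix _).mpr rfl⟩⟩⟩
      · have : IsEmpty (MulAction.fixedPoints P T) := ⟨fun u => hc' (by
          rw [← (hmemfix u).mp u.2]; exact (u : T).2)⟩
        exact Nat.card_of_isEmpty
    rw [← hfx]
    exact h1
  have h2 := key b hb a ha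
  have h3 := key a ha a ha
  rw [if_pos (MulAction.mem_orbit_self a)] at h3
  rw [if_neg hmem] at h2
  have h01 := h2.symm.trans h3
  rw [Nat.modEq_iff_dvd' zero_le_one, Nat.sub_zero, Nat.dvd_one] at h01
  exact hp.ne_one h01

end Cfsg.Agent.S0743
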