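import Cfsg.Statements.S0745
import Cfsg.Agent.PermGroups.LivingstoneWagner

set_option autoImplicit false
open Cfsg

namespace Cfsg.Agent.S0745

/-- Let `G` have degree `n` and `3 ≤ k ≤ n`; suppose `G` is `(k-2)`-transitive but not `(k-1)`-transitive, and is `(k-1)`-homogeneous and `k`-homogeneous. Then `k = n` and `G` is the alternating group, or `n = 5, k = 4, |G| = 20`, or `n = 6, k = 5, |G| = 120`, or `n = 9, k = 5, |G| ∈ {504, 1512}`. -/
theorem result {α : Type*} [Fintype α] [DecidableEq α] (G : Subgroup (Equiv.Perm α)) {k : ℕ} (hk : 3 ≤ k) (hkn : k ≤ Fintype.card α) (ht : MulAction.IsMultiplyPretransitive G α (k - 2)) (hnt : ¬ MulAction.IsMultiplyPretransitive G α (k - 1)) (hh1 : MulAction.IsPretransitive G (Set.powersetCard α (k - 1))) (hh : MulAction.IsPretransitive G (Set.powersetCard α k)) : (k = Fintype.card α ∧ G = alternatingGroup α) ∨ (Fintype.card α = 5 ∧ k = 4 ∧ Nat.card G = 20) ∨ (Fintype.card α = 6 ∧ k = 5 ∧ Nat.card G = 120) ∨ (Fintype.card α = 9 ∧ k =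 5 ∧ (Nat.card G = 504 ∨ Nat.card G = 1512)) := by
  rcases PermGroups.homogeneous_not_transitive_cases G hk hkn hh1 hh ht hnt with ⟨h1, h2⟩ | h | h | h
  · refine Or.inl ⟨h1, ?_⟩
    have : Nontrivial α := Fintype.one_lt_card_iff_nontrivial.1 (by omega)
    apply Equiv.Perm.eq_alternatingGroup_of_index_eq_two
    have h3 := G.index_mul_card
    rw [Nat.card_perm, Nat.card_eq_fintype_card (α := α), ← h2] at h3
    exact Nat.eq_of_mul_eq_mul_right Nat.card_pos h3
  · exact Or.inr (Or.inl h)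
  · exact Or.inr (Or.inr (Or.inl h))
  · exact Or.inr (Or.inr (Or.inr h))

end Cfsg.Agent.S0745
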