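import Cfsg.Statements.S0746
import Cfsg.Agent.PermGroups.LivingstoneWagner

set_option autoImplicit false
open Cfsg

namespace Cfsg.Agent.S0746

/-- The Livingstone–Wagner Theorem, first form: a `k`-homogeneous group of degree `n` with `4 ≤ 2k ≤ n` is `(k-1)`-transitive. -/
theorem result {α : Type*} [Fintype α] [DecidableEq α] (G : Subgroup (Equiv.Perm α)) {k : ℕ} (hk : 2 ≤ k) (hkn : 2 * k ≤ Fintype.card α) (hh : MulAction.IsPretransitive G (Set.powersetCard α k)) : MulAction.IsMultiplyPretransitive G α (k - 1) := by
  exact PermGroups.livingstone_wagner_pred G k hk hkn hh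

end Cfsg.Agent.S0746
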