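import Cfsg.Statements.S0753
import Cfsg.Agent.Forms.Instances

set_option autoImplicit false
open Cfsg

namespace Cfsg.Agent.S0753

/-- If σ is a ring endomorphism of the field F other than the identity and B is a σ-sesquilinear conjugate-symmetric form with B v v = 0 for every v, then B = 0. -/
theorem result {F V : Type*} [Field F] [AddCommGroup V] [Module F V] (σ : F →+* F) (hσ : σ ≠ RingHom.id F) (B : V →ₛₗ[σ] V →ₗ[F] F) (hS : B.IsSymm) (h0 : ∀ v : V, B v v = 0) : B = 0 := by
  have key : ∀ v w : V, B v w = 0 := by
    intro v w
    by_contra hvw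
    have hsum : ∀ x : F, x + σ x = 0 := by
      intro x
      have h1 := h0 (v + (x / B v w) • w)
      simp only [map_add, map_smul, LinearMap.map_smulₛₗ, LinearMap.add_apply, LinearMap.smul_apply,
        h0, smul_eq_mul, mul_zero, zero_add, add_zero, ← hS.eq v w] at h1
      rw [div_mul_cancel₀ _ hvw, ← map_mul, div_mul_cancel₀ _ hvw] at h1
      linear_combination h1
    have h1 : (1 : F) + 1 = 0 := by simpa using hsum 1
    refine hσ (RingHom.ext fun a => ?_)
    rw [RingHom.id_apply, eq_neg_of_add_eq_zero_right (hsum a)]
    linear_combination (-a) * h1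
  exact LinearMap.ext₂ fun v w => by simpa using key v w

end Cfsg.Agent.S0753
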