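import Cfsg.Statements.S0756
import Cfsg.Agent.Forms.DiscrTools

set_option autoImplicit false
open Cfsg

namespace Cfsg.Agent.S0756

/-- Classification of symmetric bilinear forms over finite fields of odd characteristic: if B is non-degenerate symmetric on V of dimension n + 1 and α is a fixed non-square of F, there is an orthogonal basis b_0, ..., b_n with B(b_i, b_i) = 1 for i < n and B(b_n, b_n) ∈ {1, α}. -/
theorem result {F V : Type*} [Field F] [Finite F] [AddCommGroup V] [Module F V] [FiniteDimensional F V] (h2 : (2 : F) ≠ 0) (B : LinearMap.BilinForm F V) (hS : B.IsSymm) (hB : B.Nondegenerate) {n : ℕ} (hn : Module.finrank F V = n + 1) (α : F) (hα : ¬ IsSquare α) : ∃ b : Module.Basis (Fin (n + 1)) F V, (∀ i j, i ≠ j → B (b i) (b j) = 0) ∧ (∀ i, i ≠ Fin.last n → B (b i) (b i) = 1) ∧ (B (b (Fin.last n)) (b (Fin.last n)) = 1 ∨ B (b (Fin.last n)) (b (Fin.last n)) = α) := by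
  obtain ⟨b, h1, h3, h4⟩ := Forms.exists_orth_basis h2 hS hB hn
  obtain ⟨t, ht, htv⟩ : ∃ t : F, t ≠ 0 ∧
      (t * t * B (b (Fin.last n)) (b (Fin.last n)) = 1 ∨
        t * t * B (b (Fin.last n)) (b (Fin.last n)) = α) := by
    have := Fintype.ofFinite F
    by_cases hδ : IsSquare (B (b (Fin.last n)) (b (Fin.last n)))
    · obtain ⟨s, hs⟩ := hδ
      have hs0 : s ≠ 0 := fun h => h4 (by rw [hs, h, mul_zero])
      exact ⟨s⁻¹, inv_ne_zero hs0, Or.inl (by rw [hs]; field_simp)⟩
    · have hα0 : α ≠ 0 := fun h => hα (h ▸ IsSquare.zero)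
      obtain ⟨s, hs⟩ : IsSquare (α * B (b (Fin.last n)) (b (Fin.last n))) :=
        Forms.isSquare_mul_of_not_isSquare hα hδ
      have hs0 : s ≠ 0 := fun h => mul_ne_zero hα0 h4 (by rw [hs, h, mul_zero])
      refine ⟨s / B (b (Fin.last n)) (b (Fin.last n)), div_ne_zero hs0 h4, Or.inr ?_⟩
      field_simp
      linear_combination -hs
  refine ⟨b.unitsSMul (fun i => if i = Fin.last n then Units.mk0 t ht else 1), ?_, ?_, ?_⟩
  · intro i j hij; simp only [Module.Basis.unitsSMul_apply]; split_ifs <;> simp [Units.smul_def, h1 i j hij]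
  · intro i hi; simp [Module.Basis.unitsSMul_apply, Units.smul_def, hi, h3 i hi]
  · simpa [Module.Basis.unitsSMul_apply, Units.smul_def, ← mul_assoc] using htv

end Cfsg.Agent.S0756
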