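import Cfsg.Statements.S0757
-- (no helpers)

set_option autoImplicit false
open Cfsg

namespace Cfsg.Agent.S0757

/-- The two diagonal forms Σ x_i^2 and Σ_(i<n) x_i^2 + α x_n^2 on F^(n+1), with α a non-square and 2 ≠ 0 in F, are inequivalent quadratic forms (so over a finite field of odd order there are exactly two classes of non-singular symmetric bilinear forms in each dimension). -/
theorem result {F : Type*} [Field F] (h2 : (2 : F) ≠ 0) (n : ℕ) (α : F) (hα : ¬ IsSquare α) : ¬ (QuadraticMap.weightedSumSquares F (fun _ : Fin (n + 1) => (1 : F))).Equivalent (QuadraticMap.weightedSumSquares F (fun i : Fin (n + 1) => if i = Fin.last n then α else (1 : F))) := by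
  rintro ⟨e⟩
  have h2c := h2
  set d : Fin (n + 1) → F := fun i => if i = Fin.last n then α else 1 with hd
  set M : Matrix (Fin (n + 1)) (Fin (n + 1)) F := LinearMap.toMatrix' e.toLinearEquiv.toLinearMap
  have hval : ∀ v : Fin (n + 1) → F, ∑ i, d i * (M.mulVec v i) ^ 2 = ∑ i, v i ^ 2 := by
    intro v
    have h := e.map_app v
    simp only [QuadraticMap.weightedSumSquares_apply, smul_eq_mul, one_mul] at h
    simp only [M, LinearMap.toMatrix'_mulVec, sq]
    exact h
  have hMat : M.transpose * Matrix.diagonal d * M = 1 := by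
    ext j k
    have hjk : (M.transpose * Matrix.diagonal d * M) j k = ∑ i, d i * M i j * M i k := by
      rw [Matrix.mul_apply]
      exact Finset.sum_congr rfl fun i _ => by rw [Matrix.mul_diagonal, Matrix.transpose_apply]; ring
    have h1 := hval (Pi.single j 1 + Pi.single k 1)
    have h2 := hval (Pi.single j 1)
    have h3 := hval (Pi.single k 1)
    simp only [Matrix.mulVec_add, Matrix.mulVec_single_one, Pi.add_apply, Matrix.col_apply] at h1 h2 h3
    have h4 : 2 * ∑ i, d i * M i j * M i k =
        2 * ∑ i, (Pi.single j (1 : F) : Fin (n + 1) → F) i * (Pi.single k (1 : F) : Fin (n + 1) → F) i := by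
      have e1 : ∀ x y : Fin (n + 1) → F, ∑ i, d i * (x i + y i) ^ 2 =
          ∑ i, d i * x i ^ 2 + ∑ i, d i * y i ^ 2 + 2 * ∑ i, d i * x i * y i := by
        intro x y
        rw [Finset.mul_sum, ← Finset.sum_add_distrib, ← Finset.sum_add_distrib]
        exact Finset.sum_congr rfl fun i _ => by ring
      have e2 : ∀ x y : Fin (n + 1) → F, ∑ i, (x i + y i) ^ 2 =
          ∑ i, x i ^ 2 + ∑ i, y i ^ 2 + 2 * ∑ i, x i * y i := by
        intro x y
        rw [Finset.mul_sum, ← Finset.sum_add_distrib, ← Finset.sum_add_distrib]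
        exact Finset.sum_congr rfl fun i _ => by ring
      rw [e1 (fun i => M i j) (fun i => M i k), e2, h2, h3] at h1
      linear_combination h1
    rw [hjk, mul_left_cancel₀ h2c h4, Matrix.one_apply]
    simp [Pi.single_apply, eq_comm]
  apply hα
  have hdet := congrArg Matrix.det hMat
  rw [Matrix.det_mul, Matrix.det_mul, Matrix.det_transpose, Matrix.det_diagonal, Matrix.det_one,
    Finset.prod_eq_single (Fin.last n) (fun i _ hi => by simp [hd, hi]) (by simp)] at hdet
  simp only [hd, if_true] at hdet
  refine ⟨M.det⁻¹, ?_⟩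
  have hM : M.det ≠ 0 := fun h => by simp [h] at hdet
  field_simp
  linear_combination hdet

end Cfsg.Agent.S0757
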