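import Cfsg.Statements.S0758
-- (no helpers)

set_option autoImplicit false
open Cfsg

namespace Cfsg.Agent.S0758

/-- For a finite field F of odd order q and a non-square α: the form x² + y² is isotropic iff q ≡ 1 mod 4, and the form x² + α y² is isotropic iff q ≡ 3 mod 4. -/
theorem result {F : Type*} [Field F] [Fintype F] (h2 : (2 : F) ≠ 0) (α : F) (hα : ¬ IsSquare α) : ((∃ x y : F, (x ≠ 0 ∨ y ≠ 0) ∧ x ^ 2 + y ^ 2 = 0) ↔ Fintype.card F % 4 = 1) ∧ ((∃ x y : F, (x ≠ 0 ∨ y ≠ 0) ∧ x ^ 2 + α * y ^ 2 = 0) ↔ Fintype.card F % 4 = 3) := by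
  have hc2 : ringChar F ≠ 2 := fun h => h2 (by
    have := ringChar.Nat.cast_ringChar (R := F); rw [h] at this; simpa using this)
  have hodd := FiniteField.odd_card_of_char_ne_two hc2
  have hα0 : α ≠ 0 := fun h => hα (h ▸ IsSquare.zero)
  have hm1 : IsSquare (-1 : F) ↔ Fintype.card F % 4 = 1 := by
    rw [FiniteField.isSquare_neg_one_iff]; omega
  have hiso : ∀ β : F, β ≠ 0 → ((∃ x y : F, (x ≠ 0 ∨ y ≠ 0) ∧ x ^ 2 + β * y ^ 2 = 0) ↔
      IsSquare (-β)) := by
    intro β hβ
    constructor
    · rintro ⟨x, y, hxy, h⟩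
      have hy : y ≠ 0 := by
        rintro rfl
        simp at h hxy
        exact hxy h
      exact ⟨x / y, by field_simp; linear_combination -h⟩
    · rintro ⟨r, hr⟩
      exact ⟨r, 1, Or.inr one_ne_zero, by linear_combination -hr⟩
  constructor
  · have := hiso 1 one_ne_zero
    simp only [one_mul] at this
    rw [this, hm1]
  · rw [hiso α hα0]
    by_cases h : IsSquare (-1 : F)
    · have h1 := hm1.1 h
      refine iff_of_false (fun hs => hα ?_) (by omega)
      have := h.mul hs
      rwa [neg_one_mul, neg_neg] at this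
    · have h1 : Fintype.card F % 4 ≠ 1 := fun h' => h (hm1.2 h')
      refine iff_of_true ?_ (by omega)
      classical
      have ha := quadraticChar_neg_one_iff_not_isSquare.2 hα
      have hb := quadraticChar_neg_one_iff_not_isSquare.2 h
      have hc : quadraticChar F (-α) = 1 := by
        rw [show -α = -1 * α by ring, map_mul, ha, hb]; norm_num
      exact (quadraticChar_one_iff_isSquare (neg_ne_zero.2 hα0)).1 hc

end Cfsg.Agent.S0758
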