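import Cfsg.Statements.S0759
import Cfsg.Agent.Forms.DiscrTools

set_option autoImplicit false
open Cfsg

namespace Cfsg.Agent.S0759

/-- Type of the orthonormal form: over a finite field of odd order q and for m ≥ 1, the quadratic form Σ_(i<2m) x_i² on F^(2m) admits an m-dimensional subspace on which it vanishes identically if and only if it is not the case that q ≡ 3 (mod 4) and m is odd. -/
theorem result {F : Type*} [Field F] [Fintype F] (h2 : (2 : F) ≠ 0) (m : ℕ) (hm : 1 ≤ m) : (∃ W : Submodule F (Fin (2 * m) → F), Module.finrank F W = m ∧ ∀ w ∈ W, ∑ i, w i ^ 2 = 0) ↔ ¬ (Fintype.card F % 4 = 3 ∧ Odd m) := by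
  have hsymm : (Matrix.toBilin' (1 : Matrix (Fin (2 * m)) (Fin (2 * m)) F)).IsSymm := by
    rw [Matrix.isSymm_toBilin'_iff_isSymm]; exact Matrix.isSymm_one
  have hnd := LinearMap.BilinForm.nondegenerate_toBilin'_of_det_ne_zero'
    (1 : Matrix (Fin (2 * m)) (Fin (2 * m)) F) (by simp)
  have happ : ∀ x y : Fin (2 * m) → F,
      Matrix.toBilin' (1 : Matrix (Fin (2 * m)) (Fin (2 * m)) F) x y = ∑ i, x i * y i := by
    intro x y; rw [Matrix.toBilin'_apply']; simp [dotProduct]
  have key := Forms.isotropic_iff h2 hsymm hnd hm (Module.finrank_fin_fun F)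
    (Pi.basisFun F (Fin (2 * m)))
  rw [LinearMap.BilinForm.toMatrix_basisFun, LinearMap.BilinForm.toMatrix'_toBilin', Matrix.det_one,
    mul_one] at key
  rw [← Forms.isSquare_neg_one_pow_iff h2 m, ← key]
  constructor
  · rintro ⟨W, hW, h⟩
    refine ⟨W, hW, fun x hx y hy => ?_⟩
    rw [happ]
    refine mul_left_cancel₀ h2 ?_
    have hxy := h _ (W.add_mem hx hy)
    simp only [Pi.add_apply, add_sq, Finset.sum_add_distrib, h x hx, h y hy, zero_add,
      add_zero, mul_assoc, ← Finset.mul_sum] at hxy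
    rw [hxy, mul_zero]
  · rintro ⟨W, hW, h⟩
    refine ⟨W, hW, fun x hx => ?_⟩
    rw [← h x hx x hx, happ]
    simp [sq]

end Cfsg.Agent.S0759
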