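import Cfsg.Statements.S0760
import Cfsg.Agent.Forms.Instances

set_option autoImplicit false
open Cfsg

namespace Cfsg.Agent.S0760

/-- Witt index is well defined: if Q is a quadratic form on a finite-dimensional space V over a finite field with non-degenerate polar form, and W₁, W₂ are subspaces on which Q vanishes that are maximal with this property, then W₁ and W₂ have the same dimension, and twice this dimension is at most dim V. -/
theorem result {F V : Type*} [Field F] [Finite F] [AddCommGroup V] [Module F V] [FiniteDimensional F V] (Q : QuadraticForm F V) (hQ : (QuadraticMap.polarBilin Q).Nondegenerate) (W₁ W₂ : Submodule F V) (h₁ : ∀ w ∈ W₁, Q w = 0) (h₂ : ∀ w ∈ W₂, Q w = 0) (hmax₁ : ∀ W : Submodule F V, W₁ ≤ W → (∀ w ∈ W, Q w = 0) → W = W₁) (hmax₂ : ∀ W : Submodule F V, W₂ ≤ W → (∀ w ∈ W, Q w = 0) → W = W₂) : Module.finrank F W₁ = Module.finrank F W₂ ∧ 2 * Module.finrank F W₁ ≤ Module.finrank F V := by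
  have hf := Forms.isForm_quadratic Q hQ
  have hperp : ∀ W : Submodule F V, (∀ w ∈ W, Q w = 0) →
      W ≤ Forms.perp (QuadraticMap.polarBilin Q) W := by
    intro W hW v hv u hu
    simp [QuadraticMap.polar, hW u hu, hW v hv, hW _ (W.add_mem hu hv)]
  have key : ∀ A C : Submodule F V, (∀ w ∈ A, Q w = 0) → (∀ w ∈ C, Q w = 0) →
      (∀ W : Submodule F V, A ≤ W → (∀ w ∈ W, Q w = 0) → W = A) →
      Module.finrank F A ≤ Module.finrank F C → Module.finrank F A = Module.finrank F C := by
    intro A C hA hC hmax hle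
    obtain ⟨f, hf'⟩ := Forms.exists_injective_of_finrank_le (F := F) (M := A) (M' := C) hle
    obtain ⟨g, -, hg, hgx⟩ := hf.witt_extend A (C.subtype.comp f)
      (Subtype.val_injective.comp hf')
      (fun x x' => by
        change QuadraticMap.polar Q (f x : V) (f x' : V) = QuadraticMap.polar Q (x : V) (x' : V)
        simp only [QuadraticMap.polar, ← Submodule.coe_add, ← map_add,
          hC _ (f _).2, hA _ (Subtype.prop _)])
      (fun x => by
        change Q (f x : V) = Q (x : V)
        rw [hC _ (f x).2, hA _ x.2])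
    have h := hmax (C.map (g.symm : V →ₗ[F] V))
      (fun a ha => ⟨f ⟨a, ha⟩, (f ⟨a, ha⟩).2, by
        have := hgx ⟨a, ha⟩
        simpa [LinearEquiv.symm_apply_eq] using this.symm⟩)
      (by
        rintro w ⟨c, hc, rfl⟩
        have := hg (g.symm c)
        simpa [hC c hc] using this.symm)
    conv_lhs => rw [← h]
    exact (g.symm.finrank_map_eq C)
  have heq : Module.finrank F W₁ = Module.finrank F W₂ := by
    rcases le_total (Module.finrank F W₁) (Module.finrank F W₂) with h | h
    · exact key W₁ W₂ h₁ h₂ hmax₁ h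
    · exact (key W₂ W₁ h₂ h₁ hmax₂ h).symm
  exact ⟨heq, hf.finrank_le_of_le_perp (hperp W₁ h₁)⟩

end Cfsg.Agent.S0760
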