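import Cfsg.Statements.S0761
import Cfsg.Agent.Forms.Instances

set_option autoImplicit false
open Cfsg

namespace Cfsg.Agent.S0761

/-- Hyperbolic partners: let B be a non-degenerate bilinear form on a finite-dimensional space, either alternating, or symmetric with 2 ≠ 0. If Z is a subspace on which B vanishes, x ∉ Z is isotropic and orthogonal to Z, then there is an isotropic y with B x y = 1 which is orthogonal to Z. -/
theorem result {F V : Type*} [Field F] [AddCommGroup V] [Module F V] [FiniteDimensional F V] (B : LinearMap.BilinForm F V) (hB : B.Nondegenerate) (hform : B.IsAlt ∨ (B.IsSymm ∧ (2 : F) ≠ 0)) (x : V) (Z : Submodule F V) (hxZ : x ∉ Z) (hx : B x x = 0) (hxz : ∀ z ∈ Z, B x z = 0) (hZ : ∀ z ∈ Z, ∀ z' ∈ Z, B z z' = 0) : ∃ y : V, B y y = 0 ∧ B x y = 1 ∧ ∀ z ∈ Z, B z y = 0 := by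
  have hI : ∃ N, Forms.IsForm (RingHom.id F) B N := by
    rcases hform with h | ⟨h, h2⟩
    · exact ⟨_, Forms.isForm_alt B hB h⟩
    · exact ⟨_, Forms.isForm_symm B hB h h2⟩
  obtain ⟨N, hI⟩ := hI
  obtain ⟨y, hyZ, hy⟩ := hI.exists_perp_pairing hxZ 1
  rcases hform with h | ⟨h, h2⟩
  · exact ⟨y, h y, hy, hyZ⟩
  · refine ⟨y - (B y y / 2) • x, ?_, ?_, fun z hz => ?_⟩
    · simp only [map_sub, map_smul, LinearMap.sub_apply, LinearMap.smul_apply, smul_eq_mul, hx, hy,
        h.eq y x]
      field_simp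
      ring
    · simp [hy, hx]
    · simp [hyZ z hz, h.eq z x, hxz z hz]

end Cfsg.Agent.S0761
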