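import Cfsg.Statements.S0763
import Cfsg.Agent.Forms.QuadBasic

set_option autoImplicit false
open Cfsg

namespace Cfsg.Agent.S0763

/-- Binary quadratic forms in characteristic two over a finite field: if Q is a quadratic form on a 2-dimensional space whose polar form is non-degenerate, then either there are vectors v, w with Q v = Q w = 0 and polar value 1 (Q is xy in these coordinates), or there are v, w and μ with Q v = 1, Q w = μ, polar value 1 and x² + x + μ without roots in F (Q is x² + xy + μy²). -/
theorem result {F V : Type*} [Field F] [Finite F] [CharP F 2] [AddCommGroup V] [Module F V] (Q : QuadraticForm F V) (h2 : Module.finrank F V = 2) (hQ : (QuadraticMap.polarBilin Q).Nondegenerate) : (∃ v w : V, LinearIndependent F ![v, w] ∧ Q v = 0 ∧ Q w = 0 ∧ QuadraticMap.polar Q v w = 1) ∨ (∃ (v w : V) (μ : F), LinearIndependent F ![v, w] ∧ (∀ x : F, x ^ 2 + x + μ ≠ 0) ∧ Q v = 1 ∧ Q w = μ ∧ QuadraticMap.polar Q v w = 1) := by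
  have := Fintype.ofFinite F
  have h20 : (2 : F) = 0 := CharTwo.two_eq_zero
  have : FiniteDimensional F V := Module.finite_of_finrank_pos (by omega)
  have hI := Forms.isForm_quadratic Q hQ
  have hne : ∀ v w : V, QuadraticMap.polar Q v w = 1 → LinearIndependent F ![v, w] := by
    intro v w h
    have hv : v ≠ 0 := by rintro rfl; simp [QuadraticMap.polar] at h
    rw [LinearIndependent.pair_iff' hv]
    intro a ha
    simp [← ha, QuadraticMap.polar_smul_right, Forms.polar_self_two_mul, h20] at h
  have hnt : Nontrivial V := Module.nontrivial_of_finrank_pos (R := F) (by omega)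
  by_cases hsing : ∃ v : V, v ≠ 0 ∧ Q v = 0
  · obtain ⟨v, hv, hv0⟩ := hsing
    obtain ⟨w, hw⟩ := hI.exists_pairing hv 1
    have hw' : QuadraticMap.polar Q v w = 1 := hw
    have hp : QuadraticMap.polar Q v ((Q w) • v + w) = 1 := by
      simp [QuadraticMap.polar_add_right, QuadraticMap.polar_smul_right, Forms.polar_self_two_mul,
        h20, hw']
    refine Or.inl ⟨v, (Q w) • v + w, hne _ _ hp, hv0, ?_, hp⟩
    have := Forms.map_smul_add_smul Q (Q w) 1 v w
    rw [one_smul] at this
    rw [this, hv0, hw']
    linear_combination (Q w) * h20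
  · push Not at hsing
    obtain ⟨v0, hv0⟩ := exists_ne (0 : V)
    obtain ⟨s, hs⟩ := Forms.exists_sq_of_two_eq_zero h20 (Q v0)⁻¹
    have hv : Q (s • v0) = 1 := by
      rw [QuadraticMap.map_smul, smul_eq_mul, ← sq, hs, inv_mul_cancel₀ (hsing v0 hv0)]
    have hv' : s • v0 ≠ 0 := by intro h; simp [h] at hv
    obtain ⟨w, hw⟩ := hI.exists_pairing hv' 1
    have hw' : QuadraticMap.polar Q (s • v0) w = 1 := hw
    refine Or.inr ⟨s • v0, w, Q w, hne _ _ hw', ?_, hv, rfl, hw'⟩
    intro x hx
    have hne0 : x • (s • v0) + (1 : F) • w ≠ 0 := fun h =>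
      one_ne_zero ((LinearIndependent.pair_iff.1 (hne _ _ hw') x 1 h).2)
    refine hsing _ hne0 ?_
    rw [Forms.map_smul_add_smul, hv, hw']
    linear_combination hx

end Cfsg.Agent.S0763
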