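import Cfsg.Statements.S0764
import Cfsg.Agent.Forms.Models

set_option autoImplicit false
open Cfsg

namespace Cfsg.Agent.S0764

/-- Symplectic transvections are isometries: for every vector v and scalar c the matrix of x ↦ x + c f(x, v) v lies in the symplectic group. -/
theorem result {F : Type*} [Field F] (m : ℕ) (v : Fin m ⊕ Fin m → F) (c : F) : Cfsg.sympTransvection m v c ∈ Matrix.symplecticGroup (Fin m) F := by
  rw [Forms.mem_symplectic_iff]
  intro x y
  have happ : ∀ z, (Cfsg.sympTransvection m v c).mulVec z =
      z + (c * Cfsg.sympForm m F z v) • v := by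
    intro z
    rw [Cfsg.sympTransvection, Matrix.add_mulVec, Matrix.one_mulVec, Matrix.smul_mulVec,
      Matrix.vecMulVec_mulVec, op_smul_eq_smul, smul_smul, Cfsg.sympForm, dotProduct_comm]
  rw [happ, happ]
  simp only [← Forms.sympB_apply, map_add, map_smul, LinearMap.add_apply, LinearMap.smul_apply,
    smul_eq_mul, Forms.sympB_isAlt v]
  rw [← LinearMap.IsAlt.neg (Forms.sympB_isAlt (m := m) (F := F)) y v]
  ring

end Cfsg.Agent.S0764
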