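import Cfsg.Statements.S0767
import Cfsg.Agent.Forms.Models

set_option autoImplicit false
open Cfsg

namespace Cfsg.Agent.S0767

/-- The root group of a point: T_v(c) T_v(d) = T_v(c + d), and for A in the symplectic group with A v = a v, the conjugate A T_v(c) A⁻¹ is again some T_v(d). -/
theorem result {F : Type*} [Field F] (m : ℕ) (v : Fin m ⊕ Fin m → F) : (∀ c d : F, Cfsg.sympTransvection m v c * Cfsg.sympTransvection m v d = Cfsg.sympTransvection m v (c + d)) ∧ ∀ (A : Matrix (Fin m ⊕ Fin m) (Fin m ⊕ Fin m) F) (a : F), A ∈ Matrix.symplecticGroup (Fin m) F → A.mulVec v = a • v → ∀ c : F, ∃ d : F, A * Cfsg.sympTransvection m v c * A⁻¹ = Cfsg.sympTransvection m v d := by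
  have happ : ∀ c z, (Cfsg.sympTransvection m v c).mulVec z =
      z + (c * Cfsg.sympForm m F z v) • v := by
    intro c z
    rw [Cfsg.sympTransvection, Matrix.add_mulVec, Matrix.one_mulVec, Matrix.smul_mulVec,
      Matrix.vecMulVec_mulVec, op_smul_eq_smul, smul_smul, Cfsg.sympForm, dotProduct_comm]
  have hvv : Cfsg.sympForm m F v v = 0 := by rw [← Forms.sympB_apply]; exact Forms.sympB_isAlt v
  refine ⟨fun c d => Forms.matrix_ext_mulVec fun z => ?_, fun A a hA hAv c => ⟨c * a ^ 2, ?_⟩⟩
  · rw [← Matrix.mulVec_mulVec, happ, happ, happ]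
    have h1 : Cfsg.sympForm m F (z + (d * Cfsg.sympForm m F z v) • v) v =
        Cfsg.sympForm m F z v := by
      simp only [← Forms.sympB_apply, map_add, map_smul, LinearMap.add_apply, LinearMap.smul_apply,
        Forms.sympB_isAlt v, smul_eq_mul, mul_zero, add_zero]
    rw [h1]
    module
  · have hdet : IsUnit A.det := SymplecticGroup.symplectic_det hA
    refine Forms.matrix_ext_mulVec fun z => ?_
    have h2 : A.mulVec (A⁻¹.mulVec z) = z := by
      rw [Matrix.mulVec_mulVec, Matrix.mul_nonsing_inv _ hdet, Matrix.one_mulVec]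
    have h3 : Cfsg.sympForm m F (A⁻¹.mulVec z) v = a * Cfsg.sympForm m F z v := by
      rw [← Forms.mem_symplectic_iff.1 hA (A⁻¹.mulVec z) v, h2, hAv]
      simp only [← Forms.sympB_apply, map_smul, smul_eq_mul]
    rw [← Matrix.mulVec_mulVec, ← Matrix.mulVec_mulVec, happ, happ, Matrix.mulVec_add,
      Matrix.mulVec_smul, h2, h3, hAv, smul_smul]
    congr 2
    ring

end Cfsg.Agent.S0767
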