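import Cfsg.Statements.S0776
import Cfsg.Agent.Forms.SubspaceStab

set_option autoImplicit false
open Cfsg

namespace Cfsg.Agent.S0776

/-- If W ≤ F^(2m) is a 2k-dimensional subspace on which the symplectic form is non-degenerate, then the stabiliser of W in Sp_2m(F) is isomorphic to Sp_2k(F) × Sp_(2m−2k)(F). -/
theorem result {F : Type*} [Field F] (m k : ℕ) (hk : k ≤ m) (W : Submodule F (Fin m ⊕ Fin m → F)) (hWk : Module.finrank F W = 2 * k) (hW : ∀ u ∈ W, (∀ v ∈ W, Cfsg.sympForm m F u v = 0) → u = 0) : Nonempty (↥(Cfsg.stabilizing (Cfsg.spToMat m F) (W : Set (Fin m ⊕ Fin m → F))) ≃* Matrix.symplecticGroup (Fin k) F × Matrix.symplecticGroup (Fin (m - k)) F) := by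
  have hI := Forms.isForm_symp (m := m) (F := F)
  have hA := Forms.sympB_isAlt (m := m) (F := F)
  have hX : ∀ u ∈ W, (∀ v ∈ W, Forms.sympB m F u v = 0) → u = 0 := fun u hu h =>
    hW u hu fun v hv => (Forms.sympB_apply (m := m) (F := F) u v).symm.trans (h v hv)
  have E := Forms.stabProdEquiv hI W hX (Forms.spEquiv m F)
    (Cfsg.stabilizing (Cfsg.spToMat m F) (W : Set (Fin m ⊕ Fin m → F))) fun g => by
      rw [← Forms.stable_iff_mapsTo]
      exact Iff.rfl
  have hd : Module.finrank F (Forms.perp (Forms.sympB m F) W) = 2 * (m - k) := by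
    have := hI.finrank_perp W
    have h2 : Module.finrank F (Fin m ⊕ Fin m → F) = m + m := by simp
    omega
  obtain ⟨e₁⟩ := Forms.nonempty_isom_symp (hI.restrict hX) (fun x => hA (x : _)) hWk
  obtain ⟨e₂⟩ := Forms.nonempty_isom_symp (hI.restrict (hI.perp_nondeg hX)) (fun x => hA (x : _)) hd
  exact ⟨E.trans (MulEquiv.prodCongr (e₁.trans (Forms.spEquiv k F).symm)
    (e₂.trans (Forms.spEquiv (m - k) F).symm))⟩

end Cfsg.Agent.S0776
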