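import Cfsg.Statements.S0779
import Cfsg.Agent.Forms.Models

set_option autoImplicit false
open Cfsg

namespace Cfsg.Agent.S0779

/-- Unitary transvections: let |F| = q², h the standard Hermitian form Σ x_i y_i^q and v ≠ 0 with h(v, v) = 0. The linear map x ↦ x + c h(x, v) v is an isometry of h if and only if c = 0 or c^(q−1) = −1. -/
theorem result {F : Type*} [Field F] [Fintype F] {q : ℕ} (hF : Fintype.card F = q ^ 2) (n : ℕ) (v : Fin n → F) (hv : v ≠ 0) (hv0 : Cfsg.hermForm n F q v v = 0) (c : F) : (∀ x y : Fin n → F, Cfsg.hermForm n F q ((Cfsg.unitaryTransvection n q v c).mulVec x) ((Cfsg.unitaryTransvection n q v c).mulVec y) = Cfsg.hermForm n F q x y) ↔ (c = 0 ∨ c ^ (q - 1) = -1) := by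
  have hq := Forms.two_le_q hF
  have happ : ∀ z, (Cfsg.unitaryTransvection n q v c).mulVec z =
      z + (c * Cfsg.hermForm n F q z v) • v := by
    intro z
    rw [Cfsg.unitaryTransvection, Matrix.add_mulVec, Matrix.one_mulVec, Matrix.smul_mulVec,
      Matrix.vecMulVec_mulVec, op_smul_eq_smul, smul_smul, Cfsg.hermForm]
    simp [dotProduct, mul_comm]
  have hexp : ∀ x y : Fin n → F,
      Cfsg.hermForm n F q ((Cfsg.unitaryTransvection n q v c).mulVec x)
        ((Cfsg.unitaryTransvection n q v c).mulVec y) =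
      Cfsg.hermForm n F q x y +
        (c + c ^ q) * (Cfsg.hermForm n F q x v * Cfsg.hermForm n F q v y) := by
    intro x y
    rw [happ, happ]
    have hsymm : (Cfsg.hermForm n F q y v) ^ q = Cfsg.hermForm n F q v y :=
      (Forms.hermB_isSymm hF).eq v y
    simp only [← Forms.hermB_apply hF] at hsymm hv0 ⊢
    simp only [map_add, map_smul, LinearMap.map_smulₛₗ, LinearMap.add_apply, LinearMap.smul_apply,
      smul_eq_mul, hv0, Forms.frobQ_apply, mul_pow, hsymm]
    ring
  have hcq : (c = 0 ∨ c ^ (q - 1) = -1) ↔ c + c ^ q = 0 := by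
    have hpow : c ^ q = c * c ^ (q - 1) := by rw [← pow_succ']; congr 1; omega
    rw [hpow]
    constructor
    · rintro (h | h)
      · simp [h]
      · rw [h]; ring
    · intro h
      have h' : c * (1 + c ^ (q - 1)) = 0 := by linear_combination h
      rcases mul_eq_zero.1 h' with h1 | h1
      · exact Or.inl h1
      · exact Or.inr (by linear_combination h1)
  rw [hcq]
  refine ⟨fun hiso => ?_, fun hc x y => by rw [hexp, hc]; ring⟩
  obtain ⟨x, hx⟩ := (Forms.isForm_herm (n := n) hF).exists_pairing hv 1
  have hx' : Cfsg.hermForm n F q x v = 1 := hx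
  have hx'' : Cfsg.hermForm n F q v x = 1 := by
    have := (Forms.hermB_isSymm hF).eq v x
    simp only [Forms.hermB_apply, Forms.frobQ_apply] at this
    rw [← this, hx', one_pow]
  have := hiso x x
  rw [hexp, hx', hx''] at this
  linear_combination this

end Cfsg.Agent.S0779
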