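import Cfsg.Statements.S0785
import Cfsg.Agent.Forms.OrthBridge

set_option autoImplicit false
open Cfsg Matrix

namespace Cfsg.Agent.S0785

/-- det(I) = {±1}: for a quadratic form on F^n whose polar form is non-degenerate, every element of the isometry group has determinant 1 or −1, and as soon as Q takes a non-zero value some isometry has determinant −1. -/
theorem result {F : Type*} [Field F] {n : ℕ} (Q : QuadraticForm F (Fin n → F)) (hQ : (QuadraticMap.polarBilin Q).Nondegenerate) : (∀ g : ↥(Cfsg.isometryGroup F ⇑Q), ((g : Matrix.GeneralLinearGroup (Fin n) F) : Matrix (Fin n) (Fin n) F).det = 1 ∨ ((g : Matrix.GeneralLinearGroup (Fin n) F) : Matrix (Fin n) (Fin n) F).det = -1) ∧ ((∃ v, Q v ≠ 0) → ∃ g : ↥(Cfsg.isometryGroup F ⇑Q), ((g : Matrix.GeneralLinearGroup (Fin n) F) : Matrix (Fin n) (Fin n) F).det = -1) := by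
  have hmat : ∀ g : ↥(Cfsg.isometryGroup F ⇑Q),
      ((g : Matrix.GeneralLinearGroup (Fin n) F) : Matrix (Fin n) (Fin n) F).det = 1 ∨
      ((g : Matrix.GeneralLinearGroup (Fin n) F) : Matrix (Fin n) (Fin n) F).det = -1 := by
    intro g
    set M := ((g : Matrix.GeneralLinearGroup (Fin n) F) : Matrix (Fin n) (Fin n) F)
    set G := LinearMap.toMatrix₂' F (QuadraticMap.polarBilin Q) with hG
    have hGdet : G.det ≠ 0 := by
      have h := (LinearMap.nondegenerate_toMatrix₂'_iff (R := F)).2 hQ
      exact Matrix.nondegenerate_iff_det_ne_zero.1 h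
    have h1 : M.transpose * G * M = G := by
      have hp : ∀ x y : Fin n → F, QuadraticMap.polarBilin Q x y = x ⬝ᵥ G.mulVec y := by
        intro x y
        rw [← Matrix.toLinearMap₂'_apply', hG, Matrix.toLinearMap₂'_toMatrix']
      ext i j
      have h := (Forms.isometryEquiv Q g).2.1 (Pi.single i 1) (Pi.single j 1)
      rw [Forms.isometryEquiv_apply, Forms.isometryEquiv_apply, hp, hp, ← Matrix.vecMul_transpose,
        ← Matrix.dotProduct_mulVec, Matrix.mulVec_mulVec, Matrix.mulVec_mulVec] at h
      simpa using h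
    have h2 := congrArg Matrix.det h1
    rw [Matrix.det_mul, Matrix.det_mul, Matrix.det_transpose] at h2
    exact mul_self_eq_one_iff.1 (mul_right_cancel₀ hGdet (by linear_combination h2))
  refine ⟨hmat, fun ⟨v, hv⟩ => ⟨(Forms.isometryEquiv Q).symm (Forms.reflection Q v), ?_⟩⟩
  rw [← Forms.det_isometryEquiv, MulEquiv.apply_symm_apply]
  exact Forms.orthDet_reflection Q hv

end Cfsg.Agent.S0785
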