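import Cfsg.Statements.S0787
import Cfsg.Agent.Forms.OrthFacts

set_option autoImplicit false
open Cfsg

namespace Cfsg.Agent.S0787

/-- Existence and uniqueness of Ω: if F is finite, n ≥ 2, Q is a quadratic form on F^n with non-degenerate polar form and (|F|, n) ≠ (2, 4), then the group of isometries of determinant one has a unique subgroup of index 2. -/
theorem result {F : Type*} [Field F] [Fintype F] {n : ℕ} (hn : 2 ≤ n) (Q : QuadraticForm F (Fin n → F)) (hQ : (QuadraticMap.polarBilin Q).Nondegenerate) (h : Fintype.card F ≠ 2 ∨ n ≠ 4) : ∃! H : Subgroup ↥(Cfsg.specialIsometryGroup F ⇑Q), H.index = 2 := by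
  classical
  have hfr : Module.finrank F (Fin n → F) = n := Module.finrank_fin_fun F
  set e := Forms.isometryEquiv Q
  have hgen : Subgroup.closure (Forms.reflectionSet Q) = ⊤ := Forms.closure_reflectionSet Q hQ (by
    right
    rcases h with h | h
    · left; rwa [Nat.card_eq_fintype_card]
    · right; rwa [hfr])
  have hnt : Nontrivial (Fin n → F) := Module.nontrivial_of_finrank_pos (R := F) (by omega)
  obtain ⟨w, hw⟩ := Forms.exists_nonsingular Q hQ
  set SO := Cfsg.specialIsometryGroup F ⇑Q with hSO
  have hle : Cfsg.Omega F ⇑Q ≤ SO := by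
    intro g hg
    rw [Forms.mem_omega_iff] at hg
    rw [hSO, Forms.mem_specialIsometryGroup_iff]
    exact Abelianization.commutator_subset_ker (Forms.orthDet Q) hg
  have hindex : (Cfsg.Omega F ⇑Q).relIndex SO = 2 := by
    have hmul := Subgroup.relIndex_mul_index hle
    by_cases h2 : (2 : F) = 0
    · have hm : (-1 : F) = 1 := by linear_combination -h2
      have htop : SO = ⊤ := by
        rw [eq_top_iff]
        intro g _
        rw [hSO, Forms.mem_specialIsometryGroup_iff]
        have hg : e g ∈ Subgroup.closure (Forms.reflectionSet Q) := hgen ▸ Subgroup.mem_top _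
        refine (Subgroup.closure_le (K := (Forms.orthDet Q).ker)).2 ?_ hg
        rintro _ ⟨v, hv, rfl⟩
        exact Units.ext ((Forms.orthDet_reflection Q hv).trans hm)
      rw [htop, Subgroup.index_top, mul_one, Forms.omega_index,
        (Forms.commutator_index_two h2 hQ (by
          rcases h with h | h
          · left; rwa [Nat.card_eq_fintype_card]
          · right; rwa [hfr]) (by omega)).1] at hmul
      rwa [htop]
    · have hm : (-1 : F) ≠ 1 := fun h' => h2 (by linear_combination -h')
      have hSOi : SO.index = 2 := by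
        rw [Subgroup.index_eq_two_iff]
        refine ⟨e.symm (Forms.reflection Q w), fun g => ?_⟩
        have hdet : Forms.orthDet Q (e g) = 1 ∨ Forms.orthDet Q (e g) = -1 := by
          have hg : e g ∈ Subgroup.closure (Forms.reflectionSet Q) := hgen ▸ Subgroup.mem_top _
          generalize e g = z at hg ⊢
          induction hg using Subgroup.closure_induction with
          | mem r hr =>
            obtain ⟨v, hv, rfl⟩ := hr
            exact Or.inr (Units.ext ((Forms.orthDet_reflection Q hv).trans (by simp)))
          | one => exact Or.inl (map_one _)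
          | mul x y _ _ hx hy => rcases hx with hx | hx <;> rcases hy with hy | hy <;> simp [hx, hy]
          | inv x _ hx => rcases hx with hx | hx <;> simp [hx]
        have hw' : Forms.orthDet Q (Forms.reflection Q w) = -1 :=
          Units.ext ((Forms.orthDet_reflection Q hw).trans (by simp))
        have hm' : (-1 : Fˣ) ≠ 1 := fun h' => hm (by simpa using congrArg Units.val h')
        rw [hSO, Forms.mem_specialIsometryGroup_iff, Forms.mem_specialIsometryGroup_iff, map_mul,
          e.apply_symm_apply, map_mul, hw']
        rcases hdet with hd | hd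
        · rw [hd]; exact Or.inr ⟨rfl, by simpa using hm'⟩
        · rw [hd]; exact Or.inl ⟨by simp, hm'⟩
      rw [hSOi, Forms.omega_index, (Forms.commutator_eq_ker h2 hQ (by omega)).2] at hmul
      omega
  refine ⟨(Cfsg.Omega F ⇑Q).subgroupOf SO, hindex, fun H hH => ?_⟩
  have hsub : (Cfsg.Omega F ⇑Q).subgroupOf SO ≤ H := by
    intro x hx
    rw [Subgroup.mem_subgroupOf, Forms.mem_omega_iff] at hx
    have h1 := Forms.commutator_le_closure_squares hgen hx
    have hle2 : Subgroup.closure {y | ∃ x : Forms.orthGroup Q, Forms.orthDet Q x = 1 ∧ y = x * x} ≤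
        (H.map SO.subtype).map e.toMonoidHom := by
      rw [Subgroup.closure_le]
      rintro _ ⟨z, hz, rfl⟩
      have hzSO : e.symm z ∈ SO := by
        rw [hSO, Forms.mem_specialIsometryGroup_iff, e.apply_symm_apply]; exact hz
      exact ⟨_, ⟨⟨e.symm z, hzSO⟩ * ⟨e.symm z, hzSO⟩, Subgroup.mul_self_mem_of_index_two hH _, rfl⟩,
        by simp⟩
    obtain ⟨_, ⟨y, hy, rfl⟩, hyx⟩ := hle2 h1
    rw [show x = y from (Subtype.ext (e.injective hyx)).symm]
    exact hy
  have hfin : H.FiniteIndex := ⟨by omega⟩
  refine le_antisymm ?_ hsub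
  rw [← Subgroup.relIndex_eq_one]
  have h3 := Subgroup.relIndex_mul_index hsub
  have h4 : ((Cfsg.Omega F ⇑Q).subgroupOf SO).index = 2 := hindex
  rw [h4, hH] at h3
  omega

end Cfsg.Agent.S0787
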