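import Cfsg.Statements.S0790
import Cfsg.Agent.Forms.OrthFacts

set_option autoImplicit false
open Cfsg

namespace Cfsg.Agent.S0790

/-- −1 ∈ Ω⁺_2m(q) iff q^m ≡ 1 (mod 4), for q odd and m ≥ 1 (so that in the other case SO⁺_2m(q) = 2 × Ω⁺_2m(q)). -/
theorem result {F : Type*} [Field F] [Fintype F] {q : ℕ} (hF : Fintype.card F = q) (hodd : Odd q) (m : ℕ) (hm : 1 ≤ m) : (∃ g : ↥(Cfsg.isometryGroup F (Cfsg.quadFormPlus m F)), g ∈ Cfsg.Omega F (Cfsg.quadFormPlus m F) ∧ ((g : Matrix.GeneralLinearGroup (Fin m ⊕ Fin m) F) : Matrix (Fin m ⊕ Fin m) (Fin m ⊕ Fin m) F) = -1) ↔ q ^ m % 4 = 1 := by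
  classical
  subst hF
  have h2 : (2 : F) ≠ 0 := fun h2 => by
    have h1 : CharP F 2 := CharTwo.of_one_ne_zero_of_two_eq_zero one_ne_zero h2
    exact (Nat.not_even_iff_odd.2 hodd)
      (Nat.even_iff.2 (FiniteField.even_card_of_char_two (ringChar.eq F 2)))
  have hm1 : IsSquare (-1 : F) ↔ Fintype.card F % 4 = 1 := by
    rw [FiniteField.isSquare_neg_one_iff]
    have := Nat.odd_iff.1 hodd
    omega
  set Q := Forms.qPlus m F
  have hQ := Forms.qPlus_nondegenerate (F := F) (m := m)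
  let b : Fin m ⊕ Fin m → Fin m ⊕ Fin m → F := fun i => i.elim
    (fun i => Pi.single (Sum.inl i) 1 + Pi.single (Sum.inr i) 1)
    (fun i => Pi.single (Sum.inl i) 1 - Pi.single (Sum.inr i) 1)
  have hQl : ∀ i, Q (b (Sum.inl i)) = 1 := fun i => by
    simp [Q, b, Cfsg.quadFormPlus, Pi.single_apply]
  have hQr : ∀ i, Q (b (Sum.inr i)) = -1 := fun i => by
    simp [Q, b, Cfsg.quadFormPlus, Pi.single_apply]
  have hb : ∀ i, Q (b i) ≠ 0 := by
    rintro (i | i)
    · rw [hQl]; exact one_ne_zero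
    · rw [hQr]; simp
  have horth : ∀ i j, i ≠ j → QuadraticMap.polar Q (b i) (b j) = 0 := by
    rintro (i | i) (j | j) hij <;>
      simp only [QuadraticMap.polar, Q, b, Forms.coe_qPlus, Cfsg.quadFormPlus, Sum.elim_inl, Sum.elim_inr,
        ← Finset.sum_sub_distrib] <;>
      rcases eq_or_ne i j with rfl | hne <;>
      (try exact absurd rfl hij) <;>
      refine Finset.sum_eq_zero fun k _ => ?_ <;>
      simp [Pi.single_apply] <;> split_ifs <;> simp_all
  have hspan : Submodule.span F (Set.range b) = ⊤ := by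
    rw [eq_top_iff, ← (Pi.basisFun F (Fin m ⊕ Fin m)).span_eq, Submodule.span_le]
    rintro _ ⟨i | i, rfl⟩ <;> rw [Pi.basisFun_apply, SetLike.mem_coe]
    · have : (Pi.single (Sum.inl i) 1 : Fin m ⊕ Fin m → F) = (1 / 2 : F) • (b (Sum.inl i) + b (Sum.inr i)) := by
        simp only [b, Sum.elim_inl, Sum.elim_inr, add_add_sub_cancel, ← two_smul F, smul_smul,
          one_div, inv_mul_cancel₀ h2, one_smul]
      rw [this]
      exact Submodule.smul_mem _ _ (Submodule.add_mem _ (Submodule.subset_span ⟨_, rfl⟩) (Submodule.subset_span ⟨_, rfl⟩))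
    · have : (Pi.single (Sum.inr i) 1 : Fin m ⊕ Fin m → F) = (1 / 2 : F) • (b (Sum.inl i) - b (Sum.inr i)) := by
        simp only [b, Sum.elim_inl, Sum.elim_inr, add_sub_sub_cancel, ← two_smul F, smul_smul,
          one_div, inv_mul_cancel₀ h2, one_smul]
      rw [this]
      exact Submodule.smul_mem _ _ (Submodule.sub_mem _ (Submodule.subset_span ⟨_, rfl⟩) (Submodule.subset_span ⟨_, rfl⟩))
  have hdet : Forms.orthDet Q (Forms.negOne Q) = 1 := by
    rw [Forms.hom_negOne b hb horth hspan]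
    have hval : ∀ i, Forms.orthDet Q (Forms.reflection Q (b i)) = -1 := fun i =>
      Units.ext ((Forms.orthDet_reflection Q (hb i)).trans (by simp))
    simp [hval]
  have hsp : Forms.spinor Q h2 (Forms.negOne Q) = 1 ↔ Fintype.card F ^ m % 4 = 1 := by
    rw [Forms.hom_negOne b hb horth hspan, Fintype.prod_sum_type,
      Finset.prod_eq_one fun i _ => (Forms.spinor_reflection h2 hQ (hb (Sum.inl i))).1 (by rw [hQl]; exact IsSquare.one),
      one_mul]
    by_cases hs : IsSquare (-1 : F)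
    · rw [Finset.prod_eq_one fun i _ => (Forms.spinor_reflection h2 hQ (hb (Sum.inr i))).1 (by rw [hQr]; exact hs)]
      simp [Nat.pow_mod, hm1.1 hs]
    · have h3 : Fintype.card F % 4 = 3 := by
        have := Nat.odd_iff.1 hodd
        have : Fintype.card F % 4 ≠ 1 := fun h => hs (hm1.2 h)
        omega
      rw [Finset.prod_congr rfl fun i _ => (Forms.spinor_reflection h2 hQ (hb (Sum.inr i))).2 (by rw [hQr]; exact hs)]
      rw [Finset.prod_const, Finset.card_univ, Fintype.card_fin, Nat.pow_mod, h3]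
      rcases Nat.even_or_odd m with ⟨k, rfl⟩ | ⟨k, rfl⟩
      · rw [← two_mul, pow_mul, pow_mul, Nat.pow_mod]; simp
      · rw [pow_succ, pow_succ, pow_mul, pow_mul, Nat.mul_mod, Nat.pow_mod]; simp
  set e := Forms.isometryEquiv Q
  have hfr : 2 ≤ Module.finrank F (Fin m ⊕ Fin m → F) := by simp; omega
  rw [← Forms.coe_qPlus]
  constructor
  · rintro ⟨g, hg, hgm⟩
    have heg : e g = Forms.negOne Q := Forms.orth_ext fun x => by
      rw [Forms.isometryEquiv_apply, hgm, Matrix.neg_mulVec, Matrix.one_mulVec]; rfl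
    rw [Forms.mem_omega_iff, heg, Forms.mem_commutator_iff h2 hQ hfr] at hg
    exact hsp.1 hg.2
  · intro hq
    refine ⟨e.symm (Forms.negOne Q), ?_, Forms.matrix_ext_mulVec fun x => ?_⟩
    · rw [Forms.mem_omega_iff, e.apply_symm_apply, Forms.mem_commutator_iff h2 hQ hfr]
      exact ⟨hdet, hsp.2 hq⟩
    · rw [← Forms.isometryEquiv_apply, e.apply_symm_apply, Forms.negOne_apply, Matrix.neg_mulVec, Matrix.one_mulVec]

end Cfsg.Agent.S0790
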