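import Cfsg.Statements.S0791
import Cfsg.Agent.Forms.OrthFacts

set_option autoImplicit false
open Cfsg

namespace Cfsg.Agent.S0791

/-- −1 ∈ Ω⁻_2m(q) iff q^m ≡ −1 (mod 4), for q odd and m ≥ 1; for the minus-type form quadFormMinus (m−1) with anisotropic binary part. -/
theorem result {F : Type*} [Field F] [Fintype F] {q : ℕ} (hF : Fintype.card F = q) (hodd : Odd q) (m : ℕ) (hm : 1 ≤ m) (a b : F) (hab : ∀ z₁ z₂ : F, z₁ ^ 2 + a * z₁ * z₂ + b * z₂ ^ 2 = 0 → z₁ = 0 ∧ z₂ = 0) : (∃ g : ↥(Cfsg.isometryGroup F (Cfsg.quadFormMinus (m - 1) F a b)), g ∈ Cfsg.Omega F (Cfsg.quadFormMinus (m - 1) F a b) ∧ ((g : Matrix.GeneralLinearGroup ((Fin (m - 1) ⊕ Fin (m - 1)) ⊕ Fin 2) F) : Matrix ((Fin (m - 1) ⊕ Fin (m - 1)) ⊕ Fin 2) ((Fin (m - 1) ⊕ Fin (m - 1)) ⊕ Fin 2) F) = -1) ↔ q ^ m % 4 = 3 := by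
  classical
  subst hF
  have h2 : (2 : F) ≠ 0 := fun h2 => by
    have h1 : CharP F 2 := CharTwo.of_one_ne_zero_of_two_eq_zero one_ne_zero h2
    exact (Nat.not_even_iff_odd.2 hodd)
      (Nat.even_iff.2 (FiniteField.even_card_of_char_two (ringChar.eq F 2)))
  have hm1 : IsSquare (-1 : F) ↔ Fintype.card F % 4 = 1 := by
    rw [FiniteField.isSquare_neg_one_iff]
    have := Nat.odd_iff.1 hodd
    omega
  obtain ⟨k, rfl⟩ : ∃ k, m = k + 1 := ⟨m - 1, by omega⟩
  change (∃ g : ↥(Cfsg.isometryGroup F (Cfsg.quadFormMinus k F a b)),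
    g ∈ Cfsg.Omega F (Cfsg.quadFormMinus k F a b) ∧
      ((g : Matrix.GeneralLinearGroup ((Fin k ⊕ Fin k) ⊕ Fin 2) F) :
        Matrix ((Fin k ⊕ Fin k) ⊕ Fin 2) ((Fin k ⊕ Fin k) ⊕ Fin 2) F) = -1) ↔ _
  set Q := Forms.qMinus k F a b
  have hQ := Forms.qMinus_nondegenerate (m := k) a b (Forms.disc_ne_zero hab)
  let v : (Fin k ⊕ Fin k) ⊕ Fin 2 → (Fin k ⊕ Fin k) ⊕ Fin 2 → F := fun i => i.elim
    (fun i => i.elim
      (fun i => Pi.single (Sum.inl (Sum.inl i)) 1 + Pi.single (Sum.inl (Sum.inr i)) 1)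
      (fun i => Pi.single (Sum.inl (Sum.inl i)) 1 - Pi.single (Sum.inl (Sum.inr i)) 1))
    ![Pi.single (Sum.inr 0) 1, (-a / 2) • Pi.single (Sum.inr 0) 1 + Pi.single (Sum.inr 1) 1]
  have hQl : ∀ i, Q (v (Sum.inl (Sum.inl i))) = 1 := fun i => by
    simp [Q, v, Cfsg.quadFormMinus, Pi.single_apply]
  have hQr : ∀ i, Q (v (Sum.inl (Sum.inr i))) = -1 := fun i => by
    simp [Q, v, Cfsg.quadFormMinus, Pi.single_apply]
  have hQ0 : Q (v (Sum.inr 0)) = 1 := by
    simp [Q, v, Cfsg.quadFormMinus]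
  have h4 : (4 : F) ≠ 0 := by
    intro h
    have : (2 : F) * 2 = 0 := by linear_combination h
    simp [h2] at this
  have hQ1 : Q (v (Sum.inr 1)) = b - a ^ 2 / 4 := by
    simp [Q, v, Cfsg.quadFormMinus]
    field_simp
    ring_nf
    try rw [mul_assoc, inv_mul_cancel₀ h4, mul_one]
  have hD : ¬ IsSquare (-(b - a ^ 2 / 4)) := by
    rintro ⟨s, hs⟩
    have := hab (s - a / 2) 1 (by field_simp at hs ⊢; linear_combination -hs)
    exact one_ne_zero this.2
  have hD0 : b - a ^ 2 / 4 ≠ 0 := fun h => hD (by rw [h, neg_zero]; exact IsSquare.zero)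
  have hb : ∀ i, Q (v i) ≠ 0 := by
    rintro ((i | i) | i)
    · rw [hQl]; exact one_ne_zero
    · rw [hQr]; simp
    · fin_cases i
      · change Q (v (Sum.inr 0)) ≠ 0; rw [hQ0]; exact one_ne_zero
      · change Q (v (Sum.inr 1)) ≠ 0; rw [hQ1]; exact hD0
  have horth : ∀ i j, i ≠ j → QuadraticMap.polar Q (v i) (v j) = 0 := by
    rintro ((i | i) | i) ((j | j) | j) hij <;> (try fin_cases i) <;> (try fin_cases j) <;>
      simp [QuadraticMap.polar, Q, v, Cfsg.quadFormMinus, Pi.single_apply, mul_add, add_mul, sub_mul, mul_sub,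
        Finset.sum_add_distrib] at hij ⊢ <;>
      first
        | (simp [hij, Ne.symm hij]; done)
        | (field_simp; ring; done)
        | (by_cases h : i = j <;>
            first
              | (subst h; simp; done)
              | (subst h; simp; ring; done)
              | (simp [h, Ne.symm h]; done))
        | skip
  have hspan : Submodule.span F (Set.range v) = ⊤ := by
    have hl : ∀ i : Fin k, (Pi.single (Sum.inl (Sum.inl i)) 1 : (Fin k ⊕ Fin k) ⊕ Fin 2 → F) =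
        (1 / 2 : F) • (v (Sum.inl (Sum.inl i)) + v (Sum.inl (Sum.inr i))) := fun i => by
      simp only [v, Sum.elim_inl, Sum.elim_inr, add_add_sub_cancel, ← two_smul F, smul_smul,
        one_div, inv_mul_cancel₀ h2, one_smul]
    rw [eq_top_iff, ← (Pi.basisFun F ((Fin k ⊕ Fin k) ⊕ Fin 2)).span_eq, Submodule.span_le]
    rintro _ ⟨(i | i) | i, rfl⟩ <;> rw [Pi.basisFun_apply, SetLike.mem_coe]
    · rw [hl]
      exact Submodule.smul_mem _ _ (Submodule.add_mem _ (Submodule.subset_span ⟨_, rfl⟩) (Submodule.subset_span ⟨_, rfl⟩))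
    · have : (Pi.single (Sum.inl (Sum.inr i)) 1 : (Fin k ⊕ Fin k) ⊕ Fin 2 → F) =
          (1 / 2 : F) • (v (Sum.inl (Sum.inl i)) - v (Sum.inl (Sum.inr i))) := by
        simp only [v, Sum.elim_inl, Sum.elim_inr, add_sub_sub_cancel, ← two_smul F, smul_smul,
          one_div, inv_mul_cancel₀ h2, one_smul]
      rw [this]
      exact Submodule.smul_mem _ _ (Submodule.sub_mem _ (Submodule.subset_span ⟨_, rfl⟩) (Submodule.subset_span ⟨_, rfl⟩))
    · fin_cases i
      · exact Submodule.subset_span ⟨Sum.inr 0, by simp [v]⟩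
      · have : (Pi.single (Sum.inr 1) 1 : (Fin k ⊕ Fin k) ⊕ Fin 2 → F) =
            v (Sum.inr 1) - (-a / 2) • v (Sum.inr 0) := by simp [v]
        simp only [Fin.mk_one]
        rw [this]
        exact Submodule.sub_mem _ (Submodule.subset_span ⟨_, rfl⟩) (Submodule.smul_mem _ _ (Submodule.subset_span ⟨_, rfl⟩))
  have hdet : Forms.orthDet Q (Forms.negOne Q) = 1 := by
    rw [Forms.hom_negOne v hb horth hspan]
    have hval : ∀ i, Forms.orthDet Q (Forms.reflection Q (v i)) = -1 := fun i =>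
      Units.ext ((Forms.orthDet_reflection Q (hb i)).trans (by simp))
    rw [Finset.prod_congr rfl fun i _ => hval i, Finset.prod_const]
    exact Even.neg_one_pow ⟨k + 1, by simp; ring⟩
  have hsp : Forms.spinor Q h2 (Forms.negOne Q) = 1 ↔ Fintype.card F ^ (k + 1) % 4 = 3 := by
    rw [Forms.hom_negOne v hb horth hspan, Fintype.prod_sum_type, Fintype.prod_sum_type,
      Fin.prod_univ_two,
      Finset.prod_eq_one fun i _ => (Forms.spinor_reflection h2 hQ (hb (Sum.inl (Sum.inl i)))).1 (by rw [hQl]; exact IsSquare.one),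
      (Forms.spinor_reflection h2 hQ (hb (Sum.inr 0))).1 (by rw [hQ0]; exact IsSquare.one),
      one_mul, one_mul]
    by_cases hs : IsSquare (-1 : F)
    · have h1 : ¬ IsSquare (b - a ^ 2 / 4) := fun h' => hD (by simpa using hs.mul h')
      rw [Finset.prod_eq_one fun i _ => (Forms.spinor_reflection h2 hQ (hb (Sum.inl (Sum.inr i)))).1 (by rw [hQr]; exact hs),
        (Forms.spinor_reflection h2 hQ (hb (Sum.inr 1))).2 (by rw [hQ1]; exact h1)]
      simp [Nat.pow_mod, hm1.1 hs]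
    · have h3 : Fintype.card F % 4 = 3 := by
        have := Nat.odd_iff.1 hodd
        have : Fintype.card F % 4 ≠ 1 := fun h => hs (hm1.2 h)
        omega
      have h1 : IsSquare (b - a ^ 2 / 4) := by
        have e1 := quadraticChar_neg_one_iff_not_isSquare.2 hD
        have e2 := quadraticChar_neg_one_iff_not_isSquare.2 hs
        rw [neg_eq_neg_one_mul, map_mul, e2] at e1
        exact (quadraticChar_one_iff_isSquare hD0).1 (by linarith)
      rw [Finset.prod_congr rfl fun i _ => (Forms.spinor_reflection h2 hQ (hb (Sum.inl (Sum.inr i)))).2 (by rw [hQr]; exact hs),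
        (Forms.spinor_reflection h2 hQ (hb (Sum.inr 1))).1 (by rw [hQ1]; exact h1), mul_one]
      rw [Finset.prod_const, Finset.card_univ, Fintype.card_fin, Nat.pow_mod, h3]
      rcases Nat.even_or_odd k with ⟨j, rfl⟩ | ⟨j, rfl⟩
      · rw [← two_mul, pow_succ, pow_mul, pow_mul, Nat.mul_mod, Nat.pow_mod]; simp
      · rw [show 2 * j + 1 + 1 = 2 * (j + 1) by ring, pow_succ, pow_mul, pow_mul, Nat.pow_mod]; simp
  set e := Forms.isometryEquiv Q
  have hfr : 2 ≤ Module.finrank F ((Fin k ⊕ Fin k) ⊕ Fin 2 → F) := by simp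
  rw [← Forms.coe_qMinus]
  constructor
  · rintro ⟨g, hg, hgm⟩
    have heg : e g = Forms.negOne Q := Forms.orth_ext fun x => by
      rw [Forms.isometryEquiv_apply, hgm, Matrix.neg_mulVec, Matrix.one_mulVec]; rfl
    rw [Forms.mem_omega_iff, heg, Forms.mem_commutator_iff h2 hQ hfr] at hg
    exact hsp.1 hg.2
  · intro hq
    refine ⟨e.symm (Forms.negOne Q), ?_, Forms.matrix_ext_mulVec fun x => ?_⟩
    · rw [Forms.mem_omega_iff, e.apply_symm_apply, Forms.mem_commutator_iff h2 hQ hfr]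
      exact ⟨hdet, hsp.2 hq⟩
    · rw [← Forms.isometryEquiv_apply, e.apply_symm_apply, Forms.negOne_apply, Matrix.neg_mulVec, Matrix.one_mulVec]

end Cfsg.Agent.S0791
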