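import Cfsg.Statements.S0792
import Cfsg.Agent.Forms.OrthBridge

set_option autoImplicit false
open Cfsg

namespace Cfsg.Agent.S0792

/-- For q odd and Q with non-degenerate polar form on F^n, the determinant-one isometries form the subgroup generated by all products r_u r_v of two reflections (Q(u), Q(v) ≠ 0). -/
theorem result {F : Type*} [Field F] [Fintype F] (h2 : (2 : F) ≠ 0) {n : ℕ} (Q : QuadraticForm F (Fin n → F)) (hQ : (QuadraticMap.polarBilin Q).Nondegenerate) : Cfsg.specialIsometryGroup F ⇑Q = Subgroup.closure {g : ↥(Cfsg.isometryGroup F ⇑Q) | ∃ u v : Fin n → F, Q u ≠ 0 ∧ Q v ≠ 0 ∧ ((g : Matrix.GeneralLinearGroup (Fin n) F) : Matrix (Fin n) (Fin n) F) = Cfsg.reflectionMatrix ⇑Q u * Cfsg.reflectionMatrix ⇑Q v} := by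
  classical
  set S := {g : ↥(Cfsg.isometryGroup F ⇑Q) | ∃ u v : Fin n → F, Q u ≠ 0 ∧ Q v ≠ 0 ∧
    ((g : Matrix.GeneralLinearGroup (Fin n) F) : Matrix (Fin n) (Fin n) F) =
      Cfsg.reflectionMatrix ⇑Q u * Cfsg.reflectionMatrix ⇑Q v} with hS
  set e := Forms.isometryEquiv Q
  set C := (Subgroup.closure S).map e.toMonoidHom with hC
  have hpair : ∀ u v, Q u ≠ 0 → Q v ≠ 0 → Forms.reflection Q u * Forms.reflection Q v ∈ C := by
    intro u v hu hv
    refine ⟨e.symm (Forms.reflection Q u * Forms.reflection Q v),
      Subgroup.subset_closure ⟨u, v, hu, hv, ?_⟩, e.apply_symm_apply _⟩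
    rw [map_mul]
    change ((e.symm (Forms.reflection Q u) : Matrix.GeneralLinearGroup (Fin n) F) :
      Matrix (Fin n) (Fin n) F) * ((e.symm (Forms.reflection Q v) : Matrix.GeneralLinearGroup (Fin n) F) :
      Matrix (Fin n) (Fin n) F) = _
    rw [(Forms.eq_reflection_iff Q _ u).2 (e.apply_symm_apply _),
      (Forms.eq_reflection_iff Q _ v).2 (e.apply_symm_apply _)]
  have hdet : ∀ v, Q v ≠ 0 → Forms.orthDet Q (Forms.reflection Q v) = -1 := fun v hv =>
    Units.ext ((Forms.orthDet_reflection Q hv).trans (by simp))
  apply le_antisymm
  · intro g hg
    rw [Forms.mem_specialIsometryGroup_iff] at hg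
    suffices e g ∈ C from (Subgroup.mem_map_iff_mem e.injective).1 this
    have hgen := Forms.closure_reflectionSet_odd h2 Q hQ
    have key : ∀ x ∈ Subgroup.closure (Forms.reflectionSet Q),
        (x ∈ C ∧ Forms.orthDet Q x = 1) ∨
        (Forms.orthDet Q x = -1 ∧ ∀ v, Q v ≠ 0 → Forms.reflection Q v * x ∈ C ∧ x * Forms.reflection Q v ∈ C) := by
      intro x hx
      induction hx using Subgroup.closure_induction with
      | mem r hr =>
        obtain ⟨v, hv, rfl⟩ := hr
        exact Or.inr ⟨hdet v hv, fun w hw => ⟨hpair w v hw hv, hpair v w hv hw⟩⟩
      | one => exact Or.inl ⟨C.one_mem, map_one _⟩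
      | mul x y _ _ hx hy =>
        rcases hx with ⟨hx, dx⟩ | ⟨dx, hx⟩ <;> rcases hy with ⟨hy, dy⟩ | ⟨dy, hy⟩
        · exact Or.inl ⟨C.mul_mem hx hy, by rw [map_mul, dx, dy, one_mul]⟩
        · refine Or.inr ⟨by rw [map_mul, dx, dy, one_mul], fun v hv => ⟨?_, ?_⟩⟩
          · have h1 : Forms.reflection Q v * x * Forms.reflection Q v ∈ C := by
              have : ∀ z ∈ C, Forms.reflection Q v * z * Forms.reflection Q v ∈ C := by
                have hle : C ≤ C.comap (MulAut.conj (Forms.reflection Q v)).toMonoidHom := by
                  rw [hC, Subgroup.map_le_iff_le_comap, Subgroup.closure_le]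
                  rintro s ⟨a, b, ha, hb, hs⟩
                  have hes : e s = Forms.reflection Q a * Forms.reflection Q b := by
                    refine Forms.orth_ext fun z => ?_
                    rw [Forms.isometryEquiv_apply, hs, ← Matrix.mulVec_mulVec,
                      Forms.reflectionMatrix_mulVec, Forms.reflectionMatrix_mulVec,
                      Forms.orth_mul_apply, Forms.reflection_apply, Forms.reflection_apply]
                  simp only [SetLike.mem_coe, Subgroup.mem_comap]
                  rw [← hC]
                  change Forms.reflection Q v * e s * (Forms.reflection Q v)⁻¹ ∈ C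
                  rw [hes, Forms.reflection_inv]
                  have h3 := C.mul_mem (hpair v a hv ha) (hpair b v hb hv)
                  rwa [mul_assoc, mul_assoc, ← mul_assoc] at *
                intro z hz
                have := hle hz
                rw [Subgroup.mem_comap] at this
                change Forms.reflection Q v * z * (Forms.reflection Q v)⁻¹ ∈ C at this
                rwa [Forms.reflection_inv] at this
              exact this x hx
            have h3 := C.mul_mem h1 (hy v hv).1
            have : Forms.reflection Q v * (x * y) =
                Forms.reflection Q v * x * Forms.reflection Q v * (Forms.reflection Q v * y) := by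
              rw [mul_assoc (Forms.reflection Q v * x), ← mul_assoc (Forms.reflection Q v) (Forms.reflection Q v) y,
                Forms.reflection_mul_self, one_mul, mul_assoc]
            rwa [this]
          · rw [mul_assoc]; exact C.mul_mem hx (hy v hv).2
        · refine Or.inr ⟨by rw [map_mul, dx, dy, mul_one], fun v hv => ⟨?_, ?_⟩⟩
          · rw [← mul_assoc]; exact C.mul_mem (hx v hv).1 hy
          · have h1 : Forms.reflection Q v * y * Forms.reflection Q v ∈ C := by
              have hle : C ≤ C.comap (MulAut.conj (Forms.reflection Q v)).toMonoidHom := by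
                rw [hC, Subgroup.map_le_iff_le_comap, Subgroup.closure_le]
                rintro s ⟨a, b, ha, hb, hs⟩
                have hes : e s = Forms.reflection Q a * Forms.reflection Q b := by
                  refine Forms.orth_ext fun z => ?_
                  rw [Forms.isometryEquiv_apply, hs, ← Matrix.mulVec_mulVec,
                    Forms.reflectionMatrix_mulVec, Forms.reflectionMatrix_mulVec,
                    Forms.orth_mul_apply, Forms.reflection_apply, Forms.reflection_apply]
                simp only [SetLike.mem_coe, Subgroup.mem_comap]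
                rw [← hC]
                change Forms.reflection Q v * e s * (Forms.reflection Q v)⁻¹ ∈ C
                rw [hes, Forms.reflection_inv]
                have h3 := C.mul_mem (hpair v a hv ha) (hpair b v hb hv)
                rwa [mul_assoc, mul_assoc, ← mul_assoc] at *
              have := hle hy
              rw [Subgroup.mem_comap] at this
              change Forms.reflection Q v * y * (Forms.reflection Q v)⁻¹ ∈ C at this
              rwa [Forms.reflection_inv] at this
            have h3 := C.mul_mem (hx v hv).2 h1
            have : x * y * Forms.reflection Q v =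
                x * Forms.reflection Q v * (Forms.reflection Q v * y * Forms.reflection Q v) := by
              rw [mul_assoc x (Forms.reflection Q v), ← mul_assoc (Forms.reflection Q v),
                ← mul_assoc (Forms.reflection Q v) (Forms.reflection Q v), Forms.reflection_mul_self,
                one_mul, mul_assoc]
            rwa [this]
        · refine Or.inl ⟨?_, by rw [map_mul, dx, dy]; simp⟩
          by_cases hne : ∃ v, Q v ≠ 0
          · obtain ⟨v, hv⟩ := hne
            have h3 := C.mul_mem (hx v hv).2 (hy v hv).1
            have : x * y = x * Forms.reflection Q v * (Forms.reflection Q v * y) := by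
              rw [mul_assoc, ← mul_assoc (Forms.reflection Q v), Forms.reflection_mul_self, one_mul]
            rwa [this]
          · push Not at hne
            have : Subsingleton (Fin n → F) := by
              refine ⟨fun a b => ?_⟩
              have h0 : ∀ z : Fin n → F, z = 0 := fun z => hQ.1 z fun w => by
                simp [QuadraticMap.polar, hne]
              rw [h0 a, h0 b]
            have h4 : x * y = 1 := Forms.orth_ext fun z => Subsingleton.elim _ _
            rw [h4]; exact C.one_mem
      | inv x _ hx =>
        rcases hx with ⟨hx, dx⟩ | ⟨dx, hx⟩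
        · exact Or.inl ⟨C.inv_mem hx, by rw [map_inv, dx, inv_one]⟩
        · refine Or.inr ⟨by rw [map_inv, dx]; simp, fun v hv => ⟨?_, ?_⟩⟩
          · have := C.inv_mem (hx v hv).2
            rwa [mul_inv_rev, Forms.reflection_inv] at this
          · have := C.inv_mem (hx v hv).1
            rwa [mul_inv_rev, Forms.reflection_inv] at this
    rcases key (e g) (hgen ▸ Subgroup.mem_top _) with h | h
    · exact h.1
    · exfalso
      rw [h.1, Units.ext_iff, Units.val_neg, Units.val_one] at hg
      exact h2 (by linear_combination -hg)
  · rw [Subgroup.closure_le]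
    rintro s ⟨a, b, ha, hb, hs⟩
    rw [SetLike.mem_coe, Forms.mem_specialIsometryGroup_iff, Units.ext_iff, Forms.det_isometryEquiv, hs,
      Matrix.det_mul]
    have hd : ∀ w, Q w ≠ 0 → (Cfsg.reflectionMatrix ⇑Q w).det = -1 := fun w hw => by
      rw [← (Forms.eq_reflection_iff Q _ w).2 (e.apply_symm_apply (Forms.reflection Q w)),
        ← Forms.det_isometryEquiv, MulEquiv.apply_symm_apply, Forms.orthDet_reflection Q hw]
    rw [hd a ha, hd b hb]
    simp

end Cfsg.Agent.S0792
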