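import Cfsg.Statements.S0793
import Cfsg.Agent.Forms.OrthBridge

set_option autoImplicit false
open Cfsg

namespace Cfsg.Agent.S0793

/-- Root elements: if Q(u) = Q(v) = 0 and f(u, v) = 0 (f the polar form), then for every c the Siegel matrix T_(u,v)(c) preserves Q, fixes u and v, and T(c) T(d) = T(c + d). -/
theorem result {F : Type*} [Field F] {n : ℕ} (Q : QuadraticForm F (Fin n → F)) (u v : Fin n → F) (hu : Q u = 0) (hv : Q v = 0) (huv : QuadraticMap.polar ⇑Q u v = 0) : (∀ c x, Q ((Cfsg.siegelMatrix ⇑Q u v c).mulVec x) = Q x) ∧ (∀ c, (Cfsg.siegelMatrix ⇑Q u v c).mulVec u = u ∧ (Cfsg.siegelMatrix ⇑Q u v c).mulVec v = v) ∧ ∀ c d, Cfsg.siegelMatrix ⇑Q u v c * Cfsg.siegelMatrix ⇑Q u v d = Cfsg.siegelMatrix ⇑Q u v (c + d) := by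
  have hp : ∀ x y, QuadraticMap.polar ⇑Q x y = QuadraticMap.polar ⇑Q y x := fun x y =>
    QuadraticMap.polar_comm _ x y
  have huu : QuadraticMap.polar ⇑Q u u = 0 := by rw [Forms.polar_self_two_mul, hu, mul_zero]
  have hvv : QuadraticMap.polar ⇑Q v v = 0 := by rw [Forms.polar_self_two_mul, hv, mul_zero]
  refine ⟨fun c x => ?_, fun c => ⟨?_, ?_⟩, fun c d => ?_⟩
  · rw [Forms.siegelMatrix_mulVec, sub_eq_add_neg, ← neg_smul, smul_add, smul_smul, smul_smul,
      QuadraticMap.map_add Q x, Forms.map_smul_add_smul, QuadraticMap.polar_add_right,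
      QuadraticMap.polar_smul_right, QuadraticMap.polar_smul_right, hu, hv, hp v u, huv, hp x v, hp x u]
    simp only [smul_eq_mul]
    ring
  · rw [Forms.siegelMatrix_mulVec, huu, hp v u, huv]; simp
  · rw [Forms.siegelMatrix_mulVec, huv, hvv]; simp
  · refine Forms.matrix_ext_mulVec fun x => ?_
    rw [← Matrix.mulVec_mulVec, Forms.siegelMatrix_mulVec, Forms.siegelMatrix_mulVec,
      Forms.siegelMatrix_mulVec]
    have e1 : QuadraticMap.polar ⇑Q u (x + d • (QuadraticMap.polar ⇑Q u x • v - QuadraticMap.polar ⇑Q v x • u)) =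
        QuadraticMap.polar ⇑Q u x := by
      simp [QuadraticMap.polar_add_right, QuadraticMap.polar_sub_right, QuadraticMap.polar_smul_right, huv, huu]
    have e2 : QuadraticMap.polar ⇑Q v (x + d • (QuadraticMap.polar ⇑Q u x • v - QuadraticMap.polar ⇑Q v x • u)) =
        QuadraticMap.polar ⇑Q v x := by
      simp [QuadraticMap.polar_add_right, QuadraticMap.polar_sub_right, QuadraticMap.polar_smul_right, hp v u, huv, hvv]
    rw [e1, e2, add_smul]
    abel

end Cfsg.Agent.S0793
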