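import Cfsg.Statements.S0794
import Cfsg.Agent.Forms.Siegel

set_option autoImplicit false
open Cfsg

namespace Cfsg.Agent.S0794

/-- For q odd, n ≥ 5 and Q with non-degenerate polar form: an isometry whose matrix is a Siegel transformation T_(u,v)(c) (u, v singular and orthogonal) is a commutator in the isometry group, so lies in Ω. -/
theorem result {F : Type*} [Field F] [Fintype F] (h2 : (2 : F) ≠ 0) {n : ℕ} (hn : 5 ≤ n) (Q : QuadraticForm F (Fin n → F)) (hQ : (QuadraticMap.polarBilin Q).Nondegenerate) (u v : Fin n → F) (hu : Q u = 0) (hv : Q v = 0) (huv : QuadraticMap.polar ⇑Q u v = 0) (c : F) (g : ↥(Cfsg.isometryGroup F ⇑Q)) (hg : ((g : Matrix.GeneralLinearGroup (Fin n) F) : Matrix (Fin n) (Fin n) F) = Cfsg.siegelMatrix ⇑Q u v c) : g ∈ commutatorSet ↥(Cfsg.isometryGroup F ⇑Q) ∧ g ∈ Cfsg.Omega F ⇑Q := by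
  have hcv : Q (c • v) = 0 := by rw [QuadraticMap.map_smul, hv, smul_zero]
  have hg' := (Forms.eq_siegel_iff g c hu hv huv).1 hg
  have hmem := Forms.eichler_mem_commutatorSet (Q := Q) h2 hQ hu hcv
    (by rw [QuadraticMap.polar_smul_right, huv, smul_zero])
  rw [← hg'] at hmem
  refine ⟨?_, ?_⟩
  · obtain ⟨a, b, hab⟩ := hmem
    refine ⟨(Forms.isometryEquiv Q).symm a, (Forms.isometryEquiv Q).symm b, ?_⟩
    rw [← map_commutatorElement, hab, MulEquiv.symm_apply_apply]
  · rw [Forms.mem_omega_iff, commutator_eq_closure]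
    exact Subgroup.subset_closure hmem

end Cfsg.Agent.S0794
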