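import Cfsg.Statements.S0795
import Cfsg.Agent.Forms.Siegel

set_option autoImplicit false
open Cfsg

namespace Cfsg.Agent.S0795

/-- Generation of Ω by root elements: for q odd, n ≥ 5 and Q with non-degenerate polar form on F^n, the commutator subgroup of the isometry group equals the subgroup generated by the isometries whose matrices are Siegel transformations T_(u,v)(c) with u, v singular and orthogonal. -/
theorem result {F : Type*} [Field F] [Fintype F] (h2 : (2 : F) ≠ 0) {n : ℕ} (hn : 5 ≤ n) (Q : QuadraticForm F (Fin n → F)) (hQ : (QuadraticMap.polarBilin Q).Nondegenerate) : Cfsg.Omega F ⇑Q = Subgroup.closure {g : ↥(Cfsg.isometryGroup F ⇑Q) | ∃ (u v : Fin n → F) (c : F), Q u = 0 ∧ Q v = 0 ∧ QuadraticMap.polar ⇑Q u v = 0 ∧ ((g : Matrix.GeneralLinearGroup (Fin n) F) : Matrix (Fin n) (Fin n) F) = Cfsg.siegelMatrix ⇑Q u v c} := by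
  have hn' : 5 ≤ Module.finrank F (Fin n → F) := by rw [Module.finrank_fin_fun]; exact hn
  have h1 := Forms.commutator_eq_siegelGroup (Q := Q) h2 hQ hn'
  ext g
  rw [Forms.mem_omega_iff, h1]
  rw [show g ∈ Subgroup.closure _ ↔ Forms.isometryEquiv Q g ∈
    (Subgroup.closure _).map (Forms.isometryEquiv Q).toMonoidHom from
    (Subgroup.mem_map_iff_mem (Forms.isometryEquiv Q).injective).symm, MonoidHom.map_closure]
  congr! 2
  ext y
  constructor
  · rintro ⟨u, v, hu, huv, hv, rfl⟩
    refine ⟨(Forms.isometryEquiv Q).symm _, ⟨u, v, 1, hu, hv, huv, ?_⟩,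
      (Forms.isometryEquiv Q).apply_symm_apply _⟩
    rw [Forms.eq_siegel_iff _ _ hu hv huv, MulEquiv.apply_symm_apply]
    refine Forms.orth_ext fun y => ?_
    rw [Forms.eichler_apply, Forms.eichler_apply, one_smul]
  · rintro ⟨g, ⟨u, v, c, hu, hv, huv, hg⟩, rfl⟩
    exact ⟨u, c • v, hu, by rw [QuadraticMap.polar_smul_right, huv, smul_zero],
      by rw [QuadraticMap.map_smul, hv, smul_zero], (Forms.eq_siegel_iff g c hu hv huv).1 hg⟩

end Cfsg.Agent.S0795
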