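import Cfsg.Statements.S0796
-- (no helpers)

set_option autoImplicit false
open Cfsg

namespace Cfsg.Agent.S0796

/-- If G is finite and acts faithfully and primitively on X, H is the stabiliser of a point, A is a normal subgroup of H whose normal closure in G is G, then for every non-trivial normal subgroup K of G the quotient G ⧸ K is isomorphic to A ⧸ B for some normal subgroup B of A. -/
theorem result {G X : Type*} [Group G] [Finite G] [MulAction G X] [FaithfulSMul G X] (hprim : MulAction.IsPreprimitive G X) (x : X) (A : Subgroup G) (hA : A ≤ MulAction.stabilizer G x) (hAn : (A.subgroupOf (MulAction.stabilizer G x)).Normal) (hgen : Subgroup.normalClosure (A : Set G) = ⊤) (K : Subgroup G) [K.Normal] (hK : K ≠ ⊥) : ∃ (B : Subgroup A) (_ : B.Normal), Nonempty (G ⧸ K ≃* A ⧸ B) := by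
  have : MulAction.IsPretransitive G X := hprim.toIsPretransitive
  obtain ⟨k, hk, hne⟩ : ∃ k ∈ K, k ≠ (1 : G) := by
    by_contra h
    push Not at h
    exact hK ((Subgroup.eq_bot_iff_forall K).2 h)
  obtain ⟨y, hy⟩ : ∃ y : X, k • y ≠ y := by
    by_contra h
    push Not at h
    exact hne (FaithfulSMul.eq_of_smul_eq_smul (fun y : X => (h y).trans (one_smul G y).symm))
  have hfix : MulAction.fixedPoints K X ≠ Set.univ := by
    intro h
    exact hy ((Set.eq_univ_iff_forall.1 h y : y ∈ MulAction.fixedPoints K X) ⟨k, hk⟩)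
  have htrans : MulAction.IsPretransitive K X :=
    MulAction.IsQuasiPreprimitive.isPretransitive_of_normal hfix
  -- `K A` is normalised by `K` and by the stabiliser, hence is normal
  have hKH : ∀ g : G, ∃ k ∈ K, ∃ h ∈ MulAction.stabilizer G x, g = k * h := by
    intro g
    obtain ⟨⟨k, hk⟩, hkx⟩ := MulAction.exists_smul_eq K x (g • x)
    refine ⟨k, hk, k⁻¹ * g, ?_, by group⟩
    have hkx' : k • x = g • x := hkx
    rw [MulAction.mem_stabilizer_iff, mul_smul, ← hkx', inv_smul_smul]
  have hnorm : (K ⊔ A).Normal := by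
    refine ⟨fun n hn g => ?_⟩
    obtain ⟨k, hk, h, hh, rfl⟩ := hKH g
    have hconj : h * n * h⁻¹ ∈ K ⊔ A := by
      have hle : K ⊔ A ≤ (K ⊔ A).comap (MulAut.conj h).toMonoidHom := by
        refine sup_le (fun a ha => ?_) (fun a ha => ?_)
        · exact Subgroup.mem_sup_left (‹K.Normal›.conj_mem a ha h)
        · refine Subgroup.mem_sup_right ?_
          exact Subgroup.mem_subgroupOf.1 (hAn.conj_mem ⟨a, hA ha⟩ (Subgroup.mem_subgroupOf.2 ha) ⟨h, hh⟩)
      exact hle hn
    have : k * h * n * (k * h)⁻¹ = k * (h * n * h⁻¹) * k⁻¹ := by group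
    rw [this]
    exact mul_mem (mul_mem (Subgroup.mem_sup_left hk) hconj) (inv_mem (Subgroup.mem_sup_left hk))
  have htop : K ⊔ A = ⊤ := by
    rw [eq_top_iff, ← hgen]
    exact Subgroup.normalClosure_le_normal (fun a ha => Subgroup.mem_sup_right ha)
  let f : A →* G ⧸ K := (QuotientGroup.mk' K).comp A.subtype
  have hf : Function.Surjective f := by
    intro z
    obtain ⟨g, rfl⟩ := QuotientGroup.mk'_surjective K z
    obtain ⟨k, hk, a, ha, rfl⟩ := Subgroup.mem_sup_of_normal_left.1 (htop ▸ Subgroup.mem_top g)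
    refine ⟨⟨a, ha⟩, ?_⟩
    change ((a : G) : G ⧸ K) = ((k * a : G) : G ⧸ K)
    rw [QuotientGroup.mk_mul, (QuotientGroup.eq_one_iff k).2 hk, one_mul]
  exact ⟨f.ker, inferInstance, ⟨(QuotientGroup.quotientKerEquivOfSurjective f hf).symm⟩⟩

end Cfsg.Agent.S0796
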