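import Cfsg.Statements.S0797
import Cfsg.Agent.Forms.OrthFacts

set_option autoImplicit false
open Cfsg

namespace Cfsg.Agent.S0797

/-- O^ε_2m(q) ≅ Ω.2² for q odd: if F is finite of odd characteristic, n ≥ 2 is even and Q has non-degenerate polar form on F^n, the isometry group of Q has exactly three subgroups of index 2. -/
theorem result {F : Type*} [Field F] [Fintype F] (h2 : (2 : F) ≠ 0) {n : ℕ} (hn : 2 ≤ n) (heven : Even n) (Q : QuadraticForm F (Fin n → F)) (hQ : (QuadraticMap.polarBilin Q).Nondegenerate) : Nat.card {H : Subgroup ↥(Cfsg.isometryGroup F ⇑Q) // H.index = 2} = 3 := by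
  classical
  have hfr : Module.finrank F (Fin n → F) = n := Module.finrank_fin_fun F
  set e := Forms.isometryEquiv Q
  obtain ⟨u, w, hu, hw, hus, hws⟩ := Forms.exists_reflection_pair h2 hQ (by omega)
  set G := Forms.orthGroup Q
  set ru := Forms.reflection Q u
  set rw' := Forms.reflection Q w
  let θ : G →* ℤˣ := Forms.levelSign Q 1
  let ν : G →* ℤˣ := Forms.spinor Q h2
  have θu : θ ru = -1 := (Forms.levelSign_reflection h2 Q hQ hu one_ne_zero).1 (by simpa using hus.inv)
  have θw : θ rw' = 1 := (Forms.levelSign_reflection h2 Q hQ hw one_ne_zero).2 (fun h => hws (by simpa using h.inv))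
  have νu : ν ru = 1 := (Forms.spinor_reflection h2 hQ hu).1 hus
  have νw : ν rw' = -1 := (Forms.spinor_reflection h2 hQ hw).2 hws
  have hne : (-1 : ℤˣ) ≠ 1 := by decide
  have hidx : ∀ χ : G →* ℤˣ, (∃ g, χ g = -1) → χ.ker.index = 2 := by
    rintro χ ⟨g, hg⟩
    have hs : Function.Surjective χ := fun x => by
      rcases Int.units_eq_one_or x with rfl | rfl
      · exact ⟨1, map_one χ⟩
      · exact ⟨g, hg⟩
    rw [Subgroup.index_ker, MonoidHom.range_eq_top.2 hs, Subgroup.card_top, Nat.card_eq_fintype_card]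
    rfl
  -- an index two subgroup is determined by the two reflections
  have hdet : ∀ H : Subgroup G, H.index = 2 → ∀ g, g ∈ H ↔
      ((Abelianization.of g = 1) ∨ (Abelianization.of g = Abelianization.of ru ∧ ru ∈ H) ∨
      (Abelianization.of g = Abelianization.of rw' ∧ rw' ∈ H) ∨
      (Abelianization.of g = Abelianization.of ru * Abelianization.of rw' ∧ (ru ∈ H ↔ rw' ∈ H))) := by
    intro H hH g
    have hcomm : commutator G ≤ H := by
      refine (Forms.commutator_le_closure_squares (Forms.closure_reflectionSet_odd h2 Q hQ)).trans ?_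
      rw [Subgroup.closure_le]
      rintro _ ⟨x, -, rfl⟩
      exact Subgroup.mul_self_mem_of_index_two hH x
    have hcls : ∀ y, Abelianization.of g = Abelianization.of y → (g ∈ H ↔ y ∈ H) := by
      intro y hy
      have h1 : y⁻¹ * g ∈ H := hcomm (by
        rw [← Abelianization.ker_of, MonoidHom.mem_ker, map_mul, map_inv, hy, inv_mul_cancel])
      exact ⟨fun hg => by simpa using H.mul_mem hg (H.inv_mem h1), fun hy' => by simpa using H.mul_mem hy' h1⟩
    constructor
    · intro hg
      rcases Forms.abelianization_cases h2 hQ hu hw hus hws g with h | h | h | h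
      · exact Or.inl h
      · exact Or.inr (Or.inl ⟨h, (hcls _ h).1 hg⟩)
      · exact Or.inr (Or.inr (Or.inl ⟨h, (hcls _ h).1 hg⟩))
      · refine Or.inr (Or.inr (Or.inr ⟨h, ?_⟩))
        rw [← map_mul] at h
        exact (Subgroup.mul_mem_iff_of_index_two hH).1 ((hcls _ h).1 hg)
    · rintro (h | ⟨h, h'⟩ | ⟨h, h'⟩ | ⟨h, h'⟩)
      · exact (hcls 1 (h.trans (map_one _).symm)).2 H.one_mem
      · exact (hcls _ h).2 h'
      · exact (hcls _ h).2 h'
      · rw [← map_mul] at h
        exact (hcls _ h).2 ((Subgroup.mul_mem_iff_of_index_two hH).2 h')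
  have hnot : ∀ H : Subgroup G, H.index = 2 → ¬ (ru ∈ H ∧ rw' ∈ H) := by
    intro H hH hb
    have htop : H = ⊤ := by
      rw [eq_top_iff]
      intro g _
      rw [hdet H hH]
      rcases Forms.abelianization_cases h2 hQ hu hw hus hws g with h | h | h | h
      · exact Or.inl h
      · exact Or.inr (Or.inl ⟨h, hb.1⟩)
      · exact Or.inr (Or.inr (Or.inl ⟨h, hb.2⟩))
      · exact Or.inr (Or.inr (Or.inr ⟨h, iff_of_true hb.1 hb.2⟩))
    simp [htop] at hH
  -- transport to the matrix group
  have hcongr : Nat.card {H : Subgroup ↥(Cfsg.isometryGroup F ⇑Q) // H.index = 2} =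
      Nat.card {H : Subgroup G // H.index = 2} :=
    Nat.card_congr (e.mapSubgroup.toEquiv.subtypeEquiv fun H => by
      change H.index = 2 ↔ (H.map (e : _ →* G)).index = 2
      rw [Subgroup.index_map_of_bijective e.bijective])
  rw [hcongr]
  let Ψ : {H : Subgroup G // H.index = 2} → {p : Bool × Bool // p ≠ (true, true)} := fun H =>
    ⟨(decide (ru ∈ H.1), decide (rw' ∈ H.1)), fun h => by
      simp only [Prod.mk.injEq, decide_eq_true_eq] at h
      exact hnot H.1 H.2 h⟩
  have hΨ : Function.Bijective Ψ := by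
    constructor
    · rintro ⟨H, hH⟩ ⟨K, hK⟩ hHK
      simp only [Ψ, Subtype.mk.injEq, Prod.mk.injEq, decide_eq_decide] at hHK
      refine Subtype.ext (Subgroup.ext fun g => ?_)
      change g ∈ H ↔ g ∈ K
      rw [hdet H hH g, hdet K hK g, hHK.1, hHK.2]
    · rintro ⟨⟨x, y⟩, hxy⟩
      rcases x with _ | _ <;> rcases y with _ | _
      · refine ⟨⟨(θ * ν).ker, hidx _ ⟨ru, by simp [θu, νu]⟩⟩, ?_⟩
        simp [Ψ, MonoidHom.mem_ker, θu, νu, θw, νw, hne]
      · refine ⟨⟨θ.ker, hidx _ ⟨ru, θu⟩⟩, ?_⟩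
        simp [Ψ, MonoidHom.mem_ker, θu, θw, hne]
      · refine ⟨⟨ν.ker, hidx _ ⟨rw', νw⟩⟩, ?_⟩
        simp [Ψ, MonoidHom.mem_ker, νu, νw, hne]
      · exact absurd rfl hxy
  rw [Nat.card_congr (Equiv.ofBijective Ψ hΨ), Nat.card_eq_fintype_card]
  rfl

end Cfsg.Agent.S0797
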