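import Cfsg.Statements.S0798
import Cfsg.Agent.Forms.ReflectClass
import Cfsg.Agent.Forms.OrthCard

set_option autoImplicit false
open Cfsg

namespace Cfsg.Agent.S0798

/-- For q odd, n ≥ 2 even, Q with non-degenerate polar form (n, |F|) ≠ (4, 3), and a fixed c ≠ 0: the subgroup of the isometry group generated by the reflections r_v with Q(v) ∈ c·(F^×)² has index 2. -/
theorem result {F : Type*} [Field F] [Fintype F] (h2 : (2 : F) ≠ 0) {n : ℕ} (hn : 2 ≤ n) (heven : Even n) (Q : QuadraticForm F (Fin n → F)) (hQ : (QuadraticMap.polarBilin Q).Nondegenerate) (h43 : ¬ (n = 4 ∧ Fintype.card F = 3)) (c : F) (hc : c ≠ 0) : (Subgroup.closure {g : ↥(Cfsg.isometryGroup F ⇑Q) | ∃ (v : Fin n → F) (t : F), t ≠ 0 ∧ Q v = c * t ^ 2 ∧ ((g : Matrix.GeneralLinearGroup (Fin n) F) : Matrix (Fin n) (Fin n) F) = Cfsg.reflectionMatrix ⇑Q v}).index = 2 := by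
  have hfr : Module.finrank F (Fin n → F) = n := Module.finrank_fin_fun F
  have hbig : Module.finrank F (Fin n → F) = 2 ∨ 5 ≤ Fintype.card F ∨
      6 ≤ Module.finrank F (Fin n → F) := by
    rw [hfr]
    obtain ⟨p, hp⟩ := CharP.exists F
    obtain ⟨k, hpp, hk⟩ := FiniteField.card F p
    have hq3 : Fintype.card F % 2 = 1 := by
      rcases Nat.mod_two_eq_zero_or_one (Fintype.card F) with h | h
      · exact absurd (Forms.card_field_parity.2 h) h2
      · exact h
    have h1 := Fintype.one_lt_card (α := F)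
    obtain ⟨j, hj⟩ := heven
    by_contra hcon
    push Not at hcon
    exact h43 ⟨by omega, by omega⟩
  have h := Forms.reflectClass_index h2 hQ hc (by omega) hbig
  rw [← Subgroup.index_comap_of_surjective _ (f := (Forms.isometryEquiv Q).toMonoidHom)
    (Forms.isometryEquiv Q).surjective] at h
  refine Eq.trans (congrArg Subgroup.index ?_) h
  rw [show (Subgroup.closure (Forms.reflectClass Q c)).comap (Forms.isometryEquiv Q).toMonoidHom =
    (Subgroup.closure (Forms.reflectClass Q c)).map (Forms.isometryEquiv Q).symm.toMonoidHom from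
    (Subgroup.map_equiv_eq_comap_symm (Forms.isometryEquiv Q).symm _).symm, MonoidHom.map_closure]
  congr 1
  ext g
  simp only [Set.mem_setOf_eq, Forms.reflectClass, Forms.eq_reflection_iff]
  constructor
  · rintro ⟨v, t, ht, hv, h⟩
    exact ⟨_, ⟨v, t, ht, hv, rfl⟩, by rw [← h]; exact (Forms.isometryEquiv Q).symm_apply_apply g⟩
  · rintro ⟨_, ⟨v, t, ht, hv, rfl⟩, rfl⟩
    exact ⟨v, t, ht, hv, (Forms.isometryEquiv Q).apply_symm_apply _⟩

end Cfsg.Agent.S0798
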