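import Cfsg.Statements.S0799
import Cfsg.Agent.Linear.PSL2DicksonApps
-- import your own Cfsg.Agent.* helpers here

set_option autoImplicit false
open Cfsg

namespace Cfsg.Agent.S0799

/-- Dickson's classification of the subgroups of PSL_2(q), q a power of the prime p, d = gcd(2, q − 1): every subgroup H is (a) cyclic or dihedral with k dividing (q+1)/d or (q−1)/d (cyclic of order k, or dihedral of order 2k), (b) isomorphic to a subgroup of the normaliser of a Sylow p-subgroup, (c) isomorphic to A_4, S_4 or A_5, or (d) isomorphic to PSL_2(K) or PGL_2(K) for a finite field K with |K|^m = q. -/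
theorem result {F : Type*} [Field F] [Fintype F] {q : ℕ} (hF : Fintype.card F = q) (p : ℕ) [Fact p.Prime] [CharP F p] (H : Subgroup (Matrix.ProjectiveSpecialLinearGroup (Fin 2) F)) : (∃ k : ℕ, (k ∣ (q + 1) / Nat.gcd 2 (q - 1) ∨ k ∣ (q - 1) / Nat.gcd 2 (q - 1)) ∧ ((IsCyclic H ∧ Nat.card H = k) ∨ Nonempty (H ≃* DihedralGroup k))) ∨ (∃ (P : Sylow p (Matrix.ProjectiveSpecialLinearGroup (Fin 2) F)) (K : Subgroup (Matrix.ProjectiveSpecialLinearGroup (Fin 2) F)), K ≤ Subgroup.normalizer ((P : Subgroup (Matrix.ProjectiveSpecialLinearGroup (Fin 2) F)) : Set (Matrix.ProjectiveSpecialLinearGroup (Fin 2) F)) ∧ Nonempty (H ≃* K)) ∨ Nonempty (H ≃* alternatingGroup (Fin 4)) ∨ Nonempty (H ≃* Equiv.Perm (Fin 4)) ∨ Nonempty (H ≃* alternatingGroup (Fin 5)) ∨ (∃ (K : Type) (_ : Field K) (_ : Fintype K) (m : ℕ), Fintype.card K ^ m = q ∧ (Nonempty (H ≃* Matrix.ProjectiveSpecialLinearGroup (Fin 2) K) ∨ Nonempty (H ≃* Matrix.ProjGenLinGroup (Fin 2) K)))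 := by
  classical
  subst hF
  rcases Cfsg.Agent.Linear.PSL2Dickson.dickson p H with ⟨k, hk, hc⟩ | ⟨g, hg⟩ | h | ⟨j, ι, h⟩
  · exact Or.inl ⟨k, hk, hc.imp id fun h => h.2.2⟩
  · exact Or.inr (Or.inl ⟨Cfsg.Agent.Linear.PSL2Borel.sylowUP p, _,
      hg.trans Cfsg.Agent.Linear.PSL2Borel.borelP_le_normalizer,
      ⟨(MulAut.conj g).subgroupMap H⟩⟩)
  · rcases h with h | h | h
    · exact Or.inr (Or.inr (Or.inl h))
    · exact Or.inr (Or.inr (Or.inr (Or.inl h)))
    · exact Or.inr (Or.inr (Or.inr (Or.inr (Or.inl h))))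
  · haveI := Fintype.ofFinite (GaloisField p j)
    obtain ⟨m, -, hm, -⟩ := Cfsg.Agent.Linear.PSL2Dickson.exists_degree ι
    exact Or.inr (Or.inr (Or.inr (Or.inr (Or.inr
      ⟨GaloisField p j, inferInstance, inferInstance, m, hm, h.imp id And.left⟩))))

end Cfsg.Agent.S0799
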