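import Cfsg.Statements.S0800
import Mathlib.FieldTheory.Finite.Basic
import Mathlib.LinearAlgebra.Matrix.SpecialLinearGroup

set_option autoImplicit false
open Cfsg

namespace Cfsg.Agent.S0800

theorem ch {F : Type*} [CommRing F] (X : Matrix (Fin 2) (Fin 2) F) (hX : X.det = 1) :
    X * X - X.trace • X + 1 = 0 := by
  ext i j
  rw [Matrix.det_fin_two] at hX
  fin_cases i <;> fin_cases j <;>
    simp [Matrix.mul_apply, Fin.sum_univ_two, Matrix.trace_fin_two] <;>
    first | linear_combination -hX | ring1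


/-- Tori of SL_2(q): if g ∈ SL_2(q) has order coprime to the characteristic p, then the order of g divides q − 1 or q + 1. -/
theorem result {F : Type*} [Field F] [Fintype F] {q : ℕ} (hF : Fintype.card F = q) (p : ℕ) [Fact p.Prime] [CharP F p] (g : Matrix.SpecialLinearGroup (Fin 2) F) (hg : Nat.Coprime (orderOf g) p) : orderOf g ∣ q - 1 ∨ orderOf g ∣ q + 1 := by
  classical
  set M : Matrix (Fin 2) (Fin 2) F := (g : Matrix (Fin 2) (Fin 2) F) with hM
  have hdet : M.det = 1 := g.2
  obtain ⟨n, hpp, hn⟩ := FiniteField.card F p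
  have hq : q = p ^ (n : ℕ) := by rw [← hF, hn]
  have hq1 : 1 ≤ q := hF ▸ Fintype.card_pos
  set t := M.trace
  have hCH : M * M - t • M + 1 = 0 := ch M hdet
  have hFr : M ^ q * M ^ q - t • M ^ q + 1 = 0 := by
    have := Fact.mk hpp
    have : CharP (Matrix (Fin 2) (Fin 2) F) p := Matrix.charP p
    have h : (M * M - t • M + 1) ^ q = 0 := by rw [hCH, zero_pow (by omega)]
    rw [hq, add_pow_char_pow_of_commute p (n : ℕ) (Commute.one_right _),
      sub_pow_char_pow_of_commute p (n : ℕ)
        ((((Commute.refl M).mul_left (Commute.refl M))).smul_right t), one_pow, smul_pow,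
      (Commute.refl M).mul_pow, ← hq, ← hF, FiniteField.pow_card, hF] at h
    exact h
  have h1 : (M ^ q - M) * (M ^ q + M - t • 1) = 0 := by
    have e : (M ^ q - M) * (M ^ q + M - t • 1) =
        (M ^ q * M ^ q - t • M ^ q + 1) - (M * M - t • M + 1) := by
      simp only [sub_mul, mul_sub, mul_add, mul_smul_comm, mul_one, smul_sub,
        show M * M ^ q = M ^ q * M from ((Commute.refl M).pow_right q).eq]
      abel
    rw [e, hFr, hCH, sub_zero]
  have h2 : (M ^ (q - 1) - 1) * (M ^ (q + 1) - 1) = 0 := by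
    have e1 : M * (M ^ (q - 1) - 1) = M ^ q - M := by
      rw [mul_sub, mul_one, ← pow_succ', Nat.sub_add_cancel hq1]
    have e2 : M * (M ^ q + M - t • 1) = M ^ (q + 1) - 1 := by
      rw [mul_sub, mul_add, mul_smul_comm, mul_one, ← pow_succ',
        eq_neg_of_add_eq_zero_left (show (1 : Matrix (Fin 2) (Fin 2) F) + (M * M - t • M) = 0 by
          rw [add_comm]; exact hCH)]
      abel
    have hu : IsUnit M := (Matrix.isUnit_iff_isUnit_det _).2 (by rw [hdet]; exact isUnit_one)
    refine hu.mul_left_cancel ?_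
    rw [mul_zero, ← mul_assoc, e1, ← e2, ← mul_assoc,
      show (M ^ q - M) * M = M * (M ^ q - M) from
        (((Commute.refl M).pow_left q).sub_left (Commute.refl M)).eq,
      mul_assoc, h1, mul_zero]
  set A := g ^ (q - 1) with hA
  set B := g ^ (q + 1) with hB
  have hA' : (A : Matrix (Fin 2) (Fin 2) F) = M ^ (q - 1) := by
    rw [hA, Matrix.SpecialLinearGroup.coe_pow]
  have hB' : (B : Matrix (Fin 2) (Fin 2) F) = M ^ (q + 1) := by
    rw [hB, Matrix.SpecialLinearGroup.coe_pow]
  rw [← hA', ← hB'] at h2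
  by_cases hd : ((A : Matrix (Fin 2) (Fin 2) F) - 1).det = 0
  · left
    rw [orderOf_dvd_iff_pow_eq_one, ← hA]
    have htr : Matrix.trace (A : Matrix (Fin 2) (Fin 2) F) = 2 := by
      have hA1 := A.2
      rw [Matrix.det_fin_two] at hA1 hd
      simp only [Matrix.sub_apply, Matrix.one_apply_eq, ne_eq, zero_ne_one, not_false_eq_true,
        Matrix.one_apply_ne, one_ne_zero, sub_zero] at hd
      rw [Matrix.trace_fin_two]
      linear_combination hA1 - hd
    have hsq : ((A : Matrix (Fin 2) (Fin 2) F) - 1) ^ 2 = 0 := by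
      have := ch _ A.2
      rw [htr, two_smul] at this
      rw [← this, sq, sub_mul, mul_sub, mul_one, one_mul]
      abel
    have hp : A ^ p = 1 := by
      have : CharP (Matrix (Fin 2) (Fin 2) F) p := Matrix.charP p
      refine Subtype.ext ?_
      rw [Matrix.SpecialLinearGroup.coe_pow, Matrix.SpecialLinearGroup.coe_one]
      have h3 : ((A : Matrix (Fin 2) (Fin 2) F) - 1) ^ p = 0 :=
        pow_eq_zero_of_le (Fact.out : p.Prime).two_le hsq
      rwa [sub_pow_char_of_commute _ (Commute.one_right _), one_pow, sub_eq_zero] at h3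
    have hdvd : orderOf A ∣ Nat.gcd (orderOf g) p :=
      Nat.dvd_gcd (orderOf_pow_dvd _) (orderOf_dvd_iff_pow_eq_one.2 hp)
    rw [hg.gcd_eq_one, Nat.dvd_one, orderOf_eq_one_iff] at hdvd
    exact hdvd
  · right
    rw [orderOf_dvd_iff_pow_eq_one, ← hB]
    refine Subtype.ext ?_
    rw [Matrix.SpecialLinearGroup.coe_one, ← sub_eq_zero]
    exact ((Matrix.isUnit_iff_isUnit_det _).2 (isUnit_iff_ne_zero.2 hd)).mul_right_eq_zero.1 h2

end Cfsg.Agent.S0800
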