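import Cfsg.Statements.S0801
import Cfsg.Agent.Linear.SL2TwoGen

set_option autoImplicit false
open Cfsg

namespace Cfsg.Agent.S0801

/-- Let F be a finite field of odd characteristic and λ ≠ 0 an element generating F as a field. Then the lower and upper unitriangular matrices with off-diagonal entries 1 and λ generate SL_2(F), unless |F| = 9 and λ² = −1, in which case they generate a subgroup of order 120. -/
theorem result {F : Type*} [Field F] [Fintype F] (h2 : (2 : F) ≠ 0) (lam : F) (hlam : lam ≠ 0) (hgen : Subfield.closure ({lam} : Set F) = ⊤) : (Subgroup.closure {g : Matrix.SpecialLinearGroup (Fin 2) F | (g : Matrix (Fin 2) (Fin 2) F) = !![1, 0; 1, 1] ∨ (g : Matrix (Fin 2) (Fin 2) F) = !![1, lam; 0, 1]} = ⊤ ∧ ¬ (Fintype.card F = 9 ∧ lam ^ 2 = -1)) ∨ (Fintype.card F = 9 ∧ lam ^ 2 = -1 ∧ Nat.card ↥(Subgroup.closure {g : Matrix.SpecialLinearGroup (Fin 2) F | (g : Matrix (Fin 2) (Fin 2) F) = !![1, 0; 1, 1] ∨ (g : Matrix (Fin 2) (Fin 2) F) = !![1,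 lam; 0, 1]}) = 120) := by
  rw [Cfsg.Agent.Linear.SL2TwoGen.set_eq]
  by_cases hex : Fintype.card F = 9 ∧ lam ^ 2 = -1
  · refine Or.inr ⟨hex.1, hex.2, ?_⟩
    rcases Cfsg.Agent.Linear.SL2TwoGen.main h2 hlam hgen with h | ⟨-, -, h⟩
    · exfalso
      obtain ⟨p, hchar⟩ := CharP.exists F
      obtain ⟨k, hp, hpk⟩ := FiniteField.card F p
      obtain rfl : p = 3 := by
        have : p ∣ 3 ^ 2 := by rw [show (3 : ℕ) ^ 2 = Fintype.card F by rw [hex.1]; norm_num, hpk]; exact dvd_pow_self p k.pos.ne'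
        exact (Nat.prime_dvd_prime_iff_eq hp Nat.prime_three).1 (hp.dvd_of_dvd_pow this)
      have := Cfsg.Agent.Linear.SL2TwoGen.card_gen_le hex.2
      rw [h, Subgroup.card_top, Cfsg.Agent.Linear.card_SL_two (F := F), hex.1] at this
      norm_num at this
    · exact h
  · rcases Cfsg.Agent.Linear.SL2TwoGen.main h2 hlam hgen with h | ⟨h, h', -⟩
    · exact Or.inl ⟨h, hex⟩
    · exact absurd ⟨h, h'⟩ hex

end Cfsg.Agent.S0801
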