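import Cfsg.Statements.S0805
import Cfsg.Agent.Linear.PSL2Subfield

set_option autoImplicit false
open Cfsg

namespace Cfsg.Agent.S0805

/-- Subfield subgroups: let F be a finite field of odd order q and K a finite field with |K|^m = q, m ≥ 1. Then PSL_2(F) has a subgroup isomorphic to PSL_2(K), and has a subgroup isomorphic to PGL_2(K) if and only if m is even. -/
theorem result {F K : Type*} [Field F] [Fintype F] [Field K] [Fintype K] {q : ℕ} (hF : Fintype.card F = q) (hodd : Odd q) (m : ℕ) (hm : 1 ≤ m) (hK : Fintype.card K ^ m = q) : (∃ H : Subgroup (Matrix.ProjectiveSpecialLinearGroup (Fin 2) F), Nonempty (H ≃* Matrix.ProjectiveSpecialLinearGroup (Fin 2) K)) ∧ ((∃ H : Subgroup (Matrix.ProjectiveSpecialLinearGroup (Fin 2) F), Nonempty (H ≃* Matrix.ProjGenLinGroup (Fin 2) K)) ↔ Even m) := by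
  classical
  obtain ⟨ι⟩ := Cfsg.Agent.Linear.nonempty_ringHom_of_card_pow (F := F) (K := K) hm (hK.trans hF.symm)
  have hodd' : Odd (Fintype.card F) := hF ▸ hodd
  refine ⟨Cfsg.Agent.Linear.exists_subgroup_psl ι, ⟨fun ⟨H, ⟨e⟩⟩ => ?_, fun hev => ?_⟩⟩
  · by_contra hev
    exact Cfsg.Agent.Linear.no_subgroup_pgl hodd' (hK.trans hF.symm) hev e
  · refine Cfsg.Agent.Linear.exists_subgroup_pgl ι fun x => ?_
    rcases eq_or_ne x 0 with rfl | hx
    · exact ⟨0, by simp⟩
    have hne : ringChar F ≠ 2 := fun h => by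
      have := FiniteField.even_card_iff_char_two.1 h
      rw [Nat.odd_iff] at hodd'
      omega
    rw [FiniteField.isSquare_iff hne ((map_ne_zero ι).2 hx), ← map_pow]
    have hr : 1 < Fintype.card K := Fintype.one_lt_card
    have hd : Fintype.card K - 1 ∣ Fintype.card F / 2 := by
      obtain ⟨j, rfl⟩ := hev
      set r := Fintype.card K
      have hrodd : r % 2 = 1 := by
        by_contra h
        have h2 : Even r := Nat.even_iff.2 (by omega)
        have := h2.pow_of_ne_zero (show j + j ≠ 0 by omega)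
        rw [hK, Nat.even_iff] at this
        rw [Nat.odd_iff] at hodd
        omega
      obtain ⟨s, hs⟩ := Nat.sub_one_dvd_pow_sub_one r j
      have hp1 : 1 ≤ r ^ j := Nat.one_le_pow _ _ (by omega)
      have ho : r ^ j % 2 = 1 := by rw [Nat.pow_mod, hrodd, one_pow]; rfl
      obtain ⟨u, hu⟩ : ∃ u, r ^ j + 1 = 2 * u := ⟨(r ^ j + 1) / 2, by omega⟩
      refine ⟨s * u, ?_⟩
      have hq : Fintype.card F = 2 * ((r - 1) * (s * u)) + 1 := by
        rw [hF, ← hK, pow_add]
        obtain ⟨a, ha⟩ : ∃ a, r ^ j = a + 1 := ⟨r ^ j - 1, by omega⟩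
        rw [ha] at hs hu ⊢
        rw [Nat.add_sub_cancel] at hs
        rw [← mul_assoc (r - 1) s u, ← hs]
        calc (a + 1) * (a + 1) = a * (a + 1 + 1) + 1 := by ring
          _ = _ := by rw [hu]; ring
      omega
    obtain ⟨c, hc⟩ := hd
    rw [hc, pow_mul, FiniteField.pow_card_sub_one_eq_one x hx, one_pow, map_one]

end Cfsg.Agent.S0805
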