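import Cfsg.Statements.S0807
import Cfsg.Agent.Linear.PSL2KleinFour

set_option autoImplicit false
open Cfsg

namespace Cfsg.Agent.S0807

/-- For q odd, twelve times the number of Klein four-subgroups of PSL_2(q) equals the order of PSL_2(q). -/
theorem result {F : Type*} [Field F] [Fintype F] {q : ℕ} (hF : Fintype.card F = q) (hodd : Odd q) : 12 * Nat.card {V : Subgroup (Matrix.ProjectiveSpecialLinearGroup (Fin 2) F) // IsKleinFour V} = Nat.card (Matrix.ProjectiveSpecialLinearGroup (Fin 2) F) := by
  classical
  have h2 : (2 : F) ≠ 0 := fun h => by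
    have hr : ringChar F = 2 :=
      CharP.ringChar_of_prime_eq_zero Nat.prime_two (by exact_mod_cast h)
    have := FiniteField.even_card_iff_char_two.1 hr
    rw [hF] at this
    exact (Nat.not_even_iff_odd.2 hodd) (Nat.even_iff.2 this)
  exact Cfsg.Agent.Linear.twelve_mul_card_kleinFour h2

end Cfsg.Agent.S0807
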