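import Cfsg.Statements.S0808
import Cfsg.Agent.Linear.PSL2KleinFour

set_option autoImplicit false
open Cfsg

namespace Cfsg.Agent.S0808

/-- Conjugacy classes of four-groups in PSL_2(q), q odd: if q ≡ 3 or 5 (mod 8) all Klein four-subgroups are conjugate; if q ≡ 1 or 7 (mod 8) there are two Klein four-subgroups which are not conjugate, and every Klein four-subgroup is conjugate to one of them. -/
theorem result {F : Type*} [Field F] [Fintype F] {q : ℕ} (hF : Fintype.card F = q) (hodd : Odd q) : ((q % 8 = 3 ∨ q % 8 = 5) → ∀ V W : Subgroup (Matrix.ProjectiveSpecialLinearGroup (Fin 2) F), IsKleinFour V → IsKleinFour W → ∃ g : Matrix.ProjectiveSpecialLinearGroup (Fin 2) F, W = V.map (MulAut.conj g).toMonoidHom) ∧ ((q % 8 = 1 ∨ q % 8 = 7) → ∃ V₁ V₂ : Subgroup (Matrix.ProjectiveSpecialLinearGroup (Fin 2) F), IsKleinFour V₁ ∧ IsKleinFour V₂ ∧ (¬ ∃ g : Matrix.ProjectiveSpecialLinearGroup (Fin 2) F, V₂ = V₁.map (MulAut.conj g).toMonoidHom) ∧ ∀ W :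 Subgroup (Matrix.ProjectiveSpecialLinearGroup (Fin 2) F), IsKleinFour W → (∃ g : Matrix.ProjectiveSpecialLinearGroup (Fin 2) F, W = V₁.map (MulAut.conj g).toMonoidHom) ∨ (∃ g : Matrix.ProjectiveSpecialLinearGroup (Fin 2) F, W = V₂.map (MulAut.conj g).toMonoidHom)) := by
  classical
  have h2 : (2 : F) ≠ 0 := fun h => by
    have hr : ringChar F = 2 :=
      CharP.ringChar_of_prime_eq_zero Nat.prime_two (by exact_mod_cast h)
    have := FiniteField.even_card_iff_char_two.1 hr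
    rw [hF] at this
    exact (Nat.not_even_iff_odd.2 hodd) (Nat.even_iff.2 this)
  have hq2 := (FiniteField.isSquare_two_iff (F := F))
  rw [hF] at hq2
  refine ⟨fun h8 V W hV hW => ?_, fun h8 => ?_⟩
  · have hsq : ¬ IsSquare (2 : F) := fun h => by
      obtain ⟨a, b⟩ := hq2.1 h
      omega
    obtain ⟨x, hx⟩ := Cfsg.Agent.Linear.conj_std_of_not_isSquare h2 hsq hV
    obtain ⟨y, hy⟩ := Cfsg.Agent.Linear.conj_std_of_not_isSquare h2 hsq hW
    refine ⟨y * x⁻¹, ?_⟩
    rw [hy, hx, Subgroup.map_map]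
    congr 1
    ext z
    simp [mul_assoc]
  · have hsq : IsSquare (2 : F) := hq2.2 (by omega)
    obtain ⟨V₂, hV₂, hne, hall⟩ := Cfsg.Agent.Linear.two_classes h2 hsq
    exact ⟨Cfsg.Agent.Linear.stdFour h2, V₂, Cfsg.Agent.Linear.isKleinFour_stdFour h2, hV₂, hne, hall⟩

end Cfsg.Agent.S0808
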