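import Cfsg.Statements.S0809
import Cfsg.Agent.Linear.PSL2FourCyclic

set_option autoImplicit false
open Cfsg

namespace Cfsg.Agent.S0809

/-- In SL_2(q), q odd: any two subgroups of order 4 are conjugate, and the normaliser of a subgroup of order 4 has order 2(q − 1) if q ≡ 1 (mod 4) and 2(q + 1) if q ≡ 3 (mod 4); consequently all involutions of PSL_2(q) are conjugate. -/
theorem result {F : Type*} [Field F] [Fintype F] {q : ℕ} (hF : Fintype.card F = q) (hodd : Odd q) (A : Subgroup (Matrix.SpecialLinearGroup (Fin 2) F)) (hA : Nat.card A = 4) : (∀ B : Subgroup (Matrix.SpecialLinearGroup (Fin 2) F), Nat.card B = 4 → ∃ g : Matrix.SpecialLinearGroup (Fin 2) F, B = A.map (MulAut.conj g).toMonoidHom) ∧ (q % 4 = 1 → Nat.card ↥(Subgroup.normalizer (A : Set (Matrix.SpecialLinearGroup (Fin 2) F))) = 2 * (q - 1)) ∧ (q % 4 = 3 → Nat.card ↥(Subgroup.normalizer (A : Set (Matrix.SpecialLinearGroup (Fin 2) F))) = 2 * (q + 1)) ∧ (∀ x y : Matrix.ProjectiveSpecialLinearGroup (Fin 2) F, orderOf x = 2 →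 orderOf y = 2 → IsConj x y) := by
  classical
  have h2 : (2 : F) ≠ 0 := fun h => by
    have hr : ringChar F = 2 :=
      CharP.ringChar_of_prime_eq_zero Nat.prime_two (by exact_mod_cast h)
    have := FiniteField.even_card_iff_char_two.1 hr
    rw [hF] at this
    exact (Nat.not_even_iff_odd.2 hodd) (Nat.even_iff.2 this)
  have hN := Cfsg.Agent.Linear.card_normalizer_four h2 hA
  rw [hF] at hN
  refine ⟨fun B hB => Cfsg.Agent.Linear.exists_conj_four h2 hA hB, fun h => ?_, fun h => ?_,
    Cfsg.Agent.Linear.involutions_conj h2⟩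
  · rwa [if_pos h] at hN
  · rwa [if_neg (by omega)] at hN

end Cfsg.Agent.S0809
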