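import Cfsg.Statements.S0813
import Cfsg.Agent.KnownB.AutPSL.Facts

set_option autoImplicit false
open Cfsg

namespace Cfsg.Agent.S0813
open Cfsg.Agent.KnownB Cfsg.Agent.KnownB.AutPSL


/-- |Aut(PSL_n(q))|, q = p^f: for n ≥ 3 it is 2 f |PGL_n(q)|, and for n = 2 (q ≥ 4) it is f |PGL_2(q)|. -/
theorem result {F : Type*} [Field F] [Fintype F] (p f : ℕ) [Fact p.Prime] (hf : 1 ≤ f) (hF : Fintype.card F = p ^ f) (n : ℕ) (hn : 2 ≤ n) (h2 : n = 2 → 4 ≤ p ^ f) : Nat.card (MulAut (Matrix.ProjectiveSpecialLinearGroup (Fin n) F)) = (if n = 2 then 1 else 2) * f * Nat.card (Matrix.ProjGenLinGroup (Fin n) F) := by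
  classical
  rw [← Nat.card_eq_fintype_card] at hF
  obtain ⟨e⟩ := exists_ringAut_equiv hF hf
  have hfin : Nat.card (F ≃+* F) = f := by
    rw [Nat.card_congr e.toEquiv, Nat.card_congr Multiplicative.toAdd, Nat.card_zmod]
  rcases eq_or_lt_of_le hn with h | h
  · subst h
    obtain ⟨π, hs, hk, -⟩ := exists_proj2 (F := F)
    rw [Subgroup.card_eq_card_quotient_mul_card_subgroup π.ker,
      Nat.card_congr (QuotientGroup.quotientKerEquivOfSurjective π hs).toEquiv, hfin, hk,
      card_range_A le_rfl, if_pos rfl, one_mul]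
  · obtain ⟨π, hs, hk, -⟩ := exists_proj3 (F := F) h
    rw [Subgroup.card_eq_card_quotient_mul_card_subgroup π.ker,
      Nat.card_congr (QuotientGroup.quotientKerEquivOfSurjective π hs).toEquiv, Nat.card_prod, hfin,
      Nat.card_congr Multiplicative.toAdd, Nat.card_zmod, hk, card_range_A hn,
      if_neg (by omega : ¬ n = 2)]
    ring

end Cfsg.Agent.S0813
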