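import Cfsg.Statements.S0814
import Cfsg.Agent.Forms.SpAutCount
import Cfsg.Agent.Forms.SympBridge

set_option autoImplicit false
open Cfsg

namespace Cfsg.Agent.S0814

/-- |Aut(PSp_2m(q))| = gcd(2, q−1) · f · |PSp_2m(q)| for q = p^f, m ≥ 2, (m, q) ≠ (2, 2), with an extra factor 2 exactly when m = 2 and p = 2. -/
theorem result {F : Type*} [Field F] [Fintype F] (p f : ℕ) [Fact p.Prime] (hf : 1 ≤ f) (hF : Fintype.card F = p ^ f) (m : ℕ) (hm : 2 ≤ m) (h22 : m = 2 → 3 ≤ p ^ f) : Nat.card (MulAut (Cfsg.PSp m F)) = (if m = 2 ∧ p = 2 then 2 else 1) * Nat.gcd 2 (p ^ f - 1) * f * Nat.card (Cfsg.PSp m F) := by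
  have hp : p.Prime := Fact.out
  haveI : CharP F p := (CharP.charP_iff_prime_eq_zero hp).mpr (by
    have h := Nat.cast_card_eq_zero F
    rw [hF, Nat.cast_pow] at h
    exact eq_zero_of_pow_eq_zero h)
  have hsp : Nat.card (Matrix.symplecticGroup (Fin m) F) =
      Nat.gcd 2 (p ^ f - 1) * Nat.card (Cfsg.PSp m F) := by
    rw [Subgroup.card_eq_card_quotient_mul_card_subgroup
      (Subgroup.center (Matrix.symplecticGroup (Fin m) F)),
      Forms.card_center_symplectic hF (by omega : 1 ≤ m), mul_comm]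
  by_cases h4 : m = 2 ∧ p = 2
  · obtain ⟨rfl, rfl⟩ := h4
    rw [if_pos ⟨rfl, rfl⟩, Forms.card_mulAut_four hF, hsp]
    ring
  · rw [if_neg h4, one_mul, ← Nat.card_congr (Equiv.subtypeUnivEquiv
      (p := fun _ : MulAut (Cfsg.PSp m F) => True) fun _ => trivial),
      Forms.card_semilinear hm (fun β => ⟨fun _ => KnownB.Proj.Symp.exists_decomp p hm
        (fun h hp2 => h4 ⟨h, hp2⟩) β, fun _ => trivial⟩) hF, hsp]
    ring

end Cfsg.Agent.S0814
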