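import Cfsg.Statements.S0815
import Cfsg.Agent.KnownB.Proj.Unit.Lang

set_option autoImplicit false
open Cfsg

namespace Cfsg.Agent.S0815
open Cfsg.Agent.KnownB.Proj Cfsg.Agent.KnownB.Proj.Unit

/-- |Aut(PSU_n(q))| = gcd(n, q+1) · 2f · |PSU_n(q)| for q = p^f, n ≥ 3, (n, q) ≠ (3, 2); the form is realised over F with |F| = q². -/
theorem result {F : Type*} [Field F] [Fintype F] (p f : ℕ) [Fact p.Prime] (hf : 1 ≤ f) {q : ℕ} (hq : q = p ^ f) (hF : Fintype.card F = q ^ 2) (n : ℕ) (hn : 3 ≤ n) (h32 : ¬ (n = 3 ∧ q = 2)) : Nat.card (MulAut (Cfsg.PSU n F q)) = Nat.gcd n (q + 1) * (2 * f) * Nat.card (Cfsg.PSU n F q) := by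
  classical
  have hbij : Function.Bijective
      (fun x : (A n q F).range × (F ≃+* F) => (x.1 : MulAut (Cfsg.PSU n F q)) * Fd n q F x.2) := by
    refine ⟨?_, fun β => ?_⟩
    · rintro ⟨⟨_, a, rfl⟩, σ⟩ ⟨⟨_, b, rfl⟩, τ⟩ h
      have hρ : A n q F (b⁻¹ * a) * Fd n q F (σ * τ⁻¹) = 1 := by
        simp only at h
        rw [map_mul, map_mul, map_inv, map_inv, mul_assoc, ← mul_assoc (A n q F a), h]
        group
      have hστ : σ = τ := mul_inv_eq_one.mp (eq_one_of_A_Fd hF hn _ _ hρ)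
      subst hστ
      simp only at h
      rw [mul_left_inj] at h
      exact Prod.ext (Subtype.ext h) rfl
    · obtain ⟨g, σ, rfl⟩ := exists_decomp hn hF h32 β
      exact ⟨(⟨_, g, rfl⟩, σ), rfl⟩
  have hFn : Nat.card F = p ^ (2 * f) := by
    rw [Nat.card_eq_fintype_card, hF, hq, ← pow_mul, mul_comm]
  obtain ⟨e⟩ := Cfsg.Agent.KnownB.AutPSL.exists_ringAut_equiv hFn (by omega)
  rw [← Nat.card_congr (Equiv.ofBijective _ hbij), Nat.card_prod, Nat.card_congr e.toEquiv,
    Nat.card_congr Multiplicative.toAdd, Nat.card_zmod]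
  have hker : Nat.card (A n q F).ker = q + 1 := by
    rw [show (A n q F).ker = (sc n hF).range from SetLike.ext fun g => A_eq_one_iff hF hn g,
      ← Nat.card_congr (MonoidHom.ofInjective (sc_inj hF (n := n) (by omega))).toEquiv,
      Cfsg.Agent.Forms.card_normOne hF]
  have h1 := Subgroup.card_mul_index (A n q F).ker
  have h2 := Subgroup.card_mul_index (Cfsg.Agent.Forms.guDet (n := n) hF).ker
  have h3 := Cfsg.Agent.Forms.card_center_SU hF (n := n) (by omega)
  have h4 := Subgroup.card_eq_card_quotient_mul_card_subgroup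
    (Subgroup.center (Cfsg.SU n F q))
  rw [hker, Subgroup.index_ker] at h1
  rw [Subgroup.index_ker, MonoidHom.range_eq_top.mpr
      (Cfsg.Agent.Forms.guDet_surjective hF (show 1 ≤ n by omega)),
    Nat.card_congr Subgroup.topEquiv.toEquiv, Cfsg.Agent.Forms.card_normOne hF,
    ← Cfsg.Agent.Forms.suToGU_range hF,
    ← Nat.card_congr (MonoidHom.ofInjective (Cfsg.Agent.Forms.suToGU_injective (n := n) hF)).toEquiv, h4, h3] at h2
  have h5 : Nat.card (A n q F).range =
      Nat.gcd n (q + 1) * Nat.card (Cfsg.PSU n F q) := by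
    refine Nat.eq_of_mul_eq_mul_left (show 0 < q + 1 by omega) ?_
    rw [h1, ← h2]
    ring
  rw [h5]
  ring

end Cfsg.Agent.S0815
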