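import Cfsg.Statements.S0816
import Cfsg.Agent.KnownB.Proj.Orth.OddApps

set_option autoImplicit false
open Cfsg

namespace Cfsg.Agent.S0816
open Cfsg.Agent.KnownB.Proj.Orth

/-- |Aut(PΩ_(2m+1)(q))| = 2 f · |PΩ_(2m+1)(q)| for q = p^f odd and m ≥ 3 (for the form quadFormOdd). -/
theorem result {F : Type*} [Field F] [Fintype F] (p f : ℕ) [Fact p.Prime] (hf : 1 ≤ f) (hF : Fintype.card F = p ^ f) (hodd : Odd p) (m : ℕ) (hm : 3 ≤ m) : Nat.card (MulAut (Cfsg.POmega F (Cfsg.quadFormOdd m F))) = 2 * f * Nat.card (Cfsg.POmega F (Cfsg.quadFormOdd m F)) := by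
  have h2 : (2 : F) ≠ 0 := two_ne_zero_of_odd (by rw [hF]; exact hodd.pow)
  rw [← Forms.coe_qOdd]
  exact card_aut_odd hm h2 hF hf

end Cfsg.Agent.S0816
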