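import Cfsg.Statements.S0817
import Cfsg.Agent.KnownB.Proj.Orth.PlusOut
import Cfsg.Agent.KnownB.D4.Transport
-- import your own Cfsg.Agent.* helpers here

set_option autoImplicit false
open Cfsg

namespace Cfsg.Agent.S0817
open Cfsg.Agent.KnownB

/-- |Aut(PΩ⁺_2m(q))| for q = p^f, m ≥ 4: |PΩ⁺_2m(q)| times f, times 3 when m = 4, times 2 if p = 2, and times 8 or 4 if p is odd according as m(q−1)/2 is even or odd. -/
theorem result {F : Type*} [Field F] [Fintype F] (p f : ℕ) [Fact p.Prime] (hf : 1 ≤ f) (hF : Fintype.card F = p ^ f) (m : ℕ) (hm : 4 ≤ m) : Nat.card (MulAut (Cfsg.POmega F (Cfsg.quadFormPlus m F))) = (if m = 4 then 3 else 1) * (if p = 2 then 2 else (if Even (m * (p ^ f - 1) / 2) then 8 else 4)) * f * Nat.card (Cfsg.POmega F (Cfsg.quadFormPlus m F)) := by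
  rcases eq_or_ne m 4 with rfl | h4
  · rw [if_pos rfl, D4.card_aut_pomega_eight hF hf]
    congr 2
    by_cases hp : p = 2
    · rw [if_pos hp, D4.gcd_two_even (by subst hp; rw [hF]; exact Nat.even_pow.mpr ⟨even_two, by omega⟩)]
    · have hodd : Odd (p ^ f) := ((Nat.Prime.eq_two_or_odd' Fact.out).resolve_left hp).pow
      rw [if_neg hp, D4.gcd_two_odd (hF ▸ hodd), if_pos]
      obtain ⟨t, ht⟩ := hodd
      exact ⟨2 * t / 1 * 1, by omega⟩
  · rw [if_neg h4, one_mul, Proj.Orth.card_aut_plus (by omega) hF hf,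
      Proj.Orth.gcd_four_plus hf (by omega)]
    split_ifs <;> rfl

end Cfsg.Agent.S0817
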