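import Cfsg.Statements.S0818
import Cfsg.Agent.KnownB.Proj.Orth.Binary
import Cfsg.Agent.S0294

set_option autoImplicit false
open Cfsg

namespace Cfsg.Agent.S0818
open Cfsg.Agent.KnownB.Proj.Orth

/-- |Aut(PΩ⁻_2m(q))| for q = p^f, m ≥ 4 (form quadFormMinus (m−1) with anisotropic binary part): |PΩ⁻_2m(q)| times f, times 2 if p = 2, and times 4 or 8 if p is odd according as m(q−1)/2 is even or odd. -/
theorem result {F : Type*} [Field F] [Fintype F] (p f : ℕ) [Fact p.Prime] (hf : 1 ≤ f) (hF : Fintype.card F = p ^ f) (m : ℕ) (hm : 4 ≤ m) (a b : F) (hab : ∀ z₁ z₂ : F, z₁ ^ 2 + a * z₁ * z₂ + b * z₂ ^ 2 = 0 → z₁ = 0 ∧ z₂ = 0) : Nat.card (MulAut (Cfsg.POmega F (Cfsg.quadFormMinus (m - 1) F a b))) = (if p = 2 then 2 else (if Even (m * (p ^ f - 1) / 2) then 4 else 8)) * f * Nat.card (Cfsg.POmega F (Cfsg.quadFormMinus (m - 1) F a b)) := by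
  obtain ⟨n, rfl⟩ : ∃ n, m = n + 1 := ⟨m - 1, by omega⟩
  change Nat.card (MulAut (Cfsg.POmega F (Cfsg.quadFormMinus n F a b))) = _ * Nat.card (Cfsg.POmega F (Cfsg.quadFormMinus n F a b))
  have hG := good_qMinus (F := F) n (by omega) hab
  have hFn : Nat.card F = p ^ f := by rw [Nat.card_eq_fintype_card, hF]
  have h := card_aut hG (exists_ssim_minus hab) (mult_surjective_minus hab hG) hFn hf
  have hg := S0294.result hF (n + 1) hm a b hab
  rw [Nat.add_sub_cancel] at hg
  rw [Forms.coe_qMinus] at h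
  rw [Forms.card_isometryGroup_minus n hF a b hab, mul_assoc 2, mul_assoc 2, ← hg] at h
  refine h.trans ?_
  have hgcd : Nat.gcd 4 ((p ^ f) ^ (n + 1) + 1) =
      if p = 2 then 1 else (if Even ((n + 1) * (p ^ f - 1) / 2) then 2 else 4) := by
    split_ifs with hp he
    · subst hp
      rw [Nat.gcd_rec]
      have h4 : ((2 ^ f) ^ (n + 1)) % 4 = 0 := by
        obtain ⟨k, hk⟩ : ∃ k, f * (n + 1) = k + 2 := ⟨f * (n + 1) - 2, by
          have : 2 ≤ f * (n + 1) := le_trans (by omega) (Nat.le_mul_of_pos_left (n + 1) hf)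
          omega⟩
        rw [← pow_mul, hk, pow_add]; omega
      rw [Nat.add_mod, h4]; norm_num
    all_goals
      have hodd : (p ^ f) % 2 = 1 := Nat.odd_iff.mp
        ((Nat.Prime.eq_two_or_odd' Fact.out).resolve_left hp).pow
      have h4 := Forms.pow_mod_four (m := n + 1) hodd
      rw [Nat.gcd_rec, Nat.add_mod, h4]
      obtain ⟨t, ht⟩ : ∃ t, p ^ f = 2 * t + 1 := ⟨p ^ f / 2, by omega⟩
      rw [ht, Nat.add_sub_cancel, show (n + 1) * (2 * t) / 2 = (n + 1) * t by
        rw [show (n + 1) * (2 * t) = 2 * ((n + 1) * t) by ring, Nat.mul_div_cancel_left _ two_pos],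
        Nat.even_mul] at he
      rw [ht]
    · rw [if_neg (by
        rintro ⟨h3, ho⟩
        rcases he with h' | h'
        · exact Nat.not_even_iff_odd.mpr ho h'
        · obtain ⟨k, rfl⟩ := h'; omega)]
      norm_num
    · push Not at he
      rw [if_pos ⟨by
        obtain ⟨k, rfl⟩ := Nat.not_even_iff_odd.mp he.2
        omega, Nat.not_even_iff_odd.mp he.1⟩]
      norm_num
  rw [hgcd]
  split_ifs <;> ring

end Cfsg.Agent.S0818
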