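import Cfsg.Statements.S0819
import Cfsg.Agent.Linear.PSL34
-- import your own Cfsg.Agent.* helpers here

set_option autoImplicit false
open Cfsg

namespace Cfsg.Agent.S0819

open Matrix

/-- No element of PSL_3(4) has order 15. -/
theorem result {F : Type*} [Field F] [Fintype F] (hF : Fintype.card F = 4) (g : Matrix.ProjectiveSpecialLinearGroup (Fin 3) F) : orderOf g ≠ 15 := by
  classical
  intro hg
  obtain ⟨w, hw0, hw1⟩ : ∃ w : F, w ≠ 0 ∧ w ≠ 1 := by
    by_contra h
    push Not at h
    have := Fintype.card_le_of_surjective (fun i : Fin 2 => if i = 0 then (0 : F) else 1) fun a => by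
      by_cases ha : a = 0
      · exact ⟨0, by simp [ha]⟩
      · exact ⟨1, by simp [h a ha]⟩
    rw [hF, Fintype.card_fin] at this
    omega
  have hc3 := fun {a : F} (ha : a ≠ 0) => Linear.PSL34.cube_eq_one hF ha
  have hw2 : w ^ 2 ≠ 1 := fun e => hw1 (by linear_combination (-w) * e + hc3 hw0)
  have hww : w ≠ w ^ 2 := fun e => hw1 (mul_left_cancel₀ hw0 (by linear_combination -e))
  let D : Matrix.SpecialLinearGroup (Fin 3) F := ⟨diagonal ![1, w, w ^ 2], by
    rw [det_diagonal, Fin.prod_univ_three]; simp; linear_combination hc3 hw0⟩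
  have hcen : ∀ {z : Matrix.SpecialLinearGroup (Fin 3) F}, z ∈ Subgroup.center _ → z ^ 3 = 1 := fun {z} hz => by
    obtain ⟨r, hr, hz'⟩ := Matrix.SpecialLinearGroup.mem_center_iff.1 hz
    refine Subtype.ext ?_
    rw [Matrix.SpecialLinearGroup.coe_pow, ← hz', ← map_pow, ← Fintype.card_fin 3, hr, map_one]
    rfl
  have hDne : (QuotientGroup.mk D : ProjectiveSpecialLinearGroup (Fin 3) F) ≠ 1 := by
    intro e
    obtain ⟨r, -, hr⟩ := Matrix.SpecialLinearGroup.mem_center_iff.1 ((QuotientGroup.eq_one_iff D).1 e)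
    have h0 := congrFun (congrFun hr 0) 0
    have h1 := congrFun (congrFun hr 1) 1
    simp [D] at h0 h1
    exact hw1 (h1.symm.trans h0)
  have hD3 : D ^ 3 = 1 := Subtype.ext (by
    rw [Matrix.SpecialLinearGroup.coe_pow]
    change diagonal ![1, w, w ^ 2] ^ 3 = 1
    rw [diagonal_pow, ← diagonal_one]
    congr 1
    funext i
    fin_cases i <;> simp [← pow_mul, hc3 hw0, show w ^ (2 * 3) = (w ^ 3) ^ 2 by ring])
  set d : ProjectiveSpecialLinearGroup (Fin 3) F := QuotientGroup.mk D
  have : Fact (Nat.Prime 3) := ⟨Nat.prime_three⟩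
  have hd : orderOf d = 3 := orderOf_eq_prime (by rw [← QuotientGroup.mk_pow, hD3]; rfl) hDne
  have hy : orderOf (g ^ 5) = 3 := by
    rw [orderOf_pow_of_dvd (by norm_num) (by rw [hg]; norm_num), hg]
  obtain ⟨P, hP⟩ := Linear.PSL34.conjugate hF (Subgroup.zpowers (g ^ 5)) (Subgroup.zpowers d)
    (by rw [Nat.card_zpowers, hy]) (by rw [Nat.card_zpowers, hd])
  obtain ⟨k, hk⟩ : ∃ k : ℤ, P * (g ^ 5) ^ k * P⁻¹ = d := by
    have h := hP.ge (Subgroup.mem_zpowers d)
    obtain ⟨u, ⟨k, rfl⟩, hu⟩ := h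
    exact ⟨k, hu⟩
  set g' := P * g * P⁻¹ with hg'
  have hcomm : Commute g' d := by
    rw [← hk, show P * (g ^ 5) ^ k * P⁻¹ = g' ^ ((5 : ℤ) * k) by
      rw [hg', ← zpow_natCast g 5, ← _root_.zpow_mul, conj_zpow]; norm_num]
    exact (Commute.refl g').zpow_right _
  obtain ⟨X, hX⟩ := QuotientGroup.mk_surjective (g' ^ 3)
  have hg15 : g' ^ 15 = 1 := by
    rw [hg', conj_pow, ← hg, pow_orderOf_eq_one, mul_one, mul_inv_cancel]
  set c := X * D * X⁻¹ * D⁻¹ with hc
  have hcmem : c ∈ Subgroup.center _ := by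
    rw [← QuotientGroup.eq_one_iff, hc]
    simp only [QuotientGroup.mk_mul, QuotientGroup.mk_inv, hX]
    rw [(hcomm.pow_left 3).eq, mul_inv_cancel_right, mul_inv_cancel]
  have hcC : ∀ y, c * y = y * c := fun y => (Subgroup.mem_center_iff.1 hcmem y).symm
  have hXD : X * D = c * D * X := by rw [hc]; group
  have hpow : ∀ n : ℕ, X ^ n * D = c ^ n * D * X ^ n := by
    intro n
    induction n with
    | zero => simp
    | succ n ih =>
      calc X ^ (n + 1) * D = X ^ n * (X * D) := by rw [pow_succ, mul_assoc]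
        _ = X ^ n * (c * (D * X)) := by rw [hXD, mul_assoc]
        _ = c * (X ^ n * D) * X := by rw [← mul_assoc (X ^ n) c, ← hcC]; group
        _ = c ^ (n + 1) * D * X ^ (n + 1) := by rw [ih, pow_succ', pow_succ X]; group
  have hX5 : X ^ 5 ∈ Subgroup.center _ := by
    rw [← QuotientGroup.eq_one_iff, QuotientGroup.mk_pow, hX, ← pow_mul, hg15]
  have hc5 : c ^ 5 = 1 := by
    have h := hpow 5
    rw [← Subgroup.mem_center_iff.1 hX5 D] at h
    exact mul_right_cancel (b := D) (by rw [one_mul]; exact (mul_right_cancel h).symm)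
  have hc1 : c = 1 := by
    have h2 : c ^ 2 = 1 := by
      rw [show (5 : ℕ) = 3 + 2 from rfl, pow_add, hcen hcmem, one_mul] at hc5
      exact hc5
    have := hcen hcmem
    rw [pow_succ, h2, one_mul] at this
    exact this
  have hdiag : ∀ i j : Fin 3, i ≠ j → X.1 i j = 0 := by
    intro i j hij
    rw [hc1, one_mul] at hXD
    have h : X.1 * diagonal ![1, w, w ^ 2] = diagonal ![1, w, w ^ 2] * X.1 := congrArg Subtype.val hXD
    have h' := congrFun (congrFun h i) j
    rw [mul_diagonal, diagonal_mul] at h'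
    have hne : (![1, w, w ^ 2] : Fin 3 → F) j - ![1, w, w ^ 2] i ≠ 0 := by
      fin_cases i <;> fin_cases j <;>
        first
        | exact absurd rfl hij
        | (simp [sub_eq_zero, hw1, hw2, hww, Ne.symm hw1, Ne.symm hw2, Ne.symm hww])
    exact (mul_eq_zero.1 (show X.1 i j * ((![1, w, w ^ 2] : Fin 3 → F) j - ![1, w, w ^ 2] i) = 0 by
      linear_combination h')).resolve_right hne
  have hXd : X.1 = diagonal (fun i => X.1 i i) := by
    ext i j
    rcases eq_or_ne i j with rfl | hij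
    · simp
    · rw [diagonal_apply_ne _ hij, hdiag i j hij]
  have hX3 : X ^ 3 = 1 := by
    refine Subtype.ext ?_
    rw [Matrix.SpecialLinearGroup.coe_pow, hXd, diagonal_pow]
    refine (congrArg diagonal (funext fun i => ?_)).trans diagonal_one
    refine hc3 fun h0 => ?_
    have := X.2
    rw [hXd, det_diagonal] at this
    rw [Finset.prod_eq_zero (f := fun i => X.1 i i) (Finset.mem_univ i) h0] at this
    exact zero_ne_one this
  have h9 : g' ^ 9 = 1 := by
    rw [show (9 : ℕ) = 3 * 3 from rfl, pow_mul, ← hX, ← QuotientGroup.mk_pow, hX3]; rfl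
  have h9' : g ^ 9 = 1 := by
    rw [hg', conj_pow] at h9
    exact mul_left_cancel (a := P) (mul_right_cancel (b := P⁻¹) (by rw [h9, mul_one, mul_inv_cancel]))
  have := orderOf_dvd_of_pow_eq_one h9'
  rw [hg] at this
  norm_num at this

end Cfsg.Agent.S0819
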