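import Cfsg.Statements.S0820
import Cfsg.Agent.Forms.SLTransv

set_option autoImplicit false
open Cfsg

namespace Cfsg.Agent.S0820

/-- Any two elements of order 2 of PSL_3(4) are conjugate. -/
theorem result {F : Type*} [Field F] [Fintype F] (hF : Fintype.card F = 4) (x y : Matrix.ProjectiveSpecialLinearGroup (Fin 3) F) (hx : orderOf x = 2) (hy : orderOf y = 2) : IsConj x y := by
  obtain ⟨t, ht, rfl⟩ := Forms.exists_transvection_of_orderOf_two hF x hx
  obtain ⟨s, hs, rfl⟩ := Forms.exists_transvection_of_orderOf_two hF y hy
  exact (QuotientGroup.mk' (Subgroup.center (Matrix.SpecialLinearGroup (Fin 3) F))).map_isConj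
    ((Forms.isConj_transvection_three t ht).symm.trans (Forms.isConj_transvection_three s hs))

end Cfsg.Agent.S0820
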