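import Cfsg.Statements.S0822
import Cfsg.Agent.Core.WeylESix
import Cfsg.Agent.Linear.POmega6Minus
import Cfsg.Agent.Linear.POmega5
import Cfsg.Agent.Linear.Sp42
import Cfsg.Agent.Forms.SympBridge
import Cfsg.Agent.Forms.SympOrder
import Cfsg.Agent.Forms.OrthBridge
import Cfsg.Agent.Forms.UnitaryOrder
import Cfsg.Agent.Forms.UnitarySimple
-- import your own Cfsg.Agent.* helpers here

set_option autoImplicit false
open Cfsg

namespace Cfsg.Agent.S0822

open Cfsg.Agent.Forms Cfsg.Agent.Core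

theorem mulComm_of_map_central {A B : Type*} [Group A] [Group B] (f : A →* B)
    (hf : Function.Injective f) (hc : ∀ a, f a ∈ Subgroup.center B) : ∀ a b : A, a * b = b * a :=
  fun a b => hf (by rw [map_mul, map_mul]; exact Subgroup.mem_center_iff.1 (hc b) _)

theorem omega_five_quot {A B : Type*} [Group A] [Group B] [Finite A] [Finite B] [IsSimpleGroup A]
    (hA : ¬ ∀ a b : A, a * b = b * a) (f : A →* B) (hf : Function.Injective f)
    (hcard : Nat.card (B ⧸ Subgroup.center B) ≤ Nat.card A) :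
    Nonempty (A ≃* B ⧸ Subgroup.center B) := by
  let g := (QuotientGroup.mk' (Subgroup.center B)).comp f
  have hg : Function.Injective g := by
    rw [← MonoidHom.ker_eq_bot_iff]
    rcases (g.normal_ker).eq_bot_or_eq_top with h | h
    · exact h
    · exact absurd (mulComm_of_map_central f hf fun a => (QuotientGroup.eq_one_iff _).1
        (MonoidHom.mem_ker.1 (h ▸ Subgroup.mem_top a : a ∈ g.ker))) hA
  exact ⟨MulEquiv.ofBijective g ((Nat.bijective_iff_injective_and_card g).2
    ⟨hg, le_antisymm (Nat.card_le_card_of_injective g hg) hcard⟩)⟩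

/-- PSU_4(2) ≅ PSp_4(3): with |F| = 4 and |K| = 3, the projective special unitary group of the standard Hermitian form on F^4 is isomorphic to PSp_4(K). -/
theorem result {F K : Type*} [Field F] [Fintype F] [Field K] [Fintype K] (hF : Fintype.card F = 4) (hK : Fintype.card K = 3) : Nonempty (Cfsg.PSU 4 F 2 ≃* Cfsg.PSp 2 K) := by
  classical
  have hF2 : Fintype.card (ZMod 2) = 2 := ZMod.card 2
  have hF4 : Fintype.card F = 2 ^ 2 := hF
  have hab : ∀ z₁ z₂ : ZMod 2, z₁ ^ 2 + 1 * z₁ * z₂ + 1 * z₂ ^ 2 = 0 → z₁ = 0 ∧ z₂ = 0 := by decide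
  obtain ⟨e6⟩ := Linear.pomega_six_minus (F := ZMod 2) hF2 (K := F) (q := 2) hF4 1 1 hab
  obtain ⟨e5⟩ := Linear.pomega_five (F := ZMod 3) (by decide)
  let eK : Cfsg.PSp 2 (ZMod 3) ≃* Cfsg.PSp 2 K :=
    centerQuotientCongr (Linear.spCongr (l := Fin 2) (ZMod.ringEquivOfPrime K Nat.prime_three hK))
  have hsimp : IsSimpleGroup (Cfsg.PSU 4 F 2) := psu_simple hF4 (by norm_num) (by norm_num)
  have hc6 : Nat.card (Cfsg.PSU 4 F 2) = 25920 := by
    have h := card_PSU (n := 4) hF4 (by norm_num)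
    simp [Finset.prod_range_succ, Nat.even_iff, -Nat.card_eq_fintype_card] at h
    change 3 * Nat.card (Cfsg.PSU 4 F 2) = 77760 at h
    omega
  have hc5 : Nat.card (Cfsg.PSp 2 (ZMod 3)) = 25920 := by
    have h := Subgroup.card_eq_card_quotient_mul_card_subgroup
      (Subgroup.center (Matrix.symplecticGroup (Fin 2) (ZMod 3)))
    rw [card_symplecticGroup (q := 3) (ZMod.card 3), card_center_symplectic (q := 3) (ZMod.card 3) (by norm_num)] at h
    norm_num [Finset.prod_range_succ, -Nat.card_eq_fintype_card] at h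
    change _ = Nat.card (Cfsg.PSp 2 (ZMod 3)) * _ at h
    omega
  obtain ⟨ψ, hψ⟩ := WeylESix.exists_embedding
  have hO : Nat.card WeylESix.G6 = 51840 := by
    rw [WeylESix.G6, coe_qMinus, card_isometryGroup_minus (m := 2) hF2 1 1 hab]
    simp [Finset.prod_range_succ]
  have hI : (commutator WeylESix.G6).index = 2 := by
    rw [show commutator WeylESix.G6 = Cfsg.Omega (ZMod 2) ⇑(qMinus 2 (ZMod 2) 1 1) from rfl, omega_index]
    exact (commutator_index_two (by decide) (qMinus_nondegenerate _ _ (by decide))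
      (Or.inr (by simp)) (by simp)).1
  have hΩ : Nat.card (commutator WeylESix.G6) = 25920 := by
    have := Subgroup.card_mul_index (commutator WeylESix.G6)
    rw [hI, hO] at this
    omega
  have he6 : Nat.card (↥(commutator WeylESix.G6) ⧸ Subgroup.center (commutator WeylESix.G6)) = 25920 := by
    rw [← hc6, ← Nat.card_congr e6.toEquiv]
    exact congrArg (fun q : _ → ZMod 2 => Nat.card (Cfsg.POmega (ZMod 2) q)) (coe_qMinus _ _ _ _)
  have he5 : Nat.card (↥(commutator WeylESix.G5) ⧸ Subgroup.center (commutator WeylESix.G5)) = 25920 := by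
    rw [← hc5, ← Nat.card_congr e5.toEquiv]
    exact congrArg (fun q : _ → ZMod 3 => Nat.card (Cfsg.POmega (ZMod 3) q)) (coe_qOdd _ _)
  have hz : Subgroup.center (commutator WeylESix.G6) = ⊥ := by
    have h := Subgroup.card_eq_card_quotient_mul_card_subgroup (Subgroup.center (commutator WeylESix.G6))
    rw [hΩ, he6] at h
    exact Subgroup.eq_bot_of_card_eq _ (by omega)
  let eΩ : ↥(commutator WeylESix.G6) ≃* ↥(commutator WeylESix.G6) ⧸ Subgroup.center (commutator WeylESix.G6) :=
    (QuotientGroup.quotientBot.symm).trans (QuotientGroup.quotientMulEquivOfEq hz.symm)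
  have eA : Nonempty (↥(commutator WeylESix.G6) ⧸ Subgroup.center (commutator WeylESix.G6) ≃* Cfsg.PSU 4 F 2) := by
    have : ∀ q : _ → ZMod 2, ⇑(qMinus 2 (ZMod 2) 1 1) = q → Nonempty (Cfsg.POmega (ZMod 2) q ≃* Cfsg.PSU 4 F 2) →
        Nonempty (↥(commutator WeylESix.G6) ⧸ Subgroup.center (commutator WeylESix.G6) ≃* Cfsg.PSU 4 F 2) := by
      rintro q rfl h; exact h
    exact this _ (coe_qMinus _ _ _ _) ⟨e6⟩
  obtain ⟨eA⟩ := eA
  have eB : Nonempty (↥(commutator WeylESix.G5) ⧸ Subgroup.center (commutator WeylESix.G5) ≃* Cfsg.PSp 2 K) := by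
    have : ∀ q : _ → ZMod 3, ⇑(qOdd 2 (ZMod 3)) = q → Nonempty (Cfsg.POmega (ZMod 3) q ≃* Cfsg.PSp 2 K) →
        Nonempty (↥(commutator WeylESix.G5) ⧸ Subgroup.center (commutator WeylESix.G5) ≃* Cfsg.PSp 2 K) := by
      rintro q rfl h; exact h
    exact this _ (coe_qOdd _ _) ⟨e5.trans eK⟩
  obtain ⟨eB⟩ := eB
  have := (eΩ.trans eA).isSimpleGroup
  have hne : ¬ ∀ a b : ↥(commutator WeylESix.G6), a * b = b * a := fun h => by
    have : Subgroup.center (commutator WeylESix.G6) = ⊤ :=
      eq_top_iff.2 fun a _ => Subgroup.mem_center_iff.2 fun b => h b a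
    have h2 := congrArg (fun S : Subgroup (commutator WeylESix.G6) => Nat.card S) (hz.symm.trans this)
    simp [hΩ, -Nat.card_eq_fintype_card] at h2
  obtain ⟨e⟩ := omega_five_quot hne ψ hψ (by rw [he5, hΩ])
  exact ⟨((eΩ.trans eA).symm.trans e).trans eB⟩

end Cfsg.Agent.S0822
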