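import Cfsg.Statements.S0827
import Cfsg.Agent.Core.UnitaryThreeTwoQuotient
-- import your own Cfsg.Agent.* helpers here

set_option autoImplicit false
open Cfsg

namespace Cfsg.Agent.S0827

/-- U_3(2) ≅ 3².Q_8: PSU_3(2) (form over the field with 4 elements) has a normal subgroup N which is elementary abelian of order 9 such that the quotient by N is isomorphic to the quaternion group of order 8. -/
theorem result {F : Type*} [Field F] [Fintype F] (hF : Fintype.card F = 4) : ∃ (N : Subgroup (Cfsg.PSU 3 F 2)) (_ : N.Normal), Nat.card N = 9 ∧ (∀ x ∈ N, x ^ 3 = 1) ∧ Nonempty (Cfsg.PSU 3 F 2 ⧸ N ≃* QuaternionGroup 2) := by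
  obtain ⟨N, hN, hcard, hexp, ⟨e⟩⟩ := Core.UnitaryThreeTwoQuotient.exists_quotient
  let f : Cfsg.PSU 3 Cfsg.Agent.FGS3.SU32.GF4 2 ≃* Cfsg.PSU 3 F 2 := Forms.centerQuotientCongr
    (Linear.suCongr 3 2 (FiniteField.ringEquivOfCardEq (Cfsg.Agent.FGS3.SU32.card_gf4.trans hF.symm)))
  refine ⟨N.map f.toMonoidHom, hN.map _ f.surjective, ?_, ?_, ?_⟩
  · exact (Subgroup.card_map_of_injective (f := f.toMonoidHom) f.injective).trans hcard
  · rintro _ ⟨x, hx, rfl⟩
    rw [← map_pow, hexp x hx, map_one]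
  · have := hN.map f.toMonoidHom f.surjective
    exact ⟨(QuotientGroup.congr N (N.map f.toMonoidHom) f rfl).symm.trans e⟩

end Cfsg.Agent.S0827
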