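import Cfsg.Statements.S0828
import Cfsg.Agent.Forms.IsoLinesCount

set_option autoImplicit false
open Cfsg

namespace Cfsg.Agent.S0828

/-- The symplectic generalised quadrangle over a field with q elements: the number of 2-dimensional subspaces of F^4 on which the symplectic form vanishes is (q + 1)(q² + 1), and every non-zero vector lies in exactly q + 1 of them. -/
theorem result {F : Type*} [Field F] [Fintype F] {q : ℕ} (hF : Fintype.card F = q) : Nat.card {W : Submodule F (Fin 2 ⊕ Fin 2 → F) // Module.finrank F W = 2 ∧ ∀ u ∈ W, ∀ v ∈ W, Cfsg.sympForm 2 F u v = 0} = (q + 1) * (q ^ 2 + 1) ∧ ∀ v : Fin 2 ⊕ Fin 2 → F, v ≠ 0 → Nat.card {W : Submodule F (Fin 2 ⊕ Fin 2 → F) // Module.finrank F W = 2 ∧ v ∈ W ∧ ∀ u ∈ W, ∀ w ∈ W, Cfsg.sympForm 2 F u w = 0} = q + 1 := by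
  have h := Forms.card_symp_lines hF
    (Forms.isForm_symp (m := 2) (F := F)) Forms.sympB_isAlt (by simp)
  simp only [Forms.IsoPlane, Forms.sympB_apply] at h
  refine ⟨h.1, fun v hv => (Nat.card_congr ?_).trans (h.2 v hv)⟩
  exact { toFun := fun W => ⟨⟨W.1, W.2.1, fun u hu w hw => (Forms.sympB_apply u w).trans (W.2.2.2 u hu w hw)⟩, W.2.2.1⟩
          invFun := fun W => ⟨W.1.1, W.1.2.1, W.2,
            fun u hu w hw => (Forms.sympB_apply u w).symm.trans (W.1.2.2 u hu w hw)⟩
          left_inv := fun _ => rfl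
          right_inv := fun _ => rfl }

end Cfsg.Agent.S0828
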