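import Cfsg.Statements.S0829
import Cfsg.Agent.Forms.IsoLinesCount

set_option autoImplicit false
open Cfsg

namespace Cfsg.Agent.S0829

/-- The unitary quadrangle of PSU_4(q): with |F| = q², the number of 2-dimensional subspaces of F^4 on which the Hermitian form Σ x_i y_i^q vanishes is (q + 1)(q³ + 1). -/
theorem result {F : Type*} [Field F] [Fintype F] {q : ℕ} (hF : Fintype.card F = q ^ 2) : Nat.card {W : Submodule F (Fin 4 → F) // Module.finrank F W = 2 ∧ ∀ u ∈ W, ∀ v ∈ W, Cfsg.hermForm 4 F q u v = 0} = (q + 1) * (q ^ 3 + 1) := by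
  rw [← (Forms.isHerm_std (n := 4) hF).card_lines_four hF (Module.finrank_fin_fun F)]
  refine Nat.card_congr (Equiv.subtypeEquivRight fun W => and_congr_right fun _ => ?_)
  simp only [Forms.hermB_apply]
  exact ⟨fun h u hu v hv => h v hv u hu, fun h u hu v hv => h v hv u hu⟩

end Cfsg.Agent.S0829
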