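import Cfsg.Statements.S0831
import Cfsg.Agent.Forms.Generators

set_option autoImplicit false
open Cfsg

namespace Cfsg.Agent.S0831

/-- The two families of maximal totally singular subspaces of the hyperbolic quadric: for the form Σ x_i y_i on F^(2m), m ≥ 1, and m-dimensional subspaces U, W, X on which it vanishes, the parities of m − dim(U ∩ W), m − dim(W ∩ X) and m − dim(U ∩ X) sum to an even number (so 'even codimension of the intersection' is an equivalence relation), and there exist two such subspaces meeting in codimension 1 (so there are exactly two classes). -/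
theorem result {F : Type*} [Field F] (m : ℕ) (hm : 1 ≤ m) : (∀ U W X : Submodule F (Fin m ⊕ Fin m → F), (Module.finrank F U = m ∧ ∀ w ∈ U, Cfsg.quadFormPlus m F w = 0) → (Module.finrank F W = m ∧ ∀ w ∈ W, Cfsg.quadFormPlus m F w = 0) → (Module.finrank F X = m ∧ ∀ w ∈ X, Cfsg.quadFormPlus m F w = 0) → Even ((m - Module.finrank F ↥(U ⊓ W)) + (m - Module.finrank F ↥(W ⊓ X)) + (m - Module.finrank F ↥(U ⊓ X)))) ∧ ∃ U W : Submodule F (Fin m ⊕ Fin m → F), (Module.finrank F U = m ∧ ∀ w ∈ U, Cfsg.quadFormPlus m F w = 0) ∧ (Module.finrank F W = m ∧ ∀ w ∈ W, Cfsg.quadFormPlus m F w = 0) ∧ Module.finrank F ↥(U ⊓ W) + 1 = m := by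
  have hS := Forms.isSplitSpace_qPlus (F := F) m
  have hq : ⇑(Forms.qPlus m F) = Cfsg.quadFormPlus m F := Forms.coe_qPlus ..
  refine ⟨fun U W X hU hW hX => hS.parity ⟨fun u hu => by rw [hq]; exact hU.2 u hu, hU.1⟩
    ⟨fun u hu => by rw [hq]; exact hW.2 u hu, hW.1⟩
    ⟨fun u hu => by rw [hq]; exact hX.2 u hu, hX.1⟩, ?_⟩
  obtain ⟨E, hE⟩ := Forms.exists_generator_qPlus (F := F) m
  obtain ⟨H, -, hHE, hHd⟩ := Forms.exists_sub_of_finrank ⊥ E bot_le (m - 1) (by simp)
    (by rw [hE.dim]; omega)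
  obtain ⟨W, W', -, hW, hW', -, -, hinf, -⟩ :=
    hS.exists_two hE (hE.sing.mono hHE) (by omega)
  exact ⟨W, W', ⟨hW.dim, fun w hw => hq ▸ hW.sing w hw⟩, ⟨hW'.dim, fun w hw => hq ▸ hW'.sing w hw⟩,
    by rw [hinf]; omega⟩

end Cfsg.Agent.S0831
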