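import Cfsg.Statements.S0832
import Cfsg.Agent.Forms.Generators

set_option autoImplicit false
open Cfsg

namespace Cfsg.Agent.S0832

/-- For the form Σ x_i y_i on F^(2m) over a finite field, m ≥ 1: an (m−1)-dimensional subspace on which the form vanishes is contained in exactly two m-dimensional subspaces on which it vanishes. -/
theorem result {F : Type*} [Field F] [Finite F] (m : ℕ) (hm : 1 ≤ m) (U : Submodule F (Fin m ⊕ Fin m → F)) (hU : Module.finrank F U + 1 = m ∧ ∀ u ∈ U, Cfsg.quadFormPlus m F u = 0) : Nat.card {W : Submodule F (Fin m ⊕ Fin m → F) // Module.finrank F W = m ∧ (∀ w ∈ W, Cfsg.quadFormPlus m F w = 0) ∧ U ≤ W} = 2 := by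
  have hS := Forms.isSplitSpace_qPlus (F := F) m
  have hq : ⇑(Forms.qPlus m F) = Cfsg.quadFormPlus m F := Forms.coe_qPlus ..
  obtain ⟨E, hE⟩ := Forms.exists_generator_qPlus (F := F) m
  obtain ⟨W, W', hne, hW, hW', hHW, hHW', -, hall⟩ :=
    hS.exists_two hE (fun u hu => by rw [hq]; exact hU.2 u hu) hU.1
  rw [Nat.card_eq_two_iff]
  refine ⟨⟨W, hW.dim, fun w hw => hq ▸ hW.sing w hw, hHW⟩,
    ⟨W', hW'.dim, fun w hw => hq ▸ hW'.sing w hw, hHW'⟩, fun h => hne (congrArg Subtype.val h), ?_⟩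
  refine Set.eq_univ_of_forall fun Z => ?_
  obtain ⟨Z, hZd, hZs, hUZ⟩ := Z
  rcases hall Z ⟨fun w hw => by rw [hq]; exact hZs w hw, hZd⟩ hUZ with rfl | rfl <;> simp

end Cfsg.Agent.S0832
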