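import Cfsg.Statements.S0833
import Cfsg.Agent.Forms.DiscrTools
import Cfsg.Agent.Forms.SympBasis

set_option autoImplicit false
open Cfsg

namespace Cfsg.Agent.S0833

/-- If B₁, B₂ are non-degenerate alternating forms on U (dim 2k) and W (dim 2l), then B₁ ⊗ B₂ on U ⊗ W is symmetric, non-degenerate, and vanishes identically on some subspace of dimension 2kl (half of dim U ⊗ W). -/
theorem result {F U W : Type*} [Field F] [Fintype F] [AddCommGroup U] [Module F U] [FiniteDimensional F U] [AddCommGroup W] [Module F W] [FiniteDimensional F W] (B₁ : LinearMap.BilinForm F U) (B₂ : LinearMap.BilinForm F W) (h₁ : B₁.Nondegenerate) (h₂ : B₂.Nondegenerate) (hA₁ : B₁.IsAlt) (hA₂ : B₂.IsAlt) (k l : ℕ) (hU : Module.finrank F U = 2 * k) (hW : Module.finrank F W = 2 * l) : (B₁.tmul B₂).IsSymm ∧ (B₁.tmul B₂).Nondegenerate ∧ (∃ X : Submodule F (TensorProduct F U W), Module.finrank F X = 2 * k * l ∧ ∀ x ∈ X, ∀ y ∈ X, (B₁.tmul B₂) x y = 0) := by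
  obtain ⟨m, z, b, hb, hz⟩ := Forms.exists_symp_basis_radical B₁ hA₁
  obtain ⟨m', z', c, hc, hz'⟩ := Forms.exists_symp_basis_radical B₂ hA₂
  have hz0 : z = 0 := by
    by_contra h
    exact b.ne_zero (Sum.inr ⟨0, Nat.pos_of_ne_zero h⟩) (h₁.1 _ (hz _))
  have hm : m = k := by
    have := Module.finrank_eq_card_basis b
    simp [hU, hz0] at this
    omega
  subst hm
  refine ⟨?_, Forms.tmul_nondegenerate b c h₁ h₂, ?_⟩
  · exact Forms.tmul_isSymm_of_isAlt hA₁ hA₂
  · set v : Fin m × ((Fin m' ⊕ Fin m') ⊕ Fin z') → TensorProduct F U W :=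
      fun p => (b.tensorProduct c) (Sum.inl (Sum.inl p.1), p.2) with hv
    refine ⟨Submodule.span F (Set.range v), ?_, Forms.isotropic_span fun p q => ?_⟩
    · rw [finrank_span_eq_card]
      · rw [Fintype.card_prod, Fintype.card_fin, ← Module.finrank_eq_card_basis c, hW]; ring
      · exact (b.tensorProduct c).linearIndependent.comp _
          ((Sum.inl_injective.comp Sum.inl_injective).prodMap Function.injective_id)
    · simp [hv, Module.Basis.tensorProduct_apply, hb.ll]

end Cfsg.Agent.S0833
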