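import Cfsg.Statements.S0837
import Cfsg.Agent.Forms.SubspaceStab

set_option autoImplicit false
open Cfsg

namespace Cfsg.Agent.S0837

/-- If W ≤ F^n (|F| = q²) is a k-dimensional subspace on which the Hermitian form Σ x_i y_i^q is non-degenerate, then the stabiliser of W in GU_n(q) is isomorphic to GU_k(q) × GU_(n−k)(q). -/
theorem result {F : Type*} [Field F] [Fintype F] {q : ℕ} (hF : Fintype.card F = q ^ 2) (n k : ℕ) (hk : k ≤ n) (W : Submodule F (Fin n → F)) (hWk : Module.finrank F W = k) (hW : ∀ u ∈ W, (∀ v ∈ W, Cfsg.hermForm n F q u v = 0) → u = 0) : Nonempty (↥((Cfsg.stabilizing (Cfsg.glToMat (Fin n) F) (W : Set (Fin n → F))).subgroupOf (Cfsg.GU n F q)) ≃* ↥(Cfsg.GU k F q) × ↥(Cfsg.GU (n - k) F q)) := by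
  have hI := Forms.isForm_herm (n := n) hF
  have hH : Forms.IsHerm q (Forms.frobQ hF) (Forms.hermB n hF) :=
    ⟨Forms.frobQ_apply hF, (Forms.hermB_isSymm hF).eq, hI, Forms.frobQ_ne_id hF⟩
  have hX : ∀ u ∈ W, (∀ v ∈ W, Forms.hermB n hF u v = 0) → u = 0 := fun u hu h =>
    hW u hu fun v hv => hI.refl u v (h v hv)
  have E := Forms.stabProdEquiv hI W hX (Forms.guEquiv hF)
    ((Cfsg.stabilizing (Cfsg.glToMat (Fin n) F) (W : Set (Fin n → F))).subgroupOf (Cfsg.GU n F q))
    fun g => by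
      rw [← Forms.stable_iff_mapsTo]
      exact Iff.rfl
  have hd : Module.finrank F (Forms.perp (Forms.hermB n hF) W) = n - k := by
    have := hI.finrank_perp W
    have h2 : Module.finrank F (Fin n → F) = n := Module.finrank_fin_fun F
    omega
  obtain ⟨e₁⟩ := Forms.nonempty_isom_herm hF (hH.restrict hX) hWk
  obtain ⟨e₂⟩ := Forms.nonempty_isom_herm hF (hH.restrict (hI.perp_nondeg hX)) hd
  exact ⟨E.trans (MulEquiv.prodCongr (e₁.trans (Forms.guEquiv hF).symm)
    (e₂.trans (Forms.guEquiv hF).symm))⟩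

end Cfsg.Agent.S0837
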