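import Cfsg.Statements.S0838
import Cfsg.Agent.Forms.DiscrTools

set_option autoImplicit false
open Cfsg

namespace Cfsg.Agent.S0838

/-- Over a finite field with 2 ≠ 0 and n odd: two quadratic forms Q₁, Q₂ on F^n with non-degenerate polar forms are similar — there are an invertible linear map g and a scalar c ≠ 0 with Q₂ (g v) = c · Q₁ v for all v. -/
theorem result {F : Type*} [Field F] [Fintype F] (h2 : (2 : F) ≠ 0) {n : ℕ} (hn : Odd n) (Q₁ Q₂ : QuadraticForm F (Fin n → F)) (h₁ : (QuadraticMap.polarBilin Q₁).Nondegenerate) (h₂ : (QuadraticMap.polarBilin Q₂).Nondegenerate) : ∃ (g : (Fin n → F) ≃ₗ[F] (Fin n → F)) (c : F), c ≠ 0 ∧ ∀ v, Q₂ (g v) = c * Q₁ v := by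
  obtain ⟨n', rfl⟩ : ∃ n', n = n' + 1 := ⟨n - 1, by have := hn.pos; omega⟩
  set B₁ := QuadraticMap.polarBilin Q₁ with hB₁
  set B₂ := QuadraticMap.polarBilin Q₂ with hB₂
  have hS₁ : LinearMap.BilinForm.IsSymm B₁ := ⟨fun x y => QuadraticMap.polar_comm Q₁ x y⟩
  have hS₂ : LinearMap.BilinForm.IsSymm B₂ := ⟨fun x y => QuadraticMap.polar_comm Q₂ x y⟩
  set b := Pi.basisFun F (Fin (n' + 1))
  set d₁ := (LinearMap.BilinForm.toMatrix b B₁).det
  set d₂ := (LinearMap.BilinForm.toMatrix b B₂).det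
  have hd₁ : d₁ ≠ 0 := (LinearMap.BilinForm.nondegenerate_iff_det_ne_zero b).1 h₁
  have hd₂ : d₂ ≠ 0 := (LinearMap.BilinForm.nondegenerate_iff_det_ne_zero b).1 h₂
  have hS : LinearMap.BilinForm.IsSymm ((d₁ * d₂) • B₁) := ⟨fun x y => congrArg ((d₁ * d₂) * ·) (hS₁.eq x y)⟩
  have hdet : (LinearMap.BilinForm.toMatrix b ((d₁ * d₂) • B₁)).det =
      (d₁ * d₂) ^ (n' + 1) * d₁ := by
    rw [map_smul, Matrix.det_smul, Fintype.card_fin]
  have hnd : ((d₁ * d₂) • B₁).Nondegenerate :=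
    (LinearMap.BilinForm.nondegenerate_iff_det_ne_zero b).2 (by
      rw [hdet]; exact mul_ne_zero (pow_ne_zero _ (mul_ne_zero hd₁ hd₂)) hd₁)
  obtain ⟨g, hg⟩ := Forms.exists_isometry_of_det (n := n') h2 hS hnd hS₂ h₂
    (Module.finrank_fin_fun F) (Module.finrank_fin_fun F) b b (by
      rw [hdet, mul_assoc, ← pow_succ]
      exact (Odd.add_odd hn odd_one).isSquare_pow _)
  refine ⟨g, d₁ * d₂, mul_ne_zero hd₁ hd₂, fun v => mul_left_cancel₀ h2 ?_⟩
  have h := hg v v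
  simp only [hB₁, hB₂, LinearMap.smul_apply, QuadraticMap.polarBilin_apply_apply,
    Forms.polar_self_two_mul, smul_eq_mul] at h
  linear_combination h

end Cfsg.Agent.S0838
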