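import Cfsg.Statements.S0840
import Cfsg.Agent.Chars2.ClassSum

set_option autoImplicit false
open scoped ComplexConjugate
open Cfsg

namespace Cfsg.Agent.S0840

/-- Class multiplication coefficients from the character table: for elements a, b, c of a finite group G, the number of ordered pairs (x, y) with x conjugate to a, y conjugate to b and x * y = c equals the product of the sizes of the conjugacy classes of a and b, divided by the order of G, times the sum over the irreducible characters χ of χ a * χ b * conj (χ c) / χ 1. -/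
theorem result {G : Type*} [Group G] [Finite G] (a b c : G) : (Nat.card {p : G × G // IsConj a p.1 ∧ IsConj b p.2 ∧ p.1 * p.2 = c} : ℂ) = (Nat.card {x : G // IsConj a x} : ℂ) * (Nat.card {x : G // IsConj b x} : ℂ) / (Nat.card G : ℂ) * ∑ᶠ χ : Cfsg.IrrCharacter G, (χ : G → ℂ) a * (χ : G → ℂ) b * conj ((χ : G → ℂ) c) / (χ : G → ℂ) 1 := by
  classical
  haveI := Fintype.ofFinite G
  rw [finsum_eq_sum_of_fintype]
  set f : G → ℂ := fun z =>
    ((Finset.univ.filter (fun p : G × G => IsConj a p.1 ∧ IsConj b p.2 ∧ p.1 * p.2 = z)).card : ℂ)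
  have hcard : ∀ s : G, (Nat.card {x : G // IsConj s x} : ℂ)
      = ((Finset.univ.filter (IsConj s)).card : ℂ) := fun s => by
    rw [Nat.card_eq_fintype_card, Fintype.card_subtype]
  have hleft : (Nat.card {p : G × G // IsConj a p.1 ∧ IsConj b p.2 ∧ p.1 * p.2 = c} : ℂ) = f c := by
    rw [Nat.card_eq_fintype_card, Fintype.card_subtype]
  have key : ∀ x y : G, ∀ w : G, IsConj x y → IsConj x (w * y * w⁻¹) := fun x y w h =>
    h.trans (isConj_iff.2 ⟨w, rfl⟩)
  have hf : Cfsg.IsClassFunction G f := by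
    intro z w
    simp only [f]
    congr 1
    refine Finset.card_nbij' (fun p => (w⁻¹ * p.1 * w, w⁻¹ * p.2 * w))
      (fun p => (w * p.1 * w⁻¹, w * p.2 * w⁻¹)) ?_ ?_ ?_ ?_
    · intro p hp
      simp only [Finset.coe_filter, Finset.mem_univ, true_and, Set.mem_ofPred_eq] at hp ⊢
      refine ⟨by simpa using key _ _ w⁻¹ hp.1, by simpa using key _ _ w⁻¹ hp.2.1, ?_⟩
      rw [show w⁻¹ * p.1 * w * (w⁻¹ * p.2 * w) = w⁻¹ * (p.1 * p.2) * w by group, hp.2.2]
      group
    · intro p hp
      simp only [Finset.coe_filter, Finset.mem_univ, true_and, Set.mem_ofPred_eq] at hp ⊢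
      refine ⟨key _ _ w hp.1, key _ _ w hp.2.1, ?_⟩
      rw [show w * p.1 * w⁻¹ * (w * p.2 * w⁻¹) = w * (p.1 * p.2) * w⁻¹ by group, hp.2.2]
    · intro p _; simp [mul_assoc]
    · intro p _; simp [mul_assoc]
  have hfc : f c = starRingEnd ℂ (f c) := (Complex.conj_natCast _).symm
  rw [hleft, hfc, Chars.eq_sum_classInner hf, Finset.sum_apply, map_sum, Finset.mul_sum]
  refine Finset.sum_congr rfl fun χ _ => ?_
  have h1 : (χ : G → ℂ) 1 ≠ 0 := Chars.irr_apply_one_ne_zero χ.2
  have hinner : classInner f (χ : G → ℂ) = (Nat.card G : ℂ)⁻¹ *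
      ∑ p ∈ Finset.univ.filter (fun p : G × G => IsConj a p.1 ∧ IsConj b p.2),
        starRingEnd ℂ ((χ : G → ℂ) (p.1 * p.2)) := by
    rw [Chars.classInner_def]
    congr 1
    rw [← Finset.sum_fiberwise (Finset.univ.filter fun p : G × G => IsConj a p.1 ∧ IsConj b p.2)
      (fun p => p.1 * p.2)]
    refine Finset.sum_congr rfl fun g _ => ?_
    rw [Finset.filter_filter, Finset.sum_congr rfl (g := fun _ => starRingEnd ℂ ((χ : G → ℂ) g))
      (fun p hp => by rw [(Finset.mem_filter.1 hp).2.2]), Finset.sum_const, nsmul_eq_mul]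
    simp only [f, and_assoc]
  rw [Pi.smul_apply, smul_eq_mul, hinner, hcard a, hcard b, map_mul, map_mul, map_inv₀,
    Complex.conj_natCast]
  rw [map_sum]
  simp only [Complex.conj_conj]
  have h2 : (∑ p ∈ Finset.univ.filter (fun p : G × G => IsConj a p.1 ∧ IsConj b p.2),
      (χ : G → ℂ) (p.1 * p.2)) * (χ : G → ℂ) 1 =
      ((Finset.univ.filter (IsConj a)).card : ℂ) * ((Finset.univ.filter (IsConj b)).card : ℂ)
        * (χ : G → ℂ) a * (χ : G → ℂ) b := by convert Chars2.sum_class_class χ.2 a b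
  rw [eq_div_of_mul_eq h1 h2]
  ring

end Cfsg.Agent.S0840
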