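import Cfsg.Statements.S0841
import Mathlib.Tactic.Group
import Mathlib.GroupTheory.Commutator.Basic
import Mathlib.Data.Nat.Choose.Basic

set_option autoImplicit false
open Cfsg

namespace Cfsg.Agent.S0841

/-- If the commutator subgroup of G lies in the centre, then for all x, y in G and every natural number n one has (x * y) ^ n = x ^ n * y ^ n * c ^ (n * (n - 1) / 2) with c = y⁻¹ * x⁻¹ * y * x. -/
theorem result {G : Type*} [Group G] (hG : commutator G ≤ Subgroup.center G) (x y : G) (n : ℕ) : (x * y) ^ n = x ^ n * y ^ n * (y⁻¹ * x⁻¹ * y * x) ^ (n * (n - 1) / 2) := by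
  have hc : ∀ g : G, Commute (y⁻¹ * x⁻¹ * y * x) g := fun g => by
    have hm : y⁻¹ * x⁻¹ * y * x ∈ Subgroup.center G := hG (by
      have := Subgroup.commutator_mem_commutator (Subgroup.mem_top y⁻¹) (Subgroup.mem_top x⁻¹)
      simpa [commutator, commutatorElement_def] using this)
    exact (Subgroup.mem_center_iff.1 hm g).symm
  set c := y⁻¹ * x⁻¹ * y * x with hcdef
  have hyx : ∀ k : ℕ, y ^ k * x = x * y ^ k * c ^ k := by
    intro k
    induction k with
    | zero => simp
    | succ k ih =>
      have h1 : y * x = x * y * c := by rw [hcdef]; group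
      calc y ^ (k + 1) * x = y ^ k * (x * y * c) := by rw [pow_succ, mul_assoc, h1]
        _ = (y ^ k * x) * y * c := by group
        _ = x * y ^ k * (c ^ k * y) * c := by rw [ih]; group
        _ = x * y ^ (k + 1) * (c ^ k * c) := by
            rw [((hc y).pow_left k).eq]; group
        _ = x * y ^ (k + 1) * c ^ (k + 1) := by rw [← pow_succ]
  induction n with
  | zero => simp
  | succ k ih =>
    have ht : (k + 1) * (k + 1 - 1) / 2 = k + k * (k - 1) / 2 := by
      rw [← Nat.choose_two_right, ← Nat.choose_two_right, Nat.choose_succ_succ', Nat.choose_one_right]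
    calc (x * y) ^ (k + 1) = x ^ k * y ^ k * (c ^ (k * (k - 1) / 2) * x) * y := by
          rw [pow_succ, ih]; group
      _ = x ^ k * (y ^ k * x) * (c ^ (k * (k - 1) / 2) * y) := by
          rw [((hc x).pow_left _).eq]; group
      _ = x ^ k * x * y ^ k * (c ^ k * y) * c ^ (k * (k - 1) / 2) := by
          rw [hyx, ((hc y).pow_left _).eq]; group
      _ = x ^ (k + 1) * (y ^ k * y) * (c ^ k * c ^ (k * (k - 1) / 2)) := by
          rw [((hc y).pow_left _).eq, pow_succ x]; group
      _ = x ^ (k + 1) * y ^ (k + 1) * c ^ ((k + 1) * (k + 1 - 1) / 2) := by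
          rw [← pow_succ, ← pow_add, ht]

end Cfsg.Agent.S0841
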