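import Cfsg.Statements.S0843
import Cfsg.Agent.Chars2.BrauerSuzukiCenter

set_option autoImplicit false
open Cfsg

namespace Cfsg.Agent.S0843

/-- Suppose a Sylow 2-subgroup S of the finite group G is generalized quaternion of order at least 16; let D be the commutator subgroup of S and X the set of elements of the centralizer of D whose order is divisible by the order of D. Then D is contained in the cyclic subgroup generated by any element of X; an element of G conjugating some element of X into the centralizer of D normalizes D; and the normalizer of D maps X to itself under conjugation. -/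
theorem result {G : Type*} [Group G] [Finite G] (S : Sylow 2 G) (n : ℕ) (e : (S : Subgroup G) ≃* QuaternionGroup (2 ^ (n + 2))) (D : Subgroup G) (hD : D = ⁅(S : Subgroup G), (S : Subgroup G)⁆) : (∀ y : G, y ∈ Subgroup.centralizer (D : Set G) → Nat.card D ∣ orderOf y → D ≤ Subgroup.zpowers y) ∧ (∀ g y : G, y ∈ Subgroup.centralizer (D : Set G) → Nat.card D ∣ orderOf y → g * y * g⁻¹ ∈ Subgroup.centralizer (D : Set G) → g ∈ Subgroup.normalizer (D : Set G)) ∧ (∀ g y : G, g ∈ Subgroup.normalizer (D : Set G) → y ∈ Subgroup.centralizer (D : Set G) → Nat.card D ∣ orderOf y → g * y * g⁻¹ ∈ Subgroup.centralizer (D : Set G) ∧ Nat.card D ∣ orderOf (g * y * g⁻¹)) := by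
  obtain ⟨a, b, h⟩ := Chars2.quatData_of_equiv (S : Subgroup G) n e
  subst hD
  rw [h.comm, h.card_comm]
  refine ⟨fun y hy hk => Chars2.comm_le_zpowers S h hy hk,
    fun g y hy hk hgy => Chars2.ti_set S h hy hk hgy, fun g y hg hy hk => ⟨?_, ?_⟩⟩
  · exact Chars2.centralizer_conj_mem S h hg hy
  · rw [← MulAut.conj_apply, MulEquiv.orderOf_eq]; exact hk

end Cfsg.Agent.S0843
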