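import Cfsg.Statements.S0848
import Cfsg.Agent.Screen.DihedralEight

set_option autoImplicit false
open Cfsg

namespace Cfsg.Agent.S0848

/-- If a finite group equals its own commutator subgroup and contains an involution whose centralizer is isomorphic to the dihedral group of order 8, then the group has order 168 or 360. -/
theorem result {G : Type*} [Group G] [Finite G] (hperf : commutator G = ⊤) (t : G) (ht : orderOf t = 2) (e : Subgroup.centralizer ({t} : Set G) ≃* DihedralGroup 4) : Nat.card G = 168 ∨ Nat.card G = 360 := by
  refine Screen.DihedralEight.card_eq ht e fun u hu => Screen.DihedralEight.isConj_of_no_index_two ht e (fun H hH => ?_) hu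
  haveI := Subgroup.normal_of_index_eq_two hH
  haveI : IsCyclic (G ⧸ H) := by
    haveI : Fact (Nat.Prime 2) := ⟨Nat.prime_two⟩
    exact isCyclic_of_prime_card (p := 2) (by rw [← Subgroup.index_eq_card, hH])
  have hc : commutator G ≤ H := Subgroup.Normal.quotient_commutative_iff_commutator_le.1
    ⟨⟨fun a b => (IsCyclic.commGroup (α := G ⧸ H)).mul_comm a b⟩⟩
  rw [hperf, top_le_iff] at hc
  rw [hc, Subgroup.index_top] at hH
  omega

end Cfsg.Agent.S0848
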