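import Cfsg.Statements.S0850
import Cfsg.Agent.Chars.Induced
import Mathlib.GroupTheory.GroupAction.Quotient
import Mathlib.GroupTheory.OrderOfElement

set_option autoImplicit false
open Cfsg

namespace Cfsg.Agent.S0850

/-- Let K be a subgroup of the finite group G that meets each conjugate by an element outside its normalizer N trivially, is properly contained in N, and contains the centralizer of each of its non-identity elements (a T.I. subgroup with Frobenius normalizer). Then no element of N outside K is conjugate in G to an element of K, and for every class function ϑ of N that vanishes on N away from K and at the identity, the function induced from ϑ to G agrees with ϑ on all of N. -/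
theorem result {G : Type*} [Group G] [Fintype G] (K : Subgroup G) (hTI : ∀ g : G, g ∉ Subgroup.normalizer (K : Set G) → ∀ k ∈ K, g * k * g⁻¹ ∈ K → k = 1) (hlt : K < Subgroup.normalizer (K : Set G)) (hC : ∀ k ∈ K, k ≠ 1 → Subgroup.centralizer ({k} : Set G) ≤ K) : (∀ x ∈ Subgroup.normalizer (K : Set G), x ∉ K → ∀ g : G, g * x * g⁻¹ ∉ K) ∧ ∀ (ϑ : Subgroup.normalizer (K : Set G) → ℂ), Cfsg.IsClassFunction (Subgroup.normalizer (K : Set G)) ϑ → (∀ x : Subgroup.normalizer (K : Set G), (x : G) ∉ K → ϑ x = 0) → ϑ 1 = 0 → ∀ x : Subgroup.normalizer (K : Set G), Cfsg.indFun (Subgroup.normalizer (K : Set G)) ϑ x = ϑ x := by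
  classical
  set N := Subgroup.normalizer (K : Set G) with hN
  have hKN : K ≤ N := Subgroup.le_normalizer
  have hconj : ∀ g : G, ∀ y ∈ K, y ≠ 1 → g * y * g⁻¹ ∈ K → g ∈ N := fun g y hy hy1 hgy => by
    by_contra hg
    exact hy1 (hTI g hg y hy hgy)
  have h1 : ∀ x ∈ N, x ∉ K → ∀ g : G, g * x * g⁻¹ ∉ K := by
    intro x hx hxK g hgx
    have hx1 : x ≠ 1 := fun e => hxK (e ▸ K.one_mem)
    set k := g * x * g⁻¹ with hk
    have hk1 : k ≠ 1 := fun e => hx1 (by simpa [hk] using e)
    have hkN : g⁻¹ * k * g = x := by rw [hk]; group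
    -- the kernel element commutes with `x` inside the conjugate of `K`
    obtain ⟨y, hy, hy1⟩ : ∃ y ∈ K, y ≠ 1 := ⟨k, hgx, hk1⟩
    -- `x` normalises `K`, so `k` normalises the conjugate of `K` by `g`
    have hgN : g ∉ N := by
      intro hg
      refine hxK ?_
      rw [← hkN]
      have := (Subgroup.mem_normalizer_iff.1 (N.inv_mem hg) k).1 hgx
      simpa using this
    by_cases hfix : ∃ w ∈ K, w ≠ 1 ∧ x * w = w * x
    · obtain ⟨w, hw, hw1, hxw⟩ := hfix
      exact hxK (hC w hw hw1 (Subgroup.mem_centralizer_singleton_iff.2 hxw))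
    -- conjugation by `x` permutes the nontrivial elements of `K` without fixed points
    have hzk : ∀ j : ℤ, x ^ j ≠ 1 → ¬ ∃ w ∈ K, w ≠ 1 ∧ x ^ j * w = w * x ^ j := by
      intro j hj hw
      obtain ⟨w, hw, hw1, hxw⟩ := hw
      have hxj : x ^ j ∈ K := hC w hw hw1 (Subgroup.mem_centralizer_singleton_iff.2 hxw)
      have hxj' : g * x ^ j * g⁻¹ ∈ K := by
        rw [← MulAut.conj_apply, map_zpow, MulAut.conj_apply]
        exact K.zpow_mem hgx j
      exact hj (hTI g hgN _ hxj hxj')
    have hdvd : orderOf x ∣ Nat.card K - 1 := by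
      let X := {w : K // w ≠ 1}
      let act : MulAction (Subgroup.zpowers x) X :=
        { smul := fun u w => ⟨⟨(u : G) * (w.1 : G) * (u : G)⁻¹, (Subgroup.mem_normalizer_iff.1
              ((Subgroup.zpowers_le.2 hx) u.2) _).1 w.1.2⟩, fun e => w.2 (Subtype.ext (by
                have e' := congrArg Subtype.val e
                simpa using e'))⟩
          one_smul := fun w => Subtype.ext (Subtype.ext (by
            show (1 : G) * (w.1 : G) * (1 : G)⁻¹ = _
            simp))
          mul_smul := fun u v w => Subtype.ext (Subtype.ext (by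
            show ((u * v : Subgroup.zpowers x) : G) * (w.1 : G) * ((u * v : Subgroup.zpowers x) : G)⁻¹ =
              (u : G) * ((v : G) * (w.1 : G) * (v : G)⁻¹) * (u : G)⁻¹
            rw [Subgroup.coe_mul, mul_inv_rev]; simp only [mul_assoc])) }
      letI := act
      have hfree : ∀ w : X, MulAction.stabilizer (Subgroup.zpowers x) w = ⊥ := by
        intro w
        rw [Subgroup.eq_bot_iff_forall]
        rintro ⟨_, j, rfl⟩ hs
        by_contra hne
        refine hzk j (fun e => hne (Subtype.ext e)) ⟨_, w.1.2, fun e => w.2 (Subtype.ext e), ?_⟩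
        have e := congrArg (fun y : X => ((y.1 : K) : G)) (MulAction.mem_stabilizer_iff.1 hs)
        exact mul_inv_eq_iff_eq_mul.1 e
      have hXc : Nat.card X = Nat.card K - 1 := by
        haveI : Fintype K := Fintype.ofFinite _
        rw [Nat.card_eq_fintype_card, Nat.card_eq_fintype_card, Fintype.card_subtype_compl,
          Fintype.card_subtype_eq]
      haveI : Finite (Quotient (MulAction.orbitRel (Subgroup.zpowers x) X)) := inferInstance
      rw [← hXc, Nat.card_congr (MulAction.selfEquivSigmaOrbitsQuotientStabilizer (Subgroup.zpowers x) X)]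
      haveI : Fintype (Quotient (MulAction.orbitRel (Subgroup.zpowers x) X)) := Fintype.ofFinite _
      rw [Nat.card_sigma]
      refine Finset.dvd_sum fun ω _ => ?_
      rw [← Subgroup.index_eq_card, hfree, Subgroup.index_bot, Nat.card_zpowers]
    have hdvd2 : orderOf x ∣ Nat.card K := by
      have e : orderOf x = orderOf k := by rw [hk, ← MulAut.conj_apply, MulEquiv.orderOf_eq]
      rw [e]
      exact Subgroup.orderOf_dvd_natCard (s := K) hgx
    have hpos : 1 ≤ Nat.card K := Nat.card_pos
    have := Nat.dvd_sub hdvd2 hdvd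
    rw [Nat.sub_sub_self hpos] at this
    exact hx1 (orderOf_eq_one_iff.1 (Nat.dvd_one.1 this))
  refine ⟨h1, fun ϑ hϑ hvan hone x => ?_⟩
  haveI : Fintype N := Fintype.ofFinite _
  rw [Chars.indFun_apply]
  by_cases hxK : (x : G) ∈ K ∧ (x : G) ≠ 1
  · have hterm : ∀ y : G, extendByZero N ϑ (y⁻¹ * (x : G) * y) = if y ∈ N then ϑ x else 0 := by
      intro y
      by_cases hy : y ∈ N
      · have hm : y⁻¹ * (x : G) * y ∈ N := N.mul_mem (N.mul_mem (N.inv_mem hy) x.2) hy
        rw [Chars.extendByZero_of_mem N ϑ hm, if_pos hy, ← hϑ x (⟨y, hy⟩⁻¹ : N)]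
        exact congrArg ϑ (Subtype.ext (by simp))
      · rw [if_neg hy]
        by_cases hm : y⁻¹ * (x : G) * y ∈ N
        · rw [Chars.extendByZero_of_mem N ϑ hm]
          refine hvan _ fun hmK => hy ?_
          have := hconj y⁻¹ (x : G) hxK.1 hxK.2 (by simpa using hmK)
          simpa using N.inv_mem this
        · exact Chars.extendByZero_of_not_mem N ϑ hm
    rw [Finset.sum_congr rfl fun y _ => hterm y, ← Finset.sum_filter, Finset.sum_const,
      nsmul_eq_mul, ← Fintype.card_subtype, ← Nat.card_eq_fintype_card, ← mul_assoc,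
      inv_mul_cancel₀ (Chars.subgroup_card_ne_zero N), one_mul]
  · have h0 : ϑ x = 0 := by
      by_cases hxK' : (x : G) ∈ K
      · rw [show x = 1 from Subtype.ext (not_not.1 (not_and.1 hxK hxK')), hone]
      · exact hvan x hxK'
    rw [h0, Finset.sum_eq_zero, mul_zero]
    intro y _
    by_cases hm : y⁻¹ * (x : G) * y ∈ N
    · rw [Chars.extendByZero_of_mem N ϑ hm]
      by_cases hx1 : (x : G) = 1
      · rw [show (⟨_, hm⟩ : N) = 1 from Subtype.ext (by show y⁻¹ * (x : G) * y = 1; rw [hx1]; simp), hone]
      · refine hvan _ ?_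
        have hxK' : (x : G) ∉ K := fun h => hxK ⟨h, hx1⟩
        intro hmK
        exact h1 x x.2 hxK' y⁻¹ (by simpa using hmK)
    · exact Chars.extendByZero_of_not_mem N ϑ hm

end Cfsg.Agent.S0850
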