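import Cfsg.Statements.S0851
import Cfsg.Agent.OddChar.TICoherent

set_option autoImplicit false
open Cfsg

namespace Cfsg.Agent.S0851

/-- Let K be a subgroup of the finite group G that meets each conjugate by an element outside its normalizer N trivially, is properly contained in N, and contains the centralizer of each of its non-identity elements (a T.I. subgroup with Frobenius normalizer). Suppose K is abelian, let e be the index of K in N, and call an irreducible character of N relevant when it takes at some element of K a value different from its degree. Then either there is exactly one relevant character and K is an elementary abelian p-group of order e + 1 for some prime p, or there are a sign ε and an injective map f from the relevant characters to the irreducible characters of G such that inducing χ - ξ to G gives ε (f χ - f ξ) for all relevant χ and ξ. -/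
theorem result {G : Type*} [Group G] [Fintype G] (K : Subgroup G) (hTI : ∀ g : G, g ∉ Subgroup.normalizer (K : Set G) → ∀ k ∈ K, g * k * g⁻¹ ∈ K → k = 1) (hlt : K < Subgroup.normalizer (K : Set G)) (hC : ∀ k ∈ K, k ≠ 1 → Subgroup.centralizer ({k} : Set G) ≤ K) (hab : ∀ a ∈ K, ∀ b ∈ K, a * b = b * a) : (Nat.card {χ : Cfsg.IrrCharacter (Subgroup.normalizer (K : Set G)) // ∃ k : Subgroup.normalizer (K : Set G), (k : G) ∈ K ∧ (χ : ↥(Subgroup.normalizer (K : Set G)) → ℂ) k ≠ (χ : ↥(Subgroup.normalizer (K : Set G)) → ℂ) 1} = 1 ∧ ∃ p : ℕ, p.Prime ∧ Cfsg.IsElementaryAbelian p K ∧ Nat.card K = (K.subgroupOf (Subgroup.normalizer (K : Set G))).index + 1) ∨ ∃ (ε : ℂ) (f : {χ : Cfsg.IrrCharacter (Subgroup.normalizer (K : Set G)) // ∃ k : Subgroup.normalizer (K : Set G), (k : G) ∈ K ∧ (χ : ↥(Subgroup.normalizer (K : Set G)) → ℂ) k ≠ (χ : ↥(Subgroup.normalizer (K : Set G)) → ℂ) 1} → Cfsg.IrrCharacter G), (ε = 1 ∨ ε = -1)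 ∧ Function.Injective f ∧ ∀ χ ξ, Cfsg.indFun (Subgroup.normalizer (K : Set G)) ((χ.1 : ↥(Subgroup.normalizer (K : Set G)) → ℂ) - (ξ.1 : ↥(Subgroup.normalizer (K : Set G)) → ℂ)) = ε • ((f χ : G → ℂ) - (f ξ : G → ℂ)) := by
  set L := Subgroup.normalizer (K : Set G) with hL
  haveI : Fintype L := Fintype.ofFinite _
  haveI hn : (K.subgroupOf L).Normal := Subgroup.normal_in_normalizer
  set K' := K.subgroupOf L with hK'
  have hC' : ∀ k ∈ K', k ≠ 1 → Subgroup.centralizer ({k} : Set L) ≤ K' := by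
    intro k hk hk1 x hx
    refine Subgroup.mem_subgroupOf.mpr (hC k (Subgroup.mem_subgroupOf.mp hk) (fun h => hk1 (Subtype.ext h)) ?_)
    rw [Subgroup.mem_centralizer_singleton_iff] at hx ⊢
    exact congrArg Subtype.val hx
  have hcomm : ∀ a ∈ K', ∀ b ∈ K', a * b = b * a := fun a ha b hb =>
    Subtype.ext (hab a (Subgroup.mem_subgroupOf.mp ha) b (Subgroup.mem_subgroupOf.mp hb))
  set S := Cfsg.inducedIrrAbove K' ⊥ with hS
  have hmem : ∀ χ : L → ℂ, χ ∈ S ↔ Cfsg.IsIrrCharacter L χ ∧ ∃ k : L, (k : G) ∈ K ∧ χ k ≠ χ 1 := by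
    intro χ
    rw [hS, OddChar.frob_indAbove_eq hC']
    simp [hK', Subgroup.mem_subgroupOf]
  let eqv : {χ : Cfsg.IrrCharacter L // ∃ k : L, (k : G) ∈ K ∧ (χ : L → ℂ) k ≠ (χ : L → ℂ) 1} ≃ ↥S :=
    { toFun := fun χ => ⟨(χ.1 : L → ℂ), (hmem _).mpr ⟨χ.1.2, χ.2⟩⟩
      invFun := fun φ => ⟨⟨φ.1, ((hmem _).mp φ.2).1⟩, ((hmem _).mp φ.2).2⟩
      left_inv := fun χ => rfl
      right_inv := fun φ => rfl }
  by_cases hK1 : K = ⊥
  · right
    haveI : IsEmpty {χ : Cfsg.IrrCharacter L // ∃ k : L, (k : G) ∈ K ∧ (χ : L → ℂ) k ≠ (χ : L → ℂ) 1} :=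
      ⟨fun χ => by
        obtain ⟨k, hk, hk1⟩ := χ.2
        rw [hK1, Subgroup.mem_bot] at hk
        exact hk1 (by rw [show k = 1 from Subtype.ext hk])⟩
    exact ⟨1, isEmptyElim, Or.inl rfl, fun a => isEmptyElim a, fun a => isEmptyElim a⟩
  have hK'1 : K' ≠ ⊥ := fun h => hK1 (by
    rw [← Subgroup.map_subgroupOf_eq_of_le (H := K) (K := L) Subgroup.le_normalizer, ← hK', h, Subgroup.map_bot])
  have hcard : Nat.card K' = Nat.card K :=
    Nat.card_congr (Subgroup.subgroupOfEquivOfLe Subgroup.le_normalizer).toEquiv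
  obtain ⟨hτ, hτ1⟩ := OddChar.ti_isometry K L Subgroup.le_normalizer hTI rfl
  rcases OddChar.frob_abelian_case K' hK'1 hC' hcomm (fun α : L → ℂ => Cfsg.indFun L α) hτ hτ1 with ⟨h1, h2⟩ | hcoh
  · left
    refine ⟨by rw [Nat.card_congr eqv]; exact h1, ?_⟩
    obtain ⟨p, hp, hpd⟩ := Nat.exists_prime_and_dvd (n := Nat.card K') (fun h => hK'1 (Subgroup.card_eq_one.mp h))
    haveI : Fact p.Prime := ⟨hp⟩
    obtain ⟨hc, hexp⟩ := OddChar.frob_elementary K' hC' hcomm h2 hpd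
    refine ⟨p, hp, ⟨⟨⟨fun a b => Subtype.ext (hab a a.2 b b.2)⟩⟩, fun a ha => ?_⟩, by rw [← hcard]; exact h2⟩
    exact congrArg Subtype.val (hexp ⟨a, Subgroup.le_normalizer ha⟩ (Subgroup.mem_subgroupOf.mpr ha))
  · right
    obtain ⟨-, τ₁, hτ₁, hagree⟩ := hcoh
    obtain ⟨hdeg, -⟩ := OddChar.frob_abelian_count K' hC' hcomm
    have hirr : ∀ φ ∈ S, Cfsg.IsIrrCharacter L φ := fun φ hφ => ((hmem φ).mp hφ).1
    have hz : ∀ φ ∈ S, φ ∈ Cfsg.zspan S := fun φ hφ => OddChar.zspan_subset_apply hφ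
    have hdiff : ∀ φ ∈ S, ∀ ψ ∈ S, φ - ψ ∈ Cfsg.zspanOn S {1}ᶜ ∧
        Cfsg.indFun L (φ - ψ) = τ₁ φ - τ₁ ψ := by
      intro φ hφ ψ hψ
      have h : φ - ψ ∈ Cfsg.zspanOn S {1}ᶜ := OddChar.mem_zspanOn_one.mpr
        ⟨OddChar.zspan_sub_mem (hz φ hφ) (hz ψ hψ), by rw [Pi.sub_apply, hdeg φ hφ, hdeg ψ hψ, sub_self]⟩
      exact ⟨h, (hagree _ h).symm.trans (OddChar.iso_map_sub hτ₁ h.1 (hz ψ hψ) |>.trans rfl)⟩
    have hsame : ∀ φ ∈ S, ∀ ψ ∈ S, τ₁ φ 1 = τ₁ ψ 1 := by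
      intro φ hφ ψ hψ
      obtain ⟨h, h'⟩ := hdiff φ hφ ψ hψ
      have h2 := congrFun h' 1
      rw [Chars.indFun_apply_one, (OddChar.mem_zspanOn_one.mp h).2, mul_zero, Pi.sub_apply, eq_comm,
        sub_eq_zero] at h2
      exact h2
    have hone : ∀ φ ∈ S, Cfsg.IsIrrCharacter G (τ₁ φ) ∨ Cfsg.IsIrrCharacter G (-τ₁ φ) := fun φ hφ =>
      OddChar.virt_norm_one (hτ₁.2.2.2 _ (hz φ hφ))
        (by rw [hτ₁.2.2.1 _ (hz φ hφ) _ (hz φ hφ), Chars.classInner_self_irr (hirr φ hφ)])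
    have hsign : ∀ φ ∈ S, ∀ ψ ∈ S, Cfsg.IsIrrCharacter G (τ₁ φ) → ¬ Cfsg.IsIrrCharacter G (-τ₁ ψ) := by
      intro φ hφ ψ hψ h h'
      obtain ⟨n, hn, hn'⟩ := Chars.exists_irr_apply_one_eq h
      obtain ⟨m, hm, hm'⟩ := Chars.exists_irr_apply_one_eq h'
      rw [Pi.neg_apply, ← hsame φ hφ ψ hψ, hn'] at hm'
      have : (((n + m : ℕ)) : ℂ) = 0 := by push_cast; linear_combination -hm'
      exact absurd (Nat.cast_eq_zero.mp this) (by omega)
    obtain ⟨ε, hε, hεi⟩ : ∃ ε : ℂ, (ε = 1 ∨ ε = -1) ∧ ∀ φ ∈ S, Cfsg.IsIrrCharacter G (ε • τ₁ φ) := by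
      by_cases h : ∃ φ ∈ S, Cfsg.IsIrrCharacter G (τ₁ φ)
      · obtain ⟨φ, hφ, hi⟩ := h
        exact ⟨1, Or.inl rfl, fun ψ hψ => by
          rw [one_smul]; exact (hone ψ hψ).resolve_right (hsign φ hφ ψ hψ hi)⟩
      · exact ⟨-1, Or.inr rfl, fun ψ hψ => by
          rw [neg_one_smul]; exact (hone ψ hψ).resolve_left fun hi => h ⟨ψ, hψ, hi⟩⟩
    have hε2 : ε * ε = 1 := by rcases hε with rfl | rfl <;> simp
    refine ⟨ε, fun χ => ⟨_, hεi _ (eqv χ).2⟩, hε, fun χ ξ h => ?_, fun χ ξ => ?_⟩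
    · have h' := congrArg Subtype.val h
      simp only at h'
      have h3 : τ₁ (eqv χ).1 = τ₁ (eqv ξ).1 := by
        have := congrArg (fun f => ε • f) h'
        simpa only [smul_smul, hε2, one_smul] using this
      apply eqv.injective
      by_contra hne
      have h4 := hτ₁.2.2.1 _ (hz _ (eqv χ).2) _ (hz _ (eqv ξ).2)
      rw [h3, hτ₁.2.2.1 _ (hz _ (eqv ξ).2) _ (hz _ (eqv ξ).2), Chars.classInner_self_irr (hirr _ (eqv ξ).2),
        Chars.classInner_irr_of_ne (hirr _ (eqv χ).2) (hirr _ (eqv ξ).2) (fun he => hne (Subtype.ext he))] at h4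
      exact one_ne_zero h4
    · rw [← smul_sub, smul_smul, hε2, one_smul]
      exact (hdiff _ (eqv χ).2 _ (eqv ξ).2).2

end Cfsg.Agent.S0851
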