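import Cfsg.Statements.S0855
import Cfsg.Agent.Chars2.DegreeInherit
import Cfsg.Agent.S4456

set_option autoImplicit false
open Cfsg

namespace Cfsg.Agent.S0855

/-- For a finite group G and a prime p: every irreducible character of G has degree a power of p if and only if G has an abelian normal subgroup whose order is prime to p and whose index is a power of p. -/
theorem result {G : Type*} [Group G] [Finite G] (p : ℕ) (hp : p.Prime) : (∀ χ : Cfsg.IrrCharacter G, ∃ k : ℕ, (χ : G → ℂ) 1 = (p : ℂ) ^ k) ↔ ∃ A : Subgroup G, A.Normal ∧ (∀ a ∈ A, ∀ b ∈ A, a * b = b * a) ∧ Nat.Coprime (Nat.card A) p ∧ ∃ k : ℕ, A.index = p ^ k := by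
  classical
  haveI := Fact.mk hp
  haveI := Fintype.ofFinite G
  constructor
  · intro h
    have hpow : ∀ χ : Cfsg.IrrCharacter G, ∃ k : ℕ, Cfsg.charDegree (χ : G → ℂ) = p ^ k := fun χ => by
      obtain ⟨k, hk⟩ := h χ
      refine ⟨k, ?_⟩
      rw [(Blocks.charDegree_eq χ.2).1] at hk
      exact_mod_cast hk
    obtain ⟨N, hN, hcop, k, hk⟩ := S4456.result p hp fun χ hne => by
      obtain ⟨k, hk⟩ := hpow χ
      rcases k with _ | k
      · exact absurd (by rw [hk, pow_zero]) hne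
      · rw [hk]; exact dvd_pow_self p k.succ_ne_zero
    haveI := hN
    refine ⟨N, hN, fun a ha b hb => ?_, hcop, k, hk⟩
    have hone : ∀ θ : Cfsg.IrrCharacter N, Cfsg.charDegree (θ : N → ℂ) = 1 := fun θ => by
      haveI : Fintype N := Fintype.ofFinite _
      obtain ⟨χ, hχ⟩ := Chars2.exists_degree_dvd_of_normal θ
      obtain ⟨j, hj⟩ := hpow χ
      rw [hj] at hχ
      have hdN : Cfsg.charDegree (θ : N → ℂ) ∣ Nat.card N := by
        obtain ⟨d, -, hd, hdvd⟩ := Chars.irr_degree_dvd_card θ.2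
        rw [(Blocks.charDegree_eq θ.2).1] at hd
        rwa [show Cfsg.charDegree (θ : N → ℂ) = d from by exact_mod_cast hd]
      exact Nat.eq_one_of_dvd_coprimes (hcop.pow_right j) hdN hχ
    exact congrArg Subtype.val (Chars2.comm_of_degree_one hone ⟨a, ha⟩ ⟨b, hb⟩)
  · rintro ⟨A, hA, hab, -, k, hk⟩ χ
    haveI := hA
    obtain ⟨j, -, hj⟩ := (Nat.dvd_prime_pow hp).1 (hk ▸ Chars2.charDegree_dvd_index hab χ)
    exact ⟨j, by rw [(Blocks.charDegree_eq χ.2).1, hj, Nat.cast_pow]⟩

end Cfsg.Agent.S0855
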