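import Cfsg.Statements.S0860
import Cfsg.Agent.Chars.Induced
import Cfsg.Agent.Chars.Eigen

set_option autoImplicit false
open Cfsg

namespace Cfsg.Agent.S0860

/-- Let a group A act on the set of irreducible characters and on the set of conjugacy classes of a finite group G in such a way that (a • χ) evaluated on the class a • C equals χ evaluated on C, for all a, χ and C. Then every element of A fixes exactly as many irreducible characters as it fixes conjugacy classes. -/
theorem result {G : Type*} [Group G] [Finite G] {A : Type*} [Group A] [MulAction A (Cfsg.IrrCharacter G)] [MulAction A (ConjClasses G)] (hcompat : ∀ (a : A) (χ : Cfsg.IrrCharacter G) (g g' : G), ConjClasses.mk g' = a • ConjClasses.mk g → ((a • χ : Cfsg.IrrCharacter G) : G → ℂ) g' = (χ : G → ℂ) g) (a : A) : Nat.card {χ : Cfsg.IrrCharacter G // a • χ = χ} = Nat.card {C : ConjClasses G // a • C = C} := by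
  classical
  haveI := Fintype.ofFinite G
  haveI := Fintype.ofFinite (ConjClasses G)
  have hrep : ∀ C : ConjClasses G, ∃ g, ConjClasses.mk g = C := ConjClasses.exists_rep
  choose r hr using hrep
  set n : ConjClasses G → ℕ :=
    fun C => (Finset.univ.filter fun g : G => ConjClasses.mk g = C).card
  have hsum : ∀ F : ConjClasses G → ℂ, ∑ g : G, F (ConjClasses.mk g) = ∑ C, (n C : ℂ) * F C := by
    intro F
    rw [← Finset.sum_fiberwise Finset.univ ConjClasses.mk]
    refine Finset.sum_congr rfl fun C _ => ?_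
    rw [Finset.sum_congr rfl fun g hg => congrArg F (Finset.mem_filter.1 hg).2, Finset.sum_const,
      nsmul_eq_mul]
  have hχr : ∀ (χ : Cfsg.IrrCharacter G) (g : G),
      (χ : G → ℂ) g = (χ : G → ℂ) (r (ConjClasses.mk g)) := fun χ g => by
    obtain ⟨c, hc⟩ := isConj_iff.1 (ConjClasses.mk_eq_mk_iff_isConj.1 (hr (ConjClasses.mk g)))
    conv_lhs => rw [← hc]
    rw [Chars.isCharacter_conj_apply (Chars.irr_isCharacter χ)]
  have hval : ∀ (χ : Cfsg.IrrCharacter G) C,
      ((a • χ : Cfsg.IrrCharacter G) : G → ℂ) (r (a • C)) = (χ : G → ℂ) (r C) :=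
    fun χ C => hcompat a χ (r C) (r (a • C)) (by rw [hr, hr])
  -- orthogonality over classes
  have hcol : ∀ C D : ConjClasses G, ∑ χ : Cfsg.IrrCharacter G,
      (χ : G → ℂ) (r C) * (starRingEnd ℂ) ((χ : G → ℂ) (r D)) =
      if C = D then (Nat.card (Subgroup.centralizer ({r C} : Set G)) : ℂ) else 0 := by
    intro C D
    rw [Chars.column_orth]
    by_cases h : C = D
    · subst h; rw [if_pos (IsConj.refl _), if_pos rfl]
    · rw [if_neg h, if_neg]
      intro hc
      exact h (by rw [← hr C, ← hr D]; exact ConjClasses.mk_eq_mk_iff_isConj.2 hc)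
  have hnc : ∀ C, (n C : ℂ) * (Nat.card (Subgroup.centralizer ({r C} : Set G)) : ℂ) = Nat.card G := by
    intro C
    have e : n C = Nat.card {x : G // IsConj (r C) x} := by
      rw [Nat.card_eq_fintype_card, Fintype.card_subtype]
      simp only [n]
      congr 1
      ext x
      simp only [Finset.mem_filter, Finset.mem_univ, true_and]
      rw [← hr C, ConjClasses.mk_eq_mk_iff_isConj, hr C]
      exact ⟨IsConj.symm, IsConj.symm⟩
    have hidx : Fintype.card {x : G // IsConj (r C) x} =
        (Subgroup.centralizer ({r C} : Set G)).index := by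
      rw [Fintype.card_subtype]; convert Chars.card_filter_isConj (r C) using 2
      ext; simp
    rw [e, Nat.card_eq_fintype_card, hidx]
    rw [mul_comm]
    exact_mod_cast Subgroup.card_mul_index _
  have hn : ∀ C, n (a • C) = n C := by
    intro C
    have e1 := hcol (a • C) (a • C)
    have e2 := hcol C C
    rw [if_pos rfl] at e1 e2
    rw [← Equiv.sum_comp (MulAction.toPerm a)] at e1
    simp only [MulAction.toPerm_apply, hval] at e1
    have h1 := hnc (a • C)
    rw [← e1, e2] at h1
    have h2 := h1.trans (hnc C).symm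
    have hne : (Nat.card (Subgroup.centralizer ({r C} : Set G)) : ℂ) ≠ 0 :=
      Chars.subgroup_card_ne_zero _
    exact_mod_cast mul_right_cancel₀ hne h2
  have hG : (Nat.card G : ℂ) ≠ 0 := Chars.card_ne_zero
  have h1 : (Nat.card {χ : Cfsg.IrrCharacter G // a • χ = χ} : ℂ) =
      ∑ χ : Cfsg.IrrCharacter G,
        Cfsg.classInner ((a • χ : Cfsg.IrrCharacter G) : G → ℂ) (χ : G → ℂ) := by
    simp only [Chars.classInner_irrCharacter, Finset.sum_boole, Nat.card_eq_fintype_card,
      Fintype.card_subtype]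
  have h2 : (Nat.card {C : ConjClasses G // a • C = C} : ℂ) =
      ∑ C : ConjClasses G, (Nat.card G : ℂ)⁻¹ * ((n (a • C) : ℂ) * ∑ χ : Cfsg.IrrCharacter G,
        (χ : G → ℂ) (r C) * (starRingEnd ℂ) ((χ : G → ℂ) (r (a • C)))) := by
    rw [Nat.card_eq_fintype_card, Fintype.card_subtype, ← Finset.sum_boole]
    refine Finset.sum_congr rfl fun C _ => ?_
    rw [hcol]
    by_cases h : a • C = C
    · rw [if_pos h, if_pos h.symm, hn, hnc, inv_mul_cancel₀ hG]
    · rw [if_neg h, if_neg (Ne.symm h), mul_zero, mul_zero]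
  have key : (Nat.card {χ : Cfsg.IrrCharacter G // a • χ = χ} : ℂ) =
      Nat.card {C : ConjClasses G // a • C = C} := by
    rw [h1, h2, ← Finset.mul_sum]
    simp only [Chars.classInner_def, Finset.mul_sum]
    conv_rhs => rw [Finset.sum_comm]
    refine Finset.sum_congr rfl fun χ _ => ?_
    simp only [← Finset.mul_sum]
    congr 1
    calc ∑ g : G, ((a • χ : Cfsg.IrrCharacter G) : G → ℂ) g * (starRingEnd ℂ) ((χ : G → ℂ) g)
        = ∑ g : G, (fun C => ((a • χ : Cfsg.IrrCharacter G) : G → ℂ) (r C) *
            (starRingEnd ℂ) ((χ : G → ℂ) (r C))) (ConjClasses.mk g) :=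
          Finset.sum_congr rfl fun g _ => by simp only []; rw [← hχr, ← hχr]
      _ = ∑ C, (n C : ℂ) * (((a • χ : Cfsg.IrrCharacter G) : G → ℂ) (r C) *
            (starRingEnd ℂ) ((χ : G → ℂ) (r C))) := hsum (fun C =>
              ((a • χ : Cfsg.IrrCharacter G) : G → ℂ) (r C) * (starRingEnd ℂ) ((χ : G → ℂ) (r C)))
      _ = ∑ C, (n (a • C) : ℂ) * ((χ : G → ℂ) (r C) * (starRingEnd ℂ) ((χ : G → ℂ) (r (a • C)))) := by
          rw [← Equiv.sum_comp (MulAction.toPerm a)]
          simp only [MulAction.toPerm_apply, hval]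
  exact_mod_cast key

end Cfsg.Agent.S0860
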