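import Cfsg.Statements.S0861
import Cfsg.Agent.DegreeGraph.GaloisMean
import Cfsg.Agent.DegreeGraph.AbelianNormal
import Cfsg.Agent.Chars2.DegreeInherit
import Cfsg.Agent.S1493

set_option autoImplicit false
open Cfsg

namespace Cfsg.Agent.S0861

/-- Let P be a normal abelian Sylow p-subgroup of the finite group G and suppose some element g of P has centralizer exactly P. Then the number of irreducible characters of G is at most the order of P, and if equality holds then G / P is abelian (the commutator subgroup lies in P). -/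
theorem result {G : Type*} [Group G] [Finite G] (p : ℕ) [Fact p.Prime] (P : Sylow p G) [(P : Subgroup G).Normal] (hab : ∀ a ∈ P, ∀ b ∈ P, a * b = b * a) (g : G) (hg : g ∈ P) (hC : Subgroup.centralizer ({g} : Set G) = P) : Nat.card (Cfsg.IrrCharacter G) ≤ Nat.card P ∧ (Nat.card (Cfsg.IrrCharacter G) = Nat.card P → commutator G ≤ P) := by
  classical
  haveI := Fintype.ofFinite G
  have hpp : p.Prime := Fact.out
  obtain ⟨b, hb⟩ : ∃ b, orderOf g = p ^ b := by
    obtain ⟨b, hb⟩ := (IsPGroup.iff_orderOf.1 P.2) ⟨g, hg⟩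
    exact ⟨b, by rwa [Subgroup.orderOf_mk] at hb⟩
  have hne : ∀ χ : Cfsg.IrrCharacter G, (χ : G → ℂ) g ≠ 0 := fun χ => by
    obtain ⟨d, hd, hdvd⟩ := DegreeGraph.exists_degree_dvd_index (P : Subgroup G) hab χ.2
    exact DegreeGraph.value_ne_zero_of_not_dvd (Chars.irr_isCharacter χ) hd
      (fun h => P.not_dvd_index (h.trans hdvd)) hb
  have hsum : ∑ χ : Cfsg.IrrCharacter G, ‖(χ : G → ℂ) g‖ ^ 2 = (Nat.card P : ℝ) := by
    have h := Chars.column_orth g g
    rw [if_pos (IsConj.refl g), hC] at h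
    apply Complex.ofReal_injective
    push_cast
    rw [← h]
    exact Finset.sum_congr rfl fun χ _ => (Complex.mul_conj' _).symm
  set A : Finset (Cfsg.IrrCharacter G) :=
    Finset.univ.filter fun χ => ∀ x ∈ P, (χ : G → ℂ) x = (χ : G → ℂ) 1 with hAdef
  have hA : ((Aᶜ).card : ℝ) ≤ ∑ χ ∈ Aᶜ, ‖(χ : G → ℂ) g‖ ^ 2 := by
    refine DegreeGraph.card_le_sum_norm_sq (ι := Cfsg.IrrCharacter G) Aᶜ (fun χ => (χ : G → ℂ))
      (fun χ => Chars.irr_isCharacter χ) (fun _ => g) (fun χ _ => hne χ) fun j hj _ => ?_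
    have hex : ∀ χ : Cfsg.IrrCharacter G, ∃ χ' : Cfsg.IrrCharacter G,
        ∀ x : G, (χ' : G → ℂ) x = (χ : G → ℂ) (x ^ j) := fun χ => by
      obtain ⟨χ', -, h2, h3, -⟩ := S1493.result (G := G) (Nat.card G) 1 j (mul_one _).symm
        (Nat.coprime_one_right _) hj χ (Chars.irr_isCharacter χ)
      exact ⟨⟨χ', h2 χ.2⟩, fun x => h3 x (orderOf_dvd_natCard x)⟩
    choose s hs using hex
    have hbij : Function.Bijective (fun x : G => x ^ j) := (powCoprime hj.symm).bijective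
    refine ⟨s, fun χ _ χ' _ h => Subtype.ext (funext fun x => ?_), fun χ hχ => ?_,
      fun χ _ => by rw [hs]⟩
    · obtain ⟨y, rfl⟩ := hbij.2 x
      show (χ : G → ℂ) (y ^ j) = (χ' : G → ℂ) (y ^ j)
      rw [← hs, ← hs, h]
    · simp only [Finset.mem_compl, hAdef, Finset.mem_filter, Finset.mem_univ, true_and] at hχ ⊢
      intro hall
      refine hχ fun x hx => ?_
      have hjP : Nat.Coprime (Nat.card P) j :=
        (hj.coprime_dvd_right (P : Subgroup G).card_subgroup_dvd_card).symm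
      obtain ⟨y, hy⟩ := (powCoprime hjP).surjective ⟨x, hx⟩
      have h4 := hall (y : G) y.2
      rw [hs, hs, one_pow] at h4
      have h5 : (y : G) ^ j = x := congrArg Subtype.val hy
      rwa [h5] at h4
  have hdeg : ∀ χ ∈ A, ∃ d : ℕ, d ≠ 0 ∧ (χ : G → ℂ) 1 = d ∧
      ‖(χ : G → ℂ) g‖ ^ 2 = ((d ^ 2 : ℕ) : ℝ) := fun χ hχ => by
    obtain ⟨d, hd0, hd⟩ := Chars.exists_irr_apply_one_eq χ.2
    refine ⟨d, hd0.ne', hd, ?_⟩
    simp only [hAdef, Finset.mem_filter] at hχ
    rw [hχ.2 g hg, hd, Complex.norm_natCast, Nat.cast_pow]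
  choose! d hd0 hd1 hd2 using hdeg
  have hA2 : ∑ χ ∈ A, ‖(χ : G → ℂ) g‖ ^ 2 = ((∑ χ ∈ A, d χ ^ 2 : ℕ) : ℝ) := by
    rw [Nat.cast_sum]; exact Finset.sum_congr rfl hd2
  rw [← Finset.sum_add_sum_compl A, hA2] at hsum
  have hcard : Nat.card (Cfsg.IrrCharacter G) = A.card + (Aᶜ).card := by
    rw [Finset.card_add_card_compl, Nat.card_eq_fintype_card]
  have hle : A.card ≤ ∑ χ ∈ A, d χ ^ 2 := by
    rw [Finset.card_eq_sum_ones]
    exact Finset.sum_le_sum fun χ hχ => Nat.one_le_pow _ _ (Nat.pos_of_ne_zero (hd0 χ hχ))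
  have hmain : ((∑ χ ∈ A, d χ ^ 2 : ℕ) : ℝ) + (Aᶜ).card ≤ (Nat.card P : ℝ) := by linarith
  have hmain' : (∑ χ ∈ A, d χ ^ 2) + (Aᶜ).card ≤ Nat.card P := by exact_mod_cast hmain
  refine ⟨by omega, fun heq => ?_⟩
  have hone : ∀ χ ∈ A, d χ = 1 := by
    intro χ hχ
    by_contra h1
    have : A.card < ∑ χ ∈ A, d χ ^ 2 := by
      rw [Finset.card_eq_sum_ones]
      refine Finset.sum_lt_sum (fun χ hχ => Nat.one_le_pow _ _ (Nat.pos_of_ne_zero (hd0 χ hχ)))
        ⟨χ, hχ, ?_⟩
      have := hd0 χ hχ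
      exact one_lt_pow₀ (by omega) two_ne_zero
    omega
  rw [commutator_def, Subgroup.commutator_le]
  intro a _ c _
  have hcomm := Chars.comm_of_forall_linear (G := G ⧸ (P : Subgroup G)) (fun θ => by
    have hin := Chars.isIrrCharacter_comp_surjective θ.2 (QuotientGroup.mk' (P : Subgroup G))
      (QuotientGroup.mk'_surjective _)
    have hmem : (⟨_, hin⟩ : Cfsg.IrrCharacter G) ∈ A := by
      simp only [hAdef, Finset.mem_filter, Finset.mem_univ, true_and]
      intro x hx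
      show (θ : _ → ℂ) (QuotientGroup.mk' (P : Subgroup G) x) = _
      rw [QuotientGroup.mk'_apply, (QuotientGroup.eq_one_iff x).2 hx]
      simp
    have h := hd1 _ hmem
    rw [hone _ hmem, Nat.cast_one] at h
    simpa using h) (QuotientGroup.mk a) (QuotientGroup.mk c)
  rw [← QuotientGroup.eq_one_iff, commutatorElement_def, QuotientGroup.mk_mul, QuotientGroup.mk_mul,
    QuotientGroup.mk_mul, QuotientGroup.mk_inv, QuotientGroup.mk_inv, hcomm]
  group

end Cfsg.Agent.S0861
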