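import Cfsg.Statements.S0862
import Cfsg.Agent.Chars2.LinearExtend

set_option autoImplicit false
open Cfsg

namespace Cfsg.Agent.S0862

/-- Let N be a normal subgroup of the finite group G and ϑ an irreducible character of N of degree d coprime to the index of N, which is the restriction of some irreducible character of G. Let μ be a character of G of degree 1 whose restriction to N is the determinantal character of ϑ. Then there is exactly one irreducible character χ of G restricting to ϑ whose determinantal character is μ. -/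
theorem result {G : Type*} [Group G] [Finite G] (N : Subgroup G) [N.Normal] (ϑ : N → ℂ) (hϑ : Cfsg.IsIrrCharacter N ϑ) (d : ℕ) (hd : ϑ 1 = d) (hcop : Nat.Coprime N.index d) (hext : ∃ η : G → ℂ, Cfsg.IsIrrCharacter G η ∧ (∀ n : N, η n = ϑ n)) (μ : G → ℂ) (hμ : Cfsg.IsCharacter G μ ∧ μ 1 = 1) (hμN : ∀ n : N, μ n = Cfsg.detChar ϑ n) : ∃! χ : G → ℂ, Cfsg.IsIrrCharacter G χ ∧ (∀ n : N, χ n = ϑ n) ∧ Cfsg.detChar χ = μ := by
  obtain ⟨k, ρ, hirr, rfl⟩ := hϑ
  haveI := hirr
  obtain ⟨φ, rfl⟩ := Chars2.exists_linFun μ hμ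
  obtain ⟨η, ⟨l, σ, -, rfl⟩, hη⟩ := hext
  obtain ⟨e⟩ := Chars2.equiv_of_character_eq ρ (σ.comp N.subtype)
    (funext fun n => (hη n).symm)
  have hk : k = d := by
    rw [Representation.char_one, Module.finrank_fin_fun] at hd
    exact_mod_cast hd
  subst hk
  exact Chars2.existsUnique_ext_det ρ hcop
    ((e.symm.toLinearEquiv.conjAlgEquiv ℂ).toMonoidHom.comp σ) (fun n => e.symm.conj_apply_self n) φ
    (fun n => Units.ext (by
      have := hμN n
      rwa [Chars2.detChar_eq ρ _ rfl] at this))

end Cfsg.Agent.S0862
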