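import Cfsg.Statements.S0864
import Cfsg.Agent.Chars2.LinearExtend

set_option autoImplicit false
open Cfsg

namespace Cfsg.Agent.S0864

/-- Let N be a normal subgroup of the finite group G and λ a character of N of degree 1 invariant under conjugation by G. Suppose that for every prime p dividing the order of λ (in the group of functions under pointwise multiplication) there is a subgroup H containing N, of index prime to p and with the index of N in H a power of p, together with a character of H of degree 1 restricting to λ. Then λ is the restriction of a character of G of degree 1. -/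
theorem result {G : Type*} [Group G] [Finite G] (N : Subgroup G) [hN : N.Normal] (lam : N → ℂ) (hlam : Cfsg.IsCharacter N lam ∧ lam 1 = 1) (hinv : ∀ (g : G) (n : N), lam ⟨g * n * g⁻¹, hN.conj_mem (n : G) n.2 g⟩ = lam n) (hsyl : ∀ p : ℕ, p.Prime → p ∣ orderOf lam → ∃ (H : Subgroup G) (hNH : N ≤ H) (ν : H → ℂ), Nat.Coprime H.index p ∧ (∃ k : ℕ, N.relIndex H = p ^ k) ∧ Cfsg.IsCharacter H ν ∧ ν 1 = 1 ∧ ∀ n : N, ν ⟨(n : G), hNH n.2⟩ = lam n) : ∃ μ : G → ℂ, Cfsg.IsCharacter G μ ∧ μ 1 = 1 ∧ ∀ n : N, μ n = lam n := by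
  obtain ⟨l, rfl⟩ := Chars2.exists_linFun lam hlam
  rw [Chars2.orderOf_linFun] at hsyl
  let S : AddSubgroup ℤ :=
    { carrier := {m | ∃ μ : G →* ℂˣ, ∀ n : N, μ n = l n ^ m}
      zero_mem' := ⟨1, fun n => by simp⟩
      add_mem' := by
        rintro a b ⟨μ, hμ⟩ ⟨μ', hμ'⟩
        exact ⟨μ * μ', fun n => by simp [hμ, hμ', zpow_add]⟩
      neg_mem' := by
        rintro a ⟨μ, hμ⟩
        exact ⟨μ⁻¹, fun n => by simp [hμ]⟩ }
  have hS : ∀ p : ℕ, p.Prime → ∃ m ∈ S, ¬ (p : ℤ) ∣ m := by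
    intro p hp
    by_cases hpo : p ∣ orderOf l
    · obtain ⟨H, hNH, ν, hc, -, hν, hν1, hres⟩ := hsyl p hp hpo
      obtain ⟨ν, rfl⟩ := Chars2.exists_linFun ν ⟨hν, hν1⟩
      refine ⟨H.index, ⟨MonoidHom.transfer ν, fun n => ?_⟩, fun h => ?_⟩
      · rw [zpow_natCast]
        exact Chars2.transfer_eq_pow_of_invariant l (Chars2.hom_conj_of_fun l hinv) hNH ν
          (fun n => Units.ext (hres n)) n
      · exact hp.not_dvd_one (hc ▸ Nat.dvd_gcd (Int.natCast_dvd_natCast.mp h) dvd_rfl)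
    · refine ⟨orderOf l, ⟨1, fun n => ?_⟩, fun h => hpo (Int.natCast_dvd_natCast.mp h)⟩
      rw [zpow_natCast, ← MonoidHom.pow_apply, pow_orderOf_eq_one]
      rfl
  obtain ⟨μ, hμ⟩ := Chars2.addSubgroup_int_eq_top S hS
  exact ⟨Chars2.linFun μ, (Chars2.linFun_isCharacter μ).1, (Chars2.linFun_isCharacter μ).2,
    fun n => by simp [hμ]⟩

end Cfsg.Agent.S0864
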