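import Cfsg.Statements.S0865
import Cfsg.Agent.Chars2.LinearExtend

set_option autoImplicit false
open Cfsg

namespace Cfsg.Agent.S0865

/-- Let N be a normal subgroup of the finite group G and λ a character of N of degree 1, invariant under conjugation by G, whose order (under pointwise multiplication) is coprime to the index of N. Then there is a character μ of G of degree 1 restricting to λ with the same order as λ, and μ is the only degree-1 character of G restricting to λ whose order is coprime to the index of N. -/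
theorem result {G : Type*} [Group G] [Finite G] (N : Subgroup G) [hN : N.Normal] (lam : N → ℂ) (hlam : Cfsg.IsCharacter N lam ∧ lam 1 = 1) (hinv : ∀ (g : G) (n : N), lam ⟨g * n * g⁻¹, hN.conj_mem (n : G) n.2 g⟩ = lam n) (hcop : Nat.Coprime N.index (orderOf lam)) : ∃ μ : G → ℂ, (Cfsg.IsCharacter G μ ∧ μ 1 = 1 ∧ (∀ n : N, μ n = lam n) ∧ orderOf μ = orderOf lam) ∧ ∀ μ' : G → ℂ, Cfsg.IsCharacter G μ' ∧ μ' 1 = 1 → (∀ n : N, μ' n = lam n) → Nat.Coprime N.index (orderOf μ') → μ' = μ := by
  obtain ⟨l, rfl⟩ := Chars2.exists_linFun lam hlam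
  rw [Chars2.orderOf_linFun] at hcop
  obtain ⟨μ, hμ, ho⟩ :=
    Chars2.exists_ext_same_order l (Chars2.hom_conj_of_fun l hinv) hcop
  refine ⟨Chars2.linFun μ, ⟨(Chars2.linFun_isCharacter μ).1, (Chars2.linFun_isCharacter μ).2,
    fun n => by simp [hμ], by rw [Chars2.orderOf_linFun, Chars2.orderOf_linFun, ho]⟩, ?_⟩
  intro μ' hμ' hres hc
  obtain ⟨m, rfl⟩ := Chars2.exists_linFun μ' hμ'
  rw [Chars2.orderOf_linFun] at hc
  exact congrArg Chars2.linFun (Chars2.ext_unique_of_coprime m μ
    (fun n => Units.ext ((hres n).trans (by simp [hμ]))) hc (ho ▸ hcop))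

end Cfsg.Agent.S0865
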