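import Cfsg.Statements.S0867
import Cfsg.Agent.Chars2.LinearExtend

set_option autoImplicit false
open Cfsg

namespace Cfsg.Agent.S0867

/-- Let N be a normal subgroup of the finite group G and ϑ an irreducible character of N of degree d, invariant under conjugation by G, such that the index of N is coprime to the product of d and the determinantal order of ϑ. Then there is an irreducible character χ of G restricting to ϑ whose determinantal order equals that of ϑ, and χ is the only irreducible character of G restricting to ϑ whose determinantal order is coprime to the index of N. -/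
theorem result {G : Type*} [Group G] [Finite G] (N : Subgroup G) [hN : N.Normal] (ϑ : N → ℂ) (hϑ : Cfsg.IsIrrCharacter N ϑ) (hinv : ∀ (g : G) (n : N), ϑ ⟨g * n * g⁻¹, hN.conj_mem (n : G) n.2 g⟩ = ϑ n) (d : ℕ) (hd : ϑ 1 = d) (hcop : Nat.Coprime N.index (Cfsg.detOrder ϑ * d)) : ∃ χ : G → ℂ, (Cfsg.IsIrrCharacter G χ ∧ (∀ n : N, χ n = ϑ n) ∧ Cfsg.detOrder χ = Cfsg.detOrder ϑ) ∧ ∀ χ' : G → ℂ, Cfsg.IsIrrCharacter G χ' → (∀ n : N, χ' n = ϑ n) → Nat.Coprime N.index (Cfsg.detOrder χ') → χ' = χ := by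
  obtain ⟨k, ρ, hirr, rfl⟩ := hϑ
  haveI := hirr
  have hk : k = d := by
    rw [Representation.char_one, Module.finrank_fin_fun] at hd
    exact_mod_cast hd
  subst hk
  rw [Chars2.detOrder_eq ρ _ rfl] at hcop ⊢
  have hd' : Nat.Coprime N.index k := Nat.Coprime.coprime_mul_left_right hcop
  have ho : Nat.Coprime N.index (orderOf (Chars2.detHom ρ)) :=
    Nat.Coprime.coprime_mul_right_right hcop
  have hinv' : ∀ (g : G) (n : N),
      Chars2.detHom ρ (MulAut.conjNormal g n) = Chars2.detHom ρ n := by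
    intro g n
    obtain ⟨⟨⟨g', T⟩, hT⟩, hg⟩ :=
      Chars2.interFst_surjective ρ (Chars2.inv_conjNormal ρ.character hinv) g
    obtain rfl : g' = g := hg
    refine Units.ext ?_
    have h1 := congrArg LinearMap.det (hT n)
    simp only [map_mul] at h1
    rw [mul_comm] at h1
    exact mul_right_cancel₀ (IsUnit.map LinearMap.det T.isUnit).ne_zero h1.symm
  obtain ⟨μ, hμ, hμo⟩ := Chars2.exists_ext_same_order (Chars2.detHom ρ) hinv' ho
  obtain ⟨η, hirrη, hη⟩ : ∃ χ : G → ℂ, Cfsg.IsIrrCharacter G χ ∧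
      ∀ n : N, χ n = ρ.character n :=
    (Chars2.extends_iff_det ρ.character ⟨k, ρ, hirr, rfl⟩ hinv k
      (by simp) hd').2
      ⟨Chars2.linFun μ, (Chars2.linFun_isCharacter μ).1, (Chars2.linFun_isCharacter μ).2,
        fun n => by rw [Chars2.detChar_eq ρ _ rfl]; simp [hμ]⟩
  obtain ⟨l, σ, -, rfl⟩ := hirrη
  obtain ⟨e⟩ := Chars2.equiv_of_character_eq ρ (σ.comp N.subtype) (funext fun n => (hη n).symm)
  obtain ⟨χ, ⟨hχ1, hχ2, hχ3⟩, huniq⟩ := Chars2.existsUnique_ext_det ρ hd'
    ((e.symm.toLinearEquiv.conjAlgEquiv ℂ).toMonoidHom.comp σ)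
    (fun n => e.symm.conj_apply_self n) μ hμ
  refine ⟨χ, ⟨hχ1, hχ2, ?_⟩, ?_⟩
  · rw [Cfsg.detOrder, hχ3, Chars2.orderOf_linFun, hμo]
  · intro χ' hirr' hres hc
    refine huniq χ' ⟨hirr', hres, ?_⟩
    obtain ⟨l', σ', hσ', rfl⟩ := hirr'
    haveI := hσ'
    obtain ⟨e'⟩ := Chars2.equiv_of_character_eq ρ (σ'.comp N.subtype)
      (funext fun n => (hres n).symm)
    rw [Chars2.detOrder_eq σ' _ rfl] at hc
    rw [Chars2.detChar_eq σ' _ rfl]
    refine congrArg Chars2.linFun (Chars2.ext_unique_of_coprime _ μ (fun n => ?_) hc (hμo ▸ ho))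
    rw [hμ]
    refine Units.ext ?_
    have h := e'.conj_apply_self n
    simp only [MonoidHom.coe_comp, Subgroup.coe_subtype, Function.comp_apply] at h
    rw [Chars2.detHom_apply, Chars2.detHom_apply, ← h]
    exact LinearMap.det_conj (ρ n) e'.toLinearEquiv

end Cfsg.Agent.S0867
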