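import Cfsg.Statements.S0868
import Cfsg.Agent.Chars2.Ramified

set_option autoImplicit false
open scoped ComplexConjugate
open Cfsg

namespace Cfsg.Agent.S0868

/-- Let N be a normal subgroup of the finite group G, χ an irreducible character of G whose restriction ϑ to N is irreducible, and ψ an irreducible character of G. Define η on G by η g = (1 / order of N) * Σ over n in N of ψ (n * g) * conj (χ (n * g)). Then: if the restriction of ψ to N has nonzero inner product with ϑ, η is an irreducible character of G; if that inner product is zero, η vanishes identically; and if ψ = χ then η is identically 1. -/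
theorem result {G : Type*} [Group G] [Fintype G] (N : Subgroup G) [N.Normal] [Fintype N] (χ : G → ℂ) (hχ : Cfsg.IsIrrCharacter G χ) (hχN : Cfsg.IsIrrCharacter N (fun n : N => χ n)) (ψ : G → ℂ) (hψ : Cfsg.IsIrrCharacter G ψ) (η : G → ℂ) (hη : η = fun g => (Nat.card N : ℂ)⁻¹ * ∑ n : N, ψ ((n : G) * g) * conj (χ ((n : G) * g))) : (Cfsg.classInner (fun n : N => ψ n) (fun n : N => χ n) ≠ 0 → Cfsg.IsIrrCharacter G η) ∧ (Cfsg.classInner (fun n : N => ψ n) (fun n : N => χ n) = 0 → η = 0) ∧ (ψ = χ → η = fun _ => 1) := by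
  classical
  obtain ⟨h1, h2⟩ := Chars2.cosetAvg_cases (N := N) hχ hχN hψ
  refine ⟨fun hne => ?_, fun h0 => ?_, ?_⟩
  · obtain ⟨β, -, -, hv⟩ := h1 hne
    rw [hη, show (fun g => (Nat.card N : ℂ)⁻¹ * ∑ n : N, ψ ((n : G) * g) * (starRingEnd ℂ)
      (χ ((n : G) * g))) = (β : G → ℂ) from funext hv]
    exact β.2
  · rw [hη]; exact funext (h2 h0)
  · rintro rfl
    have hinv1 : Chars2.inertiaSub (fun _ : N => (1 : ℂ)) = ⊤ :=
      Chars2.inertiaSub_eq_top fun _ _ => rfl
    have hinv : Chars2.inertiaSub (fun n : N => ψ n) = ⊤ := Chars2.inertiaSub_eq_top fun g n =>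
      Chars.isCharacter_conj_apply (Chars.isCharacter_of_isIrr hψ) n g
    obtain ⟨β, hβ, hβ1, hv⟩ := h1 (by rw [Chars.classInner_self_irr hχN]; exact one_ne_zero)
    have hT : ∀ {μ : G → ℂ}, Cfsg.IsIrrCharacter G μ →
        Cfsg.classInner (fun n : N => μ n) (fun _ => 1) ≠ 0 →
        Cfsg.classInner (Cfsg.indFun N (fun _ => 1)) μ ≠ 0 := fun {μ} hμ h' => by
      rw [Chars.classInner_indFun _ _
        (Chars.isClassFunction_of_isCharacter (Chars.isCharacter_of_isIrr hμ)),
        ← Chars.classInner_conj_symm]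
      simpa using h'
    have hone : (β : G → ℂ) = fun _ => 1 := by
      refine (Chars2.gallagher (Chars.isIrrCharacter_one (G := N)) hinv1 hinv
        (by simpa [Pi.mul_def] using hχN) hψ (fun n => rfl)).injOn ⟨β.2, hT β.2 hβ1⟩
        ⟨Chars.isIrrCharacter_one, hT Chars.isIrrCharacter_one (by
          rw [Chars.classInner_self_irr Chars.isIrrCharacter_one]; exact one_ne_zero)⟩ ?_
      show (β : G → ℂ) * ψ = (fun _ => (1 : ℂ)) * ψ
      rw [hβ]
      funext x; simp
    rw [hη]
    exact funext fun g => by rw [hv g, hone]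

end Cfsg.Agent.S0868
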