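import Cfsg.Statements.S0872
import Cfsg.Agent.Chars2.PermChar
import Cfsg.Agent.Chars2.BrauerLocal

set_option autoImplicit false
open Cfsg

namespace Cfsg.Agent.S0872

/-- For a finite group G and a prime p there are an integer m not divisible by p and a ℤ-linear combination of functions induced from the constant function 1 on subgroups H, each having a cyclic normal subgroup of order prime to p and p-power index in H, that equals the constant function m. -/
theorem result {G : Type*} [Group G] [Fintype G] (p : ℕ) (hp : p.Prime) : ∃ (m : ℤ) (a : Subgroup G → ℤ), ¬ (p : ℤ) ∣ m ∧ (∀ H, a H ≠ 0 → (∃ C : Subgroup G, C ≤ H ∧ H ≤ Subgroup.normalizer (C : Set G) ∧ IsCyclic C ∧ Nat.Coprime (Nat.card C) p ∧ ∃ k : ℕ, C.relIndex H = p ^ k)) ∧ (fun _ : G => (m : ℂ)) = ∑ H : Subgroup G, (a H : ℂ) • Cfsg.indFun H (fun _ => 1) := by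
  classical
  let sp : Submodule ℤ (G → ℂ) :=
    Submodule.span ℤ {f | ∃ H : Subgroup G, Chars2.IsQuasiElem p H ∧ f = Cfsg.indFun H (fun _ => 1)}
  have hmul : ∀ f ∈ sp, ∀ g ∈ sp, f * g ∈ sp := by
    intro f hf g hg
    induction hf using Submodule.span_induction with
    | zero => simp
    | add x y _ _ hx hy => rw [add_mul]; exact sp.add_mem hx hy
    | smul a x _ hx => rw [smul_mul_assoc]; exact sp.smul_mem _ hx
    | mem x hx =>
      induction hg using Submodule.span_induction with
      | zero => simp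
      | add y z _ _ hy hz => rw [mul_add]; exact sp.add_mem hy hz
      | smul a y _ hy => rw [mul_smul_comm]; exact sp.smul_mem _ hy
      | mem y hy =>
        obtain ⟨H, hH, rfl⟩ := hx
        obtain ⟨K, -, rfl⟩ := hy
        obtain ⟨a, ha, he⟩ := Chars2.indFun_one_mul H K
        rw [he]
        refine Submodule.sum_mem _ fun U _ => ?_
        by_cases h0 : a U = 0
        · simp [h0]
        · rw [Nat.cast_smul_eq_nsmul]
          exact sp.smul_of_tower_mem _ (Submodule.subset_span ⟨U, hH.mono hp (ha U h0), rfl⟩)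
  let S : AddSubgroup (G → ℤ) :=
    { carrier := {f | (fun g => (f g : ℂ)) ∈ sp}
      zero_mem' := by
        show (fun g : G => (((0 : G → ℤ) g : ℤ) : ℂ)) ∈ sp
        simp [← Pi.zero_def]
      add_mem' := fun {a b} ha hb => by
        simpa [Pi.add_def] using sp.add_mem ha hb
      neg_mem' := fun {a} ha => by
        simpa [Pi.neg_def] using sp.neg_mem ha }
  obtain ⟨m, hm, hmem⟩ := Chars2.exists_const_mem hp S
    (fun f hf g hg => by simpa [S, Pi.mul_def] using hmul _ hf _ hg)
    (fun x => by
      obtain ⟨H, hH, n, hn, hnd⟩ := Chars2.exists_quasiElem x hp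
      refine ⟨fun g => (Nat.card {q : G ⧸ H // g • q = q} : ℤ), ?_, fun hd => hnd ?_⟩
      · show (fun g : G => (((Nat.card {q : G ⧸ H // g • q = q} : ℤ)) : ℂ)) ∈ sp
        refine Submodule.subset_span ⟨H, hH, funext fun g => ?_⟩
        rw [Chars2.indFun_one_apply, Int.cast_natCast]
      · rw [Chars2.indFun_one_apply, Nat.cast_inj] at hn
        simp only at hd
        rw [← hn]; exact_mod_cast hd)
  have hrange : sp ≤ Submodule.span ℤ
      (Set.range fun H : {H : Subgroup G // Chars2.IsQuasiElem p H} =>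
        Cfsg.indFun H.1 (fun _ => 1)) :=
    Submodule.span_mono fun f ⟨H, hH, he⟩ => ⟨⟨H, hH⟩, he.symm⟩
  obtain ⟨c, hc⟩ := (Submodule.mem_span_range_iff_exists_fun ℤ).1 (hrange hmem)
  refine ⟨m, fun H => if h : Chars2.IsQuasiElem p H then c ⟨H, h⟩ else 0, hm, fun H hH => ?_, ?_⟩
  · by_contra h
    exact hH (dif_neg h)
  · rw [← hc, ← Finset.sum_subset (s₁ := Finset.univ.filter (Chars2.IsQuasiElem p))
      (Finset.subset_univ _) fun H _ hH => by
        simp only [Finset.mem_filter, Finset.mem_univ, true_and] at hH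
        simp [dif_neg hH],
      Finset.sum_subtype (p := Chars2.IsQuasiElem p) _ (fun H => by simp)]
    refine Finset.sum_congr rfl fun H _ => ?_
    simp only [dif_pos H.2, Int.cast_smul_eq_zsmul]

end Cfsg.Agent.S0872
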