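import Cfsg.Statements.S0873
import Cfsg.Agent.Chars.Linear
import Mathlib.GroupTheory.PGroup

set_option autoImplicit false
open Cfsg

namespace Cfsg.Agent.S0873

/-- Let C be a normal subgroup of the finite group G of order prime to p and P a p-subgroup with C ⊔ P = G. Let λ be a character of C of degree 1 invariant under conjugation by G and equal to 1 at every element of C centralized by P. Then λ is identically 1. -/
theorem result {G : Type*} [Group G] [Finite G] (p : ℕ) [Fact p.Prime] (C P : Subgroup G) [hC : C.Normal] (hP : IsPGroup p P) (hcop : Nat.Coprime (Nat.card C) p) (hCP : C ⊔ P = ⊤) (lam : C → ℂ) (hlam : Cfsg.IsCharacter C lam ∧ lam 1 = 1) (hinv : ∀ (g : G) (c : C), lam ⟨g * c * g⁻¹, hC.conj_mem (c : G) c.2 g⟩ = lam c) (hker : ∀ c : C, (c : G) ∈ Subgroup.centralizer (P : Set G) → lam c = 1) : lam = fun _ => 1 := by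
  classical
  haveI := Fintype.ofFinite G
  obtain ⟨φ, hφ⟩ := Chars.exists_hom_of_degree_one hlam.1 hlam.2
  have hφ' : ∀ c : C, lam c = (φ c : ℂ) := fun c => congrFun hφ c
  funext c
  let X := {z : C // φ z = φ c}
  let act : MulAction P X :=
    { smul := fun u z => ⟨⟨(u : G) * (z.1 : G) * (u : G)⁻¹, hC.conj_mem _ z.1.2 _⟩, by
        apply Units.ext
        rw [← hφ', hinv (u : G) z.1, hφ', z.2]⟩
      one_smul := fun z => Subtype.ext (Subtype.ext (by
        show (1 : G) * (z.1 : G) * (1 : G)⁻¹ = _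
        simp))
      mul_smul := fun u w z => Subtype.ext (Subtype.ext (by
        show ((u * w : P) : G) * (z.1 : G) * ((u * w : P) : G)⁻¹ =
          (u : G) * ((w : G) * (z.1 : G) * (w : G)⁻¹) * (u : G)⁻¹
        rw [Subgroup.coe_mul, mul_inv_rev]; simp only [mul_assoc])) }
  have hX : Nat.card X = Nat.card φ.ker := Nat.card_congr
    { toFun := fun z => ⟨z.1 * c⁻¹, by rw [MonoidHom.mem_ker, map_mul, z.2, map_inv, mul_inv_cancel]⟩
      invFun := fun k => ⟨k.1 * c, by rw [map_mul, MonoidHom.mem_ker.1 k.2, one_mul]⟩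
      left_inv := fun z => Subtype.ext (inv_mul_cancel_right _ _)
      right_inv := fun k => Subtype.ext (mul_inv_cancel_right _ _) }
  obtain ⟨z, hz⟩ := @IsPGroup.nonempty_fixed_point_of_prime_not_dvd_card p P _ hP _ X act (by
    rw [hX]
    intro hd
    exact (Fact.out (p := p.Prime)).not_dvd_one
      (hcop ▸ Nat.dvd_gcd (hd.trans (Subgroup.card_subgroup_dvd_card φ.ker)) dvd_rfl))
  have h1 : lam z.1 = 1 := hker z.1 (Subgroup.mem_centralizer_iff.2 fun u hu => by
    have e := congrArg (fun y : X => ((y.1 : C) : G)) (hz ⟨u, hu⟩)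
    exact mul_inv_eq_iff_eq_mul.1 e)
  rw [hφ', ← z.2, ← hφ', h1]

end Cfsg.Agent.S0873
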