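import Cfsg.Statements.S0876
import Cfsg.Agent.Chars2.IntegralComb
import Cfsg.Agent.Blocks.DefectMore

set_option autoImplicit false
open Cfsg

namespace Cfsg.Agent.S0876

/-- Let G be a finite group, p a prime and M a maximal ideal of the ring of algebraic integers containing p. Let x, y be elements with p-parts a and b (so a⁻¹ * x and b⁻¹ * y are their p-regular parts). Then a⁻¹ * x and b⁻¹ * y are conjugate in G if and only if, for every irreducible character χ, the difference χ x - χ y lies in the local ideal at M. -/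
theorem result {G : Type*} [Group G] [Finite G] (p : ℕ) (M : Ideal Cfsg.AlgInt) (hM : Cfsg.IsPModular p M) (x y a b : G) (ha : Cfsg.IsPPart p x a) (hb : Cfsg.IsPPart p y b) : IsConj (a⁻¹ * x) (b⁻¹ * y) ↔ ∀ χ : Cfsg.IrrCharacter G, Cfsg.MemLocalIdeal M ((χ : G → ℂ) x - (χ : G → ℂ) y) := by
  classical
  obtain ⟨hp, hMax, hpM⟩ := hM
  haveI := hMax
  haveI := Fact.mk hp
  haveI := Fintype.ofFinite G
  obtain ⟨y₁, hy₁, hc₁, ⟨k₁, ha₁⟩, hr₁⟩ := ha
  obtain ⟨y₂, hy₂, hc₂, ⟨k₂, ha₂⟩, hr₂⟩ := hb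
  have e₁ : a⁻¹ * x = y₁ := by rw [← hy₁, inv_mul_cancel_left]
  have e₂ : b⁻¹ * y = y₂ := by rw [← hy₂, inv_mul_cancel_left]
  rw [e₁, e₂]
  have hcg : ∀ χ : Cfsg.IrrCharacter G,
      Cfsg.MemLocalIdeal M ((χ : G → ℂ) x - (χ : G → ℂ) y₁) ∧
      Cfsg.MemLocalIdeal M ((χ : G → ℂ) y - (χ : G → ℂ) y₂) := fun χ => by
    rw [← hy₁, ← hy₂]
    exact ⟨Blocks.char_mul_congr hpM χ hc₁ (ha₁ ▸ pow_orderOf_eq_one a),
      Blocks.char_mul_congr hpM χ hc₂ (ha₂ ▸ pow_orderOf_eq_one b)⟩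
  constructor
  · intro hconj χ
    obtain ⟨c, hc⟩ := isConj_iff.1 hconj
    have : (χ : G → ℂ) y₁ = (χ : G → ℂ) y₂ := by
      rw [← hc, Chars.isCharacter_conj_apply (Chars.irr_isCharacter χ)]
    have h := Blocks.memI_sub (hcg χ).1 (hcg χ).2
    rw [this] at h
    convert h using 1
    ring
  · intro hall
    by_contra hne
    set N := Nat.card G with hN
    have hN0 : N ≠ 0 := Nat.card_pos.ne'
    set s := N.factorization p
    set n := N / p ^ s with hn
    have hsplit : N = p ^ s * n := (Nat.ordProj_mul_ordCompl_eq_self N p).symm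
    have hpn : ¬ p ∣ n := Nat.not_dvd_ordCompl hp hN0
    have hcop : Nat.Coprime (p ^ s) n := (hp.coprime_iff_not_dvd.2 hpn).pow_left s
    let P : G → Prop := fun z => ∃ v : G, IsConj v y₁ ∧ ∃ u : G, z = u * v ∧ Commute u v ∧
      Nat.Coprime (orderOf u) n ∧ Nat.Coprime (orderOf v) (p ^ s)
    let ϑ : G → ℂ := fun z => if P z then (n : ℂ) else 0
    obtain ⟨hcl, hint⟩ := Chars2.isIntegral_section_coeff (p ^ s) n hsplit hcop y₁ ϑ
      (fun z hz => if_pos hz) (fun z hz => if_neg hz)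
    have hpre : ∀ v : G, ¬ p ∣ orderOf v → Nat.Coprime (orderOf v) (p ^ s) := fun v hv =>
      ((hp.coprime_iff_not_dvd.2 hv).symm).pow_right s
    have hone : Nat.Coprime (orderOf (1 : G)) n := by rw [orderOf_one]; exact Nat.coprime_one_left n
    have hx : ϑ y₁ = n := if_pos ⟨y₁, IsConj.refl _, 1, (one_mul _).symm, Commute.one_left _,
      hone, hpre _ hr₁⟩
    have hy : ϑ y₂ = 0 := by
      refine if_neg ?_
      rintro ⟨v, hv, u, he, huv, hu, hv'⟩
      have hu1 : u = 1 := by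
        have hn2 : orderOf y₂ ∣ n :=
          (hpre _ hr₂).dvd_of_dvd_mul_left (hsplit ▸ orderOf_dvd_natCard y₂)
        have hv2 : orderOf v ∣ n := hv'.dvd_of_dvd_mul_left (hsplit ▸ orderOf_dvd_natCard v)
        have hdvd : orderOf u ∣ n := by
          refine orderOf_dvd_of_pow_eq_one ?_
          have h1 : y₂ ^ n = 1 := orderOf_dvd_iff_pow_eq_one.1 hn2
          rwa [he, huv.mul_pow, orderOf_dvd_iff_pow_eq_one.1 hv2, mul_one] at h1
        exact orderOf_eq_one_iff.1 (Nat.eq_one_of_dvd_coprimes hu dvd_rfl hdvd)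
      rw [hu1, one_mul] at he
      exact hne (hv.symm.trans (he ▸ IsConj.refl v))
    have hexp : ϑ y₁ - ϑ y₂ = ∑ χ : Cfsg.IrrCharacter G,
        Cfsg.classInner ϑ (χ : G → ℂ) * ((χ : G → ℂ) y₁ - (χ : G → ℂ) y₂) := by
      rw [Chars2.apply_eq_sum hcl y₁, Chars2.apply_eq_sum hcl y₂, ← Finset.sum_sub_distrib]
      exact Finset.sum_congr rfl fun χ _ => (mul_sub _ _ _).symm
    have hI : Cfsg.MemLocalIdeal M (n : ℂ) := by
      have : (n : ℂ) = ϑ y₁ - ϑ y₂ := by rw [hx, hy, sub_zero]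
      rw [this, hexp]
      refine Blocks.memI_sum _ _ fun χ _ => Blocks.memI_mul_left (Blocks.memR_of_isIntegral (hint χ)) ?_
      have h := Blocks.memI_add (Blocks.memI_sub (hall χ) (hcg χ).1) (hcg χ).2
      convert h using 1
      ring
    exact hpn ((Blocks.memI_natCast_iff hpM n).1 hI)

end Cfsg.Agent.S0876
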