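import Cfsg.Statements.S0879
import Mathlib.GroupTheory.GroupAction.MultipleTransitivity

set_option autoImplicit false
open Cfsg

namespace Cfsg.Agent.S0879

/-- Let G be a Zassenhaus group on the finite set Ω and E the stabilizer of two distinct points a, b. Then an element outside the normalizer of E conjugates no non-identity element of E into E, and E has index 2 in its normalizer. -/
theorem result {G Ω : Type*} [Group G] [Finite G] [MulAction G Ω] [Fintype Ω] (hZ : Cfsg.IsZassenhausGroup G Ω) {a b : Ω} (hab : a ≠ b) : (∀ g : G, g ∉ Subgroup.normalizer ((MulAction.stabilizer G a ⊓ MulAction.stabilizer G b : Subgroup G) : Set G) → ∀ x ∈ (MulAction.stabilizer G a ⊓ MulAction.stabilizer G b : Subgroup G), g * x * g⁻¹ ∈ (MulAction.stabilizer G a ⊓ MulAction.stabilizer G b : Subgroup G) → x = 1) ∧ ((MulAction.stabilizer G a ⊓ MulAction.stabilizer G b : Subgroup G).subgroupOf (Subgroup.normalizer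 ((MulAction.stabilizer G a ⊓ MulAction.stabilizer G b : Subgroup G) : Set G))).index = 2 := by
  classical
  obtain ⟨-, h2t, h3, hex, -⟩ := hZ
  have hmap : ∀ {x y z w : Ω}, x ≠ y → z ≠ w → ∃ g : G, g • x = z ∧ g • y = w :=
    MulAction.is_two_pretransitive_iff.1 h2t
  set E := MulAction.stabilizer G a ⊓ MulAction.stabilizer G b with hE
  have hmem : ∀ x, x ∈ E ↔ x • a = a ∧ x • b = b := fun x => Iff.rfl
  have hconj : ∀ g : G, (g • a = a ∧ g • b = b) ∨ (g • a = b ∧ g • b = a) →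
      ∀ x ∈ E, g * x * g⁻¹ ∈ E := by
    intro g hg x hx
    obtain ⟨hxa, hxb⟩ := (hmem x).1 hx
    rw [hmem]
    simp only [mul_smul]
    rcases hg with ⟨h1, h2⟩ | ⟨h1, h2⟩
    · rw [inv_smul_eq_iff.2 h1.symm, inv_smul_eq_iff.2 h2.symm, hxa, hxb]
      exact ⟨h1, h2⟩
    · rw [inv_smul_eq_iff.2 h2.symm, inv_smul_eq_iff.2 h1.symm, hxa, hxb]
      exact ⟨h2, h1⟩
  have hinv : ∀ g : G, (g • a = a ∧ g • b = b) ∨ (g • a = b ∧ g • b = a) →
      (g⁻¹ • a = a ∧ g⁻¹ • b = b) ∨ (g⁻¹ • a = b ∧ g⁻¹ • b = a) := by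
    rintro g (⟨h1, h2⟩ | ⟨h1, h2⟩)
    · exact Or.inl ⟨inv_smul_eq_iff.2 h1.symm, inv_smul_eq_iff.2 h2.symm⟩
    · exact Or.inr ⟨inv_smul_eq_iff.2 h2.symm, inv_smul_eq_iff.2 h1.symm⟩
  have hnorm : ∀ g : G, (g • a = a ∧ g • b = b) ∨ (g • a = b ∧ g • b = a) →
      g ∈ Subgroup.normalizer (E : Set G) := by
    intro g hg
    rw [Subgroup.mem_normalizer_iff]
    refine fun x => ⟨hconj g hg x, fun hx => ?_⟩
    have := hconj g⁻¹ (hinv g hg) _ hx
    simpa [mul_assoc] using this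
  have hpair : ∀ g : G, ∀ x ∈ E, x ≠ 1 → g * x * g⁻¹ ∈ E →
      (g⁻¹ • a = a ∧ g⁻¹ • b = b) ∨ (g⁻¹ • a = b ∧ g⁻¹ • b = a) := by
    intro g x hx hx1 hgx
    obtain ⟨hxa, hxb⟩ := (hmem x).1 hx
    obtain ⟨h1, h2⟩ := (hmem _).1 hgx
    simp only [mul_smul] at h1 h2
    have hc : ∀ c : Ω, g • x • g⁻¹ • c = c → g⁻¹ • c = a ∨ g⁻¹ • c = b := by
      intro c hc
      by_contra hne
      push Not at hne
      exact hx1 (h3 x a b (g⁻¹ • c) hab (Ne.symm hne.2) (Ne.symm hne.1) hxa hxb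
        (inv_smul_eq_iff.2 hc.symm).symm)
    have hinj : g⁻¹ • a ≠ g⁻¹ • b := fun e => hab (MulAction.injective g⁻¹ e)
    rcases hc a h1 with e1 | e1 <;> rcases hc b h2 with e2 | e2
    · exact absurd (e1.trans e2.symm) hinj
    · exact Or.inl ⟨e1, e2⟩
    · exact Or.inr ⟨e1, e2⟩
    · exact absurd (e1.trans e2.symm) hinj
  constructor
  · intro g hg x hx hgx
    by_contra hx1
    refine hg (hnorm g ?_)
    have := hinv g⁻¹ (hpair g x hx hx1 hgx)
    simpa using this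
  · obtain ⟨g₀, hg₀, a₀, b₀, hab₀, ha₀, hb₀⟩ := hex
    obtain ⟨t, hta, htb⟩ := hmap hab₀ hab
    have hx₀ : t * g₀ * t⁻¹ ∈ E := by
      rw [hmem]
      simp only [mul_smul]
      rw [inv_smul_eq_iff.2 hta.symm, inv_smul_eq_iff.2 htb.symm, ha₀, hb₀]
      exact ⟨hta, htb⟩
    have hx₀1 : t * g₀ * t⁻¹ ≠ 1 := fun e => hg₀ (by simpa using e)
    obtain ⟨s, hsa, hsb⟩ := hmap hab (Ne.symm hab)
    have hsN : s ∈ Subgroup.normalizer (E : Set G) := hnorm s (Or.inr ⟨hsa, hsb⟩)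
    rw [Subgroup.index_eq_two_iff]
    refine ⟨⟨s, hsN⟩, fun ⟨g, hg⟩ => ?_⟩
    have hg' := hinv g⁻¹ (hpair g _ hx₀ hx₀1 ((Subgroup.mem_normalizer_iff.1 hg _).1 hx₀))
    rw [inv_inv] at hg'
    simp only [Subgroup.mem_subgroupOf, Subgroup.coe_mul, hmem, mul_smul, hsa, hsb]
    rcases hg' with ⟨h1, h2⟩ | ⟨h1, h2⟩
    · refine Or.inr ⟨⟨h1, h2⟩, ?_⟩
      rw [h2]; exact fun h => hab h.1.symm
    · refine Or.inl ⟨⟨h2, h1⟩, ?_⟩
      rw [h1]; exact fun h => hab h.1.symm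

end Cfsg.Agent.S0879
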