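import Cfsg.Statements.S0880
import Cfsg.Agent.PermGroups.ZassenhausSimple
import Mathlib.Combinatorics.Enumerative.DoubleCounting
import Mathlib.GroupTheory.GroupAction.ConjAct

set_option autoImplicit false
open Cfsg

namespace Cfsg.Agent.S0880

/-- Let G be a finite simple Zassenhaus group on Ω with n points whose two-point stabilizer E has odd order less than n - 2. Then there are two elements of G, each fixing no point of Ω, that are not conjugate. -/
theorem result {G Ω : Type*} [Group G] [Finite G] [MulAction G Ω] [Fintype Ω] (hZ : Cfsg.IsZassenhausGroup G Ω) {a b : Ω} (hab : a ≠ b) [IsSimpleGroup G] (hodd : Odd (Nat.card ↥(MulAction.stabilizer G a ⊓ MulAction.stabilizer G b : Subgroup G))) (hlt : Nat.card ↥(MulAction.stabilizer G a ⊓ MulAction.stabilizer G b : Subgroup G) < Fintype.card Ω - 2) : ∃ x y : G, (∀ c : Ω, x • c ≠ c) ∧ (∀ c : Ω, y • c ≠ c) ∧ ¬ IsConj x y := by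
  classical
  haveI : Fintype G := Fintype.ofFinite G
  by_contra hcon
  push Not at hcon
  obtain ⟨c₀, hca, hcb⟩ := PermGroups.exists_third_point hZ hab
  obtain ⟨h₁, h₁H, h₁1⟩ := PermGroups.exists_ne_one_twoStabilizer hZ hab
  obtain ⟨hfaith, h2, hthree, -, -⟩ := id hZ
  set e := Nat.card ↥(MulAction.stabilizer G a ⊓ MulAction.stabilizer G b) with hedef
  have he3 : 3 ≤ e := by
    obtain ⟨r, hr⟩ := hodd
    by_contra hlt'
    have h1 : Nat.card ↥(MulAction.stabilizer G a ⊓ MulAction.stabilizer G b) = 1 := by omega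
    exact h₁1 (congrArg Subtype.val ((Nat.card_eq_one_iff_unique.1 h1).1.elim
      (⟨h₁, h₁H⟩ : ↥(MulAction.stabilizer G a ⊓ MulAction.stabilizer G b)) 1))
  set N := Fintype.card Ω with hN
  have hN3 : 3 ≤ N := by
    calc 3 = ({a, b, c₀} : Finset Ω).card := by simp [hab, hca.symm, hcb.symm]
      _ ≤ _ := Finset.card_le_univ _
  have hpair : ∀ y z : Ω, y ≠ z → (Finset.univ.filter fun g : G => g • y = y ∧ g • z = z).card = e := by
    intro y z hyz
    obtain ⟨k, hk1, hk2⟩ := MulAction.is_two_pretransitive_iff.1 h2 hyz hab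
    rw [hedef, Nat.card_eq_fintype_card, ← Fintype.card_coe]
    refine Fintype.card_of_bijective (f := fun g => (⟨k * g * k⁻¹, ?_⟩ : ↥(MulAction.stabilizer G a ⊓ MulAction.stabilizer G b))) ⟨fun g g' e' => ?_, fun w => ?_⟩
    · obtain ⟨hy, hz⟩ := (Finset.mem_filter.1 g.2).2
      exact ⟨MulAction.mem_stabilizer_iff.2 (by rw [mul_smul, mul_smul, inv_smul_eq_iff.2 hk1.symm, hy, hk1]),
        MulAction.mem_stabilizer_iff.2 (by rw [mul_smul, mul_smul, inv_smul_eq_iff.2 hk2.symm, hz, hk2])⟩
    · exact Subtype.ext (mul_left_cancel (mul_right_cancel (congrArg Subtype.val e')))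
    · refine ⟨⟨k⁻¹ * w * k, Finset.mem_filter.2 ⟨Finset.mem_univ _, ?_, ?_⟩⟩, Subtype.ext (by group)⟩
      · rw [mul_smul, mul_smul, hk1, MulAction.mem_stabilizer_iff.1 w.2.1, inv_smul_eq_iff, hk1]
      · rw [mul_smul, mul_smul, hk2, MulAction.mem_stabilizer_iff.1 w.2.2, inv_smul_eq_iff, hk2]
  haveI := h2
  haveI : MulAction.IsPretransitive G Ω := MulAction.isPretransitive_of_is_two_pretransitive
  let fix : G → Finset Ω := fun g => Finset.univ.filter fun z => g • z = z
  have hstab : ∀ z : Ω, (Finset.univ.filter fun g : G => g • z = z).card * N = Nat.card G := by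
    intro z
    have h1 := (MulAction.stabilizer G z).card_mul_index
    rw [MulAction.index_stabilizer_of_transitive, Nat.card_eq_fintype_card (α := Ω)] at h1
    rw [← h1]
    congr 1
    rw [Nat.card_eq_fintype_card, ← Fintype.card_coe]
    exact Fintype.card_congr (Equiv.subtypeEquivRight fun g => by simp)
  have hS1 : ∑ g : G, (fix g).card = Nat.card G := by
    have h := Finset.sum_card_bipartiteAbove_eq_sum_card_bipartiteBelow (fun (g : G) (z : Ω) => g • z = z)
      (s := Finset.univ) (t := Finset.univ)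
    simp only [Finset.bipartiteAbove, Finset.bipartiteBelow] at h
    refine h.trans (Nat.eq_of_mul_eq_mul_right (show 0 < N by omega) ?_)
    rw [Finset.sum_mul, Finset.sum_congr rfl (fun z _ => hstab z), Finset.sum_const, Finset.card_univ, ← hN,
      smul_eq_mul, mul_comm]
  have hoff : (Finset.univ : Finset Ω).offDiag.card = N * (N - 1) := by
    rw [Finset.offDiag_card, Finset.card_univ, ← hN, Nat.mul_sub, mul_one]
  have hGe : Nat.card G = N * (N - 1) * e := by
    have h1 := (MulAction.stabilizer G a).card_mul_index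
    rw [MulAction.index_stabilizer_of_transitive, Nat.card_eq_fintype_card (α := Ω)] at h1
    have h2' := (MulAction.stabilizer (MulAction.stabilizer G a) b).card_mul_index
    have horb : MulAction.orbit (MulAction.stabilizer G a) b = ({a} : Set Ω)ᶜ := Set.ext fun z =>
      ⟨fun ⟨g, hg⟩ hz => hab.symm (smul_left_cancel (g : G)
          ((hg.trans hz).trans (MulAction.mem_stabilizer_iff.1 g.2).symm)),
        fun hz => by
          obtain ⟨g, hga, hgb⟩ := MulAction.is_two_pretransitive_iff.1 h2 hab (Ne.symm (by simpa using hz : z ≠ a))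
          exact ⟨⟨g, hga⟩, hgb⟩⟩
    rw [MulAction.index_stabilizer, horb, Set.ncard_compl, Set.ncard_singleton, Nat.card_eq_fintype_card (α := Ω)] at h2'
    have he' : Nat.card (MulAction.stabilizer (MulAction.stabilizer G a) b) = e := by
      rw [hedef]
      exact Nat.card_congr
        { toFun := fun g => ⟨g.1.1, g.1.2, g.2⟩
          invFun := fun g => ⟨⟨g.1, g.2.1⟩, g.2.2⟩
          left_inv := fun g => rfl
          right_inv := fun g => rfl }
    rw [he'] at h2'
    rw [← h1, ← h2', ← hN]
    ring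
  have hS2 : ∑ g : G, (fix g).offDiag.card = Nat.card G := by
    have h := Finset.sum_card_bipartiteAbove_eq_sum_card_bipartiteBelow
      (fun (g : G) (p : Ω × Ω) => g • p.1 = p.1 ∧ g • p.2 = p.2)
      (s := Finset.univ) (t := (Finset.univ : Finset Ω).offDiag)
    simp only [Finset.bipartiteAbove, Finset.bipartiteBelow] at h
    rw [Finset.sum_congr rfl (fun g _ => congrArg Finset.card (show (fix g).offDiag =
        (Finset.univ : Finset Ω).offDiag.filter fun p => g • p.1 = p.1 ∧ g • p.2 = p.2 by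
          ext p; simp [fix, Finset.mem_offDiag]; tauto)), h,
      Finset.sum_congr rfl (fun p hp => hpair p.1 p.2 (Finset.mem_offDiag.1 hp).2.2), Finset.sum_const, smul_eq_mul,
      hoff, hGe]
  have hle2 : ∀ g : G, g ≠ 1 → (fix g).card ≤ 2 := fun g hg => by
    by_contra h3
    obtain ⟨x, y, z, hx, hy, hz, hxy, hxz, hyz⟩ := Finset.two_lt_card_iff.1 (not_le.1 h3)
    exact hg (hthree g x y z hxy hyz hxz (Finset.mem_filter.1 hx).2 (Finset.mem_filter.1 hy).2 (Finset.mem_filter.1 hz).2)
  set n0 := (Finset.univ.filter fun g : G => (fix g).card = 0).card with hn0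
  have hone : (fix 1).card = N := by simp [fix, hN]
  have hcount : ∑ g : G, (2 * (if (fix g).card = 0 then (1 : ℤ) else 0) + 2 * (fix g).card - (fix g).offDiag.card) =
      2 * Nat.card G + (2 * (N : ℤ) - N * (N - 1) - 2) := by
    rw [← Finset.add_sum_erase _ _ (Finset.mem_univ (1 : G)),
      Finset.sum_congr rfl (fun g hg => ?_ : ∀ g ∈ Finset.univ.erase (1 : G), _ = (2 : ℤ))]
    · rw [Finset.sum_const, Finset.card_erase_of_mem (Finset.mem_univ _), Finset.card_univ, ← Nat.card_eq_fintype_card,
        hone, if_neg (by omega), Finset.offDiag_card, hone, nsmul_eq_mul]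
      rw [Nat.cast_sub (Nat.one_le_iff_ne_zero.2 Nat.card_pos.ne'), Nat.cast_sub (Nat.le_mul_self N)]
      push_cast
      ring
    · have := hle2 g (Finset.mem_erase.1 hg).1
      rw [Finset.offDiag_card]
      interval_cases (fix g).card <;> simp
  rw [Finset.sum_sub_distrib, Finset.sum_add_distrib, ← Finset.mul_sum, ← Finset.mul_sum, Finset.sum_boole, ← hn0,
    ← Nat.cast_sum, ← Nat.cast_sum, hS1, hS2] at hcount
  have hN0 : (3 : ℤ) ≤ N := by exact_mod_cast hN3
  have hGz : (Nat.card G : ℤ) = N * ((N : ℤ) - 1) * e := by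
    rw [hGe]; push_cast [Nat.cast_sub (show 1 ≤ N by omega)]; ring
  have hn0eq : 2 * (n0 : ℤ) + ((N : ℤ) - 1) * ((N : ℤ) - 2) = Nat.card G := by linarith
  obtain ⟨x, hx⟩ : (Finset.univ.filter fun g : G => (fix g).card = 0).Nonempty := by
    rw [← Finset.card_pos, ← hn0]
    have hz : (3 : ℤ) ≤ e := by exact_mod_cast he3
    nlinarith [mul_nonneg (show (0 : ℤ) ≤ N - 1 by linarith) (show (0 : ℤ) ≤ N by linarith)]
  have hfix0 : ∀ {g : G}, (∀ z : Ω, g • z ≠ z) ↔ (fix g).card = 0 := fun {g} => by
    simp [fix, Finset.filter_eq_empty_iff]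
  have hxf : ∀ z, x • z ≠ z := hfix0.2 (Finset.mem_filter.1 hx).2
  have horbit : MulAction.orbit (ConjAct G) x = ↑(Finset.univ.filter fun g : G => (fix g).card = 0) := by
    ext g
    rw [ConjAct.mem_orbit_conjAct, Finset.mem_coe, Finset.mem_filter]
    refine ⟨fun hc => ⟨Finset.mem_univ _, hfix0.1 fun z hz => ?_⟩, fun hg => hcon g x (hfix0.2 hg.2) hxf⟩
    obtain ⟨k, hk⟩ := isConj_iff.1 hc.symm
    exact hxf (k⁻¹ • z) (by rw [← hk] at hz; rw [mul_smul, mul_smul] at hz; rw [eq_inv_smul_iff, hz])
  have hos := MulAction.index_stabilizer (ConjAct G) x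
  rw [horbit, Set.ncard_coe_finset, ← hn0] at hos
  have hprod := (MulAction.stabilizer (ConjAct G) x).card_mul_index
  rw [hos, show Nat.card (ConjAct G) = Nat.card G from rfl] at hprod
  set c := Nat.card (MulAction.stabilizer (ConjAct G) x) with hc
  have hcz : (c : ℤ) * n0 = Nat.card G := by exact_mod_cast hprod
  have hz : (3 : ℤ) ≤ e := by exact_mod_cast he3
  rcases lt_or_ge c 3 with hc3 | hc3
  · interval_cases c <;> push_cast at hcz <;> nlinarith
  · have h3 : (3 : ℤ) * n0 ≤ Nat.card G := by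
      rw [← hcz]; exact mul_le_mul_of_nonneg_right (by exact_mod_cast hc3) (by positivity)
    nlinarith

end Cfsg.Agent.S0880
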