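import Cfsg.Statements.S0883
import Cfsg.Agent.PermGroups.ZassenhausOdd
import Cfsg.Agent.S0882
import Mathlib.GroupTheory.GroupAction.ConjAct

set_option autoImplicit false
open Cfsg

namespace Cfsg.Agent.S0883

/-- Let G be a finite simple Zassenhaus group on Ω with h + 1 points whose two-point stabilizer E has odd order e with 2e < h - 1, and let H be the subgroup of the stabilizer of a consisting of the identity and the elements fixing no point other than a (given here as a subgroup of the stabilizer of order one less than the number of points whose non-identity elements fix only a; it is the Frobenius kernel of the stabilizer). If a non-identity element u of H is a product of two involutions of G, then u is an involution. -/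
theorem result {G Ω : Type*} [Group G] [Finite G] [MulAction G Ω] [Fintype Ω] (hZ : Cfsg.IsZassenhausGroup G Ω) {a b : Ω} (hab : a ≠ b) [IsSimpleGroup G] (h e : ℕ) (hh : Fintype.card Ω = h + 1) (he : Nat.card ↥(MulAction.stabilizer G a ⊓ MulAction.stabilizer G b : Subgroup G) = e) (hodd : Odd e) (hlt : 2 * e < h - 1) (H : Subgroup G) (hHa : H ≤ MulAction.stabilizer G a) (hHcard : Nat.card H + 1 = Fintype.card Ω) (hHfix : ∀ u ∈ H, u ≠ 1 → ∀ c : Ω, u • c = c → c = a) (u : G) (hu : u ∈ H) (hu1 : u ≠ 1) (x y : G) (hx : orderOf x = 2) (hy : orderOf y = 2) (hxy : x * y = u) : orderOf u = 2 := by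
  classical
  haveI : Fintype G := Fintype.ofFinite G
  obtain ⟨hKn, -, hKmem⟩ := PermGroups.kernel_props hZ hHa hHcard hHfix
  subst he
  set e := Nat.card ↥(MulAction.stabilizer G a ⊓ MulAction.stabilizer G b) with hedef
  have hxx : x * x = 1 := by rw [← sq, ← hx, pow_orderOf_eq_one]
  have hyy : y * y = 1 := by rw [← sq, ← hy, pow_orderOf_eq_one]
  have hua : u • a = a := MulAction.mem_stabilizer_iff.1 (hHa hu)
  have hxa : x • a = a := by
    refine hHfix u hu hu1 (x • a) ?_
    have e2 : u * x * u = x := by
      calc u * x * u = x * y * (x * x) * y := by rw [← hxy]; group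
        _ = x * (y * y) := by rw [hxx]; group
        _ = x := by rw [hyy, mul_one]
    conv_rhs => rw [← e2]
    rw [mul_smul, hua, mul_smul]
  have hya : y • a = a := by
    rw [show y = x * u by rw [← hxy, ← mul_assoc, hxx, one_mul], mul_smul, hua, hxa]
  have hinK : ∀ t : G, orderOf t = 2 → t • a = a → t ∈ H := fun t ht hta =>
    hKmem t hta fun z hz e' => hz (PermGroups.involution_one_fixed hZ hab hodd ht hta e').symm
  have hheven : Even h := by
    have h1 : orderOf x ∣ Nat.card H := Subgroup.orderOf_dvd_natCard H (hinK x hx hxa)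
    rw [hx, show Nat.card H = h by omega] at h1
    exact even_iff_two_dvd.2 h1
  obtain ⟨-, hI⟩ := S0882.result hZ hab h e hh hedef.symm hodd hlt
  rw [if_pos hheven] at hI
  have hmove := PermGroups.card_involution_moving hZ hab hodd
  rw [← hedef, hh, Nat.add_sub_cancel] at hmove
  set I := (Finset.univ : Finset G).filter fun t => orderOf t = 2 with hIdef
  have hIa : (I.filter fun t => t • a = a).card = e := by
    have h1 : I.card = e * (h + 1) := by
      rw [← hI, hIdef, Nat.card_eq_fintype_card, Fintype.card_subtype]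
    have h2 : (I.filter fun t => ¬ t • a = a).card = h * e := by
      rw [← hmove, hIdef, Finset.filter_filter, Nat.card_eq_fintype_card, Fintype.card_subtype]
    have h3 := Finset.card_filter_add_card_filter_not (s := I) (fun t => t • a = a)
    rw [h1, h2] at h3
    nlinarith
  -- the stabiliser of `x` under conjugation by the point stabiliser
  set A := MulAction.stabilizer G a with hA
  set C := (Subgroup.centralizer ({x} : Set G)).subgroupOf A with hC
  have hidx : C.index = e := by
    let act : MulAction A G := MulAction.compHom G (ConjAct.toConjAct.toMonoidHom.comp A.subtype)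
    letI := act
    have hsmul : ∀ (g : A) (t : G), g • t = (g : G) * t * (g : G)⁻¹ := fun g t => ConjAct.smul_def _ _
    have hst : MulAction.stabilizer A x = C := by
      ext g
      rw [MulAction.mem_stabilizer_iff, hsmul, hC, Subgroup.mem_subgroupOf, Subgroup.mem_centralizer_singleton_iff,
        mul_inv_eq_iff_eq_mul]
    have horb : MulAction.orbit A x = ↑(I.filter fun t => t • a = a) := by
      ext t
      rw [Finset.mem_coe, Finset.mem_filter, hIdef, Finset.mem_filter]
      constructor
      · rintro ⟨g, rfl⟩
        simp only [hsmul]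
        refine ⟨⟨Finset.mem_univ _, by rw [← MulAut.conj_apply, MulEquiv.orderOf_eq, hx]⟩, ?_⟩
        have hga := MulAction.mem_stabilizer_iff.1 g.2
        rw [mul_smul, mul_smul, inv_smul_eq_iff.2 hga.symm, hxa, hga]
      · rintro ⟨⟨-, ht⟩, hta⟩
        obtain ⟨k, hk⟩ := isConj_iff.1 (PermGroups.involution_isConj hZ hab hodd hx ht)
        have hka : k • a = a := by
          refine PermGroups.involution_one_fixed hZ hab hodd ht ?_ hta
          rw [← hk, mul_smul, mul_smul, inv_smul_smul, hxa]
        exact ⟨⟨k, MulAction.mem_stabilizer_iff.2 hka⟩, (hsmul _ _).trans hk⟩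
    rw [← hst, MulAction.index_stabilizer, horb, Set.ncard_coe_finset, hIa]
  haveI := hZ.2.1
  haveI : MulAction.IsPretransitive G Ω := MulAction.isPretransitive_of_is_two_pretransitive
  have hAcard : Nat.card A = h * e := by
    have h2' := (MulAction.stabilizer A b).card_mul_index
    have horb : MulAction.orbit A b = ({a} : Set Ω)ᶜ := Set.ext fun z =>
      ⟨fun ⟨g, hg⟩ hz => hab.symm (smul_left_cancel (g : G)
          ((hg.trans hz).trans (MulAction.mem_stabilizer_iff.1 g.2).symm)),
        fun hz => by
          obtain ⟨g, hga, hgb⟩ := MulAction.is_two_pretransitive_iff.1 hZ.2.1 hab (Ne.symm (by simpa using hz : z ≠ a))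
          exact ⟨⟨g, hga⟩, hgb⟩⟩
    rw [MulAction.index_stabilizer, horb, Set.ncard_compl, Set.ncard_singleton, Nat.card_eq_fintype_card (α := Ω), hh,
      Nat.add_sub_cancel] at h2'
    have he' : Nat.card (MulAction.stabilizer A b) = e := by
      rw [hedef]
      exact Nat.card_congr
        { toFun := fun g => ⟨g.1.1, g.1.2, g.2⟩
          invFun := fun g => ⟨⟨g.1, g.2.1⟩, g.2.2⟩
          left_inv := fun g => rfl
          right_inv := fun g => rfl }
    rw [← h2', he', mul_comm]
  have hCcard : Nat.card C = h := by
    have h1 := C.card_mul_index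
    rw [hidx, hAcard] at h1
    exact Nat.eq_of_mul_eq_mul_right (Nat.card_pos (α := ↥(MulAction.stabilizer G a ⊓ MulAction.stabilizer G b))) h1
  have hcop : Nat.Coprime h e := by
    obtain ⟨m, hm⟩ := PermGroups.card_twoStabilizer_dvd hZ.2.2.1 hab
    rw [← hedef, hh] at hm
    refine Nat.coprime_of_dvd' fun q hq hqh hqe => ?_
    have h1 := Nat.dvd_sub hqh (hm ▸ hqe.mul_right m : q ∣ h + 1 - 2)
    rwa [show h - (h + 1 - 2) = 1 by omega] at h1
  have hCK : C ≤ H.subgroupOf A := by
    intro g hg
    rw [Subgroup.mem_subgroupOf]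
    by_cases hg1 : g = 1
    · rw [hg1]; exact one_mem H
    refine hKmem _ g.2 fun z hz hgz => hg1 ?_
    obtain ⟨k, hk1, hk2⟩ := MulAction.is_two_pretransitive_iff.1 hZ.2.1 hz hab.symm
    have hmem : k * (g : G) * k⁻¹ ∈ MulAction.stabilizer G a ⊓ MulAction.stabilizer G b := by
      refine ⟨MulAction.mem_stabilizer_iff.2 ?_, MulAction.mem_stabilizer_iff.2 ?_⟩ <;> rw [mul_smul, mul_smul]
      · rw [inv_smul_eq_iff.2 hk2.symm, MulAction.mem_stabilizer_iff.1 g.2, hk2]
      · rw [inv_smul_eq_iff.2 hk1.symm, hgz, hk1]
    have h1 : orderOf g ∣ e := by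
      rw [← Subgroup.orderOf_coe, ← MulEquiv.orderOf_eq (MulAut.conj k), MulAut.conj_apply]
      exact Subgroup.orderOf_dvd_natCard _ hmem
    have h2' : orderOf g ∣ h := hCcard ▸ Subgroup.orderOf_dvd_natCard C hg
    exact orderOf_eq_one_iff.1 (Nat.eq_one_of_dvd_coprimes hcop h2' h1)
  have hKA : Nat.card (H.subgroupOf A) = h := by
    rw [Nat.card_congr (Subgroup.subgroupOfEquivOfLe hHa).toEquiv]
    omega
  have heq : C = H.subgroupOf A := Subgroup.eq_of_le_of_card_ge hCK (by omega)
  have hyC : (⟨y, hya⟩ : A) ∈ C := by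
    rw [heq, Subgroup.mem_subgroupOf]; exact hinK y hy hya
  have hcomm : y * x = x * y := Subgroup.mem_centralizer_singleton_iff.1 (Subgroup.mem_subgroupOf.1 hyC)
  refine orderOf_eq_prime ?_ hu1
  rw [← hxy, sq]
  calc x * y * (x * y) = x * (y * x) * y := by group
    _ = x * x * (y * y) := by rw [hcomm]; group
    _ = 1 := by rw [hxx, hyy, mul_one]

end Cfsg.Agent.S0883
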