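import Cfsg.Statements.S0884
import Cfsg.Agent.PermGroups.ZassenhausOdd
import Cfsg.Agent.S0882
import Cfsg.Agent.S0883

set_option autoImplicit false
open Cfsg

namespace Cfsg.Agent.S0884

/-- Let G be a finite simple Zassenhaus group on Ω with h + 1 points whose two-point stabilizer E has odd order e with 2e < h - 1, and let H be the subgroup of the stabilizer of a consisting of the identity and the elements fixing no point other than a (given here as a subgroup of the stabilizer of order one less than the number of points whose non-identity elements fix only a; it is the Frobenius kernel of the stabilizer). Then at least e conjugacy classes of G contain no element of H. -/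
theorem result {G Ω : Type*} [Group G] [Finite G] [MulAction G Ω] [Fintype Ω] (hZ : Cfsg.IsZassenhausGroup G Ω) {a b : Ω} (hab : a ≠ b) [IsSimpleGroup G] (h e : ℕ) (hh : Fintype.card Ω = h + 1) (he : Nat.card ↥(MulAction.stabilizer G a ⊓ MulAction.stabilizer G b : Subgroup G) = e) (hodd : Odd e) (hlt : 2 * e < h - 1) (H : Subgroup G) (hHa : H ≤ MulAction.stabilizer G a) (hHcard : Nat.card H + 1 = Fintype.card Ω) (hHfix : ∀ u ∈ H, u ≠ 1 → ∀ c : Ω, u • c = c → c = a) : e ≤ Nat.card {C : ConjClasses G // ∀ g : G, ConjClasses.mk g = C → g ∉ H} := by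
  classical
  haveI : Fintype G := Fintype.ofFinite G
  haveI := hZ.2.1
  haveI : MulAction.IsPretransitive G Ω := MulAction.isPretransitive_of_is_two_pretransitive
  subst he
  set e := Nat.card ↥(MulAction.stabilizer G a ⊓ MulAction.stabilizer G b) with hedef
  obtain ⟨-, hI⟩ := S0882.result hZ hab h e hh hedef.symm hodd hlt
  set I := (Finset.univ : Finset G).filter fun t => orderOf t = 2 with hIdef
  have hIc : I.card = if Even h then e * (h + 1) else e * h := by
    rw [← hI, hIdef, Nat.card_eq_fintype_card, Fintype.card_subtype]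
  -- involutions fixing a given point
  have hmov : ∀ z : Ω, (I.filter fun t => ¬ t • z = z).card = h * e := by
    intro z
    obtain ⟨w, hw⟩ : ∃ w : Ω, w ≠ z := by
      by_cases haz : a = z
      · exact ⟨b, fun e' => hab (haz.trans e'.symm)⟩
      · exact ⟨a, haz⟩
    obtain ⟨k, hk1, hk2⟩ := MulAction.is_two_pretransitive_iff.1 hZ.2.1 hw.symm hab
    have hcard : Nat.card ↥(MulAction.stabilizer G z ⊓ MulAction.stabilizer G w) = e := by
      rw [hedef, ← Subgroup.card_map_of_injective (f := (MulAut.conj k).toMonoidHom) (MulAut.conj k).injective]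
      refine (congrArg (fun S : Subgroup G => Nat.card S) ?_).symm
      rw [Subgroup.map_inf _ _ _ (MulAut.conj k).injective, ← MulAction.stabilizer_smul_eq_stabilizer_map_conj,
        ← MulAction.stabilizer_smul_eq_stabilizer_map_conj, hk1, hk2]
    have h' := PermGroups.card_involution_moving hZ hw.symm (hcard ▸ hodd)
    rw [hcard, hh, Nat.add_sub_cancel] at h'
    rw [← h', hIdef, Finset.filter_filter, Nat.card_eq_fintype_card, Fintype.card_subtype]
  have hfixc : Even h → ∀ z : Ω, (I.filter fun t => t • z = z).card = e := by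
    intro hev z
    have h3 := Finset.card_filter_add_card_filter_not (s := I) (fun t : G => t • z = z)
    rw [hmov z, hIc, if_pos hev] at h3
    nlinarith
  -- the good pairs
  set P := I ×ˢ I with hP
  let good : G × G → Prop := fun p => ∀ g : G, ConjClasses.mk g = ConjClasses.mk (p.1 * p.2) → g ∉ H
  have hbad : ∀ p ∈ P, ¬ good p → p.1 = p.2 ∨ (Even h ∧ ∃ z : Ω, p.1 • z = z ∧ p.2 • z = z) := by
    rintro ⟨t, u⟩ hp hng
    simp only [hP, hIdef, Finset.mem_product, Finset.mem_filter, Finset.mem_univ, true_and] at hp
    obtain ⟨ht, hu⟩ := hp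
    simp only [good, not_forall, not_not] at hng
    obtain ⟨g, hg, hgH⟩ := hng
    obtain ⟨k, hk⟩ := isConj_iff.1 (ConjClasses.mk_eq_mk_iff_isConj.1 hg.symm)
    by_cases htu : t = u
    · exact Or.inl htu
    refine Or.inr ?_
    have hg1 : g ≠ 1 := by
      rintro rfl
      rw [mul_inv_eq_one, mul_eq_left] at hk
      refine htu ?_
      have h1 : t * t = 1 := by rw [← sq, ← ht, pow_orderOf_eq_one]
      exact (mul_left_cancel ((hk.trans h1.symm) : t * u = t * t)).symm
    set x := k * t * k⁻¹ with hx
    set y := k * u * k⁻¹ with hy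
    have hxo : orderOf x = 2 := by rw [hx, ← MulAut.conj_apply, MulEquiv.orderOf_eq, ht]
    have hyo : orderOf y = 2 := by rw [hy, ← MulAut.conj_apply, MulEquiv.orderOf_eq, hu]
    have hxy : x * y = g := by rw [hx, hy, ← hk]; group
    have hord := S0883.result hZ hab h e hh hedef.symm hodd hlt H hHa hHcard hHfix g hgH hg1 x y hxo hyo hxy
    have hev : Even h := by
      have h1 : orderOf g ∣ Nat.card H := Subgroup.orderOf_dvd_natCard H hgH
      rw [hord, show Nat.card H = h by omega] at h1
      exact even_iff_two_dvd.2 h1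
    have hxx : x * x = 1 := by rw [← sq, ← hxo, pow_orderOf_eq_one]
    have hyy : y * y = 1 := by rw [← sq, ← hyo, pow_orderOf_eq_one]
    have hga : g • a = a := MulAction.mem_stabilizer_iff.1 (hHa hgH)
    have hxa : x • a = a := by
      refine hHfix g hgH hg1 (x • a) ?_
      have e2 : g * x * g = x := by
        calc g * x * g = x * y * (x * x) * y := by rw [← hxy]; group
          _ = x * (y * y) := by rw [hxx]; group
          _ = x := by rw [hyy, mul_one]
      conv_rhs => rw [← e2]
      rw [mul_smul (g * x) g a, hga, mul_smul g x a]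
    have hya : y • a = a := by
      rw [show y = x * g by rw [← hxy, ← mul_assoc, hxx, one_mul], mul_smul, hga, hxa]
    refine ⟨hev, k⁻¹ • a, ?_, ?_⟩
    · show t • k⁻¹ • a = k⁻¹ • a
      conv_rhs => rw [← hxa]
      rw [hx, ← mul_smul, ← mul_smul]; group
    · show u • k⁻¹ • a = k⁻¹ • a
      conv_rhs => rw [← hya]
      rw [hy, ← mul_smul, ← mul_smul]; group
  -- each class receives at most `|G|` pairs
  set T := (Finset.univ : Finset (ConjClasses G)).filter fun C => ∀ g : G, ConjClasses.mk g = C → g ∉ H with hT
  have hupper : (P.filter good).card ≤ T.card * Fintype.card G := by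
    refine (Finset.card_le_mul_card_image (f := fun p : G × G => ConjClasses.mk (p.1 * p.2)) _ (Fintype.card G) ?_).trans ?_
    · intro C _
      obtain ⟨x, rfl⟩ := ConjClasses.mk_surjective C
      have hex : ∀ y : G, ∃ k : G, ConjClasses.mk y = ConjClasses.mk x → k * x * k⁻¹ = y := by
        intro y
        by_cases hp : ConjClasses.mk y = ConjClasses.mk x
        · obtain ⟨k, hk⟩ := isConj_iff.1 (ConjClasses.mk_eq_mk_iff_isConj.1 hp.symm)
          exact ⟨k, fun _ => hk⟩
        · exact ⟨1, fun hp' => absurd hp' hp⟩
      choose kk hkk using hex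
      let k : G × G → G := fun p => kk (p.1 * p.2)
      have hk : ∀ p : G × G, ConjClasses.mk (p.1 * p.2) = ConjClasses.mk x → k p * x * (k p)⁻¹ = p.1 * p.2 :=
        fun p => hkk (p.1 * p.2)
      by_cases hne : ((P.filter good).filter fun p : G × G => ConjClasses.mk (p.1 * p.2) = ConjClasses.mk x).Nonempty
      · obtain ⟨p₀, hp₀⟩ := hne
        simp only [hP, hIdef, Finset.mem_filter, Finset.mem_product, Finset.mem_univ, true_and] at hp₀
        set t₀ := (k p₀)⁻¹ * p₀.1 * k p₀ with ht₀
        refine Finset.card_le_card_of_injOn (t := Finset.univ)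
          (fun p : G × G => k p * (((k p)⁻¹ * p.1 * k p) * t₀)) (fun _ _ => Finset.mem_coe.2 (Finset.mem_univ _)) ?_
        intro p hp q hq hpq
        simp only [hP, hIdef, Finset.mem_coe, Finset.mem_filter, Finset.mem_product, Finset.mem_univ, true_and] at hp hq
        simp only at hpq
        have hinv : ∀ r : G × G, orderOf r.1 = 2 → orderOf r.2 = 2 → ConjClasses.mk (r.1 * r.2) = ConjClasses.mk x →
            ((k r)⁻¹ * r.1 * k r) * x = x⁻¹ * ((k r)⁻¹ * r.1 * k r) := by
          intro r h1 h2 h3
          have e1 : x = (k r)⁻¹ * (r.1 * r.2) * k r := by rw [← hk r h3]; group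
          have i1 : r.1⁻¹ = r.1 := inv_eq_of_mul_eq_one_right (by rw [← sq, ← h1, pow_orderOf_eq_one])
          have i2 : r.2⁻¹ = r.2 := inv_eq_of_mul_eq_one_right (by rw [← sq, ← h2, pow_orderOf_eq_one])
          have q1 : r.1 * r.1 = 1 := by rw [← sq, ← h1, pow_orderOf_eq_one]
          rw [e1]
          simp only [mul_inv_rev, inv_inv, i1, i2]
          calc (k r)⁻¹ * r.1 * k r * ((k r)⁻¹ * (r.1 * r.2) * k r) = (k r)⁻¹ * ((r.1 * r.1) * r.2) * k r := by group
            _ = (k r)⁻¹ * (r.2 * (r.1 * r.1)) * k r := by rw [q1, one_mul, mul_one]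
            _ = _ := by group
        have hcomm : ∀ r : G × G, orderOf r.1 = 2 → orderOf r.2 = 2 → ConjClasses.mk (r.1 * r.2) = ConjClasses.mk x →
            (((k r)⁻¹ * r.1 * k r) * t₀) * x = x * (((k r)⁻¹ * r.1 * k r) * t₀) := by
          intro r h1 h2 h3
          have a1 := hinv r h1 h2 h3
          have a2 := hinv p₀ hp₀.1.1.1 hp₀.1.1.2 hp₀.2
          rw [← ht₀] at a2
          set v := (k r)⁻¹ * r.1 * k r
          have a3 : v * x⁻¹ = x * v := by
            calc v * x⁻¹ = x * (x⁻¹ * v) * x⁻¹ := by group
              _ = x * v := by rw [← a1]; group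
          rw [mul_assoc, a2, ← mul_assoc, a3, mul_assoc]
        have e1 : p.1 * p.2 = q.1 * q.2 := by
          rw [← hk p hp.2, ← hk q hq.2]
          have c1 := hcomm p hp.1.1.1 hp.1.1.2 hp.2
          have c2 := hcomm q hq.1.1.1 hq.1.1.2 hq.2
          set A := ((k p)⁻¹ * p.1 * k p) * t₀
          set B := ((k q)⁻¹ * q.1 * k q) * t₀
          calc k p * x * (k p)⁻¹ = (k p * A) * x * (k p * A)⁻¹ := by
                rw [show (k p * A) * x * (k p * A)⁻¹ = k p * (A * x) * A⁻¹ * (k p)⁻¹ by group, c1]; group
            _ = (k q * B) * x * (k q * B)⁻¹ := by rw [hpq]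
            _ = k q * x * (k q)⁻¹ := by
                rw [show (k q * B) * x * (k q * B)⁻¹ = k q * (B * x) * B⁻¹ * (k q)⁻¹ by group, c2]; group
        have e2 : p.1 * k p = q.1 * k q := by
          have h1 : p.1 * k p * t₀ = q.1 * k q * t₀ := by
            calc p.1 * k p * t₀ = k p * (((k p)⁻¹ * p.1 * k p) * t₀) := by group
              _ = k q * (((k q)⁻¹ * q.1 * k q) * t₀) := hpq
              _ = _ := by group
          exact mul_right_cancel h1
        -- the chosen conjugator depends only on the product
        have e3 : k p = k q := congrArg kk e1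
        rw [e3] at e2
        have e4 := mul_right_cancel e2
        exact Prod.ext e4 (mul_left_cancel (e4 ▸ e1 : q.1 * p.2 = q.1 * q.2))
      · rw [Finset.not_nonempty_iff_eq_empty.1 hne]; simp
    · refine le_trans (le_of_eq (mul_comm _ _)) (Nat.mul_le_mul_right _ (Finset.card_le_card ?_))
      intro C hC
      obtain ⟨p, hp, rfl⟩ := Finset.mem_image.1 hC
      rw [hT, Finset.mem_filter]
      exact ⟨Finset.mem_univ _, (Finset.mem_filter.1 hp).2⟩
  have hPc : P.card = I.card * I.card := Finset.card_product _ _
  have hsplit := Finset.card_filter_add_card_filter_not (s := P) good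
  have hord : Fintype.card G = (h + 1) * (h * e) := by
    have horb : MulAction.orbit (MulAction.stabilizer G a) b = ({a} : Set Ω)ᶜ := Set.ext fun z =>
      ⟨fun ⟨g, hg⟩ hz => hab.symm (smul_left_cancel (g : G)
          ((hg.trans hz).trans (MulAction.mem_stabilizer_iff.1 g.2).symm)),
        fun hz => by
          obtain ⟨g, hga, hgb⟩ := MulAction.is_two_pretransitive_iff.1 hZ.2.1 hab (Ne.symm (by simpa using hz : z ≠ a))
          exact ⟨⟨g, hga⟩, hgb⟩⟩
    have h2' := (MulAction.stabilizer (MulAction.stabilizer G a) b).card_mul_index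
    rw [MulAction.index_stabilizer, horb, Set.ncard_compl, Set.ncard_singleton, Nat.card_eq_fintype_card (α := Ω), hh,
      Nat.add_sub_cancel] at h2'
    have he' : Nat.card (MulAction.stabilizer (MulAction.stabilizer G a) b) = e := by
      rw [hedef]
      exact Nat.card_congr
        { toFun := fun g => ⟨g.1.1, g.1.2, g.2⟩
          invFun := fun g => ⟨⟨g.1, g.2.1⟩, g.2.2⟩
          left_inv := fun g => rfl
          right_inv := fun g => rfl }
    have h3 := (MulAction.stabilizer G a).card_mul_index
    rw [MulAction.index_stabilizer, MulAction.orbit_eq_univ, Set.ncard_univ, Nat.card_eq_fintype_card (α := Ω), hh,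
      ← h2', he'] at h3
    rw [← Nat.card_eq_fintype_card, ← h3]; ring
  have hN : Nat.card {C : ConjClasses G // ∀ g : G, ConjClasses.mk g = C → g ∉ H} = T.card := by
    rw [Nat.card_eq_fintype_card, Fintype.card_subtype, hT]
  rw [hN]
  by_cases hev : Even h
  · have hb : (P.filter fun p => ¬ good p).card ≤ (h + 1) * (e * e) := by
      refine (Finset.card_le_card (t := Finset.univ.biUnion fun z : Ω =>
        (I.filter fun t => t • z = z) ×ˢ (I.filter fun t => t • z = z)) ?_).trans (Finset.card_biUnion_le.trans ?_)
      · intro p hp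
        obtain ⟨hpP, hng⟩ := Finset.mem_filter.1 hp
        obtain ⟨h1, h2⟩ := Finset.mem_product.1 hpP
        obtain ⟨z, hz1, hz2⟩ : ∃ z : Ω, p.1 • z = z ∧ p.2 • z = z := by
          rcases hbad p hpP hng with h12 | ⟨-, h12⟩
          · by_contra hne
            push Not at hne
            have hall : ∀ z : Ω, p.1 ∉ I.filter fun t => t • z = z := fun z hz => by
              have := (Finset.mem_filter.1 hz).2
              exact hne z this (h12 ▸ this)
            have hdouble := Finset.sum_card_bipartiteAbove_eq_sum_card_bipartiteBelow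
              (fun (t : G) (z : Ω) => t • z = z) (s := I) (t := Finset.univ)
            simp only [Finset.bipartiteAbove, Finset.bipartiteBelow] at hdouble
            rw [Finset.sum_congr rfl (fun z _ => hfixc hev z), Finset.sum_const, smul_eq_mul, Finset.card_univ, hh,
              ← Finset.add_sum_erase _ _ h1] at hdouble
            have h0 : (Finset.univ.filter fun z : Ω => p.1 • z = z).card = 0 := Finset.card_eq_zero.2
              (Finset.filter_eq_empty_iff.2 fun {z} _ hz => hall z (Finset.mem_filter.2 ⟨h1, hz⟩))
            have h5 : ∑ t ∈ I.erase p.1, (Finset.univ.filter fun z : Ω => t • z = z).card ≤ (I.erase p.1).card • 1 := by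
              refine Finset.sum_le_card_nsmul _ _ 1 fun t ht => Finset.card_le_one.2 fun y hy z hz => ?_
              exact PermGroups.involution_one_fixed hZ hab hodd
                (Finset.mem_filter.1 (Finset.mem_of_mem_erase ht)).2 (Finset.mem_filter.1 hy).2 (Finset.mem_filter.1 hz).2
            rw [Finset.card_erase_of_mem h1, hIc, if_pos hev, smul_eq_mul, mul_one] at h5
            have : 0 < e := Nat.card_pos
            have : 0 < e * (h + 1) := Nat.mul_pos this (Nat.succ_pos _)
            rw [mul_comm (h + 1) e] at hdouble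
            omega
          · exact h12
        exact Finset.mem_biUnion.2 ⟨z, Finset.mem_univ _, Finset.mem_product.2
          ⟨Finset.mem_filter.2 ⟨h1, hz1⟩, Finset.mem_filter.2 ⟨h2, hz2⟩⟩⟩
      · rw [Finset.sum_congr rfl (fun z _ => by rw [Finset.card_product, hfixc hev z]), Finset.sum_const,
          smul_eq_mul, Finset.card_univ, hh]
    rw [hPc, hIc, if_pos hev] at hsplit
    rw [hord] at hupper
    refine Nat.le_of_mul_le_mul_right (c := (h + 1) * (h * e)) ?_ (by
      have : 0 < e := Nat.card_pos
      have : 0 < h := by omega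
      positivity)
    nlinarith
  · have hb : (P.filter fun p => ¬ good p).card ≤ I.card := by
      refine (Finset.card_le_card (t := I.image fun t => (t, t)) ?_).trans Finset.card_image_le
      intro p hp
      obtain ⟨hpP, hng⟩ := Finset.mem_filter.1 hp
      rcases hbad p hpP hng with h12 | ⟨h12, -⟩
      · exact Finset.mem_image.2 ⟨p.1, (Finset.mem_product.1 hpP).1, Prod.ext rfl h12⟩
      · exact absurd h12 hev
    rw [hPc, hIc, if_neg hev] at hsplit
    rw [hIc, if_neg hev] at hb
    rw [hord] at hupper
    by_contra hlt'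
    have h1 : T.card + 1 ≤ e := by omega
    have h2 : (T.card + 1) * ((h + 1) * (h * e)) ≤ e * ((h + 1) * (h * e)) := Nat.mul_le_mul_right _ h1
    have h3 : (e + 1) * (h * e) < (h + 1) * (h * e) := by
      have : 0 < e := Nat.card_pos
      exact Nat.mul_lt_mul_of_pos_right (by omega) (Nat.mul_pos (by omega) this)
    nlinarith

end Cfsg.Agent.S0884
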