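import Cfsg.Statements.S0886
import Cfsg.Agent.Chars2.ExtendChar

set_option autoImplicit false
open Cfsg

namespace Cfsg.Agent.S0886

/-- Let N be a normal subgroup of the finite group G with G / N cyclic, and ϑ an irreducible character of N invariant under conjugation by G. Then ϑ is the restriction of some irreducible character of G. -/
theorem result {G : Type*} [Group G] [Finite G] (N : Subgroup G) [hN : N.Normal] (hcyc : IsCyclic (G ⧸ N)) (ϑ : N → ℂ) (hϑ : Cfsg.IsIrrCharacter N ϑ) (hinv : ∀ (g : G) (n : N), ϑ ⟨g * n * g⁻¹, hN.conj_mem (n : G) n.2 g⟩ = ϑ n) : ∃ χ : G → ℂ, Cfsg.IsIrrCharacter G χ ∧ ∀ n : N, χ n = ϑ n := by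
  haveI := hcyc
  exact Chars2.extends_of_cyclic ϑ hϑ hinv

end Cfsg.Agent.S0886
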