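import Cfsg.Statements.S0892
import Cfsg.Agent.Core.AltMultiplier
-- import your own Cfsg.Agent.* helpers here

set_option autoImplicit false
set_option maxRecDepth 100000
open Cfsg

namespace Cfsg.Agent.S0892

/-- Let n ≥ 4 with n ≠ 6 and n ≠ 7, and let Γ be a finite group with a subgroup Z contained in both the centre and the commutator subgroup of Γ such that Γ / Z is isomorphic to the alternating group on n letters. Then Z has order at most 2. -/
theorem result (n : ℕ) (hn : 4 ≤ n) (h6 : n ≠ 6) (h7 : n ≠ 7) {Γ : Type*} [Group Γ] [Finite Γ] (Z : Subgroup Γ) [Z.Normal] (hZc : Z ≤ Subgroup.center Γ) (hZd : Z ≤ commutator Γ) (e : Γ ⧸ Z ≃* alternatingGroup (Fin n)) : Nat.card Z ≤ 2 := by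
  rcases lt_or_ge n 8 with h | h
  · have h45 : n = 4 ∨ n = 5 := by omega
    haveI : Nontrivial (Fin n) := Fin.nontrivial_iff_two_le.mpr (by omega)
    have hcard := Nat.card_congr e.toEquiv
    rw [nat_card_alternatingGroup, Nat.card_eq_fintype_card (α := Fin n), Fintype.card_fin] at hcard
    refine Core.AltMult.card_le_two_of_small Z hZc hZd ?_ ?_ ?_
    · intro p hp hp2 hd
      rw [hcard] at hd
      have h3 : 3 ≤ p := by have := hp.two_le; omega
      have hle : p ^ 2 ≤ n.factorial / 2 := Nat.le_of_dvd (by rcases h45 with rfl | rfl <;> decide) hd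
      have hp8 : p < 8 := by
        rcases h45 with rfl | rfl <;> · norm_num [Nat.factorial] at hle; nlinarith
      rcases h45 with rfl | rfl <;> interval_cases p <;> norm_num [Nat.factorial] at *
    · intro v hv
      have hv' : e v ^ 4 = 1 := by rw [← map_pow, hv, map_one]
      apply e.injective
      rw [map_pow, map_one]
      revert hv'
      generalize e v = w
      clear hv v e hcard
      rcases h45 with rfl | rfl <;> revert w <;> decide +kernel
    · intro hd
      rw [hcard] at hd
      rcases h45 with rfl | rfl <;> norm_num [Nat.factorial] at *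
  · let a : Fin n := ⟨0, by omega⟩
    let b : Fin n := ⟨1, by omega⟩
    let π : Γ →* Equiv.Perm (Fin n) :=
      (alternatingGroup (Fin n)).subtype.comp (e.toMonoidHom.comp (QuotientGroup.mk' Z))
    have hker : π.ker = Z := by
      ext g
      simp [π, MonoidHom.mem_ker]
    rw [← hker]
    refine Core.AltMult.card_ker_le π (hker ▸ hZc) (fun u hu => ?_) (a := a) (b := b)
      (by simp [a, b]) (by simpa using h) (fun g => Equiv.Perm.mem_alternatingGroup.1
        ((e (QuotientGroup.mk' Z g)).2)) (hker ▸ hZd)
    obtain ⟨g, hg⟩ := QuotientGroup.mk'_surjective Z (e.symm ⟨u, Equiv.Perm.mem_alternatingGroup.2 hu⟩)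
    exact ⟨g, by simp only [π, MonoidHom.comp_apply, hg]; simp⟩

end Cfsg.Agent.S0892
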