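import Cfsg.Statements.S0893
import Cfsg.Agent.Chars2.ExtraspecialChar

set_option autoImplicit false
open Cfsg

namespace Cfsg.Agent.S0893

/-- Let P be an extraspecial p-group of order p ^ (2 * n + 1), A an abelian subgroup of order p ^ (n + 1), and λ a character of A of degree 1 that is not identically 1 on the elements of A lying in the centre of P. Then the function induced from λ to P is an irreducible character of P and vanishes at every element outside the centre. -/
theorem result {P : Type*} [Group P] [Fintype P] (p n : ℕ) [Fact p.Prime] (hP : Cfsg.IsExtraspecial p P) (hcard : Nat.card P = p ^ (2 * n + 1)) (A : Subgroup P) (hab : ∀ a ∈ A, ∀ b ∈ A, a * b = b * a) (hA : Nat.card A = p ^ (n + 1)) (lam : A → ℂ) (hlam : Cfsg.IsCharacter A lam ∧ lam 1 = 1) (hZ : ∃ a : A, (a : P) ∈ Subgroup.center P ∧ lam a ≠ 1) : Cfsg.IsIrrCharacter P (Cfsg.indFun A lam) ∧ ∀ x : P, x ∉ Subgroup.center P → Cfsg.indFun A lam x = 0 := by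
  classical
  haveI : Fintype A := Fintype.ofFinite _
  obtain ⟨a, haZ, hla⟩ := hZ
  have ha1 : (a : P) ≠ 1 := fun e => hla (by rw [show a = 1 from Subtype.ext e]; exact hlam.2)
  have hZA := Chars2.extraspecial_center_le hP a.2 haZ ha1
  obtain ⟨φ, hφ⟩ := Chars.exists_hom_of_degree_one hlam.1 hlam.2
  have hind := Chars.isCharacter_indFun A hlam.1
  have hdeg : Cfsg.indFun A lam 1 = (p : ℂ) ^ n := by
    rw [Chars.indFun_apply_one, hlam.2, mul_one]
    have h := A.card_mul_index
    rw [hA, hcard, show 2 * n + 1 = (n + 1) + n by omega, pow_add _ (n + 1)] at h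
    rw [Nat.eq_of_mul_eq_mul_left (pow_pos (Fact.out (p := p.Prime)).pos _) h, Nat.cast_pow]
  obtain ⟨c, hc⟩ := Chars2.exists_multiplicities hind
  have hnl : ∀ χ : Cfsg.IrrCharacter P, c χ ≠ 0 →
      (χ : P → ℂ) 1 = (p : ℂ) ^ n ∧ ∀ x, x ∉ Subgroup.center P → (χ : P → ℂ) x = 0 := by
    intro χ hχ
    rcases Chars2.extraspecial_irr_cases hP hcard χ.2 with ⟨h1, hz⟩ | h
    · exfalso
      have h2 : Cfsg.classInner lam (fun t : A => (χ : P → ℂ) t) ≠ 0 := by
        rw [← Chars.classInner_indFun A lam (Chars.isClassFunction_irr χ), hc]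
        exact_mod_cast hχ
      obtain ⟨ψ, hψ⟩ := Chars.exists_hom_of_degree_one
        (Chars.isCharacter_restrict (Chars.irr_isCharacter χ) A)
        (by show (χ : P → ℂ) ((1 : A) : P) = 1; rw [Subgroup.coe_one]; exact h1)
      by_cases he : lam = fun t : A => (χ : P → ℂ) t
      · exact hla (by rw [he]; exact hz a haZ)
      · refine h2 ?_
        refine Chars.classInner_irr_of_ne (Chars.isIrrCharacter_of_degree_one hlam.1 hlam.2) ?_ he
        exact Chars.isIrrCharacter_of_degree_one (Chars.isCharacter_restrict (Chars.irr_isCharacter χ) A)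
          (by show (χ : P → ℂ) ((1 : A) : P) = 1; rw [Subgroup.coe_one]; exact h1)
    · exact h
  have hexp : ∀ x, Cfsg.indFun A lam x =
      ∑ χ : Cfsg.IrrCharacter P, (c χ : ℂ) * (χ : P → ℂ) x := fun x => by
    rw [Chars2.apply_eq_sum (Chars.isClassFunction_of_isCharacter hind) x]
    exact Finset.sum_congr rfl fun χ _ => by rw [hc]
  refine ⟨?_, fun x hx => ?_⟩
  · have hpn : ((p : ℂ) ^ n) ≠ 0 := pow_ne_zero _ (by exact_mod_cast (Fact.out (p := p.Prime)).ne_zero)
    have h1 := hexp 1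
    rw [hdeg, Finset.sum_congr rfl (fun χ _ => show (c χ : ℂ) * (χ : P → ℂ) 1 = (c χ : ℂ) * (p : ℂ) ^ n
      from (eq_or_ne (c χ) 0).elim (fun h => by simp [h]) fun h => by rw [(hnl χ h).1]),
      ← Finset.sum_mul] at h1
    have h2 : ∑ χ : Cfsg.IrrCharacter P, c χ = 1 := by
      exact_mod_cast (mul_right_cancel₀ hpn (h1.symm.trans (one_mul _).symm))
    obtain ⟨χ, hχ, hu⟩ : ∃ χ, c χ = 1 ∧ ∀ ψ, ψ ≠ χ → c ψ = 0 := by
      obtain ⟨χ, -, hχ⟩ := Finset.exists_ne_zero_of_sum_ne_zero (h2.trans_ne one_ne_zero)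
      have := Finset.sum_erase_add Finset.univ c (Finset.mem_univ χ)
      refine ⟨χ, by omega, fun ψ hψ => ?_⟩
      have := Finset.single_le_sum (fun i _ => Nat.zero_le (c i))
        (Finset.mem_erase.2 ⟨hψ, Finset.mem_univ ψ⟩)
      omega
    have : Cfsg.indFun A lam = (χ : P → ℂ) := funext fun x => by
      rw [hexp, Finset.sum_eq_single χ (fun ψ _ h => by rw [hu ψ h, Nat.cast_zero, zero_mul])
        (fun h => absurd (Finset.mem_univ _) h), hχ, Nat.cast_one, one_mul]
    rw [this]; exact χ.2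
  · rw [hexp]
    exact Finset.sum_eq_zero fun χ _ =>
      (eq_or_ne (c χ) 0).elim (fun h => by simp [h]) fun h => by rw [(hnl χ h).2 x hx, mul_zero]

end Cfsg.Agent.S0893
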