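import Cfsg.Statements.S0894
import Cfsg.Agent.Chars2.ExtraspecialChar

set_option autoImplicit false
open Cfsg

namespace Cfsg.Agent.S0894

/-- Let P be an extraspecial p-group of order p ^ (2 * n + 1). Then every irreducible character of P has degree 1 or p ^ n, and exactly p - 1 of them have degree p ^ n. -/
theorem result {P : Type*} [Group P] [Finite P] (p n : ℕ) [Fact p.Prime] (hP : Cfsg.IsExtraspecial p P) (hcard : Nat.card P = p ^ (2 * n + 1)) : (∀ χ : Cfsg.IrrCharacter P, (χ : P → ℂ) 1 = 1 ∨ (χ : P → ℂ) 1 = (p : ℂ) ^ n) ∧ Nat.card {χ : Cfsg.IrrCharacter P // (χ : P → ℂ) 1 = (p : ℂ) ^ n} = p - 1 := by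
  classical
  haveI := Fintype.ofFinite P
  have hp := (Fact.out (p := p.Prime))
  have hn : n ≠ 0 := by
    rintro rfl
    refine FGS3.IsExtraspecial_not_comm hP ⟨⟨fun a b => ?_⟩⟩
    have htop : Subgroup.center P = ⊤ := Subgroup.eq_top_of_card_eq _ (by rw [hP.2, hcard]; simp)
    exact (Subgroup.mem_center_iff.1 (htop ▸ Subgroup.mem_top a) b).symm
  refine ⟨fun χ => (Chars2.extraspecial_irr_cases hP hcard χ.2).imp And.left And.left, ?_⟩
  set S := Finset.univ.filter fun χ : Cfsg.IrrCharacter P => (χ : P → ℂ) 1 = (p : ℂ) ^ n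
  set L := Finset.univ.filter fun χ : Cfsg.IrrCharacter P => (χ : P → ℂ) 1 = 1
  have hne : ((p : ℂ) ^ n) ≠ 1 := by
    intro e
    have : p ^ n = 1 := by exact_mod_cast e
    exact hn ((Nat.pow_eq_one.1 this).resolve_left hp.ne_one)
  have hSL : Finset.univ.filter (fun χ : Cfsg.IrrCharacter P => ¬ (χ : P → ℂ) 1 = (p : ℂ) ^ n) = L := by
    ext χ
    simp only [L, Finset.mem_filter, Finset.mem_univ, true_and]
    exact ⟨fun h => ((Chars2.extraspecial_irr_cases hP hcard χ.2).imp And.left And.left).resolve_right h,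
      fun h e => hne (e.symm.trans h)⟩
  have hL : L.card = p ^ (2 * n) := by
    have h := Chars.card_linear (G := P)
    rw [Nat.card_eq_fintype_card, Fintype.card_subtype] at h
    rw [h, hP.1.2.2]
    have h2 := (Subgroup.center P).card_mul_index
    rw [hP.2, hcard, pow_succ'] at h2
    exact Nat.eq_of_mul_eq_mul_left hp.pos h2
  have hsum := Chars.sum_sq_apply_one (G := P)
  rw [← Finset.sum_filter_add_sum_filter_not Finset.univ
    (fun χ : Cfsg.IrrCharacter P => (χ : P → ℂ) 1 = (p : ℂ) ^ n), hSL] at hsum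
  have hs1 : ∑ χ ∈ S, (χ : P → ℂ) 1 ^ 2 = ∑ χ ∈ S, ((p : ℂ) ^ n) ^ 2 :=
    Finset.sum_congr rfl fun χ hχ => by rw [(Finset.mem_filter.1 hχ).2]
  have hs2 : ∑ χ ∈ L, (χ : P → ℂ) 1 ^ 2 = ∑ χ ∈ L, (1 : ℂ) :=
    Finset.sum_congr rfl fun χ hχ => by rw [(Finset.mem_filter.1 hχ).2, one_pow]
  rw [hs1, hs2, Finset.sum_const, Finset.sum_const, nsmul_eq_mul, nsmul_eq_mul, mul_one, hcard, hL] at hsum
  have h2 : S.card * (p ^ n) ^ 2 + p ^ (2 * n) = p ^ (2 * n + 1) := by exact_mod_cast hsum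
  have h3 : (S.card + 1) * p ^ (2 * n) = p * p ^ (2 * n) := by
    rw [← pow_succ', ← h2, ← pow_mul, mul_comm n 2]; ring
  have h4 := Nat.eq_of_mul_eq_mul_right (pow_pos hp.pos _) h3
  rw [Nat.card_eq_fintype_card, Fintype.card_subtype]
  show S.card = p - 1
  omega

end Cfsg.Agent.S0894
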