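import Cfsg.Statements.S0899
import Cfsg.Agent.Chars2.LargePrimeSylow

set_option autoImplicit false
open Cfsg

namespace Cfsg.Agent.S0899

/-- Let G be a finite group with a faithful complex representation of degree n (on Fin n → ℂ) and p a prime. Suppose either that (n + 1) ^ 2 ≤ p, or that n + 1 < p and every subgroup of G whose order is not divisible by p ^ 2 has a normal Sylow p-subgroup. Then every Sylow p-subgroup of G is normal. -/
theorem result {G : Type*} [Group G] [Finite G] (n : ℕ) (ρ : Representation ℂ G (Fin n → ℂ)) (hρ : Function.Injective ρ) (p : ℕ) [Fact p.Prime] (h : (n + 1) ^ 2 ≤ p ∨ (n + 1 < p ∧ ∀ K : Subgroup G, ¬ p ^ 2 ∣ Nat.card K → ∀ Q : Sylow p K, (Q : Subgroup K).Normal)) (P : Sylow p G) : (P : Subgroup G).Normal := by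
  classical
  have : Fintype G := Fintype.ofFinite G
  rcases Nat.eq_zero_or_pos n with rfl | hn
  · have : Subsingleton G := hρ.subsingleton
    exact ⟨fun x hx g => by rw [Subsingleton.elim (g * x * g⁻¹) x]; exact hx⟩
  · refine Chars2.large_prime_normal (n := n) hn.ne' h ⟨n, ρ, rfl⟩ (fun g hg => hρ ?_)
      (by rw [Representation.char_one, Module.finrank_fin_fun]) P
    obtain ⟨z, hz, hc, -, hall⟩ := Chars.exists_eigenvalues ρ g
    rw [map_one]
    refine hall fun i => ?_
    refine Chars.eq_of_sum_eq_card z (fun i => Chars.norm_eq_one_of_pow_eq_one (orderOf_pos g).ne' (hz i))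
      1 norm_one ?_ i
    have h1 := hc 1
    simp only [pow_one] at h1
    rw [← h1, hg, Representation.char_one, Fintype.card_fin, mul_one]

end Cfsg.Agent.S0899
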