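import Cfsg.Statements.S0900
import Cfsg.Agent.Chars2.Ramified

set_option autoImplicit false
open Cfsg

namespace Cfsg.Agent.S0900

/-- Let N be a normal subgroup of the finite group G, χ an irreducible character of G and ϑ an irreducible character of N having nonzero inner product with the restriction of χ. Consider: (a) the restriction of χ to N is e • ϑ for a natural number e with e ^ 2 equal to the index of N; (b) χ vanishes outside N and ϑ is invariant under conjugation by G; (c) ϑ is invariant and every irreducible character of G having nonzero inner product with the function induced from ϑ equals χ. Then (a) ↔ (b) and (a) ↔ (c). -/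
theorem result {G : Type*} [Group G] [Fintype G] (N : Subgroup G) [hN : N.Normal] [Fintype N] (χ : G → ℂ) (hχ : Cfsg.IsIrrCharacter G χ) (ϑ : N → ℂ) (hϑ : Cfsg.IsIrrCharacter N ϑ) (hcon : Cfsg.classInner (fun n : N => χ n) ϑ ≠ 0) : ((∃ e : ℕ, (fun n : N => χ n) = (e : ℂ) • ϑ ∧ e ^ 2 = N.index) ↔ ((∀ g : G, g ∉ N → χ g = 0) ∧ ∀ (g : G) (n : N), ϑ ⟨g * n * g⁻¹, hN.conj_mem (n : G) n.2 g⟩ = ϑ n)) ∧ ((∃ e : ℕ, (fun n : N => χ n) = (e : ℂ) • ϑ ∧ e ^ 2 = N.index) ↔ (∀ (g : G) (n : N), ϑ ⟨g * n * g⁻¹, hN.conj_mem (n : G) n.2 g⟩ = ϑ n ∧ ∀ ψ : G → ℂ, Cfsg.IsIrrCharacter G ψ → Cfsg.classInner (Cfsg.indFun N ϑ) ψ ≠ 0 → ψ = χ)) := by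
  classical
  have hχc := Chars.isCharacter_of_isIrr hχ
  have hcl := Chars.isClassFunction_of_isCharacter hχc
  obtain ⟨m, hm⟩ := Chars.exists_classInner_eq_nat (Chars.isCharacter_restrict hχc N)
    (Chars.isCharacter_of_isIrr hϑ)
  have hm0 : m ≠ 0 := fun h => hcon (by rw [hm, h, Nat.cast_zero])
  have hind : Cfsg.classInner (Cfsg.indFun N ϑ) χ = (m : ℂ) := by
    rw [Chars.classInner_indFun N ϑ hcl, ← Chars.classInner_conj_symm, hm, Complex.conj_natCast]
  constructor
  · constructor
    · rintro ⟨e, he, hei⟩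
      have he0 : e ≠ 0 := fun h => N.index_ne_zero_of_finite (by rw [← hei, h]; rfl)
      exact ⟨fun g hg => Chars2.apply_eq_zero_of_ramified hχ hϑ he hei hg,
        Chars2.conj_restrict_invariant hχc he0 he⟩
    · rintro ⟨hvan, hinv⟩
      have hres : (fun n : N => χ n) = (m : ℂ) • ϑ := funext fun n => by
        rw [Chars2.clifford_invariant hχ hϑ (Chars2.inertiaSub_eq_top hinv) hcon n, hm]; rfl
      refine ⟨m, hres, ?_⟩
      have h := (Chars2.norm_restrict_eq_index_iff hχ).2 hvan
      rw [hres, Chars.classInner_smul_left, Chars.classInner_smul_right,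
        Chars.classInner_self_irr hϑ, Complex.conj_natCast, mul_one] at h
      rw [sq]; exact_mod_cast h
  · constructor
    · rintro ⟨e, he, hei⟩ g n
      have he0 : e ≠ 0 := fun h => N.index_ne_zero_of_finite (by rw [← hei, h]; rfl)
      refine ⟨Chars2.conj_restrict_invariant hχc he0 he g n, fun ψ hψ hne => ?_⟩
      refine Chars2.eq_of_ramified hχ hϑ he hei hψ ?_
      rw [Chars.classInner_indFun N ϑ
        (Chars.isClassFunction_of_isCharacter (Chars.isCharacter_of_isIrr hψ))] at hne
      rw [← Chars.classInner_conj_symm]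
      simpa using hne
    · intro hall
      have hinv := fun g n => (hall g n).1
      have huniq := (hall 1 1).2
      have hres : (fun n : N => χ n) = (m : ℂ) • ϑ := funext fun n => by
        rw [Chars2.clifford_invariant hχ hϑ (Chars2.inertiaSub_eq_top hinv) hcon n, hm]; rfl
      refine ⟨m, hres, ?_⟩
      have h := Chars2.classInner_indFun_invariant hϑ (Chars2.inertiaSub_eq_top hinv)
      rw [Chars.classInner_eq_sum (Chars.isClassFunction_indFun N ϑ),
        Finset.sum_eq_single (⟨χ, hχ⟩ : Cfsg.IrrCharacter G)] at h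
      · have e2 : Cfsg.classInner χ (Cfsg.indFun N ϑ) = (m : ℂ) := by
          rw [← Chars.classInner_conj_symm, hind, Complex.conj_natCast]
        simp only [hind, e2] at h
        rw [sq]; exact_mod_cast h
      · intro ψ _ hne
        rw [show Cfsg.classInner (Cfsg.indFun N ϑ) (ψ : G → ℂ) = 0 from
          by_contra fun hh => hne (Subtype.ext (huniq ψ ψ.2 hh)), zero_mul]
      · intro h; exact absurd (Finset.mem_univ _) h

end Cfsg.Agent.S0900
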