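import Cfsg.Statements.S0901
import Cfsg.Agent.Blocks.Local
-- import your own Cfsg.Agent.* helpers here

set_option autoImplicit false
open Cfsg

namespace Cfsg.Agent.S0901


/-- Let M be a maximal ideal of the ring of algebraic integers containing the prime p, and let U be the set of complex roots of unity of order prime to p. Then reduction modulo M is injective on U, and every algebraic integer not in M is congruent modulo M to an element of U (so U maps bijectively onto the nonzero residues). -/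
theorem result (p : ℕ) [Fact p.Prime] (M : Ideal Cfsg.AlgInt) (hM : Cfsg.IsPModular p M) : (∀ ε₁ ε₂ : Cfsg.AlgInt, (∃ m : ℕ, ¬ p ∣ m ∧ (ε₁ : ℂ) ^ m = 1) → (∃ m : ℕ, ¬ p ∣ m ∧ (ε₂ : ℂ) ^ m = 1) → ε₁ - ε₂ ∈ M → ε₁ = ε₂) ∧ (∀ a : Cfsg.AlgInt, a ∉ M → ∃ ε : Cfsg.AlgInt, (∃ m : ℕ, ¬ p ∣ m ∧ (ε : ℂ) ^ m = 1) ∧ a - ε ∈ M) := by
  haveI := hM.2.1
  have hpM := hM.2.2
  constructor
  · intro e₁ e₂ ⟨m₁, hm₁, h₁⟩ ⟨m₂, hm₂, h₂⟩ hsub
    have e1 : e₁ ^ (m₁ * m₂) = 1 := Subtype.ext (by push_cast; rw [pow_mul, h₁, one_pow])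
    have e2 : e₂ ^ (m₁ * m₂) = 1 := Subtype.ext (by push_cast; rw [mul_comm, pow_mul, h₂, one_pow])
    have hm : ¬ p ∣ m₁ * m₂ := fun h => ((Fact.out : p.Prime).dvd_mul.1 h).elim hm₁ hm₂
    have hm0 : m₁ * m₂ ≠ 0 := fun h => hm (h ▸ dvd_zero p)
    have hinv : e₂ * e₂ ^ (m₁ * m₂ - 1) = 1 := by
      rw [← pow_succ', Nat.sub_add_cancel (Nat.one_le_iff_ne_zero.2 hm0), e2]
    have key := Cfsg.Agent.Blocks.root_eq_one_of_sub_mem hpM hm
      (e := e₁ * e₂ ^ (m₁ * m₂ - 1))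
      (by rw [mul_pow, e1, one_mul, ← pow_mul, mul_comm, pow_mul, e2, one_pow])
      (by have := M.mul_mem_right (e₂ ^ (m₁ * m₂ - 1)) hsub
          rwa [sub_mul, hinv] at this)
    calc e₁ = e₁ * (e₂ * e₂ ^ (m₁ * m₂ - 1)) := by rw [hinv, mul_one]
      _ = e₂ * (e₁ * e₂ ^ (m₁ * m₂ - 1)) := by ring
      _ = e₂ := by rw [key, mul_one]
  · intro a ha
    obtain ⟨e, ⟨m, hm, he⟩, hae⟩ := Cfsg.Agent.Blocks.exists_root_sub_mem hpM ha
    exact ⟨e, ⟨m, hm, by exact_mod_cast congrArg (Subtype.val) he⟩, hae⟩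

end Cfsg.Agent.S0901
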