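import Cfsg.Statements.S0903
-- import your own Cfsg.Agent.* helpers here

set_option autoImplicit false
open Cfsg

namespace Cfsg.Agent.S0903

/-- Let P be a p-subgroup of the finite group G, let c centralize P and let g, h ∈ G. The number of pairs (x, y) with x conjugate to g, y conjugate to h and x * y = c is congruent modulo p to the number of such pairs in which x and y both centralize P. (This is why the Brauer map on class sums is multiplicative.) -/
theorem result {G : Type*} [Group G] [Finite G] (p : ℕ) [Fact p.Prime] (P : Subgroup G) (hP : IsPGroup p P) (c : G) (hc : c ∈ Subgroup.centralizer (P : Set G)) (g h : G) : Nat.card {xy : G × G // IsConj g xy.1 ∧ IsConj h xy.2 ∧ xy.1 * xy.2 = c} ≡ Nat.card {xy : G × G // IsConj g xy.1 ∧ IsConj h xy.2 ∧ xy.1 * xy.2 = c ∧ xy.1 ∈ Subgroup.centralizer (P : Set G) ∧ xy.2 ∈ Subgroup.centralizer (P : Set G)} [MOD p] := by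
  classical
  haveI := Fintype.ofFinite G
  let X := {xy : G × G // IsConj g xy.1 ∧ IsConj h xy.2 ∧ xy.1 * xy.2 = c}
  have hstab : ∀ (q : P) (x : X), IsConj g ((q : G) * x.1.1 * (q : G)⁻¹) ∧
      IsConj h ((q : G) * x.1.2 * (q : G)⁻¹) ∧
      ((q : G) * x.1.1 * (q : G)⁻¹) * ((q : G) * x.1.2 * (q : G)⁻¹) = c := by
    intro q x
    refine ⟨x.2.1.trans (isConj_iff.2 ⟨q, rfl⟩), x.2.2.1.trans (isConj_iff.2 ⟨q, rfl⟩), ?_⟩
    rw [show ((q : G) * x.1.1 * (q : G)⁻¹) * ((q : G) * x.1.2 * (q : G)⁻¹) =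
      (q : G) * (x.1.1 * x.1.2) * (q : G)⁻¹ by group, x.2.2.2,
      Subgroup.mem_centralizer_iff.1 hc q q.2, mul_inv_cancel_right]
  letI : MulAction P X :=
    { smul := fun q x => ⟨((q : G) * x.1.1 * (q : G)⁻¹, (q : G) * x.1.2 * (q : G)⁻¹), hstab q x⟩
      one_smul := fun x => Subtype.ext (by
        show (((1 : P) : G) * x.1.1 * ((1 : P) : G)⁻¹, ((1 : P) : G) * x.1.2 * ((1 : P) : G)⁻¹) = x.1
        simp)
      mul_smul := fun a b x => Subtype.ext (by
        show (((a * b : P) : G) * x.1.1 * ((a * b : P) : G)⁻¹,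
            ((a * b : P) : G) * x.1.2 * ((a * b : P) : G)⁻¹) =
          ((a : G) * ((b : G) * x.1.1 * (b : G)⁻¹) * (a : G)⁻¹,
            (a : G) * ((b : G) * x.1.2 * (b : G)⁻¹) * (a : G)⁻¹)
        simp [mul_assoc]) }
  refine (hP.card_modEq_card_fixedPoints X).trans (congrArg (· % p) ?_)
  have hmem : ∀ x : G, x ∈ Subgroup.centralizer (P : Set G) ↔
      ∀ q : P, (q : G) * x * (q : G)⁻¹ = x := fun x => by
    rw [Subgroup.mem_centralizer_iff]
    exact ⟨fun h q => by rw [h q q.2, mul_inv_cancel_right],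
      fun h q hq => mul_inv_eq_iff_eq_mul.1 (h ⟨q, hq⟩)⟩
  refine Nat.card_congr
    { toFun := fun x => ⟨x.1.1, x.1.2.1, x.1.2.2.1, x.1.2.2.2,
        (hmem _).2 fun q => congrArg (fun y : X => y.1.1) (x.2 q),
        (hmem _).2 fun q => congrArg (fun y : X => y.1.2) (x.2 q)⟩
      invFun := fun x => ⟨⟨x.1, x.2.1, x.2.2.1, x.2.2.2.1⟩, fun q => Subtype.ext
        (Prod.ext ((hmem _).1 x.2.2.2.2.1 q) ((hmem _).1 x.2.2.2.2.2 q))⟩
      left_inv := fun x => rfl
      right_inv := fun x => rfl }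

end Cfsg.Agent.S0903
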