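import Cfsg.Statements.S0905
import Cfsg.Agent.Blocks.Nilp
-- import your own Cfsg.Agent.* helpers here

set_option autoImplicit false
open Cfsg

namespace Cfsg.Agent.S0905

/-- Let F be a field of characteristic p and let g be an element of the finite group G no conjugate of which centralizes O_p(G). Then the class sum of g is a nilpotent element of the group algebra F[G]. -/
theorem result {G : Type*} [Group G] [Finite G] (p : ℕ) [Fact p.Prime] (F : Type*) [Field F] [CharP F p] (g : G) (hg : ∀ x : G, IsConj g x → x ∉ Subgroup.centralizer (Cfsg.pCore p G : Set G)) : IsNilpotent (∑ᶠ x ∈ ConjClasses.carrier (ConjClasses.mk g), MonoidAlgebra.single x (1 : F) : MonoidAlgebra F G) := by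
  classical
  haveI := Fintype.ofFinite G
  set z : MonoidAlgebra F G := ∑ᶠ x ∈ ConjClasses.carrier (ConjClasses.mk g), MonoidAlgebra.single x (1 : F)
  have hzs : z = ∑ x ∈ Finset.univ.filter (fun x => IsConj g x), MonoidAlgebra.single x (1 : F) :=
    finsum_mem_eq_sum_of_inter_support_eq _ (by
      ext x; simp only [Set.mem_inter_iff, ConjClasses.mem_carrier_iff_mk_eq, ConjClasses.mk_eq_mk_iff_isConj, Finset.coe_filter, Finset.mem_univ, true_and, Set.mem_ofPred_eq, Function.mem_support]
      exact and_congr_left fun _ => ⟨IsConj.symm, IsConj.symm⟩)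
  set Q := Cfsg.pCore p G
  have hQn : Q.Normal := Cfsg.Agent.Blocks.pCore_isNormal p G
  have hQp : IsPGroup p Q := Cfsg.Agent.Blocks.pCore_isPGroup p G
  exact Cfsg.Agent.Blocks.isNilpotent_classSum hQn hQp F g
    (fun x hx => hg x hx) z hzs

end Cfsg.Agent.S0905
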