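import Cfsg.Statements.S0911
import Cfsg.Agent.Blocks.Defect
-- import your own Cfsg.Agent.* helpers here

set_option autoImplicit false
open Cfsg

namespace Cfsg.Agent.S0911

/-- The min–max Theorem for defect classes. Let B be a block of the finite group G relative to a maximal ideal M of the algebraic integers containing the prime p, let g represent a defect class of B and let D be a Sylow p-subgroup of the centralizer of g (viewed in G). For any h: (a) if the idempotent coefficient of B at h is a local integer outside the local ideal, then some conjugate of D contains a Sylow p-subgroup of the centralizer of h; (b) if the central character of some member of B at h is outside the local ideal, then some conjugate of D is contained in a Sylow p-subgroup of the centralizer of h. -/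
theorem result {G : Type*} [Group G] [Finite G] (p : ℕ) [Fact p.Prime] (M : Ideal Cfsg.AlgInt) (hM : Cfsg.IsPModular p M) (B : Set (Cfsg.IrrCharacter G)) (hB : Cfsg.IsPBlock M B) (g : G) (hg : Cfsg.IsDefectClass M B g) (D : Sylow p (Subgroup.centralizer ({g} : Set G))) (h : G) : (Cfsg.MemLocalRing M (Cfsg.blockCoeff B h) → ¬ Cfsg.MemLocalIdeal M (Cfsg.blockCoeff B h) → ∃ (x : G) (Q : Sylow p (Subgroup.centralizer ({h} : Set G))), (Q : Subgroup (Subgroup.centralizer ({h} : Set G))).map (Subgroup.centralizer ({h} : Set G)).subtype ≤ ((D : Subgroup (Subgroup.centralizer ({g} : Set G))).map (Subgroup.centralizer ({g} : Set G)).subtype).map (MulAut.conj x).toMonoidHom) ∧ ((∃ χ ∈ B, ¬ Cfsg.MemLocalIdeal M (Cfsg.centralChar (χ : G → ℂ) h)) → ∃ (x : G) (Q : Sylow p (Subgroup.centralizer ({h} : Set G))), ((D : Subgroup (Subgroup.centralizer ({g} : Set G))).map (Subgroup.centralizer ({g} : Set G)).subtype).map (MulAut.conj x).toMonoidHom ≤ (Q : Subgroup (Subgroup.centralizer ({h} : Set G))).map (Subgroup.centralizer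 ({h} : Set G)).subtype) := by
  haveI := hM.2.1
  haveI := Fintype.ofFinite G
  open Cfsg.Agent.Blocks in
  have hDg := isSylowIn_map _ D
  have hDd : Cfsg.IsDefectGroup p M B _ := isDefectGroup_iff.2 ⟨g, hg, hDg⟩
  open Cfsg.Agent.Blocks in
  refine ⟨fun _ hu => ?_, fun ⟨χ, hχ, hu⟩ => ?_⟩
  · let Q : Sylow p (Subgroup.centralizer ({h} : Set G)) := default
    obtain ⟨x, hx⟩ := Cfsg.Agent.Blocks.le_defect_of_coeff hM.2.2 hB hDd hu
      (Cfsg.Agent.Blocks.isSylowIn_map _ Q).2.1
      (Cfsg.Agent.Blocks.le_centralizer_singleton_iff.1 (Subgroup.map_subtype_le _))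
    refine ⟨x⁻¹, Q, ?_⟩
    have := Cfsg.Agent.Blocks.conjSub_mono x⁻¹ hx
    rwa [Cfsg.Agent.Blocks.conjSub_inv_cancel] at this
  · obtain ⟨y, hy, hyD⟩ := Cfsg.Agent.Blocks.defect_centralizes hM.2.2 hB hDd hχ hu
    obtain ⟨a, ha⟩ := isConj_iff.1 hy.symm
    have hle := Cfsg.Agent.Blocks.conjSub_mono a
      (Cfsg.Agent.Blocks.le_centralizer_singleton_iff.2 hyD)
    rw [Cfsg.Agent.Blocks.conjSub_centralizer, ha] at hle
    obtain ⟨E, hE, hDE⟩ := Cfsg.Agent.Blocks.exists_isSylowIn_ge (p := p) hle (hDg.2.1.map _)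
    obtain ⟨Q, hQ⟩ := Cfsg.Agent.Blocks.isSylowIn_iff.1 hE
    exact ⟨a, Q, hQ ▸ hDE⟩

end Cfsg.Agent.S0911
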