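import Cfsg.Statements.S0916
import Cfsg.Agent.Blocks.SylowIn
-- import your own Cfsg.Agent.* helpers here

set_option autoImplicit false
open Cfsg

namespace Cfsg.Agent.S0916

/-- Let P be a p-subgroup of the finite group G, C its centralizer and N its normalizer. Say that a conjugacy class (of G, or of N) has defect group P when P is a Sylow p-subgroup of the centralizer (in G, respectively in N) of some element of the class. Then: (i) if the class of g in G has defect group P, the elements of that class lying in C form a single N-class, again with defect group P; (ii) every N-class with defect group P arises this way from exactly one G-class with defect group P. -/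
theorem result {G : Type*} [Group G] [Finite G] (p : ℕ) [Fact p.Prime] (P : Subgroup G) (hP : IsPGroup p P) : (∀ g : G, (∃ S : Sylow p (Subgroup.centralizer ({g} : Set G)), (S : Subgroup (Subgroup.centralizer ({g} : Set G))).map (Subgroup.centralizer ({g} : Set G)).subtype = P) → (∃ c : G, IsConj g c ∧ c ∈ Subgroup.centralizer (P : Set G)) ∧ (∀ c₁ c₂ : G, IsConj g c₁ → IsConj g c₂ → c₁ ∈ Subgroup.centralizer (P : Set G) → c₂ ∈ Subgroup.centralizer (P : Set G) → ∃ n ∈ Subgroup.normalizer (P : Set G), n * c₁ * n⁻¹ = c₂)) ∧ (∀ c : G, c ∈ Subgroup.centralizer (P : Set G) → (∃ S : Sylow p (Subgroup.centralizer ({c} : Set G) ⊓ Subgroup.normalizer (P : Set G) : Subgroup G), (S : Subgroup ↥(Subgroup.centralizer ({c} : Set G) ⊓ Subgroup.normalizer (P : Set G))).map (Subgroup.centralizer ({c} : Set G) ⊓ Subgroup.normalizer (P : Set G)).subtype = P) → ∃ S : Sylow p (Subgroup.centralizer ({c} : Set G)), (S : Subgroup (Subgroup.centralizer ({c} : Set G))).map (Subgroup.centralizer ({c} : Set G)).subtype = P) := by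
  classical
  open Cfsg.Agent.Blocks in
  refine ⟨fun g hg => ?_, fun c hc hS => ?_⟩
  · have hgP : IsSylowIn p (Subgroup.centralizer ({g} : Set G)) P := isSylowIn_iff.2 hg
    refine ⟨⟨g, IsConj.refl g, le_centralizer_singleton_iff.1 hgP.1⟩, fun c₁ c₂ h₁ h₂ hc₁ hc₂ => ?_⟩
    have key : ∀ c : G, IsConj g c → c ∈ Subgroup.centralizer (P : Set G) →
        IsSylowIn p (Subgroup.centralizer ({c} : Set G)) P := by
      intro c hgc hc
      obtain ⟨x, rfl⟩ := isConj_iff.1 hgc
      refine ⟨le_centralizer_singleton_iff.2 hc, hP, ?_⟩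
      rw [hgP.2.2, ← centralizer_singleton_conj g x,
        Subgroup.card_map_of_injective (MulAut.conj x).injective]
    obtain ⟨x, hx⟩ := isConj_iff.1 (h₁.symm.trans h₂)
    have hP1 : IsSylowIn p (Subgroup.centralizer ({c₂} : Set G))
        (P.map (MulAut.conj x).toMonoidHom) := by
      rw [← hx, ← centralizer_singleton_conj c₁ x]
      exact isSylowIn_conj (key c₁ h₁ hc₁) x
    obtain ⟨y, hy, hyP⟩ := isSylowIn_conjugate hP1 (key c₂ h₂ hc₂)
    refine ⟨y * x, ?_, ?_⟩
    · rw [Subgroup.mem_normalizer_iff]
      intro z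
      conv_rhs => rw [← hyP]
      simp only [Subgroup.mem_map_equiv, MulAut.conj_symm_apply, SetLike.mem_coe]
      group
    · have hyc := Subgroup.mem_centralizer_singleton_iff.1 hy
      calc y * x * c₁ * (y * x)⁻¹ = y * (x * c₁ * x⁻¹) * y⁻¹ := by group
        _ = c₂ := by rw [hx, hyc, mul_inv_cancel_right]
  · exact isSylowIn_iff.1 (isSylowIn_of_normalizer (le_centralizer_singleton_iff.2 hc) hP
      (isSylowIn_iff.2 hS))

end Cfsg.Agent.S0916
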