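import Cfsg.Statements.S0923
import Cfsg.Agent.Blocks.Nagao
-- import your own Cfsg.Agent.* helpers here

set_option autoImplicit false
open Cfsg

namespace Cfsg.Agent.S0923

/-- Brauer's Second Main Theorem, in terms of ordinary characters. Let x be a p-element of the finite group G with centralizer C, let χ lie in the block B of G and let b be a block of C that does not induce B (relative to a maximal ideal M of the algebraic integers containing p). Form the class function ϑ(c) = χ(x c) on C and its b-part (the sum over ψ ∈ b of the inner product of ϑ with ψ, times ψ). Then the b-part of ϑ vanishes at every p-regular element of C. (Equivalently, the generalized decomposition numbers of χ with respect to b are zero.) -/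
theorem result {G : Type*} [Group G] [Finite G] (p : ℕ) [Fact p.Prime] (M : Ideal Cfsg.AlgInt) (hM : Cfsg.IsPModular p M) (x : G) (hx : ∃ k : ℕ, orderOf x = p ^ k) (B : Set (Cfsg.IrrCharacter G)) (hB : Cfsg.IsPBlock M B) (χ : Cfsg.IrrCharacter G) (hχ : χ ∈ B) (b : Set (Cfsg.IrrCharacter (Subgroup.centralizer ({x} : Set G)))) (hb : Cfsg.IsPBlock M b) (hnot : ¬ Cfsg.IsInducedBlock M (Subgroup.centralizer ({x} : Set G)) b B) (y : Subgroup.centralizer ({x} : Set G)) (hy : ¬ p ∣ orderOf y) : Cfsg.blockPart b (fun c : Subgroup.centralizer ({x} : Set G) => (χ : G → ℂ) (x * (c : G))) y = 0 := by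
  classical
  obtain ⟨hp, hMax, hpM⟩ := hM
  haveI := hMax
  letI := Fintype.ofFinite G
  let H := Subgroup.centralizer ({x} : Set G)
  letI : Fintype (Subgroup.centralizer ({x} : Set G)) := Fintype.ofFinite _
  have hP : IsPGroup p (Subgroup.zpowers x) := by
    obtain ⟨k, hk⟩ := hx
    exact IsPGroup.of_card ((Nat.card_zpowers x).trans hk)
  have hxH : ∀ k : H, Commute x (k : G) := fun k =>
    (Subgroup.mem_centralizer_singleton_iff.1 k.2).symm
  obtain ⟨B', hind⟩ := Blocks.inducedBlockDefined_of_brauer (P := Subgroup.zpowers x) H hpM hP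
    (Subgroup.zpowers_le.2 (Subgroup.mem_centralizer_singleton_iff.2 rfl))
    (fun c hc => Subgroup.mem_centralizer_singleton_iff.2
      (Subgroup.mem_centralizer_iff.1 hc x (Subgroup.mem_zpowers x)).symm)
    (fun c hc => Subgroup.mem_normalizer_iff.2 fun q => by
      have hcq : ∀ w ∈ Subgroup.zpowers x, c * w * c⁻¹ = w := by
        rintro _ ⟨j, rfl⟩
        rw [((hxH ⟨c, hc⟩).zpow_left j).eq.symm, mul_inv_cancel_right]
      constructor
      · exact fun hq => by rw [hcq q hq]; exact hq
      · intro hq
        have h2 := hcq _ hq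
        have : c * q * c⁻¹ = q := mul_left_cancel (mul_right_cancel h2)
        rwa [this] at hq)
    hb
  have hχ' : χ ∉ B' := fun hmem => hnot (Blocks.blocks_eq_of_inter hB hind.2.1 hχ hmem ▸ hind)
  have hθ : IsClassFunction H (fun c : H => (χ : G → ℂ) (x * (c : G))) := fun k c => by
    show (χ : G → ℂ) (x * ((c : G) * (k : G) * (c : G)⁻¹)) = (χ : G → ℂ) (x * (k : G))
    rw [← Chars.isClassFunction_irr χ (x * (k : G)) (c : G)]
    congr 1
    rw [← mul_assoc, ← mul_assoc, ← mul_assoc, (hxH c).eq]
  rw [Blocks.blockPart_eq_sum b hθ]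
  let h : H := ⟨x * y, H.mul_mem (Subgroup.mem_centralizer_singleton_iff.2 rfl) y.2⟩
  have hy' : ¬ p ∣ orderOf (y : G) := by rwa [Subgroup.orderOf_coe]
  have h1 := Blocks.second_main_sum hpM H h
    (le_of_eq (by rw [show Blocks.ppart p (h : G) = x from Blocks.ppart_mul (hxH y) hx hy'])) hind hχ'
  rw [← h1]
  refine Finset.sum_congr rfl fun k _ => ?_
  show Cfsg.blockCoeff b k * (χ : G → ℂ) (x * ((k : G) * (y : G))) =
    Cfsg.blockCoeff b k * (χ : G → ℂ) ((k : G) * (x * (y : G)))
  rw [← mul_assoc x, (hxH k).eq, mul_assoc]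

end Cfsg.Agent.S0923
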