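import Cfsg.Statements.S0925
import Cfsg.Agent.Blocks.Orth
-- import your own Cfsg.Agent.* helpers here

set_option autoImplicit false
open Cfsg

namespace Cfsg.Agent.S0925

/-- (i) Let ϑ be a class function on the finite group G and x a p-element, and suppose ϑ vanishes at every element whose p-part is conjugate to x. Then for every block B (relative to a maximal ideal M of the algebraic integers containing p) the B-part of ϑ — the sum over χ ∈ B of the inner product of ϑ with χ, times χ — also vanishes at every such element. (ii) Block orthogonality, its corollary: if the p-parts of g and h are not conjugate, then the sum over χ ∈ B of χ g * χ h⁻¹ is zero for every block B. -/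
theorem result {G : Type*} [Group G] [Finite G] (p : ℕ) [Fact p.Prime] (M : Ideal Cfsg.AlgInt) (hM : Cfsg.IsPModular p M) : (∀ (ϑ : G → ℂ), Cfsg.IsClassFunction G ϑ → ∀ x : G, (∃ k : ℕ, orderOf x = p ^ k) → (∀ u z : G, Cfsg.IsPPart p u z → IsConj x z → ϑ u = 0) → ∀ B : Set (Cfsg.IrrCharacter G), Cfsg.IsPBlock M B → ∀ u z : G, Cfsg.IsPPart p u z → IsConj x z → Cfsg.blockPart B ϑ u = 0) ∧ (∀ g h x y : G, Cfsg.IsPPart p g x → Cfsg.IsPPart p h y → ¬ IsConj x y → ∀ B : Set (Cfsg.IrrCharacter G), Cfsg.IsPBlock M B → ∑ᶠ χ ∈ B, (χ : G → ℂ) g * (χ : G → ℂ) h⁻¹ = 0) := by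
  haveI := hM.2.1
  haveI := Fintype.ofFinite G
  classical
  have hpM := hM.2.2
  refine ⟨fun ϑ hϑ x hx hvan B hB u z huz hxz => ?_, fun g h x y hg hh hne B hB => ?_⟩
  · have key : ∀ v : G, ϑ v * ∑ χ ∈ Finset.univ.filter (· ∈ B),
        (χ : G → ℂ) u * starRingEnd ℂ ((χ : G → ℂ) v) = 0 := fun v => by
      by_cases hc : IsConj (Cfsg.Agent.Blocks.ppart p u) (Cfsg.Agent.Blocks.ppart p v)
      · rw [hvan v _ (Cfsg.Agent.Blocks.isPPart_ppart v)
          (hxz.trans ((Cfsg.Agent.Blocks.eq_ppart huz) ▸ hc)), zero_mul]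
      · rw [Cfsg.Agent.Blocks.block_orth hpM hB hc, mul_zero]
    rw [Cfsg.blockPart, Cfsg.Agent.Blocks.finsum_mem_eq_filter]
    refine Eq.trans (b := ((Nat.card G : ℂ)⁻¹) * ∑ v : G, ϑ v * ∑ χ ∈ Finset.univ.filter (· ∈ B),
        (χ : G → ℂ) u * starRingEnd ℂ ((χ : G → ℂ) v)) ?_
      (by rw [Finset.sum_eq_zero (fun v _ => key v), mul_zero])
    simp only [Cfsg.Agent.Chars.classInner_def, Finset.mul_sum, Finset.sum_mul]
    rw [Finset.sum_comm]
    exact Finset.sum_congr (Finset.ext fun v => by simp) fun v _ =>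
      Finset.sum_congr rfl fun χ _ => by ring
  · rw [Cfsg.Agent.Blocks.finsum_mem_eq_filter]
    rw [Cfsg.Agent.Blocks.eq_ppart hg, Cfsg.Agent.Blocks.eq_ppart hh] at hne
    refine Eq.trans (Finset.sum_congr rfl fun χ _ => ?_) (Cfsg.Agent.Blocks.block_orth hpM hB hne)
    rw [Cfsg.Agent.Chars.char_inv_eq_conj (Cfsg.Agent.Chars.irr_isCharacter χ)]

end Cfsg.Agent.S0925
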