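import Cfsg.Statements.S0926
import Cfsg.Agent.Blocks.Nagao
-- import your own Cfsg.Agent.* helpers here

set_option autoImplicit false
open Cfsg

namespace Cfsg.Agent.S0926

/-- Let B be a block of the finite group G with defect group D (relative to a maximal ideal M of the algebraic integers containing p), let χ ∈ B have height zero, and let x be a p-element. Then some conjugate of x lies in D if and only if χ does not vanish on the whole p-section of x (the elements whose p-part is conjugate to x). -/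
theorem result {G : Type*} [Group G] [Finite G] (p : ℕ) [Fact p.Prime] (M : Ideal Cfsg.AlgInt) (hM : Cfsg.IsPModular p M) (B : Set (Cfsg.IrrCharacter G)) (hB : Cfsg.IsPBlock M B) (D : Subgroup G) (hD : Cfsg.IsDefectGroup p M B D) (χ : Cfsg.IrrCharacter G) (hχ : χ ∈ B) (h0 : Cfsg.blockHeight p B (χ : G → ℂ) = 0) (x : G) (hx : ∃ k : ℕ, orderOf x = p ^ k) : (∃ g : G, g * x * g⁻¹ ∈ D) ↔ ∃ u : G, (∃ z : G, Cfsg.IsPPart p u z ∧ IsConj x z) ∧ (χ : G → ℂ) u ≠ 0 := by
  classical
  obtain ⟨hp, hMax, hpM⟩ := hM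
  haveI := hMax
  letI := Fintype.ofFinite G
  constructor
  · rintro ⟨g, hg⟩
    obtain ⟨y, hy, hyD⟩ := Blocks.isDefectGroup_iff.1 hD
    have hyr := Blocks.isPRegular_of_isDefectClass hpM hB hy
    have hc : Commute (g * x * g⁻¹) y := Subgroup.mem_centralizer_singleton_iff.1 (hyD.1 hg)
    obtain ⟨k, hk⟩ := hx
    have ho : orderOf (g * x * g⁻¹) = p ^ k := by
      rw [← hk]; exact orderOf_injective (MulAut.conj g).toMonoidHom (MulAut.conj g).injective x
    refine ⟨g * x * g⁻¹ * y, ⟨g * x * g⁻¹, ⟨y, rfl, hc, ⟨k, ho⟩, hyr⟩, isConj_iff.2 ⟨g, rfl⟩⟩,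
      Blocks.ne_zero_of_not_memI (M := M) fun hI => ?_⟩
    exact Blocks.not_memI_value_of_height_zero hpM hB hχ h0 hy
      ((Blocks.memI_iff_of_sub (Blocks.char_mul_congr hpM χ hc (ho ▸ pow_orderOf_eq_one _))).1 hI)
  · rintro ⟨u, ⟨z, hz, hxz⟩, hu⟩
    by_contra hne
    push Not at hne
    refine hu (Blocks.eq_zero_of_not_mem_defect hpM χ u fun D' hD' hzD => ?_)
    rw [← Blocks.eq_ppart hz] at hzD
    rw [← Blocks.block_eq_of_mem hB hχ] at hD'
    obtain ⟨a, ha⟩ := Blocks.isDefectGroup_conjugate hpM hB hD hD'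
    obtain ⟨c, hc⟩ := isConj_iff.1 hxz
    refine hne (a * c) ?_
    rw [← ha, Blocks.mem_conjSub]
    rw [show a⁻¹ * (a * c * x * (a * c)⁻¹) * a = c * x * c⁻¹ by group, hc]
    exact hzD

end Cfsg.Agent.S0926
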