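import Cfsg.Statements.S0927
import Cfsg.Agent.Blocks.DefectMore
-- import your own Cfsg.Agent.* helpers here

set_option autoImplicit false
open Cfsg

namespace Cfsg.Agent.S0927

/-- Let B be a block of the finite group G relative to a maximal ideal M of the algebraic integers containing p, let y represent a defect class of B and let P be a Sylow p-subgroup of the centralizer of y. (a) If x ∈ P and χ ∈ B has height zero, then χ (x * y) is not in the local ideal at M. (b) If x lies in the centre of P, then for every χ ∈ B the central character of χ at x * y is not in the local ideal at M. -/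
theorem result {G : Type*} [Group G] [Finite G] (p : ℕ) [Fact p.Prime] (M : Ideal Cfsg.AlgInt) (hM : Cfsg.IsPModular p M) (B : Set (Cfsg.IrrCharacter G)) (hB : Cfsg.IsPBlock M B) (y : G) (hy : Cfsg.IsDefectClass M B y) (P : Sylow p (Subgroup.centralizer ({y} : Set G))) (x : Subgroup.centralizer ({y} : Set G)) (hx : x ∈ (P : Subgroup (Subgroup.centralizer ({y} : Set G)))) : (∀ χ ∈ B, Cfsg.blockHeight p B (χ : G → ℂ) = 0 → ¬ Cfsg.MemLocalIdeal M ((χ : G → ℂ) ((x : G) * y))) ∧ ((∀ w ∈ (P : Subgroup (Subgroup.centralizer ({y} : Set G))), x * w = w * x) → ∀ χ ∈ B, ¬ Cfsg.MemLocalIdeal M (Cfsg.centralChar (χ : G → ℂ) ((x : G) * y))) := by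
  haveI := hM.2.1
  haveI := Fintype.ofFinite G
  have hPy := Cfsg.Agent.Blocks.isSylowIn_map _ P
  constructor
  · intro χ hχ h0 hI
    have hxy : Commute (x : G) y := Subgroup.mem_centralizer_singleton_iff.1 x.2
    obtain ⟨k, hk⟩ := P.isPGroup' ⟨x, hx⟩
    have hk' : (x : G) ^ p ^ k = 1 := by
      simpa using congrArg Subtype.val (congrArg Subtype.val hk)
    exact Cfsg.Agent.Blocks.not_memI_value_of_height_zero hM.2.2 hB hχ h0 hy
      ((Cfsg.Agent.Blocks.memI_iff_of_sub
        (Cfsg.Agent.Blocks.char_mul_congr hM.2.2 χ hxy hk')).1 hI)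
  · intro hc χ hχ
    refine Cfsg.Agent.Blocks.unit_central_of_center hM.2.2 hB hy hPy ⟨x, hx, rfl⟩ ?_ hχ
    rintro _ ⟨w, hw, rfl⟩
    exact congrArg Subtype.val (hc w hw)

end Cfsg.Agent.S0927
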