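import Cfsg.Statements.S0934
import Cfsg.Agent.Blocks.Induce
-- import your own Cfsg.Agent.* helpers here

set_option autoImplicit false
open Cfsg

namespace Cfsg.Agent.S0934

/-- Let H be a subgroup of the finite group G and fix a maximal ideal M of the algebraic integers containing the prime p. If the block b of H induces the block B of G and ξ ∈ b, then there is χ ∈ B whose restriction to H has nonzero inner product with ξ. -/
theorem result {G : Type*} [Group G] [Fintype G] (p : ℕ) [Fact p.Prime] (M : Ideal Cfsg.AlgInt) (hM : Cfsg.IsPModular p M) (H : Subgroup G) [Fintype H] (b : Set (Cfsg.IrrCharacter H)) (B : Set (Cfsg.IrrCharacter G)) (hind : Cfsg.IsInducedBlock M H b B) (ξ : Cfsg.IrrCharacter H) (hξ : ξ ∈ b) : ∃ χ ∈ B, Cfsg.classInner (fun h : H => (χ : G → ℂ) h) (ξ : H → ℂ) ≠ 0 := by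
  classical
  haveI := hM.2.1
  obtain ⟨χ₀, hχ₀⟩ := Cfsg.Agent.Blocks.block_nonempty hind.2.1
  have hR := Cfsg.Agent.Blocks.rFun_blockCoeff (p := p) hM.2.2 hind.2.1
  have h := Cfsg.Agent.Blocks.isInducedBlock_apply H hM.2.2 hind hξ hχ₀
    (Cfsg.Agent.Blocks.isClassFunction_blockCoeff B) hR
  rw [Cfsg.Agent.Blocks.omega_blockCoeff_mem hχ₀] at h
  by_contra hc
  push Not at hc
  have h0 : Cfsg.Agent.Blocks.omega (ξ : H → ℂ)
      (Cfsg.Agent.Blocks.resFun H (Cfsg.blockCoeff B)) = 0 := by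
    rw [Cfsg.Agent.Blocks.omega, Cfsg.Agent.Blocks.blockCoeff_eq_sum]
    simp only [Cfsg.Agent.Blocks.resFun, Finset.sum_apply, Finset.sum_mul]
    rw [Finset.sum_comm, Finset.sum_eq_zero, zero_div]
    intro χ hχ
    have := congrArg (starRingEnd ℂ) (hc χ (Finset.mem_filter.1 hχ).2)
    rw [Cfsg.Agent.Chars.classInner_conj_symm, map_zero, Cfsg.Agent.Chars.classInner_def,
      mul_eq_zero, inv_eq_zero, or_iff_right Cfsg.Agent.Chars.card_ne_zero] at this
    simp only [Cfsg.Agent.Blocks.eFun]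
    rw [← mul_zero ((Nat.card G : ℂ)⁻¹ * (χ : G → ℂ) 1), ← this, Finset.mul_sum]
    exact Finset.sum_congr rfl fun k _ => by ring
  rw [h0, zero_sub] at h
  exact Cfsg.Agent.Blocks.not_memI_one (M := M) (by simpa using Cfsg.Agent.Blocks.memI_neg h)

end Cfsg.Agent.S0934
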