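import Cfsg.Statements.S0939
import Cfsg.Agent.Blocks.Covering
import Cfsg.Agent.Core.Cores
-- import your own Cfsg.Agent.* helpers here

set_option autoImplicit false
open Cfsg

namespace Cfsg.Agent.S0939

/-- Let G be a finite group with a normal p-complement (the largest normal subgroup O_p'(G) of order prime to p has p-power index). Then, relative to any maximal ideal M of the algebraic integers containing p, the principal block of G is the set of irreducible characters χ with χ n = χ 1 for every n ∈ O_p'(G). -/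
theorem result {G : Type*} [Group G] [Finite G] (p : ℕ) [Fact p.Prime] (M : Ideal Cfsg.AlgInt) (hM : Cfsg.IsPModular p M) (hnc : ∃ k : ℕ, (Cfsg.pPrimeCore p G).index = p ^ k) : Cfsg.principalBlock M G = {χ : Cfsg.IrrCharacter G | ∀ n ∈ Cfsg.pPrimeCore p G, (χ : G → ℂ) n = (χ : G → ℂ) 1} := by
  classical
  obtain ⟨hp', hMax, hpM⟩ := hM
  haveI := hMax
  letI := Fintype.ofFinite G
  letI := Fintype.ofFinite (Cfsg.pPrimeCore p G)
  obtain ⟨k, hk⟩ := hnc
  have hnd : ¬ p ∣ Nat.card (Cfsg.pPrimeCore p G) :=
    (Fact.out : p.Prime).coprime_iff_not_dvd.1 (Core.card_pPrimeCore_coprime p G).symm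
  ext χ
  refine ⟨fun hχ n hn => Blocks.trivial_of_sameBlock hpM hnd (χ := Blocks.oneChar G) hχ
    (fun _ => rfl) ⟨n, hn⟩, fun hχ => ?_⟩
  exact Blocks.sameBlock_of_common hpM hk (χ := Blocks.oneChar G)
    (Blocks.constituent_one fun _ => rfl) (Blocks.constituent_one fun n => hχ n n.2)

end Cfsg.Agent.S0939
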