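import Cfsg.Statements.S0943
import Cfsg.Agent.Blocks.Orth
-- import your own Cfsg.Agent.* helpers here

set_option autoImplicit false
open Cfsg

namespace Cfsg.Agent.S0943

/-- Let χ be an irreducible character of the finite group G and u, v ∈ G. If χ (x * y) = χ (u * v) whenever x is conjugate to u and y is conjugate to v, then χ u * χ v = χ 1 * χ (u * v). (Multiply the class sums of u and v and apply the central character of χ.) -/
theorem result {G : Type*} [Group G] [Finite G] (χ : Cfsg.IrrCharacter G) (u v : G) (hc : ∀ x y : G, IsConj u x → IsConj v y → (χ : G → ℂ) (x * y) = (χ : G → ℂ) (u * v)) : (χ : G → ℂ) u * (χ : G → ℂ) v = (χ : G → ℂ) 1 * (χ : G → ℂ) (u * v) := by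
  classical
  haveI := Fintype.ofFinite G
  have hn : (χ : G → ℂ) 1 ≠ 0 := Cfsg.Agent.Chars.irr_apply_one_ne_zero χ.2
  have hc1 : ∀ a : G, (χ : G → ℂ) (u * (a * v * a⁻¹)) = (χ : G → ℂ) (u * v) := fun a =>
    hc u _ (IsConj.refl u) (isConj_iff.2 ⟨a, rfl⟩)
  have h := Cfsg.Agent.Blocks.sum_apply_mul_conj χ u v
  simp only [hc1, Finset.sum_const, Finset.card_univ, nsmul_eq_mul, ← Nat.card_eq_fintype_card] at h
  rw [eq_div_iff hn, mul_assoc, mul_assoc] at h
  have h2 := mul_left_cancel₀ (Cfsg.Agent.Chars.card_ne_zero (G := G)) h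
  rw [← h2, mul_comm]

end Cfsg.Agent.S0943
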