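import Cfsg.Statements.S0947
import Cfsg.Agent.Blocks.NormSum
import Cfsg.Agent.Core.Cores
-- import your own Cfsg.Agent.* helpers here

set_option autoImplicit false
open Cfsg

namespace Cfsg.Agent.S0947

/-- Let z ≠ 1 be a p-element of the finite group G with centralizer H, and fix a maximal ideal M of the algebraic integers containing p. (i) For every y ∈ H of order prime to p, the sum over ζ in the principal block of G of |ζ (z * y)|² equals the sum over χ in the principal block of H of |χ y|². (ii) If moreover H has a normal p-complement (its largest normal subgroup of order prime to p has p-power index), that common value is the largest power of p dividing the order of H. -/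
theorem result {G : Type*} [Group G] [Finite G] (p : ℕ) [Fact p.Prime] (M : Ideal Cfsg.AlgInt) (hM : Cfsg.IsPModular p M) (z : G) (hz : ∃ k : ℕ, orderOf z = p ^ k) (hz1 : z ≠ 1) (y : Subgroup.centralizer ({z} : Set G)) (hy : ¬ p ∣ orderOf y) : (∑ᶠ ζ ∈ Cfsg.principalBlock M G, ‖(ζ : G → ℂ) (z * (y : G))‖ ^ 2 = ∑ᶠ χ ∈ Cfsg.principalBlock M (Subgroup.centralizer ({z} : Set G)), ‖(χ : Subgroup.centralizer ({z} : Set G) → ℂ) y‖ ^ 2) ∧ ((∃ k : ℕ, (Cfsg.pPrimeCore p (Subgroup.centralizer ({z} : Set G))).index = p ^ k) → ∑ᶠ ζ ∈ Cfsg.principalBlock M G, ‖(ζ : G → ℂ) (z * (y : G))‖ ^ 2 = ((p ^ (Nat.card (Subgroup.centralizer ({z} : Set G))).factorization p : ℕ) : ℝ)) := by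
  classical
  letI := Fintype.ofFinite G
  letI := Fintype.ofFinite (Subgroup.centralizer ({z} : Set G))
  obtain ⟨hp, hMax, hpM⟩ := hM
  haveI := hMax
  have hconv : ∀ w : ℂ, ((‖w‖ ^ 2 : ℝ) : ℂ) = w * (starRingEnd ℂ) w := fun w => by
    rw [Complex.mul_conj']; push_cast; rfl
  have key := Blocks.norm_sum_principal (M := M) hpM hz hy
  rw [Blocks.finsum_mem_eq_filter, Blocks.finsum_mem_eq_filter]
  refine ⟨?_, fun hk => ?_⟩
  · apply Complex.ofReal_injective
    simp only [Complex.ofReal_sum, hconv]
    exact key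
  · obtain ⟨k, hk⟩ := hk
    letI := Fintype.ofFinite (Cfsg.pPrimeCore p (Subgroup.centralizer ({z} : Set G)))
    have hnd : ¬ p ∣ Nat.card (Cfsg.pPrimeCore p (Subgroup.centralizer ({z} : Set G))) := fun h =>
      (Fact.out : p.Prime).coprime_iff_not_dvd.1 (Core.card_pPrimeCore_coprime p _).symm h
    obtain ⟨h1, h2⟩ := Blocks.sum_sq_principal (M := M) hpM hnd hk hy
    apply Complex.ofReal_injective
    simp only [Complex.ofReal_sum, hconv]
    rw [key, h1, h2]
    push_cast
    rfl

end Cfsg.Agent.S0947
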