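import Cfsg.Statements.S0948
import Cfsg.Agent.Blocks.KleinFour
-- import your own Cfsg.Agent.* helpers here

set_option autoImplicit false
open Cfsg

namespace Cfsg.Agent.S0948

/-- Let the finite group G have a Sylow 2-subgroup P that is a Klein four-group, suppose all involutions of G are conjugate, and fix a maximal ideal M of the algebraic integers containing 2. Then the principal block consists of exactly four irreducible characters, the principal character and ζ₂, ζ₃, ζ₄, and there is a sign ε such that for every involution z: ζ₂ z = 1, ζ₃ z = ε, ζ₄ z = -1; moreover ζ₂ 1 ≡ 1, ζ₃ 1 ≡ ε, ζ₄ 1 ≡ -1 (mod 4), and 1 + ζ₂ y + ε ζ₃ y - ζ₄ y = 0 for every y of odd order. -/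
theorem result {G : Type*} [Group G] [Finite G] (M : Ideal Cfsg.AlgInt) (hM : Cfsg.IsPModular 2 M) (P : Sylow 2 G) (hP : IsKleinFour (P : Subgroup G)) (hone : ∀ s t : G, orderOf s = 2 → orderOf t = 2 → IsConj s t) : ∃ ζ₂ ζ₃ ζ₄ : Cfsg.IrrCharacter G, ∃ ε : ℤ, (ε = 1 ∨ ε = -1) ∧ (ζ₂ : G → ℂ) ≠ (fun _ => 1) ∧ (ζ₃ : G → ℂ) ≠ (fun _ => 1) ∧ ζ₂ ≠ ζ₃ ∧ ζ₂ ≠ ζ₄ ∧ ζ₃ ≠ ζ₄ ∧ Cfsg.principalBlock M G = {χ : Cfsg.IrrCharacter G | (χ : G → ℂ) = (fun _ => 1) ∨ χ = ζ₂ ∨ χ = ζ₃ ∨ χ = ζ₄} ∧ (∀ z : G, orderOf z = 2 → (ζ₂ : G → ℂ) z = 1 ∧ (ζ₃ : G → ℂ) z = (ε : ℂ) ∧ (ζ₄ : G → ℂ) z = -1) ∧ (4 : ℤ) ∣ (Cfsg.charDegree (ζ₂ : G → ℂ) : ℤ) - 1 ∧ (4 : ℤ) ∣ (Cfsg.charDegree (ζ₃ : G → ℂ) : ℤ) - ε ∧ (4 : ℤ) ∣ (Cfsg.charDegree (ζ₄ : G → ℂ) : ℤ) + 1 ∧ ∀ y : G, Odd (orderOf y) → 1 + (ζ₂ : G → ℂ) y + (ε : ℂ) * (ζ₃ : G → ℂ) y - (ζ₄ : G → ℂ) y = 0 := by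
  classical
  haveI : Fintype G := Fintype.ofFinite G
  haveI := hM.2.1
  have hexp : ∀ x : P, x * x = 1 := fun x => by
    have h := Monoid.pow_exponent_eq_one x
    rwa [IsKleinFour.exponent_two, pow_two] at h
  obtain ⟨S, v, hS, hcard, h1, hv1, hpm, hval, hmod, horth⟩ :=
    Blocks.klein_data hM.2.2 P hP.card_four hexp hone
  have hsum1 := horth 1 (by rw [orderOf_one]; norm_num)
  rw [Finset.sum_congr rfl (fun χ _ => by rw [(Blocks.charDegree_eq χ.2).1]),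
    ← Finset.add_sum_erase _ _ h1, hv1] at hsum1
  have hd1 : charDegree ((Blocks.oneChar G : IrrCharacter G) : G → ℂ) = 1 := by
    simp [charDegree, Blocks.oneChar]
  rw [hd1] at hsum1
  set T := S.erase (Blocks.oneChar G) with hT
  have hTc : T.card = 3 := by rw [hT, Finset.card_erase_of_mem h1, hcard]
  have hsumZ : (1 : ℤ) + ∑ χ ∈ T, v χ * (charDegree (χ : G → ℂ) : ℤ) = 0 := by
    refine Int.cast_injective (α := ℂ) ?_
    push_cast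
    simpa using hsum1
  obtain ⟨ζ₄, hζ₄, hv4⟩ : ∃ χ ∈ T, v χ = -1 := by
    by_contra h
    push Not at h
    have : ∀ χ ∈ T, 0 ≤ v χ * (charDegree (χ : G → ℂ) : ℤ) := fun χ hχ => by
      rw [(hpm χ (Finset.mem_of_mem_erase hχ)).resolve_right (h χ hχ)]; simp
    linarith [Finset.sum_nonneg this]
  obtain ⟨ζ₂, hζ₂, hv2⟩ : ∃ χ ∈ T, v χ = 1 := by
    by_contra h
    push Not at h
    have h2 : ∀ χ ∈ T, v χ * (charDegree (χ : G → ℂ) : ℤ) ≤ -1 := fun χ hχ => by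
      rw [(hpm χ (Finset.mem_of_mem_erase hχ)).resolve_left (h χ hχ)]
      have := (Blocks.charDegree_eq χ.2).2
      omega
    have := Finset.sum_le_card_nsmul T _ (-1) h2
    rw [hTc] at this
    simp only [nsmul_eq_mul] at this
    omega
  have h24 : ζ₂ ≠ ζ₄ := fun h => by rw [h, hv4] at hv2; norm_num at hv2
  obtain ⟨ζ₃, hζ₃⟩ := Finset.card_eq_one.1 (show ((T.erase ζ₄).erase ζ₂).card = 1 by
    rw [Finset.card_erase_of_mem (Finset.mem_erase.2 ⟨h24, hζ₂⟩), Finset.card_erase_of_mem hζ₄, hTc])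
  have hm3 : ζ₃ ∈ (T.erase ζ₄).erase ζ₂ := hζ₃ ▸ Finset.mem_singleton_self ζ₃
  simp only [Finset.mem_erase] at hm3
  obtain ⟨h32, h34, h3T⟩ := hm3
  have hne1 : ∀ χ ∈ T, (χ : G → ℂ) ≠ fun _ => 1 := fun χ hχ h =>
    (Finset.mem_erase.1 hχ).1 (Subtype.ext h)
  have hTmem : ∀ χ, χ ∈ T → χ = ζ₂ ∨ χ = ζ₃ ∨ χ = ζ₄ := by
    intro χ hχ
    by_cases h2 : χ = ζ₂
    · exact .inl h2
    by_cases h4 : χ = ζ₄
    · exact .inr (.inr h4)
    refine .inr (.inl (Finset.mem_singleton.1 (hζ₃ ▸ ?_)))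
    exact Finset.mem_erase.2 ⟨h2, Finset.mem_erase.2 ⟨h4, hχ⟩⟩
  refine ⟨ζ₂, ζ₃, ζ₄, v ζ₃, hpm ζ₃ (Finset.mem_of_mem_erase h3T), hne1 _ hζ₂, hne1 _ h3T,
    Ne.symm h32, h24, h34, ?_, fun z hz => ⟨?_, hval ζ₃ z hz, ?_⟩, ?_, hmod ζ₃, ?_, fun y hy => ?_⟩
  · ext χ
    rw [← hS χ]
    constructor
    · intro hχ
      by_cases h : χ = Blocks.oneChar G
      · subst h; exact .inl rfl
      · exact .inr (hTmem χ (Finset.mem_erase.2 ⟨h, hχ⟩))
    · rintro (h | rfl | rfl | rfl)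
      · rw [show χ = Blocks.oneChar G from Subtype.ext h]; exact h1
      · exact Finset.mem_of_mem_erase hζ₂
      · exact Finset.mem_of_mem_erase h3T
      · exact Finset.mem_of_mem_erase hζ₄
  · rw [hval ζ₂ z hz, hv2]; norm_num
  · rw [hval ζ₄ z hz, hv4]; norm_num
  · have := hmod ζ₂; rwa [hv2] at this
  · have := hmod ζ₄; rw [hv4] at this; simpa using this
  · have hy2 : ¬ 2 ∣ orderOf y := fun h => Nat.not_odd_iff_even.2 (even_iff_two_dvd.2 h) hy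
    have h := horth y hy2
    rw [← Finset.add_sum_erase _ _ h1, hv1] at h
    have hTeq : T = {ζ₂, ζ₃, ζ₄} := by
      ext χ
      simp only [Finset.mem_insert, Finset.mem_singleton]
      exact ⟨hTmem χ, by rintro (rfl | rfl | rfl) <;> assumption⟩
    rw [← hT, hTeq, Finset.sum_insert (by simp [Ne.symm h32, h24]), Finset.sum_insert (by simp [h34]),
      Finset.sum_singleton, hv2, hv4] at h
    simp [Blocks.oneChar] at h
    linear_combination h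

end Cfsg.Agent.S0948
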