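import Cfsg.Statements.S4721
import Cfsg.Agent.LeadWork.CoherentThree

set_option autoImplicit false
set_option linter.style.haveILetI false
set_option linter.unusedSectionVars false
set_option linter.unusedVariables false
open Cfsg
open scoped ComplexConjugate

namespace Cfsg.Agent.S4721

open LeadWork.Coherent

universe u

variable {G : Type u} [Group G] [Finite G] {p : ℕ} [Fact p.Prime] {M : Ideal AlgInt}

set_option maxHeartbeats 1000000 in
/-- No abelian Sylow `2`-subgroup with automizer of order three has an involution outside all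
proper normal subgroups. -/
theorem even_false (hM : IsPModular p M) (P : Sylow p G) (hab : IsMulCommutative P)
    (hCN : (Subgroup.centralizer ((P : Subgroup G) : Set G)).relIndex
      (Subgroup.normalizer ((P : Subgroup G) : Set G)) = 3)
    (hfrob : ∀ y : G, y ∈ (P : Subgroup G) → y ≠ 1 →
      Subgroup.centralizer ({y} : Set G) ⊓ Subgroup.normalizer ((P : Subgroup G) : Set G) =
        Subgroup.centralizer ((P : Subgroup G) : Set G))
    (D : Data p M (P : Subgroup G) 3) (hp : p = 2) {t : G} (ht : orderOf t = 2)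
    (hK : ∀ K : Subgroup G, K.Normal → t ∈ K → K = ⊤) {one b c η : IrrCharacter G}
    (hX : D.X = {one, b, c}) (hone : (one : G → ℂ) = fun _ => 1) (hob : one ≠ b) (hoc : one ≠ c)
    (hbc : b ≠ c) (hη : η ∈ D.Y) : False := by
  classical
  haveI : M.IsMaximal := hM.2.1
  haveI : Fintype G := Fintype.ofFinite G
  have hpM : (p : AlgInt) ∈ M := hM.2.2
  haveI : Fintype (P : Subgroup G) := Fintype.ofFinite (P : Subgroup G)
  letI : CommGroup (P : Subgroup G) :=
    { (inferInstance : Group (P : Subgroup G)) with mul_comm := fun a b => hab.1.1 a b }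
  obtain ⟨hd0, -, ha⟩ := normal_form hM P D
  obtain ⟨σ, hσ3, hσ1, hσmul, hσN, hσg⟩ := exists_sigma P hab hCN hfrob
  have hQC : (P : Subgroup G) ≤ Subgroup.centralizer ((P : Subgroup G) : Set G) := le_centralizer P hab
  -- an involution of `(P : Subgroup G)`
  obtain ⟨u, hu, hu1, huu, htu⟩ : ∃ u ∈ (P : Subgroup G), u ≠ 1 ∧ u * u = 1 ∧ IsConj t u := by
    obtain ⟨S, hS⟩ := IsPGroup.exists_le_sylow (p := p)
      (IsPGroup.of_card (n := 1) ((Nat.card_zpowers t).trans (by rw [ht, hp, pow_one])))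
    obtain ⟨b', hb'⟩ := MulAction.exists_smul_eq G S P
    refine ⟨b' * t * b'⁻¹, ?_, ?_, ?_, isConj_iff.2 ⟨b', rfl⟩⟩
    · rw [← hb', Sylow.coe_subgroup_smul]
      exact ⟨t, hS (Subgroup.mem_zpowers t), by simp⟩
    · intro h
      have : t = 1 := by simpa using h
      simp [this] at ht
    · have : t * t = 1 := by rw [← sq, ← ht, pow_orderOf_eq_one]
      calc b' * t * b'⁻¹ * (b' * t * b'⁻¹) = b' * (t * t) * b'⁻¹ := by group
        _ = 1 := by rw [this]; group
  have hcls : ∀ χ : IrrCharacter G, (χ : G → ℂ) t = (χ : G → ℂ) u := fun χ => by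
    obtain ⟨g, hg⟩ := isConj_iff.1 htu
    rw [← hg, Chars.isClassFunction_irr χ t g]
  have hpp : ∀ y ∈ (P : Subgroup G), IsPPart p y y := fun y hy => by
    obtain ⟨k, hk⟩ := IsPGroup.iff_orderOf.1 P.2 ⟨y, hy⟩
    exact ⟨1, mul_one y, Commute.one_right y, ⟨k, by rw [← hk, ← Subgroup.orderOf_coe]⟩,
      by rw [orderOf_one]; exact (Fact.out : p.Prime).not_dvd_one⟩
  -- the values
  have hvX : ∀ χ ∈ D.X, ∀ y ∈ (P : Subgroup G), y ≠ 1 → (χ : G → ℂ) y = (D.a χ : ℂ) := fun χ hχ y hy hy1 =>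
    (D.val_X χ hχ).2 y y (hpp y hy) hy hy1
  have hδ2 : (D.δ : ℂ) * D.δ = 1 := by rcases D.δ_eq with h | h <;> rw [h] <;> simp
  have hvY : ∀ ψ : (P : Subgroup G) →* ℂˣ, ψ ≠ 1 → ∀ (z : G) (y : (P : Subgroup G)), IsPPart p z (y : G) → (y : G) ≠ 1 →
      (D.ζ ψ : G → ℂ) z = (D.δ : ℂ) * ((ψ y : ℂ) + (ψ (σ y) : ℂ) + (ψ (σ (σ y)) : ℂ)) := by
    intro ψ hψ z y hz hy
    rw [D.val_Y ψ hψ z y hz hy, finsum_orbit P hab hCN hfrob σ hσ3 hσ1 hσN hσg ψ hψ y, hd0]
    simp
  have hconst : ∀ χ ∈ principalBlock M G, ∀ z y : G, IsPPart p z y → y ∈ (P : Subgroup G) → y ≠ 1 →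
      (χ : G → ℂ) z = (χ : G → ℂ) y := by
    intro χ hχ z y hz hy hy1
    rw [D.union_eq] at hχ
    rcases hχ with hχ | hχ
    · rw [(D.val_X χ hχ).2 z y hz hy hy1, hvX χ hχ y hy hy1]
    · obtain ⟨ψ, hψ, rfl⟩ := D.ζ_surj χ hχ
      rw [hvY ψ hψ z ⟨y, hy⟩ hz hy1, hvY ψ hψ y ⟨y, hy⟩ (hpp y hy) hy1]
  have hquad : ∀ η' ∈ D.Y, (η' : G → ℂ) u ^ 2 = 2 * (D.δ : ℂ) * (η' : G → ℂ) u + 3 := by
    intro η' hη'
    obtain ⟨ψ, hψ, rfl⟩ := D.ζ_surj η' hη'
    rw [hvY ψ hψ u ⟨u, hu⟩ (hpp u hu) hu1]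
    set y : (P : Subgroup G) := ⟨u, hu⟩
    have hy : y * y = 1 := Subtype.ext huu
    have hsq : ∀ z : (P : Subgroup G), z * z = 1 → (ψ z : ℂ) * (ψ z : ℂ) = 1 := fun z hz => by
      rw [← Units.val_mul, ← map_mul, hz, map_one, Units.val_one]
    have e1 := hsq y hy
    have e2 := hsq (σ y) (by rw [← map_mul, hy, map_one])
    have e3 := hsq (σ (σ y)) (by rw [← map_mul, ← map_mul, hy, map_one, map_one])
    have e4 : (ψ y : ℂ) * (ψ (σ y) : ℂ) * (ψ (σ (σ y)) : ℂ) = 1 := by
      rw [← Units.val_mul, ← Units.val_mul, ← map_mul, ← map_mul, hσmul, map_one, Units.val_one]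
    generalize (ψ y : ℂ) = a at *
    generalize (ψ (σ y) : ℂ) = b at *
    generalize (ψ (σ (σ y)) : ℂ) = c at *
    linear_combination ((a + b + c) ^ 2 - 2 * (a + b + c)) * hδ2 + e1 + e2 + e3 +
      2 * c * e4 + 2 * a * e4 + 2 * b * e4 - 2 * (a * b) * e3 - 2 * (b * c) * e1 - 2 * (a * c) * e2
  -- degrees
  obtain ⟨x, hx0, hx⟩ := Chars.exists_irr_apply_one_eq b.2
  obtain ⟨y, hy0, hy⟩ := Chars.exists_irr_apply_one_eq c.2
  obtain ⟨n, hn0, hn⟩ := Chars.exists_irr_apply_one_eq η.2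
  have hbX : b ∈ D.X := by rw [hX]; simp
  have hcX : c ∈ D.X := by rw [hX]; simp
  have haone : D.a one = 1 := D.a_one one hone
  have sumX : ∀ f : IrrCharacter G → ℂ, ∑ᶠ χ ∈ D.X, f χ = f one + f b + f c := by
    intro f
    have : D.X = (({one, b, c} : Finset (IrrCharacter G)) : Set (IrrCharacter G)) := by
      simp [hX]
    rw [this, finsum_mem_coe_finset, Finset.sum_insert (by simp [hob, hoc]), Finset.sum_pair hbc]
    ring
  have hk1 := kill_regular (g := 1) hM P.2
    (by rw [orderOf_one]; exact (Fact.out : p.Prime).not_dvd_one)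
  obtain ⟨hY1, hrel1⟩ := D.rel (fun χ => (χ : G → ℂ) 1) hk1
  have hdeg : (1 : ℂ) + (D.a b : ℂ) * x + (D.a c : ℂ) * y = (D.δ : ℂ) * n := by
    have h := hrel1 η hη
    rw [sumX, hd0] at h
    simp only [haone, hone, hx, hy, hn] at h
    push_cast at h
    linear_combination h
  have split : ∀ f : IrrCharacter G → ℂ, ∑ᶠ χ ∈ principalBlock M G, f χ =
      f one + f b + f c + ∑ᶠ χ ∈ D.Y, f χ := fun f => by
    rw [D.union_eq, finsum_mem_union D.disjoint (Set.toFinite _) (Set.toFinite _), sumX]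
  obtain ⟨e, he⟩ : ∃ e : G → ℂ,
      ∀ w, e w = ∑ᶠ χ ∈ principalBlock M G, (χ : G → ℂ) u * conj ((χ : G → ℂ) w) :=
    ⟨_, fun _ => rfl⟩
  -- the three sums at `w`
  have hsums : ∀ w ∈ (P : Subgroup G), w ≠ 1 →
      ∑ᶠ χ ∈ principalBlock M G, (χ : G → ℂ) u ^ 2 * conj ((χ : G → ℂ) w) / (χ : G → ℂ) 1 =
        (1 + (D.a b : ℂ) / x + (D.a c : ℂ) / y) + (D.δ : ℂ) * (2 * e w - 9) / n := by
    intro w hw hw1
    have hYn : ∀ η' ∈ D.Y, (η' : G → ℂ) 1 = n := fun η' hη' => (hY1 η' hη' η hη).trans hn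
    have hYw : ∑ᶠ χ ∈ D.Y, conj ((χ : G → ℂ) w) = -(D.δ : ℂ) := by
      have h := congrArg conj (hk1 w hw hw1)
      rw [split, map_zero, map_add, map_add, map_add] at h
      have e1 : conj (∑ᶠ χ ∈ D.Y, (χ : G → ℂ) 1 * (χ : G → ℂ) w) =
          (n : ℂ) * ∑ᶠ χ ∈ D.Y, conj ((χ : G → ℂ) w) := by
        rw [Blocks.finsum_mem_eq_filter, Blocks.finsum_mem_eq_filter, map_sum, Finset.mul_sum]
        exact Finset.sum_congr rfl fun χ hχ => by
          rw [map_mul, hYn χ (Finset.mem_filter.1 hχ).2, map_natCast]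
      rw [e1, hx, hy, hvX b hbX w hw hw1, hvX c hcX w hw hw1] at h
      simp only [hone, map_mul, map_natCast, map_intCast, map_one] at h
      refine mul_left_cancel₀ (Nat.cast_ne_zero.2 hn0.ne' : (n : ℂ) ≠ 0) ?_
      linear_combination h - hdeg
    have hYuw : ∑ᶠ χ ∈ D.Y, (χ : G → ℂ) u * conj ((χ : G → ℂ) w) = e w - 3 := by
      rw [he, split, hvX b hbX u hu hu1, hvX c hcX u hu hu1, hvX b hbX w hw hw1,
        hvX c hcX w hw hw1]
      simp only [hone, map_intCast, map_one]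
      rcases ha b hbX with h | h <;> rcases ha c hcX with h' | h' <;> rw [h, h'] <;> push_cast <;> ring
    have hY : ∑ᶠ χ ∈ D.Y, (χ : G → ℂ) u ^ 2 * conj ((χ : G → ℂ) w) / (χ : G → ℂ) 1 =
        (2 * (D.δ : ℂ) * (e w - 3) + 3 * -(D.δ : ℂ)) / n := by
      rw [← hYuw, ← hYw]
      simp only [Blocks.finsum_mem_eq_filter, Finset.mul_sum]
      rw [← Finset.sum_add_distrib, Finset.sum_div]
      refine Finset.sum_congr rfl fun χ hχ => ?_
      rw [hquad χ (Finset.mem_filter.1 hχ).2, hYn χ (Finset.mem_filter.1 hχ).2]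
      ring
    rw [split, hY, hvX b hbX u hu hu1, hvX c hcX u hu hu1, hvX b hbX w hw hw1,
      hvX c hcX w hw hw1, hx, hy]
    simp only [hone, map_intCast, map_one]
    rcases ha b hbX with h | h <;> rcases ha c hcX with h' | h' <;> rw [h, h'] <;> push_cast <;> ring
  have heu : e u = (Nat.card (P : Subgroup G) : ℂ) := by rw [he]; exact D.column u hu hu1
  have hord : ∀ y ∈ (P : Subgroup G), Blocks.ppart p y = y := fun y hy => (Blocks.eq_ppart (hpp y hy)).symm
  -- the class products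
  have hpos : ∀ w ∈ (P : Subgroup G), w ≠ 1 → ∃ k : ℕ,
      ∑ᶠ χ ∈ principalBlock M G, (χ : G → ℂ) u ^ 2 * conj ((χ : G → ℂ) w) / (χ : G → ℂ) 1 =
        (Nat.card G : ℂ)⁻¹ * ((k : ℂ) * Nat.card (P : Subgroup G)) ∧
      (k ≠ 0 → ∃ a : G, IsConj (Blocks.ppart p (u * (a * u * a⁻¹))) w) := by
    intro w hw hw1
    refine ⟨(Finset.univ.filter fun a : G =>
      IsConj (Blocks.ppart p (u * (a * u * a⁻¹))) w).card, ?_, fun h => ?_⟩
    · rw [Blocks.finsum_mem_eq_filter, Finset.card_filter, Nat.cast_sum, Finset.sum_mul,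
        Finset.mul_sum]
      have hG : (Nat.card G : ℂ) ≠ 0 := Chars.card_ne_zero
      calc _ = ∑ χ ∈ Finset.univ.filter (· ∈ principalBlock M G), ∑ a : G, (Nat.card G : ℂ)⁻¹ *
            ((χ : G → ℂ) (u * (a * u * a⁻¹)) * conj ((χ : G → ℂ) w)) := by
            refine Finset.sum_congr rfl fun χ _ => ?_
            rw [← Finset.mul_sum, ← Finset.sum_mul, Blocks.sum_apply_mul_conj]
            field_simp
        _ = _ := by
          rw [Finset.sum_comm]
          refine Finset.sum_congr rfl fun a _ => ?_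
          rw [← Finset.mul_sum]
          congr 1
          split_ifs with hc
          · obtain ⟨g, hg⟩ := isConj_iff.1 hc
            rw [Nat.cast_one, one_mul]
            refine Eq.trans ?_ (D.column w hw hw1)
            rw [Blocks.finsum_mem_eq_filter]
            refine Finset.sum_congr rfl fun χ hχ => ?_
            rw [← Chars.isClassFunction_irr χ (u * (a * u * a⁻¹)) g,
              hconst χ (Finset.mem_filter.1 hχ).2 _ w
                (Blocks.isPPart_iff.2 (by rw [Blocks.ppart_conj, hg])) hw hw1]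
          · rw [Nat.cast_zero, zero_mul, Blocks.block_orth hpM Blocks.isPBlock_principal]
            rwa [hord w hw]
    · obtain ⟨a, ha⟩ := Finset.card_ne_zero.1 h
      exact ⟨a, (Finset.mem_filter.1 ha).2⟩
  -- a class other than that of `u`
  obtain ⟨w, hw, hw1, hwu⟩ : ∃ w ∈ (P : Subgroup G), w ≠ 1 ∧ ¬ IsConj u w := by
    by_contra h
    push Not at h
    have hsub : (Finset.univ : Finset (P : Subgroup G)) ⊆
        {1, ⟨u, hu⟩, σ ⟨u, hu⟩, σ (σ ⟨u, hu⟩)} := by
      intro v _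
      simp only [Finset.mem_insert, Finset.mem_singleton]
      by_cases hv : (v : G) = 1
      · exact Or.inl (Subtype.ext hv)
      obtain ⟨g, hg⟩ := isConj_iff.1 (h v v.2 hv)
      obtain ⟨k, hk, hkv⟩ := Transfer.burnside_fusion_elem P (hQC hu) (g := g)
        (by rw [hg]; exact hQC v.2)
      have hv' : act (P : Subgroup G) ⟨k, hk⟩ ⟨u, hu⟩ = v := Subtype.ext (hkv.trans hg)
      rcases hσN ⟨k, hk⟩ with e' | e' | e' <;> rw [e'] at hv'
      · exact Or.inr (Or.inl hv'.symm)
      · exact Or.inr (Or.inr (Or.inl hv'.symm))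
      · exact Or.inr (Or.inr (Or.inr hv'.symm))
    have := (Finset.card_le_card hsub).trans Finset.card_le_four
    rw [Finset.card_univ, ← Nat.card_eq_fintype_card] at this
    have := D.two_le
    omega
  have hew : e w = 0 := by
    rw [he, Blocks.finsum_mem_eq_filter, Blocks.block_orth hpM Blocks.isPBlock_principal]
    rwa [hord u hu, hord w hw]
  have hzero : ∑ᶠ χ ∈ principalBlock M G,
      (χ : G → ℂ) u ^ 2 * conj ((χ : G → ℂ) w) / (χ : G → ℂ) 1 = 0 := by
    obtain ⟨k, hk, hk'⟩ := hpos w hw hw1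
    rw [hk]
    by_cases hk0 : k = 0
    · simp [hk0]
    exfalso
    obtain ⟨a, ha⟩ := hk' hk0
    obtain ⟨g, hg⟩ := isConj_iff.1 ha
    obtain ⟨t1, ht1⟩ : ∃ t1, t1 = g * u * g⁻¹ := ⟨_, rfl⟩
    obtain ⟨t2, ht2⟩ : ∃ t2, t2 = g * (a * u * a⁻¹) * g⁻¹ := ⟨_, rfl⟩
    have h11 : t1 * t1 = 1 := by
      calc t1 * t1 = g * (u * u) * g⁻¹ := by rw [ht1]; group
        _ = 1 := by rw [huu]; group
    have h22 : t2 * t2 = 1 := by
      calc t2 * t2 = g * (a * (u * u) * a⁻¹) * g⁻¹ := by rw [ht2]; group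
        _ = 1 := by rw [huu]; group
    have hpw : Blocks.ppart p (t1 * t2) = w := by
      rw [← hg, ← Blocks.ppart_conj]; congr 1; rw [ht1, ht2]; group
    have hinv1 : t1 * w * t1⁻¹ = w⁻¹ := by
      have h : t1 * (t1 * t2) * t1⁻¹ = (t1 * t2)⁻¹ := by
        rw [← mul_assoc, h11, one_mul, mul_inv_rev, inv_eq_of_mul_eq_one_left h22]
      rw [← hpw, ← Blocks.ppart_conj, h, Blocks.ppart, Blocks.ppart, inv_pow]
    have hww := mul_self_of_inverted P hab hCN hfrob hw hw1 hinv1
    have hwinv : w⁻¹ = w := inv_eq_of_mul_eq_one_left hww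
    rw [hwinv, mul_inv_eq_iff_eq_mul] at hinv1
    set H := Subgroup.centralizer ({w} : Set G) with hH
    have hwH : t1 * t2 ∈ H := Blocks.mem_centralizer_of_commute (by
      rw [← hpw, Blocks.ppart]; exact (Commute.refl _).pow_left _)
    have ht1H : t1 ∈ H := Subgroup.mem_centralizer_singleton_iff.2 hinv1
    have ht2H : t2 ∈ H := by
      have := H.mul_mem ht1H hwH
      rwa [← mul_assoc, h11, one_mul] at this
    obtain ⟨K, k', hKn, hKp, hKi, hQk⟩ := exists_complement p P hab hfrob hw hw1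
    haveI := hKn
    haveI : Fintype H := Fintype.ofFinite H
    have hle : (P : Subgroup G) ≤ H := fun z hz => Subgroup.mem_centralizer_singleton_iff.2
      (Subgroup.mem_centralizer_iff.1 (hQC hz) w hw).symm
    let f : (P : Subgroup G) →* H ⧸ K := (QuotientGroup.mk' K).comp (Subgroup.inclusion hle)
    have hf : Function.Injective f := by
      refine (injective_iff_map_eq_one _).2 fun z hz => ?_
      have hzK : Subgroup.inclusion hle z ∈ K := (QuotientGroup.eq_one_iff _).1 hz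
      have hd : orderOf z ∣ Nat.card K := by
        rw [← orderOf_injective (Subgroup.inclusion hle) (Subgroup.inclusion_injective hle) z]
        exact Subgroup.orderOf_dvd_natCard K hzK
      obtain ⟨l, hl⟩ := IsPGroup.iff_orderOf.1 P.2 z
      rw [← orderOf_eq_one_iff, hl]
      rcases Nat.eq_zero_or_pos l with h0 | h0
      · rw [h0, pow_zero]
      · exact absurd ((dvd_pow_self p h0.ne').trans (hl ▸ hd)) hKp
    have hsurj : Function.Surjective f := by
      refine ((Nat.bijective_iff_injective_and_card f).2 ⟨hf, ?_⟩).2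
      exact hQk.trans hKi.symm
    have hcomm : ∀ s r : H ⧸ K, s * r * s⁻¹ = r := fun s r => by
      obtain ⟨s', rfl⟩ := hsurj s
      obtain ⟨r', rfl⟩ := hsurj r
      rw [← map_inv, ← map_mul, ← map_mul, mul_comm s' r', mul_inv_cancel_right]
    -- move the involutions into `(P : Subgroup G)`
    have hmove : ∀ (t' : G) (ht' : t' ∈ H), IsConj u t' →
        ∃ i : (P : Subgroup G), IsConj u (i : G) ∧ f i = QuotientGroup.mk' K ⟨t', ht'⟩ := by
      intro t' ht' hc
      have hne : t' ≠ 1 := fun h => hu1 (by rw [h, isConj_one_left] at hc; exact hc)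
      have ht'2 : t' ^ 2 = 1 := by
        obtain ⟨s, hs⟩ := isConj_iff.1 hc
        rw [← hs, conj_pow, sq, huu, mul_one, mul_inv_cancel]
      have hgrp : IsPGroup p (Subgroup.zpowers (⟨t', ht'⟩ : H)) := by
        refine IsPGroup.of_card (n := 1) ?_
        rw [Nat.card_zpowers, ← Subgroup.orderOf_coe, orderOf_eq_prime ht'2 hne, hp, pow_one]
      obtain ⟨S, hS⟩ := hgrp.exists_le_sylow
      obtain ⟨s, hs⟩ := MulAction.exists_smul_eq H S (P.subtype hle)
      have hmem : s * ⟨t', ht'⟩ * s⁻¹ ∈ ((P.subtype hle : Sylow p H) : Subgroup H) := by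
        rw [← hs, Sylow.coe_subgroup_smul]
        exact ⟨⟨t', ht'⟩, hS (Subgroup.mem_zpowers _), by simp⟩
      refine ⟨⟨(s : G) * t' * (s : G)⁻¹, hmem⟩, hc.trans (isConj_iff.2 ⟨s, rfl⟩), ?_⟩
      have e' : QuotientGroup.mk' K s * QuotientGroup.mk' K ⟨t', ht'⟩ * (QuotientGroup.mk' K s)⁻¹ =
          QuotientGroup.mk' K ⟨t', ht'⟩ := hcomm _ _
      rw [← map_inv, ← map_mul, ← map_mul] at e'
      rw [← e']
      rfl
    obtain ⟨i, hiu, hi⟩ := hmove t1 ht1H (isConj_iff.2 ⟨g, ht1.symm⟩)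
    obtain ⟨j, hju, hj⟩ := hmove t2 ht2H (isConj_iff.2 ⟨g * a, by rw [ht2]; group⟩)
    have hij : f (i * j) = f ⟨w, hw⟩ := by
      rw [map_mul, hi, hj, ← map_mul]
      refine QuotientGroup.eq.2 ?_
      obtain ⟨c', hc1, hc2, -, hc3⟩ := Blocks.isPPart_iff.2 hpw.symm
      have hc'H : c' ∈ H := Blocks.mem_centralizer_of_commute hc2
      have : (⟨c', hc'H⟩ : H) ∈ K :=
        BlockChar.mem_of_isPRegular_of_index hKi (by
          show ¬ p ∣ _
          rw [← Subgroup.orderOf_coe]; exact hc3)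
      rw [show ((⟨t1, ht1H⟩ * ⟨t2, ht2H⟩ : H)⁻¹ * Subgroup.inclusion hle ⟨w, hw⟩ : H) =
        (⟨c', hc'H⟩ : H)⁻¹ from Subtype.ext (by
          show (t1 * t2)⁻¹ * w = c'⁻¹
          rw [← hc1, mul_inv_rev, inv_mul_cancel_right])]
      exact K.inv_mem this
    have hijw : i * j = ⟨w, hw⟩ := hf hij
    have orb : ∀ v : (P : Subgroup G), IsConj u (v : G) →
        v = ⟨u, hu⟩ ∨ v = σ ⟨u, hu⟩ ∨ v = σ (σ ⟨u, hu⟩) := by
      intro v hv
      obtain ⟨s, hs⟩ := isConj_iff.1 hv
      obtain ⟨k, hk, hkv⟩ := Transfer.burnside_fusion_elem P (hQC hu) (g := s)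
        (by rw [hs]; exact hQC v.2)
      have hv' : act (P : Subgroup G) ⟨k, hk⟩ ⟨u, hu⟩ = v := Subtype.ext (hkv.trans hs)
      rcases hσN ⟨k, hk⟩ with e' | e' | e' <;> rw [e'] at hv'
      · exact Or.inl hv'.symm
      · exact Or.inr (Or.inl hv'.symm)
      · exact Or.inr (Or.inr hv'.symm)
    obtain ⟨g0, hg0⟩ := hσg
    have hconjσ : ∀ v : (P : Subgroup G), IsConj u (v : G) → IsConj u (σ v : G) := fun v hv =>
      hv.trans (isConj_iff.2 ⟨(g0 : G), by rw [hg0]; rfl⟩)
    set v : (P : Subgroup G) := ⟨u, hu⟩ with hvdef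
    have hvv : v * v = 1 := Subtype.ext huu
    have h2' : σ v * σ v = 1 := by rw [← map_mul, hvv, map_one]
    have h3' : σ (σ v) * σ (σ v) = 1 := by rw [← map_mul, h2', map_one]
    have hne1 : i * j ≠ 1 := by rw [hijw]; exact fun h => hw1 (congrArg Subtype.val h)
    have hnot : ∀ z : (P : Subgroup G), IsConj u (z : G) → i * j ≠ z := fun z hz h => by
      rw [hijw] at h
      exact hwu (by rw [show w = (z : G) from congrArg Subtype.val h]; exact hz)
    have hc0 : IsConj u (v : G) := IsConj.refl u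
    have m := hσmul v
    rcases orb i hiu with rfl | rfl | rfl <;> rcases orb j hju with rfl | rfl | rfl <;>
      first
      | exact hne1 (by first | exact hvv | exact h2' | exact h3')
      | exact hnot _ (hconjσ _ (hconjσ _ hc0)) (by
          first
          | (calc v * σ v = v * σ v * (σ (σ v) * σ (σ v)) := by rw [h3', mul_one]
              _ = v * σ v * σ (σ v) * σ (σ v) := by ac_rfl
              _ = _ := by rw [m, one_mul])
          | (calc σ v * v = v * σ v * (σ (σ v) * σ (σ v)) := by rw [h3', mul_one, mul_comm]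
              _ = v * σ v * σ (σ v) * σ (σ v) := by ac_rfl
              _ = _ := by rw [m, one_mul]))
      | exact hnot _ (hconjσ _ hc0) (by
          first
          | (calc v * σ (σ v) = v * σ (σ v) * (σ v * σ v) := by rw [h2', mul_one]
              _ = v * σ v * σ (σ v) * σ v := by ac_rfl
              _ = _ := by rw [m, one_mul])
          | (calc σ (σ v) * v = v * σ (σ v) * (σ v * σ v) := by rw [h2', mul_one, mul_comm]
              _ = v * σ v * σ (σ v) * σ v := by ac_rfl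
              _ = _ := by rw [m, one_mul]))
      | exact hnot _ hc0 (by
          first
          | (calc σ v * σ (σ v) = σ v * σ (σ v) * (v * v) := by rw [hvv, mul_one]
              _ = v * σ v * σ (σ v) * v := by ac_rfl
              _ = _ := by rw [m, one_mul])
          | (calc σ (σ v) * σ v = σ v * σ (σ v) * (v * v) := by rw [hvv, mul_one, mul_comm]
              _ = v * σ v * σ (σ v) * v := by ac_rfl
              _ = _ := by rw [m, one_mul]))
  -- the arithmetic
  have hA : (1 + (D.a b : ℂ) / x + (D.a c : ℂ) / y) = 9 * (D.δ : ℂ) / n := by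
    have h := hsums w hw hw1
    rw [hzero, hew] at h
    linear_combination -h
  obtain ⟨k, hk, -⟩ := hpos u hu hu1
  have hnne : (n : ℂ) ≠ 0 := Nat.cast_ne_zero.2 hn0.ne'
  have hδ : D.δ = 1 := by
    refine D.δ_eq.resolve_right fun hm => ?_
    have h := hsums u hu hu1
    rw [hk, heu, hA, hm] at h
    have h' : ((Nat.card G : ℝ)⁻¹ * ((k : ℝ) * Nat.card (P : Subgroup G))) = -(2 * (Nat.card (P : Subgroup G) : ℝ) / n) := by
      apply Complex.ofReal_injective
      push_cast at h ⊢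
      linear_combination h
    have h1 : (0 : ℝ) ≤ (Nat.card G : ℝ)⁻¹ * ((k : ℝ) * Nat.card (P : Subgroup G)) := by positivity
    have h2 : (0 : ℝ) < 2 * (Nat.card (P : Subgroup G) : ℝ) / n := by
      have : 0 < Nat.card (P : Subgroup G) := Nat.card_pos
      have : (0 : ℝ) < Nat.card (P : Subgroup G) := Nat.cast_pos.2 this
      have : (0 : ℝ) < n := Nat.cast_pos.2 hn0
      positivity
    linarith
  -- the congruences
  have hcong : ∀ (χ : IrrCharacter G) (s : ℤ) (d : ℕ), (χ : G → ℂ) 1 = d →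
      ∑ a : (P : Subgroup G), (χ : G → ℂ) a = (d : ℂ) + (s : ℂ) → ∃ l : ℤ, (d : ℤ) + s = Nat.card (P : Subgroup G) * l := by
    intro χ s d hd hsum
    obtain ⟨l, hl⟩ := Chars.exists_classInner_eq_int
      (Chars.isGen_of_isCharacter (Chars.isCharacter_restrict (Chars.irr_isCharacter χ) (P : Subgroup G)))
      (Chars.isGen_of_isCharacter (Chars2.linFun_isCharacter (1 : (P : Subgroup G) →* ℂˣ)).1)
    rw [Chars.classInner_def] at hl
    simp only [Chars2.linFun_apply, MonoidHom.one_apply, Units.val_one, map_one, mul_one,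
      Pi.one_apply, hsum] at hl
    refine ⟨l, Int.cast_injective (α := ℂ) ?_⟩
    have hQ0 : (Nat.card (P : Subgroup G) : ℂ) ≠ 0 := Nat.cast_ne_zero.2 Nat.card_pos.ne'
    rw [inv_mul_eq_iff_eq_mul₀ hQ0] at hl
    push_cast
    linear_combination hl
  have hcongX : ∀ χ ∈ D.X, ∀ d : ℕ, (χ : G → ℂ) 1 = d →
      ∃ l : ℤ, (d : ℤ) - D.a χ = Nat.card (P : Subgroup G) * l := by
    intro χ hχ d hd
    obtain ⟨l, hl⟩ := hcong χ (((Nat.card (P : Subgroup G) : ℤ) - 1) * D.a χ) d hd (by
      rw [← Finset.add_sum_erase _ _ (Finset.mem_univ (1 : (P : Subgroup G))), Subgroup.coe_one, hd,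
        Finset.sum_congr rfl (g := fun _ : (P : Subgroup G) => (D.a χ : ℂ)) fun a ha => hvX χ hχ a a.2
          (fun h => (Finset.mem_erase.1 ha).1 (Subtype.ext h)),
        Finset.sum_const, Finset.card_erase_of_mem (Finset.mem_univ _), Finset.card_univ,
        ← Nat.card_eq_fintype_card, nsmul_eq_mul, Nat.cast_sub Nat.card_pos]
      push_cast
      ring)
    exact ⟨l - D.a χ, by linear_combination hl⟩
  obtain ⟨lb, hlb⟩ := hcongX b hbX x hx
  obtain ⟨lc, hlc⟩ := hcongX c hcX y hy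
  obtain ⟨ln, hln⟩ : ∃ l : ℤ, (n : ℤ) - 3 = Nat.card (P : Subgroup G) * l := by
    obtain ⟨ψ, hψ, rfl⟩ := D.ζ_surj η hη
    obtain ⟨l, hl⟩ := hcong (D.ζ ψ) (-3) n hn (by
      have he1 : ∑ a : (P : Subgroup G), (ψ a : ℂ) = 0 := by
        simpa [hψ, Ne.symm hψ] using sum_mul_conj ψ (1 : (P : Subgroup G) →* ℂˣ)
      have hb : Function.Bijective σ := by
        refine Function.bijective_iff_has_inverse.2 ⟨fun y => σ (σ y), fun y => hσ3 y, fun y => ?_⟩
        exact hσ3 y
      have he2 : ∑ a : (P : Subgroup G), (ψ (σ a) : ℂ) = 0 :=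
        (hb.sum_comp fun a => (ψ a : ℂ)).trans he1
      have he3 : ∑ a : (P : Subgroup G), (ψ (σ (σ a)) : ℂ) = 0 :=
        (hb.sum_comp fun a => (ψ (σ a) : ℂ)).trans he2
      have h1 : ∑ a : (P : Subgroup G), ((ψ a : ℂ) + (ψ (σ a) : ℂ) + (ψ (σ (σ a)) : ℂ)) = 0 := by
        rw [Finset.sum_add_distrib, Finset.sum_add_distrib, he1, he2, he3]; ring
      rw [← Finset.add_sum_erase _ _ (Finset.mem_univ (1 : (P : Subgroup G)))] at h1 ⊢
      simp only [map_one, Units.val_one] at h1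
      rw [Subgroup.coe_one, hn, Finset.sum_congr rfl
        (g := fun a : (P : Subgroup G) => (ψ a : ℂ) + (ψ (σ a) : ℂ) + (ψ (σ (σ a)) : ℂ)) fun a ha => by
          rw [hvY ψ hψ a a (hpp a a.2)
            (fun h => (Finset.mem_erase.1 ha).1 (Subtype.ext h)), hδ, Int.cast_one, one_mul]]
      push_cast
      linear_combination h1)
    exact ⟨l, by linear_combination hl⟩
  have hQ16 : 7 ≤ Nat.card (P : Subgroup G) := by have := D.two_le; omega
  have hQ8 : 16 ≤ Nat.card (P : Subgroup G) := by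
    obtain ⟨r, hr⟩ := D.dvd_card
    obtain ⟨k', hk'⟩ := IsPGroup.iff_card.1 P.2
    replace hk' := hk'.trans (congrArg (fun q => q ^ k') hp)
    by_contra hlt
    have : k' < 4 := by
      by_contra h4
      have := Nat.pow_le_pow_right (by norm_num : 2 > 0) (not_lt.1 h4)
      rw [← hk'] at this
      exact hlt (le_trans (by norm_num) this)
    interval_cases k' <;> omega
  have hdegZ : (1 : ℤ) + D.a b * x + D.a c * y = n := by
    apply Int.cast_injective (α := ℂ)
    rw [hδ] at hdeg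
    push_cast at hdeg ⊢
    linear_combination hdeg
  have hAZ : (n : ℤ) * (x * y) + n * y * D.a b + n * x * D.a c = 9 * (x * y) := by
    apply Int.cast_injective (α := ℂ)
    rw [hδ] at hA
    have hx' : (x : ℂ) ≠ 0 := Nat.cast_ne_zero.2 hx0.ne'
    have hy' : (y : ℂ) ≠ 0 := Nat.cast_ne_zero.2 hy0.ne'
    field_simp at hA
    push_cast at hA ⊢
    linear_combination hA
  have hbig : ∀ d l : ℤ, d = Nat.card (P : Subgroup G) * l → 0 < d → (Nat.card (P : Subgroup G) : ℤ) ≤ d := fun d l h hd => by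
    have : 0 < l := by nlinarith
    nlinarith
  have hx0' : (1 : ℤ) ≤ x := by exact_mod_cast hx0
  have hy0' : (1 : ℤ) ≤ y := by exact_mod_cast hy0
  have hxy : 0 < (x : ℤ) * y := by positivity
  have hn1 : (1 : ℤ) ≤ n := by exact_mod_cast hn0
  have hQ8' : (16 : ℤ) ≤ Nat.card (P : Subgroup G) := by exact_mod_cast hQ8
  rcases ha b hbX with h | h <;> rcases ha c hcX with h' | h' <;>
    rw [h, h'] at hdegZ hAZ <;> rw [h] at hlb <;> rw [h'] at hlc
  · have hn9 : (n : ℤ) < 9 := by nlinarith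
    have hn3 : (n : ℤ) = 3 := by
      by_contra hne
      rcases lt_or_gt_of_ne hne with hlt | hgt
      · have := hbig (3 - n) (-ln) (by linarith) (by omega)
        omega
      · have := hbig (n - 3) ln hln (by omega)
        omega
    have hx1 : x = 1 := by omega
    have hb1 : (b : G → ℂ) t = (b : G → ℂ) 1 := by
      rw [hcls, hvX b hbX u hu hu1, hx, h, hx1]; simp
    exact hob (Subtype.ext (hone.trans (eq_one_of_apply_eq hK b hb1).symm))
  · have hn9 : 9 < (n : ℤ) := by
      by_contra hle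
      rcases lt_or_eq_of_le (not_lt.1 hle) with hlt | heq
      · have hn3 : (n : ℤ) = 3 := by
          by_contra hne
          rcases lt_or_gt_of_ne hne with hlt' | hgt
          · have := hbig (3 - n) (-ln) (by linarith) (by omega)
            omega
          · have := hbig (n - 3) ln hln (by omega)
            omega
        nlinarith
      · rw [heq] at hAZ hdegZ
        nlinarith
    have := hbig ((n : ℤ) - 3) ln hln (by omega)
    have := hbig ((y : ℤ) + 1) lc (by linarith) (by omega)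
    have hh : 15 * (n : ℤ) ≤ x * y := by
      have := mul_le_mul (show (n : ℤ) ≤ x by omega) (show (15 : ℤ) ≤ y by omega) (by norm_num) (by omega)
      linarith
    have := mul_le_mul_of_nonneg_left hh (show (0 : ℤ) ≤ (n : ℤ) - 9 by omega)
    nlinarith
  · have hn9 : 9 < (n : ℤ) := by
      by_contra hle
      rcases lt_or_eq_of_le (not_lt.1 hle) with hlt | heq
      · have hn3 : (n : ℤ) = 3 := by
          by_contra hne
          rcases lt_or_gt_of_ne hne with hlt' | hgt
          · have := hbig (3 - n) (-ln) (by linarith) (by omega)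
            omega
          · have := hbig (n - 3) ln hln (by omega)
            omega
        nlinarith
      · rw [heq] at hAZ hdegZ
        nlinarith
    have := hbig ((n : ℤ) - 3) ln hln (by omega)
    have := hbig ((x : ℤ) + 1) lb (by linarith) (by omega)
    have hh : 15 * (n : ℤ) ≤ x * y := by
      have := mul_le_mul (show (15 : ℤ) ≤ x by omega) (show (n : ℤ) ≤ y by omega) (by omega) (by omega)
      linarith
    have := mul_le_mul_of_nonneg_left hh (show (0 : ℤ) ≤ (n : ℤ) - 9 by omega)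
    nlinarith
  · linarith

/-- Let p be a prime, M a maximal ideal of the algebraic integers containing p, and G a finite group with a nontrivial abelian Sylow p-subgroup P, N = N_G(P), C = C_G(P), such that N/C is cyclic of order 3, #P > 4, and C_G(y) ∩ N = C for every non-identity y ∈ P. Then the principal p-block is the disjoint union of a set X of exactly 3 characters containing the principal character and a set Y of (#P − 1)/3 characters, with signs a_χ = ±1 (χ ∈ X, a = 1 at the principal character) and δ = ±1 such that every χ ∈ X takes the value a_χ at every element whose p-part is a non-identity element of P, and there is a map ζ from the non-principal linear characters of P onto Y, constant on N-conjugacy classes, with ζ_ψ(z) = δ·Σ ψ'(y) over the N-orbit of ψ, for z with p-part y ≠ 1 in P. If moreover G has an involution lying in no proper normal subgroup of G, then exactly two of the three numbers −δ and a_χ (χ ∈ X non-principal) equal −1, and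 the product of the degrees of the two non-principal members of X and of any member of Y is a perfect square. -/
theorem result {G : Type*} [Group G] [Finite G] (p : ℕ) [Fact p.Prime] (M : Ideal Cfsg.AlgInt) (hM : Cfsg.IsPModular p M) (P : Sylow p G) (hab : IsMulCommutative P) (hP1 : Nat.card P ≠ 1) (hCN : (Subgroup.centralizer ((P : Subgroup G) : Set G)).relIndex (Subgroup.normalizer ((P : Subgroup G) : Set G)) = 3) (hcyc : ∃ g : G, g ∈ Subgroup.normalizer ((P : Subgroup G) : Set G) ∧ Subgroup.centralizer ((P : Subgroup G) : Set G) ⊔ Subgroup.zpowers g = Subgroup.normalizer ((P : Subgroup G) : Set G)) (hm2 : 3 + 1 < Nat.card P) (hfrob : ∀ y : G, y ∈ (P : Subgroup G) → y ≠ 1 → Subgroup.centralizer ({y} : Set G) ⊓ Subgroup.normalizer ((P : Subgroup G) : Set G) = Subgroup.centralizer ((P : Subgroup G) : Set G)) : ∃ (X Y : Set (Cfsg.IrrCharacter G)), Cfsg.principalBlock M G = X ∪ Y ∧ Disjoint X Y ∧ Nat.card X = 3 ∧ Nat.card Y = (Nat.card P - 1) / 3 ∧ (∃ χ₁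 ∈ X, (χ₁ : G → ℂ) = fun _ => 1) ∧ ∃ (a : Cfsg.IrrCharacter G → ℤ) (δ : ℤ) (ζ : (↥(P : Subgroup G) →* ℂˣ) → Cfsg.IrrCharacter G), (δ = 1 ∨ δ = -1) ∧ (∀ χ ∈ X, (a χ = 1 ∨ a χ = -1) ∧ ∀ z y : G, Cfsg.IsPPart p z y → y ∈ (P : Subgroup G) → y ≠ 1 → (χ : G → ℂ) z = (a χ : ℂ)) ∧ (∀ ψ : ↥(P : Subgroup G) →* ℂˣ, ψ ≠ 1 → ζ ψ ∈ Y) ∧ (∀ η ∈ Y, ∃ ψ : ↥(P : Subgroup G) →* ℂˣ, ψ ≠ 1 ∧ ζ ψ = η) ∧ (∀ ψ ψ' : ↥(P : Subgroup G) →* ℂˣ, ψ ≠ 1 → (∃ n : G, n ∈ Subgroup.normalizer ((P : Subgroup G) : Set G) ∧ ∀ w w' : ↥(P : Subgroup G), (w' : G) = n * w * n⁻¹ → ψ' w' = ψ w) → ζ ψ' = ζ ψ) ∧ (∀ ψ : ↥(P : Subgroup G) →* ℂˣ, ψ ≠ 1 → ∀ (z : G) (y : ↥(P : Subgroup G)), Cfsg.IsPPart p z (y : G) → (y : G) ≠ 1 → (ζ ψ : G → ℂ) z = (δ : ℂ) * ∑ᶠ ψ' ∈ {ψ' : ↥(P : Subgroup G) →* ℂˣ | ∃ n : G, n ∈ Subgroup.normalizer ((P : Subgroup G) : Set G) ∧ ∀ w w' : ↥(P : Subgroup G), (w' : G) = n * w * n⁻¹ → ψ' w' = ψ w}, ((ψ' y : ℂˣ) : ℂ)) ∧ ((∃ t : G, orderOf t = 2 ∧ ∀ K : Subgroup G, K.Normal → t ∈ K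 → K = ⊤) → Nat.card {χ : Cfsg.IrrCharacter G // χ ∈ X ∧ (χ : G → ℂ) ≠ (fun _ => 1) ∧ a χ = -1} + (if δ = 1 then 1 else 0) = 2 ∧ ∀ η ∈ Y, IsSquare (Cfsg.charDegree (η : G → ℂ) * ∏ᶠ χ ∈ {χ : Cfsg.IrrCharacter G | χ ∈ X ∧ (χ : G → ℂ) ≠ fun _ => 1}, Cfsg.charDegree (χ : G → ℂ))) := by
  classical
  haveI : M.IsMaximal := hM.2.1
  haveI : Fintype G := Fintype.ofFinite G
  have hpM : (p : AlgInt) ∈ M := hM.2.2
  obtain ⟨D⟩ := exists_data p M hM P hab hP1 3 (by norm_num) hm2 hCN hfrob
  obtain ⟨hd0, hX3, ha⟩ := normal_form hM P D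
  refine ⟨D.X, D.Y, D.union_eq, D.disjoint, hX3, D.card_Y, D.one_mem, D.a, D.δ, D.ζ, D.δ_eq,
    fun χ hχ => ⟨ha χ hχ, (D.val_X χ hχ).2⟩, D.ζ_mem, D.ζ_surj, D.ζ_inv, ?_, ?_⟩
  · intro ψ hψ z y hz hy
    rw [D.val_Y ψ hψ z y hz hy, hd0, Int.cast_zero, zero_add]
  rintro ⟨t, ht, hK⟩
  obtain ⟨one, hone, hone1⟩ := D.one_mem
  obtain ⟨b, c, hbc, hX'⟩ : ∃ b c : IrrCharacter G, b ≠ c ∧ D.X \ {one} = {b, c} := by
    refine Set.ncard_eq_two.1 ?_
    rw [Set.ncard_diff_singleton_of_mem hone, ← Nat.card_coe_set_eq, hX3]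
  have hbX : b ∈ D.X ∧ b ≠ one := (Set.ext_iff.1 hX' b).2 (Or.inl rfl)
  have hcX : c ∈ D.X ∧ c ≠ one := (Set.ext_iff.1 hX' c).2 (Or.inr rfl)
  have hX : D.X = {one, b, c} := by
    rw [show ({one, b, c} : Set (IrrCharacter G)) = insert one {b, c} from rfl, ← hX',
      Set.insert_sdiff_singleton, Set.insert_eq_of_mem hone]
  have h1ne : ∀ χ : IrrCharacter G, χ ≠ one → (χ : G → ℂ) ≠ fun _ => 1 :=
    fun χ hne h => hne (Subtype.ext (h.trans hone1.symm))
  obtain ⟨η₀, hη₀⟩ : D.Y.Nonempty := by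
    by_contra hY
    have := D.card_Y
    rw [Set.not_nonempty_iff_eq_empty.1 hY] at this
    have := D.two_le
    simp at *
    omega
  by_cases hp : p = 2
  · exact (even_false hM P hab hCN hfrob D hp ht hK hX hone1 hbX.2.symm hcX.2.symm hbc hη₀).elim
  have htp : ¬ p ∣ orderOf t := by
    rw [ht]; exact fun h => hp ((Nat.prime_dvd_prime_iff_eq (Fact.out) Nat.prime_two).1 h)
  have h1p : ¬ p ∣ orderOf (1 : G) := by rw [orderOf_one]; exact (Fact.out : p.Prime).not_dvd_one
  -- the squares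
  have hkq : ∀ v ∈ (P : Subgroup G), v ≠ 1 → ∑ᶠ χ ∈ principalBlock M G,
      ((χ : G → ℂ) t ^ 2 / (χ : G → ℂ) 1) * (χ : G → ℂ) v = 0 := by
    intro v hv hv1
    have hG : (Nat.card G : ℂ) ≠ 0 := Chars.card_ne_zero
    have ht2 : t * t = 1 := by rw [← sq, ← ht, pow_orderOf_eq_one]
    obtain ⟨l, hl⟩ := IsPGroup.iff_orderOf.1 P.2 ⟨v, hv⟩
    have hvp : Blocks.ppart p v⁻¹ = v⁻¹ := by
      have := Blocks.ppart_mul (p := p) (Commute.one_right v⁻¹)
        ⟨l, by rw [orderOf_inv, ← hl, ← Subgroup.orderOf_coe]⟩ h1p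
      rwa [mul_one] at this
    rw [Blocks.finsum_mem_eq_filter]
    calc _ = ∑ χ ∈ Finset.univ.filter (· ∈ principalBlock M G), ∑ a : G, (Nat.card G : ℂ)⁻¹ *
          ((χ : G → ℂ) (t * (a * t * a⁻¹)) * (χ : G → ℂ) v) := by
          refine Finset.sum_congr rfl fun χ _ => ?_
          rw [← Finset.mul_sum, ← Finset.sum_mul, Blocks.sum_apply_mul_conj]
          field_simp
      _ = 0 := by
        rw [Finset.sum_comm]
        refine Finset.sum_eq_zero fun a _ => ?_
        rw [← Finset.mul_sum, Finset.sum_congr rfl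
          (g := fun χ : IrrCharacter G => (χ : G → ℂ) (t * (a * t * a⁻¹)) * conj ((χ : G → ℂ) v⁻¹))
          fun χ _ => by rw [← Chars.char_inv_eq_conj (Chars.irr_isCharacter χ), inv_inv],
          Blocks.block_orth hpM Blocks.isPBlock_principal, mul_zero]
        rw [hvp]
        intro h
        obtain ⟨g, hg⟩ := isConj_iff.1 h
        set x := t * (a * t * a⁻¹) with hx
        have hxinv : t * x * t⁻¹ = x⁻¹ := by
          have hti : t⁻¹ = t := inv_eq_of_mul_eq_one_left ht2
          calc t * x * t⁻¹ = t * t * (a * t * a⁻¹) * t⁻¹ := by rw [hx]; group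
            _ = (a * t * a⁻¹) * t⁻¹ := by rw [ht2, one_mul]
            _ = x⁻¹ := by rw [hx]; simp [hti, mul_assoc]
        have hvinv : (g * t * g⁻¹) * v⁻¹ * (g * t * g⁻¹)⁻¹ = (v⁻¹)⁻¹ := by
          rw [← hg]
          calc g * t * g⁻¹ * (g * Blocks.ppart p x * g⁻¹) * (g * t * g⁻¹)⁻¹
              = g * (t * Blocks.ppart p x * t⁻¹) * g⁻¹ := by group
            _ = g * (Blocks.ppart p x)⁻¹ * g⁻¹ := by
                rw [← Blocks.ppart_conj, hxinv, Blocks.ppart, Blocks.ppart, inv_pow]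
            _ = _ := by group
        have hvv := mul_self_of_inverted P hab hCN hfrob ((P : Subgroup G).inv_mem hv)
          (by simpa using hv1) hvinv
        have h2 : orderOf v⁻¹ = 2 :=
          orderOf_eq_prime (by rw [sq]; exact hvv) (by simpa using hv1)
        rw [orderOf_inv] at h2
        have hl' : p ^ l = 2 := by rw [← hl, ← h2, ← Subgroup.orderOf_coe]
        exact hp ((Nat.prime_dvd_prime_iff_eq (Fact.out) Nat.prime_two).1
          (hl' ▸ dvd_pow_self p (fun h0 => by rw [h0, pow_zero] at hl'; omega)))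
  obtain ⟨-, rel1⟩ := D.rel (fun χ => (χ : G → ℂ) 1) (kill_regular hM P.2 h1p)
  obtain ⟨-, relt⟩ := D.rel (fun χ => (χ : G → ℂ) t) (kill_regular hM P.2 htp)
  obtain ⟨-, relq⟩ := D.rel (fun χ => (χ : G → ℂ) t ^ 2 / (χ : G → ℂ) 1) hkq
  have sumX : ∀ f : IrrCharacter G → ℂ, ∑ᶠ χ ∈ D.X, f χ = f one + f b + f c := by
    intro f
    have : D.X = (({one, b, c} : Finset (IrrCharacter G)) : Set (IrrCharacter G)) := by simp [hX]
    rw [this, finsum_mem_coe_finset,
      Finset.sum_insert (by simp [hbX.2.symm, hcX.2.symm]), Finset.sum_pair hbc]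
    ring
  have hYX : ∀ η ∈ D.Y, η ≠ one := fun η hη h =>
    Set.disjoint_left.1 D.disjoint hone (h ▸ hη)
  -- each member of `Y`
  have key : ∀ η ∈ D.Y,
      ((if D.a b = -1 then 1 else 0) + (if D.a c = -1 then 1 else 0) +
        if D.δ = 1 then 1 else 0 : ℕ) = 2 ∧
      IsSquare (charDegree (η : G → ℂ) * (charDegree (b : G → ℂ) * charDegree (c : G → ℂ))) := by
    intro η hη
    obtain ⟨x, hx0, hx⟩ := Chars.exists_irr_apply_one_eq b.2
    obtain ⟨y, hy0, hy⟩ := Chars.exists_irr_apply_one_eq c.2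
    obtain ⟨n, hn0, hn⟩ := Chars.exists_irr_apply_one_eq η.2
    obtain ⟨U, hU, -⟩ := S0944.result b t ht
    obtain ⟨V, hV, -⟩ := S0944.result c t ht
    obtain ⟨W, hW, -⟩ := S0944.result η t ht
    have e0 := rel1 η hη
    have e1 := relt η hη
    have e2 := relq η hη
    rw [sumX, hd0] at e0 e1 e2
    simp only [D.a_one one hone1, hone1, hx, hy, hn, hU, hV, hW] at e0 e1 e2
    have f0 : (1 : ℤ) + D.a b * x + D.a c * y - D.δ * n = 0 := by
      apply Int.cast_injective (α := ℂ); push_cast at e0 ⊢; linear_combination e0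
    have f1 : (1 : ℤ) + D.a b * U + D.a c * V - D.δ * W = 0 := by
      apply Int.cast_injective (α := ℂ); push_cast at e1 ⊢; linear_combination e1
    have f2 : (1 : ℝ) + D.a b * ((U : ℝ) ^ 2 / x) + D.a c * ((V : ℝ) ^ 2 / y) -
        D.δ * ((W : ℝ) ^ 2 / n) = 0 := by
      apply Complex.ofReal_injective; push_cast at e2 ⊢; linear_combination e2
    have hUx : U ≠ x := fun h => h1ne b hbX.2 (eq_one_of_apply_eq hK b
      (by rw [hU, hx, h, Int.cast_natCast]))
    have hVy : V ≠ y := fun h => h1ne c hcX.2 (eq_one_of_apply_eq hK c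
      (by rw [hV, hy, h, Int.cast_natCast]))
    have hWn : W ≠ n := fun h => h1ne η (hYX η hη) (eq_one_of_apply_eq hK η
      (by rw [hW, hn, h, Int.cast_natCast]))
    have hcd : ∀ {χ : IrrCharacter G} {m : ℕ}, (χ : G → ℂ) 1 = m → charDegree (χ : G → ℂ) = m :=
      fun h => by simp [charDegree, h]
    rw [hcd hx, hcd hy, hcd hn]
    have hx' : (0 : ℝ) < x := Nat.cast_pos.2 hx0
    have hy' : (0 : ℝ) < y := Nat.cast_pos.2 hy0
    have hn' : (0 : ℝ) < n := Nat.cast_pos.2 hn0
    rcases ha b hbX.1 with hb | hb <;> rcases ha c hcX.1 with hc | hc <;>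
      rcases D.δ_eq with hδ | hδ <;> rw [hb, hc, hδ] at f0 f1 f2 ⊢ <;> push_cast at f2 ⊢ <;> norm_num
    -- all signs as listed
    · refine absurd ?_ hWn
      exact_mod_cast three_pos (U := (U : ℝ)) (V := (V : ℝ)) (W := (W : ℝ)) hx' hy' hn' (by exact_mod_cast (by linarith : (1 : ℤ) + x + y = n))
        (by exact_mod_cast (by linarith : (1 : ℤ) + U + V = W)) (by linarith)
    · omega
    · -- b +, c -, δ 1
      have := square_of_moments (U := W) (V := V) (W := U) hn0 hy0 hx0 (by linarith) (by linarith)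
        (by
          have : ((n * y * x : ℝ) + n * y * (U : ℝ) ^ 2) = y * x * (W : ℝ) ^ 2 + n * x * (V : ℝ) ^ 2 := by
            field_simp at f2
            linarith
          exact_mod_cast this) hVy
      rwa [show n * (x * y) = n * y * x by ring]
    · refine absurd ?_ hVy
      exact_mod_cast three_pos (U := (U : ℝ)) (V := (W : ℝ)) (W := (V : ℝ)) hx' hn' hy' (by exact_mod_cast (by linarith : (1 : ℤ) + x + n = y))
        (by exact_mod_cast (by linarith : (1 : ℤ) + U + W = V)) (by linarith)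
    · have := square_of_moments (U := W) (V := U) (W := V) hn0 hx0 hy0 (by linarith) (by linarith)
        (by
          have : ((n * x * y : ℝ) + n * x * (V : ℝ) ^ 2) = x * y * (W : ℝ) ^ 2 + n * y * (U : ℝ) ^ 2 := by
            field_simp at f2
            linarith
          exact_mod_cast this) hUx
      rwa [show n * (x * y) = n * x * y by ring]
    · refine absurd ?_ hUx
      exact_mod_cast three_pos (U := (V : ℝ)) (V := (W : ℝ)) (W := (U : ℝ)) hy' hn' hx' (by exact_mod_cast (by linarith : (1 : ℤ) + y + n = x))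
        (by exact_mod_cast (by linarith : (1 : ℤ) + V + W = U)) (by linarith)
    · omega
    · have := square_of_moments (U := U) (V := V) (W := W) hx0 hy0 hn0 (by linarith) (by linarith)
        (by
          have : ((x * y * n : ℝ) + x * y * (W : ℝ) ^ 2) = y * n * (U : ℝ) ^ 2 + x * n * (V : ℝ) ^ 2 := by
            field_simp at f2
            linarith
          exact_mod_cast this) hVy
      rwa [show n * (x * y) = x * y * n by ring]
  refine ⟨?_, fun η hη => ?_⟩
  · rw [← (key η₀ hη₀).1]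
    congr 1
    rw [Nat.card_eq_fintype_card, Fintype.card_subtype]
    have : (Finset.univ.filter fun χ : IrrCharacter G =>
        χ ∈ D.X ∧ (χ : G → ℂ) ≠ (fun _ => 1) ∧ D.a χ = -1) =
        ({b, c} : Finset (IrrCharacter G)).filter (fun χ => D.a χ = -1) := by
      ext χ
      simp only [Finset.mem_filter, Finset.mem_univ, true_and, Finset.mem_insert,
        Finset.mem_singleton]
      constructor
      · rintro ⟨h1, h2, h3⟩
        rw [hX] at h1
        rcases h1 with h1 | h1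
        · exact absurd (h1 ▸ hone1) h2
        · exact ⟨h1, h3⟩
      · rintro ⟨h1 | h1, h3⟩ <;> subst h1
        · exact ⟨hbX.1, h1ne _ hbX.2, h3⟩
        · exact ⟨hcX.1, h1ne _ hcX.2, h3⟩
    rw [this, Finset.card_filter, Finset.sum_pair hbc]
  · have hset : {χ : IrrCharacter G | χ ∈ D.X ∧ (χ : G → ℂ) ≠ fun _ => 1} = {b, c} := by
      rw [← hX']
      ext χ
      exact ⟨fun h => ⟨h.1, fun he => h.2 (by rw [Set.mem_singleton_iff.1 he]; exact hone1)⟩,
        fun h => ⟨h.1, h1ne χ h.2⟩⟩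
    rw [hset, finprod_mem_pair hbc]
    exact (key η hη).2

end Cfsg.Agent.S4721
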