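import Cfsg.Statements.S0949
import Cfsg.Agent.S4721
import Cfsg.Agent.Core.MinimalNormal
import Cfsg.Agent.Core.Cores
import Cfsg.Agent.DegreeGraph.AbelianNormal

set_option autoImplicit false
set_option linter.style.haveILetI false
set_option linter.unusedSectionVars false
set_option linter.unusedVariables false
open Cfsg

namespace Cfsg.Agent.S0949

universe u

/-- An automorphism of odd order of an abelian `2`-subgroup fixing its involutions is trivial. -/
theorem fixed_of_involutions {G : Type u} [Group G] {P : Subgroup G}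
    (hc : ∀ x ∈ P, ∀ y ∈ P, x * y = y * x) {a : G} (hP : ∀ y ∈ P, a * y * a⁻¹ ∈ P) {o : ℕ}
    (ho : Odd o) (hao : a ^ o = 1) (hinv : ∀ y ∈ P, y * y = 1 → a * y * a⁻¹ = y) :
    ∀ (j : ℕ), ∀ y ∈ P, y ^ 2 ^ j = 1 → a * y * a⁻¹ = y := by
  intro j
  induction j with
  | zero => intro y _ h; rw [pow_zero, pow_one] at h; subst h; simp
  | succ j ih =>
    intro y hy h
    obtain ⟨c, hcdef⟩ : ∃ c, c = y⁻¹ * (a * y * a⁻¹) := ⟨_, rfl⟩
    have hcP : c ∈ P := hcdef ▸ P.mul_mem (P.inv_mem hy) (hP y hy)
    have hay : a * y * a⁻¹ = y * c := by rw [hcdef, mul_inv_cancel_left]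
    have h2 : a * y ^ 2 * a⁻¹ = y ^ 2 :=
      ih _ (P.pow_mem hy 2) (by rw [← pow_mul, ← pow_succ']; exact h)
    have hcc : c * c = 1 := by
      rw [← conj_pow, hay, (show Commute y c from hc y hy c hcP).mul_pow] at h2
      rw [← sq]
      exact mul_eq_left.1 h2
    have hca := hinv c hcP hcc
    have hiter : ∀ k : ℕ, a ^ k * y * (a ^ k)⁻¹ = y * c ^ k := by
      intro k
      induction k with
      | zero => simp
      | succ k ihk =>
        calc a ^ (k + 1) * y * (a ^ (k + 1))⁻¹ = a * (a ^ k * y * (a ^ k)⁻¹) * a⁻¹ := by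
              rw [pow_succ']; group
          _ = (a * y * a⁻¹) * (a * c * a⁻¹) ^ k := by rw [ihk, conj_pow]; group
          _ = _ := by rw [hay, hca, mul_assoc, ← pow_succ']
    have h3 := hiter o
    rw [hao, inv_one, mul_one, one_mul] at h3
    have hc1 : c ^ o = 1 := mul_eq_left.1 h3.symm
    obtain ⟨l, rfl⟩ := ho
    rw [pow_succ, pow_mul, sq, hcc, one_pow, one_mul] at hc1
    rw [hay, hc1, mul_one]

variable {G : Type u} [Group G] [Finite G] (P : Sylow 2 G) {m : ℕ}

/-- The involutions of a homocyclic group of rank two. -/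
theorem card_involutions (hm : 1 ≤ m) (e : (P : Subgroup G) ≃* Multiplicative (ZMod (2 ^ m) × ZMod (2 ^ m))) :
    Nat.card {y : (P : Subgroup G) // y * y = 1 ∧ y ≠ 1} = 3 := by
  classical
  haveI : NeZero (2 ^ m) := ⟨pow_ne_zero _ two_ne_zero⟩
  let h : ZMod (2 ^ m) := ((2 ^ (m - 1) : ℕ) : ZMod (2 ^ m))
  have hlt : 2 ^ (m - 1) < 2 ^ m := Nat.pow_lt_pow_right (by norm_num) (by omega)
  have hh : h ≠ 0 := by
    intro h0
    have := congrArg ZMod.val h0
    rw [ZMod.val_natCast, Nat.mod_eq_of_lt hlt, ZMod.val_zero] at this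
    exact pow_ne_zero _ two_ne_zero this
  have hsplit : 2 * 2 ^ (m - 1) = 2 ^ m := by rw [← pow_succ']; congr 1; omega
  have hiff : ∀ a : ZMod (2 ^ m), a + a = 0 ↔ a = 0 ∨ a = h := by
    intro a
    rw [add_eq_zero_iff_eq_neg, eq_comm, ZMod.neg_eq_self_iff]
    refine or_congr_right ⟨fun h2 => ?_, fun h2 => ?_⟩
    · rw [← ZMod.natCast_zmod_val a]
      show ((a.val : ℕ) : ZMod (2 ^ m)) = _
      congr 1
      omega
    · subst h2
      show 2 * h.val = _
      rw [ZMod.val_natCast, Nat.mod_eq_of_lt hlt, hsplit]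
  let E : (P : Subgroup G) ≃ ZMod (2 ^ m) × ZMod (2 ^ m) := e.toEquiv.trans Multiplicative.toAdd
  have hE : ∀ y : (P : Subgroup G), (y * y = 1 ∧ y ≠ 1) ↔
      E y ∈ (({(h, 0), (0, h), (h, h)} : Finset (ZMod (2 ^ m) × ZMod (2 ^ m)))) := by
    intro y
    have h1 : y * y = 1 ↔ E y + E y = 0 := by
      rw [← e.injective.eq_iff, map_mul, map_one, ← Multiplicative.toAdd.injective.eq_iff]
      rfl
    have h2 : y ≠ 1 ↔ E y ≠ 0 := by
      rw [ne_eq, ne_eq, ← e.injective.eq_iff, map_one, ← Multiplicative.toAdd.injective.eq_iff]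
      rfl
    rw [h1, h2]
    obtain ⟨a, b⟩ := E y
    simp only [Finset.mem_insert, Finset.mem_singleton, Prod.mk_add_mk, Prod.mk_eq_zero, hiff,
      ne_eq, Prod.mk.injEq]
    rcases Classical.em (a = 0) with ha | ha <;> rcases Classical.em (b = 0) with hb | hb <;>
      simp [ha, hb, hh, Ne.symm hh]
  rw [Nat.card_congr (E.subtypeEquiv hE), Nat.card_eq_fintype_card, Fintype.card_coe,
    Finset.card_insert_of_notMem (by simp [hh, Ne.symm hh]),
    Finset.card_pair (by simp [hh, Ne.symm hh])]

theorem comm_of_equiv {A : Type*} [CommGroup A] (e : (P : Subgroup G) ≃* A) :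
    IsMulCommutative (P : Subgroup G) :=
  ⟨⟨fun a b => e.injective (by rw [map_mul, map_mul, mul_comm])⟩⟩

variable (hm : 1 ≤ m) (e : (P : Subgroup G) ≃* Multiplicative (ZMod (2 ^ m) × ZMod (2 ^ m)))

include hm e in
/-- An element of the normalizer fixing the involutions of `P` centralizes `P`. -/
theorem mem_centralizer_of_fix {n : G} (hn : n ∈ Subgroup.normalizer ((P : Subgroup G) : Set G))
    (hfix : ∀ y ∈ (P : Subgroup G), y * y = 1 → n * y * n⁻¹ = y) :
    n ∈ Subgroup.centralizer ((P : Subgroup G) : Set G) := by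
  classical
  haveI : Fact (Nat.Prime 2) := ⟨Nat.prime_two⟩
  have hab := comm_of_equiv P e
  have hQC := LeadWork.Coherent.le_centralizer P hab
  set N := Subgroup.normalizer ((P : Subgroup G) : Set G) with hN
  set C := Subgroup.centralizer ((P : Subgroup G) : Set G) with hC
  have hCN : C ≤ N := BlockChar.centralizer_le_normalizer _
  obtain ⟨k, l, hl, hkl⟩ : ∃ k l, Odd l ∧ orderOf n = 2 ^ k * l := by
    obtain ⟨k, l, hl, h⟩ := Nat.exists_eq_pow_mul_and_not_dvd (orderOf_pos n).ne' 2 (by norm_num)
    exact ⟨k, l, Nat.odd_iff.2 (by omega), h⟩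
  have h1 : n ^ 2 ^ k ∈ C := by
    refine Subgroup.mem_centralizer_iff.2 fun y hy => ?_
    obtain ⟨j, hj⟩ := IsPGroup.iff_orderOf.1 P.2 ⟨y, hy⟩
    have hf : ∀ i : ℕ, ∀ z ∈ (P : Subgroup G), z * z = 1 → n ^ i * z * (n ^ i)⁻¹ = z := by
      intro i
      induction i with
      | zero => intro z _ _; simp
      | succ i ih =>
        intro z hz hzz
        calc n ^ (i + 1) * z * (n ^ (i + 1))⁻¹ = n ^ i * (n * z * n⁻¹) * (n ^ i)⁻¹ := by
              rw [pow_succ]; group
          _ = z := by rw [hfix z hz hzz, ih z hz hzz]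
    have := fixed_of_involutions (fun a ha b hb => congrArg Subtype.val
        (hab.1.1 (⟨a, ha⟩ : (P : Subgroup G)) ⟨b, hb⟩))
      (fun z hz => (Subgroup.mem_normalizer_iff.1 (N.pow_mem hn (2 ^ k)) z).1 hz)
      hl (by rw [← pow_mul, ← hkl, pow_orderOf_eq_one]) (hf (2 ^ k)) j y hy
      (by rw [← hj, Subgroup.orderOf_mk, pow_orderOf_eq_one])
    exact (mul_inv_eq_iff_eq_mul.1 this).symm
  have hodd : ¬ 2 ∣ C.relIndex N := fun h => P.not_dvd_index <|
    h.trans ((Subgroup.relIndex_dvd_index_of_le hCN).trans (Subgroup.index_dvd_of_le hQC))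
  haveI hnorm : (C.subgroupOf N).Normal := by
    refine ⟨fun c hc r => ?_⟩
    rw [Subgroup.mem_subgroupOf] at hc ⊢
    refine Subgroup.mem_centralizer_iff.2 fun a ha => ?_
    have h1 := (Subgroup.mem_normalizer_iff.1 (inv_mem r.2) a).1 ha
    have h2 := Subgroup.mem_centralizer_iff.1 hc _ h1
    simp only [inv_inv] at h2
    simp only [Subgroup.coe_mul, Subgroup.coe_inv]
    calc a * ((r : G) * c * (r : G)⁻¹) = r * (((r : G)⁻¹ * a * r) * c) * (r : G)⁻¹ := by group
      _ = r * (c * ((r : G)⁻¹ * a * r)) * (r : G)⁻¹ := by rw [h2]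
      _ = _ := by group
  have hg : (QuotientGroup.mk' (C.subgroupOf N) ⟨n, hn⟩) ^ 2 ^ k = 1 := by
    rw [← map_pow]
    exact (QuotientGroup.eq_one_iff _).2 (Subgroup.mem_subgroupOf.2 h1)
  have hcard : Nat.card (N ⧸ C.subgroupOf N) = C.relIndex N := rfl
  have hone : QuotientGroup.mk' (C.subgroupOf N) ⟨n, hn⟩ = 1 := by
    rw [← orderOf_eq_one_iff]
    refine Nat.eq_one_of_dvd_coprimes ?_ (orderOf_dvd_of_pow_eq_one hg) (orderOf_dvd_natCard _)
    rw [hcard]
    exact Nat.Coprime.pow_left k (Nat.prime_two.coprime_iff_not_dvd.2 hodd)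
  exact Subgroup.mem_subgroupOf.1 ((QuotientGroup.eq_one_iff _).1 hone)

include hm e in
/-- The automizer of `P`. -/
theorem automizer :
    ((Subgroup.centralizer ((P : Subgroup G) : Set G)).relIndex
        (Subgroup.normalizer ((P : Subgroup G) : Set G)) = 1 ∨
      (Subgroup.centralizer ((P : Subgroup G) : Set G)).relIndex
        (Subgroup.normalizer ((P : Subgroup G) : Set G)) = 3) ∧
    ((Subgroup.centralizer ((P : Subgroup G) : Set G)).relIndex
        (Subgroup.normalizer ((P : Subgroup G) : Set G)) = 3 →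
      (∀ y : G, y ∈ (P : Subgroup G) → y ≠ 1 →
        Subgroup.centralizer ({y} : Set G) ⊓ Subgroup.normalizer ((P : Subgroup G) : Set G) =
          Subgroup.centralizer ((P : Subgroup G) : Set G)) ∧
      ∀ n ∈ Subgroup.normalizer ((P : Subgroup G) : Set G),
        n ∉ Subgroup.centralizer ((P : Subgroup G) : Set G) →
        ∀ z w : G, z ∈ (P : Subgroup G) → z * z = 1 → z ≠ 1 → w ∈ (P : Subgroup G) → w * w = 1 →
          w ≠ 1 → w = z ∨ w = n * z * n⁻¹ ∨ w = n * (n * z * n⁻¹) * n⁻¹) := by
  classical
  haveI : Fact (Nat.Prime 2) := ⟨Nat.prime_two⟩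
  have hab := comm_of_equiv P e
  have hQC := LeadWork.Coherent.le_centralizer P hab
  set N := Subgroup.normalizer ((P : Subgroup G) : Set G) with hN
  set C := Subgroup.centralizer ((P : Subgroup G) : Set G) with hC
  have hCN : C ≤ N := BlockChar.centralizer_le_normalizer _
  let Ω := {y : (P : Subgroup G) // y * y = 1 ∧ y ≠ 1}
  have hΩ : Nat.card Ω = 3 := card_involutions P hm e
  letI : MulAction N Ω :=
    { smul := fun n y => ⟨⟨(n : G) * y.1 * (n : G)⁻¹,
        (Subgroup.mem_normalizer_iff.1 n.2 _).1 y.1.2⟩, by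
          refine ⟨Subtype.ext ?_, fun h => y.2.2 (Subtype.ext ?_)⟩
          · have h1 := congrArg Subtype.val y.2.1
            simp only [Subgroup.coe_mul, Subgroup.coe_one] at h1 ⊢
            calc (n : G) * y.1 * (n : G)⁻¹ * ((n : G) * y.1 * (n : G)⁻¹)
                = (n : G) * ((y.1 : G) * y.1) * (n : G)⁻¹ := by group
              _ = 1 := by rw [h1]; group
          · have h1 : (n : G) * (y.1 : G) * (n : G)⁻¹ = 1 := congrArg Subtype.val h
            simpa using h1⟩
      one_smul := fun y => Subtype.ext (Subtype.ext (by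
        show ((1 : N) : G) * (y.1 : G) * ((1 : N) : G)⁻¹ = y.1
        simp))
      mul_smul := fun a b y => Subtype.ext (Subtype.ext (by
        show ((a * b : N) : G) * (y.1 : G) * ((a * b : N) : G)⁻¹ =
          (a : G) * ((b : G) * y.1 * (b : G)⁻¹) * (a : G)⁻¹
        simp [mul_assoc])) }
  have hval : ∀ (n : N) (y : Ω), (((n • y).1 : (P : Subgroup G)) : G) = (n : G) * y.1 * (n : G)⁻¹ :=
    fun n y => rfl
  let φ := MulAction.toPermHom N Ω
  have hker : φ.ker = C.subgroupOf N := by
    ext n
    rw [MonoidHom.mem_ker, Subgroup.mem_subgroupOf]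
    constructor
    · intro h
      refine mem_centralizer_of_fix P hm e n.2 fun y hy hyy => ?_
      by_cases hy1 : y = 1
      · subst hy1; simp
      have h2 : n • (⟨⟨y, hy⟩, Subtype.ext hyy, fun h => hy1 (congrArg Subtype.val h)⟩ : Ω) = _ :=
        Equiv.Perm.ext_iff.1 h _
      exact congrArg (fun v : Ω => ((v.1 : (P : Subgroup G)) : G)) h2
    · intro h
      refine Equiv.Perm.ext fun y => Subtype.ext (Subtype.ext ?_)
      show (n : G) * y.1 * (n : G)⁻¹ = y.1
      rw [← Subgroup.mem_centralizer_iff.1 h _ y.1.2, mul_inv_cancel_right]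
  haveI : Fintype Ω := Fintype.ofFinite Ω
  have hdvd : C.relIndex N ∣ 6 := by
    show (C.subgroupOf N).index ∣ 6
    rw [← hker, Subgroup.index_ker]
    refine (Subgroup.card_subgroup_dvd_card _).trans (dvd_of_eq ?_)
    rw [Nat.card_eq_fintype_card, Fintype.card_perm, ← Nat.card_eq_fintype_card, hΩ]
    rfl
  have hodd : ¬ 2 ∣ C.relIndex N := fun h => P.not_dvd_index <|
    h.trans ((Subgroup.relIndex_dvd_index_of_le hCN).trans (Subgroup.index_dvd_of_le hQC))
  refine ⟨?_, fun h3 => ?_⟩
  · have := Nat.le_of_dvd (by norm_num) hdvd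
    interval_cases hr : C.relIndex N <;> omega
  -- elements outside the centralizer are three-cycles
  have hcube : ∀ n : N, ∀ y : Ω, n • n • n • y = y := fun n y => by
    haveI hn : (C.subgroupOf N).Normal := hker ▸ φ.normal_ker
    have h := Subgroup.pow_index_mem (C.subgroupOf N) n
    rw [show (C.subgroupOf N).index = 3 from h3, ← hker] at h
    have := Equiv.Perm.ext_iff.1 (MonoidHom.mem_ker.1 h) y
    rw [smul_smul, smul_smul, show n * n * n = n ^ 3 from by rw [pow_succ, pow_two]]
    simpa [φ] using this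
  have hfree : ∀ n : N, (n : G) ∉ C → ∀ y : Ω, n • y ≠ y := by
    intro n hn y hy
    refine hn (Subgroup.mem_subgroupOf.1 (hker ▸ MonoidHom.mem_ker.2 (Equiv.Perm.ext fun z => ?_)))
    show n • z = z
    by_contra hz
    have hy' : ∀ v, n • v = y → v = y := fun v hv => MulAction.injective n (hv.trans hy.symm)
    have hzy : z ≠ y := fun h => hz (h ▸ hy)
    have hzy' : n • z ≠ y := fun h => hzy (hy' z h)
    have hset : ({y, z, n • z} : Finset Ω) = Finset.univ := by
      refine Finset.eq_univ_of_card _ ?_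
      rw [← Nat.card_eq_fintype_card, hΩ,
        Finset.card_insert_of_notMem (by simp [Ne.symm hzy, Ne.symm hzy']),
        Finset.card_pair (Ne.symm hz)]
    have hmem := Finset.mem_univ (n • n • z)
    rw [← hset] at hmem
    simp only [Finset.mem_insert, Finset.mem_singleton] at hmem
    rcases hmem with h | h | h
    · exact hzy' (hy' _ h)
    · have := hcube n z
      rw [h] at this
      exact hz this
    · exact hz (MulAction.injective n h)
  refine ⟨fun y hy hy1 => le_antisymm (fun n hn => ?_) (fun c hc => ?_), ?_⟩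
  · obtain ⟨hny, hnN⟩ := Subgroup.mem_inf.1 hn
    by_contra hnC
    obtain ⟨j, hj⟩ := IsPGroup.iff_orderOf.1 P.2 ⟨y, hy⟩
    rw [Subgroup.orderOf_mk] at hj
    rcases j with - | j
    · exact hy1 (orderOf_eq_one_iff.1 (by simpa using hj))
    have hz1 : y ^ 2 ^ j * y ^ 2 ^ j = 1 := by
      rw [← pow_add, ← two_mul, ← pow_succ', ← hj, pow_orderOf_eq_one]
    have hz2 : y ^ 2 ^ j ≠ 1 := fun h => by
      have := Nat.le_of_dvd (pow_pos (by norm_num) j) (orderOf_dvd_of_pow_eq_one h)
      rw [hj] at this
      exact absurd this (not_le.2 (Nat.pow_lt_pow_right (by norm_num) (Nat.lt_succ_self j)))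
    refine hfree ⟨n, hnN⟩ hnC ⟨⟨y ^ 2 ^ j, (P : Subgroup G).pow_mem hy _⟩, Subtype.ext hz1,
      fun h => hz2 (congrArg Subtype.val h)⟩ (Subtype.ext (Subtype.ext ?_))
    show n * y ^ 2 ^ j * n⁻¹ = y ^ 2 ^ j
    rw [(show Commute n y from Subgroup.mem_centralizer_singleton_iff.1 hny).pow_right _ |>.eq,
      mul_inv_cancel_right]
  · exact Subgroup.mem_inf.2 ⟨Subgroup.mem_centralizer_singleton_iff.2
      (Subgroup.mem_centralizer_iff.1 hc y hy).symm, hCN hc⟩
  · intro n hn hnC z w hz hzz hz1 hw hww hw1
    let Z : Ω := ⟨⟨z, hz⟩, Subtype.ext hzz, fun h => hz1 (congrArg Subtype.val h)⟩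
    let W : Ω := ⟨⟨w, hw⟩, Subtype.ext hww, fun h => hw1 (congrArg Subtype.val h)⟩
    let k : N := ⟨n, hn⟩
    have h01 : k • Z ≠ Z := hfree k hnC Z
    have h12 : k • k • Z ≠ k • Z := hfree k hnC _
    have h02 : k • k • Z ≠ Z := fun h => h01 (by
      have := hcube k Z
      rw [h] at this
      exact this)
    have hset : ({Z, k • Z, k • k • Z} : Finset Ω) = Finset.univ := by
      refine Finset.eq_univ_of_card _ ?_
      rw [← Nat.card_eq_fintype_card, hΩ,
        Finset.card_insert_of_notMem (by simp [Ne.symm h01, Ne.symm h02]),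
        Finset.card_pair (Ne.symm h12)]
    have := Finset.mem_univ W
    rw [← hset] at this
    simp only [Finset.mem_insert, Finset.mem_singleton] at this
    rcases this with h | h | h
    · exact Or.inl (congrArg (fun v : Ω => ((v.1 : (P : Subgroup G)) : G)) h)
    · exact Or.inr (Or.inl (congrArg (fun v : Ω => ((v.1 : (P : Subgroup G)) : G)) h))
    · exact Or.inr (Or.inr (congrArg (fun v : Ω => ((v.1 : (P : Subgroup G)) : G)) h))

omit P in
/-- Normal subgroups inherit the absence of odd normal subgroups. -/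
theorem odd_normal_eq_bot (hO : ∀ N : Subgroup G, N.Normal → Odd (Nat.card N) → N = ⊥)
    {H : Subgroup G} (hH : H.Normal) {K : Subgroup H} (hK : K.Normal)
    (hodd : Odd (Nat.card K)) : K = ⊥ := by
  haveI : Fact (Nat.Prime 2) := ⟨Nat.prime_two⟩
  haveI := hH
  have hle : K ≤ pPrimeCore 2 H := le_sSup ⟨hK, (Nat.coprime_two_right.2 hodd)⟩
  have hbot : (pPrimeCore 2 H).map H.subtype = ⊥ := hO _ inferInstance (by
    rw [Subgroup.card_map_of_injective H.subtype_injective, Nat.odd_iff]
    have := Core.not_dvd_card_pPrimeCore 2 H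
    omega)
  rw [Subgroup.map_eq_bot_iff_of_injective _ H.subtype_injective] at hbot
  exact le_bot_iff.1 (hle.trans_eq hbot)

/-- Groups without odd normal subgroups and with a self-centralizing Sylow normalizer. -/
theorem eq_top_of_le_centralizer {H : Subgroup G} (hH : H.Normal)
    (hO : ∀ N : Subgroup G, N.Normal → Odd (Nat.card N) → N = ⊥) (hle : (P : Subgroup G) ≤ H)
    (h : ∀ n ∈ H, n ∈ Subgroup.normalizer ((P : Subgroup G) : Set G) →
      n ∈ Subgroup.centralizer ((P : Subgroup G) : Set G)) : H = (P : Subgroup G) := by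
  classical
  haveI : Fact (Nat.Prime 2) := ⟨Nat.prime_two⟩
  let S : Sylow 2 H := P.subtype hle
  have hS : Subgroup.normalizer ((S : Subgroup H) : Set H) ≤
      Subgroup.centralizer ((S : Subgroup H) : Set H) := by
    intro x hx
    have hxN : (x : G) ∈ Subgroup.normalizer ((P : Subgroup G) : Set G) :=
      Subgroup.mem_normalizer_iff.2 fun g => by
        constructor
        · intro hg
          exact (Subgroup.mem_normalizer_iff.1 hx ⟨g, hle hg⟩).1 hg
        · intro hg
          have hgH : g ∈ H := by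
            have := H.mul_mem (H.mul_mem (H.inv_mem x.2) (hle hg)) x.2
            simpa [mul_assoc] using this
          exact (Subgroup.mem_normalizer_iff.1 hx ⟨g, hgH⟩).2 hg
    exact Subgroup.mem_centralizer_iff.2 fun a ha =>
      Subtype.ext (Subgroup.mem_centralizer_iff.1 (h x x.2 hxN) a ha)
  have hK := MonoidHom.ker_transferSylow_isComplement' S hS
  have hKbot : (MonoidHom.transferSylow S hS).ker = ⊥ := odd_normal_eq_bot hO hH inferInstance (by
    rw [← hK.index_eq_card, Nat.odd_iff]
    have := S.not_dvd_index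
    omega)
  rw [hKbot] at hK
  have htop : (S : Subgroup H) = ⊤ := Subgroup.isComplement'_bot_left.1 hK
  refine le_antisymm (fun x hx => ?_) hle
  have : (⟨x, hx⟩ : H) ∈ (S : Subgroup H) := htop ▸ Subgroup.mem_top _
  exact this

/-- Brauer's theorem, by induction on the order. -/
theorem normal_sylow : ∀ (n : ℕ) (G : Type u) [Group G] [Finite G], Nat.card G ≤ n →
    ∀ (P : Sylow 2 G) (m : ℕ), 2 ≤ m →
      Nonempty ((P : Subgroup G) ≃* Multiplicative (ZMod (2 ^ m) × ZMod (2 ^ m))) →
      (∀ N : Subgroup G, N.Normal → Odd (Nat.card N) → N = ⊥) → (P : Subgroup G).Normal := by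
  intro n
  induction n with
  | zero => intro G _ _ h; exact absurd h (by simp [Nat.card_pos.ne'])
  | succ n ih =>
    intro G _ _ hn P m hm he hO
    classical
    obtain ⟨e⟩ := he
    haveI : Fact (Nat.Prime 2) := ⟨Nat.prime_two⟩
    have hab := comm_of_equiv P e
    have hQC := LeadWork.Coherent.le_centralizer P hab
    obtain ⟨h13, h3all⟩ := automizer P (by omega) e
    rcases h13 with h1 | h3
    · have htop := eq_top_of_le_centralizer P (H := ⊤) inferInstance hO le_top
        fun x _ hx => Subgroup.relIndex_eq_one.1 h1 hx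
      rw [← htop]; infer_instance
    obtain ⟨hfrob, horb⟩ := h3all h3
    have hcard : Nat.card (P : Subgroup G) = 2 ^ m * 2 ^ m := by
      rw [Nat.card_congr (e.toEquiv.trans Multiplicative.toAdd), Nat.card_prod, Nat.card_zmod]
    have h16 : 4 < Nat.card (P : Subgroup G) := by
      have := Nat.pow_le_pow_right (show 2 > 0 by norm_num) hm
      rw [hcard]; nlinarith
    obtain ⟨g, hgN, hgC⟩ : ∃ g ∈ Subgroup.normalizer ((P : Subgroup G) : Set G),
        g ∉ Subgroup.centralizer ((P : Subgroup G) : Set G) := by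
      by_contra hno
      push Not at hno
      have := Subgroup.relIndex_eq_one.2 (show Subgroup.normalizer ((P : Subgroup G) : Set G) ≤
        Subgroup.centralizer ((P : Subgroup G) : Set G) from hno)
      omega
    haveI : Nontrivial G := by
      refine ⟨g, 1, fun h => hgC (h ▸ one_mem _)⟩
    obtain ⟨N0, hN0⟩ := Core.exists_isMinNormal (G := G)
    haveI := hN0.1
    by_cases hs : Group.IsSolvable N0
    · -- an abelian minimal normal subgroup
      obtain ⟨hN0c, q, hq, hexp, hqg⟩ := hN0.elementaryAbelian hs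
      haveI := Fact.mk hq
      have hq2 : q = 2 := by
        by_contra hne
        refine hN0.2.1 (hO N0 hN0.1 ?_)
        obtain ⟨k, hk⟩ := IsPGroup.iff_card.1 hqg
        rw [hk]
        exact (hq.odd_of_ne_two hne).pow
      subst hq2
      have hle : N0 ≤ (P : Subgroup G) := by
        obtain ⟨S, hS⟩ := hqg.exists_le_sylow
        obtain ⟨b, hb⟩ := MulAction.exists_smul_eq G S P
        intro x hx
        rw [← hb, Sylow.coe_subgroup_smul]
        exact ⟨b⁻¹ * x * b, hS (by simpa using hN0.1.conj_mem x hx b⁻¹), by simp [mul_assoc]⟩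
      obtain ⟨z, hz, hz1⟩ : ∃ z ∈ N0, z ≠ 1 := by
        by_contra hno
        push Not at hno
        exact hN0.2.1 ((Subgroup.eq_bot_iff_forall _).2 hno)
      have hzz : z * z = 1 := by rw [← sq]; exact hexp z hz
      have hall : ∀ w ∈ (P : Subgroup G), w * w = 1 → w ∈ N0 := by
        intro w hw hww
        by_cases hw1 : w = 1
        · subst hw1; exact one_mem _
        rcases horb g hgN hgC z w (hle hz) hzz hz1 hw hww hw1 with h | h | h <;> rw [h]
        · exact hz
        · exact hN0.1.conj_mem z hz g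
        · exact hN0.1.conj_mem _ (hN0.1.conj_mem z hz g) g
      have hnorm : (Subgroup.centralizer (N0 : Set G)).Normal := inferInstance
      have hPC : (P : Subgroup G) ≤ Subgroup.centralizer (N0 : Set G) := fun a ha =>
        Subgroup.mem_centralizer_iff.2 fun b hb =>
          congrArg Subtype.val (hab.1.1 (⟨b, hle hb⟩ : (P : Subgroup G)) ⟨a, ha⟩)
      have := eq_top_of_le_centralizer P hnorm hO hPC fun x hx hxN =>
        mem_centralizer_of_fix P (by omega) e hxN fun y hy hyy => by
          rw [← Subgroup.mem_centralizer_iff.1 hx y (hall y hy hyy), mul_inv_cancel_right]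
      rw [← this]; exact hnorm
    -- a nonabelian one
    have hPN : (P : Subgroup G) ≤ N0 := by
      have hle : (P : Subgroup G) ≤ N0 ⊔ (P : Subgroup G) := le_sup_right
      by_cases hex : ∀ x ∈ N0 ⊔ (P : Subgroup G),
          x ∈ Subgroup.normalizer ((P : Subgroup G) : Set G) →
            x ∈ Subgroup.centralizer ((P : Subgroup G) : Set G)
      · exfalso
        set H := N0 ⊔ (P : Subgroup G) with hH
        let S : Sylow 2 H := P.subtype hle
        have hS : Subgroup.normalizer ((S : Subgroup H) : Set H) ≤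
            Subgroup.centralizer ((S : Subgroup H) : Set H) := by
          intro x hx
          have hxN : (x : G) ∈ Subgroup.normalizer ((P : Subgroup G) : Set G) :=
            Subgroup.mem_normalizer_iff.2 fun g => by
              constructor
              · intro hg
                exact (Subgroup.mem_normalizer_iff.1 hx ⟨g, hle hg⟩).1 hg
              · intro hg
                have hgH : g ∈ H := by
                  have := H.mul_mem (H.mul_mem (H.inv_mem x.2) (hle hg)) x.2
                  simpa [mul_assoc] using this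
                exact (Subgroup.mem_normalizer_iff.1 hx ⟨g, hgH⟩).2 hg
          exact Subgroup.mem_centralizer_iff.2 fun a ha =>
            Subtype.ext (Subgroup.mem_centralizer_iff.1 (hex x x.2 hxN) a ha)
        have hK := MonoidHom.ker_transferSylow_isComplement' S hS
        let f : N0 →* (S : Subgroup H) :=
          (MonoidHom.transferSylow S hS).comp (Subgroup.inclusion le_sup_left)
        have hker : f.ker = ⊥ := by
          refine odd_normal_eq_bot hO hN0.1 inferInstance ?_
          have hdvd : Nat.card f.ker ∣ Nat.card (MonoidHom.transferSylow S hS).ker := by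
            let j : f.ker →* (MonoidHom.transferSylow S hS).ker :=
              { toFun := fun x => ⟨Subgroup.inclusion le_sup_left x.1, x.2⟩
                map_one' := rfl
                map_mul' := fun _ _ => rfl }
            refine Subgroup.card_dvd_of_injective j fun a b h => ?_
            exact Subtype.ext (Subgroup.inclusion_injective le_sup_left (congrArg Subtype.val h))
          rw [← hK.index_eq_card] at hdvd
          rw [Nat.odd_iff]
          have := S.not_dvd_index
          rcases Nat.mod_two_eq_zero_or_one (Nat.card f.ker) with h | h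
          · exact absurd ((Nat.dvd_of_mod_eq_zero h).trans hdvd) this
          · exact h
        have hinj : Function.Injective f := (MonoidHom.ker_eq_bot_iff f).1 hker
        have hp := IsPGroup.of_injective S.2 f hinj
        haveI := hp.isNilpotent
        exact hs inferInstance
      · push Not at hex
        obtain ⟨x, hx, hxN, hxC⟩ := hex
        letI : CommGroup (P : Subgroup G) :=
          { (inferInstance : Group (P : Subgroup G)) with mul_comm := fun a b => hab.1.1 a b }
        let f : (P : Subgroup G) →* (P : Subgroup G) :=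
          LeadWork.Coherent.act _ ⟨x, hxN⟩ * (MonoidHom.id _)⁻¹
        have hf : Function.Injective f := (injective_iff_map_eq_one _).2 fun a ha =>
          by_contra fun ha1 => hxC <| by
            rw [← hfrob a a.2 fun h => ha1 (Subtype.ext h)]
            exact Subgroup.mem_inf.2 ⟨Subgroup.mem_centralizer_singleton_iff.2
              (mul_inv_eq_iff_eq_mul.1 (congrArg Subtype.val (mul_inv_eq_one.1 ha))), hxN⟩
        intro y hy
        obtain ⟨a, ha⟩ := Finite.surjective_of_injective hf ⟨y, hy⟩
        rw [← show ((f a : (P : Subgroup G)) : G) = y from congrArg Subtype.val ha]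
        show x * (a : G) * x⁻¹ * (a : G)⁻¹ ∈ N0
        rw [Subgroup.sup_eq_closure_mul] at hx
        rw [← Subgroup.sup_eq_closure_mul, ← SetLike.mem_coe, Subgroup.normal_mul] at hx
        obtain ⟨c, hc, r, hr, rfl⟩ := hx
        have hcomm : r * (a : G) * r⁻¹ = a := by
          rw [show r * (a : G) = a * r from
            congrArg Subtype.val (hab.1.1 (⟨r, hr⟩ : (P : Subgroup G)) a), mul_inv_cancel_right]
        have : c * r * (a : G) * (c * r)⁻¹ * (a : G)⁻¹ = c * ((a : G) * c⁻¹ * (a : G)⁻¹) := by
          calc c * r * (a : G) * (c * r)⁻¹ * (a : G)⁻¹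
              = c * (r * (a : G) * r⁻¹) * c⁻¹ * (a : G)⁻¹ := by group
            _ = _ := by rw [hcomm]; group
        rw [this]
        exact N0.mul_mem hc (hN0.1.conj_mem _ (N0.inv_mem hc) a)
    by_cases htop : N0 = ⊤
    · -- the simple case
      exfalso
      obtain ⟨M, hMmax, hpM⟩ := DegreeGraph.exists_isMaximal_mem 2
      have hM : IsPModular 2 M := ⟨Nat.prime_two, hMmax, hpM⟩
      obtain ⟨D⟩ := LeadWork.Coherent.exists_data (G := G) 2
        M
        hM P hab (by omega) 3 (by norm_num)
        (by omega) h3 hfrob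
      obtain ⟨-, hX3, -⟩ := LeadWork.Coherent.normal_form
        hM P D
      obtain ⟨one, hone, hone1⟩ := D.one_mem
      obtain ⟨b, c, hbc, hX'⟩ : ∃ b c : IrrCharacter G, b ≠ c ∧ D.X \ {one} = {b, c} := by
        refine Set.ncard_eq_two.1 ?_
        rw [Set.ncard_sdiff_singleton_of_mem hone, ← Nat.card_coe_set_eq, hX3]
      have hbX : b ∈ D.X ∧ b ≠ one := (Set.ext_iff.1 hX' b).2 (Or.inl rfl)
      have hcX : c ∈ D.X ∧ c ≠ one := (Set.ext_iff.1 hX' c).2 (Or.inr rfl)
      have hX : D.X = {one, b, c} := by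
        rw [show ({one, b, c} : Set (IrrCharacter G)) = insert one {b, c} from rfl, ← hX',
          Set.insert_sdiff_singleton, Set.insert_eq_of_mem hone]
      obtain ⟨η, hη⟩ : D.Y.Nonempty := by
        by_contra hY
        have := D.card_Y
        rw [Set.not_nonempty_iff_eq_empty.1 hY] at this
        have := D.two_le
        simp at *
        omega
      obtain ⟨t, ht⟩ := exists_prime_orderOf_dvd_card' 2 (G := G) (by
        refine dvd_trans ?_ (Subgroup.card_subgroup_dvd_card (P : Subgroup G))
        rw [hcard]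
        exact dvd_mul_of_dvd_left (dvd_pow_self 2 (by omega)) _)
      refine S4721.even_false hM P hab h3 hfrob D
        rfl ht (fun K hK htK => ?_) hX hone1 hbX.2.symm hcX.2.symm hbc hη
      rcases hN0.2.2 K hK (htop ▸ le_top) with h | h
      · subst h
        rw [Subgroup.mem_bot] at htK
        simp [htK] at ht
      · exact h.trans htop
    · have hlt : Nat.card N0 < Nat.card G := lt_of_le_of_ne (Subgroup.card_le_card_group N0)
        fun h => htop (Subgroup.eq_top_of_card_eq N0 h)
      have hnormal : ((P.subtype hPN : Sylow 2 N0) : Subgroup N0).Normal :=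
        ih N0 (by omega) (P.subtype hPN) m hm
          ⟨(Subgroup.subgroupOfEquivOfLe hPN).trans e⟩
          fun K hK hodd => odd_normal_eq_bot hO hN0.1 hK hodd
      haveI := Sylow.characteristic_of_normal (P.subtype hPN) hnormal
      have hmap : (((P.subtype hPN : Sylow 2 N0) : Subgroup N0)).map N0.subtype =
          (P : Subgroup G) := by
        show ((P : Subgroup G).subgroupOf N0).map N0.subtype = _
        rw [Subgroup.subgroupOf_map_subtype, inf_eq_left.2 hPN]
      rw [← hmap]
      infer_instance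

/-- Let the finite group G have a Sylow 2-subgroup P isomorphic to Z/2^m × Z/2^m with m ≥ 2, and suppose G has no nontrivial normal subgroup of odd order. Then P is normal in G, C_G(P) = P, and the index of P is 1 or 3. -/
theorem result {G : Type*} [Group G] [Finite G] (P : Sylow 2 G) (m : ℕ) (hm : 2 ≤ m) (e : (P : Subgroup G) ≃* Multiplicative (ZMod (2 ^ m) × ZMod (2 ^ m))) (hO : ∀ N : Subgroup G, N.Normal → Odd (Nat.card N) → N = ⊥) : (P : Subgroup G).Normal ∧ Subgroup.centralizer (P : Set G) = (P : Subgroup G) ∧ ((P : Subgroup G).index = 1 ∨ (P : Subgroup G).index = 3) := by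
  classical
  haveI : Fact (Nat.Prime 2) := ⟨Nat.prime_two⟩
  have hn : (P : Subgroup G).Normal := normal_sylow (Nat.card G) G le_rfl P m hm ⟨e⟩ hO
  have hab := comm_of_equiv P e
  have hQC := LeadWork.Coherent.le_centralizer P hab
  haveI := hn
  have hC : Subgroup.centralizer ((P : Subgroup G) : Set G) = (P : Subgroup G) :=
    eq_top_of_le_centralizer P inferInstance hO hQC fun x hx _ => hx
  refine ⟨hn, hC, ?_⟩
  have hN : Subgroup.normalizer ((P : Subgroup G) : Set G) = ⊤ := Subgroup.normalizer_eq_top _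
  have h := (automizer P (by omega) e).1
  rwa [hN, hC, Subgroup.relIndex_top_right] at h

end Cfsg.Agent.S0949
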