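import Cfsg.Statements.S0951
import Cfsg.Agent.Chars2.QCount
import Cfsg.Agent.Chars2.QGroup

set_option autoImplicit false
open Cfsg

namespace Cfsg.Agent.S0951

/-- Let S be a Sylow 2-subgroup of the finite group G isomorphic to the quaternion group of order 8. Suppose G has no nontrivial normal subgroup of odd order and G ≠ S. Then, relative to any maximal ideal M of the algebraic integers containing 2, the principal block of G consists of exactly 7 irreducible characters. -/
theorem result {G : Type*} [Group G] [Finite G] (M : Ideal Cfsg.AlgInt) (hM : Cfsg.IsPModular 2 M) (S : Sylow 2 G) (e : (S : Subgroup G) ≃* QuaternionGroup 2) (hO : ∀ N : Subgroup G, N.Normal → Odd (Nat.card N) → N = ⊥) (hG : (S : Subgroup G) ≠ ⊤) : Nat.card (Cfsg.principalBlock M G) = 7 := by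
  haveI : M.IsMaximal := hM.2.1
  have f := Chars2.q8Facts _ e
  have hres : pResidual 2 G = ⊤ := by
    by_contra hres
    haveI : Fact (Nat.Prime 2) := ⟨Nat.prime_two⟩
    have hsup := Transfer.sylow_sup_pResidual S
    by_cases hSR : (S : Subgroup G) ≤ pResidual 2 G
    · rw [sup_eq_right.2 hSR] at hsup; exact hres hsup
    haveI : (pResidual 2 G).Normal := Transfer.pResidual_normal
    rw [sup_eq_left.2 (Chars2.le_sylow_of_not_le S f hO hSR)] at hsup
    exact hG hsup
  obtain ⟨i, hiS, hset⟩ := Chars2.setting_of_residual S f hres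
  haveI : Fintype G := Fintype.ofFinite G
  have hz : ∀ g : G, Commute g (i ^ 2) := fun g => by
    have := Chars2.involution_central_q8 _ le_rfl S f hO (i ^ 2) (pow_mem hiS 2) hset.ord_z g
    exact (mul_inv_eq_iff_eq_mul.1 this)
  exact hset.card_principalBlock hz hM.2.2

end Cfsg.Agent.S0951
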