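import Cfsg.Statements.S0952
import Cfsg.Agent.Blocks.Orth
-- import your own Cfsg.Agent.* helpers here

set_option autoImplicit false
open scoped ComplexConjugate
open Cfsg

namespace Cfsg.Agent.S0952

/-- Let χ and ψ be irreducible characters of the finite group G lying in different blocks relative to a maximal ideal M of the algebraic integers containing the prime p. Then the sum of χ x * conj (ψ x) over the elements x of order prime to p is zero. -/
theorem result {G : Type*} [Group G] [Finite G] (p : ℕ) [Fact p.Prime] (M : Ideal Cfsg.AlgInt) (hM : Cfsg.IsPModular p M) (χ ψ : Cfsg.IrrCharacter G) (h : ¬ Cfsg.SameBlock M (χ : G → ℂ) (ψ : G → ℂ)) : ∑ᶠ x ∈ {x : G | ¬ p ∣ orderOf x}, (χ : G → ℂ) x * conj ((ψ : G → ℂ) x) = 0 := by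
  haveI := hM.2.1
  haveI := Fintype.ofFinite G
  classical
  have h0 := Cfsg.Agent.Blocks.regInner_eq_zero (p := p) hM.2.2 h
  rw [Cfsg.Agent.Blocks.regInner, mul_eq_zero, inv_eq_zero,
    or_iff_right Cfsg.Agent.Chars.card_ne_zero] at h0
  rw [← h0]
  exact finsum_mem_eq_sum_of_inter_support_eq _ (by ext x; simp [Cfsg.Agent.Blocks.mem_regs])

end Cfsg.Agent.S0952
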