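import Cfsg.Statements.S0957
import Cfsg.Agent.Blocks.SylowIn
-- import your own Cfsg.Agent.* helpers here

set_option autoImplicit false
open Cfsg

namespace Cfsg.Agent.S0957

/-- Let P be a Sylow p-subgroup of the finite group G, let g, h ∈ G and let p ^ d be the order of a Sylow p-subgroup of the centralizer of g. Then the number of pairs (y, z) with y conjugate to g, z conjugate to h and z * y⁻¹ ∈ P is divisible by the order of P divided by p ^ d. -/
theorem result {G : Type*} [Group G] [Finite G] (p : ℕ) [Fact p.Prime] (P : Sylow p G) (g h : G) (S : Sylow p (Subgroup.centralizer ({g} : Set G))) : Nat.card P / Nat.card S ∣ Nat.card {yz : G × G // IsConj g yz.1 ∧ IsConj h yz.2 ∧ yz.2 * yz.1⁻¹ ∈ (P : Subgroup G)} := by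
  classical
  haveI := Fintype.ofFinite G
  let X := {yz : G × G // IsConj g yz.1 ∧ IsConj h yz.2 ∧ yz.2 * yz.1⁻¹ ∈ (P : Subgroup G)}
  have hstab : ∀ (q : (P : Subgroup G)) (x : X), IsConj g ((q : G) * x.1.1 * (q : G)⁻¹) ∧
      IsConj h ((q : G) * x.1.2 * (q : G)⁻¹) ∧
      ((q : G) * x.1.2 * (q : G)⁻¹) * ((q : G) * x.1.1 * (q : G)⁻¹)⁻¹ ∈ (P : Subgroup G) := by
    intro q x
    refine ⟨x.2.1.trans (isConj_iff.2 ⟨q, rfl⟩), x.2.2.1.trans (isConj_iff.2 ⟨q, rfl⟩), ?_⟩
    rw [show ((q : G) * x.1.2 * (q : G)⁻¹) * ((q : G) * x.1.1 * (q : G)⁻¹)⁻¹ =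
      (q : G) * (x.1.2 * x.1.1⁻¹) * (q : G)⁻¹ by group]
    exact Subgroup.mul_mem _ (Subgroup.mul_mem _ q.2 x.2.2.2) (Subgroup.inv_mem _ q.2)
  letI : MulAction (P : Subgroup G) X :=
    { smul := fun q x => ⟨((q : G) * x.1.1 * (q : G)⁻¹, (q : G) * x.1.2 * (q : G)⁻¹), hstab q x⟩
      one_smul := fun x => Subtype.ext (by
        show (((1 : (P : Subgroup G)) : G) * x.1.1 * ((1 : (P : Subgroup G)) : G)⁻¹,
          ((1 : (P : Subgroup G)) : G) * x.1.2 * ((1 : (P : Subgroup G)) : G)⁻¹) = x.1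
        simp)
      mul_smul := fun a b x => Subtype.ext (by
        show (((a * b : (P : Subgroup G)) : G) * x.1.1 * ((a * b : (P : Subgroup G)) : G)⁻¹,
            ((a * b : (P : Subgroup G)) : G) * x.1.2 * ((a * b : (P : Subgroup G)) : G)⁻¹) =
          ((a : G) * ((b : G) * x.1.1 * (b : G)⁻¹) * (a : G)⁻¹,
            (a : G) * ((b : G) * x.1.2 * (b : G)⁻¹) * (a : G)⁻¹)
        simp [mul_assoc]) }
  haveI : Fintype X := Fintype.ofFinite X
  haveI : Fintype (MulAction.orbitRel.Quotient (P : Subgroup G) X) := Fintype.ofFinite _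
  rw [show Nat.card X = Nat.card (Σ O : MulAction.orbitRel.Quotient (P : Subgroup G) X,
      MulAction.orbit (P : Subgroup G) O.out) from
    Nat.card_congr (MulAction.selfEquivSigmaOrbits (P : Subgroup G) X), Nat.card_sigma]
  refine Finset.dvd_sum fun O _ => ?_
  set x := Quotient.out O
  rw [show Nat.card (MulAction.orbit (P : Subgroup G) x) =
    (MulAction.stabilizer (P : Subgroup G) x).index from
      (MulAction.index_stabilizer (P : Subgroup G) x).symm ▸ (Nat.card_coe_set_eq _)]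
  set T := MulAction.stabilizer (P : Subgroup G) x
  obtain ⟨c, hc⟩ := isConj_iff.1 x.2.1
  have hSS : Cfsg.Agent.Blocks.IsSylowIn p (Subgroup.centralizer ({x.1.1} : Set G))
      (((S : Subgroup _).map (Subgroup.centralizer ({g} : Set G)).subtype).map
        (MulAut.conj c).toMonoidHom) := by
    have h0 := Cfsg.Agent.Blocks.isSylowIn_conj (Cfsg.Agent.Blocks.isSylowIn_map _ S) c
    rwa [Cfsg.Agent.Blocks.centralizer_singleton_conj g c, hc] at h0
  have hdvd : Nat.card T ∣ Nat.card S := by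
    have h1 := Cfsg.Agent.Blocks.isSylowIn_card_le hSS
      (Q := T.map (P : Subgroup G).subtype) (by
        rintro _ ⟨q, hq, rfl⟩
        rw [Subgroup.mem_centralizer_singleton_iff]
        exact mul_inv_eq_iff_eq_mul.1 (congrArg (fun y : X => y.1.1) hq))
      ((P.isPGroup'.to_subgroup T).map _)
    have h2 : ∀ D : Subgroup G, Nat.card (D.map (MulAut.conj c).toMonoidHom) = Nat.card D :=
      fun D => Nat.card_congr (D.equivMapOfInjective _ (MulAut.conj c).injective).toEquiv.symm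
    rwa [h2, Cfsg.Agent.Blocks.card_map_subtype, Cfsg.Agent.Blocks.card_map_subtype] at h1
  have h5 : Nat.card S ∣ Nat.card (P : Subgroup G) := by
    rw [P.card_eq_multiplicity, S.card_eq_multiplicity]
    exact pow_dvd_pow p ((Nat.factorization_le_iff_dvd Nat.card_pos.ne' Nat.card_pos.ne').2
      (Subgroup.card_subgroup_dvd_card _) p)
  exact (Nat.dvd_div_iff_mul_dvd (dvd_trans hdvd h5)).2 (by
    rw [← Nat.mul_div_assoc _ h5]
    obtain ⟨e, he⟩ := h5
    rw [he, mul_left_comm, Nat.mul_div_cancel_left _ Nat.card_pos, ← he]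
    exact (Nat.mul_dvd_mul hdvd (dvd_refl e)).trans (dvd_of_eq he.symm)) |>.trans
      (dvd_of_eq (by rw [← Subgroup.card_mul_index T, Nat.mul_div_cancel_left _ Nat.card_pos]))

end Cfsg.Agent.S0957
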