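import Cfsg.Statements.S0959
import Cfsg.Agent.Blocks.Defect
-- import your own Cfsg.Agent.* helpers here

set_option autoImplicit false
open Cfsg

namespace Cfsg.Agent.S0959

/-- Let B be a block of the finite group G with defect group D (relative to a maximal ideal M of the algebraic integers containing the prime p), and let P be a p-subgroup. Then there is an element g whose idempotent coefficient for B is a local integer outside the local ideal at M and which has a conjugate centralizing P, if and only if some conjugate of P is contained in D. -/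
theorem result {G : Type*} [Group G] [Finite G] (p : ℕ) [Fact p.Prime] (M : Ideal Cfsg.AlgInt) (hM : Cfsg.IsPModular p M) (B : Set (Cfsg.IrrCharacter G)) (hB : Cfsg.IsPBlock M B) (D : Subgroup G) (hD : Cfsg.IsDefectGroup p M B D) (P : Subgroup G) (hP : IsPGroup p P) : (∃ g : G, Cfsg.MemLocalRing M (Cfsg.blockCoeff B g) ∧ ¬ Cfsg.MemLocalIdeal M (Cfsg.blockCoeff B g) ∧ ∃ c : G, IsConj g c ∧ c ∈ Subgroup.centralizer (P : Set G)) ↔ ∃ x : G, P.map (MulAut.conj x).toMonoidHom ≤ D := by
  haveI := hM.2.1
  haveI := Fintype.ofFinite G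
  constructor
  · rintro ⟨g, -, hu, c, hgc, hc⟩
    refine Cfsg.Agent.Blocks.le_defect_of_coeff hM.2.2 hB hD (h := c) ?_ hP hc
    rwa [Cfsg.Agent.Blocks.isClassFunction_eq (Cfsg.Agent.Blocks.isClassFunction_blockCoeff B) hgc]
  · rintro ⟨x, hx⟩
    obtain ⟨g, hg, hgD⟩ := Cfsg.Agent.Blocks.isDefectGroup_iff.1 hD
    refine ⟨g, hg.1, hg.2.1, x⁻¹ * g * x, isConj_iff.2 ⟨x⁻¹, by group⟩, ?_⟩
    apply Cfsg.Agent.Blocks.le_centralizer_singleton_iff.1
    have h1 := Cfsg.Agent.Blocks.conjSub_mono x⁻¹ (hx.trans hgD.1)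
    rw [Cfsg.Agent.Blocks.conjSub_inv_cancel, Cfsg.Agent.Blocks.conjSub_centralizer] at h1
    simpa using h1

end Cfsg.Agent.S0959
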