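import Cfsg.Statements.S0962
import Cfsg.Agent.Blocks.Defect
-- import your own Cfsg.Agent.* helpers here

set_option autoImplicit false
open Cfsg

namespace Cfsg.Agent.S0962

/-- Fix a maximal ideal M of the algebraic integers containing the prime p and a natural number d. The number of blocks of the finite group G of defect at least d is at most the number of conjugacy classes of p-regular elements of G of defect at least d, where the defect of a class is the exponent of p in the order of the centralizer of any of its elements. -/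
theorem result {G : Type*} [Group G] [Finite G] (p : ℕ) [Fact p.Prime] (M : Ideal Cfsg.AlgInt) (hM : Cfsg.IsPModular p M) (d : ℕ) : Nat.card {B : Set (Cfsg.IrrCharacter G) // Cfsg.IsPBlock M B ∧ d ≤ Cfsg.blockDefect p B} ≤ Nat.card {C : ConjClasses G // ∃ g : G, ConjClasses.mk g = C ∧ Cfsg.IsPRegular p g ∧ d ≤ (Nat.card (Subgroup.centralizer ({g} : Set G))).factorization p} := by
  classical
  haveI := hM.2.1
  haveI := Fintype.ofFinite G
  have hpM := hM.2.2
  let S := {B : Set (Cfsg.IrrCharacter G) // Cfsg.IsPBlock M B ∧ d ≤ Cfsg.blockDefect p B}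
  let K := {C : ConjClasses G // ∃ g : G, ConjClasses.mk g = C ∧ Cfsg.IsPRegular p g ∧
    d ≤ (Nat.card (Subgroup.centralizer ({g} : Set G))).factorization p}
  haveI : Finite (Set (Cfsg.IrrCharacter G)) := inferInstance
  haveI : Fintype S := Fintype.ofFinite S
  haveI : Fintype K := Fintype.ofFinite K
  open Cfsg.Agent.Blocks in
  let r : ConjClasses G → G := clsRep
  have hch : ∀ B : S, ∃ χ : Cfsg.IrrCharacter G, χ ∈ B.1 ∧
      Cfsg.blockHeight p B.1 (χ : G → ℂ) = 0 := fun B =>
    Cfsg.Agent.Blocks.exists_height_zero B.2.1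
  choose ψ hψ hψ0 using hch
  let v : S → K → Cfsg.Agent.Blocks.Res M := fun B C =>
    Cfsg.Agent.Blocks.residue M ⟨_, Cfsg.Agent.Blocks.centralChar_memR hpM (ψ B) (r C.1)⟩
  let a : S → ConjClasses G → Cfsg.Agent.Blocks.loc M := fun B C =>
    ⟨_, Cfsg.Agent.Blocks.rFun_blockCoeff hpM B.2.1 (r C)⟩
  have key : ∀ B B' : S, ∑ C : K, Cfsg.Agent.Blocks.residue M (a B' C.1) * v B C =
      if B = B' then 1 else 0 := by
    intro B B'
    have h1 : Cfsg.Agent.Blocks.omega ((ψ B : Cfsg.IrrCharacter G) : G → ℂ) (Cfsg.blockCoeff B'.1) =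
        if B = B' then 1 else 0 := by
      split_ifs with he
      · exact Cfsg.Agent.Blocks.omega_blockCoeff_mem (he ▸ hψ B)
      · exact Cfsg.Agent.Blocks.omega_blockCoeff_not_mem fun h => he
          (Subtype.ext (Cfsg.Agent.Blocks.blocks_eq_of_inter B.2.1 B'.2.1 (hψ B) h))
    rw [Cfsg.Agent.Blocks.omega_eq_sum_clsFun (Cfsg.Agent.Chars.isClassFunction_irr _)
      (Cfsg.Agent.Blocks.isClassFunction_blockCoeff _)] at h1
    let F : ConjClasses G → Cfsg.Agent.Blocks.loc M := fun C =>
      a B' C * ⟨_, Cfsg.Agent.Blocks.centralChar_memR hpM (ψ B) (r C)⟩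
    have h2 : ∑ C, F C = if B = B' then 1 else 0 := by
      apply Subtype.ext
      rw [AddSubmonoidClass.coe_finsetSum]
      refine h1.trans ?_
      split_ifs <;> rfl
    have h3 := congrArg (Cfsg.Agent.Blocks.residue M) h2
    rw [map_sum, apply_ite (Cfsg.Agent.Blocks.residue M), map_one, map_zero] at h3
    rw [← h3]
    have h4 : ∀ C : K, Cfsg.Agent.Blocks.residue M (a B' C.1) * v B C =
        Cfsg.Agent.Blocks.residue M (F C.1) := fun C => (map_mul _ _ _).symm
    rw [Finset.sum_congr rfl fun C _ => h4 C,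
      ← Finset.sum_subtype (Finset.univ.filter fun C : ConjClasses G => ∃ g : G,
        ConjClasses.mk g = C ∧ Cfsg.IsPRegular p g ∧
        d ≤ (Nat.card (Subgroup.centralizer ({g} : Set G))).factorization p) (by simp)
        (fun C => Cfsg.Agent.Blocks.residue M (F C))]
    refine Finset.sum_subset (Finset.subset_univ _) fun C _ hC => ?_
    rw [Cfsg.Agent.Blocks.residue_eq_zero_iff]
    show Cfsg.MemLocalIdeal M (Cfsg.blockCoeff B'.1 (r C) * Cfsg.centralChar _ (r C))
    by_cases hreg : p ∣ orderOf (r C)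
    · rw [Cfsg.Agent.Blocks.blockCoeff_eq_zero_of_dvd hpM B'.2.1 hreg, zero_mul]
      exact Cfsg.Agent.Blocks.memI_zero
    · refine Cfsg.Agent.Blocks.memI_mul_left (Cfsg.Agent.Blocks.rFun_blockCoeff hpM B'.2.1 _) ?_
      by_contra hu
      apply hC
      refine Finset.mem_filter.2 ⟨Finset.mem_univ _, r C, Cfsg.Agent.Blocks.mk_clsRep C, hreg, ?_⟩
      have h5 := Cfsg.Agent.Blocks.factorization_index_le hpM _ hu
      have h6 := Cfsg.Agent.Blocks.degree_eq_height hpM B.2.1 (hψ B)
      have h7 := Cfsg.Agent.Blocks.index_factorization (p := p) (r C)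
      have h8 := B.2.2
      rw [hψ0] at h6
      omega
  have hli : LinearIndependent (Cfsg.Agent.Blocks.Res M) v := by
    rw [Fintype.linearIndependent_iff]
    intro c hc B'
    have h1 : ∑ C : K, Cfsg.Agent.Blocks.residue M (a B' C.1) * (∑ B, c B • v B) C = c B' := by
      simp only [Finset.sum_apply, Pi.smul_apply, smul_eq_mul, Finset.mul_sum]
      rw [Finset.sum_comm]
      rw [Finset.sum_congr rfl fun B _ => show _ = c B * (if B = B' then 1 else 0) by
        rw [← key B B', Finset.mul_sum]
        exact Finset.sum_congr rfl fun C _ => mul_left_comm _ _ _]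
      rw [Finset.sum_eq_single B' (fun b _ hb => by rw [if_neg hb, mul_zero]) (by simp), if_pos rfl,
        mul_one]
    rw [← h1, hc]
    simp
  have := hli.fintype_card_le_finrank
  rw [Module.finrank_pi] at this
  show Nat.card S ≤ Nat.card K
  rw [Nat.card_eq_fintype_card, Nat.card_eq_fintype_card]
  exact this

end Cfsg.Agent.S0962
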