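import Cfsg.Statements.S0967
import Cfsg.Agent.Blocks.Covering
import Cfsg.Agent.Core.Cores
-- import your own Cfsg.Agent.* helpers here

set_option autoImplicit false
open Cfsg

namespace Cfsg.Agent.S0967

/-- Let N be a normal subgroup of the finite group G of order prime to p and fix a maximal ideal M of the algebraic integers containing p. If χ is an irreducible character of G ⧸ N and ψ lies in the block of its inflation χ ∘ (quotient map), then ψ is itself inflated from an irreducible character ψ' of G ⧸ N lying in the block of χ. (Over a normal p'-subgroup, blocks of the quotient are whole blocks of G.) -/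
theorem result {G : Type*} [Group G] [Finite G] (p : ℕ) [Fact p.Prime] (M : Ideal Cfsg.AlgInt) (hM : Cfsg.IsPModular p M) (N : Subgroup G) [N.Normal] (hN : ¬ p ∣ Nat.card N) (χ : Cfsg.IrrCharacter (G ⧸ N)) (ψ : Cfsg.IrrCharacter G) (hψ : ψ ∈ Cfsg.blockOf M ((χ : G ⧸ N → ℂ) ∘ QuotientGroup.mk)) : ∃ ψ' : Cfsg.IrrCharacter (G ⧸ N), (ψ : G → ℂ) = (ψ' : G ⧸ N → ℂ) ∘ QuotientGroup.mk ∧ Cfsg.SameBlock M (χ : G ⧸ N → ℂ) (ψ' : G ⧸ N → ℂ) := by
  classical
  obtain ⟨hp', hMax, hpM⟩ := hM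
  haveI := hMax
  letI := Fintype.ofFinite G
  letI := Fintype.ofFinite N
  have hinfl : Cfsg.IsIrrCharacter G ((χ : G ⧸ N → ℂ) ∘ QuotientGroup.mk) :=
    Chars.isIrrCharacter_comp_surjective χ.2 (QuotientGroup.mk' N) (QuotientGroup.mk'_surjective N)
  have htriv := Blocks.trivial_of_sameBlock hpM hN (χ := ⟨_, hinfl⟩) (ψ := ψ) hψ
    (fun n : N => by
      show (χ : G ⧸ N → ℂ) (QuotientGroup.mk (n : G)) = (χ : G ⧸ N → ℂ) (QuotientGroup.mk 1)
      rw [(QuotientGroup.eq_one_iff (n : G)).2 n.2, QuotientGroup.mk_one])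
  obtain ⟨ψ', hψ'⟩ := Blocks.exists_descend (N := N) ψ.2 (fun n hn => htriv ⟨n, hn⟩)
  refine ⟨ψ', hψ', Blocks.sameBlock_descend hpM hN ?_⟩
  rw [← hψ']
  exact hψ

end Cfsg.Agent.S0967
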