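import Cfsg.Statements.S0971
import Cfsg.Agent.Blocks.Covering
import Cfsg.Agent.DegreeGraph.NormalP
-- import your own Cfsg.Agent.* helpers here

set_option autoImplicit false
open Cfsg

namespace Cfsg.Agent.S0971

/-- Let Q be a normal p-subgroup of the finite group G, let N = Q ⊔ C_G(Q) (a normal subgroup) and let b be a block of N relative to a maximal ideal M of the algebraic integers containing p. Then b induces some block of G, and every block B of G containing a character whose restriction to N has a constituent in b is induced by b. -/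
theorem result {G : Type*} [Group G] [Fintype G] (p : ℕ) [Fact p.Prime] (M : Ideal Cfsg.AlgInt) (hM : Cfsg.IsPModular p M) (Q : Subgroup G) [Q.Normal] (hQ : IsPGroup p Q) [Fintype ↥(Q ⊔ Subgroup.centralizer (Q : Set G))] (b : Set (Cfsg.IrrCharacter ↥(Q ⊔ Subgroup.centralizer (Q : Set G)))) (hb : Cfsg.IsPBlock M b) : Cfsg.InducedBlockDefined M (Q ⊔ Subgroup.centralizer (Q : Set G)) b ∧ ∀ B : Set (Cfsg.IrrCharacter G), Cfsg.IsPBlock M B → (∃ χ ∈ B, ∃ θ ∈ b, Cfsg.classInner (fun n : ↥(Q ⊔ Subgroup.centralizer (Q : Set G)) => (χ : G → ℂ) n) (θ : ↥(Q ⊔ Subgroup.centralizer (Q : Set G)) → ℂ) ≠ 0) → Cfsg.IsInducedBlock M (Q ⊔ Subgroup.centralizer (Q : Set G)) b B := by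
  classical
  haveI := hM.2.1
  haveI : (Subgroup.centralizer (Q : Set G)).Normal := Subgroup.normal_centralizer
  have key : ∀ B : Set (IrrCharacter G), IsPBlock M B → (∃ χ ∈ B, ∃ θ ∈ b,
      classInner (fun n : ↥(Q ⊔ Subgroup.centralizer (Q : Set G)) => (χ : G → ℂ) n)
        (θ : ↥(Q ⊔ Subgroup.centralizer (Q : Set G)) → ℂ) ≠ 0) →
      IsInducedBlock M (Q ⊔ Subgroup.centralizer (Q : Set G)) b B := by
    intro B hB hex
    refine ⟨hb, hB, fun θ hθ χ hχ g => ?_⟩
    by_cases hg : g ∈ Q ⊔ Subgroup.centralizer (Q : Set G)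
    · have h := (Blocks.covers_iff hM.2.2 hB hb).1 hex χ hχ θ hθ ⟨g, hg⟩
      simpa using Blocks.memI_neg h
    · have h0 : inducedCentralChar (Q ⊔ Subgroup.centralizer (Q : Set G))
          (θ : ↥(Q ⊔ Subgroup.centralizer (Q : Set G)) → ℂ) g = 0 := by
        rw [inducedCentralChar]
        refine finsum_mem_eq_zero_of_forall_eq_zero fun h hh => ?_
        exfalso
        obtain ⟨c, hc⟩ := isConj_iff.1 (hh : IsConj g (h : G)).symm
        exact hg (hc ▸ (inferInstance : (Q ⊔ Subgroup.centralizer (Q : Set G)).Normal).conj_mem _ h.2 c)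
      rw [h0, zero_sub]
      refine Blocks.memI_neg ?_
      exact DegreeGraph.centralChar_memI_of_not_centralize hM.2.2 hQ χ
        fun hgC => hg (Subgroup.mem_sup_right hgC)
  refine ⟨?_, key⟩
  obtain ⟨θ, hθ⟩ := Blocks.block_nonempty hb
  obtain ⟨χ, hχ⟩ := Blocks.exists_over (G := G) θ
  exact ⟨_, key _ (Blocks.isPBlock_blockOf χ) ⟨χ, Blocks.mem_blockOf_self χ, θ, hθ, hχ⟩⟩

end Cfsg.Agent.S0971
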