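import Cfsg.Statements.S0986
import Mathlib

set_option autoImplicit false
open Cfsg

namespace Cfsg.Agent.S0986

/-- Let P and Q be distinct Sylow p-subgroups of a finite group G chosen so that the order of P ∩ Q is as large as possible among intersections of two distinct Sylow p-subgroups, and let N be the normalizer of P ∩ Q. Then N has more than one Sylow p-subgroup, any two distinct Sylow p-subgroups of N intersect exactly in P ∩ Q, and each Sylow p-subgroup of N lies in exactly one Sylow p-subgroup of G. -/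
theorem result {G : Type*} [Group G] [Finite G] (p : ℕ) [Fact p.Prime] (P Q : Sylow p G) (hPQ : P ≠ Q) (hmax : ∀ P' Q' : Sylow p G, P' ≠ Q' → Nat.card ↥((P' : Subgroup G) ⊓ (Q' : Subgroup G)) ≤ Nat.card ↥((P : Subgroup G) ⊓ (Q : Subgroup G))) : 1 < Nat.card (Sylow p ↥(Subgroup.normalizer (((P : Subgroup G) ⊓ (Q : Subgroup G) : Subgroup G) : Set G))) ∧ (∀ S T : Sylow p ↥(Subgroup.normalizer (((P : Subgroup G) ⊓ (Q : Subgroup G) : Subgroup G) : Set G)), S ≠ T → (S : Subgroup _) ⊓ (T : Subgroup _) = ((P : Subgroup G) ⊓ (Q : Subgroup G)).subgroupOf (Subgroup.normalizer (((P : Subgroup G) ⊓ (Q : Subgroup G) : Subgroup G) : Set G))) ∧ ∀ S : Sylow p ↥(Subgroup.normalizer (((P : Subgroup G) ⊓ (Q : Subgroup G) : Subgroup G) : Set G)), ∃! T : Sylow p G, (S : Subgroup _).map (Subgroup.normalizer (((P : Subgroup G) ⊓ (Q : Subgroup G) : Subgroup G) : Set G)).subtype ≤ (T : Subgroup G) := by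
  set D : Subgroup G := (P : Subgroup G) ⊓ (Q : Subgroup G) with hD
  set N := Subgroup.normalizer (D : Set G) with hN
  have hDN : D ≤ N := Subgroup.le_normalizer
  have hgt : ∀ R R' : Sylow p G, R ≠ R' → (R : Subgroup G) ⊓ (R' : Subgroup G) = D →
      Nat.card ↥D < Nat.card ↥((R : Subgroup G) ⊓ N) := by
    intro R R' hne he
    have hDR : D ≤ (R : Subgroup G) := he ▸ inf_le_left
    have hlt : D < (R : Subgroup G) := by
      refine lt_of_le_of_ne hDR fun e => hne (Sylow.ext ?_)
      have hle : (R : Subgroup G) ≤ R' := by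
        intro x hx
        rw [← e, ← he] at hx
        exact hx.2
      exact (R.is_maximal' R'.2 hle).symm
    haveI : Group.IsNilpotent (R : Subgroup G) := R.2.isNilpotent
    have h1 := Group.normalizerCondition_of_isNilpotent (G := (R : Subgroup G)) (D.subgroupOf R)
      (lt_top_iff_ne_top.2 fun e => hlt.ne (le_antisymm hDR (Subgroup.subgroupOf_eq_top.1 e)))
    obtain ⟨x, hx, hxD⟩ := SetLike.exists_of_lt h1
    have hle : D ≤ (R : Subgroup G) ⊓ N := le_inf hDR hDN
    have hxN : (x : G) ∈ N := by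
      rw [hN, Subgroup.mem_normalizer_iff]
      intro y
      constructor
      · intro hy
        have := (Subgroup.mem_normalizer_iff.1 hx ⟨y, hDR hy⟩).1 hy
        exact this
      · intro hy
        have hyR : y ∈ (R : Subgroup G) := by
          have := mul_mem (mul_mem (inv_mem x.2) (hDR hy)) x.2
          simpa [mul_assoc] using this
        exact (Subgroup.mem_normalizer_iff.1 hx ⟨y, hyR⟩).2 hy
    refine lt_of_le_of_ne (Subgroup.card_le_of_le hle) fun e => hxD ?_
    have heq := Subgroup.eq_of_le_of_card_ge hle e.ge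
    have hxmem : (x : G) ∈ (R : Subgroup G) ⊓ N := ⟨x.2, hxN⟩
    rw [← heq] at hxmem
    exact hxmem
  have hext : ∀ S : Sylow p ↥N, ∃ R : Sylow p G, (S : Subgroup ↥N).map N.subtype ≤ (R : Subgroup G) :=
    fun S => (S.2.map N.subtype).exists_le_sylow
  have hpart : ∀ R : Sylow p G, IsPGroup p ↥(((R : Subgroup G) ⊓ N).subgroupOf N) := fun R =>
    (R.2.to_le inf_le_left).comap_of_injective N.subtype Subtype.val_injective
  have hPlt := hgt P Q hPQ rfl
  have hQlt := hgt Q P hPQ.symm (inf_comm _ _)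
  have hcardS : ∀ S : Sylow p ↥N, Nat.card ↥D < Nat.card ↥((S : Subgroup ↥N).map N.subtype) := by
    intro S
    obtain ⟨S', hS'⟩ := (hpart P).exists_le_sylow
    refine hPlt.trans_le ?_
    rw [← Nat.card_congr (Subgroup.subgroupOfEquivOfLe (inf_le_right : (P : Subgroup G) ⊓ N ≤ N)).toEquiv,
      ← Nat.card_congr ((S : Subgroup ↥N).equivMapOfInjective N.subtype Subtype.val_injective).toEquiv,
      S.card_eq_multiplicity, ← S'.card_eq_multiplicity]
    exact Subgroup.card_le_of_le hS'
  have huniq : ∀ S : Sylow p ↥N, ∀ R R' : Sylow p G, (S : Subgroup ↥N).map N.subtype ≤ (R : Subgroup G) →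
      (S : Subgroup ↥N).map N.subtype ≤ (R' : Subgroup G) → R = R' := by
    intro S R R' hR hR'
    by_contra hne
    have h1 := (hcardS S).trans_le (Subgroup.card_le_of_le (le_inf hR hR'))
    have h2 := hmax R R' hne
    omega
  have hDS : ∀ S : Sylow p ↥N, D.subgroupOf N ≤ (S : Subgroup ↥N) := by
    intro S
    haveI : (D.subgroupOf N).Normal := Subgroup.normal_in_normalizer
    have hp : IsPGroup p ↥(D.subgroupOf N) :=
      (P.2.to_le inf_le_left).comap_of_injective N.subtype Subtype.val_injective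
    exact (S.is_maximal' (IsPGroup.to_sup_of_normal_right S.2 hp) le_sup_left) ▸ le_sup_right
  refine ⟨?_, fun S T hST => ?_, fun S => ?_⟩
  · by_contra hle
    haveI : Subsingleton (Sylow p ↥N) := Finite.card_le_one_iff_subsingleton.1 (by omega)
    obtain ⟨S, hS⟩ := (hpart P).exists_le_sylow
    obtain ⟨T, hT⟩ := (hpart Q).exists_le_sylow
    obtain rfl : S = T := Subsingleton.elim _ _
    obtain ⟨R, hR⟩ := hext S
    have key : ∀ P0 : Sylow p G, ((P0 : Subgroup G) ⊓ N).subgroupOf N ≤ (S : Subgroup ↥N) →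
        Nat.card ↥D < Nat.card ↥((P0 : Subgroup G) ⊓ N) → P0 = R := by
      intro P0 h0 hlt
      by_contra hne
      have h1 : (P0 : Subgroup G) ⊓ N ≤ (P0 : Subgroup G) ⊓ (R : Subgroup G) := fun x hx =>
        ⟨hx.1, hR ⟨⟨x, hx.2⟩, h0 hx, rfl⟩⟩
      have h2 := hlt.trans_le (Subgroup.card_le_of_le h1)
      have h3 := hmax P0 R hne
      omega
    exact hPQ ((key P hS hPlt).trans (key Q hT hQlt).symm)
  · obtain ⟨R, hR⟩ := hext S
    obtain ⟨R', hR'⟩ := hext T
    have hne : R ≠ R' := by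
      rintro rfl
      apply hST
      obtain ⟨U, hU⟩ := (hpart R).exists_le_sylow
      have hle : ∀ V : Sylow p ↥N, (V : Subgroup ↥N).map N.subtype ≤ (R : Subgroup G) → V = U := by
        intro V hV
        refine Sylow.ext (V.is_maximal' U.2 ?_).symm
        intro x hx
        exact hU ⟨hV ⟨x, hx, rfl⟩, x.2⟩
      rw [hle S hR, hle T hR']
    refine le_antisymm ?_ (le_inf (hDS S) (hDS T))
    have hle : D ≤ (R : Subgroup G) ⊓ (R' : Subgroup G) := by
      intro x hx
      exact ⟨hR ⟨⟨x, hDN hx⟩, hDS S hx, rfl⟩, hR' ⟨⟨x, hDN hx⟩, hDS T hx, rfl⟩⟩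
    have heq := Subgroup.eq_of_le_of_card_ge hle (hmax R R' hne)
    rintro x ⟨hx1, hx2⟩
    rw [Subgroup.mem_subgroupOf, heq]
    exact ⟨hR ⟨x, hx1, rfl⟩, hR' ⟨x, hx2, rfl⟩⟩
  · obtain ⟨R, hR⟩ := hext S
    exact ⟨R, hR, fun R' hR' => huniq S R' R hR' hR⟩

end Cfsg.Agent.S0986
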