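import Cfsg.Statements.S0988
import Cfsg.Agent.SmallOrder.Exclude

set_option autoImplicit false
open Cfsg

namespace Cfsg.Agent.S0988

private theorem aut_prime_sq {P : Type*} [Group P] [Finite P] {p t : ℕ} (hp : p.Prime) (ht : t.Prime)
    (hP : Nat.card P = p ^ 2) (hlt : p < t) (hd : t ∣ Nat.card (MulAut P)) : t = p + 1 := by
  have := Fact.mk ht
  obtain ⟨φ, hφ⟩ := exists_prime_orderOf_dvd_card' t hd
  have hpg : IsPGroup t (Subgroup.zpowers φ) :=
    IsPGroup.of_card (show Nat.card (Subgroup.zpowers φ) = t ^ 1 by rw [Nat.card_zpowers, hφ, pow_one])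
  have hmod := hpg.card_modEq_card_fixedPoints P
  let F : Subgroup P :=
    { carrier := MulAction.fixedPoints (Subgroup.zpowers φ) P
      mul_mem' := fun ha hb g => by rw [smul_mul', ha g, hb g]
      one_mem' := fun g => smul_one g
      inv_mem' := fun ha g => by rw [smul_inv', ha g] }
  have hF : Nat.card F ∣ p ^ 2 := hP ▸ F.card_subgroup_dvd_card
  have hne : Nat.card F ≠ p ^ 2 := by
    intro h
    have htop : F = ⊤ := Subgroup.eq_top_of_card_eq F (h.trans hP.symm)
    have h1 : φ = 1 := MulEquiv.ext fun x => (htop ▸ Subgroup.mem_top x : x ∈ F) ⟨φ, Subgroup.mem_zpowers φ⟩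
    rw [h1, orderOf_one] at hφ
    exact ht.one_lt.ne hφ
  have hFc : Nat.card (MulAction.fixedPoints (Subgroup.zpowers φ) P) = Nat.card F := rfl
  rw [hP, hFc] at hmod
  obtain ⟨i, hi, hFi⟩ := (Nat.dvd_prime_pow hp).mp hF
  have hi2 : i ≠ 2 := fun h => hne (h ▸ hFi)
  rw [hFi] at hmod
  have h1 : (t : ℤ) ∣ (p : ℤ) ^ 2 - (p : ℤ) ^ i := by exact_mod_cast Nat.modEq_iff_dvd.mp hmod.symm
  have htp : Prime (t : ℤ) := Nat.prime_iff_prime_int.mp ht
  have hnp : ¬ (t : ℤ) ∣ (p : ℤ) := fun h => hlt.ne' ((Nat.prime_dvd_prime_iff_eq ht hp).mp (Int.natCast_dvd_natCast.mp h))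
  have hnm : ¬ (t : ℤ) ∣ (p : ℤ) - 1 := fun h => by
    have h2 := Int.le_of_dvd (by have := hp.two_le; omega) h
    omega
  interval_cases i
  · rw [show (p : ℤ) ^ 2 - (p : ℤ) ^ 0 = ((p : ℤ) - 1) * ((p : ℤ) + 1) by ring] at h1
    have h2 : t ∣ p + 1 := by exact_mod_cast (htp.dvd_or_dvd h1).resolve_left hnm
    have := Nat.le_of_dvd (by omega) h2
    omega
  · rw [show (p : ℤ) ^ 2 - (p : ℤ) ^ 1 = (p : ℤ) * ((p : ℤ) - 1) by ring] at h1
    exact absurd ((htp.dvd_or_dvd h1).resolve_left hnp) hnm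
  · exact absurd rfl hi2

private theorem succ_prime {p : ℕ} (hp : p.Prime) (h : (p + 1).Prime) : p = 2 := by
  rcases hp.eq_two_or_odd with h2 | h2
  · exact h2
  · rcases h.eq_two_or_odd with h3 | h3
    · exact absurd h3 (by have := hp.two_le; omega)
    · omega

private theorem two_factors {G : Type*} [Group G] [Finite G] [IsSimpleGroup G] (hna : ¬ IsMulCommutative G)
    {p q : ℕ} (hp : p.Prime) (hq : q.Prime) (hne : p ≠ q)
    (hG : Nat.card G = p ^ 3 * q ∨ (Nat.card G = p ^ 2 * q ^ 2 ∧ p < q)) : False := by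
  have := Fact.mk hp
  have := Fact.mk hq
  have hqp : ¬ q ∣ p := fun h => hne ((Nat.prime_dvd_prime_iff_eq hq hp).mp h).symm
  have hpq : ¬ p ∣ q := fun h => hne ((Nat.prime_dvd_prime_iff_eq hp hq).mp h)
  obtain ⟨Q⟩ := (inferInstance : Nonempty (Sylow q G))
  rcases hG with hG | ⟨hG, hlt⟩
  · obtain ⟨P⟩ := (inferInstance : Nonempty (Sylow p G))
    obtain ⟨-, -, hd, hm⟩ := SmallOrder.sylow_arith P hG hpq
    have hne1 := SmallOrder.card_sylow_ne_one (p := p) hna (hG ▸ (dvd_pow_self p three_ne_zero).trans (dvd_mul_right _ q))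
    have hnp : Nat.card (Sylow p G) = q := ((Nat.dvd_prime hq).mp hd).resolve_left hne1
    rw [hnp] at hm
    have hlt : p < q := by
      rcases lt_or_gt_of_ne hne with h | h
      · exact h
      · rw [Nat.mod_eq_of_lt h] at hm; exact absurd hm hq.one_lt.ne'
    obtain ⟨hQ, -, hd, hm⟩ := SmallOrder.sylow_arith Q (a := 1) (m := p ^ 3) (by rw [hG]; ring)
      (fun h => hqp (hq.dvd_of_dvd_pow h))
    have hne2 := SmallOrder.card_sylow_ne_one (p := q) hna (hG ▸ dvd_mul_left q _)
    obtain ⟨i, hi, hn⟩ := (Nat.dvd_prime_pow hp).mp hd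
    rw [hn] at hm hne2
    interval_cases i
    · exact hne2 (pow_zero p)
    · rw [pow_one, Nat.mod_eq_of_lt hlt] at hm; exact hp.one_lt.ne' hm
    · have h1 : q ∣ p ^ 2 - 1 := (Nat.modEq_iff_dvd' (Nat.one_le_pow _ _ hp.pos)).mp
        (by rw [Nat.ModEq, hm, Nat.mod_eq_of_lt hq.one_lt])
      rw [show p ^ 2 - 1 = (p + 1) * (p - 1) by rw [← Nat.sq_sub_sq, one_pow]] at h1
      rcases hq.dvd_mul.mp h1 with h | h
      · have hq1 : q = p + 1 := by have := Nat.le_of_dvd (by omega) h; omega
        have hp2 := succ_prime hp (hq1 ▸ hq)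
        have := SmallOrder.two_mul_card_dvd_factorial_sylow (p := p) hna
          (hG ▸ (dvd_pow_self p three_ne_zero).trans (dvd_mul_right _ q))
        rw [hG, hnp] at this
        subst hp2
        subst hq1
        norm_num [Nat.factorial] at this
      · have := Nat.le_of_dvd (by have := hp.two_le; omega) h; omega
    · exact SmallOrder.false_of_prime_card_sylow hna Q (by simpa using hQ) hn (pow_ne_zero _ hp.ne_zero)
        (r := 1) (by rw [hG]; ring) (Nat.coprime_one_left _)
  · obtain ⟨-, -, hd, hm⟩ := SmallOrder.sylow_arith Q (a := 2) (m := p ^ 2) (by rw [hG]; ring)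
      (fun h => hqp (hq.dvd_of_dvd_pow h))
    have hdq : q ∣ Nat.card G := hG ▸ (dvd_pow_self q two_ne_zero).trans (dvd_mul_left _ _)
    have hne2 := SmallOrder.card_sylow_ne_one (p := q) hna hdq
    obtain ⟨i, hi, hn⟩ := (Nat.dvd_prime_pow hp).mp hd
    rw [hn] at hm hne2
    interval_cases i
    · exact hne2 (pow_zero p)
    · rw [pow_one, Nat.mod_eq_of_lt hlt] at hm; exact hp.one_lt.ne' hm
    · have h1 : q ∣ p ^ 2 - 1 := (Nat.modEq_iff_dvd' (Nat.one_le_pow _ _ hp.pos)).mp
        (by rw [Nat.ModEq, hm, Nat.mod_eq_of_lt hq.one_lt])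
      rw [show p ^ 2 - 1 = (p + 1) * (p - 1) by rw [← Nat.sq_sub_sq, one_pow]] at h1
      rcases hq.dvd_mul.mp h1 with h | h
      · have hq1 : q = p + 1 := by have := Nat.le_of_dvd (by omega) h; omega
        have hp2 := succ_prime hp (hq1 ▸ hq)
        have := SmallOrder.two_mul_card_dvd_factorial_sylow (p := q) hna hdq
        rw [hG, hn] at this
        subst hp2
        subst hq1
        norm_num [Nat.factorial] at this
      · have := Nat.le_of_dvd (by have := hp.two_le; omega) h; omega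


/-- If a finite simple group has order p^2 * q * r with p, q and r prime, then its order is 60. -/
theorem result {G : Type*} [Group G] [Finite G] [IsSimpleGroup G] (p q r : ℕ) (hp : p.Prime) (hq : q.Prime) (hr : r.Prime) (hG : Nat.card G = p ^ 2 * q * r) : Nat.card G = 60 := by
  have hnp : ¬ (Nat.card G).Prime := by
    rw [hG, show p ^ 2 * q * r = p * (p * q * r) by ring]
    exact Nat.not_prime_mul hp.one_lt.ne'
      (fun h => hr.one_lt.ne' (Nat.eq_one_of_mul_eq_one_left h))
  have hna : ¬ IsMulCommutative G := SmallOrder.not_comm_of_not_prime hnp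
  by_cases hpq : p = q
  · subst hpq
    by_cases hpr : p = r
    · subst hpr
      have := Fact.mk hp
      obtain ⟨P⟩ := (inferInstance : Nonempty (Sylow p G))
      obtain ⟨-, -, hd, -⟩ := SmallOrder.sylow_arith P (a := 4) (m := 1) (by rw [hG]; ring) hp.not_dvd_one
      exact absurd (Nat.dvd_one.mp hd)
        (SmallOrder.card_sylow_ne_one hna (hG ▸ dvd_mul_left p _))
    · exact (two_factors hna hp hr hpr (Or.inl (by rw [hG]; ring))).elim
  by_cases hpr : p = r
  · subst hpr
    exact (two_factors hna hp hq hpq (Or.inl (by rw [hG]; ring))).elim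
  by_cases hqr : q = r
  · subst hqr
    rcases lt_or_gt_of_ne hpq with h | h
    · exact (two_factors hna hp hq hpq (Or.inr ⟨by rw [hG]; ring, h⟩)).elim
    · exact (two_factors hna hq hp (Ne.symm hpq) (Or.inr ⟨by rw [hG]; ring, h⟩)).elim
  have := Fact.mk hp
  have hndvd : ∀ u v : ℕ, u.Prime → v.Prime → u ≠ v → ¬ u ∣ v := fun u v hu hv hne h =>
    hne ((Nat.prime_dvd_prime_iff_eq hu hv).mp h)
  obtain ⟨P⟩ := (inferInstance : Nonempty (Sylow p G))
  have hpm : ¬ p ∣ q * r := fun h => (hp.dvd_mul.mp h).elim (hndvd _ _ hp hq hpq) (hndvd _ _ hp hr hpr)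
  obtain ⟨hP, hPi, -, -⟩ := SmallOrder.sylow_arith P (a := 2) (m := q * r) (by rw [hG]; ring) hpm
  -- the smallest prime divisor is `p`
  have hmin : p < q ∧ p < r := by
    by_contra hcon
    obtain ⟨s, hs, hs', hsl⟩ : ∃ s, s.Prime ∧ (Nat.card G).minFac = s ∧ s ≠ p := by
      refine ⟨_, Nat.minFac_prime ?_, rfl, ?_⟩
      · rw [hG]; intro h; exact hr.one_lt.ne' (Nat.eq_one_of_mul_eq_one_left h)
      · intro h
        apply hcon
        have h1 := Nat.minFac_le_of_dvd hq.two_le (show q ∣ Nat.card G from hG ▸ (dvd_mul_left q _).trans (dvd_mul_right _ r))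
        have h2 := Nat.minFac_le_of_dvd hr.two_le (show r ∣ Nat.card G from hG ▸ dvd_mul_left r _)
        omega
    have := Fact.mk hs
    obtain ⟨S⟩ := (inferInstance : Nonempty (Sylow s G))
    apply SmallOrder.not_isCyclic_minFac hna hs' S
    have hsd : s ∣ p ^ 2 * q * r := hG ▸ hs' ▸ Nat.minFac_dvd _
    rcases hs.dvd_mul.mp hsd with h | h
    · rcases hs.dvd_mul.mp h with h | h
      · exact absurd ((Nat.prime_dvd_prime_iff_eq hs hp).mp (hs.dvd_of_dvd_pow h)) hsl
      · obtain rfl := (Nat.prime_dvd_prime_iff_eq hs hq).mp h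
        refine isCyclic_of_prime_card (p := s) ?_
        rw [(SmallOrder.sylow_arith S (a := 1) (m := p ^ 2 * r) (by rw [hG]; ring) (fun h =>
          (hs.dvd_mul.mp h).elim (fun h => hndvd _ _ hs hp hsl (hs.dvd_of_dvd_pow h)) (hndvd _ _ hs hr hqr))).1,
          pow_one]
    · obtain rfl := (Nat.prime_dvd_prime_iff_eq hs hr).mp h
      refine isCyclic_of_prime_card (p := s) ?_
      rw [(SmallOrder.sylow_arith S (a := 1) (m := p ^ 2 * q) (by rw [hG]; ring) (fun h =>
        (hs.dvd_mul.mp h).elim (fun h => hndvd _ _ hs hp hsl (hs.dvd_of_dvd_pow h)) (hndvd _ _ hs hq (Ne.symm hqr)))).1,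
        pow_one]
  obtain ⟨hlq, hlr⟩ := hmin
  have hdp : p ∣ Nat.card G := hG ▸ ((dvd_pow_self p two_ne_zero).trans (dvd_mul_right _ q)).trans (dvd_mul_right _ r)
  have hPab : IsMulCommutative (P : Subgroup G) := IsPGroup.isMulCommutative_of_card_eq_prime_sq hP
  set k := (Subgroup.centralizer ((P : Subgroup G) : Set G)).relIndex (Subgroup.normalizer ((P : Subgroup G) : Set G))
  have hk1 : k ≠ 1 := fun h =>
    SmallOrder.not_normalizer_le_centralizer hna hdp P (Subgroup.relIndex_eq_one.mp h)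
  have hkm : k ∣ q * r := hPi ▸ (Subgroup.relIndex_dvd_of_le_left _ (Subgroup.le_centralizer (P : Subgroup G))).trans
    (Subgroup.relIndex_dvd_index_of_le Subgroup.le_normalizer)
  have hka : k ∣ Nat.card (MulAut (P : Subgroup G)) := SmallOrder.relIndex_centralizer_dvd_card_mulAut _
  obtain ⟨t, ht, htk⟩ := Nat.exists_prime_and_dvd hk1
  have key : ∀ (u v : ℕ), u.Prime → v.Prime → p < u → p < v → u ≠ v → Nat.card G = p ^ 2 * u * v →
      u = p + 1 → Nat.card G = 60 := by
    intro u v hu hv hpu hpv huv hcard hu1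
    obtain rfl := succ_prime hp (hu1 ▸ hu)
    subst hu1
    have hv5 : 5 ≤ v := by
      by_contra h
      interval_cases v
      · exact huv rfl
      · exact absurd hv (by norm_num)
    have := Fact.mk hv
    obtain ⟨V⟩ := (inferInstance : Nonempty (Sylow v G))
    obtain ⟨hV, -, hd, hm⟩ := SmallOrder.sylow_arith V (a := 1) (m := 12) (by rw [hcard]; ring)
      (fun h => by
        have h12 : v ∈ Nat.divisors 12 := Nat.mem_divisors.mpr ⟨h, by norm_num⟩
        rw [show Nat.divisors 12 = {1, 2, 3, 4, 6, 12} by decide] at h12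
        fin_cases h12 <;> first | omega | exact absurd hv (by norm_num))
    have hne := SmallOrder.card_sylow_ne_one (p := v) hna (hcard ▸ dvd_mul_left v _)
    have hn : Nat.card (Sylow v G) ∈ Nat.divisors 12 := Nat.mem_divisors.mpr ⟨hd, by norm_num⟩
    rw [show Nat.divisors 12 = {1, 2, 3, 4, 6, 12} by decide] at hn
    simp only [Finset.mem_insert, Finset.mem_singleton] at hn
    rcases hn with h | h | h | h | h | h
    · exact absurd h hne
    all_goals rw [h] at hm
    · rw [Nat.mod_eq_of_lt (by omega)] at hm; omega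
    · rw [Nat.mod_eq_of_lt (by omega)] at hm; omega
    · rw [Nat.mod_eq_of_lt (by omega)] at hm; omega
    · have hvle : v ≤ 6 := by
        by_contra hv6
        rw [Nat.mod_eq_of_lt (by omega)] at hm; omega
      interval_cases v
      · rw [hcard]; norm_num
      · exact absurd hm (by norm_num)
    · exact (SmallOrder.false_of_prime_card_sylow hna V (by simpa using hV) h (by norm_num)
        (r := 1) (by rw [hcard]; ring) (Nat.coprime_one_left _)).elim
  rcases ht.dvd_mul.mp (htk.trans hkm) with h | h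
  · obtain rfl := (Nat.prime_dvd_prime_iff_eq ht hq).mp h
    exact key t r hq hr hlq hlr hqr hG (aut_prime_sq hp hq hP hlq (htk.trans hka))
  · obtain rfl := (Nat.prime_dvd_prime_iff_eq ht hr).mp h
    exact key t q hr hq hlr hlq (Ne.symm hqr) (by rw [hG]; ring) (aut_prime_sq hp hr hP hlr (htk.trans hka))

end Cfsg.Agent.S0988
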