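import Cfsg.Statements.S0989
import Mathlib
import Cfsg.Agent.SmallOrder.Basic

set_option autoImplicit false
open Cfsg

namespace Cfsg.Agent.S0989

/-- In the symmetric group on p or p + 1 letters, p a prime, the normalizer of a Sylow p-subgroup has order p * (p - 1). -/
theorem result {α : Type*} [Fintype α] [DecidableEq α] (p : ℕ) [Fact p.Prime] (hα : Fintype.card α = p ∨ Fintype.card α = p + 1) (P : Sylow p (Equiv.Perm α)) : Nat.card ↥(Subgroup.normalizer ((P : Subgroup (Equiv.Perm α)) : Set (Equiv.Perm α))) = p * (p - 1) := by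
  classical
  have hp : p.Prime := Fact.out
  have hle : p ≤ Fintype.card α := by rcases hα with h | h <;> omega
  have hcard : Nat.card (Equiv.Perm α) = p ^ 1 * ((Fintype.card α).factorial / p) := by
    rw [Nat.card_perm, Nat.card_eq_fintype_card, pow_one,
      Nat.mul_div_cancel' (Nat.dvd_factorial hp.pos hle)]
  have hnd : ¬ p ∣ (Fintype.card α).factorial / p := by
    obtain ⟨k, hk⟩ : ∃ k, p = k + 1 := ⟨p - 1, by have := hp.pos; omega⟩
    rcases hα with h | h
    · rw [h, hk, Nat.factorial_succ, Nat.mul_div_cancel_left _ (by omega), ← hk, hp.dvd_factorial]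
      omega
    · rw [h, Nat.factorial_succ, hk, Nat.factorial_succ, ← mul_assoc, mul_comm (k + 1 + 1), mul_assoc,
        Nat.mul_div_cancel_left _ (by omega), ← hk, hp.dvd_mul, hp.dvd_factorial]
      rintro (h | h)
      · exact hp.not_dvd_one ((Nat.dvd_add_right dvd_rfl).mp h)
      · omega
  have hPc : Nat.card (P : Subgroup (Equiv.Perm α)) = p := by
    rw [(Cfsg.Agent.SmallOrder.sylow_arith P hcard hnd).1, pow_one]
  set N := Subgroup.normalizer ((P : Subgroup (Equiv.Perm α)) : Set (Equiv.Perm α))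
  have hcyc : IsCyclic (P : Subgroup (Equiv.Perm α)) := isCyclic_of_prime_card hPc
  obtain ⟨x, hx⟩ := exists_prime_orderOf_dvd_card' (G := (P : Subgroup (Equiv.Perm α))) p (dvd_of_eq hPc.symm)
  have hxp : orderOf (x : Equiv.Perm α) = p := by rw [Subgroup.orderOf_coe]; exact hx
  have hPz : (P : Subgroup (Equiv.Perm α)) = Subgroup.zpowers (x : Equiv.Perm α) :=
    (Subgroup.eq_of_le_of_card_ge (Subgroup.zpowers_le.mpr x.2) (by rw [Nat.card_zpowers, hxp, hPc])).symm
  have hct : (x : Equiv.Perm α).cycleType = {p} := by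
    have hpow : (x : Equiv.Perm α).IsCycle := Equiv.Perm.isCycle_of_prime_order' (by
      rw [hxp]; exact hp) (by
      rw [hxp]; rcases hα with h | h <;> have := hp.two_le <;> omega)
    rw [hpow.cycleType, ← hpow.orderOf, hxp]
  have hC : Nat.card (Subgroup.centralizer {(x : Equiv.Perm α)}) = p := by
    rw [Equiv.Perm.nat_card_centralizer, hct]
    rcases hα with h | h <;> simp [h]
  have hCP : Subgroup.centralizer ((P : Subgroup (Equiv.Perm α)) : Set (Equiv.Perm α)) = P := by
    refine (Subgroup.eq_of_le_of_card_ge ?_ ?_).symm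
    · have : IsMulCommutative (P : Subgroup (Equiv.Perm α)) := inferInstance
      exact Subgroup.le_centralizer _
    · exact (Subgroup.card_le_of_le (Subgroup.centralizer_le (Set.singleton_subset_iff.mpr x.2))).trans
        (hC.trans hPc.symm).le
  have hsurj : Function.Surjective (P : Subgroup (Equiv.Perm α)).normalizerMonoidHom := by
    intro φ
    have h1 : ((φ x : (P : Subgroup (Equiv.Perm α))) : Equiv.Perm α).cycleType = (x : Equiv.Perm α).cycleType := by
      have ho : orderOf ((φ x : (P : Subgroup (Equiv.Perm α))) : Equiv.Perm α) = p := by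
        rw [Subgroup.orderOf_coe, MulEquiv.orderOf_eq, hx]
      have hpow : ((φ x : (P : Subgroup (Equiv.Perm α))) : Equiv.Perm α).IsCycle :=
        Equiv.Perm.isCycle_of_prime_order' (by rw [ho]; exact hp) (by
          rw [ho]; rcases hα with h | h <;> have := hp.two_le <;> omega)
      rw [hct, hpow.cycleType, ← hpow.orderOf, ho]
    obtain ⟨c, hc⟩ := isConj_iff.mp (Equiv.Perm.isConj_of_cycleType_eq h1.symm)
    have hcN : c ∈ Subgroup.normalizer ((P : Subgroup (Equiv.Perm α)) : Set (Equiv.Perm α)) := by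
      have hfx : Subgroup.zpowers ((φ x : (P : Subgroup (Equiv.Perm α))) : Equiv.Perm α) = P :=
        Subgroup.eq_of_le_of_card_ge (Subgroup.zpowers_le.mpr (φ x).2) (by
          rw [Nat.card_zpowers, Subgroup.orderOf_coe, MulEquiv.orderOf_eq, hx, hPc])
      refine Sylow.smul_eq_iff_mem_normalizer.mp ?_
      apply Sylow.ext
      rw [Sylow.coe_subgroup_smul]
      show (P : Subgroup (Equiv.Perm α)).map (MulAut.conj c).toMonoidHom = P
      conv_lhs => rw [hPz, MonoidHom.map_zpowers]
      refine Eq.trans ?_ hfx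
      rw [← hc]
      rfl
    refine ⟨⟨c, hcN⟩, ?_⟩
    apply MulEquiv.ext
    intro y
    obtain ⟨k, hk⟩ := Subgroup.mem_zpowers_iff.mp (hPz ▸ y.2 : (y : Equiv.Perm α) ∈ Subgroup.zpowers (x : Equiv.Perm α))
    have hy : y = x ^ k := Subtype.ext (by rw [Subgroup.coe_zpow, hk])
    rw [hy, map_zpow, map_zpow]
    congr 1
    exact Subtype.ext hc
  have hk := Subgroup.card_mul_index ((P : Subgroup (Equiv.Perm α)).normalizerMonoidHom.ker)
  rw [Subgroup.index_ker] at hk
  rw [← hk, Subgroup.normalizerMonoidHom_ker]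
  congr 1
  · rw [Nat.card_congr (Subgroup.subgroupOfEquivOfLe (hCP.le.trans Subgroup.le_normalizer)).toEquiv, hCP, hPc]
  · refine Eq.trans ?_ (Nat.totient_prime hp)
    refine Eq.trans ?_ (congrArg Nat.totient hPc)
    rw [← IsCyclic.card_mulAut]
    simp [MonoidHom.range_eq_top.mpr hsurj]

end Cfsg.Agent.S0989
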