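import Cfsg.Statements.S0995
import Cfsg.Agent.SmallOrder.Exclude

set_option autoImplicit false
open Cfsg

namespace Cfsg.Agent.S0995

/-- Let G be a finite perfect group containing an element z of prime order p whose centralizer is the cyclic group it generates. Let t be the number of conjugacy classes of elements of order p. Then t divides p - 1, the number of Sylow p-subgroups has the form 1 + n * p, and |G| * t = (p - 1) * p * (1 + n * p). -/
theorem result {G : Type*} [Group G] [Finite G] (hperf : commutator G = ⊤) (p : ℕ) [Fact p.Prime] (z : G) (hz : orderOf z = p) (hC : Subgroup.centralizer ({z} : Set G) = Subgroup.zpowers z) : ∃ n t : ℕ, t = Nat.card {c : ConjClasses G // ∃ g : G, ConjClasses.mk g = c ∧ orderOf g = p} ∧ t ∣ p - 1 ∧ Nat.card (Sylow p G) = 1 + n * p ∧ Nat.card G * t = (p - 1) * p * (1 + n * p) := by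
  classical
  have hp : p.Prime := Fact.out
  have hzc : Nat.card (Subgroup.centralizer ({z} : Set G)) = p := by rw [hC, Nat.card_zpowers, hz]
  -- every Sylow subgroup has order p
  have hSyl : ∀ P : Sylow p G, Nat.card P = p := by
    obtain ⟨Q, hQ⟩ := (IsPGroup.of_card (show Nat.card (Subgroup.zpowers z) = p ^ 1 by
      rw [Nat.card_zpowers, hz, pow_one])).exists_le_sylow
    have hzQ : z ∈ (Q : Subgroup G) := hQ (Subgroup.mem_zpowers z)
    have hQle : (Q : Subgroup G) ≤ Subgroup.zpowers z := by
      by_cases hcen : ∀ q ∈ (Q : Subgroup G), q * z = z * q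
      · intro q hq
        rw [← hC, Subgroup.mem_centralizer_singleton_iff]
        exact (hcen q hq)
      · exfalso
        have : Nontrivial (Q : Subgroup G) := (Subgroup.nontrivial_iff_ne_bot _).mpr fun h => by
          rw [h, Subgroup.mem_bot] at hzQ; rw [hzQ, orderOf_one] at hz; exact hp.one_lt.ne hz
        have : Nontrivial (Subgroup.center (Q : Subgroup G)) := Q.2.center_nontrivial
        obtain ⟨c, hc⟩ := exists_ne (1 : Subgroup.center (Q : Subgroup G))
        have hcz : (c : G) ∈ Subgroup.zpowers z := by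
          rw [← hC, Subgroup.mem_centralizer_singleton_iff]
          exact (congrArg Subtype.val (Subgroup.mem_center_iff.mp c.2 ⟨z, hzQ⟩)).symm
        have : Subgroup.zpowers (c : G) = Subgroup.zpowers z := by
          refine Subgroup.eq_of_le_of_card_ge (Subgroup.zpowers_le.mpr hcz) ?_
          have hd := orderOf_dvd_of_mem_zpowers hcz
          rw [hz] at hd
          rcases (Nat.dvd_prime hp).mp hd with h | h
          · exact absurd (orderOf_eq_one_iff.mp h) (by simpa using hc)
          · rw [Nat.card_zpowers, Nat.card_zpowers, h, hz]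
        apply hcen
        intro q hq
        have hzc' : z ∈ Subgroup.zpowers (c : G) := this ▸ Subgroup.mem_zpowers z
        obtain ⟨i, hi⟩ := Subgroup.mem_zpowers_iff.mp hzc'
        rw [← hi]
        have hcomm : Commute q (c : G) := congrArg Subtype.val (Subgroup.mem_center_iff.mp c.2 ⟨q, hq⟩)
        exact (hcomm.zpow_right i).eq
    intro P
    obtain ⟨g, rfl⟩ := MulAction.exists_smul_eq G Q P
    rw [Sylow.card_eq_multiplicity, ← Q.card_eq_multiplicity]
    refine le_antisymm ?_ ?_
    · exact (Subgroup.card_le_of_le hQle).trans (by rw [Nat.card_zpowers, hz])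
    · exact (by rw [Nat.card_zpowers, hz] : p ≤ Nat.card (Subgroup.zpowers z)).trans (Subgroup.card_le_of_le hQ)
  -- the Sylow subgroup generated by an element of order p
  have hsub : ∀ g : G, orderOf g = p → ∀ P : Sylow p G, g ∈ (P : Subgroup G) → (P : Subgroup G) = Subgroup.zpowers g := by
    intro g hg P hgP
    refine (Subgroup.eq_of_le_of_card_ge (Subgroup.zpowers_le.mpr hgP) ?_).symm
    rw [Nat.card_zpowers, hg, hSyl P]
  have hmem : ∀ g : G, orderOf g = p → ∃ P : Sylow p G, g ∈ (P : Subgroup G) := by
    intro g hg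
    obtain ⟨P, hP⟩ := (IsPGroup.of_card (show Nat.card (Subgroup.zpowers g) = p ^ 1 by
      rw [Nat.card_zpowers, hg, pow_one])).exists_le_sylow
    exact ⟨P, hP (Subgroup.mem_zpowers g)⟩
  -- centralizers of elements of order p have order p
  have hcent : ∀ g : G, orderOf g = p → Nat.card (Subgroup.centralizer ({g} : Set G)) = p := by
    intro g hg
    obtain ⟨P, hgP⟩ := hmem g hg
    obtain ⟨Q, hzQ⟩ := hmem z hz
    obtain ⟨c, hc⟩ := MulAction.exists_smul_eq G P Q
    have hmap : (Subgroup.centralizer ({g} : Set G)).map (MulAut.conj c).toMonoidHom ≤ Subgroup.centralizer ({z} : Set G) := by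
      rintro _ ⟨y, hy, rfl⟩
      rw [SetLike.mem_coe, Subgroup.mem_centralizer_singleton_iff] at hy
      rw [Subgroup.mem_centralizer_singleton_iff]
      have hzin : z ∈ Subgroup.zpowers ((MulAut.conj c) g) := by
        have hcg : (MulAut.conj c) g ∈ (Q : Subgroup G) := by
          rw [← hc, Sylow.coe_subgroup_smul]
          exact Subgroup.smul_mem_pointwise_smul g _ _ hgP
        rw [← hsub _ (by rw [MulEquiv.orderOf_eq, hg]) Q hcg]; exact hzQ
      obtain ⟨i, hi⟩ := Subgroup.mem_zpowers_iff.mp hzin
      rw [← hi]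
      have hcomm : Commute ((MulAut.conj c) y) ((MulAut.conj c) g) := Commute.map (show Commute y g from hy) (MulAut.conj c)
      exact (hcomm.zpow_right i).eq
    refine le_antisymm ?_ ?_
    · refine le_trans (le_of_eq ?_) ((Subgroup.card_le_of_le hmap).trans hzc.le)
      exact (Nat.card_congr (Subgroup.equivMapOfInjective _ (MulAut.conj c).toMonoidHom (MulAut.conj c).injective).toEquiv)
    · conv_lhs => rw [← hg, ← Nat.card_zpowers]
      refine Subgroup.card_le_of_le (Subgroup.zpowers_le.mpr ?_)
      rw [Subgroup.mem_centralizer_singleton_iff]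
  have := Fintype.ofFinite (Sylow p G)
  let T := {c : ConjClasses G // ∃ g : G, ConjClasses.mk g = c ∧ orderOf g = p}
  have := Fintype.ofFinite T
  -- count by Sylow subgroups
  have hcount1 : Nat.card {g : G // orderOf g = p} = Nat.card (Sylow p G) * (p - 1) := by
    have hord : ∀ x : (Σ P : Sylow p G, {g : (P : Subgroup G) // g ≠ 1}), orderOf (x.2.1 : G) = p := by
      rintro ⟨P, x, hx⟩
      have hd : orderOf x ∣ p := (orderOf_dvd_natCard _).trans (dvd_of_eq (hSyl P))
      rw [Subgroup.orderOf_coe]
      exact ((Nat.dvd_prime hp).mp hd).resolve_left fun h => hx (orderOf_eq_one_iff.mp h)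
    have e : (Σ P : Sylow p G, {g : (P : Subgroup G) // g ≠ 1}) ≃ {g : G // orderOf g = p} := by
      refine Equiv.ofBijective (fun x => ⟨x.2.1.1, hord x⟩) ⟨?_, ?_⟩
      · rintro ⟨P, x, hx⟩ ⟨Q, y, hy⟩ h
        have hxy : (x : G) = y := congrArg Subtype.val h
        have ho := hord ⟨P, x, hx⟩
        obtain rfl : P = Q := Sylow.ext ((hsub _ ho P x.2).trans (hsub _ ho Q (hxy ▸ y.2)).symm)
        obtain rfl : x = y := Subtype.ext hxy
        rfl
      · rintro ⟨g, hg⟩
        obtain ⟨P, hP⟩ := hmem g hg
        refine ⟨⟨P, ⟨g, hP⟩, fun h => ?_⟩, rfl⟩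
        have h' : g = 1 := congrArg Subtype.val h
        rw [h', orderOf_one] at hg
        exact hp.one_lt.ne hg
    rw [← Nat.card_congr e, Nat.card_sigma, Finset.sum_const_nat (m := p - 1)]
    · simp [Nat.card_eq_fintype_card]
    · intro P _
      have := Fintype.ofFinite (P : Subgroup G)
      rw [Nat.card_eq_fintype_card, Fintype.card_subtype_compl, Fintype.card_subtype_eq,
        ← Nat.card_eq_fintype_card, hSyl P]
  -- count by classes
  have hcount2 : Nat.card {g : G // orderOf g = p} * p = Nat.card T * Nat.card G := by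
    let f : {g : G // orderOf g = p} → T := fun g => ⟨ConjClasses.mk g.1, g.1, rfl, g.2⟩
    rw [← Nat.card_congr (Equiv.sigmaFiberEquiv f), Nat.card_sigma, Finset.sum_mul,
      Finset.sum_const_nat (m := Nat.card G)]
    · simp [Nat.card_eq_fintype_card]
    · rintro ⟨c, g, rfl, hg⟩ _
      have e1 : {x // f x = ⟨ConjClasses.mk g, g, rfl, hg⟩} ≃ MulAction.orbit (ConjAct G) g :=
        { toFun := fun x => ⟨x.1.1, by
            rw [ConjAct.mem_orbit_conjAct, ← ConjClasses.mk_eq_mk_iff_isConj]
            exact congrArg Subtype.val x.2⟩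
          invFun := fun x => ⟨⟨x.1, by
              obtain ⟨c, hc⟩ := x.2
              rw [← hc, ← hg]
              show orderOf ((MulAut.conj (ConjAct.ofConjAct c)) g) = orderOf g
              exact MulEquiv.orderOf_eq _ g⟩, Subtype.ext (by
              show ConjClasses.mk x.1 = ConjClasses.mk g
              rw [ConjClasses.mk_eq_mk_iff_isConj, ← ConjAct.mem_orbit_conjAct]; exact x.2)⟩
          left_inv := fun _ => rfl
          right_inv := fun _ => rfl }
      rw [Nat.card_congr e1]
      conv_lhs => arg 2; rw [← hcent g hg, Subgroup.nat_card_centralizer_nat_card_stabilizer]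
      rw [← Nat.card_prod, Nat.card_congr (MulAction.orbitProdStabilizerEquivGroup (ConjAct G) g)]
      exact Nat.card_congr ConjAct.ofConjAct.toEquiv
  have hmod := card_sylow_modEq_one (p := p) (G := G)
  have hn : Nat.card (Sylow p G) = 1 + (Nat.card (Sylow p G) / p) * p := by
    have h := Nat.div_add_mod (Nat.card (Sylow p G)) p
    rw [Nat.ModEq, Nat.mod_eq_of_lt hp.one_lt] at hmod
    rw [hmod] at h
    rw [mul_comm]; omega
  refine ⟨Nat.card (Sylow p G) / p, Nat.card T, rfl, ?_, hn, ?_⟩
  · obtain ⟨P⟩ := (inferInstance : Nonempty (Sylow p G))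
    have hN := SmallOrder.card_normalizer_mul_card_sylow P
    have hdp : p ∣ Nat.card (Subgroup.normalizer ((P : Subgroup G) : Set G)) :=
      (dvd_of_eq (hSyl P).symm).trans (Subgroup.card_dvd_of_le Subgroup.le_normalizer)
    obtain ⟨e, he⟩ := hdp
    refine Dvd.intro e ?_
    have h3 : Nat.card (Sylow p G) * (p - 1) * p = Nat.card T * Nat.card G := hcount1 ▸ hcount2
    rw [← hN, he] at h3
    have hpos : 0 < Nat.card (Sylow p G) * p := Nat.mul_pos Nat.card_pos hp.pos
    exact Nat.eq_of_mul_eq_mul_right hpos (by rw [← mul_assoc, ← mul_assoc] at *; linarith)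
  · rw [← hn]
    rw [hcount1] at hcount2
    linarith

end Cfsg.Agent.S0995
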