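import Cfsg.Statements.S0996
import Cfsg.Agent.Screen.BrauerP.Reduce

set_option autoImplicit false
set_option linter.style.haveILetI false
open Cfsg Cfsg.Agent Cfsg.Agent.Screen.BrauerP

namespace Cfsg.Agent.S0996

/-- Let G be a finite perfect group containing an element z of prime order p whose centralizer is the cyclic group it generates, and suppose the number 1 + n * p of Sylow p-subgroups satisfies n < (p + 3) / 2. Then p > 3 and G is isomorphic to the projective special linear group of dimension 2 over the field with p elements, or p - 1 is a power of 2 and G is isomorphic to that group over the field with p - 1 elements. -/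
theorem result {G : Type*} [Group G] [Finite G] (hperf : commutator G = ⊤) (p : ℕ) [Fact p.Prime] (z : G) (hz : orderOf z = p) (hC : Subgroup.centralizer ({z} : Set G) = Subgroup.zpowers z) (hn : 2 * Nat.card (Sylow p G) < (p + 1) * (p + 2)) : (∃ (F : Type) (_ : Field F) (_ : Fintype F), Fintype.card F = p ∧ 3 < p ∧ Nonempty (G ≃* Matrix.ProjectiveSpecialLinearGroup (Fin 2) F)) ∨ (∃ (m : ℕ) (F : Type) (_ : Field F) (_ : Fintype F), Fintype.card F = 2 ^ m ∧ p = 2 ^ m + 1 ∧ 3 < p ∧ Nonempty (G ≃* Matrix.ProjectiveSpecialLinearGroup (Fin 2) F)) := by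
  haveI := Fintype.ofFinite G
  have hp : p.Prime := Fact.out
  haveI : NeZero p := ⟨hp.ne_zero⟩
  have hzC : IsPGroup p (Subgroup.zpowers z) := IsPGroup.of_card (n := 1) (by
    rw [Nat.card_zpowers, hz, pow_one])
  obtain ⟨P, hPle⟩ := hzC.exists_le_sylow
  have hPz : (P : Subgroup G) = Subgroup.zpowers z := by
    refine le_antisymm ?_ hPle
    haveI : Nontrivial (P : Subgroup G) := (Subgroup.nontrivial_iff_ne_bot _).2 fun h => by
      rw [h, le_bot_iff, Subgroup.zpowers_eq_bot] at hPle
      rw [hPle, orderOf_one] at hz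
      exact hp.ne_one hz.symm
    have hcen := P.2.center_nontrivial
    obtain ⟨w, hw⟩ := exists_ne (1 : Subgroup.center (P : Subgroup G))
    have hwz : ((w : (P : Subgroup G)) : G) ∈ Subgroup.zpowers z := by
      rw [← hC, Subgroup.mem_centralizer_singleton_iff]
      exact (congrArg Subtype.val (Subgroup.mem_center_iff.1 w.2 ⟨z, hPle (Subgroup.mem_zpowers z)⟩)).symm
    have hw1 : ((w : (P : Subgroup G)) : G) ≠ 1 := fun h =>
      hw (Subtype.ext (Subtype.ext h))
    intro y hy
    rw [← hC, Subgroup.mem_centralizer_singleton_iff]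
    have hwy : y * ((w : (P : Subgroup G)) : G) = ((w : (P : Subgroup G)) : G) * y :=
      congrArg Subtype.val (Subgroup.mem_center_iff.1 w.2 ⟨y, hy⟩)
    have hzw : Subgroup.zpowers ((w : (P : Subgroup G)) : G) = Subgroup.zpowers z := by
      refine Subgroup.eq_of_le_of_card_ge (Subgroup.zpowers_le.2 hwz) ?_
      have h := Subgroup.orderOf_dvd_natCard _ hwz
      rw [Nat.card_zpowers, hz] at h
      rw [Nat.card_zpowers, Nat.card_zpowers, hz,
        ((Nat.dvd_prime hp).1 h).resolve_left fun h0 => hw1 (orderOf_eq_one_iff.1 h0)]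
    obtain ⟨i, hi⟩ : z ∈ Subgroup.zpowers ((w : (P : Subgroup G)) : G) :=
      hzw ▸ Subgroup.mem_zpowers z
    rw [← hi]
    exact (Commute.zpow_right (show Commute y _ from hwy) i).eq
  have hP : Nat.card P = p := by
    show Nat.card (P : Subgroup G) = p
    rw [hPz, Nat.card_zpowers, hz]
  have hNmod : Nat.card (Sylow p G) % p = 1 := by
    have h := card_sylow_modEq_one p G
    rwa [Nat.ModEq, Nat.mod_eq_of_lt hp.one_lt] at h
  have hF : ¬ Formula p (Nat.card (Sylow p G)) := fun h => by
    have := h.bound hp hNmod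
    omega
  have hKp := Core.not_dvd_card_pPrimeCore p G
  have hcore : ∀ K : Subgroup G, K.Normal → ¬ p ∣ Nat.card K → K = ⊥ := by
    intro K hK hKp
    haveI := hK
    by_cases hc : K ≤ Subgroup.centralizer ((P : Subgroup G) : Set G)
    · have hle : K ≤ Subgroup.zpowers z := fun k hk => by
        rw [← hC, Subgroup.mem_centralizer_singleton_iff]
        exact ((Subgroup.mem_centralizer_iff.1 (hc hk)) z (hPle (Subgroup.mem_zpowers z))).symm
      have h := Subgroup.card_dvd_of_le hle
      rw [Nat.card_zpowers, hz] at h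
      rcases (Nat.dvd_prime hp).1 h with h1 | h1
      · exact Subgroup.card_eq_one.1 h1
      · exact absurd (h1 ▸ dvd_rfl) hKp
    · have h := sylow_bound hperf P hP K hKp hc
      nlinarith
  rcases core hperf P hP hcore hF with ⟨h3, hiso⟩ | ⟨a, F, iF, iFt, hpa, h3, hcF, ⟨e⟩⟩
  · exact Or.inl ⟨ZMod p, inferInstance, inferInstance, ZMod.card p, h3, hiso⟩
  · have ha : 1 ≤ a := by
      rcases Nat.eq_zero_or_pos a with h | h
      · subst h; simp at hpa; omega
      · exact h
    obtain ⟨e'⟩ := (card_sl2_even ha hcF).2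
    exact Or.inr ⟨a, F, iF, iFt, hcF, hpa, h3, ⟨e.trans e'⟩⟩

end Cfsg.Agent.S0996
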