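import Cfsg.Statements.S0999
import Cfsg.Agent.Screen.BrauerP.Reduce
import Cfsg.Agent.S4701

set_option autoImplicit false
set_option linter.style.haveILetI false
open Cfsg Cfsg.Agent Cfsg.Agent.Screen.BrauerP

namespace Cfsg.Agent.S0999

/-- Let G be a non-cyclic finite simple group and p a prime divisor of its order with p^3 > |G|. Then p > 3 and G is isomorphic to the projective special linear group of dimension 2 over the field with p elements, or p - 1 is a power of 2 and G is isomorphic to that group over the field with p - 1 elements. -/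
theorem result {G : Type*} [Group G] [Finite G] [IsSimpleGroup G] (hG : ¬ IsCyclic G) (p : ℕ) (hp : p.Prime) (hdvd : p ∣ Nat.card G) (hbig : Nat.card G < p ^ 3) : (∃ (F : Type) (_ : Field F) (_ : Fintype F), Fintype.card F = p ∧ 3 < p ∧ Nonempty (G ≃* Matrix.ProjectiveSpecialLinearGroup (Fin 2) F)) ∨ (∃ (m : ℕ) (F : Type) (_ : Field F) (_ : Fintype F), Fintype.card F = 2 ^ m ∧ p = 2 ^ m + 1 ∧ 3 < p ∧ Nonempty (G ≃* Matrix.ProjectiveSpecialLinearGroup (Fin 2) F)) := by
  haveI : Fact p.Prime := ⟨hp⟩
  have hperf : commutator G = ⊤ := by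
    rcases (inferInstance : (commutator G).Normal).eq_bot_or_eq_top with h | h
    · exfalso
      refine hG ?_
      rw [commutator_def, Subgroup.commutator_eq_bot_iff_le_centralizer] at h
      letI : CommGroup G := { (inferInstance : Group G) with
        mul_comm := fun a b => (Subgroup.mem_centralizer_iff.1 (h (Subgroup.mem_top b)) a
          (Subgroup.mem_top a)) }
      exact IsSimpleGroup.isCyclic
    · exact h
  obtain ⟨P⟩ := (inferInstance : Nonempty (Sylow p G))
  have hPn : ¬ (P : Subgroup G).Normal := by
    intro hn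
    have hne : (P : Subgroup G) ≠ ⊥ := fun h => by
      have h1 := P.dvd_card_of_dvd_card hdvd
      rw [show Nat.card P = Nat.card (P : Subgroup G) from rfl, h, Subgroup.card_bot] at h1
      exact hp.not_dvd_one h1
    have htop := hn.eq_bot_or_eq_top.resolve_left hne
    have hpG : IsPGroup p G := by
      have h := P.2
      rw [htop] at h
      exact h.of_equiv Subgroup.topEquiv
    haveI := hpG.center_nontrivial
    have hc : Subgroup.center G = ⊤ :=
      (inferInstance : (Subgroup.center G).Normal).eq_bot_or_eq_top.resolve_left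
        ((Subgroup.nontrivial_iff_ne_bot _).1 inferInstance)
    have hcb : commutator G = ⊥ := by
      rw [commutator_def, Subgroup.commutator_eq_bot_iff_le_centralizer, Subgroup.coe_top,
        Subgroup.centralizer_univ, hc]
    rw [hperf] at hcb
    exact top_ne_bot hcb
  have h2 : ∀ N : Subgroup G, N.Normal → Nat.card N ≠ 2 := by
    intro N hN hc
    rcases hN.eq_bot_or_eq_top with h | h
    · rw [h, Subgroup.card_bot] at hc; omega
    · rw [h, Subgroup.card_top] at hc
      haveI : Fact (2 : ℕ).Prime := ⟨Nat.prime_two⟩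
      exact hG (isCyclic_of_prime_card hc)
  rcases S4701.result hperf p hdvd hbig P hPn h2 with h | ⟨m, F, iF, iFt, hcF, hpm, h3, ⟨e⟩⟩
  · exact Or.inl h
  · have hm : 1 ≤ m := by
      rcases Nat.eq_zero_or_pos m with h | h
      · subst h; simp at hpm; omega
      · exact h
    obtain ⟨e'⟩ := (card_sl2_even hm hcF).2
    exact Or.inr ⟨m, F, iF, iFt, hcF, hpm, h3, ⟨e.trans e'⟩⟩

end Cfsg.Agent.S0999
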