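import Cfsg.Statements.S1004
import Cfsg.Agent.SmallOrder.S168

set_option autoImplicit false
open Cfsg

namespace Cfsg.Agent.S1004

/-- Let G be a simple group of order 168 and T a Sylow 2-subgroup. Then T is dihedral of order 8, T is its own normalizer, and T is the centralizer of any non-identity element of T that commutes with every element of T. -/
theorem result {G : Type*} [Group G] [Finite G] [IsSimpleGroup G] (h : Nat.card G = 168) (T : Sylow 2 G) : Nonempty (↥(T : Subgroup G) ≃* DihedralGroup 4) ∧ Subgroup.normalizer ((T : Subgroup G) : Set G) = T ∧ ∀ z : G, z ∈ (T : Subgroup G) → z ≠ 1 → (∀ t ∈ (T : Subgroup G), t * z = z * t) → Subgroup.centralizer ({z} : Set G) = T := by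
  obtain ⟨e, he⟩ := SmallOrder.S168.exists_sylow_equiv h T
  have hmem : ∀ x : G, x ∈ (T : Subgroup G) ↔ SmallOrder.S168.InT (e x) := by
    intro x
    rw [← SmallOrder.S168.mem_T0, ← he]
    exact (Subgroup.mem_map_iff_mem e.injective).symm
  obtain ⟨d⟩ := SmallOrder.S168.nonempty_T0_dihedral
  refine ⟨⟨(((T : Subgroup G).equivMapOfInjective e.toMonoidHom e.injective).trans
    (MulEquiv.subgroupCongr he)).trans d⟩, ?_, fun z hz hz1 hcz => ?_⟩
  · refine le_antisymm (fun g hg => (hmem g).2 (SmallOrder.S168.normalizer_T0_le _ fun t ht => ?_))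
      Subgroup.le_normalizer
    have h1 := (hmem _).1 ((Subgroup.mem_normalizer_iff.1 hg (e.symm t)).1 ((hmem _).2 (by simpa using ht)))
    simpa using h1
  · have key := SmallOrder.S168.center_T0 (e z) ((hmem z).1 hz)
      (fun h1 => hz1 (e.injective (h1.trans (map_one e).symm))) fun t ht => by
        have h1 := congrArg e (hcz (e.symm t) ((hmem _).2 (by simpa using ht)))
        simpa using h1
    ext g
    rw [Subgroup.mem_centralizer_singleton_iff, hmem, ← key (e g), ← map_mul, ← map_mul]
    exact e.injective.eq_iff.symm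

end Cfsg.Agent.S1004
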