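import Cfsg.Statements.S1006
import Cfsg.Agent.SmallOrder.S168

set_option autoImplicit false
open Cfsg

namespace Cfsg.Agent.S1006

/-- In a simple group of order 168 there are 56 elements of order 3, all conjugate; 42 elements of order 4, all conjugate; and 48 elements of order 7 falling into two conjugacy classes of size 24, an element of order 7 not being conjugate to its inverse. -/
theorem result {G : Type*} [Group G] [Finite G] [IsSimpleGroup G] (h : Nat.card G = 168) : Nat.card {g : G // orderOf g = 3} = 56 ∧ (∀ s t : G, orderOf s = 3 → orderOf t = 3 → IsConj s t) ∧ Nat.card {g : G // orderOf g = 4} = 42 ∧ (∀ s t : G, orderOf s = 4 → orderOf t = 4 → IsConj s t) ∧ Nat.card {g : G // orderOf g = 7} = 48 ∧ ∀ x : G, orderOf x = 7 → Nat.card {g : G // IsConj x g} = 24 ∧ ¬ IsConj x x⁻¹ := by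
  obtain ⟨e⟩ := SmallOrder.S168.exists_equiv h
  refine ⟨by rw [SmallOrder.S168.card_orderOf e, SmallOrder.S168.card_three], fun s t hs ht => ?_,
    by rw [SmallOrder.S168.card_orderOf e, SmallOrder.S168.card_four], fun s t hs ht => ?_,
    by rw [SmallOrder.S168.card_orderOf e, SmallOrder.S168.card_seven], fun x hx => ?_⟩
  · rw [← e.orderOf_eq] at hs ht
    obtain ⟨c, hc⟩ := SmallOrder.S168.conj_three _ _ (SmallOrder.S168.orderOf_three.1 hs) (SmallOrder.S168.orderOf_three.1 ht)
    exact isConj_iff.2 ⟨e.symm c, e.injective (by simp [hc])⟩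
  · rw [← e.orderOf_eq] at hs ht
    obtain ⟨c, hc⟩ := SmallOrder.S168.conj_four _ _ (SmallOrder.S168.orderOf_four.1 hs) (SmallOrder.S168.orderOf_four.1 ht)
    exact isConj_iff.2 ⟨e.symm c, e.injective (by simp [hc])⟩
  · rw [← e.orderOf_eq] at hx
    have h7 := SmallOrder.S168.orderOf_seven.1 hx
    refine ⟨?_, fun hc => ?_⟩
    · rw [← SmallOrder.S168.card_conj_seven h7]
      exact Nat.card_congr (e.toEquiv.subtypeEquiv fun g => by
        constructor
        · exact fun hg => e.toMonoidHom.map_isConj hg
        · intro hg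
          have h1 := e.symm.toMonoidHom.map_isConj hg
          simpa using h1)
    · obtain ⟨c, hc⟩ := isConj_iff.1 hc
      exact SmallOrder.S168.seven_not_real (e x) h7 (e c)
        (by rw [← map_inv e c, ← map_mul, ← map_mul, hc, map_inv])

end Cfsg.Agent.S1006
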