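import Cfsg.Statements.S1008
import Cfsg.Agent.SmallOrder.S168Max

set_option autoImplicit false
open Cfsg

namespace Cfsg.Agent.S1008

/-- In a simple group of order 168 every maximal subgroup is either isomorphic to the symmetric group of degree 4 or non-abelian of order 21; the maximal subgroups of order 21 form one conjugacy class and those isomorphic to the symmetric group of degree 4 form exactly two conjugacy classes. -/
theorem result {G : Type*} [Group G] [Finite G] [IsSimpleGroup G] (h : Nat.card G = 168) : (∀ M : Subgroup G, IsCoatom M → Nonempty (↥M ≃* Equiv.Perm (Fin 4)) ∨ (Nat.card ↥M = 21 ∧ ¬ IsMulCommutative ↥M)) ∧ (∀ M M' : Subgroup G, IsCoatom M → IsCoatom M' → Nat.card ↥M = 21 → Nat.card ↥M' = 21 → ∃ g : G, M' = M.map (MulAut.conj g).toMonoidHom) ∧ ∃ M₁ M₂ : Subgroup G, IsCoatom M₁ ∧ IsCoatom M₂ ∧ Nonempty (↥M₁ ≃* Equiv.Perm (Fin 4)) ∧ Nonempty (↥M₂ ≃* Equiv.Perm (Fin 4)) ∧ (∀ g : G, M₂ ≠ M₁.map (MulAut.conj g).toMonoidHom) ∧ ∀ M : Subgroup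 G, IsCoatom M → Nonempty (↥M ≃* Equiv.Perm (Fin 4)) → ∃ g : G, M = M₁.map (MulAut.conj g).toMonoidHom ∨ M = M₂.map (MulAut.conj g).toMonoidHom := by
  obtain ⟨e⟩ := SmallOrder.S168.exists_equiv h
  have hinj : Function.Injective e.toMonoidHom := e.injective
  have hcm : ∀ K : Subgroup G, (K.map e.toMonoidHom).comap e.toMonoidHom = K :=
    fun U => Subgroup.comap_map_eq_self_of_injective hinj U
  have hmc : ∀ K : Subgroup SmallOrder.S168.M, (K.comap e.toMonoidHom).map e.toMonoidHom = K :=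
    fun V => Subgroup.map_comap_eq_self_of_surjective e.surjective V
  have hco : ∀ K : Subgroup G, IsCoatom K → IsCoatom (K.map e.toMonoidHom) := fun K hK =>
    (OrderIso.isCoatom_iff (e.mapSubgroup) K).2 hK
  have hco' : ∀ K : Subgroup SmallOrder.S168.M, IsCoatom K → IsCoatom (K.comap e.toMonoidHom) := by
    intro K hK
    refine (OrderIso.isCoatom_iff (e.mapSubgroup) _).1 ?_
    show IsCoatom ((K.comap e.toMonoidHom).map e.toMonoidHom)
    rw [hmc]; exact hK
  have hconj : ∀ (K : Subgroup SmallOrder.S168.M) (g : G), (K.map (MulAut.conj (e g)).toMonoidHom).comap e.toMonoidHom =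
      (K.comap e.toMonoidHom).map (MulAut.conj g).toMonoidHom := by
    intro K g
    ext x
    simp only [Subgroup.mem_comap, Subgroup.mem_map, MulEquiv.coe_toMonoidHom, MulAut.conj_apply]
    constructor
    · rintro ⟨v, hv, hvx⟩
      exact ⟨e.symm v, by simpa using hv, e.injective (by simp [hvx])⟩
    · rintro ⟨v, hv, rfl⟩
      exact ⟨e v, hv, by simp⟩
  have hcases : ∀ M : Subgroup G, IsCoatom M → ∃ g : G,
      M = (SmallOrder.S168.N7.comap e.toMonoidHom).map (MulAut.conj g).toMonoidHom ∨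
      M = (SmallOrder.S168.NA.comap e.toMonoidHom).map (MulAut.conj g).toMonoidHom ∨
      M = (SmallOrder.S168.NB.comap e.toMonoidHom).map (MulAut.conj g).toMonoidHom := by
    intro M hM
    obtain ⟨g, hg⟩ := SmallOrder.S168.coatom_cases (hco M hM)
    obtain ⟨g, rfl⟩ := e.surjective g
    refine ⟨g, ?_⟩
    rw [← hconj, ← hconj, ← hconj, ← hcm M]
    rcases hg with h' | h' | h' <;> rw [h']
    exacts [Or.inl rfl, Or.inr (Or.inl rfl), Or.inr (Or.inr rfl)]
  have hiso : ∀ K : Subgroup SmallOrder.S168.M, Nonempty (↥(K.comap e.toMonoidHom) ≃* K) := fun K =>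
    ⟨((K.comap e.toMonoidHom).equivMapOfInjective e.toMonoidHom hinj).trans (MulEquiv.subgroupCongr (hmc K))⟩
  have hiso' : ∀ (K : Subgroup G) (g : G), Nonempty (↥(K.map (MulAut.conj g).toMonoidHom) ≃* K) := fun K g =>
    ⟨(K.equivMapOfInjective (MulAut.conj g).toMonoidHom (MulAut.conj g).injective).symm⟩
  have h21 : Nat.card ↥(SmallOrder.S168.N7.comap e.toMonoidHom) = 21 := by
    obtain ⟨d⟩ := hiso SmallOrder.S168.N7
    rw [Nat.card_congr d.toEquiv, SmallOrder.S168.card_N7]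
  have hA : Nonempty (↥(SmallOrder.S168.NA.comap e.toMonoidHom) ≃* Equiv.Perm (Fin 4)) := by
    obtain ⟨d⟩ := hiso SmallOrder.S168.NA
    obtain ⟨d'⟩ := SmallOrder.S168.normalizer_V1_perm
    exact ⟨d.trans d'⟩
  have hB : Nonempty (↥(SmallOrder.S168.NB.comap e.toMonoidHom) ≃* Equiv.Perm (Fin 4)) := by
    obtain ⟨d⟩ := hiso SmallOrder.S168.NB
    obtain ⟨d'⟩ := SmallOrder.S168.normalizer_V2_perm
    exact ⟨d.trans d'⟩
  have h24 : ∀ (K : Subgroup G), Nonempty (↥K ≃* Equiv.Perm (Fin 4)) → Nat.card ↥K = 24 := by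
    rintro K ⟨d⟩
    rw [Nat.card_congr d.toEquiv, Nat.card_perm]; simp [Nat.factorial]
  refine ⟨fun M hM => ?_, fun M M' hM hM' hc hc' => ?_,
    SmallOrder.S168.NA.comap e.toMonoidHom, SmallOrder.S168.NB.comap e.toMonoidHom,
    hco' _ (SmallOrder.S168.isCoatom_of_card (Or.inr SmallOrder.S168.card_NA)),
    hco' _ (SmallOrder.S168.isCoatom_of_card (Or.inr SmallOrder.S168.card_NB)), hA, hB, fun g hg => ?_,
    fun M hM hS => ?_⟩
  · obtain ⟨g, rfl | rfl | rfl⟩ := hcases M hM
    · refine Or.inr ⟨?_, fun hc => ?_⟩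
      · obtain ⟨d⟩ := hiso' (SmallOrder.S168.N7.comap e.toMonoidHom) g
        rw [Nat.card_congr d.toEquiv, h21]
      · obtain ⟨a, b, ha, hb, hab⟩ := SmallOrder.S168.nonab_N7
        refine hab ?_
        have hm : ∀ x, SmallOrder.S168.InN7 x → g * e.symm x * g⁻¹ ∈
            (SmallOrder.S168.N7.comap e.toMonoidHom).map (MulAut.conj g).toMonoidHom := fun x hx =>
          ⟨e.symm x, by simpa using SmallOrder.S168.mem_N7.2 hx, rfl⟩
        have h1 := congrArg Subtype.val (hc.is_comm.comm ⟨_, hm a ha⟩ ⟨_, hm b hb⟩)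
        have h2 : e.symm (a * b) = e.symm (b * a) := by
          have h3 := congrArg (fun z => g⁻¹ * z * g) h1
          simp only [Subgroup.coe_mul] at h3
          rw [map_mul, map_mul]
          calc e.symm a * e.symm b = g⁻¹ * (g * e.symm a * g⁻¹ * (g * e.symm b * g⁻¹)) * g := by group
            _ = _ := h3
            _ = e.symm b * e.symm a := by group
        exact e.symm.injective h2
    · obtain ⟨d⟩ := hiso' (SmallOrder.S168.NA.comap e.toMonoidHom) g
      exact Or.inl ⟨d.trans hA.some⟩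
    · obtain ⟨d⟩ := hiso' (SmallOrder.S168.NB.comap e.toMonoidHom) g
      exact Or.inl ⟨d.trans hB.some⟩
  · have key : ∀ K : Subgroup G, IsCoatom K → Nat.card ↥K = 21 → ∃ g : G,
        K = (SmallOrder.S168.N7.comap e.toMonoidHom).map (MulAut.conj g).toMonoidHom := by
      intro K hK hKc
      obtain ⟨g, rfl | rfl | rfl⟩ := hcases K hK
      · exact ⟨g, rfl⟩
      · obtain ⟨d⟩ := hiso' (SmallOrder.S168.NA.comap e.toMonoidHom) g
        rw [Nat.card_congr d.toEquiv, h24 _ hA] at hKc; omega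
      · obtain ⟨d⟩ := hiso' (SmallOrder.S168.NB.comap e.toMonoidHom) g
        rw [Nat.card_congr d.toEquiv, h24 _ hB] at hKc; omega
    obtain ⟨g, rfl⟩ := key M hM hc
    obtain ⟨g', rfl⟩ := key M' hM' hc'
    refine ⟨g' * g⁻¹, ?_⟩
    rw [Subgroup.map_map]
    congr 1
    ext x
    simp [mul_assoc]
  · obtain ⟨a, ha, ha'⟩ := SmallOrder.S168.not_conj_AB (e g)
    have h1 : g * e.symm a * g⁻¹ ∈ SmallOrder.S168.NB.comap e.toMonoidHom := by
      rw [hg]
      refine ⟨e.symm a, ?_, rfl⟩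
      show e.toMonoidHom (e.symm a) ∈ SmallOrder.S168.NA
      rw [MulEquiv.coe_toMonoidHom, e.apply_symm_apply]
      exact SmallOrder.S168.mem_normalizer_V1.2 ha
    refine ha' (SmallOrder.S168.mem_normalizer_V2.1 ?_)
    have h2 : e (g * e.symm a * g⁻¹) ∈ SmallOrder.S168.NB := h1
    rwa [map_mul, map_mul, e.apply_symm_apply, map_inv] at h2
  · obtain ⟨g, rfl | rfl | rfl⟩ := hcases M hM
    · obtain ⟨d⟩ := hiso' (SmallOrder.S168.N7.comap e.toMonoidHom) g
      have := h24 _ hS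
      rw [Nat.card_congr d.toEquiv, h21] at this
      omega
    · exact ⟨g, Or.inl rfl⟩
    · exact ⟨g, Or.inr rfl⟩

end Cfsg.Agent.S1008
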