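import Cfsg.Statements.S1013
import Mathlib
-- import your own Cfsg.Agent.* helpers here

set_option autoImplicit false
open Cfsg

namespace Cfsg.Agent.S1013

/-- Let G be a transitive permutation group of prime degree p having more than one Sylow p-subgroup, and suppose a Sylow p-subgroup P has prime index in its normalizer. Then G is simple. -/
theorem result {α : Type*} [Fintype α] [DecidableEq α] {p : ℕ} [Fact p.Prime] (hα : Fintype.card α = p) (G : Subgroup (Equiv.Perm α)) [MulAction.IsPretransitive ↥G α] (P : Sylow p ↥G) (hn : 1 < Nat.card (Sylow p ↥G)) (ht : (((P : Subgroup ↥G).subgroupOf (Subgroup.normalizer ((P : Subgroup ↥G) : Set ↥G))).index).Prime) : IsSimpleGroup ↥G := by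
  classical
  have hp : p.Prime := Fact.out
  have hcα : Nat.card α = p := by rw [Nat.card_eq_fintype_card, hα]
  haveI : Nonempty α := Finite.card_pos_iff.1 (hcα ▸ hp.pos)
  haveI : MulAction.IsPreprimitive ↥G α := MulAction.IsPreprimitive.of_prime_card (hcα ▸ hp)
  have hfaith : ∀ g : ↥G, (∀ x : α, g • x = x) → g = 1 := fun g h => Subtype.ext (Equiv.ext h)
  have hsq : ¬ p ^ 2 ∣ Nat.card ↥G := by
    intro h
    have h1 : p ^ 2 ∣ p.factorial := by
      refine h.trans ?_
      have h2 := Subgroup.card_subgroup_dvd_card G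
      rwa [Nat.card_perm, hcα] at h2
    rw [← Nat.mul_factorial_pred hp.ne_zero, pow_two] at h1
    exact absurd ((Nat.Prime.dvd_factorial hp).1 (Nat.dvd_of_mul_dvd_mul_left hp.pos h1))
      (by have := hp.pos; omega)
  have horb : ∀ a : α, p ∣ Nat.card ↥G := fun a => by
    have := MulAction.index_stabilizer_of_transitive ↥G a
    exact (this.trans hcα) ▸ Subgroup.index_dvd_card _
  have hdvd : p ∣ Nat.card ↥G := horb (Classical.arbitrary α)
  have hP : ∀ Q : Sylow p ↥G, Nat.card Q = p := by
    intro Q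
    rw [Q.card_eq_multiplicity]
    have h1 : 1 ≤ (Nat.card ↥G).factorization p := hp.factorization_pos_of_dvd Nat.card_pos.ne' hdvd
    have h2 : (Nat.card ↥G).factorization p < 2 := by
      by_contra h2
      exact hsq ((hp.pow_dvd_iff_le_factorization Nat.card_pos.ne').2 (not_lt.1 h2))
    rw [show (Nat.card ↥G).factorization p = 1 by omega, pow_one]
  haveI : Nontrivial ↥G := Finite.one_lt_card_iff_nontrivial.1
    (lt_of_lt_of_le hp.one_lt (Nat.le_of_dvd Nat.card_pos hdvd))
  refine ⟨fun K hK => ?_⟩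
  by_cases hKb : K = ⊥
  · exact Or.inl hKb
  right
  haveI := hK
  haveI : MulAction.IsPretransitive K α := MulAction.IsQuasiPreprimitive.isPretransitive_of_normal (by
    intro h
    refine hKb ((Subgroup.eq_bot_iff_forall _).2 fun g hg => hfaith g fun b => ?_)
    exact Set.eq_univ_iff_forall.1 h b ⟨g, hg⟩)
  -- `K` contains every Sylow subgroup
  have hKp : p ∣ Nat.card K := by
    have := MulAction.index_stabilizer_of_transitive K (Classical.arbitrary α)
    exact (this.trans hcα) ▸ Subgroup.index_dvd_card _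
  obtain ⟨k₀, hk₀⟩ := exists_prime_orderOf_dvd_card' p hKp
  have hz : IsPGroup p (Subgroup.zpowers (k₀ : ↥G)) :=
    IsPGroup.of_card (n := 1) (by rw [Nat.card_zpowers, Subgroup.orderOf_coe, hk₀, pow_one])
  obtain ⟨Q, hQ⟩ := hz.exists_le_sylow
  have hQK : (Q : Subgroup ↥G) ≤ K := by
    rw [← Subgroup.eq_of_le_of_card_ge hQ
      (by rw [hP, Nat.card_zpowers, Subgroup.orderOf_coe, hk₀]), Subgroup.zpowers_le]
    exact k₀.2
  have hPK : (P : Subgroup ↥G) ≤ K := by
    obtain ⟨g, hg⟩ := MulAction.exists_smul_eq ↥G Q P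
    rw [← hg, Sylow.coe_subgroup_smul]
    rintro _ ⟨y, hy, rfl⟩
    exact hK.conj_mem y (hQK hy) g
  set N := Subgroup.normalizer ((P : Subgroup ↥G) : Set ↥G) with hNdef
  have hsup : K ⊔ N = ⊤ := by
    have h := Sylow.normalizer_sup_eq_top (P.subtype hPK)
    rw [Sylow.coe_subtype, Subgroup.map_subgroupOf_eq_of_le hPK] at h
    rwa [sup_comm]
  -- the prime index forces `K = ⊤`
  by_contra hKtop
  have hPN : (P : Subgroup ↥G) ≤ N := Subgroup.le_normalizer
  set L := K.subgroupOf N
  have hPL : (P : Subgroup ↥G).subgroupOf N ≤ L := fun x hx => hPK hx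
  have hLtop : L ≠ ⊤ := fun e => hKtop (by
    have hNK : N ≤ K := fun n hn => by
      have : (⟨n, hn⟩ : N) ∈ L := e ▸ Subgroup.mem_top _
      exact this
    exact (sup_eq_left.2 hNK).symm.trans hsup)
  have hLP : L = (P : Subgroup ↥G).subgroupOf N := by
    have h1 := Subgroup.relIndex_mul_index hPL
    rcases (Nat.dvd_prime ht).1 (h1 ▸ dvd_mul_left L.index _) with e | e
    · exact absurd (Subgroup.index_eq_one.1 e) hLtop
    · refine le_antisymm (Subgroup.relIndex_eq_one.1 ?_) hPL
      rw [e] at h1
      exact Nat.eq_of_mul_eq_mul_right ht.pos (h1.trans (one_mul _).symm)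
  -- Burnside transfer inside `K`
  let PK : Sylow p K := P.subtype hPK
  have hNC : Subgroup.normalizer ((PK : Subgroup K) : Set K) ≤ Subgroup.centralizer ((PK : Subgroup K) : Set K) := by
    intro x hx
    have hxN : (x : ↥G) ∈ N := by
      rw [hNdef, Subgroup.mem_normalizer_iff]
      intro y
      constructor
      · intro hy
        exact (Subgroup.mem_normalizer_iff.1 hx ⟨y, hPK hy⟩).1 hy
      · intro hy
        have hyK : y ∈ K := by
          have := hK.conj_mem _ (hPK hy) (x : ↥G)⁻¹
          simpa [mul_assoc] using this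
        exact (Subgroup.mem_normalizer_iff.1 hx ⟨y, hyK⟩).2 hy
    have hxP : (x : ↥G) ∈ (P : Subgroup ↥G) := by
      have : (⟨(x : ↥G), hxN⟩ : N) ∈ L := x.2
      rw [hLP] at this
      exact this
    rw [Subgroup.mem_centralizer_iff]
    intro y hy
    haveI : IsCyclic (P : Subgroup ↥G) := isCyclic_of_prime_card (hP P)
    letI := IsCyclic.commGroup (α := (P : Subgroup ↥G))
    have hyP : ((y : K) : ↥G) ∈ (P : Subgroup ↥G) := hy
    have h := congrArg Subtype.val (mul_comm (⟨(y : ↥G), hyP⟩ : (P : Subgroup ↥G)) ⟨x, hxP⟩)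
    exact Subtype.ext h
  have hcomp := MonoidHom.ker_transferSylow_isComplement' PK hNC
  set C := (MonoidHom.transferSylow PK hNC).ker
  have hPKcard : Nat.card PK = p := by
    rw [show Nat.card PK = Nat.card ((P : Subgroup ↥G).subgroupOf K) from rfl,
      Nat.card_congr (Subgroup.subgroupOfEquivOfLe hPK).toEquiv, hP]
  have hCp : ¬ p ∣ Nat.card C := by
    intro h
    refine hsq ((?_ : p ^ 2 ∣ Nat.card K).trans (Subgroup.card_subgroup_dvd_card K))
    rw [← hcomp.card_mul, hPKcard, pow_two]
    exact mul_dvd_mul_right h p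
  -- `C` is normal in `G`
  let C' := C.map K.subtype
  haveI hC' : C'.Normal := by
    refine ⟨?_⟩
    rintro _ ⟨c, hc, rfl⟩ g
    refine ⟨⟨g * c * g⁻¹, hK.conj_mem _ c.2 g⟩, ?_, rfl⟩
    -- elements of order prime to p map trivially to the Sylow subgroup
    rw [SetLike.mem_coe, MonoidHom.mem_ker]
    set z : K := ⟨g * c * g⁻¹, hK.conj_mem _ c.2 g⟩
    have ho : orderOf z = orderOf c := by
      rw [← Subgroup.orderOf_coe, ← Subgroup.orderOf_coe c]
      exact orderOf_injective (MulAut.conj g).toMonoidHom (MulAut.conj g).injective (c : ↥G)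
    have h1 : orderOf (MonoidHom.transferSylow PK hNC z) ∣ orderOf c := ho ▸ orderOf_map_dvd _ z
    have h2 : orderOf (MonoidHom.transferSylow PK hNC z) ∣ p := (orderOf_dvd_natCard _).trans hPKcard.dvd
    rcases (Nat.dvd_prime hp).1 h2 with e | e
    · exact orderOf_eq_one_iff.1 e
    · rw [e] at h1
      exact absurd (h1.trans (Subgroup.orderOf_dvd_natCard C hc)) hCp
  by_cases hCb : C = ⊥
  · -- then `P = K` is normal, contradiction
    have hKP : Nat.card K = p := by
      rw [← hcomp.card_mul, hCb, Subgroup.card_bot, one_mul, hPKcard]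
    have e : (P : Subgroup ↥G) = K := Subgroup.eq_of_le_of_card_ge hPK (by rw [hKP, hP])
    haveI : (P : Subgroup ↥G).Normal := e ▸ hK
    haveI := Sylow.unique_of_normal P ‹_›
    rw [Nat.card_of_subsingleton P] at hn
    exact lt_irrefl _ hn
  · haveI : MulAction.IsPretransitive C' α := MulAction.IsQuasiPreprimitive.isPretransitive_of_normal (by
      intro h
      refine hCb ((Subgroup.eq_bot_iff_forall _).2 fun c hc => Subtype.ext (hfaith c fun b => ?_))
      exact Set.eq_univ_iff_forall.1 h b ⟨(c : ↥G), Subgroup.mem_map_of_mem K.subtype hc⟩)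
    refine hCp ?_
    rw [Nat.card_congr (C.equivMapOfInjective K.subtype K.subtype_injective).toEquiv]
    have := MulAction.index_stabilizer_of_transitive C' (Classical.arbitrary α)
    exact (this.trans hcα) ▸ Subgroup.index_dvd_card _

end Cfsg.Agent.S1013
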