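import Cfsg.Statements.S1014
import Cfsg.Agent.SmallOrder.DegreeSucc

set_option autoImplicit false
open Cfsg

namespace Cfsg.Agent.S1014

/-- No finite simple group has order 1104 = 2^4 * 3 * 23. -/
theorem result {G : Type*} [Group G] [Finite G] [IsSimpleGroup G] : Nat.card G ≠ 1104 := by

  intro h
  have : Fact (Nat.Prime 23) := ⟨by norm_num⟩
  have hG : ¬ IsMulCommutative G := SmallOrder.not_comm_of_not_prime (by rw [h]; norm_num)
  have hn := SmallOrder.card_sylow_eq_succ hG (p := 23) (m := 48) (by rw [h]; norm_num) (by norm_num) (by decide +kernel)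
  rcases SmallOrder.degree_succ_cases hG hn (d := 2) (by rw [h]) (by norm_num) (SmallOrder.ne_two_pow (by decide)) with ⟨h1, -⟩ | ⟨h1, -⟩ <;> omega

end Cfsg.Agent.S1014
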