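import Cfsg.Statements.S1015
import Cfsg.Agent.SmallOrder.Exclude

set_option autoImplicit false
open Cfsg

namespace Cfsg.Agent.S1015

/-- No finite simple group has order 1200 = 2^4 * 3 * 5^2. -/
theorem result {G : Type*} [Group G] [Finite G] [IsSimpleGroup G] : Nat.card G ≠ 1200 := by
  intro h
  have hG : ¬ IsMulCommutative G := SmallOrder.not_comm_of_not_prime (by rw [h]; norm_num)
  have : Fact (Nat.Prime 5) := ⟨by norm_num⟩
  obtain ⟨P⟩ := (inferInstance : Nonempty (Sylow 5 G))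
  obtain ⟨-, -, hd, hm⟩ := SmallOrder.sylow_arith P (a := 2) (m := 48) (by rw [h]; norm_num) (by norm_num)
  have hne := SmallOrder.card_sylow_ne_one (p := 5) hG (by rw [h]; norm_num)
  have hfac := SmallOrder.two_mul_card_dvd_factorial_sylow (p := 5) hG (by rw [h]; norm_num)
  rw [h] at hfac
  have hn : Nat.card (Sylow 5 G) % 5 ^ 2 ≠ 1 := by
    have h6 : Nat.card (Sylow 5 G) = 6 ∨ Nat.card (Sylow 5 G) = 16 :=
      (by decide : ∀ n ∈ Nat.divisors 48, n % 5 = 1 → n ≠ 1 → n = 6 ∨ n = 16) _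
        (Nat.mem_divisors.mpr ⟨hd, by norm_num⟩) hm hne
    rcases h6 with e | e <;> rw [e] <;> norm_num
  obtain ⟨K, hK, s, hs1, hsp, hsd⟩ := SmallOrder.exists_index_of_sylow_inf (p := 5) (a := 2) (m := 48)
    (by rw [h]; norm_num) (by norm_num) le_rfl hn
  have hs : s = 6 ∨ s = 16 :=
    (by decide : ∀ n ∈ Nat.divisors 48, n % 5 = 1 → n ≠ 1 → n = 6 ∨ n = 16) _
      (Nat.mem_divisors.mpr ⟨(dvd_mul_right _ _).trans hsd, by norm_num⟩) hsp hs1
  have h8 : K.index ∣ 8 ∨ K.index ∣ 3 := by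
    rcases hs with rfl | rfl
    · left; exact Nat.dvd_of_mul_dvd_mul_left (by norm_num) (hsd.trans (dvd_of_eq (by norm_num : 48 = 6 * 8)))
    · right; exact Nat.dvd_of_mul_dvd_mul_left (by norm_num) (hsd.trans (dvd_of_eq (by norm_num : 48 = 16 * 3)))
  rcases h8 with h8 | h8 <;> exact SmallOrder.false_of_index_dvd hG h hK h8 (by norm_num) (by decide)

end Cfsg.Agent.S1015
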