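import Cfsg.Statements.S1017
import Cfsg.Agent.SmallOrder.Exclude
import Cfsg.Agent.S0904

set_option autoImplicit false
open Cfsg

namespace Cfsg.Agent.S1017

/-- No finite simple group has order 2016 = 2^5 * 3^2 * 7. -/
theorem result {G : Type*} [Group G] [Finite G] [IsSimpleGroup G] : Nat.card G ≠ 2016 := by
  intro h
  have := Fintype.ofFinite G
  have hG : ¬ IsMulCommutative G := SmallOrder.not_comm_of_not_prime (by rw [h]; norm_num)
  have : Fact (Nat.Prime 7) := ⟨by norm_num⟩
  obtain ⟨P⟩ := (inferInstance : Nonempty (Sylow 7 G))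
  obtain ⟨hP, -, hd, hm⟩ := SmallOrder.sylow_arith P (a := 1) (m := 288) (by rw [h]; norm_num) (by norm_num)
  rw [pow_one] at hP
  have hC : Subgroup.centralizer ((P : Subgroup G) : Set G) = (P : Subgroup G) := S0904.result 2 3 7 5 2 Nat.prime_two Nat.prime_three (by norm_num) (by norm_num) (by norm_num)
    (by rw [h]; norm_num) P
  obtain ⟨h1, h2⟩ := SmallOrder.relIndex_prime_sylow hG P hP
  rw [hC] at h1 h2
  have hmul := SmallOrder.card_normalizer_mul_card_sylow P
  have hN := Subgroup.relIndex_mul_relIndex ⊥ (P : Subgroup G) _ bot_le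
    (Subgroup.le_normalizer (H := (P : Subgroup G)))
  rw [Subgroup.relIndex_bot_left, Subgroup.relIndex_bot_left, hP] at hN
  rw [← hN, h] at hmul
  obtain ⟨r, hr⟩ : ∃ r, r = (P : Subgroup G).relIndex (Subgroup.normalizer ((P : Subgroup G) : Set G)) := ⟨_, rfl⟩
  rw [← hr] at h1 h2 hmul hN
  have hr' : r ≤ 6 := Nat.le_of_dvd (by norm_num) h1
  interval_cases r <;> omega

end Cfsg.Agent.S1017
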