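import Cfsg.Statements.S1018
import Mathlib

set_option autoImplicit false
open Cfsg

namespace Cfsg.Agent.S1018

open scoped Pointwise

/-- Let P be a Sylow p-subgroup of order p of a finite group G, and consider the action of G on the left cosets of the normalizer N of P. Then every element of order p fixes exactly one coset, and an element of N that does not centralize P fixes at most as many cosets as there are orbits of P. -/
theorem result {G : Type*} [Group G] [Finite G] (p : ℕ) [Fact p.Prime] (P : Sylow p G) (hP : Nat.card ↥(P : Subgroup G) = p) : (∀ y : G, orderOf y = p → Nat.card (MulAction.fixedBy (G ⧸ Subgroup.normalizer ((P : Subgroup G) : Set G)) y) = 1) ∧ ∀ x : G, x ∈ Subgroup.normalizer ((P : Subgroup G) : Set G) → x ∉ Subgroup.centralizer ((P : Subgroup G) : Set G) → Nat.card (MulAction.fixedBy (G ⧸ Subgroup.normalizer ((P : Subgroup G) : Set G)) x) ≤ Nat.card (MulAction.orbitRel.Quotient ↥(P : Subgroup G) (G ⧸ Subgroup.normalizer ((P : Subgroup G) : Set G))) := by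
  classical
  have hp : p.Prime := Fact.out
  set N := Subgroup.normalizer ((P : Subgroup G) : Set G)
  have hpel : ∀ w : G, w ∈ N → orderOf w = p → w ∈ (P : Subgroup G) := by
    intro w hw ho
    have h1 : IsPGroup p (Subgroup.zpowers w) :=
      IsPGroup.of_card (show Nat.card (Subgroup.zpowers w) = p ^ 1 by rw [Nat.card_zpowers, ho, pow_one])
    have h2 := h1.inf_normalizer_sylow P
    exact (h2.le ⟨Subgroup.mem_zpowers w, hw⟩).2
  have hgen : ∀ w : G, w ∈ (P : Subgroup G) → w ≠ 1 → Subgroup.zpowers w = P := by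
    intro w hw hne
    refine Subgroup.eq_of_le_of_card_ge (Subgroup.zpowers_le.mpr hw) ?_
    have hd : orderOf (⟨w, hw⟩ : (P : Subgroup G)) ∣ p := (orderOf_dvd_natCard _).trans (dvd_of_eq hP)
    rw [← Subgroup.orderOf_coe] at hd
    rw [Nat.card_zpowers, hP, ((Nat.dvd_prime hp).mp hd).resolve_left (by simpa using hne)]
  constructor
  · intro y hy
    rw [Nat.card_eq_one_iff_unique]
    have hy1 : y ≠ 1 := fun h => by rw [h, orderOf_one] at hy; exact hp.one_lt.ne hy
    have hfix : ∀ g : G, (g : G ⧸ N) ∈ MulAction.fixedBy (G ⧸ N) y ↔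
        (Subgroup.zpowers y : Subgroup G) = MulAut.conj g • (P : Subgroup G) := by
      intro g
      have e : (g⁻¹ * y * g ∈ N) ↔ (g : G ⧸ N) ∈ MulAction.fixedBy (G ⧸ N) y := by
        rw [MulAction.mem_fixedBy, MulAction.Quotient.smul_coe, smul_eq_mul, QuotientGroup.eq]
        constructor <;> intro h <;> have h' := N.inv_mem h <;> simpa [mul_assoc] using h'
      rw [← e]
      constructor
      · intro h
        have ho : orderOf (g⁻¹ * y * g) = p := by
          rw [← hy]
          have := MulEquiv.orderOf_eq (MulAut.conj g⁻¹) y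
          simpa using this
        have hz := hgen _ (hpel _ h ho) (fun h1 => by rw [h1, orderOf_one] at ho; exact hp.one_lt.ne ho)
        rw [← hz]
        show _ = (Subgroup.zpowers (g⁻¹ * y * g)).map (MulAut.conj g).toMonoidHom
        rw [MonoidHom.map_zpowers]
        simp [mul_assoc]
      · intro h
        apply Subgroup.le_normalizer
        have : y ∈ MulAut.conj g • (P : Subgroup G) := h ▸ Subgroup.mem_zpowers y
        rw [Subgroup.mem_pointwise_smul_iff_inv_smul_mem, ← map_inv, MulAut.smul_def, MulAut.conj_apply, inv_inv] at this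
        exact this
    constructor
    · constructor
      rintro ⟨a, ha⟩ ⟨b, hb⟩
      obtain ⟨a, rfl⟩ := QuotientGroup.mk_surjective a
      obtain ⟨b, rfl⟩ := QuotientGroup.mk_surjective b
      have h : MulAut.conj a • (P : Subgroup G) = MulAut.conj b • (P : Subgroup G) :=
        ((hfix a).mp ha).symm.trans ((hfix b).mp hb)
      apply Subtype.ext
      rw [QuotientGroup.eq]
      refine Sylow.smul_eq_iff_mem_normalizer.mp (Sylow.ext ?_)
      rw [Sylow.coe_subgroup_smul, map_mul, mul_smul, map_inv, ← h, inv_smul_smul]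
    · obtain ⟨Q, hQ⟩ := (IsPGroup.of_card (show Nat.card (Subgroup.zpowers y) = p ^ 1 by
        rw [Nat.card_zpowers, hy, pow_one])).exists_le_sylow
      obtain ⟨g, hg⟩ := MulAction.exists_smul_eq G P Q
      refine ⟨⟨(g : G ⧸ N), (hfix g).mpr ?_⟩⟩
      rw [← Sylow.coe_subgroup_smul, hg]
      refine Subgroup.eq_of_le_of_card_ge hQ (le_of_eq ?_)
      rw [Nat.card_zpowers, hy, Q.card_eq_multiplicity, ← P.card_eq_multiplicity, hP]
  · intro x hx hxC
    refine Nat.card_le_card_of_injective
      (fun a => (Quotient.mk'' a.1 : MulAction.orbitRel.Quotient ↥(P : Subgroup G) (G ⧸ N))) ?_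
    rintro ⟨a, ha⟩ ⟨b, hb⟩ h
    obtain ⟨⟨u, hu⟩, huab⟩ := Quotient.exact' h
    have huab' : u • b = a := huab
    apply Subtype.ext
    show a = b
    by_cases hu1 : u = 1
    · rw [← huab', hu1, one_smul]
    have hxu : x * u * x⁻¹ ∈ (P : Subgroup G) := (Subgroup.mem_normalizer_iff.mp hx u).mp hu
    have hw : u⁻¹ * (x * u * x⁻¹) ∈ (P : Subgroup G) := (P : Subgroup G).mul_mem ((P : Subgroup G).inv_mem hu) hxu
    by_cases hw1 : u⁻¹ * (x * u * x⁻¹) = 1
    · exfalso
      apply hxC
      have hxu' : x * u = u * x := by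
        rw [inv_mul_eq_one, eq_mul_inv_iff_mul_eq] at hw1; exact hw1.symm
      rw [Subgroup.mem_centralizer_iff]
      intro v hv
      obtain ⟨i, rfl⟩ := Subgroup.mem_zpowers_iff.mp ((hgen u hu hu1).symm ▸ hv : v ∈ Subgroup.zpowers u)
      exact ((show Commute x u from hxu').zpow_right i).symm.eq
    · have hfixw : (u⁻¹ * (x * u * x⁻¹)) • b = b := by
        have hxinv : x⁻¹ • b = b := inv_smul_eq_iff.mpr (MulAction.mem_fixedBy.mp hb).symm
        rw [mul_smul, mul_smul, mul_smul, hxinv, huab', MulAction.mem_fixedBy.mp ha, ← huab', inv_smul_smul]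
      obtain ⟨i, hi⟩ := Subgroup.mem_zpowers_iff.mp ((hgen _ hw hw1).symm ▸ hu : u ∈ Subgroup.zpowers (u⁻¹ * (x * u * x⁻¹)))
      rw [← huab', ← hi]
      exact MulAction.mem_stabilizer_iff.mp (Subgroup.zpow_mem _ (MulAction.mem_stabilizer_iff.mpr hfixw) i)

end Cfsg.Agent.S1018
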