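import Cfsg.Statements.S1019
import Mathlib

set_option autoImplicit false
open Cfsg

namespace Cfsg.Agent.S1019

/-- Let H be a subgroup of a finite group G and x an element of H. In the action of G on the left cosets of H, the number of cosets fixed by x, multiplied by the size of the conjugacy class of x, equals the index of H multiplied by the number of conjugates of x that lie in H. -/
theorem result {G : Type*} [Group G] [Finite G] (H : Subgroup G) (x : G) (hx : x ∈ H) : Nat.card (MulAction.fixedBy (G ⧸ H) x) * Nat.card {g : G // IsConj x g} = H.index * Nat.card {g : G // IsConj x g ∧ g ∈ H} := by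
  classical
  have hcount : Nat.card {p : G // p⁻¹ * x * p ∈ H} = Nat.card (MulAction.fixedBy (G ⧸ H) x) * Nat.card H := by
    rw [← Nat.card_prod]
    refine Nat.card_congr ?_
    have e : {p : G // p⁻¹ * x * p ∈ H} ≃ ((fun p : G => (p : G ⧸ H)) ⁻¹' MulAction.fixedBy (G ⧸ H) x : Set G) := by
      refine Equiv.subtypeEquivRight (fun p => ?_)
      rw [Set.mem_preimage, MulAction.mem_fixedBy, MulAction.Quotient.smul_coe, smul_eq_mul, QuotientGroup.eq]
      constructor
      · intro h
        have := H.inv_mem h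
        simpa [mul_assoc] using this
      · intro h
        have := H.inv_mem h
        simpa [mul_assoc] using this
    exact e.trans ((QuotientGroup.preimageMkEquivSubgroupProdSet H (MulAction.fixedBy (G ⧸ H) x)).trans (Equiv.prodComm _ _))
  let f : {p : G // p⁻¹ * x * p ∈ H} → {g : G // IsConj x g ∧ g ∈ H} := fun p =>
    ⟨p.1⁻¹ * x * p.1, isConj_iff.mpr ⟨p.1⁻¹, by simp⟩, p.2⟩
  have hfib : ∀ y, Nat.card {p // f p = y} = Nat.card {c : G // c * x = x * c} := by
    intro y
    obtain ⟨d, hd⟩ := isConj_iff.mp y.2.1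
    refine Nat.card_congr ⟨fun p => ⟨p.1.1 * d, ?_⟩, fun c => ⟨⟨c.1 * d⁻¹, ?_⟩, ?_⟩, ?_, ?_⟩
    · have h : p.1.1⁻¹ * x * p.1.1 = y.1 := congrArg Subtype.val p.2
      rw [← hd] at h
      calc p.1.1 * d * x = p.1.1 * (d * x * d⁻¹) * d := by group
        _ = x * (p.1.1 * d) := by rw [← h]; group
    · have : (c.1 * d⁻¹)⁻¹ * x * (c.1 * d⁻¹) = y.1 := by
        rw [← hd]
        calc _ = d * (c.1⁻¹ * (x * c.1)) * d⁻¹ := by group
          _ = _ := by rw [← c.2]; group
      rw [this]; exact y.2.2
    · apply Subtype.ext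
      simp only [f]
      rw [← hd]
      calc _ = d * (c.1⁻¹ * (x * c.1)) * d⁻¹ := by group
        _ = _ := by rw [← c.2]; group
    · intro p; ext; simp
    · intro s; ext; simp
  have hcount2 : Nat.card {p : G // p⁻¹ * x * p ∈ H} =
      Nat.card {g : G // IsConj x g ∧ g ∈ H} * Nat.card {c : G // c * x = x * c} := by
    have := Fintype.ofFinite {g : G // IsConj x g ∧ g ∈ H}
    rw [← Nat.card_congr (Equiv.sigmaFiberEquiv f), Nat.card_sigma, Finset.sum_congr rfl (fun y _ => hfib y)]
    rw [Finset.sum_const, Finset.card_univ, smul_eq_mul, ← Nat.card_eq_fintype_card]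
  have horb : Nat.card {g : G // IsConj x g} * Nat.card {c : G // c * x = x * c} = Nat.card G := by
    rw [← Nat.card_prod]
    have e : {g : G // IsConj x g} ≃ MulAction.orbit (ConjAct G) x :=
      Equiv.subtypeEquivRight (fun g => by rw [ConjAct.mem_orbit_conjAct, isConj_comm])
    have e2 : {c : G // c * x = x * c} ≃ MulAction.stabilizer (ConjAct G) x :=
      Equiv.subtypeEquiv ConjAct.toConjAct.toEquiv (fun c => by
        show _ ↔ ConjAct.toConjAct c • x = x
        rw [ConjAct.smul_def, ConjAct.ofConjAct_toConjAct, mul_inv_eq_iff_eq_mul])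
    exact Nat.card_congr ((Equiv.prodCongr e e2).trans ((MulAction.orbitProdStabilizerEquivGroup (ConjAct G) x).trans ConjAct.ofConjAct.toEquiv))
  have h4 : 0 < Nat.card H * Nat.card {c : G // c * x = x * c} :=
    by
    have : Nonempty {c : G // c * x = x * c} := ⟨⟨1, by simp⟩⟩
    exact Nat.mul_pos Nat.card_pos Nat.card_pos
  apply Nat.eq_of_mul_eq_mul_right h4
  calc _ = (Nat.card (MulAction.fixedBy (G ⧸ H) x) * Nat.card H) * (Nat.card {g : G // IsConj x g} * Nat.card {c : G // c * x = x * c}) := by ring
    _ = _ := by rw [← hcount, horb, hcount2, ← H.index_mul_card]; ring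

end Cfsg.Agent.S1019
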