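import Cfsg.Statements.S1024
import Cfsg.Agent.Chev.Certs
import Cfsg.Agent.Chev.Torus

set_option autoImplicit false
open Cfsg

namespace Cfsg.Agent.S1024

/-- `x_r(0) = 1`, and `x_r(t) = 1` forces `t = 0`: the map `t ↦ x_r(t)` is injective. -/
theorem result {F : Type*} [Field F] (D : Cfsg.Lie.ChevalleyDatum) (hD : D ∈ [Cfsg.Lie.chevG2, Cfsg.Lie.chevB2, Cfsg.Lie.chevD4, Cfsg.Lie.chevF4, Cfsg.Lie.chevE6, Cfsg.Lie.chevE7, Cfsg.Lie.chevE8]) (r : ℕ) (hr : r < D.nroots) (t : F) :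
    D.x F r t = 1 ↔ t = 0 := by
  obtain ⟨C⟩ := Cfsg.Agent.Chev.nonempty_cert hD
  refine ⟨fun h => ?_, fun h => h ▸ C.x_zero hr⟩
  have h2 := congrArg (fun M : Matrix D.Idx D.Idx F =>
    M.mulVec (Cfsg.Agent.Chev.rv D F (D.neg r)) (Sum.inr ⟨r, hr⟩)) h
  simp only [Cfsg.Agent.Chev.x_mulVec_rv_neg hr (C.neg_lt r hr) (C.neg_ne r hr), Matrix.one_mulVec] at h2
  simpa [Cfsg.Agent.Chev.rv, Cfsg.Agent.Chev.corVec_apply_inr, Ne.symm (C.neg_ne r hr)] using h2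

end Cfsg.Agent.S1024
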