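import Cfsg.Statements.S1026
import Cfsg.Agent.Chev.Certs
import Cfsg.Agent.Chev.Unipotent

set_option autoImplicit false
open Cfsg

namespace Cfsg.Agent.S1026

/-- Every element of `U` has a unique expression `∏_{r ∈ Φ⁺} x_r(t_r)`, the product over the positive roots in increasing index order (the coefficient family `t`, supported on the positive roots, exists and is unique); and conversely every such ordered product is the matrix of an element of `U`. -/
theorem result {F : Type*} [Field F] (D : Cfsg.Lie.ChevalleyDatum) (hD : D ∈ [Cfsg.Lie.chevG2, Cfsg.Lie.chevB2, Cfsg.Lie.chevD4, Cfsg.Lie.chevF4, Cfsg.Lie.chevE6, Cfsg.Lie.chevE7, Cfsg.Lie.chevE8]) :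
    (∀ g : GL D.Idx F, g ∈ D.posUnipotent F →
      ∃! t : ℕ → F, (∀ r, ¬ D.IsPosRoot r → t r = 0) ∧
        (g : Matrix D.Idx D.Idx F) = D.wordMat F (D.posRoots.map fun r => (r, t r))) ∧
    (∀ t : ℕ → F, ∃ g : GL D.Idx F, g ∈ D.posUnipotent F ∧
      (g : Matrix D.Idx D.Idx F) = D.wordMat F (D.posRoots.map fun r => (r, t r))) := by
  obtain ⟨C⟩ := Cfsg.Agent.Chev.nonempty_cert hD
  classical
  refine ⟨fun g hg => ?_, fun t => ⟨C.prodU t,
    Cfsg.Agent.Chev.Cert.span_pos (D := D) (F := F) ▸ C.prodU_mem t fun r hr _ => hr, C.coe_wu _⟩⟩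
  obtain ⟨t, ht, rfl⟩ := C.exists_prodU C.closedSet_pos hg
  refine ⟨t, ⟨fun r hr => by_contra fun h => hr (ht r h), C.coe_wu _⟩, ?_⟩
  rintro t' ⟨hsupp, he⟩
  have he' : C.prodU t = C.prodU t' := Units.ext (he.trans (C.coe_wu _).symm)
  funext r
  by_cases hr : D.IsPosRoot r
  · exact (C.prodU_inj he' r hr).symm
  · rw [hsupp r hr, by_contra fun h => hr (ht r h)]

end Cfsg.Agent.S1026
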