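import Cfsg.Statements.S1041
import Cfsg.Agent.Chev.Certs
import Cfsg.Agent.Chev.Torus

set_option autoImplicit false
open Cfsg

namespace Cfsg.Agent.S1041

/-- `U` and `V` generate the whole Chevalley group. -/
theorem result {F : Type*} [Field F] (D : Cfsg.Lie.ChevalleyDatum) (hD : D ∈ [Cfsg.Lie.chevG2, Cfsg.Lie.chevB2, Cfsg.Lie.chevD4, Cfsg.Lie.chevF4, Cfsg.Lie.chevE6, Cfsg.Lie.chevE7, Cfsg.Lie.chevE8]) : D.posUnipotent F ⊔ D.negUnipotent F = D.group F := by
  obtain ⟨C⟩ := Cfsg.Agent.Chev.nonempty_cert hD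
  apply le_antisymm
  · refine sup_le ?_ ?_ <;>
    · refine (Subgroup.closure_le _).mpr ?_
      rintro g ⟨r, t, -, hg⟩
      exact C.eq_xu.mp hg ▸ C.xu_mem_group r t
  · refine (Subgroup.closure_le _).mpr ?_
    rintro g ⟨r, t, hg⟩
    have hg' : (g : Matrix D.Idx D.Idx F) = D.x F r t := hg.trans (by simp [Cfsg.Lie.ChevalleyDatum.x, r.isLt])
    rcases C.posRoot_or_negRoot r.isLt with h | h
    · exact Subgroup.mem_sup_left (Subgroup.subset_closure ⟨r, t, h, hg'⟩)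
    · exact Subgroup.mem_sup_right (Subgroup.subset_closure ⟨r, t, h, hg'⟩)

end Cfsg.Agent.S1041
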