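import Cfsg.Statements.S1055
import Cfsg.Agent.Chev.Certs
import Cfsg.Agent.Chev.Simple
-- import your own Cfsg.Agent.* helpers here

set_option autoImplicit false
open Cfsg

namespace Cfsg.Agent.S1055

/-- G₂(F) is simple for every field `F` other than the field with two elements. -/
theorem result {F : Type*} [Field F] (hF : ∃ a : F, a ≠ 0 ∧ a ≠ 1) : IsSimpleGroup ↥(Cfsg.Lie.chevG2.group F) ∧ ¬ IsMulCommutative ↥(Cfsg.Lie.chevG2.group F) := by
  obtain ⟨C⟩ := Cfsg.Agent.Chev.nonempty_cert (D := Cfsg.Lie.chevG2) (by simp)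
  obtain ⟨M, hM⟩ := Cfsg.Agent.Chev.exists_cox (D := Cfsg.Lie.chevG2) (by simp)
  obtain ⟨pa, hpa⟩ := Cfsg.Agent.Chev.exists_tree (D := Cfsg.Lie.chevG2) (by simp)
  exact C.isSimple_group hM hpa (by decide) (C.commutator_eq_top
    (Cfsg.Agent.Chev.group_perfect_of_mem C (by simp) fun _ => hF))

end Cfsg.Agent.S1055
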