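import Cfsg.Statements.S1058
import Cfsg.Agent.Linear.Sp42
import Cfsg.Agent.Forms.SpFourAdjoint
-- import your own Cfsg.Agent.* helpers here

set_option autoImplicit false
open Cfsg

namespace Cfsg.Agent.S1058

/-- B₂(2) ≅ S₆. -/
theorem result {F : Type*} [Field F] [Fintype F] (hF : Fintype.card F = 2) :
    Nonempty (↥(Cfsg.Lie.chevB2.group F) ≃* Equiv.Perm (Fin 6)) := by
  have h2 : Fintype.card F = Fintype.card (ZMod 2) := by rw [hF, ZMod.card]
  let e1 : ↥(Matrix.symplecticGroup (Fin 2) (ZMod 2)) ≃* ↥(Matrix.symplecticGroup (Fin 2) F) :=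
    Cfsg.Agent.Linear.spCongr (FiniteField.ringEquivOfCardEq h2).symm
  let e2 : Equiv.Perm (Fin 6) ≃* ↥(Matrix.symplecticGroup (Fin 2) F) :=
    (MulEquiv.ofBijective _ Cfsg.Agent.Linear.sixHom_bijective).trans e1
  have hd : ∀ z : Equiv.Perm (Fin 6),
      (∀ a b : Fin 6, Equiv.swap a b * z = z * Equiv.swap a b) → z = 1 := by decide +kernel
  have hc : Subgroup.center (Equiv.Perm (Fin 6)) = ⊥ :=
    eq_bot_iff.mpr fun z hz => Subgroup.mem_bot.mpr
      (hd z fun a b => Subgroup.mem_center_iff.mp hz (Equiv.swap a b))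
  have hbot : Subgroup.center ↥(Matrix.symplecticGroup (Fin 2) F) = ⊥ := by
    rw [eq_bot_iff]
    intro z hz
    have hz' : e2.symm z ∈ Subgroup.center (Equiv.Perm (Fin 6)) := by
      rw [Subgroup.mem_center_iff] at hz ⊢
      intro g
      apply e2.injective
      rw [map_mul, map_mul, MulEquiv.apply_symm_apply]
      exact hz (e2 g)
    rw [hc, Subgroup.mem_bot] at hz'
    rw [Subgroup.mem_bot, ← e2.apply_symm_apply z, hz', map_one]
  exact ⟨((Cfsg.Agent.Forms.chevB2EquivPSp F).symm.trans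
    ((QuotientGroup.quotientMulEquivOfEq hbot).trans QuotientGroup.quotientBot)).trans e2.symm⟩

end Cfsg.Agent.S1058
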