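import Cfsg.Statements.S1080

set_option autoImplicit false
open Cfsg

namespace Cfsg.Agent.S1080
open Cfsg.Lie in
theorem map_xMat {F : Type*} [Field F] (D : ChevalleyDatum) (σ : F →+* F) (r : Fin D.nroots) (t : F) :
    (D.xMat F r t).map σ = D.xMat F r (σ t) := by
  have hs : ∀ L : List (ℕ × ℤ), σ ((L.map fun km => ((km.2 : ℤ) : F) * t ^ km.1).sum) =
      (L.map fun km => ((km.2 : ℤ) : F) * (σ t) ^ km.1).sum := by
    intro L
    induction L with
    | nil => simp
    | cons a L ih => simp [ih]
  ext row col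
  rcases row with i | u <;> rcases col with j | s <;>
    simp only [Matrix.map_apply, ChevalleyDatum.xMat, Matrix.of_apply]
  · split <;> simp
  · split <;> [simp; split <;> simp]
  · split <;> simp
  · split
    · split <;> simp
    · split
      · split <;> [simp; split <;> simp]
      · rw [map_add, hs]; split <;> simp

open Cfsg.Lie in
theorem fieldAut {F : Type*} [Field F] (D : ChevalleyDatum) (f : F ≃+* F) :
    ∃ α : ↥(D.group F) ≃* ↥(D.group F), ∀ (g : ↥(D.group F)) (r : ℕ) (t : F), r < D.nroots →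
      ((g : GL D.Idx F) : Matrix D.Idx D.Idx F) = D.x F r t →
        ((α g : GL D.Idx F) : Matrix D.Idx D.Idx F) = D.x F r (f t) := by
  have key : ∀ σ : F →+* F, ∀ g ∈ D.group F, Matrix.GeneralLinearGroup.map σ g ∈ D.group F := by
    intro σ g hg
    induction hg using Subgroup.closure_induction with
    | mem x hx =>
      obtain ⟨r, t, hx⟩ := hx
      exact Subgroup.subset_closure ⟨r, σ t, by
        rw [← map_xMat D σ r t, ← hx]; rfl⟩
    | one => rw [map_one]; exact one_mem _
    | mul x y _ _ hx hy => rw [map_mul]; exact mul_mem hx hy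
    | inv x _ hx => rw [map_inv]; exact inv_mem hx
  refine ⟨{
    toFun := fun g => ⟨Matrix.GeneralLinearGroup.map f.toRingHom g, key _ g g.2⟩
    invFun := fun g => ⟨Matrix.GeneralLinearGroup.map f.symm.toRingHom g, key _ g g.2⟩
    left_inv := fun g => by
      apply Subtype.ext
      apply Units.ext
      ext i j
      simp [Matrix.GeneralLinearGroup.map]
    right_inv := fun g => by
      apply Subtype.ext
      apply Units.ext
      ext i j
      simp [Matrix.GeneralLinearGroup.map]
    map_mul' := fun g h => Subtype.ext (map_mul _ _ _) }, ?_⟩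
  intro g r t hr hg
  have h1 : D.x F r t = D.xMat F ⟨r, hr⟩ t := dif_pos hr
  have h2 : D.x F r (f t) = D.xMat F ⟨r, hr⟩ (f t) := dif_pos hr
  rw [h1] at hg
  rw [h2, ← (show f.toRingHom t = f t from rfl), ← map_xMat D f.toRingHom ⟨r, hr⟩ t, ← hg]
  rfl


/-- Field automorphisms: for every field automorphism `f` there is a group automorphism sending each `x_r(t)` to `x_r(f t)`. -/
theorem result {F : Type*} [Field F] (D : Cfsg.Lie.ChevalleyDatum) (hD : D ∈ [Cfsg.Lie.chevG2, Cfsg.Lie.chevB2, Cfsg.Lie.chevD4, Cfsg.Lie.chevF4, Cfsg.Lie.chevE6, Cfsg.Lie.chevE7, Cfsg.Lie.chevE8]) (f : F ≃+* F) :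
    ∃ α : ↥(D.group F) ≃* ↥(D.group F), ∀ (g : ↥(D.group F)) (r : ℕ) (t : F), r < D.nroots →
      ((g : GL D.Idx F) : Matrix D.Idx D.Idx F) = D.x F r t → ((α g : GL D.Idx F) : Matrix D.Idx D.Idx F) = D.x F r (f t) := by
  exact fieldAut D f

end Cfsg.Agent.S1080
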