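import Cfsg.Statements.S1099
import Cfsg.Agent.Chev.SpecialAut
-- import your own Cfsg.Agent.* helpers here

set_option autoImplicit false
open Cfsg

namespace Cfsg.Agent.S1099

/-- Graph automorphism of G₂ in characteristic 3 (K perfect): `x_a(t) ↦ x_b(t³)`, `x_b(t) ↦ x_a(t)`, `x_{-a}(t) ↦ x_{-b}(t³)`, `x_{-b}(t) ↦ x_{-a}(t)` extend to an automorphism of the group. -/
theorem result {K : Type*} [Field K] [CharP K 3] (hperf : ∀ x : K, ∃ y : K, y ^ 3 = x) :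
    ∃ α : ↥(Cfsg.Lie.chevG2.group K) ≃* ↥(Cfsg.Lie.chevG2.group K), ∀ (g : ↥(Cfsg.Lie.chevG2.group K)) (t : K),
      (((g : GL Cfsg.Lie.chevG2.Idx K) : Matrix _ _ K) = Cfsg.Lie.chevG2.x K Cfsg.Lie.g2a t →
        ((α g : GL Cfsg.Lie.chevG2.Idx K) : Matrix _ _ K) = Cfsg.Lie.chevG2.x K Cfsg.Lie.g2b (t ^ 3)) ∧
      (((g : GL Cfsg.Lie.chevG2.Idx K) : Matrix _ _ K) = Cfsg.Lie.chevG2.x K Cfsg.Lie.g2b t →
        ((α g : GL Cfsg.Lie.chevG2.Idx K) : Matrix _ _ K) = Cfsg.Lie.chevG2.x K Cfsg.Lie.g2a t) ∧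
      (((g : GL Cfsg.Lie.chevG2.Idx K) : Matrix _ _ K) = Cfsg.Lie.chevG2.x K Cfsg.Lie.g2ma t →
        ((α g : GL Cfsg.Lie.chevG2.Idx K) : Matrix _ _ K) = Cfsg.Lie.chevG2.x K Cfsg.Lie.g2mb (t ^ 3)) ∧
      (((g : GL Cfsg.Lie.chevG2.Idx K) : Matrix _ _ K) = Cfsg.Lie.chevG2.x K Cfsg.Lie.g2mb t →
        ((α g : GL Cfsg.Lie.chevG2.Idx K) : Matrix _ _ K) = Cfsg.Lie.chevG2.x K Cfsg.Lie.g2ma t) := by
  obtain ⟨α, hα⟩ := (Cfsg.Agent.Chev.isogG2 (RingHom.id K)).exists_graphAut rfl Nat.prime_three hperf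
  have key : ∀ r s e : ℕ, Cfsg.Agent.Chev.sG2.barF r = s → Cfsg.Agent.Chev.sG2.expo r = e → r < 12 →
      ∀ (g : ↥(Cfsg.Lie.chevG2.group K)) (t : K),
        ((g : GL Cfsg.Lie.chevG2.Idx K) : Matrix _ _ K) = Cfsg.Lie.chevG2.x K r t →
          ((α g : GL Cfsg.Lie.chevG2.Idx K) : Matrix _ _ K) = Cfsg.Lie.chevG2.x K s (t ^ e) := by
    intro r s e hs he hr g t h
    subst hs he
    exact hα g r t hr h
  refine ⟨α, fun g t => ⟨?_, ?_, ?_, ?_⟩⟩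
  · exact key 7 6 3 (by decide +kernel) (by decide +kernel) (by decide) g t
  · have := key 6 7 1 (by decide +kernel) (by decide +kernel) (by decide) g t
    rwa [pow_one] at this
  · exact key 4 5 3 (by decide +kernel) (by decide +kernel) (by decide) g t
  · have := key 5 4 1 (by decide +kernel) (by decide +kernel) (by decide) g t
    rwa [pow_one] at this

end Cfsg.Agent.S1099
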