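import Cfsg.Statements.S1100
import Cfsg.Agent.Chev.Certs
import Cfsg.Agent.Chev.BNPairChev
-- import your own Cfsg.Agent.* helpers here

set_option autoImplicit false
open Cfsg

namespace Cfsg.Agent.S1100

/-- Canonical form `g = b n_w u` (`b ∈ B`, `u ∈ U_w⁻ = ⟨X_r : r > 0, n_w X_r n_w⁻¹ ≤ V⟩`): such a decomposition exists for every element of the group; the coset `n_w H` is determined by `g`; and for a fixed representative `n_w` the factors `b`, `u` are unique. -/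
theorem result {F : Type*} [Field F] (D : Cfsg.Lie.ChevalleyDatum) (hD : D ∈ [Cfsg.Lie.chevG2, Cfsg.Lie.chevB2, Cfsg.Lie.chevD4, Cfsg.Lie.chevF4, Cfsg.Lie.chevE6, Cfsg.Lie.chevE7, Cfsg.Lie.chevE8]) :
    (∀ g ∈ D.group F, ∃ b ∈ D.borelSubgroup F, ∃ n ∈ D.monomialSubgroup F,
      ∃ u ∈ Subgroup.closure {x : GL D.Idx F | ∃ (r : ℕ) (t : F), D.IsPosRoot r ∧
            (D.rootSubgroup F r).map (MulAut.conj n).toMonoidHom ≤ D.negUnipotent F ∧ (x : Matrix D.Idx D.Idx F) = D.x F r t},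
        g = b * n * u) ∧
    (∀ (b b' n n' u u' : GL D.Idx F), b ∈ D.borelSubgroup F → b' ∈ D.borelSubgroup F →
      n ∈ D.monomialSubgroup F → n' ∈ D.monomialSubgroup F →
      u ∈ Subgroup.closure {x : GL D.Idx F | ∃ (r : ℕ) (t : F), D.IsPosRoot r ∧
            (D.rootSubgroup F r).map (MulAut.conj n).toMonoidHom ≤ D.negUnipotent F ∧ (x : Matrix D.Idx D.Idx F) = D.x F r t} →
      u' ∈ Subgroup.closure {x : GL D.Idx F | ∃ (r : ℕ) (t : F), D.IsPosRoot r ∧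
            (D.rootSubgroup F r).map (MulAut.conj n').toMonoidHom ≤ D.negUnipotent F ∧ (x : Matrix D.Idx D.Idx F) = D.x F r t} →
      b * n * u = b' * n' * u' → n⁻¹ * n' ∈ D.diagonalSubgroup F ∧ (n = n' → b = b' ∧ u = u')) := by
  obtain ⟨C⟩ := Cfsg.Agent.Chev.nonempty_cert hD
  obtain ⟨M, hM⟩ := Cfsg.Agent.Chev.exists_cox hD
  have e : ∀ n : GL D.Idx F, Subgroup.closure {x : GL D.Idx F | ∃ (r : ℕ) (t : F), D.IsPosRoot r ∧
      (D.rootSubgroup F r).map (MulAut.conj n).toMonoidHom ≤ D.negUnipotent F ∧ (x : Matrix D.Idx D.Idx F) = D.x F r t} =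
      Cfsg.Agent.Chev.spanGroup D F (Cfsg.Agent.Chev.Inverts D F n) := by
    intro n
    unfold Cfsg.Agent.Chev.spanGroup Cfsg.Agent.Chev.Inverts
    congr 1
    ext g
    simp [and_assoc]
  simp only [e]
  refine ⟨fun g hg => ?_, fun b b' n n' u u' hb hb' hn hn' hu hu' h => ?_⟩
  · obtain ⟨n, hn, hcell⟩ := C.exists_bruhat hM hg
    obtain ⟨b, hb, u, hu, he⟩ := C.exists_canonical hM hn hcell
    exact ⟨b, hb, n, hn, u, hu, he⟩
  · have hsp : ∀ m : GL D.Idx F, Cfsg.Agent.Chev.spanGroup D F (Cfsg.Agent.Chev.Inverts D F m) ≤ D.borelSubgroup F :=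
      fun m => le_trans (C.span_mono fun r hr => hr.1) C.pos_le_borel
    refine ⟨C.inCell_unique hM hn hn' ⟨b'⁻¹ * b, mul_mem (inv_mem hb') hb, u * u'⁻¹,
      mul_mem (hsp n hu) (inv_mem (hsp n' hu')), ?_⟩, ?_⟩
    · calc n' = b'⁻¹ * (b' * n' * u') * u'⁻¹ := by group
        _ = b'⁻¹ * (b * n * u) * u'⁻¹ := by rw [h]
        _ = _ := by group
    · rintro rfl
      exact C.canonical_unique hb hb' hu hu' h

end Cfsg.Agent.S1100
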