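import Cfsg.Statements.S1118
import Cfsg.Agent.Suzuki.RankOne

set_option autoImplicit false
open Cfsg

namespace Cfsg.Agent.S1118

/-- In the rank-one set-up (`G` finite and doubly transitive on `Ω`, `t` an involution moving `a`, `Q` normal in `G_a` with `G_a = Q D`, `Q ⊓ D = 1` for the two-point stabiliser `D = G_a ⊓ G_{t • a}`, `|Q|` even, `|D|` odd), the normaliser of a subset of `Q` containing a non-identity element lies in `G_a`; consequently `N_G(Q) = N_G(G_a) = G_a`. -/
theorem result {G Ω : Type*} [Group G] [Finite G] [MulAction G Ω] {a : Ω} {t : G} {Q : Subgroup G}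
    (hS : Cfsg.IsRankOneSetup G Ω a t Q) :
    (∀ X : Set G, X ⊆ (Q : Set G) → (∃ x ∈ X, x ≠ 1) → Subgroup.normalizer X ≤ MulAction.stabilizer G a) ∧
      Subgroup.normalizer (Q : Set G) = MulAction.stabilizer G a ∧
      Subgroup.normalizer (MulAction.stabilizer G a : Set G) = MulAction.stabilizer G a := by
  refine ⟨fun X hX h1 => Cfsg.Agent.Suzuki.ro_normalizer hS hX h1, ?_, ?_⟩
  · refine le_antisymm ?_ ?_
    · obtain ⟨s, hs, hs1, -⟩ := Cfsg.Agent.Suzuki.ro_exists_inv hS
      exact Cfsg.Agent.Suzuki.ro_normalizer hS subset_rfl ⟨s, hs, hs1⟩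
    · intro g hg
      rw [Subgroup.mem_normalizer_iff]
      refine fun x => ⟨hS.conj_mem g hg x, fun hx => ?_⟩
      have := hS.conj_mem g⁻¹ ((MulAction.stabilizer G a).inv_mem hg) _ hx
      simpa [mul_assoc] using this
  · refine le_antisymm ?_ Subgroup.le_normalizer
    intro g hg
    by_contra hne
    obtain ⟨s, hs, hs1, -⟩ := Cfsg.Agent.Suzuki.ro_exists_inv hS
    refine hne (Cfsg.Agent.Suzuki.ro_fix_eq hS hs hs1 ?_)
    have h1 : g⁻¹ * s * g ∈ MulAction.stabilizer G a :=
      (Subgroup.mem_normalizer_iff.1 hg _).2 (by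
        simpa [mul_assoc] using hS.le hs)
    have h2 : (g⁻¹ * s * g) • a = a := h1
    rw [mul_smul, mul_smul, inv_smul_eq_iff] at h2
    exact h2

end Cfsg.Agent.S1118
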