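import Cfsg.Statements.S1124
import Cfsg.Agent.Suzuki.RankOne

set_option autoImplicit false
open scoped Pointwise
open Cfsg

namespace Cfsg.Agent.S1124

/-- Let `t` be an element of order 2 of a finite group normalising a subgroup `X` of odd order, `Y = C_X(t)` and `Z` the set of elements of `X` inverted by `t`. Then `(y, z) ↦ y z` is a bijection `Y × Z → X`, so `|X| = |Y| |Z|`, and the subgroup generated by `Z` is normal in `X`. -/
theorem result {M : Type*} [Group M] [Finite M]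
    (t : M) (ht : orderOf t = 2) (X : Subgroup M) (hodd : Odd (Nat.card X))
    (hnorm : ∀ x ∈ X, t * x * t⁻¹ ∈ X) :
    (∀ x ∈ X, ∃! p : M × M, p.1 ∈ X ⊓ Subgroup.centralizer {t} ∧ p.2 ∈ Cfsg.invertedBy X t ∧ x = p.1 * p.2) ∧
      Nat.card X = Nat.card ↥(X ⊓ Subgroup.centralizer {t}) * Nat.card (Cfsg.invertedBy X t) ∧
      ∀ x ∈ X, MulAut.conj x • Subgroup.closure (Cfsg.invertedBy X t) = Subgroup.closure (Cfsg.invertedBy X t) := by
  have ht2 : t * t = 1 := by rw [← pow_two, ← ht, pow_orderOf_eq_one]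
  have htinv : t⁻¹ = t := inv_eq_of_mul_eq_one_right ht2
  have dec := fun x hx => Cfsg.Agent.Suzuki.unique_decomposition ht2 hodd hnorm (x := x) hx
  refine ⟨dec, ?_, ?_⟩
  · rw [← Nat.card_prod]
    refine (Nat.card_eq_of_bijective
      (fun p : ↥(X ⊓ Subgroup.centralizer {t}) × Cfsg.invertedBy X t =>
        (⟨p.1.1 * p.2.1, X.mul_mem p.1.2.1 p.2.2.1⟩ : X)) ⟨?_, ?_⟩).symm
    · intro p p' e
      have e0 : p.1.1 * p.2.1 = p'.1.1 * p'.2.1 := congrArg Subtype.val e
      obtain ⟨q, -, hu⟩ := dec _ (X.mul_mem p.1.2.1 p.2.2.1)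
      have h1 := hu (p.1.1, p.2.1) ⟨p.1.2, p.2.2, rfl⟩
      have h2 := hu (p'.1.1, p'.2.1) ⟨p'.1.2, p'.2.2, e0⟩
      exact Prod.ext (Subtype.ext (congrArg Prod.fst (h1.trans h2.symm)))
        (Subtype.ext (congrArg Prod.snd (h1.trans h2.symm)))
    · rintro ⟨x, hx⟩
      obtain ⟨p, ⟨h1, h2, h3⟩, -⟩ := dec x hx
      exact ⟨(⟨p.1, h1⟩, ⟨p.2, h2⟩), Subtype.ext h3.symm⟩
  · intro x hx
    obtain ⟨p, ⟨hy, hz, rfl⟩, -⟩ := dec x hx
    set C := Subgroup.closure (Cfsg.invertedBy X t)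
    have hzC : p.2 ∈ C := Subgroup.subset_closure hz
    obtain ⟨hyX, hyt⟩ := Subgroup.mem_inf.1 hy
    rw [Subgroup.mem_centralizer_singleton_iff] at hyt
    have hconj : ∀ y ∈ X, y * t = t * y → ∀ w ∈ C, y * w * y⁻¹ ∈ C := by
      intro y hyX hyt w hw
      induction hw using Subgroup.closure_induction with
      | mem w hw =>
        refine Subgroup.subset_closure ⟨X.mul_mem (X.mul_mem hyX hw.1) (X.inv_mem hyX), ?_⟩
        calc t * (y * w * y⁻¹) * t⁻¹ = (t * y) * w * (t * y)⁻¹ := by group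
          _ = (y * t) * w * (y * t)⁻¹ := by rw [hyt]
          _ = y * (t * w * t⁻¹) * y⁻¹ := by group
          _ = (y * w * y⁻¹)⁻¹ := by rw [hw.2]; group
      | one => simp
      | mul u v _ _ hu hv =>
        have := C.mul_mem hu hv
        rwa [show y * u * y⁻¹ * (y * v * y⁻¹) = y * (u * v) * y⁻¹ by group] at this
      | inv u _ hu =>
        have := C.inv_mem hu
        rwa [show (y * u * y⁻¹)⁻¹ = y * u⁻¹ * y⁻¹ by group] at this
    have hmem : ∀ y ∈ X, y * t = t * y → ∀ z ∈ C, ∀ w, (y * z) * w * (y * z)⁻¹ ∈ C ↔ w ∈ C := by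
      intro y hyX hyt z hz w
      constructor
      · intro hw
        have h1 := hconj y⁻¹ (X.inv_mem hyX) ((Commute.inv_left hyt).eq) _ hw
        have h2 := C.mul_mem (C.mul_mem (C.inv_mem hz) h1) hz
        simpa [mul_assoc] using h2
      · intro hw
        have h1 := hconj y hyX hyt _ (C.mul_mem (C.mul_mem hz hw) (C.inv_mem hz))
        simpa [mul_assoc] using h1
    ext w
    rw [Subgroup.mem_pointwise_smul_iff_inv_smul_mem, MulAut.smul_def, MulAut.conj_inv_apply,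
      ← hmem p.1 hyX hyt p.2 hzC ((p.1 * p.2)⁻¹ * w * (p.1 * p.2))]
    simp [mul_assoc]

end Cfsg.Agent.S1124
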