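import Cfsg.Statements.S1163
import Cfsg.Agent.Suzuki.SzSylow

set_option autoImplicit false
open Cfsg

namespace Cfsg.Agent.S1163

/-- For the Suzuki group Sz(q), q = 2^(2m+1) ≥ 8, realised as the elements g of Sp₄(F) with g* = g^θ (θ the 2^(m+1)-th power map, so that θ² is squaring): `|Sz(q)| = q² (q - 1) (q² + 1)`, and there is a Sylow 2-subgroup `S` whose normaliser `H` has order `q²(q-1)` and index `q² + 1`, the action of `Sz(q)` on the cosets of `H` is doubly transitive, and `S` acts regularly on the cosets other than `H` itself. -/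
theorem result {F : Type*} [Field F] [Fintype F] {m : ℕ} (hm : 1 ≤ m) (hF : Fintype.card F = 2 ^ (2 * m + 1)) :
    Nat.card ↥(Cfsg.Lie.Sz F (2 ^ (m + 1))) = (2 ^ (2 * m + 1)) ^ 2 * (2 ^ (2 * m + 1) - 1) * ((2 ^ (2 * m + 1)) ^ 2 + 1) ∧
    ∃ S : Sylow 2 ↥(Cfsg.Lie.Sz F (2 ^ (m + 1))),
      Nat.card (Subgroup.normalizer ((S : Subgroup ↥(Cfsg.Lie.Sz F (2 ^ (m + 1)))) : Set ↥(Cfsg.Lie.Sz F (2 ^ (m + 1))))) = (2 ^ (2 * m + 1)) ^ 2 * (2 ^ (2 * m + 1) - 1) ∧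
      (Subgroup.normalizer ((S : Subgroup ↥(Cfsg.Lie.Sz F (2 ^ (m + 1)))) : Set ↥(Cfsg.Lie.Sz F (2 ^ (m + 1))))).index = (2 ^ (2 * m + 1)) ^ 2 + 1 ∧
      MulAction.IsMultiplyPretransitive ↥(Cfsg.Lie.Sz F (2 ^ (m + 1))) (↥(Cfsg.Lie.Sz F (2 ^ (m + 1))) ⧸ Subgroup.normalizer ((S : Subgroup ↥(Cfsg.Lie.Sz F (2 ^ (m + 1)))) : Set ↥(Cfsg.Lie.Sz F (2 ^ (m + 1))))) 2 ∧
      ∀ x y : ↥(Cfsg.Lie.Sz F (2 ^ (m + 1))) ⧸ Subgroup.normalizer ((S : Subgroup ↥(Cfsg.Lie.Sz F (2 ^ (m + 1)))) : Set ↥(Cfsg.Lie.Sz F (2 ^ (m + 1)))),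
        x ≠ (QuotientGroup.mk 1) → y ≠ (QuotientGroup.mk 1) → ∃! s : ↥(S : Subgroup ↥(Cfsg.Lie.Sz F (2 ^ (m + 1)))), (s : ↥(Cfsg.Lie.Sz F (2 ^ (m + 1)))) • x = y := by
  have h : Cfsg.Agent.Suzuki.Ctx F m := ⟨hm, by rw [Nat.card_eq_fintype_card, hF]⟩
  let e := Cfsg.Agent.Suzuki.lieEquiv h
  have := Cfsg.Agent.Suzuki.finite_sz h
  have : Finite ↥(Cfsg.Lie.Sz F (2 ^ (m + 1))) := Finite.of_equiv _ e.toEquiv
  have hcard : Nat.card ↥(Cfsg.Lie.Sz F (2 ^ (m + 1))) = Nat.card (Cfsg.Sz F m) :=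
    (Nat.card_congr e.toEquiv).symm
  refine ⟨?_, ?_⟩
  · rw [hcard, Cfsg.Agent.Suzuki.card_sz h]; ring
  have hS : Nat.card ((Cfsg.Agent.Suzuki.uGrp h).map e.toMonoidHom) =
      2 ^ (Nat.card ↥(Cfsg.Lie.Sz F (2 ^ (m + 1)))).factorization 2 := by
    rw [← Nat.card_congr ((Cfsg.Agent.Suzuki.uGrp h).equivMapOfInjective e.toMonoidHom e.injective).toEquiv,
      Cfsg.Agent.Suzuki.card_uGrp h, hcard, Cfsg.Agent.Suzuki.factorization_two h, ← pow_mul]
    congr 1; ring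
  refine ⟨Sylow.ofCard _ hS, ?_⟩
  have hN : Subgroup.normalizer (((Cfsg.Agent.Suzuki.uGrp h).map e.toMonoidHom : Subgroup ↥(Cfsg.Lie.Sz F (2 ^ (m + 1)))) : Set ↥(Cfsg.Lie.Sz F (2 ^ (m + 1)))) =
      (MulAction.stabilizer (Cfsg.Sz F m) (Cfsg.Agent.Suzuki.inf' F m)).map e.toMonoidHom := by
    rw [← Cfsg.Agent.Suzuki.normalizer_uGrp h]; exact (Subgroup.map_equiv_normalizer_eq _ e).symm
  show Nat.card (Subgroup.normalizer (((Cfsg.Agent.Suzuki.uGrp h).map e.toMonoidHom : Subgroup ↥(Cfsg.Lie.Sz F (2 ^ (m + 1)))) : Set ↥(Cfsg.Lie.Sz F (2 ^ (m + 1))))) = _ ∧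
    (Subgroup.normalizer (((Cfsg.Agent.Suzuki.uGrp h).map e.toMonoidHom : Subgroup ↥(Cfsg.Lie.Sz F (2 ^ (m + 1)))) : Set ↥(Cfsg.Lie.Sz F (2 ^ (m + 1))))).index = _ ∧ _ ∧ _
  have hidx : (MulAction.stabilizer (Cfsg.Sz F m) (Cfsg.Agent.Suzuki.inf' F m)).index =
      (2 ^ (2 * m + 1)) ^ 2 + 1 := by
    have := Cfsg.Agent.Suzuki.pretransitive h
    have := h.finite
    rw [MulAction.index_stabilizer_of_transitive, Cfsg.Agent.Suzuki.card_ovoid, h.card]
  refine ⟨?_, ?_, ?_⟩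
  · rw [hN, ← Nat.card_congr ((MulAction.stabilizer (Cfsg.Sz F m) (Cfsg.Agent.Suzuki.inf' F m)).equivMapOfInjective
      e.toMonoidHom e.injective).toEquiv, Cfsg.Agent.Suzuki.card_stab h]
  · rw [hN, ← hidx]
    exact Subgroup.index_map_equiv _ e
  suffices key : ∀ N' : Subgroup ↥(Cfsg.Lie.Sz F (2 ^ (m + 1))),
      N' = (MulAction.stabilizer (Cfsg.Sz F m) (Cfsg.Agent.Suzuki.inf' F m)).map e.toMonoidHom →
      MulAction.IsMultiplyPretransitive ↥(Cfsg.Lie.Sz F (2 ^ (m + 1))) (_ ⧸ N') 2 ∧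
        ∀ x y : _ ⧸ N', x ≠ QuotientGroup.mk 1 → y ≠ QuotientGroup.mk 1 →
          ∃! s : ↥((Cfsg.Agent.Suzuki.uGrp h).map e.toMonoidHom),
            (s : ↥(Cfsg.Lie.Sz F (2 ^ (m + 1)))) • x = y from key _ hN
  rintro N' rfl
  -- the cosets correspond to the points of the ovoid
  let φ : ↥(Cfsg.Lie.Sz F (2 ^ (m + 1))) ⧸
      (MulAction.stabilizer (Cfsg.Sz F m) (Cfsg.Agent.Suzuki.inf' F m)).map e.toMonoidHom → Cfsg.suzukiOvoid F m :=
    Quotient.lift (fun g => e.symm g • Cfsg.Agent.Suzuki.inf' F m) (by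
      intro a b hab
      obtain ⟨s, hs, hse⟩ := QuotientGroup.leftRel_apply.1 hab
      have hse' : e s = a⁻¹ * b := hse
      have : e.symm b = e.symm a * s := by
        apply e.injective
        rw [map_mul, e.apply_symm_apply, e.apply_symm_apply, hse', mul_inv_cancel_left]
      simp only [this, mul_smul]
      rw [MulAction.mem_stabilizer_iff.1 hs])
  have hφ : ∀ g x, φ (g • x) = e.symm g • φ x := by
    intro g x
    induction x using QuotientGroup.induction_on with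
    | _ a => exact (congrArg (· • Cfsg.Agent.Suzuki.inf' F m) (map_mul e.symm g a)).trans (mul_smul _ _ _)
  have hinj : Function.Injective φ := by
    intro x y
    induction x using QuotientGroup.induction_on with
    | _ a =>
      induction y using QuotientGroup.induction_on with
      | _ b =>
        intro hxy
        rw [QuotientGroup.eq]
        have hxy' : e.symm a • Cfsg.Agent.Suzuki.inf' F m = e.symm b • Cfsg.Agent.Suzuki.inf' F m := hxy
        refine ⟨(e.symm a)⁻¹ * e.symm b, ?_, by simp⟩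
        rw [SetLike.mem_coe, MulAction.mem_stabilizer_iff, mul_smul, ← hxy', inv_smul_smul]
  have h1 : φ (QuotientGroup.mk 1) = Cfsg.Agent.Suzuki.inf' F m := by
    show e.symm 1 • _ = _
    rw [map_one, one_smul]
  refine ⟨?_, ?_⟩
  · rw [MulAction.is_two_pretransitive_iff]
    intro a b c d hab hcd
    obtain ⟨g, ga, gb⟩ := MulAction.is_two_pretransitive_iff.1 (Cfsg.Agent.Suzuki.two_transitive h)
      (hinj.ne hab) (hinj.ne hcd)
    exact ⟨e g, hinj (by rw [hφ, e.symm_apply_apply, ga]), hinj (by rw [hφ, e.symm_apply_apply, gb])⟩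
  · intro x y hx hy
    rcases Cfsg.Agent.Suzuki.pt_cases (φ x) with ex | ⟨a, b, ex⟩
    · exact absurd (hinj (ex.trans h1.symm)) hx
    rcases Cfsg.Agent.Suzuki.pt_cases (φ y) with ey | ⟨c, d, ey⟩
    · exact absurd (hinj (ey.trans h1.symm)) hy
    have h0 := h.two_eq_zero
    refine ⟨⟨e (Cfsg.Agent.Suzuki.uEl h (a + c) (b + d + Cfsg.Agent.Suzuki.th m (a + c) * a)), ⟨_, Cfsg.Agent.Suzuki.uEl_mem h _ _, rfl⟩⟩, ?_, ?_⟩
    · show e _ • x = y
      refine hinj ?_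
      rw [hφ, e.symm_apply_apply, ex, Cfsg.Agent.Suzuki.uEl_smul_pt, ey]
      congr 1
      · linear_combination a * h0
      · linear_combination (b + Cfsg.Agent.Suzuki.th m (a + c) * a) * h0
    · rintro ⟨t, g, ⟨a', b', rfl⟩, rfl⟩ ht
      have ht' := congrArg φ (show e (Cfsg.Agent.Suzuki.uEl h a' b') • x = y from ht)
      rw [hφ, e.symm_apply_apply, ex, Cfsg.Agent.Suzuki.uEl_smul_pt, ey] at ht'
      obtain ⟨e1, e2⟩ := Cfsg.Agent.Suzuki.pt_inj ht'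
      have ea : a' = a + c := by linear_combination e1 - a * h0
      subst ea
      have eb : b' = b + d + Cfsg.Agent.Suzuki.th m (a + c) * a := by
        linear_combination e2 - (b + Cfsg.Agent.Suzuki.th m (a + c) * a) * h0
      subst eb
      rfl

end Cfsg.Agent.S1163
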