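import Cfsg.Statements.S1165
import Cfsg.Agent.Suzuki.RankOne

set_option autoImplicit false
open Cfsg

namespace Cfsg.Agent.S1165

/-- In the rank-one set-up (`G` finite and doubly transitive on `Ω`, `t` an involution moving `a`, `Q` normal in `G_a` with `G_a = Q D`, `Q ⊓ D = 1` for the two-point stabiliser `D = G_a ⊓ G_{t • a}`, `|Q|` even, `|D|` odd): every `x ∈ Q`, `x ≠ 1`, determines unique `g, f ∈ Q`, `h ∈ D` with `t x t = g h t f` (a consequence of the canonical form). For these: (H1) the `f`-part of `x⁻¹` is `g⁻¹`; (H2) the `f`-part of `f` is `x`; (H3) for `a ∈ D` the `f`-part of `a⁻¹ x a` is `(t a t)⁻¹ f (t a t)`; (H4) the `h`-part of `a⁻¹ x a` is `(t a t)⁻¹ h a`, that of `x⁻¹` is `t h⁻¹ t`, and that of `f` is `h⁻¹`. -/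
theorem result {G Ω : Type*} [Group G] [Finite G] [MulAction G Ω] {a : Ω} {t : G} {Q : Subgroup G}
    (hS : Cfsg.IsRankOneSetup G Ω a t Q)
    (x g h f : G) (hx : x ∈ Q) (hx1 : x ≠ 1) (hg : g ∈ Q) (hh : h ∈ (MulAction.stabilizer G a ⊓ MulAction.stabilizer G (t • a))) (hf : f ∈ Q)
    (heq : t * x * t = g * h * t * f) :
    (∀ g₁ h₁ f₁ : G, g₁ ∈ Q → h₁ ∈ (MulAction.stabilizer G a ⊓ MulAction.stabilizer G (t • a)) → f₁ ∈ Q → t * x⁻¹ * t = g₁ * h₁ * t * f₁ →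
        f₁ = g⁻¹ ∧ h₁ = t * h⁻¹ * t) ∧
      (∀ g₂ h₂ f₂ : G, g₂ ∈ Q → h₂ ∈ (MulAction.stabilizer G a ⊓ MulAction.stabilizer G (t • a)) → f₂ ∈ Q → t * f * t = g₂ * h₂ * t * f₂ →
        f₂ = x ∧ h₂ = h⁻¹) ∧
      ∀ c ∈ (MulAction.stabilizer G a ⊓ MulAction.stabilizer G (t • a)), ∀ g₃ h₃ f₃ : G, g₃ ∈ Q → h₃ ∈ (MulAction.stabilizer G a ⊓ MulAction.stabilizer G (t • a)) → f₃ ∈ Q →
        t * (c⁻¹ * x * c) * t = g₃ * h₃ * t * f₃ →
          f₃ = (t * c * t)⁻¹ * f * (t * c * t) ∧ h₃ = (t * c * t)⁻¹ * h * c := by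
  have htt : t * t = 1 := hS.mul_self
  have hc : ∀ {g h g' h' f f' : G}, g ∈ Q → g' ∈ Q →
      h ∈ (MulAction.stabilizer G a ⊓ MulAction.stabilizer G (t • a)) →
      h' ∈ (MulAction.stabilizer G a ⊓ MulAction.stabilizer G (t • a)) → f ∈ Q → f' ∈ Q →
      g * h * t * f = g' * h' * t * f' → h = h' ∧ f = f' := by
    intro g h g' h' f f' hg hg' hh hh' hf hf' e
    obtain ⟨e1, e2⟩ := Cfsg.Agent.Suzuki.ro_unique_split hS
      ((MulAction.stabilizer G a).mul_mem (hS.le hg) hh.1)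
      ((MulAction.stabilizer G a).mul_mem (hS.le hg') hh'.1) hf hf' e
    exact ⟨(Cfsg.Agent.Suzuki.ro_qd_unique hS hg hg' hh hh' e1).2, e2⟩
  have tD : ∀ {d : G}, d ∈ (MulAction.stabilizer G a ⊓ MulAction.stabilizer G (t • a)) →
      t * d * t ∈ (MulAction.stabilizer G a ⊓ MulAction.stabilizer G (t • a)) :=
    fun hd => Cfsg.Agent.Suzuki.ro_tD hS hd
  have tinv : t⁻¹ = t := Cfsg.Agent.Suzuki.ro_tinv hS
  refine ⟨?_, ?_, ?_⟩
  · intro g₁ h₁ f₁ hg₁ hh₁ hf₁ e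
    have e' : f⁻¹ * (t * h⁻¹ * t) * t * g⁻¹ = g₁ * h₁ * t * f₁ := by
      rw [← e, show t * x⁻¹ * t = (t * x * t)⁻¹ by simp [mul_assoc, mul_inv_rev, tinv], heq]
      simp [mul_assoc, mul_inv_rev, tinv, htt]
    obtain ⟨e1, e2⟩ := hc (Q.inv_mem hf) hg₁ (tD (Subgroup.inv_mem _ hh)) hh₁ (Q.inv_mem hg) hf₁ e'
    exact ⟨e2.symm, e1.symm⟩
  · intro g₂ h₂ f₂ hg₂ hh₂ hf₂ e
    have hh' : h⁻¹ * g⁻¹ * h ∈ Q := by
      simpa using hS.conj_mem h⁻¹ ((MulAction.stabilizer G a).inv_mem hh.1) _ (Q.inv_mem hg)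
    have ef : f = t * h⁻¹ * g⁻¹ * (t * x * t) := by
      rw [heq]; simp [mul_assoc, ← mul_assoc t t, htt]
    have e' : (h⁻¹ * g⁻¹ * h) * h⁻¹ * t * x = g₂ * h₂ * t * f₂ := by
      rw [← e, ef]; simp [mul_assoc, ← mul_assoc t t, htt]
    obtain ⟨e1, e2⟩ := hc hh' hg₂ (Subgroup.inv_mem _ hh) hh₂ hx hf₂ e'
    exact ⟨e2.symm, e1.symm⟩
  · intro c hc' g₃ h₃ f₃ hg₃ hh₃ hf₃ e
    set c' := t * c * t with hcdef
    have hc'D := tD hc'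
    have hf' : c'⁻¹ * f * c' ∈ Q := by
      simpa using hS.conj_mem c'⁻¹ ((MulAction.stabilizer G a).inv_mem hc'D.1) _ hf
    have hg' : c'⁻¹ * g * c' ∈ Q := by
      simpa using hS.conj_mem c'⁻¹ ((MulAction.stabilizer G a).inv_mem hc'D.1) _ hg
    have hh' : c'⁻¹ * h * c ∈ (MulAction.stabilizer G a ⊓ MulAction.stabilizer G (t • a)) :=
      Subgroup.mul_mem _ (Subgroup.mul_mem _ (Subgroup.inv_mem _ hc'D) hh) hc'
    have e' : (c'⁻¹ * g * c') * (c'⁻¹ * h * c) * t * (c'⁻¹ * f * c') = g₃ * h₃ * t * f₃ := by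
      rw [← e, show t * (c⁻¹ * x * c) * t = c'⁻¹ * (t * x * t) * c' by
        simp [hcdef, mul_assoc, mul_inv_rev, tinv, ← mul_assoc t t, htt], heq]
      simp [hcdef, mul_assoc, mul_inv_rev, tinv, ← mul_assoc t t, htt]
    obtain ⟨e1, e2⟩ := hc hg' hg₃ hh' hh₃ hf' hf₃ e'
    exact ⟨e2.symm, e1.symm⟩

end Cfsg.Agent.S1165
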