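import Cfsg.Statements.S1166
import Cfsg.Agent.Suzuki.RankOne

set_option autoImplicit false
open Cfsg

namespace Cfsg.Agent.S1166

/-- In the rank-one set-up (`G` finite and doubly transitive on `Ω`, `t` an involution moving `a`, `Q` normal in `G_a` with `G_a = Q D`, `Q ⊓ D = 1` for the two-point stabiliser `D = G_a ⊓ G_{t • a}`, `|Q|` even, `|D|` odd), with `t x t = g_x h_x t f_x` and `t y t = g_y h_y t f_y` (`g, f ∈ Q`, `h ∈ D`) for `x, y ∈ Q ∖ 1` with `x y ≠ 1`: then `z = f_x g_y ≠ 1`, and if `t z t = g_z h_z t f_z` and `t (x y) t = g' h' t f'` then `f' = (t h_y t)⁻¹ f_z (t h_y t) f_y` and `h' = h_x h_z h_y` (H6). -/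
theorem result {G Ω : Type*} [Group G] [Finite G] [MulAction G Ω] {a : Ω} {t : G} {Q : Subgroup G}
    (hS : Cfsg.IsRankOneSetup G Ω a t Q)
    (x y gx hx fx gy hy fy : G) (hxQ : x ∈ Q) (hx1 : x ≠ 1) (hyQ : y ∈ Q) (hy1 : y ≠ 1) (hxy : x * y ≠ 1)
    (hgx : gx ∈ Q) (hhx : hx ∈ (MulAction.stabilizer G a ⊓ MulAction.stabilizer G (t • a))) (hfx : fx ∈ Q) (ex : t * x * t = gx * hx * t * fx)
    (hgy : gy ∈ Q) (hhy : hy ∈ (MulAction.stabilizer G a ⊓ MulAction.stabilizer G (t • a))) (hfy : fy ∈ Q) (ey : t * y * t = gy * hy * t * fy) :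
    fx * gy ≠ 1 ∧
      ∀ gz hz fz g' h' f' : G, gz ∈ Q → hz ∈ (MulAction.stabilizer G a ⊓ MulAction.stabilizer G (t • a)) → fz ∈ Q → t * (fx * gy) * t = gz * hz * t * fz →
        g' ∈ Q → h' ∈ (MulAction.stabilizer G a ⊓ MulAction.stabilizer G (t • a)) → f' ∈ Q → t * (x * y) * t = g' * h' * t * f' →
          f' = (t * hy * t)⁻¹ * fz * (t * hy * t) * fy ∧ h' = hx * hz * hy := by
  have htt : t * t = 1 := hS.mul_self
  have tinv : t⁻¹ = t := Cfsg.Agent.Suzuki.ro_tinv hS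
  have tD : ∀ {d : G}, d ∈ (MulAction.stabilizer G a ⊓ MulAction.stabilizer G (t • a)) →
      t * d * t ∈ (MulAction.stabilizer G a ⊓ MulAction.stabilizer G (t • a)) :=
    fun hd => Cfsg.Agent.Suzuki.ro_tD hS hd
  have hprod : t * (x * y) * t = gx * hx * t * (fx * gy) * hy * t * fy := by
    rw [show t * (x * y) * t = (t * x * t) * (t * y * t) by simp [mul_assoc, ← mul_assoc t t, htt],
      ex, ey]
    simp [mul_assoc]
  constructor
  · intro e1
    rw [e1, mul_one, show gx * hx * t * hy * t * fy = gx * hx * (t * hy * t) * fy by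
      simp [mul_assoc]] at hprod
    have hm : t * (x * y) * t ∈ MulAction.stabilizer G a := by
      rw [hprod]
      exact mul_mem (mul_mem (mul_mem (hS.le hgx) hhx.1) (tD hhy).1) (hS.le hfy)
    have h2 : (t * (x * y) * t) • a = a := hm
    rw [mul_smul, mul_smul] at h2
    refine hxy (Cfsg.Agent.Suzuki.ro_free_b hS (Q.mul_mem hxQ hyQ) ?_)
    exact MulAction.injective t (h2.trans (Cfsg.Agent.Suzuki.ro_swap hS).symm)
  · intro gz hz fz g' h' f' hgz hhz hfz ez hg' hh' hf' e'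
    have hyD := tD hhy
    have hgz' : hx * gz * hx⁻¹ ∈ Q := hS.conj_mem hx hhx.1 gz hgz
    have hfz' : (t * hy * t)⁻¹ * fz * (t * hy * t) ∈ Q := by
      simpa using hS.conj_mem (t * hy * t)⁻¹ ((MulAction.stabilizer G a).inv_mem hyD.1) _ hfz
    have e2 : (gx * (hx * gz * hx⁻¹)) * (hx * hz * hy) * t * ((t * hy * t)⁻¹ * fz * (t * hy * t) * fy) =
        g' * h' * t * f' := by
      rw [← e', hprod]
      have ez' : t * (fx * gy) = gz * hz * t * fz * t := by
        rw [← ez]; simp [mul_assoc, htt]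
      rw [show gx * hx * t * (fx * gy) * hy * t * fy = gx * hx * (t * (fx * gy)) * hy * t * fy by
        simp [mul_assoc], ez']
      simp [mul_assoc, mul_inv_rev, tinv, ← mul_assoc t t, htt]
    obtain ⟨e3, e4⟩ := Cfsg.Agent.Suzuki.ro_unique_split hS
      (mul_mem (hS.le (Q.mul_mem hgx hgz')) (Subgroup.mul_mem _ (Subgroup.mul_mem _ hhx hhz) hhy).1)
      ((MulAction.stabilizer G a).mul_mem (hS.le hg') hh'.1) (Q.mul_mem hfz' hfy) hf' e2
    exact ⟨e4.symm, (Cfsg.Agent.Suzuki.ro_qd_unique hS (Q.mul_mem hgx hgz') hg'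
      (Subgroup.mul_mem _ (Subgroup.mul_mem _ hhx hhz) hhy) hh' e3).2.symm⟩

end Cfsg.Agent.S1166
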