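import Cfsg.Statements.S1167
import Cfsg.Agent.PermGroups.ZassenhausOdd
import Cfsg.Agent.PermGroups.ZassenhausChar

set_option autoImplicit false
open Cfsg

namespace Cfsg.Agent.S1167

/-- Let `G` be a finite simple Zassenhaus group on `Ω`, `U` a normal subgroup of `G_a` regular on `Ω` minus `a` which is an abelian 2-group, and `v` an involution with `v • a ≠ a`. Then there is a unique `u₀ ∈ U`, `u₀ ≠ 1`, with `v u₀ v = u₀ v u₀`. -/
theorem result {G Ω : Type*} [Group G] [Finite G] [MulAction G Ω] [Finite Ω]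
    (hZ : Cfsg.IsZassenhausGroup G Ω) [IsSimpleGroup G] {a : Ω}
    (U : Subgroup G) (hUle : U ≤ MulAction.stabilizer G a)
    (hUn : ∀ h ∈ MulAction.stabilizer G a, ∀ u ∈ U, h * u * h⁻¹ ∈ U)
    (hreg : ∀ c d : Ω, c ≠ a → d ≠ a → ∃! u : U, (u : G) • c = d)
    (hU2 : IsPGroup 2 U) (hUab : ∀ u ∈ U, ∀ u' ∈ U, u * u' = u' * u)
    (v : G) (hv1 : v ≠ 1) (hv2 : v * v = 1) (hva : v • a ≠ a) :
    ∃! u₀ : G, u₀ ∈ U ∧ u₀ ≠ 1 ∧ v * u₀ * v = u₀ * v * u₀ := by
  classical
  haveI : Fintype G := Fintype.ofFinite G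
  haveI := Fintype.ofFinite Ω
  set b := v • a with hbdef
  have hab : a ≠ b := fun e => hva e.symm
  obtain ⟨c₀, hc₀a, hc₀b⟩ := PermGroups.exists_third_point hZ hab
  obtain ⟨hfaith, h2, hthree, -, -⟩ := id hZ
  set E := MulAction.stabilizer G b ⊓ MulAction.stabilizer G a with hE
  have hne : ∀ u : U, ∀ y, y ≠ a → (u : G) • y ≠ a := fun u y hy e =>
    hy (smul_left_cancel (u : G) (e.trans (MulAction.mem_stabilizer_iff.1 (hUle u.2)).symm))
  have hUcard : Nat.card U + 1 = Fintype.card Ω := by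
    rw [Nat.card_eq_of_bijective (fun u : U => (⟨(u : G) • b, hne u b hab.symm⟩ : {y : Ω // y ≠ a}))
      ⟨fun u w e => (hreg b ((w : G) • b) hab.symm (hne w b hab.symm)).unique (congrArg Subtype.val e) rfl, fun z => by
        obtain ⟨u, hu, -⟩ := hreg b z.1 hab.symm z.2
        exact ⟨u, Subtype.ext hu⟩⟩,
      Nat.card_eq_fintype_card, Fintype.card_subtype_compl, Fintype.card_subtype_eq]
    have : 0 < Fintype.card Ω := Fintype.card_pos_iff.2 ⟨a⟩
    omega
  have h3le : 3 ≤ Fintype.card Ω := by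
    calc 3 = ({a, b, c₀} : Finset Ω).card := by simp [hab, hc₀a.symm, hc₀b.symm]
      _ ≤ _ := Finset.card_le_univ _
  obtain ⟨k, hk⟩ := IsPGroup.iff_card.1 hU2
  have hk0 : k ≠ 0 := by rintro rfl; rw [pow_zero] at hk; omega
  have hUeven : 2 ∣ Nat.card U := hk ▸ dvd_pow_self 2 hk0
  have hodd : Odd (Nat.card E) := by
    rcases Nat.even_or_odd (Nat.card E) with he | ho
    · exfalso
      have := PermGroups.card_eq_of_simple_even hZ hab.symm he
      rw [← hE] at this
      obtain ⟨r, hr⟩ := hUeven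
      omega
    · exact ho
  have he3 : 3 ≤ Nat.card E := by
    obtain ⟨g, hg, hg1⟩ := PermGroups.exists_ne_one_twoStabilizer hZ hab.symm
    obtain ⟨r, hr⟩ := hodd
    by_contra hlt
    have h1 : Nat.card E = 1 := by omega
    exact hg1 (congrArg Subtype.val ((Nat.card_eq_one_iff_unique.1 h1).1.elim (⟨g, hg⟩ : E) 1))
  have hle : Fintype.card Ω - 2 ≤ 2 * Nat.card E := PermGroups.card_le_of_abelian_kernel h2 hthree hab.symm hodd he3
    (S0739.result hZ hab.symm hodd (PermGroups.no_complement_of_simple hZ hab.symm)).2.2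
    hUle hUn hreg hUcard hUab
  obtain ⟨m, hm⟩ := PermGroups.card_twoStabilizer_dvd hthree hab.symm
  rw [← hE] at hm
  have hcardE : Nat.card E + 2 = Fintype.card Ω := by
    have hm2 : m ≤ 2 := by
      by_contra hcon
      have : Nat.card E * 3 ≤ Nat.card E * m := Nat.mul_le_mul_left _ (by omega)
      omega
    obtain ⟨r, hr⟩ := hUeven
    interval_cases m <;> omega
  -- all translations have order two
  have hU1 : ∀ u ∈ U, u * u = 1 := by
    intro u hu
    by_cases hu1 : u = 1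
    · rw [hu1, one_mul]
    haveI : Fact (Nat.Prime 2) := ⟨Nat.prime_two⟩
    obtain ⟨t, ht⟩ := exists_prime_orderOf_dvd_card' 2 hUeven
    have ht1 : (t : G) ≠ 1 := fun e => by
      rw [← Subgroup.orderOf_coe, e, orderOf_one] at ht
      omega
    have hfix : ∀ w : U, (w : G) ≠ 1 → (w : G) • b ≠ b := fun w hw e =>
      hw (congrArg Subtype.val ((hreg b b hab.symm hab.symm).unique (y₁ := w) (y₂ := 1) e (one_smul G b)))
    obtain ⟨l, hl, hle'⟩ := PermGroups.exists_move_of_card hthree hab.symm hcardE ((t : G) • b) (u • b)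
      (hfix t ht1) (hne t b hab.symm) (hfix ⟨u, hu⟩ hu1) (hne ⟨u, hu⟩ b hab.symm)
    have hlu : l * (t : G) * l⁻¹ = u := congrArg Subtype.val ((hreg b (u • b) hab.symm (hne ⟨u, hu⟩ b hab.symm)).unique
      (y₁ := ⟨_, hUn l hl.2 t t.2⟩) (y₂ := ⟨u, hu⟩)
      (by rw [mul_smul, mul_smul, inv_smul_eq_iff.2 (MulAction.mem_stabilizer_iff.1 hl.1).symm]; exact hle') rfl)
    rw [← hlu]
    have htt : (t : G) * t = 1 := by rw [← sq, ← ht, ← Subgroup.orderOf_coe, pow_orderOf_eq_one]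
    calc l * (t : G) * l⁻¹ * (l * t * l⁻¹) = l * (t * t) * l⁻¹ := by group
      _ = 1 := by rw [htt]; group
  -- the fixed point of `v`
  haveI : Fact (Nat.Prime 2) := ⟨Nat.prime_two⟩
  have hvb : v • b = a := by rw [hbdef, ← mul_smul, hv2, one_smul]
  obtain ⟨c, hvc⟩ : ∃ c : Ω, v • c = c := by
    by_contra hcon
    push Not at hcon
    have hP : IsPGroup 2 (Subgroup.zpowers v) := IsPGroup.of_card (n := 1) (by
      rw [Nat.card_zpowers, orderOf_eq_prime (by rw [sq, hv2]) hv1, pow_one])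
    have hmod := hP.card_modEq_card_fixedPoints Ω
    rw [show (MulAction.fixedPoints (Subgroup.zpowers v) Ω) = ∅ from
      Set.eq_empty_iff_forall_notMem.2 fun w hw => hcon w (hw ⟨v, Subgroup.mem_zpowers v⟩),
      Nat.card_coe_set_eq, Set.ncard_empty, Nat.card_eq_fintype_card] at hmod
    unfold Nat.ModEq at hmod
    obtain ⟨r, hr⟩ := hUeven
    omega
  have hca : c ≠ a := fun e => hva (by rw [e] at hvc; exact hvc)
  have hcb : c ≠ b := fun e => hab (by rw [← hvb, ← e, hvc])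
  obtain ⟨u₀, hu₀, -⟩ := hreg b c hab.symm hca
  have hu₀a : (u₀ : G) • a = a := MulAction.mem_stabilizer_iff.1 (hUle u₀.2)
  have hu₀c : (u₀ : G) • c = b := by rw [← hu₀, ← mul_smul, hU1 _ u₀.2, one_smul]
  refine ⟨u₀, ⟨u₀.2, fun e => hcb (by rw [← hu₀, e, one_smul]), ?_⟩, ?_⟩
  · refine inv_mul_eq_one.1 (hthree _ a b c hab hcb.symm hca.symm ?_ ?_ ?_) <;>
      rw [mul_smul, inv_smul_eq_iff] <;> simp only [mul_smul]
    · rw [hu₀a, ← hbdef, hu₀, hvc]
    · rw [hu₀, hvc, hu₀c, hvb, hu₀a, ← hbdef]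
    · rw [hvc, hu₀c, hvb, hu₀a]
  · rintro u ⟨hu, -, hrel⟩
    have h1 := congrArg (fun g : G => g • a) hrel
    simp only [mul_smul] at h1
    rw [← hbdef, MulAction.mem_stabilizer_iff.1 (hUle hu), ← hbdef] at h1
    have h2' : u • b = c := by
      by_contra hne'
      have hw : v • u • b = u • b := h1
      refine hne' (PermGroups.involution_one_fixed hZ hab.symm hodd (orderOf_eq_prime (by rw [sq, hv2]) hv1) hw hvc)
    exact congrArg Subtype.val ((hreg b c hab.symm hca).unique (y₁ := ⟨u, hu⟩) (y₂ := u₀) h2' hu₀)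

end Cfsg.Agent.S1167
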