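import Cfsg.Statements.S1176
import Cfsg.Agent.TwoGroups.Involution
import Mathlib.GroupTheory.Commutator.Basic
import Mathlib.Tactic.IntervalCases

set_option autoImplicit false
open Cfsg
open scoped commutatorElement

namespace Cfsg.Agent.S1176

/-- Let x₀ be an involution of the finite group G and D its conjugacy class. Assume (a) for each x ∈ D the subgroup W(x) generated by the members of D commuting with x is a 2-group of nilpotency class at most 2, and (b) the product of two distinct commuting members of D again lies in D. Then for all x, y ∈ D, if xy has even order greater than 2, its order is 4. -/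
theorem result {G : Type*} [Group G] [Finite G] (x₀ : G) (hx₀ : orderOf x₀ = 2) (ha : ∀ x : G, IsConj x₀ x → IsPGroup 2 ↥(Subgroup.closure {y : G | IsConj x₀ y ∧ Commute y x}) ∧ ⁅⁅Subgroup.closure {y : G | IsConj x₀ y ∧ Commute y x}, Subgroup.closure {y : G | IsConj x₀ y ∧ Commute y x}⁆, Subgroup.closure {y : G | IsConj x₀ y ∧ Commute y x}⁆ = ⊥) (hb : ∀ x y : G, IsConj x₀ x → IsConj x₀ y → x ≠ y → Commute x y → IsConj x₀ (x * y)) (x y : G) (hx : IsConj x₀ x) (hy : IsConj x₀ y) (heven : Even (orderOf (x * y))) (hgt : 2 < orderOf (x * y)) : orderOf (x * y) = 4 := by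
  have hsq : ∀ w : G, IsConj x₀ w → w * w = 1 := by
    intro w hw
    obtain ⟨c, rfl⟩ := isConj_iff.mp hw
    have h0 := TwoGroups.sq_one_of_order_two hx₀
    rw [show c * x₀ * c⁻¹ * (c * x₀ * c⁻¹) = c * (x₀ * x₀) * c⁻¹ by group, h0]
    simp
  obtain ⟨z, hzw, hz1, hzz, hzx, hzy, hor⟩ := TwoGroups.exists_central_of_even (hsq x hx) (hsq y hy)
    (isOfFinOrder_of_finite _) heven
  have hD : IsConj x₀ (z * x) := by
    rcases hor with ⟨h, -, hh⟩ | ⟨h, -, hh⟩
    · exact hh ▸ hx.trans (isConj_iff.mpr ⟨h, rfl⟩)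
    · exact hh ▸ hy.trans (isConj_iff.mpr ⟨h, rfl⟩)
  have hzD : IsConj x₀ z := by
    have hne : x ≠ z * x := fun e => hz1 (mul_eq_right.mp e.symm)
    have := hb x (z * x) hx hD hne ((hzx.symm).mul_right (Commute.refl x))
    rwa [← mul_assoc, ← hzx.eq, mul_assoc, hsq x hx, mul_one] at this
  obtain ⟨hW, hcl⟩ := ha z hzD
  set W := Subgroup.closure {w : G | IsConj x₀ w ∧ Commute w z}
  have hxW : x ∈ W := Subgroup.subset_closure ⟨hx, hzx.symm⟩
  have hyW : y ∈ W := Subgroup.subset_closure ⟨hy, hzy.symm⟩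
  have hinv := TwoGroups.conj_mul_eq_inv (hsq x hx) (hsq y hy)
  have hc : ⁅⁅x, x * y⁆, x⁆ = 1 := by
    have := Subgroup.commutator_mem_commutator
      (Subgroup.commutator_mem_commutator hxW (mul_mem hxW hyW)) hxW (H₁ := ⁅W, W⁆)
    rwa [hcl, Subgroup.mem_bot] at this
  have h4 : (x * y) ^ (4 : ℤ) = 1 := by
    have e1 : ⁅x, x * y⁆ = (x * y) ^ (-2 : ℤ) := by
      rw [commutatorElement_def, hinv, zpow_neg, zpow_two, ← mul_inv_rev]
    rw [e1, commutatorElement_def] at hc
    rw [show (x * y) ^ (-2 : ℤ) * x * ((x * y) ^ (-2 : ℤ))⁻¹ * x⁻¹ =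
      (x * y) ^ (-2 : ℤ) * (x * ((x * y) ^ (-2 : ℤ))⁻¹ * x⁻¹) by group, ← zpow_neg,
      TwoGroups.conj_zpow_eq_inv hinv, ← zpow_add] at hc
    have := congrArg (·⁻¹) hc
    simpa [← zpow_neg] using this
  have h4' : orderOf (x * y) ∣ 4 := orderOf_dvd_of_pow_eq_one (by exact_mod_cast h4)
  have := Nat.le_of_dvd (by norm_num) h4'
  interval_cases h : orderOf (x * y)
  · omega
  · rfl

end Cfsg.Agent.S1176
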