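import Cfsg.Statements.S1177
import Cfsg.Agent.TwoGroups.Closed
import Mathlib

set_option autoImplicit false
open Cfsg

namespace Cfsg.Agent.S1177

/-- Let A be a nontrivial elementary abelian 2-subgroup of a finite group G which is a T.I. set (each conjugate of A meets A trivially or equals A) and which does not commute elementwise with any conjugate of A other than A itself. Then for every a ∈ A, a ≠ 1, every conjugate of A contained in C_G(a) is equal to A (A is weakly closed in C_G(a)). -/
theorem result {G : Type*} [Group G] [Finite G] (A : Subgroup G) (hA : Cfsg.IsElementaryAbelian 2 A) (hA1 : A ≠ ⊥) (hTI : ∀ g : G, A.map (MulAut.conj g).toMonoidHom ⊓ A = ⊥ ∨ A.map (MulAut.conj g).toMonoidHom = A) (hb : ∀ g : G, (∀ a ∈ A, ∀ b ∈ A.map (MulAut.conj g).toMonoidHom, a * b = b * a) → A.map (MulAut.conj g).toMonoidHom = A) (a : G) (ha : a ∈ A) (ha1 : a ≠ 1) (g : G) (hg : A.map (MulAut.conj g).toMonoidHom ≤ Subgroup.centralizer ({a} : Set G)) : A.map (MulAut.conj g).toMonoidHom = A := by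
  -- `A^h` for `h` fixing a nontrivial element of `A` equals `A`
  have tA : ∀ h c : G, c ∈ A → c ≠ 1 → h * c * h⁻¹ = c →
      A.map (MulAut.conj h).toMonoidHom = A := by
    intro h c hc hc1 hfix
    rcases hTI h with e | e
    · exfalso
      apply hc1
      rw [← Subgroup.mem_bot, ← e]
      exact ⟨hfix ▸ TwoGroups.conj_mem_map_conj hc, hc⟩
    · exact e
  -- the same inside a conjugate of `A`
  have tC : ∀ k h c : G, c ∈ A.map (MulAut.conj k).toMonoidHom → c ≠ 1 → h * c * h⁻¹ = c →
      A.map (MulAut.conj (h * k)).toMonoidHom = A.map (MulAut.conj k).toMonoidHom := by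
    intro k h c hc hc1 hfix
    rw [TwoGroups.mem_map_conj] at hc
    have := tA (k⁻¹ * h * k) (k⁻¹ * c * k) hc
      (fun e => hc1 (by simpa [mul_assoc] using congrArg (fun t => k * t * k⁻¹) e))
      (by simpa [mul_assoc] using congrArg (fun t => k⁻¹ * t * k) hfix)
    have := congrArg (Subgroup.map (MulAut.conj k).toMonoidHom) this
    rwa [TwoGroups.map_conj_map, show k * (k⁻¹ * h * k) = h * k by group] at this
  -- two conjugates normalising each other are equal
  have commEq : ∀ k₁ k₂ : G,
      (∀ h ∈ A.map (MulAut.conj k₁).toMonoidHom,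
        A.map (MulAut.conj (h * k₂)).toMonoidHom = A.map (MulAut.conj k₂).toMonoidHom) →
      (∀ h ∈ A.map (MulAut.conj k₂).toMonoidHom,
        A.map (MulAut.conj (h * k₁)).toMonoidHom = A.map (MulAut.conj k₁).toMonoidHom) →
      A.map (MulAut.conj k₂).toMonoidHom = A.map (MulAut.conj k₁).toMonoidHom := by
    intro k₁ k₂ h12 h21
    have hB : A.map (MulAut.conj (k₁⁻¹ * k₂)).toMonoidHom = A := by
      rcases hTI (k₁⁻¹ * k₂) with e | e
      · apply hb
        intro a ha b hb'
        set B := A.map (MulAut.conj (k₁⁻¹ * k₂)).toMonoidHom with hBdef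
        have hbA : A.map (MulAut.conj b).toMonoidHom = A := by
          have h1 : k₁ * b * k₁⁻¹ ∈ A.map (MulAut.conj k₂).toMonoidHom := by
            rw [hBdef, TwoGroups.mem_map_conj] at hb'
            rw [TwoGroups.mem_map_conj]
            simpa [mul_assoc] using hb'
          have := congrArg (Subgroup.map (MulAut.conj k₁⁻¹).toMonoidHom) (h21 _ h1)
          rwa [TwoGroups.map_conj_map, TwoGroups.map_conj_map, inv_mul_cancel, TwoGroups.map_conj_one,
            show k₁⁻¹ * (k₁ * b * k₁⁻¹ * k₁) = b by group] at this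
        have haB : B.map (MulAut.conj a).toMonoidHom = B := by
          have h1 : k₁ * a * k₁⁻¹ ∈ A.map (MulAut.conj k₁).toMonoidHom := TwoGroups.conj_mem_map_conj ha
          have := congrArg (Subgroup.map (MulAut.conj k₁⁻¹).toMonoidHom) (h12 _ h1)
          rw [hBdef, TwoGroups.map_conj_map]
          rwa [TwoGroups.map_conj_map, TwoGroups.map_conj_map,
            show k₁⁻¹ * (k₁ * a * k₁⁻¹ * k₂) = a * (k₁⁻¹ * k₂) by group] at this
        have hm : a * b * a⁻¹ * b⁻¹ ∈ B ⊓ A := by
          refine ⟨B.mul_mem ?_ (B.inv_mem hb'), ?_⟩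
          · exact haB ▸ TwoGroups.conj_mem_map_conj hb'
          · rw [show a * b * a⁻¹ * b⁻¹ = a * (b * a⁻¹ * b⁻¹) by group]
            exact mul_mem ha (hbA ▸ TwoGroups.conj_mem_map_conj (inv_mem ha))
        rw [e, Subgroup.mem_bot] at hm
        calc a * b = a * b * a⁻¹ * b⁻¹ * (b * a) := by group
          _ = b * a := by rw [hm, one_mul]
      · exact e
    have := congrArg (Subgroup.map (MulAut.conj k₁).toMonoidHom) hB
    rwa [TwoGroups.map_conj_map, mul_inv_cancel_left] at this
  -- `A^g` normalises `A`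
  have normA : ∀ h ∈ A.map (MulAut.conj g).toMonoidHom, A.map (MulAut.conj h).toMonoidHom = A := by
    intro h hh
    refine tA h a ha ha1 ?_
    rw [Subgroup.mem_centralizer_singleton_iff.mp (hg hh), mul_inv_cancel_right]
  have sq : ∀ h ∈ A.map (MulAut.conj g).toMonoidHom, h * h = 1 := by
    rintro _ ⟨c, hc, rfl⟩
    rw [← map_mul, ← pow_two c, hA.2 c hc, map_one]
  have comm : ∀ x ∈ A, ∀ y ∈ A, x * y = y * x := fun x hx y hy =>
    congrArg Subtype.val (hA.1.is_comm.comm (⟨x, hx⟩ : A) ⟨y, hy⟩)
  -- `h` commutes with its conjugates by `A`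
  have key : ∀ h ∈ A.map (MulAut.conj g).toMonoidHom, ∀ b ∈ A, Commute h (b * h * b⁻¹) := by
    intro h hh b hb'
    have hbh : h * b * h⁻¹ ∈ A := normA h hh ▸ TwoGroups.conj_mem_map_conj hb'
    have hinv : h⁻¹ = h := inv_eq_of_mul_eq_one_right (sq h hh)
    have binv : ∀ x ∈ A, x⁻¹ = x := fun x hx =>
      inv_eq_of_mul_eq_one_right (by rw [← pow_two]; exact hA.2 x hx)
    show h * (b * h * b⁻¹) = b * h * b⁻¹ * h
    calc h * (b * h * b⁻¹) = h * b * h⁻¹ * b⁻¹ := by rw [hinv]; group
      _ = b * (h * b * h⁻¹) := by rw [binv b hb', comm _ hbh _ hb']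
      _ = b * (h * b⁻¹ * h) := by rw [binv b hb', hinv]
      _ = b * h * b⁻¹ * h := by group
  -- hence `A` normalises `A^g`
  have normG : ∀ b ∈ A, A.map (MulAut.conj (b * g)).toMonoidHom = A.map (MulAut.conj g).toMonoidHom := by
    intro b hb'
    apply commEq g (b * g)
    · intro h hh
      rcases eq_or_ne h 1 with rfl | h1
      · rw [one_mul]
      refine tC (b * g) h (b * h * b⁻¹) ?_ (fun e => h1 ?_) ?_
      · rw [← TwoGroups.map_conj_map]; exact TwoGroups.conj_mem_map_conj hh
      · simpa [mul_assoc] using congrArg (fun t => b⁻¹ * t * b) e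
      · rw [(key h hh b hb').eq, mul_inv_cancel_right]
    · intro h hh
      rw [← TwoGroups.map_conj_map] at hh
      obtain ⟨h0, hh0, rfl⟩ := hh
      rcases eq_or_ne h0 1 with rfl | h1
      · simp [TwoGroups.map_conj_map]
      refine tC g _ h0 hh0 h1 ?_
      show b * h0 * b⁻¹ * h0 * (b * h0 * b⁻¹)⁻¹ = h0
      rw [← (key h0 hh0 b hb').eq, mul_inv_cancel_right]
  have := commEq 1 g
    (fun h hh => normG h (by simpa [TwoGroups.map_conj_one] using hh))
    (fun h hh => by rw [mul_one, TwoGroups.map_conj_one]; exact normA h hh)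
  rwa [TwoGroups.map_conj_one] at this

end Cfsg.Agent.S1177
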