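import Cfsg.Statements.S1184
import Cfsg.Agent.TwoGroups.Involution

set_option autoImplicit false
open Cfsg

namespace Cfsg.Agent.S1184

/-- Let z be an isolated involution of the finite group G. If s and t are distinct conjugates of z, then st does not commute with z. -/
theorem result {G : Type*} [Group G] [Finite G] (z : G) (hz : Cfsg.IsIsolatedInvolution z) (g h : G) (hne : g * z * g⁻¹ ≠ h * z * h⁻¹) : ¬ Commute (g * z * g⁻¹ * (h * z * h⁻¹)) z := by
  intro hc
  have ha := TwoGroups.conj_sq_one hz g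
  have hb := TwoGroups.conj_sq_one hz h
  have hodd := TwoGroups.isolated_odd_conj_mul_conj hz g h
  have hne1 : g * z * g⁻¹ * (h * z * h⁻¹) ≠ 1 := by
    intro e
    exact hne (by rw [← TwoGroups.inv_eq_of_sq_one hb]; exact eq_inv_of_mul_eq_one_left e)
  have hinv := TwoGroups.conj_mul_eq_inv ha hb
  obtain ⟨k, hk, he⟩ := TwoGroups.isolated_exists_conj hz g
  generalize g * z * g⁻¹ * (h * z * h⁻¹) = w at *
  generalize g * z * g⁻¹ = a at *
  -- `z` and `a` normalise `⟨w⟩`, hence so does `k`; `z` centralises it, hence so does `a`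
  have hzN : z ∈ Subgroup.normalizer (Subgroup.zpowers w : Set G) := by
    apply Subgroup.centralizer_le_normalizer
    rw [Subgroup.mem_centralizer_iff]
    intro x hx
    obtain ⟨n, rfl⟩ := Subgroup.mem_zpowers_iff.mp hx
    exact (hc.zpow_left n).eq
  have haN : a ∈ Subgroup.normalizer (Subgroup.zpowers w : Set G) := by
    apply Subgroup.mem_normalizer_iff.mpr
    intro x
    constructor
    · intro hx
      obtain ⟨n, rfl⟩ := Subgroup.mem_zpowers_iff.mp hx
      rw [TwoGroups.conj_zpow_eq_inv hinv n]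
      exact Subgroup.zpow_mem_zpowers _ _
    · intro hx
      obtain ⟨n, hn⟩ := Subgroup.mem_zpowers_iff.mp hx
      have := TwoGroups.conj_zpow_eq_inv hinv n
      rw [hn] at this
      have hx2 : a * (a * x * a⁻¹) * a⁻¹ = x := by
        rw [TwoGroups.inv_eq_of_sq_one ha]
        simp [mul_assoc, ha]
        rw [← mul_assoc, ha, one_mul]
      rw [hx2] at this
      rw [this]; exact Subgroup.zpow_mem_zpowers _ _
  have hkN : k ∈ Subgroup.normalizer (Subgroup.zpowers w : Set G) :=
    Subgroup.zpowers_le.2 (mul_mem haN hzN) hk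
  have hk' : k⁻¹ * w * k⁻¹⁻¹ ∈ Subgroup.zpowers w :=
    (Subgroup.mem_normalizer_iff.mp (inv_mem hkN) w).1 (Subgroup.mem_zpowers w)
  obtain ⟨n, hn⟩ := Subgroup.mem_zpowers_iff.mp hk'
  have : Commute (k⁻¹ * w * k⁻¹⁻¹) z := hn ▸ hc.zpow_left n
  have hwa : Commute w a := by
    have := this.map (MulAut.conj k).toMonoidHom
    simpa [← he, mul_assoc] using this
  have : a * w * a⁻¹ = w := by rw [← hwa.eq]; group
  rw [this] at hinv
  have h2 : w ^ 2 = 1 := by rw [pow_two]; nth_rw 2 [hinv]; exact mul_inv_cancel w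
  have := Nat.le_of_dvd two_pos (orderOf_dvd_of_pow_eq_one h2)
  obtain ⟨j, hj⟩ := hodd
  exact hne1 (orderOf_eq_one_iff.mp (by omega))

end Cfsg.Agent.S1184
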