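import Cfsg.Statements.S1226


set_option autoImplicit false
open Cfsg

namespace Cfsg.Agent.S1226

/-- Let G be a finite group with a Sylow 2-subgroup T that is neither cyclic nor normal, such that the centralizer of every involution is an elementary abelian 2-group. Then N_G(T) is a strongly embedded subgroup of G. -/
theorem result {G : Type*} [Group G] [Finite G] (T : Sylow 2 G) (hnc : ¬ IsCyclic (T : Subgroup G)) (hnn : ¬ (T : Subgroup G).Normal) (hC : ∀ t : G, orderOf t = 2 → IsMulCommutative (Subgroup.centralizer ({t} : Set G)) ∧ ∀ c ∈ Subgroup.centralizer ({t} : Set G), c ^ 2 = 1) : Cfsg.IsStronglyEmbedded (Subgroup.normalizer ((T : Subgroup G) : Set G)) := by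
  have hne : (T : Subgroup G) ≠ ⊥ := fun e => hnn (by rw [e]; infer_instance)
  have hTeven : 2 ∣ Nat.card (T : Subgroup G) := by
    obtain ⟨k, hk⟩ := IsPGroup.iff_card.mp T.2
    have : k ≠ 0 := fun e => hne (Subgroup.card_eq_one.mp (by rw [hk, e, pow_zero]))
    rw [hk]
    exact dvd_pow_self 2 this
  set H := Subgroup.normalizer ((T : Subgroup G) : Set G) with hH
  refine ⟨fun e => hnn (Subgroup.normalizer_eq_top_iff.mp e), ?_, ?_⟩
  · exact even_iff_two_dvd.mpr (hTeven.trans (Subgroup.card_dvd_of_le Subgroup.le_normalizer))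
  intro g hg
  by_contra he
  rw [Nat.not_odd_iff_even, even_iff_two_dvd] at he
  obtain ⟨⟨s, hs⟩, hso⟩ := exists_prime_orderOf_dvd_card' 2 he
  rw [Subgroup.orderOf_mk] at hso
  obtain ⟨hs1, hs2⟩ := Subgroup.mem_inf.mp hs
  -- every involution of `H` lies in `T`
  have inT : ∀ r : G, orderOf r = 2 → r ∈ H → r ∈ (T : Subgroup G) := by
    intro r hr hrH
    have hp : IsPGroup 2 (Subgroup.zpowers r) := IsPGroup.of_card (n := 1) (by rw [Nat.card_zpowers, hr, pow_one])
    exact (T.3 (hp.to_sup_of_normal_right' T.2 (Subgroup.zpowers_le.2 hrH))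
      le_sup_right).le (Subgroup.mem_sup_left (Subgroup.mem_zpowers r))
  -- `T` is the centralizer of each of its involutions
  have cen : ∀ r : G, orderOf r = 2 → r ∈ (T : Subgroup G) →
      Subgroup.centralizer ({r} : Set G) = T := by
    intro r hr hrT
    obtain ⟨hcomm, hexp⟩ := hC r hr
    have hpC : IsPGroup 2 (Subgroup.centralizer ({r} : Set G)) := fun c =>
      ⟨1, Subtype.ext (by simpa using hexp c.1 c.2)⟩
    obtain ⟨k, hk⟩ := IsPGroup.iff_card.mp T.2
    haveI : Nontrivial (T : Subgroup G) := (Subgroup.nontrivial_iff_ne_bot _).mpr hne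
    haveI := T.2.center_nontrivial
    -- a central involution of `T`
    obtain ⟨⟨z, hz⟩, hzo⟩ := exists_prime_orderOf_dvd_card' (G := Subgroup.center (T : Subgroup G)) 2 (by
      obtain ⟨m, hm⟩ := IsPGroup.iff_card.mp (T.2.to_subgroup (Subgroup.center (T : Subgroup G)))
      have : m ≠ 0 := fun e => by
        have := Finite.one_lt_card (α := Subgroup.center (T : Subgroup G))
        rw [hm, e, pow_zero] at this
        exact lt_irrefl 1 this
      rw [hm]; exact dvd_pow_self 2 this)
    rw [Subgroup.orderOf_mk, ← Subgroup.orderOf_coe] at hzo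
    have hTab : ∀ a ∈ (T : Subgroup G), ∀ b ∈ (T : Subgroup G), a * b = b * a := by
      intro a ha b hb
      have hmem : ∀ c ∈ (T : Subgroup G), c ∈ Subgroup.centralizer ({(z : G)} : Set G) := fun c hc => by
        rw [Subgroup.mem_centralizer_singleton_iff]
        exact congrArg Subtype.val (Subgroup.mem_center_iff.mp hz ⟨c, hc⟩)
      exact congrArg Subtype.val ((hC z hzo).1.is_comm.comm (⟨a, hmem a ha⟩ :
        Subgroup.centralizer ({(z : G)} : Set G)) ⟨b, hmem b hb⟩)
    exact T.3 hpC fun c hc => by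
      rw [Subgroup.mem_centralizer_singleton_iff]
      exact hTab c hc r hrT
  obtain ⟨s', hs', hse⟩ := hs2
  have hs'o : orderOf s' = 2 := by
    rw [← hso, ← hse]
    exact ((MulAut.conj g).orderOf_eq s').symm
  have hsT := inT s hso hs1
  have hs'T := inT s' hs'o hs'
  have e1 := cen s hso hsT
  have e2 := cen s' hs'o hs'T
  apply hg
  rw [Subgroup.mem_normalizer_iff]
  intro x
  rw [← SetLike.mem_coe]
  constructor
  · intro hx
    have : Commute x s' := Subgroup.mem_centralizer_singleton_iff.mp (e2 ▸ hx : x ∈ Subgroup.centralizer ({s'} : Set G))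
    have h2 : g * x * g⁻¹ ∈ Subgroup.centralizer ({s} : Set G) := by
      rw [Subgroup.mem_centralizer_singleton_iff, ← hse]
      simpa [mul_assoc] using congrArg (fun t => g * t * g⁻¹) this.eq
    rwa [e1] at h2
  · intro hx
    have : Commute (g * x * g⁻¹) s := Subgroup.mem_centralizer_singleton_iff.mp (e1 ▸ hx : g * x * g⁻¹ ∈ Subgroup.centralizer ({s} : Set G))
    have h2 : x ∈ Subgroup.centralizer ({s'} : Set G) := by
      rw [Subgroup.mem_centralizer_singleton_iff]
      have := congrArg (fun t => g⁻¹ * t * g) this.eq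
      rw [← hse] at this
      simpa [mul_assoc] using this
    rwa [e2] at h2

end Cfsg.Agent.S1226
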