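import Cfsg.Statements.S1229
import Cfsg.Agent.TwoGroups.CGroup

set_option autoImplicit false
open Cfsg

namespace Cfsg.Agent.S1229

/-- Let G be a finite group with a Sylow 2-subgroup T that is neither cyclic nor normal, such that the centralizer of every involution is an elementary abelian 2-group; put H = N_G(T) and X = G/H. Then G is triply transitive on X, an element fixing three distinct points of X is the identity, and T acts regularly on X minus the point H. -/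
theorem result {G : Type*} [Group G] [Finite G] (T : Sylow 2 G) (hnc : ¬ IsCyclic (T : Subgroup G)) (hnn : ¬ (T : Subgroup G).Normal) (hC : ∀ t : G, orderOf t = 2 → IsMulCommutative (Subgroup.centralizer ({t} : Set G)) ∧ ∀ c ∈ Subgroup.centralizer ({t} : Set G), c ^ 2 = 1) : (∀ x₁ x₂ x₃ y₁ y₂ y₃ : G ⧸ Subgroup.normalizer ((T : Subgroup G) : Set G), x₁ ≠ x₂ → x₁ ≠ x₃ → x₂ ≠ x₃ → y₁ ≠ y₂ → y₁ ≠ y₃ → y₂ ≠ y₃ → ∃ g : G, g • x₁ = y₁ ∧ g • x₂ = y₂ ∧ g • x₃ = y₃) ∧ (∀ g : G, ∀ x₁ x₂ x₃ : G ⧸ Subgroup.normalizer ((T : Subgroup G) : Set G), x₁ ≠ x₂ → x₁ ≠ x₃ → x₂ ≠ x₃ → g • x₁ = x₁ → g • x₂ = x₂ → g • x₃ = x₃ → g = 1) ∧ (∀ x y : G ⧸ Subgroup.normalizer ((T : Subgroup G) : Set G), x ≠ QuotientGroup.mk 1 → y ≠ QuotientGroup.mk 1 → ∃! t : G, t ∈ T ∧ t • x = y) := by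
    have h : Cfsg.Agent.TwoGroups.CHyp T := ⟨hnc, hnn, hC⟩
    obtain ⟨u, huH, hu⟩ := Cfsg.Agent.TwoGroups.se_exists_notMem h.se
    obtain ⟨s, hsH, hs⟩ := Cfsg.Agent.TwoGroups.se_exists_mem h.se
    have hsT := h.mem_sylow hs hsH
    have hs1 : s ≠ 1 := fun e => by rw [e, orderOf_one] at hs; omega
    refine ⟨fun x₁ x₂ x₃ y₁ y₂ y₃ a b c a' b' c' => ?_, fun g x₁ x₂ x₃ => h.fix_three hu huH,
      fun x y hx hy => ?_⟩
    · obtain ⟨g, g1, g2, g3⟩ := h.exists_frame hu huH hsT hs1 a b c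
      obtain ⟨k, k1, k2, k3⟩ := h.exists_frame hu huH hsT hs1 a' b' c'
      refine ⟨k * g⁻¹, ?_, ?_, ?_⟩ <;> rw [mul_smul]
      · rw [← g1, inv_smul_smul, k1]
      · rw [← g2, inv_smul_smul, k2]
      · rw [← g3, inv_smul_smul, k3]
    · obtain ⟨a, ha, hax⟩ := h.exists_T_smul hu huH hx
      obtain ⟨b, hb, hby⟩ := h.exists_T_smul hu huH hy
      refine ⟨b * a⁻¹, ⟨mul_mem hb (inv_mem ha), by rw [← hax, mul_smul, inv_smul_smul, hby]⟩, ?_⟩
      rintro t ⟨ht, htx⟩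
      rw [← hax, ← hby, ← mul_smul] at htx
      exact eq_mul_inv_of_mul_eq (h.T_smul_inj huH (mul_mem ht ha) hb htx)

end Cfsg.Agent.S1229
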