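import Cfsg.Statements.S1231
import Cfsg.Agent.Components.Rank
import Mathlib
-- import your own Cfsg.Agent.* helpers here

set_option autoImplicit false
open Cfsg

namespace Cfsg.Agent.S1231

/-- Let H be a subgroup of the finite group G, p a prime, k ≥ 1, and P a Sylow p-subgroup of H whose p-rank is at least k. Then N_G(X) ≤ H for every subgroup X of P of p-rank at least k if and only if H ∩ gHg⁻¹ has p-rank less than k for every g ∉ H. -/
theorem result {G : Type*} [Group G] [Finite G] {p : ℕ} [Fact p.Prime] (k : ℕ) (hk : 1 ≤ k) (H : Subgroup G) (P : Sylow p ↥H) (hP : ¬ Cfsg.PRankLE p (k - 1) ↥(P : Subgroup ↥H)) : (∀ X : Subgroup G, X ≤ (P : Subgroup ↥H).map H.subtype → ¬ Cfsg.PRankLE p (k - 1) ↥X → Subgroup.normalizer (X : Set G) ≤ H) ↔ (∀ g : G, g ∉ H → Cfsg.PRankLE p (k - 1) ↥(H ⊓ H.map (MulAut.conj g).toMonoidHom)) := by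
  classical
  -- conjugation as a subgroup map
  let cj : G → Subgroup G → Subgroup G := fun g K => K.map (MulAut.conj g).toMonoidHom
  have mem_cj : ∀ (g : G) (K : Subgroup G) (x : G), x ∈ cj g K ↔ g⁻¹ * x * g ∈ K := by
    intro g K x
    simp only [cj, Subgroup.mem_map, MulEquiv.coe_toMonoidHom, MulAut.conj_apply]
    exact ⟨fun ⟨y, hy, e⟩ => by rw [← e]; simpa [mul_assoc] using hy, fun h => ⟨_, h, by group⟩⟩
  have rank_cj : ∀ (g : G) (K : Subgroup G), Cfsg.PRankLE p (k - 1) ↥(cj g K) ↔ Cfsg.PRankLE p (k - 1) ↥K :=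
    fun g K => (Components.pRankLE_congr (K.equivMapOfInjective _ (MulAut.conj g).injective)).symm
  set P' : Subgroup G := (P : Subgroup ↥H).map H.subtype
  have hP'H : P' ≤ H := Subgroup.map_subtype_le _
  constructor
  swap
  · intro hB X hXP hX g hg
    by_contra hgH
    refine hX (Components.pRankLE_of_le (le_inf (hXP.trans hP'H) fun x hx => (mem_cj g H x).2 ?_) (hB g hgH))
    exact hP'H (hXP ((Subgroup.mem_normalizer_iff''.1 hg x).1 hx))
  intro hA g hgH
  by_contra hrk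
  set D := H ⊓ cj g H
  -- an elementary witness inside D
  have hrkD : ¬ Cfsg.PRankLE p (k - 1) ↥D := hrk
  simp only [Cfsg.PRankLE, not_forall, not_le] at hrkD
  obtain ⟨A, hAc, hAp, hAbig⟩ := hrkD
  have hApg : IsPGroup p A := fun a => ⟨1, by
    rw [pow_one]; exact Subtype.ext (hAp a a.2)⟩
  obtain ⟨R, hAR⟩ := hApg.exists_le_sylow
  set R₀ : Subgroup G := (R : Subgroup D).map D.subtype
  have hR₀p : IsPGroup p R₀ := R.2.map _
  have hR₀D : R₀ ≤ D := Subgroup.map_subtype_le _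
  have hR₀rank : ¬ Cfsg.PRankLE p (k - 1) ↥R₀ := fun h => by
    have h' : Cfsg.PRankLE p (k - 1) ↥(R : Subgroup D) :=
      (Components.pRankLE_congr ((R : Subgroup D).equivMapOfInjective D.subtype D.subtype_injective)).2 h
    have h'' := Components.pRankLE_of_le hAR h'
    have := h'' ⊤ ⟨⟨fun x y => Subtype.ext (hAc.is_comm.comm x.1 y.1)⟩⟩ fun a _ => Subtype.ext (hAp a.1 a.2)
    rw [Subgroup.card_top] at this
    omega
  have hRmax : ∀ X : Subgroup G, X ≤ D → IsPGroup p X → R₀ ≤ X → X = R₀ := by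
    intro X hXD hXp hRX
    have h1 : IsPGroup p (X.subgroupOf D) := hXp.of_equiv (Subgroup.subgroupOfEquivOfLe hXD).symm
    have h2 : (R : Subgroup D) ≤ X.subgroupOf D := fun r hr => hRX (Subgroup.mem_map_of_mem _ hr)
    rw [← Subgroup.map_subgroupOf_eq_of_le hXD, R.3 h1 h2]
  -- every p-subgroup of H is conjugate in H into P'
  have into : ∀ X : Subgroup G, X ≤ H → IsPGroup p X → ∃ h ∈ H, cj h X ≤ P' := by
    intro X hXH hXp
    obtain ⟨Q, hQ⟩ := (hXp.of_equiv (Subgroup.subgroupOfEquivOfLe hXH).symm).exists_le_sylow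
    obtain ⟨h, hh⟩ := MulAction.exists_smul_eq ↥H Q P
    refine ⟨h, h.2, fun x hx => ?_⟩
    have hy := (mem_cj _ _ _).1 hx
    refine ⟨⟨x, ?_⟩, ?_, rfl⟩
    · have := H.mul_mem (H.mul_mem h.2 (hXH hy)) (H.inv_mem h.2)
      simpa [mul_assoc] using this
    · rw [← hh, SetLike.mem_coe, Sylow.coe_subgroup_smul]
      refine ⟨⟨_, hXH hy⟩, hQ hy, Subtype.ext ?_⟩
      simp [MulAut.smul_def, mul_assoc]
  -- normalizers of p-subgroups of H of rank at least k lie in H
  have hnorm : ∀ X : Subgroup G, X ≤ H → IsPGroup p X → ¬ Cfsg.PRankLE p (k - 1) ↥X →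
      Subgroup.normalizer (X : Set G) ≤ H := by
    intro X hXH hXp hX n hn
    obtain ⟨h, hh, hle⟩ := into X hXH hXp
    have hn' : h * n * h⁻¹ ∈ Subgroup.normalizer (cj h X : Set G) := by
      rw [Subgroup.mem_normalizer_iff]
      intro x
      rw [mem_cj, mem_cj, (Subgroup.mem_normalizer_iff.1 hn (h⁻¹ * x * h))]
      simp [mul_assoc]
    have := hA _ hle (fun e => hX ((rank_cj h X).1 e)) hn'
    have := H.mul_mem (H.mul_mem (H.inv_mem hh) this) hh
    simpa [mul_assoc] using this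
  have hRH : R₀ ≤ H := fun x hx => (hR₀D hx).1
  have hNR : Subgroup.normalizer (R₀ : Set G) ≤ D := by
    refine le_inf (hnorm R₀ hRH hR₀p hR₀rank) fun n hn => (mem_cj g H n).2 ?_
    have hR₁ : cj g⁻¹ R₀ ≤ H := fun x hx => by
      have := (mem_cj g H _).1 (hR₀D ((mem_cj _ _ _).1 hx)).2
      simpa [mul_assoc] using this
    refine hnorm _ hR₁ (hR₀p.map _) (fun e => hR₀rank ((rank_cj _ _).1 e)) ?_
    rw [Subgroup.mem_normalizer_iff]
    intro x
    rw [mem_cj, mem_cj, (Subgroup.mem_normalizer_iff.1 hn (g⁻¹⁻¹ * x * g⁻¹))]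
    simp [mul_assoc]
  -- R₀ is a Sylow subgroup of G
  obtain ⟨T, hT⟩ := hR₀p.exists_le_sylow
  have hTR : (T : Subgroup G) = R₀ := by
    by_contra hne
    haveI : Group.IsNilpotent (T : Subgroup G) := T.2.isNilpotent
    have hlt : R₀.subgroupOf (T : Subgroup G) < ⊤ := lt_top_iff_ne_top.2 fun e =>
      hne (le_antisymm (fun x hx => Subgroup.mem_subgroupOf.1 (e ▸ Subgroup.mem_top (⟨x, hx⟩ : (T : Subgroup G)))) hT)
    obtain ⟨x, hx, hx'⟩ := SetLike.exists_of_lt (Group.normalizerCondition_of_isNilpotent _ hlt)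
    have hxN : (x : G) ∈ Subgroup.normalizer (R₀ : Set G) := by
      rw [Subgroup.mem_normalizer_iff]
      intro y
      constructor
      · intro hy
        exact (Subgroup.mem_normalizer_iff.1 hx ⟨y, hT hy⟩).1 hy
      · intro hy
        have hyT : (x : G)⁻¹ * ((x : G) * y * (x : G)⁻¹) * x ∈ (T : Subgroup G) :=
          mul_mem (mul_mem (inv_mem x.2) (hT hy)) x.2
        have hyT' : y ∈ (T : Subgroup G) := by simpa [mul_assoc] using hyT
        exact (Subgroup.mem_normalizer_iff.1 hx ⟨y, hyT'⟩).2 hy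
    have := hRmax (D ⊓ (T : Subgroup G)) inf_le_left (T.2.to_le inf_le_right) (le_inf hR₀D hT)
    exact hx' (Subgroup.mem_subgroupOf.2 (this ▸ ⟨hNR hxN, x.2⟩))
  -- both R₀ and its conjugate lie in H
  have hRg : cj g⁻¹ R₀ ≤ H := fun x hx => by
    have := (mem_cj g H _).1 (hR₀D ((mem_cj _ _ _).1 hx)).2
    simpa [mul_assoc] using this
  obtain ⟨h₁, hh₁, hle₁⟩ := into R₀ hRH hR₀p
  obtain ⟨h₂, hh₂, hle₂⟩ := into _ hRg (hR₀p.map _)
  have hP'p : IsPGroup p P' := P.2.map _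
  have hmax : ∀ (a : G), cj a R₀ ≤ P' → cj a R₀ = P' := fun a ha => by
    refine Subgroup.eq_of_le_of_card_ge ha ?_
    obtain ⟨U, hU⟩ := hP'p.exists_le_sylow
    calc Nat.card P' ≤ Nat.card U := Nat.le_of_dvd Nat.card_pos (Subgroup.card_dvd_of_le hU)
      _ = Nat.card T := by rw [Sylow.card_eq_multiplicity, Sylow.card_eq_multiplicity]
      _ = _ := by rw [← Nat.card_congr ((R₀.equivMapOfInjective _ (MulAut.conj a).injective)).toEquiv, hTR]
  have e₁ := hmax h₁ hle₁
  have e₂ : cj (h₂ * g⁻¹) R₀ = P' := hmax _ fun x hx => hle₂ ((mem_cj _ _ _).2 ((mem_cj _ _ _).2 (by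
    have := (mem_cj _ _ _).1 hx
    simpa [mul_assoc] using this)))
  have hn : h₂ * g⁻¹ * h₁⁻¹ ∈ Subgroup.normalizer (P' : Set G) := by
    rw [Subgroup.mem_normalizer_iff]
    intro x
    nth_rewrite 1 [← e₁]
    rw [← e₂, mem_cj, mem_cj]
    simp [mul_assoc]
  have := H.mul_mem (H.mul_mem (H.inv_mem hh₂) (hnorm P' hP'H hP'p (fun h => hP ((Components.pRankLE_congr
    ((P : Subgroup ↥H).equivMapOfInjective H.subtype H.subtype_injective)).2 h)) hn)) hh₁
  exact hgH (inv_mem_iff.1 (by simpa [mul_assoc] using this))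

end Cfsg.Agent.S1231
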