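import Cfsg.Statements.S1232
import Cfsg.Agent.TwoGroups.SelfCentralEight.Main

set_option autoImplicit false
open Cfsg

namespace Cfsg.Agent.S1232

/-- Let S be a finite 2-group containing an elementary abelian subgroup A of order 8 with C_S(A) = A. Then every section of S has 2-rank at most 4. -/
theorem result {S : Type*} [Group S] [Finite S] (hS : IsPGroup 2 S) (A : Subgroup S) (hA : Cfsg.IsElementaryAbelian 2 A) (hA8 : Nat.card A = 8) (hC : Subgroup.centralizer (A : Set S) = A) : Cfsg.SectionalPRankLE 2 4 S := by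
  intro H N hN E _ hE
  have hA' : TwoGroups.SelfCentralEight.Elem A :=
    ⟨fun a ha b hb => congrArg Subtype.val (hA.1.is_comm.comm (⟨a, ha⟩ : A) ⟨b, hb⟩), fun a ha => by
      simpa using hA.2 a ha⟩
  let e := Subgroup.equivMapOfInjective (E.comap (QuotientGroup.mk' N)) H.subtype H.subtype_injective
  refine le_trans (TwoGroups.SelfCentralEight.section_le hS hA' hA8 hC _
    (((QuotientGroup.mk' N).subgroupComap E).comp e.symm.toMonoidHom) ?_ (fun q => Subtype.ext (hE q.1 q.2)))
    (by norm_num)
  intro q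
  obtain ⟨x, hx⟩ := QuotientGroup.mk'_surjective N q.1
  have hxE : x ∈ E.comap (QuotientGroup.mk' N) := by rw [Subgroup.mem_comap, hx]; exact q.2
  refine ⟨e ⟨x, hxE⟩, Subtype.ext ?_⟩
  show QuotientGroup.mk' N (e.symm (e ⟨x, hxE⟩)).1 = q.1
  rw [e.symm_apply_apply]
  exact hx

end Cfsg.Agent.S1232
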