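import Cfsg.Statements.S1233
import Cfsg.Agent.TwoGroups.SelfCentralEight.CentralProduct

set_option autoImplicit false
open Cfsg

namespace Cfsg.Agent.S1233

open TwoGroups.SelfCentralEight

theorem quat_rel : (QuaternionGroup.xa 0 * QuaternionGroup.xa 0 : QuaternionGroup 2) = .a 1 * .a 1 ∧
    (QuaternionGroup.xa 0 * .a 1 : QuaternionGroup 2) = .a 1 * .xa 0 * (.a 1 * .a 1) ∧
    (.a 1 * .a 1 : QuaternionGroup 2) * (.a 1 * .a 1) = 1 ∧ (.a 1 * .a 1 : QuaternionGroup 2) ≠ 1 ∧
    (∀ q : QuaternionGroup 2, q * .a 1 = .a 1 * q → q * .xa 0 = .xa 0 * q → q = 1 ∨ q = .a 1 * .a 1) ∧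
    (∀ q : QuaternionGroup 2, ∃ m : Fin 4, ∃ n : Fin 2, q = .a 1 ^ m.1 * .xa 0 ^ n.1) := by
  decide +kernel

theorem data {S : Type*} [Group S] {R : Subgroup S} (e : R ≃* QuaternionGroup 2) :
    ∃ i j : S, i ∈ R ∧ j ∈ R ∧ j * j = i * i ∧ j * i = i * j * (i * i) ∧ i * i * (i * i) = 1 ∧ i * i ≠ 1 ∧
      (∀ q ∈ R, Commute q i → Commute q j → q = 1 ∨ q = i * i) ∧
      ∀ y, Commute y i → Commute y j → ∀ q ∈ R, Commute y q := by
  obtain ⟨h1, h2, h3, h4, h5, h6⟩ := quat_rel
  have tr : ∀ {x y : QuaternionGroup 2}, x = y → ((e.symm x : R) : S) = (e.symm y : R) := fun h => by rw [h]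
  refine ⟨(e.symm (.a 1) : R), (e.symm (.xa 0) : R), (e.symm _).2, (e.symm _).2, ?_, ?_, ?_, fun h => h4 ?_, ?_, ?_⟩
  · simpa only [map_mul, Subgroup.coe_mul] using tr h1
  · simpa only [map_mul, Subgroup.coe_mul] using tr h2
  · simpa only [map_mul, map_one, Subgroup.coe_mul, Subgroup.coe_one] using tr h3
  · apply e.symm.injective
    apply Subtype.ext
    simpa only [map_mul, map_one, Subgroup.coe_mul, Subgroup.coe_one] using h
  · intro q hq hi hj
    have k : ∀ x : QuaternionGroup 2, Commute q (e.symm x : R).1 → e ⟨q, hq⟩ * x = x * e ⟨q, hq⟩ := fun x hx => by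
      apply e.symm.injective
      apply Subtype.ext
      simp only [map_mul, MulEquiv.symm_apply_apply, Subgroup.coe_mul]
      exact hx.eq
    rcases h5 _ (k _ hi) (k _ hj) with r | r
    · left
      have := tr r
      simpa using this
    · right
      have := tr r
      simpa only [map_mul, Subgroup.coe_mul, MulEquiv.symm_apply_apply] using this
  · intro y hi hj q hq
    obtain ⟨m, n, h⟩ := h6 (e ⟨q, hq⟩)
    have := tr h
    simp only [map_mul, map_pow, Subgroup.coe_mul, SubmonoidClass.coe_pow, MulEquiv.symm_apply_apply] at this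
    rw [this]
    exact (hi.pow_right _).mul_right (hj.pow_right _)

/-- Let S be a finite 2-group and Q a subgroup of order 32 generated by two elementwise-commuting subgroups Q₁, Q₂ each isomorphic to the quaternion group of order 8 (so Q = Q₁ ∗ Q₂). If C_S(Q) ≤ Q, then every section of S has 2-rank at most 4. -/
theorem result {S : Type*} [Group S] [Finite S] (hS : IsPGroup 2 S) (Q Q₁ Q₂ : Subgroup S) (e₁ : Q₁ ≃* QuaternionGroup 2) (e₂ : Q₂ ≃* QuaternionGroup 2) (hcomm : ∀ a ∈ Q₁, ∀ b ∈ Q₂, a * b = b * a) (hQ : Q₁ ⊔ Q₂ = Q) (hQ32 : Nat.card Q = 32) (hC : Subgroup.centralizer (Q : Set S) ≤ Q) : Cfsg.SectionalPRankLE 2 4 S := by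
  obtain ⟨i, j, hi, hj, hjj, hji, hzz, hz1, hcent, hgen⟩ := data e₁
  obtain ⟨i', j', hi', hj', hjj', hji', -, -, hcent', hgen'⟩ := data e₂
  -- the product map
  let μ : Q₁ × Q₂ →* S := MonoidHom.mk' (fun p => p.1.1 * p.2.1) fun p q => by
    show p.1.1 * q.1.1 * (p.2.1 * q.2.1) = p.1.1 * p.2.1 * (q.1.1 * q.2.1)
    calc p.1.1 * q.1.1 * (p.2.1 * q.2.1) = p.1.1 * (q.1.1 * p.2.1) * q.2.1 := by group
      _ = p.1.1 * (p.2.1 * q.1.1) * q.2.1 := by rw [hcomm _ q.1.2 _ p.2.2]
      _ = _ := by group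
  have hμ : μ.range = Q := by
    rw [← hQ]
    refine le_antisymm ?_ (sup_le (fun q hq => ⟨(⟨q, hq⟩, 1), mul_one q⟩) fun q hq => ⟨(1, ⟨q, hq⟩), one_mul q⟩)
    rintro _ ⟨p, rfl⟩
    exact mul_mem (Subgroup.mem_sup_left p.1.2) (Subgroup.mem_sup_right p.2.2)
  have hker : Nat.card μ.ker = 2 := by
    have h := Subgroup.card_eq_card_quotient_mul_card_subgroup μ.ker
    have h8 : Nat.card (QuaternionGroup 2) = 8 := by rw [Nat.card_eq_fintype_card, QuaternionGroup.card]
    rw [Nat.card_congr (QuotientGroup.quotientKerEquivRange μ).toEquiv, hμ, hQ32, Nat.card_prod,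
      Nat.card_congr e₁.toEquiv, Nat.card_congr e₂.toEquiv, h8] at h
    omega
  obtain ⟨⟨q1, q2⟩, hq, hne⟩ := (Subgroup.bot_or_exists_ne_one μ.ker).resolve_left fun e => by
    rw [e, Subgroup.card_bot] at hker; omega
  have hq12 : q1.1 * q2.1 = 1 := hq
  have hz : i' * i' = i * i := by
    have r1 := hcent q1.1 q1.2 ?_ ?_
    have r2 := hcent' q2.1 q2.2 ?_ ?_
    · rcases r1 with r | r <;> rcases r2 with r' | r'
      · exact absurd (Prod.ext (Subtype.ext r) (Subtype.ext r')) hne
      · refine absurd (Prod.ext (Subtype.ext r) (Subtype.ext ?_)) hne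
        rw [r, one_mul] at hq12
        exact hq12
      · refine absurd (Prod.ext (Subtype.ext ?_) (Subtype.ext r')) hne
        rw [r', mul_one] at hq12
        exact hq12
      · rw [r, r'] at hq12
        rw [eq_inv_of_mul_eq_one_right hq12, inv_eq_of_mul_eq_one_right hzz]
    · rw [eq_inv_of_mul_eq_one_right hq12]; exact (show Commute q1.1 i' from hcomm _ q1.2 _ hi').inv_left
    · rw [eq_inv_of_mul_eq_one_right hq12]; exact (show Commute q1.1 j' from hcomm _ q1.2 _ hj').inv_left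
    · rw [eq_inv_of_mul_eq_one_left hq12]; exact (show Commute i q2.1 from hcomm _ hi _ q2.2).symm.inv_left
    · rw [eq_inv_of_mul_eq_one_left hq12]; exact (show Commute j q2.1 from hcomm _ hj _ q2.2).symm.inv_left
  have P : Quads (i * i) i j i' j' :=
    { z1 := hz1
      zz := hzz
      ii := rfl
      jj := hjj
      ii' := hz
      jj' := hjj'.trans hz
      ji := hji
      ji' := by rw [hji', hz]
      c11 := hcomm _ hi _ hi'
      c12 := hcomm _ hi _ hj'
      c21 := hcomm _ hj _ hi'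
      c22 := hcomm _ hj _ hj'
      cent := fun y h1 h2 h3 h4 => by
        have hy : y ∈ Subgroup.centralizer (Q : Set S) := by
          rw [← hμ, Subgroup.mem_centralizer_iff]
          rintro _ ⟨p, rfl⟩
          exact ((hgen y h1 h2 _ p.1.2).mul_right (hgen' y h3 h4 _ p.2.2)).symm.eq
        have hyQ := hC hy
        rw [← hμ] at hyQ
        obtain ⟨⟨a, b⟩, rfl⟩ := hyQ
        have hb : ∀ {s}, s ∈ Q₁ → Commute b.1 s := fun hs => (show Commute _ b.1 from hcomm _ hs _ b.2).symm
        have ha : ∀ {s}, s ∈ Q₂ → Commute a.1 s := fun hs => hcomm _ a.2 _ hs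
        have r1 := hcent a.1 a.2 (by
          have := h1.mul_left (hb hi).inv_left; simpa [μ] using this) (by
          have := h2.mul_left (hb hj).inv_left; simpa [μ] using this)
        have r2 := hcent' b.1 b.2 (by
          have := (ha hi').inv_left.mul_left h3; simpa [μ] using this) (by
          have := (ha hj').inv_left.mul_left h4; simpa [μ] using this)
        show a.1 * b.1 = 1 ∨ a.1 * b.1 = i * i
        rw [hz] at r2
        rcases r1 with r | r <;> rcases r2 with r' | r' <;> rw [r, r']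
        exacts [Or.inl (one_mul 1), Or.inr (one_mul _), Or.inr (mul_one _), Or.inl hzz] }
  obtain ⟨A, hA, hA8, hAC⟩ := P.exists_eight hS
  intro H N hN E _ hE
  let e := Subgroup.equivMapOfInjective (E.comap (QuotientGroup.mk' N)) H.subtype H.subtype_injective
  refine le_trans (section_le hS hA hA8 hAC _
    (((QuotientGroup.mk' N).subgroupComap E).comp e.symm.toMonoidHom) ?_ (fun q => Subtype.ext (hE q.1 q.2)))
    (by norm_num)
  intro q
  obtain ⟨x, hx⟩ := QuotientGroup.mk'_surjective N q.1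
  have hxE : x ∈ E.comap (QuotientGroup.mk' N) := by rw [Subgroup.mem_comap, hx]; exact q.2
  refine ⟨e ⟨x, hxE⟩, Subtype.ext ?_⟩
  show QuotientGroup.mk' N (e.symm (e ⟨x, hxE⟩)).1 = q.1
  rw [e.symm_apply_apply]
  exact hx

end Cfsg.Agent.S1233
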