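import Cfsg.Statements.S1234
import Cfsg.Agent.TwoGroups.SelfCentralEight.Main

set_option autoImplicit false
open Cfsg

namespace Cfsg.Agent.S1234

open TwoGroups.SelfCentralEight

/-- Let S be a finite 2-group and Q ≤ S a subgroup of order 32 having an elementary abelian subgroup E of order 16 and an involution s ∉ E whose centralizer in E has order 4 (so Q ≅ (Z₂ × Z₂) ≀ Z₂). If C_S(Z(Q)) = Q, then every section of S has 2-rank at most 4. -/
theorem result {S : Type*} [Group S] [Finite S] (hS : IsPGroup 2 S) (Q E : Subgroup S) (hEQ : E ≤ Q) (hE : Cfsg.IsElementaryAbelian 2 E) (hE16 : Nat.card E = 16) (hQ32 : Nat.card Q = 32) (s : S) (hsQ : s ∈ Q) (hsE : s ∉ E) (hs : orderOf s = 2) (hfix : Nat.card ↥(E ⊓ Subgroup.centralizer ({s} : Set S)) = 4) (hC : Subgroup.centralizer (((Subgroup.center Q).map Q.subtype : Subgroup S) : Set S) = Q) : Cfsg.SectionalPRankLE 2 4 S := by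
  set F := E ⊓ Subgroup.centralizer ({s} : Set S) with hF
  have hEe : Elem E := ⟨fun a ha b hb => congrArg Subtype.val (hE.1.is_comm.comm (⟨a, ha⟩ : E) ⟨b, hb⟩), hE.2⟩
  have hss : s * s = 1 := by rw [← pow_two, ← hs]; exact pow_orderOf_eq_one s
  have hsplit : ∀ q ∈ Q, q ∈ E ∨ s * q ∈ E := fun q hq =>
    mem_of_two hEQ (by omega) hsQ hsE hq
  have hsF : ∀ u ∈ F, Commute s u := fun u hu => Subgroup.mem_centralizer_iff.1 hu.2 s rfl
  have hcen : ∀ u : S, u ∈ (Subgroup.center Q).map Q.subtype ↔ u ∈ F := by
    intro u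
    constructor
    · rintro ⟨⟨v, hv⟩, hvc, rfl⟩
      have hvs : s * v = v * s := congrArg Subtype.val (Subgroup.mem_center_iff.1 hvc ⟨s, hsQ⟩)
      rcases hsplit v hv with h | h
      · exact ⟨h, Subgroup.mem_centralizer_iff.2 fun w hw => by rw [Set.mem_singleton_iff.1 hw]; exact hvs⟩
      · exfalso
        have hle : E ≤ F := fun e he => by
          refine ⟨he, Subgroup.mem_centralizer_iff.2 fun w hw => ?_⟩
          rw [Set.mem_singleton_iff.1 hw]
          have hve : e * v = v * e := congrArg Subtype.val (Subgroup.mem_center_iff.1 hvc ⟨e, hEQ he⟩)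
          have := (show Commute e (s * v) from hEe.comm he h).mul_right (show Commute e v from hve).inv_right
          rw [mul_inv_cancel_right] at this
          exact this.symm.eq
        have := Subgroup.card_le_of_le hle
        omega
    · intro hu
      refine ⟨⟨u, hEQ hu.1⟩, Subgroup.mem_center_iff.2 fun ⟨q, hq⟩ => Subtype.ext ?_, rfl⟩
      rcases hsplit q hq with h | h
      · exact hEe.comm h hu.1
      · have := ((hsF u hu).inv_left).mul_left (show Commute (s * q) u from hEe.comm h hu.1)
        rw [inv_mul_cancel_left] at this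
        exact this.eq
  let A : Subgroup S :=
    { carrier := {x | x ∈ F ∨ s * x ∈ F}
      one_mem' := Or.inl F.one_mem
      mul_mem' := by
        rintro x y (hx | hx) (hy | hy)
        · exact Or.inl (F.mul_mem hx hy)
        · refine Or.inr ?_
          have := F.mul_mem hx hy
          rwa [← mul_assoc, ← (hsF x hx).eq, mul_assoc] at this
        · exact Or.inr (by simpa [mul_assoc] using F.mul_mem hx hy)
        · refine Or.inl ?_
          have h' := F.mul_mem hx hy
          have e : s * (s * x) = s * x * s := (hsF _ hx).eq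
          rwa [← mul_assoc (s * x) s y, ← e, ← mul_assoc s s x, hss, one_mul] at h'
      inv_mem' := by
        rintro x (hx | hx)
        · exact Or.inl (F.inv_mem hx)
        · refine Or.inr ?_
          have e : Commute s x := by
            have := (Commute.refl s).inv_right.mul_right (hsF _ hx)
            rwa [inv_mul_cancel_left] at this
          have h' := F.inv_mem hx
          rwa [mul_inv_rev, inv_eq_of_mul_eq_one_right hss, ← e.inv_right.eq] at h' }
  have hA8 : Nat.card A = 8 := by
    have hb : Function.Bijective (fun w : Bool × F => (⟨(if w.1 then s else 1) * w.2.1, by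
        cases w.1
        · exact Or.inl (by simpa using w.2.2)
        · exact Or.inr (by simp [← mul_assoc, hss])⟩ : A)) := by
      constructor
      · rintro ⟨i, u⟩ ⟨j, v⟩ e
        have e' := congrArg (fun t : A => t.1) e
        cases i <;> cases j <;> simp at e'
        · exact Prod.ext rfl e'
        · exact absurd (show s ∈ E by
            rw [show s = u.1 * (v.1)⁻¹ by rw [e', mul_inv_cancel_right]]
            exact E.mul_mem u.2.1 (E.inv_mem v.2.1)) hsE
        · exact absurd (show s ∈ E by
            rw [show s = v.1 * (u.1)⁻¹ by rw [← e', mul_inv_cancel_right]]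
            exact E.mul_mem v.2.1 (E.inv_mem u.2.1)) hsE
        · exact Prod.ext rfl (Subtype.ext (by simpa using e'))
      · intro t
        rcases t.2 with h | h
        · exact ⟨(false, ⟨t.1, h⟩), Subtype.ext (one_mul _)⟩
        · exact ⟨(true, ⟨s * t.1, h⟩), Subtype.ext (by simp [← mul_assoc, hss])⟩
    rw [← Nat.card_eq_of_bijective _ hb, Nat.card_prod, hfix]; simp
  have hshape : ∀ x ∈ A, ∃ u ∈ F, x = u ∨ x = s * u := fun x hx => hx.elim (fun h => ⟨x, h, Or.inl rfl⟩)
    fun h => ⟨s * x, h, Or.inr (by rw [← mul_assoc, hss, one_mul])⟩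
  have hA : Elem A := by
    refine ⟨fun a ha b hb => ?_, fun a ha => ?_⟩
    · obtain ⟨u, hu, ea⟩ := hshape a ha
      obtain ⟨w, hw, eb⟩ := hshape b hb
      have c : Commute u w := hEe.comm hu.1 hw.1
      rcases ea with ea | ea <;> rcases eb with eb | eb <;> rw [ea, eb]
      exacts [c.eq, ((hsF u hu).symm.mul_right c).eq, ((hsF w hw).mul_left c).eq,
        (((Commute.refl s).mul_right (hsF w hw)).mul_left ((hsF u hu).symm.mul_right c)).eq]
    · obtain ⟨u, hu, ea | ea⟩ := hshape a ha <;> rw [ea]
      · exact hEe.2 u hu.1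
      · rw [(hsF u hu).mul_pow, pow_two, hss, one_mul, hEe.2 u hu.1]
  have hAC : Subgroup.centralizer (A : Set S) = A := by
    refine le_antisymm (fun x hx => ?_) (fun a ha => Subgroup.mem_centralizer_iff.2 fun b hb => hA.comm hb ha)
    have hxQ : x ∈ Q := by
      rw [← hC]
      exact Subgroup.mem_centralizer_iff.2 fun u hu => Subgroup.mem_centralizer_iff.1 hx u (Or.inl ((hcen u).1 hu))
    have hxs : Commute s x := Subgroup.mem_centralizer_iff.1 hx s (Or.inr (by rw [hss]; exact F.one_mem))
    rcases hsplit x hxQ with h | h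
    · exact Or.inl ⟨h, Subgroup.mem_centralizer_iff.2 fun w hw => by rw [Set.mem_singleton_iff.1 hw]; exact hxs.eq⟩
    · exact Or.inr ⟨h, Subgroup.mem_centralizer_iff.2 fun w hw => by
        rw [Set.mem_singleton_iff.1 hw]; exact ((Commute.refl s).mul_right hxs).eq⟩
  intro H N hN K _ hK
  let e := Subgroup.equivMapOfInjective (K.comap (QuotientGroup.mk' N)) H.subtype H.subtype_injective
  refine le_trans (section_le hS hA hA8 hAC _
    (((QuotientGroup.mk' N).subgroupComap K).comp e.symm.toMonoidHom) ?_ (fun q => Subtype.ext (hK q.1 q.2)))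
    (by norm_num)
  intro q
  obtain ⟨x, hx⟩ := QuotientGroup.mk'_surjective N q.1
  have hxK : x ∈ K.comap (QuotientGroup.mk' N) := by rw [Subgroup.mem_comap, hx]; exact q.2
  refine ⟨e ⟨x, hxK⟩, Subtype.ext ?_⟩
  show QuotientGroup.mk' N (e.symm (e ⟨x, hxK⟩)).1 = q.1
  rw [e.symm_apply_apply]
  exact hx

end Cfsg.Agent.S1234
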