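import Cfsg.Statements.S1235
import Cfsg.Agent.Transfer.SectionRankBound
import Mathlib.GroupTheory.SpecificGroups.Dihedral
import Mathlib.GroupTheory.SpecificGroups.KleinFour

set_option autoImplicit false
open Cfsg

namespace Cfsg.Agent.S1235

/-- Let G be a finite group, x an involution and T ≤ G a Sylow 2-subgroup of C_G(x) (T ≤ C_G(x) with |C_G(x) : T| odd) which is the internal direct product of a subgroup D that is dihedral (of order ≥ 4) or quasi-dihedral and a Klein four-subgroup B. Suppose that for every involution b ∈ B, T ≤ C_G(b) with |C_G(b) : T| odd. Then every section of G has 2-rank at most 4. -/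
theorem result {G : Type*} [Group G] [Finite G] (x : G) (hx : orderOf x = 2) (T D B : Subgroup G) (hT : IsPGroup 2 T) (hTx : T ≤ Subgroup.centralizer ({x} : Set G)) (hTxi : Odd (T.relIndex (Subgroup.centralizer ({x} : Set G)))) (hprod : Cfsg.IsInternalDirectProduct D B T) (hD : (∃ m : ℕ, 2 ≤ m ∧ Nonempty (D ≃* DihedralGroup m)) ∨ Cfsg.IsQuasiDihedral D) (hB : IsKleinFour B) (hTb : ∀ b ∈ B, orderOf b = 2 → T ≤ Subgroup.centralizer ({b} : Set G) ∧ Odd (T.relIndex (Subgroup.centralizer ({b} : Set G)))) : Cfsg.SectionalPRankLE 2 4 G := by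
  classical
  haveI : Fact (Nat.Prime 2) := ⟨Nat.prime_two⟩
  obtain ⟨S, hTS⟩ := hT.exists_le_sylow
  refine Transfer.SectionRankBound.sectional_of_sylow S ?_
  have hS : IsPGroup 2 (S : Subgroup G) := S.isPGroup'
  haveI : IsKleinFour B := hB
  have hB4 : Nat.card B = 4 := IsKleinFour.card_four
  have hB2 : ∀ b ∈ B, b * b = 1 := fun b hb =>
    congrArg Subtype.val (IsKleinFour.mul_self (⟨b, hb⟩ : B))
  have hBc : ∀ a ∈ B, ∀ b ∈ B, a * b = b * a := fun a ha b hb => by
    have h := hB2 (a * b) (B.mul_mem ha hb)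
    have h1 := eq_inv_of_mul_eq_one_right h
    rw [mul_inv_rev, inv_eq_of_mul_eq_one_right (hB2 a ha), inv_eq_of_mul_eq_one_right (hB2 b hb)] at h1
    exact h1
  have hcent : ∀ b ∈ B, b ≠ 1 → ∀ s ∈ (S : Subgroup G), s * b = b * s → s ∈ T := by
    intro b hb hb1 s hs hsb
    obtain ⟨hTb', hodd⟩ := hTb b hb (orderOf_eq_prime (by rw [sq, hB2 b hb]) hb1)
    set X := (S : Subgroup G) ⊓ Subgroup.centralizer ({b} : Set G) with hX
    have hTX : T ≤ X := le_inf hTS hTb'
    obtain ⟨k, hk⟩ := (hS.to_le (inf_le_left : X ≤ _)).index (T.subgroupOf X)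
    have h1 : Odd (T.relIndex X) := by
      rw [← Subgroup.relIndex_mul_relIndex T X _ hTX inf_le_right] at hodd
      exact (Nat.odd_mul.1 hodd).1
    rw [Subgroup.relIndex, hk] at h1
    have hk0 : k = 0 := by
      by_contra hk0
      exact (Nat.not_even_iff_odd.2 h1) (Nat.even_pow.2 ⟨even_two, hk0⟩)
    rw [hk0, pow_zero, Subgroup.index_eq_one, Subgroup.subgroupOf_eq_top] at hk
    exact hk ⟨hs, Subgroup.mem_centralizer_singleton_iff.2 hsb⟩
  obtain ⟨hDT, hBT, hDB, hdisj, hsup⟩ := hprod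
  have hBn : D ≤ Subgroup.normalizer (B : Set G) := fun d hd =>
    Subgroup.mem_normalizer_fintype fun b hb => by
      show d * b * d⁻¹ ∈ B
      rw [hDB d hd b hb, mul_inv_cancel_right]; exact hb
  have hmemT : ∀ w ∈ T, ∃ d ∈ D, ∃ b ∈ B, d * b = w := fun w hw => by
    rw [← hsup, ← SetLike.mem_coe, Subgroup.coe_mul_of_left_le_normalizer_right D B hBn] at hw
    exact hw
  have hTcard : Nat.card T = Nat.card D * 4 := by
    rw [← hB4, ← Nat.card_prod]
    refine (Nat.card_eq_of_bijective (fun x : D × B => (⟨x.1 * x.2, T.mul_mem (hDT x.1.2) (hBT x.2.2)⟩ : T)) ⟨?_, ?_⟩).symm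
    · rintro ⟨a, b⟩ ⟨a', b'⟩ h
      have h' : (a : G) * b = a' * b' := congrArg Subtype.val h
      have h1 : (a' : G)⁻¹ * a = b' * (b : G)⁻¹ := by
        rw [eq_mul_inv_iff_mul_eq, mul_assoc, h', inv_mul_cancel_left]
      have h2 : (a' : G)⁻¹ * a ∈ D ⊓ B :=
        ⟨D.mul_mem (D.inv_mem a'.2) a.2, h1 ▸ B.mul_mem b'.2 (B.inv_mem b.2)⟩
      rw [hdisj, Subgroup.mem_bot] at h2
      rw [h2, eq_comm] at h1
      rw [Prod.mk.injEq]
      exact ⟨Subtype.ext (inv_mul_eq_one.mp h2).symm, Subtype.ext (mul_inv_eq_one.mp h1).symm⟩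
    · rintro ⟨w, hw⟩
      obtain ⟨d, hd, b, hb, rfl⟩ := hmemT w hw
      exact ⟨(⟨d, hd⟩, ⟨b, hb⟩), rfl⟩
  have key : ∀ c : D, Nat.card D = 2 * orderOf c → (¬ ∀ a ∈ D, ∀ b ∈ D, a * b = b * a) →
      Transfer.SectionRankBound.Rk4 (S : Subgroup G) := by
    intro c hc hna
    have hcard : Nat.card D = 2 * Nat.card (Subgroup.zpowers (c : G)) := by
      rw [Nat.card_zpowers, Subgroup.orderOf_coe, hc]
    have hle : Subgroup.zpowers (c : G) ≤ D := Subgroup.zpowers_le.2 c.2
    have hTeq : T = (S : Subgroup G) := Transfer.SectionRankBound.eq_of_cyclic_index_two hS hTS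
      ⟨hDT, hBT, hDB, hdisj, hsup⟩ hle hcard hna hB4 hB2 hBc hcent
    refine Transfer.SectionRankBound.rk4_of_cyclic (hle.trans (hDT.trans hTS)) (le_of_eq ?_)
    rw [← hTeq, hTcard, hcard]
    omega
  rcases hD with ⟨m, hm, ⟨e⟩⟩ | ⟨n, hn, hcard, a, b, ha, hb, hab⟩
  · haveI : NeZero m := ⟨by omega⟩
    have hDm : Nat.card D = 2 * m := by rw [Nat.card_congr e.toEquiv, DihedralGroup.nat_card]
    by_cases hm2 : m = 2
    · subst hm2
      have hd : ∀ u v : DihedralGroup 2, u * v = v * u ∧ u * u = 1 := by decide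
      have hDc : ∀ u ∈ D, ∀ v ∈ D, u * v = v * u ∧ u * u = 1 := fun u hu v hv => by
        have h := hd (e ⟨u, hu⟩) (e ⟨v, hv⟩)
        rw [← map_mul, ← map_mul, ← map_mul, ← map_one e] at h
        exact ⟨congrArg Subtype.val (e.injective h.1), congrArg Subtype.val (e.injective h.2)⟩
      refine Transfer.SectionRankBound.rk4_of_elementary hS hTS hBT (by rw [hTcard, hDm]) hB4 ?_ ?_ hcent
      · intro u hu v hv
        obtain ⟨d, hd', p, hp, rfl⟩ := hmemT u hu
        obtain ⟨d', hd'', p', hp', rfl⟩ := hmemT v hv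
        calc d * p * (d' * p') = d * (p * d') * p' := by group
          _ = (d * d') * (p * p') := by rw [← hDB d' hd'' p hp]; group
          _ = (d' * d) * (p' * p) := by rw [(hDc d hd' d' hd'').1, hBc p hp p' hp']
          _ = d' * (d * p') * p := by group
          _ = d' * p' * (d * p) := by rw [hDB d hd' p' hp']; group
      · intro u hu
        obtain ⟨d, hd', p, hp, rfl⟩ := hmemT u hu
        calc d * p * (d * p) = d * (p * d) * p := by group
          _ = (d * d) * (p * p) := by rw [← hDB d hd' p hp]; group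
          _ = 1 := by rw [(hDc d hd' d hd').2, hB2 p hp, mul_one]
    · refine key (e.symm (DihedralGroup.r 1)) ?_ ?_
      · rw [hDm, MulEquiv.orderOf_eq, DihedralGroup.orderOf_r_one]
      · intro h
        have h1 := congrArg e (Subtype.ext (h _ (e.symm (DihedralGroup.r 1)).2 _
          (e.symm (DihedralGroup.sr 0)).2) :
          e.symm (DihedralGroup.r 1) * e.symm (DihedralGroup.sr 0) =
            e.symm (DihedralGroup.sr 0) * e.symm (DihedralGroup.r 1))
        simp only [map_mul, MulEquiv.apply_symm_apply, DihedralGroup.r_mul_sr, DihedralGroup.sr_mul_r,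
          zero_sub, zero_add, DihedralGroup.sr.injEq] at h1
        have h2 : ((2 : ℕ) : ZMod m) = 0 := by push_cast; linear_combination (-1 : ZMod m) * h1
        rw [ZMod.natCast_eq_zero_iff] at h2
        have := Nat.le_of_dvd (by norm_num) h2
        omega
  · refine key a ?_ ?_
    · rw [hcard, ha, pow_succ, mul_comm]
    · intro h
      have h1 : b * a = a * b := Subtype.ext (h b b.2 a a.2)
      rw [h1, mul_inv_cancel_right] at hab
      have h2 : 2 ^ (n - 1) - 1 = 1 := by
        have h4 : a ^ (2 ^ (n - 1) - 1) = a ^ 1 := by rw [pow_one]; exact hab.symm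
        rw [pow_inj_mod, ha] at h4
        have h5 : 2 ^ (n - 1) ≤ 2 ^ n := Nat.pow_le_pow_right (by norm_num) (by omega)
        have h6 : 2 ^ (n - 1) ≥ 4 := le_trans (by norm_num : 4 ≤ 2 ^ 2)
          (Nat.pow_le_pow_right (by norm_num) (by omega))
        rwa [Nat.mod_eq_of_lt (by omega), Nat.mod_eq_of_lt (by omega)] at h4
      have h6 : 2 ^ (n - 1) ≥ 4 := le_trans (by norm_num : 4 ≤ 2 ^ 2)
        (Nat.pow_le_pow_right (by norm_num) (by omega))
      omega

end Cfsg.Agent.S1235
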