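import Cfsg.Statements.S1236
import Cfsg.Agent.TwoGroups.CyclicTwo

set_option autoImplicit false
open Cfsg

namespace Cfsg.Agent.S1236

/-- Let R be a finite group, t a central involution of R such that R ⧸ ⟨t⟩ is dihedral (of order ≥ 4) or quasi-dihedral, and A ≤ R an elementary abelian subgroup of order 8 containing t. Then C_R(A) = A. -/
theorem result {R : Type*} [Group R] [Finite R] (t : R) (ht : orderOf t = 2) (htz : t ∈ Subgroup.center R) [(Subgroup.zpowers t).Normal] (hq : (∃ m : ℕ, 2 ≤ m ∧ Nonempty (R ⧸ Subgroup.zpowers t ≃* DihedralGroup m)) ∨ Cfsg.IsQuasiDihedral (R ⧸ Subgroup.zpowers t)) (A : Subgroup R) (hA : Cfsg.IsElementaryAbelian 2 A) (hA8 : Nat.card A = 8) (htA : t ∈ A) : Subgroup.centralizer (A : Set R) = A := by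
  set Q := R ⧸ Subgroup.zpowers t
  set π : R →* Q := QuotientGroup.mk' (Subgroup.zpowers t)
  have htA : Subgroup.zpowers t ≤ A := Subgroup.zpowers_le.2 htA
  set U := A.map π
  have hUcomm : IsMulCommutative U := ⟨⟨by
    rintro ⟨_, a, ha, rfl⟩ ⟨_, b, hb, rfl⟩
    exact Subtype.ext (show π a * π b = π b * π a by
      rw [← map_mul, ← map_mul, show a * b = b * a from
        congrArg Subtype.val (hA.1.is_comm.comm (⟨a, ha⟩ : A) ⟨b, hb⟩)])⟩⟩
  have hUsq : ∀ u ∈ U, u * u = 1 := by
    rintro _ ⟨a, ha, rfl⟩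
    rw [← map_mul, ← pow_two, hA.2 a ha, map_one]
  have hU4 : Nat.card U = 4 := by
    have h1 : Nat.card U = (Subgroup.zpowers t).relIndex A := by
      have := Subgroup.relIndex_ker A π
      rw [QuotientGroup.ker_mk'] at this
      exact this.symm
    have h2 := Subgroup.relIndex_mul_index htA
    have h3 := A.card_mul_index
    have h4 := (Subgroup.zpowers t).card_mul_index
    rw [Nat.card_zpowers, ht, ← h2] at h4
    rw [hA8, ← h4, ← h1] at h3
    have := A.index_ne_zero_of_finite
    have : 8 * A.index = (2 * Nat.card U) * A.index := by rw [h3]; ring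
    have := Nat.eq_of_mul_eq_mul_right (Nat.pos_of_ne_zero A.index_ne_zero_of_finite) this
    omega
  have hmain : Subgroup.centralizer (U : Set Q) = U := by
    rcases hq with ⟨m, hm, ⟨e⟩⟩ | hqd
    · exact (TwoGroups.isTwoExt_dihedral (by omega) e).centralizer_four
        (fun j => TwoGroups.dihedral_hc j) U hUcomm hU4 hUsq
    · obtain ⟨n, x, y, hn, -, hxy⟩ := TwoGroups.isTwoExt_quasiDihedral hqd
      exact hxy.centralizer_four (fun j => TwoGroups.quasiDihedral_hc hn
        (by rw [← hxy.ord]; exact pow_orderOf_eq_one x) j) U hUcomm hU4 hUsq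
  refine le_antisymm ?_ ?_
  · intro r hr
    have h1 : π r ∈ Subgroup.centralizer (U : Set Q) := by
      rw [Subgroup.mem_centralizer_iff]
      rintro _ ⟨a, ha, rfl⟩
      rw [← map_mul, ← map_mul, Subgroup.mem_centralizer_iff.mp hr a ha]
    rw [hmain] at h1
    have : r ∈ U.comap π := h1
    rw [Subgroup.comap_map_eq, QuotientGroup.ker_mk', sup_eq_left.mpr htA] at this
    exact this
  · intro a ha
    rw [Subgroup.mem_centralizer_iff]
    exact fun b hb => congrArg Subtype.val (hA.1.is_comm.comm (⟨b, hb⟩ : A) ⟨a, ha⟩)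

end Cfsg.Agent.S1236
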