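import Cfsg.Statements.S1237
import Cfsg.Agent.LocalEven.RankTwoModel
-- import your own Cfsg.Agent.* helpers here

set_option autoImplicit false
open Cfsg

namespace Cfsg.Agent.S1237

/-- Let T be a finite 2-group of 2-rank exactly 2 (it has a Klein four-subgroup but no elementary abelian subgroup of order 8) admitting an automorphism φ such that any two involutions of T are carried to one another by a power of φ. Then T ≅ Z_{2^n} × Z_{2^n} for some n ≥ 1, or T is isomorphic to a Sylow 2-subgroup of PSU(3) over the field with 16 elements. -/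
theorem result {T : Type*} [Group T] [Finite T] (hT : IsPGroup 2 T) (h2 : Cfsg.PRankLE 2 2 T) (h1 : ¬ Cfsg.PRankLE 2 1 T) (φ : MulAut T) (htrans : ∀ s t : T, orderOf s = 2 → orderOf t = 2 → ∃ k : ℕ, (φ ^ k) s = t) {F : Type*} [Field F] [Fintype F] (hF : Fintype.card F = 16) (P : Sylow 2 (Cfsg.PSU 3 F 4)) : (∃ n : ℕ, 1 ≤ n ∧ Nonempty (T ≃* Multiplicative (ZMod (2 ^ n) × ZMod (2 ^ n)))) ∨ Nonempty (T ≃* (P : Subgroup (Cfsg.PSU 3 F 4))) := by
  haveI : Fact (Fintype.card F = 16) := ⟨hF⟩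
  rcases Cfsg.Agent.LocalEven.RankTwoTransitive.homocyclic_or_rels hT h2 h1 φ htrans with h | ⟨v, hv⟩
  · exact Or.inl h
  · right
    obtain ⟨w, hw⟩ := Cfsg.Agent.LocalEven.RankTwoModel.rels (F := F)
    obtain ⟨e⟩ := Cfsg.Agent.LocalEven.RankTwoTransitive.iso_of_rels hv hw
    obtain ⟨e'⟩ := Cfsg.Agent.LocalEven.RankTwoModel.iso_sylow P
    exact ⟨e.trans e'⟩

end Cfsg.Agent.S1237
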