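import Cfsg.Statements.S1239
import Cfsg.Agent.TwoGroups.Isolated
import Cfsg.Agent.TwoGroups.QDResidual
import Cfsg.Agent.TwoGroups.WrFusion
import Cfsg.Agent.TwoGroups.Involution

set_option autoImplicit false
open Cfsg

namespace Cfsg.Agent.S1239

/-- Let X be a finite group whose Sylow 2-subgroup S is quasi-dihedral or wreathed, and suppose some involution of S is isolated in X. Then the product of the largest normal odd-order subgroup O(X) with the centre of S is normal in X. -/
theorem result {X : Type*} [Group X] [Finite X] (S : Sylow 2 X) (hS : Cfsg.IsQuasiDihedral (S : Subgroup X) ∨ Cfsg.IsWreathed (S : Subgroup X)) (z : X) (hzS : z ∈ S) (hz : Cfsg.IsIsolatedInvolution z) : (Cfsg.oddCore X ⊔ (Subgroup.center (S : Subgroup X)).map (S : Subgroup X).subtype).Normal := by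
  haveI := Fact.mk Nat.prime_two
  set O := Cfsg.oddCore X
  haveI hOn : O.Normal := (inferInstance : (Cfsg.oddCore X).Normal)
  set Z := (Subgroup.center (S : Subgroup X)).map (S : Subgroup X).subtype
  have hzS' : ∀ g : X, g * z * g⁻¹ ∈ (S : Subgroup X) → g * z * g⁻¹ = z := by
    intro g hg
    have ho := Cfsg.Agent.TwoGroups.isolated_odd_mul_conj hz g
    obtain ⟨k, hk⟩ := IsPGroup.iff_orderOf.mp S.isPGroup'
      ⟨z * (g * z * g⁻¹), mul_mem hzS hg⟩
    rw [← Subgroup.orderOf_coe] at hk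
    have h1 : z * (g * z * g⁻¹) = 1 := orderOf_eq_one_iff.mp (Nat.eq_one_of_dvd_coprimes
      ((Nat.coprime_two_left.mpr ho).pow_left k) (hk ▸ dvd_rfl) dvd_rfl)
    have h2 : z * z = 1 := by rw [← pow_two, ← hz.1, pow_orderOf_eq_one]
    exact (mul_left_cancel (h1.trans h2.symm))
  have hzZ : z ∈ Z := ⟨⟨z, hzS⟩, Subgroup.mem_center_iff.mpr fun s => Subtype.ext
    (mul_inv_eq_iff_eq_mul.mp (hzS' s (mul_mem (mul_mem s.2 hzS) (inv_mem s.2)))), rfl⟩
  have hne : z ≠ 1 := fun h => by
    have := hz.1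
    rw [h, orderOf_one] at this
    omega
  have hiso : ∀ u ∈ Z, ∀ g : X, g * u * g⁻¹ ∈ (S : Subgroup X) → g * u * g⁻¹ = u := by
    rcases hS with hq | hw
    · obtain ⟨x, y, q, h⟩ := Cfsg.Agent.TwoGroups.exists_qdIn S hq
      intro u hu g hg
      have hZeq : ∀ v ∈ Z, v = 1 ∨ v = x ^ (4 * (q : ℤ)) := by
        intro v hv
        rw [show Z = _ from h.center_eq, Subgroup.mem_zpowers_iff] at hv
        obtain ⟨k, rfl⟩ := hv
        have ho : orderOf (x ^ (4 * (q : ℤ))) = 2 := (h.orderOf_two_iff (h.rot_mem _)).mpr (Or.inl rfl)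
        have h2 : (x ^ (4 * (q : ℤ))) ^ (2 : ℤ) = 1 := by
          have := pow_orderOf_eq_one (x ^ (4 * (q : ℤ)))
          rw [ho] at this
          exact_mod_cast this
        rcases Int.even_or_odd' k with ⟨m, rfl | rfl⟩
        · exact Or.inl (by rw [zpow_mul, h2, one_zpow])
        · exact Or.inr (by rw [zpow_add, zpow_mul, h2, one_zpow, one_mul, zpow_one])
      rcases hZeq u hu with rfl | hu'
      · simp
      · rw [hu', ← (hZeq z hzZ).resolve_left hne] at hg ⊢
        exact hzS' g hg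
    · obtain ⟨k, x, y, t, -, -, h⟩ := Cfsg.Agent.TwoGroups.exists_wrIn S hw
      set M : ℕ := 2 ^ k with hMdef
      intro u hu g hg
      rw [show Z = _ from h.center_eq] at hu hzZ
      have hz' := (h.central_sq_one hzZ (by rw [← pow_two, ← hz.1, pow_orderOf_eq_one])).resolve_left hne
      refine h.diag_fixed ?_ hu hg
      by_contra hA
      obtain ⟨g', hg'⟩ := isConj_iff.mp (h.conj_of_base hA).1
      rw [← hz'] at hg'
      have h1 := hzS' g' (by rw [hg']; exact h.el_mem _ _)
      rw [hg', hz'] at h1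
      obtain ⟨-, h2⟩ := (h.el_eq_iff _ _ _ _).mp h1
      have h3 : (2 * (M : ℤ)) ∣ (M : ℤ) := by
        have := h2
        rcases this with ⟨k, hk⟩
        first
          | exact ⟨k, by linarith⟩
          | exact ⟨-k, by linarith⟩
      have := Int.le_of_dvd (by have := h.two_le; omega) h3
      have := h.two_le
      omega
  set π := QuotientGroup.mk' O
  refine ⟨fun m hm g => ?_⟩
  obtain ⟨o, ho, u, hu, rfl⟩ := Subgroup.mem_sup_of_normal_left.mp hm
  have h1 : u * g * u⁻¹ * g⁻¹ ∈ O :=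
    Cfsg.Agent.TwoGroups.central_mod_oddCore S (Subgroup.map_subtype_le _ hu) (hiso u hu) g
  have h2 : g * u * g⁻¹ * u⁻¹ ∈ O := by
    rw [show g * u * g⁻¹ * u⁻¹ = (u * g * u⁻¹ * g⁻¹)⁻¹ by group]
    exact inv_mem h1
  rw [show g * (o * u) * g⁻¹ = g * o * g⁻¹ * (g * u * g⁻¹ * u⁻¹) * u by group]
  exact mul_mem (Subgroup.mem_sup_left (mul_mem (hOn.conj_mem o ho g) h2)) (Subgroup.mem_sup_right hu)

end Cfsg.Agent.S1239
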