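import Cfsg.Statements.S1241
import Cfsg.Agent.TwoGroups.Closed
import Mathlib.GroupTheory.Abelianization.Defs

set_option autoImplicit false
open Cfsg

namespace Cfsg.Agent.S1241

/-- Let G be a finite group, p a prime, H a subgroup of index prime to p, K a subgroup of H normal in H with H/K commutative, and g ∈ H ∖ K an element of p-power order such that for all integers m and all a ∈ G with a g^m a⁻¹ ∈ H one has a g^m a⁻¹ ∈ g^m K. Then g ∉ G'. -/
theorem result {G : Type*} [Group G] [Finite G] {p : ℕ} [Fact p.Prime] (H K : Subgroup G) (hHK : K ≤ H) (hKn : (K.subgroupOf H).Normal) (hab : ∀ x ∈ H, ∀ y ∈ H, x * y * x⁻¹ * y⁻¹ ∈ K) (hidx : Nat.Coprime p H.index) (g : G) (hgH : g ∈ H) (hgK : g ∉ K) (hgp : ∃ k : ℕ, orderOf g = p ^ k) (hctrl : ∀ (m : ℤ) (a : G), a * g ^ m * a⁻¹ ∈ H → (a * g ^ m * a⁻¹) * (g ^ m)⁻¹ ∈ K) : g ∉ commutator G := by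
  haveI := hKn
  haveI : IsMulCommutative (↥H ⧸ K.subgroupOf H) := ⟨⟨by
    intro a b
    obtain ⟨x, rfl⟩ := QuotientGroup.mk_surjective a
    obtain ⟨y, rfl⟩ := QuotientGroup.mk_surjective b
    have := hab x⁻¹ (inv_mem x.2) y⁻¹ (inv_mem y.2)
    rw [← QuotientGroup.mk_mul, ← QuotientGroup.mk_mul, eq_comm]
    rw [QuotientGroup.eq, Subgroup.mem_subgroupOf]
    simpa [mul_assoc] using this⟩⟩
  let _ : CommGroup (↥H ⧸ K.subgroupOf H) :=
    { (inferInstance : Group (↥H ⧸ K.subgroupOf H)) with mul_comm := mul_comm' }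
  let φ : H →* ↥H ⧸ K.subgroupOf H := QuotientGroup.mk' _
  intro hg
  have h1 : MonoidHom.transfer φ g = 1 := Abelianization.commutator_subset_ker _ hg
  have h2 := TwoGroups.transfer_hom_eq_pow φ ⟨g, hgH⟩ ?_
  · rw [h2] at h1
    obtain ⟨k, hk⟩ := hgp
    have h3 : φ ⟨g, hgH⟩ ^ p ^ k = 1 := by
      rw [← map_pow, ← hk]
      convert map_one φ
      exact Subtype.ext (pow_orderOf_eq_one g)
    have h4 : orderOf (φ ⟨g, hgH⟩) = 1 :=
      Nat.eq_one_of_dvd_coprimes (Nat.Coprime.pow_left k hidx) (orderOf_dvd_of_pow_eq_one h3)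
        (orderOf_dvd_of_pow_eq_one h1)
    have h5 : φ ⟨g, hgH⟩ = 1 := orderOf_eq_one_iff.mp h4
    exact hgK (Subgroup.mem_subgroupOf.mp ((QuotientGroup.eq_one_iff (N := K.subgroupOf H) (⟨g, hgH⟩ : H)).mp h5))
  · intro k a h
    rw [← map_pow, eq_comm]
    show (QuotientGroup.mk _ : ↥H ⧸ K.subgroupOf H) = QuotientGroup.mk _
    rw [QuotientGroup.eq, Subgroup.mem_subgroupOf]
    have h' := hctrl k a⁻¹ (by simpa using h)
    rw [zpow_natCast, inv_inv] at h'
    have := (Subgroup.normal_subgroupOf_iff hHK).mp hKn _ _ h' (inv_mem (pow_mem hgH k))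
    simpa [mul_assoc] using this

end Cfsg.Agent.S1241
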