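import Cfsg.Statements.S1242
import Cfsg.Agent.TwoGroups.Closed
import Mathlib

set_option autoImplicit false
open Cfsg

namespace Cfsg.Agent.S1242

/-- Let G be a finite group, p a prime and H a subgroup of index prime to p such that any two elements of H of p-power order that are conjugate in G are conjugate in H. Then (O^p(G)·G') ∩ H = O^p(H)·H', where O^p denotes the subgroup generated by the elements of order prime to p. -/
theorem result {G : Type*} [Group G] [Finite G] {p : ℕ} [Fact p.Prime] (H : Subgroup G) (hidx : Nat.Coprime p H.index) (hfus : ∀ g ∈ H, (∃ k : ℕ, orderOf g = p ^ k) → ∀ a : G, a * g * a⁻¹ ∈ H → ∃ h ∈ H, h * g * h⁻¹ = a * g * a⁻¹) : (Cfsg.pResidual p G ⊔ commutator G) ⊓ H = (Cfsg.pResidual p ↥H ⊔ commutator ↥H).map H.subtype := by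
  have hpn : (Cfsg.pResidual p H).Normal := by
    refine ⟨fun n hn g => ?_⟩
    have : (Cfsg.pResidual p H).map (MulAut.conj g).toMonoidHom ≤ Cfsg.pResidual p H := by
      rw [Cfsg.pResidual, MonoidHom.map_closure]
      apply Subgroup.closure_mono
      rintro _ ⟨z, hz, rfl⟩
      show Nat.Coprime (orderOf (MulAut.conj g z)) p
      rwa [MulEquiv.orderOf_eq]
    simpa using this ⟨n, hn, rfl⟩
  set K := Cfsg.pResidual p H ⊔ commutator H with hK
  haveI : K.Normal := Subgroup.sup_normal _ _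
  haveI : IsMulCommutative (↥H ⧸ K) :=
    Subgroup.Normal.quotient_commutative_iff_commutator_le.mpr le_sup_right
  let _ : CommGroup (↥H ⧸ K) := { (inferInstance : Group (↥H ⧸ K)) with mul_comm := mul_comm' }
  let φ : H →* ↥H ⧸ K := QuotientGroup.mk' K
  have hpow : ∀ y : ↥H, ∃ a, φ y ^ p ^ a = 1 := by
    intro y
    obtain ⟨a, m, hm, hyo⟩ := Nat.exists_eq_pow_mul_and_not_dvd (orderOf_pos y).ne' p (Nat.Prime.ne_one Fact.out)
    refine ⟨a, ?_⟩
    rw [← map_pow]
    refine (QuotientGroup.eq_one_iff _).mpr (Subgroup.mem_sup_left (Subgroup.subset_closure ?_))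
    show Nat.Coprime (orderOf (y ^ p ^ a)) p
    rw [orderOf_pow' y (pow_ne_zero _ (Nat.Prime.ne_zero Fact.out)), hyo, Nat.gcd_mul_right_left,
      Nat.mul_div_cancel_left _ (pow_pos (Nat.Prime.pos Fact.out) _), Nat.coprime_comm]
    exact ((Nat.Prime.coprime_iff_not_dvd Fact.out).mpr hm)
  set V := MonoidHom.transfer φ with hV
  have hker : Cfsg.pResidual p G ⊔ commutator G ≤ V.ker := by
    refine sup_le ?_ (Abelianization.commutator_subset_ker _)
    rw [Cfsg.pResidual, Subgroup.closure_le]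
    intro z hz
    obtain ⟨y, hy⟩ := QuotientGroup.mk_surjective (V z)
    obtain ⟨a, ha⟩ := hpow y
    change (φ y) = V z at hy
    rw [hy] at ha
    exact orderOf_eq_one_iff.mp (Nat.eq_one_of_dvd_coprimes (Nat.Coprime.pow_right a hz)
      (orderOf_map_dvd V z) (orderOf_dvd_of_pow_eq_one ha))
  apply le_antisymm
  · rintro x ⟨hxB, hxH⟩
    refine ⟨⟨x, hxH⟩, ?_, rfl⟩
    set y : H := ⟨x, hxH⟩
    obtain ⟨a, m, hm, hxo⟩ := Nat.exists_eq_pow_mul_and_not_dvd (orderOf_pos x).ne' p (Nat.Prime.ne_one Fact.out)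
    have hm0 : m ≠ 0 := fun e => hm (e ▸ dvd_zero p)
    have hgo : orderOf (x ^ m) = p ^ a := by
      rw [orderOf_pow' x hm0, hxo, Nat.gcd_mul_left_left, Nat.mul_div_cancel _ (Nat.pos_of_ne_zero hm0)]
    have h1 : V (x ^ m) = φ (y ^ m) ^ H.index := by
      refine TwoGroups.transfer_hom_eq_pow φ (y ^ m) (fun k c h => ?_)
      obtain ⟨b, hb, hbe⟩ := hfus ((x ^ m) ^ k) (pow_mem (pow_mem hxH m) k) (by
        obtain ⟨i, -, hi⟩ := (Nat.dvd_prime_pow Fact.out).mp (hgo ▸ orderOf_pow_dvd k : orderOf ((x ^ m) ^ k) ∣ p ^ a)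
        exact ⟨i, hi⟩) c⁻¹ (by simpa [y] using h)
      have he : (⟨_, h⟩ : H) = ⟨b, hb⟩ * (y ^ m) ^ k * (⟨b, hb⟩ : H)⁻¹ :=
        Subtype.ext (by simpa [y, inv_inv] using hbe.symm)
      rw [he, map_mul, map_mul, map_inv, map_pow, mul_comm (φ ⟨b, hb⟩), mul_inv_cancel_right]
    have h0 : φ (y ^ m) ^ H.index = 1 := by
      rw [← h1]; exact MonoidHom.mem_ker.mp (pow_mem (hker hxB) m)
    obtain ⟨b, hb⟩ := hpow (y ^ m)
    have h2 : φ y ^ m = 1 := by
      rw [← map_pow]
      exact orderOf_eq_one_iff.mp (Nat.eq_one_of_dvd_coprimes (Nat.Coprime.pow_left b hidx)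
        (orderOf_dvd_of_pow_eq_one hb) (orderOf_dvd_of_pow_eq_one h0))
    obtain ⟨c, hc⟩ := hpow y
    exact (QuotientGroup.eq_one_iff y).mp (orderOf_eq_one_iff.mp (Nat.eq_one_of_dvd_coprimes
      (Nat.Coprime.pow_left c ((Nat.Prime.coprime_iff_not_dvd Fact.out).mpr hm))
      (orderOf_dvd_of_pow_eq_one hc) (orderOf_dvd_of_pow_eq_one h2)))
  · refine le_inf ?_ (Subgroup.map_subtype_le _)
    rw [Subgroup.map_sup]
    refine sup_le_sup ?_ ?_
    · rw [Cfsg.pResidual, MonoidHom.map_closure]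
      apply Subgroup.closure_mono
      rintro _ ⟨z, hz, rfl⟩
      show Nat.Coprime (orderOf (z : G)) p
      rwa [Subgroup.orderOf_coe]
    · rw [commutator_def, Subgroup.map_commutator]
      exact Subgroup.commutator_mono le_top le_top

end Cfsg.Agent.S1242
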