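import Cfsg.Statements.S1243
import Cfsg.Agent.TwoGroups.Closed

set_option autoImplicit false
open Cfsg

namespace Cfsg.Agent.S1243

/-- Let T be a Sylow p-subgroup of the finite group G and W ≤ T a subgroup weakly closed in T. If d and g d g⁻¹ both centralize W, then g d g⁻¹ = h d h⁻¹ for some h ∈ N_G(W). -/
theorem result {G : Type*} [Group G] [Finite G] {p : ℕ} [Fact p.Prime] (T : Sylow p G) (W : Subgroup G) (hW : Cfsg.IsWeaklyClosed W (T : Subgroup G)) (d g : G) (hd : d ∈ Subgroup.centralizer (W : Set G)) (hgd : g * d * g⁻¹ ∈ Subgroup.centralizer (W : Set G)) : ∃ h ∈ Subgroup.normalizer (W : Set G), h * d * h⁻¹ = g * d * g⁻¹ := by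
  set C := Subgroup.centralizer ({g * d * g⁻¹} : Set G)
  have hWC : ∀ x ∈ W, x ∈ C := by
    intro x hx
    rw [Subgroup.mem_centralizer_singleton_iff]
    exact hgd x hx
  have hgWC : W.map (MulAut.conj g).toMonoidHom ≤ C := by
    rintro _ ⟨x, hx, rfl⟩
    rw [Subgroup.mem_centralizer_singleton_iff]
    have e : x * d = d * x := hd x hx
    simpa [mul_assoc] using congrArg (fun t => g * t * g⁻¹) e
  have hWp : IsPGroup p W := T.2.to_le hW.1
  obtain ⟨P₁, hP₁⟩ := (hWp.comap_subtype (K := C)).exists_le_sylow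
  obtain ⟨P₂, hP₂⟩ := ((hWp.map (MulAut.conj g).toMonoidHom).comap_subtype (K := C)).exists_le_sylow
  obtain ⟨c, hc⟩ := TwoGroups.sylow_conj P₂ P₁
  obtain ⟨T', hT'⟩ := (P₁.2.map C.subtype).exists_le_sylow
  have h1 : W ≤ T' := fun x hx =>
    hT' ⟨⟨x, hWC x hx⟩, hP₁ (show C.subtype ⟨x, hWC x hx⟩ ∈ W from hx), rfl⟩
  have h2 : W.map (MulAut.conj ((c : G) * g)).toMonoidHom ≤ T' := by
    rw [← TwoGroups.map_conj_map]
    rintro _ ⟨y, hy, rfl⟩
    refine hT' ⟨c * ⟨y, hgWC hy⟩ * c⁻¹, ?_, by simp⟩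
    rw [hc]
    exact TwoGroups.conj_mem_map_conj (hP₂ (show C.subtype ⟨y, hgWC hy⟩ ∈ _ from hy))
  have h3 := TwoGroups.weaklyClosed_eq_self hW T' h1 h2
  refine ⟨(c : G) * g, ?_, ?_⟩
  · rw [Subgroup.mem_normalizer_iff]
    intro x
    constructor
    · intro hx; rw [← h3]; exact TwoGroups.conj_mem_map_conj hx
    · intro hx
      rw [← h3, TwoGroups.mem_map_conj] at hx
      simpa [mul_assoc] using hx
  · have := Subgroup.mem_centralizer_singleton_iff.mp c.2
    rw [show (c : G) * g * d * ((c : G) * g)⁻¹ = c * (g * d * g⁻¹) * (c : G)⁻¹ by group, this,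
      mul_inv_cancel_right]

end Cfsg.Agent.S1243
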