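import Cfsg.Statements.S1244
import Cfsg.Agent.TwoGroups.Closed
import Mathlib

set_option autoImplicit false
open Cfsg

namespace Cfsg.Agent.S1244

/-- Let G be a finite group with no subgroup of index 2 whose Sylow 2-subgroup S is commutative, and let R ≤ S be a subgroup whose 2-rank is exactly one less than the 2-rank r of S. Then every involution of S is conjugate, by an element of N_G(S), to an element of R. -/
theorem result {G : Type*} [Group G] [Finite G] (hG : ∀ H : Subgroup G, H.index ≠ 2) (S : Sylow 2 G) (hS : IsMulCommutative (S : Subgroup G)) (r : ℕ) (hr1 : 1 ≤ r) (hSr : Cfsg.PRankLE 2 r (S : Subgroup G) ∧ ¬ Cfsg.PRankLE 2 (r - 1) (S : Subgroup G)) (R : Subgroup G) (hRS : R ≤ S) (hRr : Cfsg.PRankLE 2 (r - 1) R ∧ (r = 1 ∨ ¬ Cfsg.PRankLE 2 (r - 2) R)) (t : G) (ht : orderOf t = 2) (htS : t ∈ S) : ∃ n ∈ Subgroup.normalizer ((S : Subgroup G) : Set G), n * t * n⁻¹ ∈ R := by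
  classical
  by_contra hcon
  push Not at hcon
  have hScomm : ∀ a ∈ (S : Subgroup G), ∀ b ∈ (S : Subgroup G), a * b = b * a := fun a ha b hb =>
    congrArg Subtype.val (hS.is_comm.comm (⟨a, ha⟩ : (S : Subgroup G)) ⟨b, hb⟩)
  let E : Subgroup G :=
    { carrier := {x | x ∈ (S : Subgroup G) ∧ x * x = 1}
      mul_mem' := fun {a b} ha hb => ⟨mul_mem ha.1 hb.1, by
        rw [show a * b * (a * b) = a * (b * a) * b by group, hScomm b hb.1 a ha.1,
          show a * (a * b) * b = (a * a) * (b * b) by group, ha.2, hb.2, one_mul]⟩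
      one_mem' := ⟨one_mem _, one_mul 1⟩
      inv_mem' := fun {a} ha => ⟨inv_mem ha.1, by rw [← mul_inv_rev, ha.2, inv_one]⟩ }
  set F := E ⊓ R
  have hEcomm : IsMulCommutative E := ⟨⟨fun a b => Subtype.ext (hScomm a a.2.1 b b.2.1)⟩⟩
  have hFcomm : IsMulCommutative F := ⟨⟨fun a b => Subtype.ext (hScomm a a.2.1.1 b b.2.1.1)⟩⟩
  have hEp : IsPGroup 2 E := S.2.to_le (fun x hx => hx.1)
  have hFp : IsPGroup 2 F := hEp.to_le inf_le_left
  -- orders of `E` and `F`
  have hE : Nat.card E = 2 ^ r := by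
    obtain ⟨k, hk⟩ := IsPGroup.iff_card.mp hEp
    have hub : Nat.card (E.subgroupOf (S : Subgroup G)) ≤ 2 ^ r :=
      hSr.1 _ ⟨⟨fun a b => Subtype.ext (Subtype.ext (hScomm _ a.1.2 _ b.1.2))⟩⟩
        (fun a ha => Subtype.ext (by rw [pow_two]; exact ha.2))
    have hle : E ≤ (S : Subgroup G) := fun x hx => hx.1
    rw [Nat.card_congr (Subgroup.subgroupOfEquivOfLe hle).toEquiv, hk] at hub
    have hlb := hSr.2
    unfold Cfsg.PRankLE at hlb
    push Not at hlb
    obtain ⟨A, -, hA, hAc⟩ := hlb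
    have : Nat.card A ≤ Nat.card E := by
      refine Nat.card_le_card_of_injective (fun a => ⟨a.1.1, a.1.2, ?_⟩) (fun a b e => ?_)
      · have := congrArg Subtype.val (hA a a.2)
        simpa [pow_two] using this
      · exact Subtype.ext (Subtype.ext (congrArg Subtype.val e :))
    rw [hk] at this
    have h1 := (Nat.pow_le_pow_iff_right one_lt_two).mp hub
    have h2 := (Nat.pow_lt_pow_iff_right one_lt_two).mp (lt_of_lt_of_le hAc this)
    rw [hk, show k = r by omega]
  have hF : Nat.card F = 2 ^ (r - 1) := by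
    obtain ⟨k, hk⟩ := IsPGroup.iff_card.mp hFp
    have hub : Nat.card (F.subgroupOf R) ≤ 2 ^ (r - 1) :=
      hRr.1 _ ⟨⟨fun a b => Subtype.ext (Subtype.ext (hScomm _ (hRS a.1.2) _ (hRS b.1.2)))⟩⟩
        (fun a ha => Subtype.ext (by rw [pow_two]; exact (show (a : G) ∈ E ⊓ R from ha).1.2))
    rw [Nat.card_congr (Subgroup.subgroupOfEquivOfLe (inf_le_right : F ≤ R)).toEquiv, hk] at hub
    have h1 := (Nat.pow_le_pow_iff_right one_lt_two).mp hub
    rw [hk]
    rcases hRr.2 with hr | hr
    · rw [show k = r - 1 by omega]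
    unfold Cfsg.PRankLE at hr
    push Not at hr
    obtain ⟨A, -, hA, hAc⟩ := hr
    have : Nat.card A ≤ Nat.card F := by
      refine Nat.card_le_card_of_injective (fun a => ⟨a.1.1, ⟨hRS a.1.2, ?_⟩, a.1.2⟩) (fun a b e => ?_)
      · have := congrArg Subtype.val (hA a a.2)
        simpa [pow_two] using this
      · exact Subtype.ext (Subtype.ext (congrArg Subtype.val e :))
    rw [hk] at this
    have h2 := (Nat.pow_lt_pow_iff_right one_lt_two).mp (lt_of_lt_of_le hAc this)
    rw [show k = r - 1 by omega]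
  have hidx : (F.subgroupOf E).index = 2 := by
    have := (F.subgroupOf E).card_mul_index
    rw [Nat.card_congr (Subgroup.subgroupOfEquivOfLe (inf_le_left : F ≤ E)).toEquiv, hE, hF] at this
    have h2 : 2 ^ r = 2 ^ (r - 1) * 2 := by rw [← pow_succ, Nat.sub_add_cancel hr1]
    rw [h2] at this
    exact Nat.eq_of_mul_eq_mul_left (pow_pos two_pos _) this
  haveI : (F.subgroupOf E).Normal := Subgroup.normal_of_index_eq_two hidx
  let _ : CommGroup E := { (inferInstance : Group E) with mul_comm := mul_comm' }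
  -- the orbit of `t`
  set N := Subgroup.normalizer ((S : Subgroup G) : Set G)
  have hmemE : ∀ n ∈ N, ∀ e ∈ E, n * e * n⁻¹ ∈ E := fun n hn e he =>
    ⟨(Subgroup.mem_normalizer_iff.mp hn e).1 he.1, by
      rw [show n * e * n⁻¹ * (n * e * n⁻¹) = n * (e * e) * n⁻¹ by group, he.2]; simp⟩
  let act : MulAction N E :=
    { smul := fun n e => ⟨n.1 * e.1 * n.1⁻¹, hmemE n n.2 e e.2⟩
      one_smul := fun e => Subtype.ext (show (1 : G) * e.1 * (1 : G)⁻¹ = e.1 by simp)
      mul_smul := fun a b e => Subtype.ext (show (a.1 * b.1) * e.1 * (a.1 * b.1)⁻¹ = a.1 * (b.1 * e.1 * b.1⁻¹) * a.1⁻¹ by group) }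
  letI := act
  have hsmul : ∀ (n : N) (e : E), ((n • e : E) : G) = n.1 * e.1 * n.1⁻¹ := fun _ _ => rfl
  let t' : E := ⟨t, htS, by rw [← pow_two, ← ht, pow_orderOf_eq_one]⟩
  have hodd : Odd (Nat.card (MulAction.orbit N t')) := by
    rw [← Nat.not_even_iff_odd, even_iff_two_dvd, Nat.card_coe_set_eq, ← MulAction.index_stabilizer]
    intro h2
    have h3 : ((S : Subgroup G).subgroupOf N) ≤ MulAction.stabilizer N t' := fun s hs =>
      Subtype.ext (by rw [hsmul, hScomm s.1 hs t htS, mul_inv_cancel_right])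
    exact S.not_dvd_index ((h2.trans (Subgroup.index_dvd_of_le h3)).trans
      (Subgroup.relIndex_dvd_index_of_le Subgroup.le_normalizer))
  let _ : Fintype E := Fintype.ofFinite E
  let O : Finset E := (MulAction.orbit N t').toFinite.toFinset
  let e : E := ∏ x ∈ O, x
  have hOmem : ∀ x, x ∈ O ↔ x ∈ MulAction.orbit N t' := fun x => Set.Finite.mem_toFinset _
  -- `e` is not in the hyperplane
  have he1 : e ≠ 1 := by
    intro he
    let q := QuotientGroup.mk' (F.subgroupOf E)
    have hq2 : Nat.card (E ⧸ F.subgroupOf E) = 2 := hidx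
    have hout : ∀ x ∈ O, q x = q t' := by
      intro x hx
      obtain ⟨n, rfl⟩ := (hOmem x).mp hx
      have h1 : ∀ m : N, q (m • t') ≠ 1 := by
        intro m hm
        exact hcon m.1 m.2 ((QuotientGroup.eq_one_iff _).mp hm :).2
      have h2 := h1 n
      have h3 : q t' ≠ 1 := by simpa using h1 1
      obtain ⟨u, v, -, huv⟩ := Nat.card_eq_two_iff.mp hq2
      have hu := huv.symm ▸ Set.mem_univ (q (n • t'))
      have hv := huv.symm ▸ Set.mem_univ (q t')
      have h1' := huv.symm ▸ Set.mem_univ (1 : E ⧸ F.subgroupOf E)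
      simp only [Set.mem_insert_iff, Set.mem_singleton_iff] at hu hv h1'
      rcases hu with a | a <;> rcases hv with b | b <;> rcases h1' with c | c <;>
        first
          | exact a.trans b.symm
          | exact absurd (a.trans c.symm) h2
          | exact absurd (b.trans c.symm) h3
    have hq : q e = q t' ^ O.card := by
      rw [map_prod, Finset.prod_congr rfl hout, Finset.prod_const]
    have hOc : O.card = Nat.card (MulAction.orbit N t') := by
      rw [Nat.card_coe_set_eq, Set.ncard_eq_toFinset_card _ (MulAction.orbit N t').toFinite]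
    obtain ⟨k, hk⟩ := hodd
    have ht2 : q t' ^ 2 = 1 := by
      rw [← map_pow]
      exact (congrArg q (Subtype.ext (show t ^ 2 = 1 by rw [← ht, pow_orderOf_eq_one]))).trans (map_one q)
    rw [he, map_one, hOc, hk, pow_succ, pow_mul, ht2, one_pow, one_mul] at hq
    exact hcon 1 (one_mem _) (by simpa [t'] using ((QuotientGroup.eq_one_iff _).mp hq.symm :).2)
  have hfix : ∀ n : N, n.1 * e.1 * n.1⁻¹ = e.1 := by
    intro n
    let f : E →* E := MonoidHom.mk' (fun x => n • x)
      (fun a b => Subtype.ext (by rw [hsmul, Subgroup.coe_mul, Subgroup.coe_mul, hsmul, hsmul]; group))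
    have : f e = e := by
      rw [show f e = ∏ x ∈ O, f x from map_prod f _ _]
      refine Finset.prod_bij (fun x _ => n • x) (fun x hx => ?_) (fun a _ b _ h => MulAction.injective n h)
        (fun y hy => ⟨n⁻¹ • y, ?_, smul_inv_smul n y⟩) (fun x _ => rfl)
      · rw [hOmem] at hx ⊢; exact MulAction.mem_orbit_of_mem_orbit n hx
      · rw [hOmem] at hy ⊢; exact MulAction.mem_orbit_of_mem_orbit _ hy
    exact congrArg Subtype.val this
  -- transfer into `S`
  let _ : CommGroup (S : Subgroup G) := { (inferInstance : Group (S : Subgroup G)) with mul_comm := mul_comm' }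
  let φ : (S : Subgroup G) →* (S : Subgroup G) := MonoidHom.id _
  have hV := TwoGroups.transfer_hom_eq_pow φ ⟨e.1, e.2.1⟩ (fun k a h => by
    have hc : ∀ w ∈ (S : Subgroup G), (S : Subgroup G) ≤ Subgroup.centralizer {w} := fun w hw s hs =>
      Subgroup.mem_centralizer_singleton_iff.mpr (hScomm s hs w hw)
    obtain ⟨n, hn, hne⟩ := S.conj_eq_normalizer_conj_of_mem (e.1 ^ k) a (pow_mem e.2.1 k) h
    apply Subtype.ext
    show a⁻¹ * e.1 ^ k * a = ((φ ⟨e.1, e.2.1⟩ ^ k : (S : Subgroup G)) : G)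
    rw [hne, SubgroupClass.coe_pow]
    show n⁻¹ * e.1 ^ k * n = e.1 ^ k
    have h2 := congrArg (· ^ k) (hfix ⟨n⁻¹, inv_mem hn⟩)
    simp only [inv_inv] at h2
    rw [show n⁻¹ * e.1 * n = n⁻¹ * e.1 * n⁻¹⁻¹ by rw [inv_inv], conj_pow, inv_inv] at h2
    exact h2)
  have hV1 : MonoidHom.transfer φ = 1 := by
    by_contra hne
    set V := MonoidHom.transfer φ
    have hVp : IsPGroup 2 V.range := S.2.to_subgroup V.range
    obtain ⟨k, hk⟩ := IsPGroup.iff_card.mp hVp
    have hk0 : k ≠ 0 := fun h => hne (by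
      rw [h, pow_zero, Subgroup.card_eq_one, MonoidHom.range_eq_bot_iff] at hk
      exact hk)
    obtain ⟨M, hM⟩ := Sylow.exists_subgroup_card_pow_prime (G := V.range) 2 (n := k - 1)
      (hk ▸ pow_dvd_pow 2 (by omega))
    have hMi : M.index = 2 := by
      have := M.card_mul_index
      rw [hM, hk, show (2:ℕ) ^ k = 2 ^ (k - 1) * 2 by rw [← pow_succ, Nat.sub_add_cancel (by omega)]] at this
      exact Nat.eq_of_mul_eq_mul_left (pow_pos two_pos _) this
    exact hG (M.comap V.rangeRestrict)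
      (by rw [Subgroup.index_comap_of_surjective _ V.rangeRestrict_surjective, hMi])
  rw [hV1, MonoidHom.one_apply] at hV
  apply he1
  have h2 : e ^ 2 = 1 := Subtype.ext (by rw [SubgroupClass.coe_pow, pow_two]; exact e.2.2)
  have h1 : e ^ (S : Subgroup G).index = 1 := Subtype.ext (by
    simpa [φ] using (congrArg Subtype.val hV).symm)
  exact orderOf_eq_one_iff.mp (Nat.eq_one_of_dvd_coprimes
    ((Nat.Prime.coprime_iff_not_dvd Nat.prime_two).mpr S.not_dvd_index)
    (orderOf_dvd_of_pow_eq_one h2) (orderOf_dvd_of_pow_eq_one h1))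

end Cfsg.Agent.S1244
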