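import Cfsg.Statements.S1247
import Cfsg.Agent.Components.FStar
import Cfsg.Agent.Components.BenderMaximal
import Cfsg.Agent.Coprime.PxQ
import Cfsg.Agent.Core.Residual
import Cfsg.Agent.FGS2.FittingHeight
import Cfsg.Agent.OddLocal.CN

set_option autoImplicit false
open Cfsg

namespace Cfsg.Agent.S1247

open scoped commutatorElement
open Subgroup
open Cfsg.Agent.Components

/-- A power of a `p`-element. -/
theorem mem_pCore_of_pow {H : Type*} [Group H] [Finite H] {p : ℕ} [Fact p.Prime] {w : H}
    (hw : w ∈ Cfsg.fittingSubgroup H) {k : ℕ} (h : w ^ p ^ k = 1) : w ∈ Cfsg.pCore p H := by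
  refine Cfsg.Agent.FGS2.mem_pCore_of_mem_fitting hw ?_
  obtain ⟨j, -, hj⟩ := (Nat.dvd_prime_pow (Fact.out : p.Prime)).1 (orderOf_dvd_of_pow_eq_one h)
  exact IsPGroup.of_card (n := j) (by rw [Nat.card_zpowers, hj])

theorem exists_split {H : Type*} [Group H] [Finite H] {p : ℕ} [hp : Fact p.Prime] (s : H) :
    ∃ a b : H, a ∈ zpowers s ∧ b ∈ zpowers s ∧ s = a * b ∧ (∃ k : ℕ, a ^ p ^ k = 1) ∧
      (orderOf b).Coprime p := by
  haveI : Group.IsNilpotent (zpowers s) := open scoped IsMulCommutative in CommGroup.isNilpotent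
  obtain ⟨a, ha, b, hb, e⟩ := Components.BenderMax.exists_mul_parts (p := p) (mem_zpowers s)
  refine ⟨a, b, BenderMax.pPart_le _ _ ha, BenderMax.pPrimePart_le _ _ hb, e, ?_, ?_⟩
  · obtain ⟨k, hk⟩ := BenderMax.isPGroup_pPart p (zpowers s) ⟨a, ha⟩
    exact ⟨k, congrArg Subtype.val hk⟩
  · exact (BenderMax.pPrimePart_coprime p (zpowers s)).coprime_dvd_left
      ((BenderMax.pPrimePart p (zpowers s)).orderOf_dvd_natCard hb)

/-- Elements of `O_p` commute with the elements of order prime to `p` of the Fitting subgroup. -/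
theorem commute_pCore_fitting {H : Type*} [Group H] [Finite H] {p : ℕ} [Fact p.Prime] {v b : H}
    (hv : v ∈ Cfsg.pCore p H) (hb : b ∈ Cfsg.fittingSubgroup H) (hbo : (orderOf b).Coprime p) :
    v * b = b * v := by
  refine OddLocal.CN.commute_of_coprime (Core.isNilpotent_fittingSubgroup H)
    (Core.pCore_le_fittingSubgroup p H hv) hb ?_
  obtain ⟨k, hk⟩ := Core.isPGroup_pCore p H ⟨v, hv⟩
  exact ((hbo.pow_right k).symm).coprime_dvd_left
    (orderOf_dvd_of_pow_eq_one (congrArg Subtype.val hk))

variable {H : Type*} [Group H] [Finite H]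

/-- The setting: `S` subnormal in `F*(H)` and containing its centralizer there. -/
structure Setting (S : Subgroup H) : Prop where
  le : S ≤ Cfsg.generalizedFittingSubgroup H
  sn : S.IsSubnormal
  cent : Cfsg.generalizedFittingSubgroup H ⊓ centralizer (S : Set H) ≤ S

theorem Setting.layer_le {S : Subgroup H} (h : Setting S) : Cfsg.layer H ≤ S := by
  refine layer_le_iff.2 fun L hL => ?_
  rcases component_le_or_commutator_subnormal hL h.sn with h' | h'
  · exact h'
  · exact (le_inf (component_le_generalizedFitting hL)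
      (commutator_eq_bot_iff_le_centralizer.1 h')).trans h.cent

theorem exists_decomp {x : H} (hx : x ∈ Cfsg.generalizedFittingSubgroup H) :
    ∃ e ∈ Cfsg.layer H, ∃ f ∈ Cfsg.fittingSubgroup H, x = e * f ∧ e * f = f * e := by
  rw [Cfsg.generalizedFittingSubgroup, ← SetLike.mem_coe, normal_mul] at hx
  obtain ⟨e, he, f, hf, rfl⟩ := hx
  exact ⟨e, he, f, hf, rfl, (mem_centralizer_iff.1 (fitting_le_centralizer_layer hf) e he)⟩

/-- An element of `O_r` centralizing `S ∩ O_r` lies in `S`. -/
theorem Setting.mem_of_cent {S : Subgroup H} (h : Setting S) {r : ℕ} [Fact r.Prime] {v : H}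
    (hv : v ∈ Cfsg.pCore r H) (hc : ∀ u ∈ S ⊓ Cfsg.pCore r H, u * v = v * u) : v ∈ S := by
  refine h.cent ⟨le_sup_right (a := Cfsg.layer H) (Core.pCore_le_fittingSubgroup r H hv), ?_⟩
  refine mem_centralizer_iff.2 fun s hs => ?_
  obtain ⟨e, he, f, hf, rfl, -⟩ := exists_decomp (h.le hs)
  have hfS : f ∈ S := by
    have := S.mul_mem (S.inv_mem (h.layer_le he)) hs
    rwa [inv_mul_cancel_left] at this
  obtain ⟨a, b, ha, hb, rfl, ⟨k, hk⟩, hbo⟩ := exists_split (p := r) f
  have h1 : e * v = v * e := mem_centralizer_iff.1 (fitting_le_centralizer_layer (Core.pCore_le_fittingSubgroup r H hv)) e he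
  have h2 : a * v = v * a := hc a ⟨(zpowers_le.2 hfS) ha, mem_pCore_of_pow (zpowers_le.2 hf ha) hk⟩
  have h3 : b * v = v * b := (commute_pCore_fitting hv (zpowers_le.2 hf hb) hbo).symm
  exact ((Commute.mul_left (show Commute e v from h1) (Commute.mul_left (show Commute a v from h2) h3))).eq

/-- A `q`-subgroup normalized by `S`: it centralizes the elements of `F*` of order prime to `q`, and if
`q` does not divide `|F(H)|` it is trivial. -/
theorem Setting.main {S : Subgroup H} (h : Setting S) {q : ℕ} [hq : Fact q.Prime] (Q : Subgroup H)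
    (hQ : IsPGroup q Q) (hn : S ≤ normalizer (Q : Set H)) :
    (∀ y ∈ Cfsg.generalizedFittingSubgroup H, (orderOf y).Coprime q → ∀ x ∈ Q, x * y = y * x) ∧
    (¬ q ∣ Nat.card (Cfsg.fittingSubgroup H) → Q = ⊥) := by
  haveI : Group.IsSolvable Q := Coprime.isSolvable_of_isPGroup hQ
  -- `Q ∩ F*` lies in `O_q`
  have hR : ∀ x ∈ Q, x ∈ Cfsg.generalizedFittingSubgroup H → x ∈ Cfsg.pCore q H := by
    intro x hx hxF
    obtain ⟨k, hk⟩ := hQ ⟨x, hx⟩
    refine mem_pCore_of_pow ?_ (congrArg Subtype.val hk)
    obtain ⟨e, he, f, hf, rfl, -⟩ := exists_decomp hxF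
    refine mul_mem ?_ hf
    have he' : e ∈ centralizer (Cfsg.layer H : Set H) := by
      have hLQ : ∀ L : Subgroup H, Cfsg.IsComponent L → L ≤ centralizer (Q : Set H) := fun L hL =>
        commutator_eq_bot_iff_le_centralizer.1 (component_commutator_solvable hL inferInstance
          ((component_le_layer hL).trans (h.layer_le.trans hn)))
      have h1 : e * f ∈ centralizer (Cfsg.layer H : Set H) := by
        refine le_centralizer_iff.1 (layer_le_iff.2 fun L hL => ?_) hx
        exact hLQ L hL
      have := mul_mem h1 (inv_mem (fitting_le_centralizer_layer hf))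
      rwa [mul_inv_cancel_right] at this
    have hm : e ∈ Cfsg.layer H ⊓ centralizer (Cfsg.layer H : Set H) := mem_inf.2 ⟨he, he'⟩
    rw [← fitting_inf_layer_eq] at hm
    exact (mem_inf.1 hm).1
  have hQS : ∀ x ∈ Q, ∀ s ∈ S, ⁅x, s⁆ ∈ Cfsg.pCore q H := by
    intro x hx s hs
    refine hR _ ?_ ?_
    · rw [commutatorElement_def, show x * s * x⁻¹ * s⁻¹ = x * (s * x⁻¹ * s⁻¹) by group]
      exact Q.mul_mem hx ((mem_normalizer_iff.1 (hn hs) _).1 (Q.inv_mem hx))
    · rw [commutatorElement_def]
      exact mul_mem (generalizedFitting_normal.conj_mem s (h.le hs) x) (inv_mem (h.le hs))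
  have hQE : ⁅Cfsg.layer H, Q⁆ = ⊥ := by
    refine commutator_eq_bot_of_perfect layer_commutator_self (le_bot_iff.1 ?_)
    refine (commutator_mono (H₂ := Cfsg.layer H) ((commutator_le.2 fun x hx s hs => hQS x hx s (h.layer_le hs)).trans
      ((Core.pCore_le_fittingSubgroup q H).trans fitting_le_centralizer_layer)) le_rfl).trans ?_
    exact (commutator_eq_bot_iff_le_centralizer.2 le_rfl).le
  have hcore : ∀ r : ℕ, r.Prime → r ≠ q → ⁅Cfsg.pCore r H, Q⁆ = ⊥ := by
    intro r hr hrq
    haveI := Fact.mk hr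
    set V := Cfsg.pCore r H
    have hdis : Cfsg.pCore q H ⊓ V = ⊥ := (IsPGroup.disjoint_of_ne q r hrq.symm _ _
      (Core.isPGroup_pCore q H) (Core.isPGroup_pCore r H)).eq_bot
    have hP : ⁅S ⊓ V, Q⁆ = ⊥ := by
      rw [commutator_eq_bot_iff_le_centralizer]
      refine fun s hs => mem_centralizer_iff.2 fun x hx => ?_
      have h1 : ⁅x, s⁆ ∈ Cfsg.pCore q H ⊓ V := ⟨hQS x hx s hs.1, by
        rw [commutatorElement_def]
        exact V.mul_mem ((inferInstance : V.Normal).conj_mem s hs.2 x) (V.inv_mem hs.2)⟩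
      rw [hdis, mem_bot] at h1
      exact commutatorElement_eq_one_iff_mul_comm.1 h1
    have hcop : (Nat.card Q).Coprime r := by
      obtain ⟨k, hk⟩ := IsPGroup.iff_card.1 hQ
      rw [hk]; exact ((Nat.coprime_primes hq.out hr).2 hrq.symm).pow_left k
    refine Coprime.commutator_eq_bot_of_PxQ ((Core.isPGroup_pCore r H).to_le inf_le_right) hcop hP _ V rfl
      (Core.isPGroup_pCore r H) ?_ ?_ ?_
    · rw [normalizer_eq_top_iff.2 inferInstance]; exact le_top
    · rw [normalizer_eq_top_iff.2 inferInstance]; exact le_top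
    · refine le_bot_iff.1 ((commutator_mono ?_ le_rfl).trans hP.le)
      exact fun v hv => ⟨h.mem_of_cent hv.1 fun u hu => mem_centralizer_iff.1 hv.2 u hu, hv.1⟩
  constructor
  · intro y hy hyo x hx
    obtain ⟨e, he, f, hf, rfl, hef⟩ := exists_decomp hy
    obtain ⟨a, b, ha, hb, rfl, ⟨k, hk⟩, hbo⟩ := exists_split (p := q) f
    have haq : a ∈ Cfsg.pCore q H := mem_pCore_of_pow (zpowers_le.2 hf ha) hk
    have he' : Commute x e := mem_centralizer_iff.1 (commutator_eq_bot_iff_le_centralizer.1 hQE he) x hx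
    have hb' : Commute x b := by
      suffices hle : Cfsg.fittingSubgroup H ≤ Cfsg.pCore q H ⊔ centralizer ({x} : Set H) by
        have hbm := hle (zpowers_le.2 hf hb)
        rw [← SetLike.mem_coe, normal_mul] at hbm
        obtain ⟨c, hc, d, hd, hcd⟩ := hbm
        obtain ⟨j, hj⟩ := Core.isPGroup_pCore q H ⟨c, hc⟩
        -- raise to a power killing the `q`-part
        have hdF : d ∈ Cfsg.fittingSubgroup H := by
          have := mul_mem (inv_mem (Core.pCore_le_fittingSubgroup q H hc)) (zpowers_le.2 hf hb)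
          rwa [← (show c * d = b from hcd), inv_mul_cancel_left] at this
        have hbc : Commute c b := commute_pCore_fitting hc (zpowers_le.2 hf hb) hbo
        have hbj : b ^ q ^ j = d ^ q ^ j := by
          have : d = c⁻¹ * b := by rw [← (show c * d = b from hcd), inv_mul_cancel_left]
          rw [this, (hbc.inv_left).mul_pow, inv_pow, show c ^ q ^ j = 1 from congrArg Subtype.val hj, inv_one,
            one_mul]
        have hcop2 : (orderOf b).Coprime (q ^ j) := hbo.pow_right j
        obtain ⟨m, hm⟩ := exists_pow_eq_self_of_coprime hcop2.symm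
        rw [← hm, hbj]
        exact ((show Commute x d from (mem_centralizer_singleton_iff.1 hd).symm).pow_right _).pow_right m
      rw [Core.fittingSubgroup_eq_iSup]
      refine iSup_le fun r => ?_
      by_cases hr : (r : ℕ) = q
      · rw [hr]; exact le_sup_left
      · refine le_trans ?_ le_sup_right
        intro z hz
        exact mem_centralizer_singleton_iff.2
          ((mem_centralizer_iff.1 (commutator_eq_bot_iff_le_centralizer.1 (hcore r r.2 hr) hz)) x hx).symm
    have hz : Commute x (e * b) := he'.mul_right hb'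
    have hab : Commute a b := commute_pCore_fitting haq (zpowers_le.2 hf hb) hbo
    have hea : Commute e a :=
      mem_centralizer_iff.1 (fitting_le_centralizer_layer (zpowers_le.2 hf ha)) e he
    have hpow : (e * (a * b)) ^ q ^ k = (e * b) ^ q ^ k := by
      rw [show e * (a * b) = a * (e * b) by rw [← mul_assoc, hea.eq, mul_assoc],
        (hea.symm.mul_right hab).mul_pow, hk, one_mul]
    obtain ⟨m, hm⟩ := exists_pow_eq_self_of_coprime (hyo.pow_right k).symm
    rw [← hm, hpow]
    exact ((hz.pow_right _).pow_right m).eq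
  · intro hnd
    have hbot : Cfsg.pCore q H = ⊥ := by
      obtain ⟨k, hk⟩ := IsPGroup.iff_card.1 (Core.isPGroup_pCore q H)
      refine eq_bot_of_card_eq _ ?_
      rw [hk]
      rcases k with - | k
      · rfl
      · exact absurd ((Dvd.intro_left _ (pow_succ q k).symm).trans
          (hk ▸ card_dvd_of_le (Core.pCore_le_fittingSubgroup q H))) hnd
    rw [eq_bot_iff, ← hbot]
    intro x hx
    refine hR x hx (centralizer_generalizedFitting_le ?_)
    rw [mem_centralizer_iff]
    intro y hy
    have hle : Cfsg.generalizedFittingSubgroup H ≤ centralizer ({x} : Set H) := by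
      refine sup_le (fun e he => mem_centralizer_singleton_iff.2
        (mem_centralizer_iff.1 (commutator_eq_bot_iff_le_centralizer.1 hQE he) x hx).symm) ?_
      rw [Core.fittingSubgroup_eq_iSup]
      refine iSup_le fun r => ?_
      by_cases hr : (r : ℕ) = q
      · rw [hr, hbot]; exact bot_le
      · intro z hz
        exact mem_centralizer_singleton_iff.2
          ((mem_centralizer_iff.1 (commutator_eq_bot_iff_le_centralizer.1 (hcore r r.2 hr) hz)) x hx).symm
    exact mem_centralizer_singleton_iff.1 (hle hy)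

/-- The centre of `O_r` lies in `S`. -/
theorem Setting.center_le {S : Subgroup H} (h : Setting S) (r : ℕ) [Fact r.Prime] :
    (center (Cfsg.pCore r H)).map (Cfsg.pCore r H).subtype ≤ S := by
  rintro _ ⟨v, hv, rfl⟩
  exact h.mem_of_cent v.2 fun u hu => congrArg Subtype.val (mem_center_iff.1 hv ⟨u, hu.2⟩)

/-- In a simple group the centralizer of a nontrivial normal subgroup of a maximal subgroup lies inside. -/
theorem centralizer_le_of_coatom {G : Type*} [Group G] [IsSimpleGroup G] {A : Subgroup G} (hA : IsCoatom A)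
    (N : Subgroup A) [N.Normal] (hN : N ≠ ⊥) : centralizer ((N.map A.subtype : Subgroup G) : Set G) ≤ A := by
  have hn : A ≤ normalizer ((N.map A.subtype : Subgroup G) : Set G) := by
    rw [← normal_subgroupOf_iff_le_normalizer (map_subtype_le N), subgroupOf, comap_map_eq_self_of_injective A.subtype_injective]
    infer_instance
  refine (centralizer_le_normalizer _).trans ?_
  rcases hA.le_iff.1 hn with h | h
  · exfalso
    rw [normalizer_eq_top_iff] at h
    rcases h.eq_bot_or_eq_top with h' | h'
    · exact hN ((map_inj_eq_bot_iff A.subtype_injective).1 h')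
    · exact hA.1 (top_le_iff.1 (h' ▸ map_subtype_le N))
  · exact h.le


/-- Let G be a non-abelian finite simple group, A a maximal subgroup, F = F*(A) its generalized Fitting subgroup (viewed in G), and S ≤ F a subgroup subnormal in F with C_F(S) ≤ S. Let B be any subgroup of G containing S. Then (a) for every prime q not dividing |F(A)|, O_q(B) ∩ A = 1; and (b) for every prime p dividing |F(A)|, O_p(B) commutes elementwise with the subgroup of F generated by its elements of order prime to p. -/
theorem result {G : Type*} [Group G] [Finite G] [IsSimpleGroup G] (hna : ¬ IsMulCommutative G) (A : Subgroup G) (hA : IsCoatom A) (S : Subgroup G) (hSF : S ≤ (Cfsg.generalizedFittingSubgroup ↥A).map A.subtype) (hSsn : (S.subgroupOf ((Cfsg.generalizedFittingSubgroup ↥A).map A.subtype)).IsSubnormal) (hSC : (Cfsg.generalizedFittingSubgroup ↥A).map A.subtype ⊓ Subgroup.centralizer (S : Set G) ≤ S) (B : Subgroup G) (hSB : S ≤ B) : (∀ q : ℕ, q.Prime → ¬ q ∣ Nat.card (Cfsg.fittingSubgroup ↥A) → (Cfsg.pCore q ↥B).map B.subtype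 ⊓ A = ⊥) ∧ (∀ p : ℕ, p.Prime → p ∣ Nat.card (Cfsg.fittingSubgroup ↥A) → ∀ x ∈ (Cfsg.pCore p ↥B).map B.subtype, ∀ y ∈ (Cfsg.pResidual p ↥(Cfsg.generalizedFittingSubgroup ↥A)).map ((Cfsg.generalizedFittingSubgroup ↥A).subtype) , x * (A.subtype y) = (A.subtype y) * x) := by
  classical
  set Fs := Cfsg.generalizedFittingSubgroup ↥A with hFs
  have hSA : S ≤ A := hSF.trans (map_subtype_le _)
  set S' : Subgroup A := S.subgroupOf A with hS'
  have hS'F : S' ≤ Fs := fun s hs => by
    obtain ⟨t, ht, e⟩ := hSF hs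
    rwa [← Subtype.ext (a1 := t) (a2 := s) e]
  have hset : Setting S' := by
    refine ⟨hS'F, ?_, fun v hv => ?_⟩
    · have h2 : S'.subgroupOf Fs = (S.subgroupOf (Fs.map A.subtype)).comap (A.subtype.subgroupMap Fs) := by
        ext z; exact Iff.rfl
      exact Subgroup.IsSubnormal.trans hS'F (h2 ▸ hSsn.comap _) (Subgroup.Normal.isSubnormal inferInstance)
    · refine hSC ⟨⟨v, hv.1, rfl⟩, ?_⟩
      refine mem_centralizer_iff.2 fun s hs => ?_
      exact congrArg Subtype.val (mem_centralizer_iff.1 hv.2 ⟨s, hSA hs⟩ hs)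
  have hnorm : ∀ q : ℕ, ∀ s ∈ S', s ∈ normalizer ((((Cfsg.pCore q ↥B).map B.subtype).subgroupOf A : Subgroup A) : Set A) := by
    intro q s hs
    refine le_normalizer_comap (f := A.subtype) ?_
    show (s : G) ∈ normalizer (((Cfsg.pCore q ↥B).map B.subtype : Subgroup G) : Set G)
    refine le_normalizer_map B.subtype ⟨⟨s, hSB hs⟩, ?_, rfl⟩
    rw [normalizer_eq_top_iff.2 inferInstance]
    trivial
  have hpg : ∀ q : ℕ, q.Prime → IsPGroup q (((Cfsg.pCore q ↥B).map B.subtype).subgroupOf A) := fun q hq =>
    ((Core.isPGroup_pCore q B).map _).comap_of_injective _ A.subtype_injective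
  refine ⟨fun q hq hnd => ?_, fun p hp hpd => ?_⟩
  · haveI := Fact.mk hq
    have h := (hset.main _ (hpg q hq) (hnorm q)).2 hnd
    rwa [subgroupOf_eq_bot, disjoint_iff] at h
  · haveI := Fact.mk hp
    set X := (Cfsg.pCore p ↥B).map B.subtype with hX
    have hXp : IsPGroup p X := (Core.isPGroup_pCore p B).map _
    have hQ := (hset.main _ (hpg p hp) (hnorm p)).1
    -- reduce to `X ≤ A`
    suffices hgoal : ∀ y : Fs, (orderOf y).Coprime p → ∀ x ∈ X, x * ((y : A) : G) = ((y : A) : G) * x by
      intro x hx y hy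
      obtain ⟨y, hy, rfl⟩ := hy
      have hle : Cfsg.pResidual p Fs ≤ (centralizer ({x} : Set G)).comap (A.subtype.comp Fs.subtype) :=
        (closure_le _).2 fun y hy => mem_centralizer_singleton_iff.2 (hgoal y hy x hx).symm
      exact (mem_centralizer_singleton_iff.1 (hle hy)).symm
    suffices hXA : (∃ y : Fs, y ≠ 1 ∧ (orderOf y).Coprime p) → X ≤ A by
      intro y hy x hx
      by_cases hy1 : y = 1
      · subst hy1; simp
      have hxA := hXA ⟨y, hy1, hy⟩ hx
      exact congrArg Subtype.val (hQ y y.2 (by rwa [Subgroup.orderOf_coe]) ⟨x, hxA⟩ hx)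
    rintro ⟨y, hy1, hyo⟩
    -- `Z(O_p)` is nontrivial
    have hPne : Cfsg.pCore p ↥A ≠ ⊥ := by
      intro hbot
      haveI := Core.isNilpotent_fittingSubgroup ↥A
      obtain ⟨w, hw⟩ := exists_prime_orderOf_dvd_card' p hpd
      have := mem_pCore_of_pow (p := p) (k := 1) w.2 (by
        rw [pow_one, ← SubmonoidClass.coe_pow, ← hw, pow_orderOf_eq_one]; rfl)
      rw [hbot, mem_bot] at this
      rw [show w = 1 from Subtype.ext this, orderOf_one] at hw
      exact hp.ne_one hw.symm
    have hZ : ∀ r : ℕ, r.Prime → Cfsg.pCore r ↥A ≠ ⊥ →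
        (center (Cfsg.pCore r ↥A)).map (Cfsg.pCore r ↥A).subtype ≠ ⊥ := by
      intro r hr hne h
      haveI := Fact.mk hr
      rw [map_inj_eq_bot_iff (Subgroup.subtype_injective _)] at h
      haveI : Nontrivial (Cfsg.pCore r ↥A) := (nontrivial_iff_ne_bot _).2 hne
      haveI := (Core.isPGroup_pCore r ↥A).center_nontrivial
      exact (nontrivial_iff_ne_bot _).1 this h
    -- the action of the `p'`-elements of `S` on `X`
    have hcent : ∀ t : A, t ∈ S' → (orderOf t).Coprime p → ∀ x ∈ X, x * (t : G) = (t : G) * x := by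
      intro t ht hto
      set P0 := (S' ⊓ Cfsg.pCore p ↥A).map A.subtype with hP0
      haveI : Group.IsSolvable (zpowers (t : G)) := inferInstance
      have hcoP : ∀ u ∈ S' ⊓ Cfsg.pCore p ↥A, u * t = t * u := by
        intro u hu
        refine (hset.main (S' ⊓ Cfsg.pCore p ↥A) ((Core.isPGroup_pCore p _).to_le inf_le_right) ?_).1 t (hS'F ht) hto u hu
        intro s hs
        refine mem_normalizer_iff.2 fun z => ⟨fun hz => ⟨S'.mul_mem (S'.mul_mem hs hz.1) (S'.inv_mem hs),
          (inferInstance : (Cfsg.pCore p ↥A).Normal).conj_mem z hz.2 s⟩, fun hz => ⟨?_, ?_⟩⟩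
        · have := S'.mul_mem (S'.mul_mem (S'.inv_mem hs) hz.1) hs
          simpa [mul_assoc] using this
        · have := (inferInstance : (Cfsg.pCore p ↥A).Normal).conj_mem _ hz.2 s⁻¹
          simpa [mul_assoc] using this
      have hSnX : S ≤ normalizer (X : Set G) := by
        intro s hs
        refine le_normalizer_map B.subtype ⟨⟨s, hSB hs⟩, ?_, rfl⟩
        rw [normalizer_eq_top_iff.2 inferInstance]; trivial
      have h := Coprime.commutator_eq_bot_of_PxQ (P := P0) (Q := zpowers (t : G))
        (((Core.isPGroup_pCore p _).to_le inf_le_right).map _)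
        (by rw [Nat.card_zpowers, Subgroup.orderOf_coe]; exact hto)
        (by
          rw [commutator_eq_bot_iff_le_centralizer, zpowers_eq_closure, centralizer_closure]
          rintro _ ⟨u, hu, rfl⟩
          exact mem_centralizer_singleton_iff.2 (congrArg Subtype.val (hcoP u hu)))
        _ X rfl hXp (((map_mono inf_le_left).trans (map_subgroupOf_of_le hSA).le).trans hSnX) (zpowers_le.2 (hSnX ht)) ?_
      · intro x hx
        exact (mem_centralizer_iff.1 (commutator_eq_bot_iff_le_centralizer.1 h hx) (t : G) (mem_zpowers _)).symm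
      · rw [commutator_eq_bot_iff_le_centralizer, zpowers_eq_closure, centralizer_closure]
        rintro x ⟨hxX, hxc⟩
        have hxA : x ∈ A := by
          refine centralizer_le_of_coatom hA ((center (Cfsg.pCore p ↥A)).map (Cfsg.pCore p ↥A).subtype)
            (hZ p hp hPne) (centralizer_le ?_ hxc)
          exact SetLike.coe_subset_coe.2 (map_mono (le_inf (hset.center_le p) (map_subtype_le _)))
        refine mem_centralizer_singleton_iff.2 ?_
        exact congrArg Subtype.val (hQ t (hS'F ht) hto ⟨x, hxA⟩ hxX)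
    -- choose a normal subgroup inside `S` generated by `p'`-elements
    by_cases hE : Cfsg.layer ↥A = ⊥
    · obtain ⟨r, hr, hrp, hne⟩ : ∃ r : ℕ, r.Prime ∧ r ≠ p ∧ Cfsg.pCore r ↥A ≠ ⊥ := by
        by_contra hno
        push Not at hno
        have hle : Fs ≤ Cfsg.pCore p ↥A := by
          rw [hFs, Cfsg.generalizedFittingSubgroup, hE, bot_sup_eq, Core.fittingSubgroup_eq_iSup]
          refine iSup_le fun r => ?_
          by_cases hr : (r : ℕ) = p
          · rw [hr]
          · rw [hno r r.2 hr]; exact bot_le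
        obtain ⟨k, hk⟩ := Core.isPGroup_pCore p ↥A ⟨y, hle y.2⟩
        refine hy1 (orderOf_eq_one_iff.1 (Nat.eq_one_of_dvd_coprimes (hyo.pow_right k) dvd_rfl ?_))
        rw [← Subgroup.orderOf_coe]
        exact orderOf_dvd_of_pow_eq_one (congrArg Subtype.val hk)
      haveI := Fact.mk hr
      intro x hx
      refine centralizer_le_of_coatom hA ((center (Cfsg.pCore r ↥A)).map (Cfsg.pCore r ↥A).subtype) (hZ r hr hne) ?_
      refine mem_centralizer_iff.2 ?_
      rintro _ ⟨z, hz, rfl⟩
      refine (hcent z (hset.center_le r hz) ?_ x hx).symm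
      obtain ⟨k, hk⟩ := Core.isPGroup_pCore r ↥A ⟨z, map_subtype_le _ hz⟩
      exact (((Nat.coprime_primes hr hp).2 hrp).pow_left k).coprime_dvd_left (orderOf_dvd_of_pow_eq_one (congrArg Subtype.val hk))
    · intro x hx
      refine centralizer_le_of_coatom hA (Cfsg.layer ↥A) hE ?_
      refine mem_centralizer_iff.2 ?_
      rintro _ ⟨e, he, rfl⟩
      have hres : Cfsg.pResidual p (Cfsg.layer ↥A) = ⊤ := by
        have hperf : commutator (Cfsg.layer ↥A) = ⊤ := by
          refine map_injective (Cfsg.layer ↥A).subtype_injective ?_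
          rw [_root_.commutator_def, map_commutator, ← MonoidHom.range_eq_map, range_subtype]
          exact layer_commutator_self
        by_contra hne'
        haveI : Nontrivial (↥(Cfsg.layer ↥A) ⧸ Cfsg.pResidual p (Cfsg.layer ↥A)) :=
          QuotientGroup.nontrivial_iff.2 hne'
        haveI := (Core.isPGroup_quotient_pResidual p (Cfsg.layer ↥A)).isNilpotent
        have h1 : commutator (↥(Cfsg.layer ↥A) ⧸ Cfsg.pResidual p (Cfsg.layer ↥A)) = ⊤ := by
          rw [_root_.commutator_def, ← map_top_of_surjective _ (QuotientGroup.mk'_surjective _), ← map_commutator, ← _root_.commutator_def, hperf]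
        exact (Group.IsSolvable.commutator_lt_top_of_nontrivial _).ne h1
      have hle : Cfsg.pResidual p (Cfsg.layer ↥A) ≤
          (centralizer ({x} : Set G)).comap (A.subtype.comp (Cfsg.layer ↥A).subtype) :=
        (closure_le _).2 fun e he => mem_centralizer_singleton_iff.2
          (hcent e (hset.layer_le e.2) (by rwa [Subgroup.orderOf_coe]) x hx).symm
      rw [hres] at hle
      exact mem_centralizer_singleton_iff.1 (hle (mem_top ⟨e, he⟩))

end Cfsg.Agent.S1247
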