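import Cfsg.Statements.S1248
import Cfsg.Agent.KnownA.UnitaryCtx
import Cfsg.Agent.Forms.UnitaryOrder
import Mathlib.FieldTheory.Finite.Basic
import Mathlib.GroupTheory.SpecificGroups.KleinFour

set_option autoImplicit false
open Cfsg

namespace Cfsg.Agent.S1248

open scoped commutatorElement
open Cfsg.Agent.KnownA
open Cfsg.Agent.Forms (frobQ frobQ_apply)

/-- The facts for a finite group with coordinates in a field of 16 elements. -/
theorem facts {F : Type*} [Field F] [Fintype F] (hF : Fintype.card F = 16) {X : Type*} [Group X] [Finite X]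
    (α γ : X → F) (hinj : ∀ x y, α x = α y → γ x = γ y → x = y)
    (hα : ∀ x y, α (x * y) = α x + α y) (hγ : ∀ x y, γ (x * y) = γ x + γ y + (α x) ^ 4 * α y)
    (hmem : ∀ x, γ x + γ x ^ 4 = α x ^ 5) (hsur : ∀ a c, c + c ^ 4 = a ^ 5 → ∃ x, α x = a ∧ γ x = c) :
    Nat.card X = 64 ∧ IsKleinFour (Subgroup.center X) ∧
      Subgroup.center X = Subgroup.closure {x : X | orderOf x = 2} ∧
      Subgroup.center X = commutator X ∧ Nat.card (X ⧸ Subgroup.center X) = 16 ∧
      ∀ x : X ⧸ Subgroup.center X, x ^ 2 = 1 := by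
  classical
  have h2 : (2 : F) = 0 := by
    have h : ((Fintype.card F : ℕ) : F) = 0 := Nat.cast_card_eq_zero F
    rw [hF] at h
    have h' : (2 : F) ^ 4 = 0 := by
      rw [← h]; norm_num
    exact pow_eq_zero_iff (by norm_num) |>.1 h'
  have hadd : ∀ a : F, a + a = 0 := fun a => by linear_combination a * h2
  have h16 : ∀ a : F, a ^ 16 = a := fun a => hF ▸ FiniteField.pow_card a
  have hf4 : ∀ a b : F, (a + b) ^ 4 = a ^ 4 + b ^ 4 := fun a b => by
    linear_combination (2 * a ^ 3 * b + 3 * a ^ 2 * b ^ 2 + 2 * a * b ^ 3) * h2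
  let T : F →+ F := AddMonoidHom.mk' (fun c => c + c ^ 4) fun a b => by rw [hf4]; ring
  let Fix : Set F := {c | c ^ 4 = c}
  have hFix4 : Nat.card Fix ≤ 4 := by
    have hsub : Fix.toFinset.val ≤ (Polynomial.X ^ 4 - Polynomial.X : Polynomial F).roots := by
      refine Finset.val_le_iff_val_subset.2 fun c hc => ?_
      rw [Finset.mem_val, Set.mem_toFinset] at hc
      rw [Polynomial.mem_roots (FiniteField.X_pow_card_sub_X_ne_zero F (by norm_num))]
      simp [sub_eq_zero.2 (hc : c ^ 4 = c)]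
    have h1 := Multiset.card_le_card hsub
    have h3 := Polynomial.card_roots' (Polynomial.X ^ 4 - Polynomial.X : Polynomial F)
    rw [FiniteField.X_pow_card_sub_X_natDegree_eq F (by norm_num : 1 < 4)] at h3
    rw [Nat.card_eq_card_toFinset]
    exact h1.trans h3
  have hker : (T.ker : Set F) = Fix := by
    ext c
    show c + c ^ 4 = 0 ↔ c ^ 4 = c
    constructor <;> intro h
    · linear_combination h - hadd c
    · linear_combination h + hadd c
  have hrange : (T.range : Set F) ⊆ Fix := by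
    rintro _ ⟨c, rfl⟩
    show (c + c ^ 4) ^ 4 = c + c ^ 4
    rw [hf4, ← pow_mul, h16, add_comm]
  have hprod : Nat.card T.ker * Nat.card T.range = 16 := by
    rw [← AddSubgroup.index_ker, AddSubgroup.card_mul_index, Nat.card_eq_fintype_card, hF]
  have hk4 : Nat.card T.ker ≤ 4 := by
    have : Nat.card T.ker = Nat.card Fix := Nat.card_congr (Equiv.setCongr hker)
    omega
  have hr4 : Nat.card T.range ≤ 4 := (Nat.card_mono (Set.toFinite Fix) hrange).trans hFix4
  have hk : Nat.card T.ker = 4 ∧ Nat.card T.range = 4 := by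
    constructor <;> nlinarith
  have hFixc : Nat.card Fix = 4 := by
    have : Nat.card T.ker = Nat.card Fix := Nat.card_congr (Equiv.setCongr hker)
    omega
  have hTsur : ∀ z ∈ Fix, ∃ c, c + c ^ 4 = z := by
    intro z hz
    have : (T.range : Set F) = Fix := Set.eq_of_subset_of_ncard_le hrange (by
      rw [← Nat.card_coe_set_eq, ← Nat.card_coe_set_eq]; exact hFixc.trans_le hk.2.ge) (Set.toFinite _)
    rw [← this] at hz
    exact hz
  have hN : ∀ a : F, a ^ 5 ∈ Fix := fun a => by
    show (a ^ 5) ^ 4 = a ^ 5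
    linear_combination a ^ 4 * h16 a
  have hone : α 1 = 0 ∧ γ 1 = 0 := by
    have h1 := hα 1 1
    have h1' := hγ 1 1
    rw [mul_one] at h1 h1'
    have h0 : α 1 = 0 := add_eq_left.1 h1.symm
    rw [h0] at h1'
    exact ⟨h0, by linear_combination -h1'⟩
  have hsq : ∀ x, α (x * x) = 0 ∧ γ (x * x) = α x ^ 5 := fun x =>
    ⟨by rw [hα, hadd], by rw [hγ]; linear_combination hadd (γ x)⟩
  have hb : ∀ b : F, ∃ y, α y = b := fun b => by
    obtain ⟨c, hc⟩ := hTsur _ (hN b)
    obtain ⟨y, hy, -⟩ := hsur b c hc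
    exact ⟨y, hy⟩
  have hcen : ∀ x, x ∈ Subgroup.center X ↔ α x = 0 := by
    intro x
    rw [Subgroup.mem_center_iff]
    constructor
    · intro h
      by_contra ha
      have key : ∀ b : F, α x ^ 4 * b = b ^ 4 * α x := fun b => by
        obtain ⟨y, rfl⟩ := hb b
        have h' := congrArg γ (h y)
        rw [hγ, hγ] at h'
        linear_combination -h'
      have hall : ∀ b : F, b ≠ 0 → b ^ 3 = α x ^ 3 := fun b hb0 => by
        have h' := key b
        refine mul_left_cancel₀ (mul_ne_zero ha hb0) ?_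
        linear_combination -h'
      have hsub : ((Finset.univ : Finset F).erase 0).val ≤
          (Polynomial.X ^ 3 - Polynomial.C (α x ^ 3)).roots := by
        refine Finset.val_le_iff_val_subset.2 fun b hbm => ?_
        rw [Finset.mem_val, Finset.mem_erase] at hbm
        rw [Polynomial.mem_roots (Polynomial.X_pow_sub_C_ne_zero (by norm_num) _)]
        simp [sub_eq_zero.2 (hall b hbm.1)]
      have h1 := (Multiset.card_le_card hsub).trans (Polynomial.card_roots' _)
      rw [Polynomial.natDegree_X_pow_sub_C] at h1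
      have h3 : ((Finset.univ : Finset F).erase 0).card = 15 := by
        rw [Finset.card_erase_of_mem (Finset.mem_univ _), Finset.card_univ, hF]
      rw [Finset.card_val, h3] at h1
      omega
    · intro h y
      refine hinj _ _ ?_ ?_
      · rw [hα, hα, add_comm]
      · rw [hγ, hγ, h]; ring
  have hcard : Nat.card X = 64 := by
    choose s hs using fun a : F => hTsur _ (hN a)
    have : Nat.card X = Nat.card (F × Fix) := Nat.card_congr (Equiv.ofBijective
      (fun x => (α x, (⟨γ x + s (α x), by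
        show (γ x + s (α x)) ^ 4 = γ x + s (α x)
        rw [hf4]
        linear_combination hmem x + hs (α x) - hadd (γ x + s (α x)) + hadd (α x ^ 5)⟩ : Fix)))
      ⟨fun x y h => by
        have h' := Prod.mk.inj h
        have h'' : γ x + s (α x) = γ y + s (α y) := congrArg Subtype.val h'.2
        rw [h'.1] at h''
        exact hinj x y h'.1 (add_right_cancel h''),
       fun ⟨a, z⟩ => by
        obtain ⟨x, hx, hx'⟩ := hsur a (z.1 + s a) (by
          rw [hf4, (show z.1 ^ 4 = z.1 from z.2)]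
          linear_combination hadd z.1 + hs a)
        refine ⟨x, ?_⟩
        simp only [hx, hx']
        refine Prod.ext rfl (Subtype.ext ?_)
        show z.1 + s a + s a = z.1
        rw [add_assoc, hadd, add_zero]⟩)
    rw [this, Nat.card_prod, hFixc, Nat.card_eq_fintype_card, hF]
  have hcenc : Nat.card (Subgroup.center X) = 4 := by
    rw [← hFixc]
    refine Nat.card_congr (Equiv.ofBijective (fun x => (⟨γ x.1, ?_⟩ : Fix)) ⟨?_, ?_⟩)
    · have h := hmem x.1
      rw [(hcen x.1).1 x.2, zero_pow (by norm_num)] at h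
      show γ x.1 ^ 4 = γ x.1
      linear_combination h - hadd (γ x.1)
    · intro x y h
      exact Subtype.ext (hinj _ _ (((hcen x.1).1 x.2).trans ((hcen y.1).1 y.2).symm) (congrArg Subtype.val h))
    · intro z
      obtain ⟨x, hx, hx'⟩ := hsur 0 z.1 (by rw [zero_pow (by norm_num), (show z.1 ^ 4 = z.1 from z.2), hadd])
      exact ⟨⟨x, (hcen x).2 hx⟩, Subtype.ext hx'⟩
  have hsq1 : ∀ x, x ^ 2 = 1 ↔ α x = 0 := by
    intro x
    rw [pow_two]
    constructor
    · intro h
      have h' := (hsq x).2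
      rw [h, hone.2] at h'
      exact pow_eq_zero_iff (by norm_num) |>.1 h'.symm
    · intro h
      exact hinj _ _ ((hsq x).1.trans hone.1.symm) (by rw [(hsq x).2, h, zero_pow (by norm_num), hone.2])
  have hcomm : ∀ x y : X, ∃ z ∈ Subgroup.center X, x * y = z * (y * x) ∧
      γ z = α x ^ 4 * α y + α y ^ 4 * α x := by
    intro x y
    obtain ⟨z, hz, hz'⟩ := hsur 0 (α x ^ 4 * α y + α y ^ 4 * α x) (by
      rw [hf4, mul_pow, mul_pow, ← pow_mul, ← pow_mul, h16, h16, zero_pow (by norm_num)]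
      linear_combination hadd (α x ^ 4 * α y) + hadd (α y ^ 4 * α x))
    refine ⟨z, (hcen z).2 hz, hinj _ _ ?_ ?_, hz'⟩
    · rw [hα, hα, hα, hz]; ring
    · rw [hγ, hγ, hγ, hz, hz']
      linear_combination -(hadd (α y ^ 4 * α x))
  refine ⟨hcard, ⟨hcenc, ?_⟩, ?_, ?_, ?_, ?_⟩
  · haveI : Nontrivial (Subgroup.center X) := Finite.one_lt_card_iff_nontrivial.1 (by omega)
    refine (Monoid.exponent_eq_prime_iff Nat.prime_two).2 fun g hg => ?_
    refine orderOf_eq_prime ?_ hg
    exact Subtype.ext (by rw [SubmonoidClass.coe_pow]; exact (hsq1 g.1).2 ((hcen g.1).1 g.2))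
  · refine le_antisymm (fun x hx => ?_) ((Subgroup.closure_le _).2 fun x hx => ?_)
    · by_cases h : x = 1
      · subst h; exact one_mem _
      · exact Subgroup.subset_closure (orderOf_eq_prime ((hsq1 x).2 ((hcen x).1 hx)) h)
    · refine (hcen x).2 ((hsq1 x).1 ?_)
      rw [← (hx : orderOf x = 2)]
      exact pow_orderOf_eq_one x
  · refine le_antisymm (fun z hz => ?_) ?_
    · have hfix : γ z ∈ Fix := by
        have h := hmem z
        rw [(hcen z).1 hz, zero_pow (by norm_num)] at h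
        show γ z ^ 4 = γ z
        linear_combination h - hadd (γ z)
      obtain ⟨b, hb'⟩ := hTsur _ hfix
      obtain ⟨x, hx⟩ := hb 1
      obtain ⟨y, hy⟩ := hb b
      obtain ⟨w, hw, hxy, hwz⟩ := hcomm x y
      have : z = w := hinj _ _ (((hcen z).1 hz).trans ((hcen w).1 hw).symm) (by
        rw [hwz, hx, hy, ← hb']; ring)
      have hw' : w = ⁅x, y⁆ := by rw [_root_.commutatorElement_def, hxy]; group
      rw [this, hw', commutator_def]
      exact Subgroup.commutator_mem_commutator (Subgroup.mem_top _) (Subgroup.mem_top _)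
    · rw [commutator_def, Subgroup.commutator_le]
      intro x _ y _
      obtain ⟨w, hw, hxy, -⟩ := hcomm x y
      have hw' : ⁅x, y⁆ = w := by rw [_root_.commutatorElement_def, hxy]; group
      rw [hw']; exact hw
  · have h := Subgroup.card_eq_card_quotient_mul_card_subgroup (Subgroup.center X)
    rw [hcard, hcenc] at h
    omega
  · intro x
    obtain ⟨x, rfl⟩ := QuotientGroup.mk_surjective x
    rw [← QuotientGroup.mk_pow, QuotientGroup.eq_one_iff, pow_two]
    exact (hcen _).2 (hsq x).1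


/-- Let F be a field with 16 elements and S a Sylow 2-subgroup of PSU(3) over F (the unitary group U₃(4)). Then |S| = 64; the centre Z(S) is a Klein four-group and coincides with the subgroup generated by the involutions of S and with the derived subgroup; and every element of S ⧸ Z(S) squares to the identity, S ⧸ Z(S) having order 16. -/
theorem result {F : Type*} [Field F] [Fintype F] (hF : Fintype.card F = 16) (S : Sylow 2 (Cfsg.PSU 3 F 4)) : Nat.card S = 64 ∧ IsKleinFour (Subgroup.center (S : Subgroup (Cfsg.PSU 3 F 4))) ∧ Subgroup.center (S : Subgroup (Cfsg.PSU 3 F 4)) = Subgroup.closure {x : (S : Subgroup (Cfsg.PSU 3 F 4)) | orderOf x = 2} ∧ Subgroup.center (S : Subgroup (Cfsg.PSU 3 F 4)) = commutator (S : Subgroup (Cfsg.PSU 3 F 4)) ∧ Nat.card ((S : Subgroup (Cfsg.PSU 3 F 4)) ⧸ Subgroup.center (S : Subgroup (Cfsg.PSU 3 F 4))) = 16 ∧ ∀ x : (S : Subgroup (Cfsg.PSU 3 F 4)) ⧸ Subgroup.center (S : Subgroup (Cfsg.PSU 3 F 4)), x ^ 2 = 1 := by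
  classical
  haveI : Fact (Nat.Prime 2) := ⟨Nat.prime_two⟩
  have hF4 : Fintype.card F = 4 ^ 2 := by rw [hF]; norm_num
  have h2 : (2 : F) = 0 := by
    have h : ((Fintype.card F : ℕ) : F) = 0 := Nat.cast_card_eq_zero F
    rw [hF] at h
    have h' : (2 : F) ^ 4 = 0 := by rw [← h]; norm_num
    exact pow_eq_zero_iff (by norm_num) |>.1 h'
  have hub : ∀ u v : Fin 3 → F, ub hF4 u v = v 0 * u 0 ^ 4 + v 1 * u 1 ^ 4 + v 2 * u 2 ^ 4 := fun u v => by
    rw [ub, Forms.hermB_apply, Cfsg.hermForm, Fin.sum_univ_three]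
  set e : Fin 3 → F := ![1, 1, 0] with he
  set d : Fin 3 → F := ![0, 0, 1] with hd
  have hee : ub hF4 e e = 0 := by rw [hub]; simp [he]; linear_combination h2
  have hed : ∀ a : F, ub hF4 e (a • d) = 0 := fun a => by rw [hub]; simp [he, hd]
  have hdd : ∀ a b : F, ub hF4 (a • d) (b • d) = a ^ 4 * b := fun a b => by
    rw [hub]; simp [hd]; ring
  have hiff : ∀ a c : F, c + c ^ 4 = a ^ 5 ↔ c + frobQ hF4 c = -ub hF4 (a • d) (a • d) := fun a c => by
    rw [hdd, frobQ_apply]
    constructor <;> intro h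
    · linear_combination h + a ^ 5 * h2
    · linear_combination h - a ^ 5 * h2
  let x0 : Fin 3 → F := ![1, 0, 0]
  let α : Cfsg.SU 3 F 4 → F := fun r => act r x0 2
  let γ : Cfsg.SU 3 F 4 → F := fun r => act r x0 1
  have hval : ∀ a c : F, c + c ^ 4 = a ^ 5 →
      α (root hF4 e (a • d) c) = a ∧ γ (root hF4 e (a • d) c) = c := by
    intro a c h
    have h' : ub hF4 e x0 = 1 := by rw [hub]; simp [he, x0]
    have h'' : ub hF4 (a • d) x0 = 0 := by rw [hub]; simp [hd, x0]
    constructor <;>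
      · simp only [α, γ, act_root hF4 hee (hed a) ((hiff a c).1 h), h', h'']
        simp [he, hd, x0]
  have hmul : ∀ a c b c' : F, c + c ^ 4 = a ^ 5 → c' + c' ^ 4 = b ^ 5 →
      root hF4 e (a • d) c * root hF4 e (b • d) c' = root hF4 e ((a + b) • d) (c + c' + a ^ 4 * b) := by
    intro a c b c' h h'
    rw [root_mul hF4 hee (hed a) (hed b) ((hiff a c).1 h) ((hiff b c').1 h'), add_smul, hdd]
    congr 1
    linear_combination -(a ^ 4 * b) * h2
  have h16 : ∀ a : F, a ^ 16 = a := fun a => hF ▸ FiniteField.pow_card a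
  have hf4 : ∀ a b : F, (a + b) ^ 4 = a ^ 4 + b ^ 4 := fun a b => by
    linear_combination (2 * a ^ 3 * b + 3 * a ^ 2 * b ^ 2 + 2 * a * b ^ 3) * h2
  have hclosed : ∀ a c b c' : F, c + c ^ 4 = a ^ 5 → c' + c' ^ 4 = b ^ 5 →
      (c + c' + a ^ 4 * b) + (c + c' + a ^ 4 * b) ^ 4 = (a + b) ^ 5 := by
    intro a c b c' h h'
    rw [hf4, hf4, mul_pow, ← pow_mul, h16, show (a + b) ^ 5 = (a + b) ^ 4 * (a + b) by ring, hf4]
    linear_combination h + h'
  have hone : root hF4 e ((0 : F) • d) 0 = 1 := by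
    have h0 : (0 : F) + 0 ^ 4 = 0 ^ 5 := by simp
    refine su_ext fun x => ?_
    rw [act_root hF4 hee (hed 0) ((hiff 0 0).1 h0), zero_smul, ub_zero_left hF4]
    simp [act_one]
  let R : Subgroup (Cfsg.SU 3 F 4) :=
    { carrier := {r | ∃ a c, c + c ^ 4 = a ^ 5 ∧ r = root hF4 e (a • d) c}
      mul_mem' := by
        rintro _ _ ⟨a, c, h, rfl⟩ ⟨b, c', h', rfl⟩
        exact ⟨_, _, hclosed a c b c' h h', hmul a c b c' h h'⟩
      one_mem' := ⟨0, 0, by simp, hone.symm⟩
      inv_mem' := by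
        rintro _ ⟨a, c, h, rfl⟩
        have h' : (c + a ^ 5) + (c + a ^ 5) ^ 4 = a ^ 5 := by
          rw [hf4, ← pow_mul]
          linear_combination h + a ^ 4 * h16 a + a ^ 5 * h2
        refine ⟨a, c + a ^ 5, h', inv_eq_of_mul_eq_one_right ?_⟩
        rw [hmul a c a _ h h', ← hone]
        congr 1
        · rw [show a + a = 0 by linear_combination a * h2]
        · linear_combination (c + a ^ 5) * h2 }
  have hR : ∀ r : R, ∃ a c, c + c ^ 4 = a ^ 5 ∧ (r : Cfsg.SU 3 F 4) = root hF4 e (a • d) c := fun r => r.2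
  have hRlaw : (∀ x y : R, α x = α y → γ x = γ y → x = y) ∧ (∀ x y : R, α (x * y : R) = α x + α y) ∧
      (∀ x y : R, γ (x * y : R) = γ x + γ y + (α x) ^ 4 * α y) ∧ (∀ x : R, γ x + γ x ^ 4 = α x ^ 5) ∧
      (∀ a c, c + c ^ 4 = a ^ 5 → ∃ x : R, α x = a ∧ γ x = c) := by
    refine ⟨?_, ?_, ?_, ?_, fun a c h => ⟨⟨_, a, c, h, rfl⟩, hval a c h⟩⟩
    · intro x y h1 h3
      obtain ⟨a, c, h, ex⟩ := hR x
      obtain ⟨b, c', h', ey⟩ := hR y
      refine Subtype.ext ?_
      rw [ex, ey] at h1 h3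
      rw [(hval a c h).1, (hval b c' h').1] at h1
      rw [(hval a c h).2, (hval b c' h').2] at h3
      rw [ex, ey, h1, h3]
    · intro x y
      obtain ⟨a, c, h, ex⟩ := hR x
      obtain ⟨b, c', h', ey⟩ := hR y
      rw [Subgroup.coe_mul, ex, ey, hmul a c b c' h h', (hval _ _ (hclosed a c b c' h h')).1, (hval a c h).1,
        (hval b c' h').1]
    · intro x y
      obtain ⟨a, c, h, ex⟩ := hR x
      obtain ⟨b, c', h', ey⟩ := hR y
      rw [Subgroup.coe_mul, ex, ey, hmul a c b c' h h', (hval _ _ (hclosed a c b c' h h')).2, (hval a c h).2,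
        (hval b c' h').2, (hval a c h).1, (hval b c' h').1]
    · intro x
      obtain ⟨a, c, h, ex⟩ := hR x
      rw [ex, (hval a c h).1, (hval a c h).2, h]
  obtain ⟨l1, l2, l3, l4, l5⟩ := hRlaw
  have hRc := (facts hF (fun x : R => α x) (fun x : R => γ x) l1 l2 l3 l4 l5).1
  -- pass to the quotient
  have hZ : Subgroup.center (Cfsg.SU 3 F 4) = ⊥ := Subgroup.eq_bot_of_card_eq _
    (by rw [Forms.card_center_SU hF4 (by norm_num)]; rfl)
  let π : Cfsg.SU 3 F 4 →* Cfsg.PSU 3 F 4 := QuotientGroup.mk' _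
  have hπ : Function.Injective π := by
    rw [← MonoidHom.ker_eq_bot_iff, QuotientGroup.ker_mk', hZ]
  have hmapc : Nat.card (R.map π) = 64 := by
    rw [← Nat.card_congr (R.equivMapOfInjective π hπ).toEquiv, hRc]
  have hG := Forms.card_PSU hF4 (n := 3) (by norm_num)
  simp only [Finset.prod_range_succ, Finset.prod_range_zero] at hG
  norm_num [Nat.even_iff] at hG
  rw [← Nat.card_eq_fintype_card] at hG
  have hindex : ¬ 2 ∣ (R.map π).index := by
    have h := (R.map π).card_mul_index
    rw [hmapc] at h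
    change 64 * _ = Nat.card (Cfsg.SU 3 F 4 ⧸ Subgroup.center (Cfsg.SU 3 F 4)) at h
    omega
  let P : Sylow 2 (Cfsg.PSU 3 F 4) := (IsPGroup.of_card (n := 6) hmapc).toSylow hindex
  have eP : R ≃* (S : Subgroup (Cfsg.PSU 3 F 4)) :=
    (R.equivMapOfInjective π hπ).trans ((MulEquiv.subgroupCongr (IsPGroup.toSylow_coe _ _).symm).trans (Sylow.equiv P S))
  refine facts hF (fun s => α (eP.symm s : R)) (fun s => γ (eP.symm s : R)) ?_ ?_ ?_ ?_ ?_
  · exact fun x y h h' => eP.symm.injective (l1 _ _ h h')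
  · intro x y; simp only [map_mul]; exact l2 _ _
  · intro x y; simp only [map_mul]; exact l3 _ _
  · exact fun x => l4 _
  · intro a c h
    obtain ⟨x, hx⟩ := l5 a c h
    exact ⟨eP x, by simpa using hx⟩

end Cfsg.Agent.S1248
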