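import Cfsg.Statements.S1254
import Cfsg.Agent.TwoGroups.DihedralFusion

set_option autoImplicit false
open Cfsg

namespace Cfsg.Agent.S1254

/-- Let X be a finite group whose Sylow 2-subgroup S is dihedral (of order at least 4). Then X has a normal 2-complement if and only if, for every Klein four-subgroup U ≤ S, the normalizer N_X(U) is generated by C_X(U) and N_S(U). -/
theorem result {X : Type*} [Group X] [Finite X] (S : Sylow 2 X) (m : ℕ) (hm : 2 ≤ m) (eS : (S : Subgroup X) ≃* DihedralGroup m) : Cfsg.HasNormalPComplement 2 X ↔ ∀ U : Subgroup X, U ≤ S → IsKleinFour U → Subgroup.normalizer (U : Set X) = Subgroup.centralizer (U : Set X) ⊔ ((S : Subgroup X) ⊓ Subgroup.normalizer (U : Set X)) := by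
  obtain ⟨r, s, k, h, hmk⟩ := TwoGroups.exists_dihIn S m hm eS
  constructor
  · intro hc U hUS hU
    refine le_antisymm (fun g hg => ?_) (sup_le (Subgroup.centralizer_le_normalizer _) inf_le_right)
    have hne : ∀ V : Subgroup X, V ≤ S → IsKleinFour V → ¬ TwoGroups.Exotic V := by
      rintro V - hV ⟨x, hxN, hxo, hxC⟩
      exact hxC (Transfer.mem_centralizer_of_hasNormalPComplement hc (TwoGroups.isPGroup_of_four hV) hxN
        (Nat.coprime_two_right.mpr hxo))
    have hgm : U.map (MulAut.conj g).toMonoidHom = U := Transfer.mem_normalizer_iff_map_conj.mp hg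
    obtain ⟨a, ha, e⟩ := h.fusion_agree hne hUS (g := g) (hgm.le.trans hUS)
    have haN : a ∈ Subgroup.normalizer (U : Set X) := by
      rw [Transfer.mem_normalizer_iff_map_conj]
      refine Eq.trans ?_ hgm
      ext v
      simp only [Subgroup.mem_map, MulEquiv.coe_toMonoidHom, MulAut.conj_apply]
      constructor <;> rintro ⟨b, hb, rfl⟩ <;> exact ⟨b, hb, by rw [e b hb]⟩
    have hc' : g * a⁻¹ ∈ Subgroup.centralizer (U : Set X) := by
      rw [Subgroup.mem_centralizer_iff]
      intro u hu
      have hb : a⁻¹ * u * a ∈ U := (Subgroup.mem_normalizer_iff''.mp haN u).mp hu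
      have h1 := e _ hb
      rw [show a * (a⁻¹ * u * a) * a⁻¹ = u by group] at h1
      nth_rewrite 1 [h1]
      group
    have := mul_mem (Subgroup.mem_sup_left (T := (S : Subgroup X) ⊓ Subgroup.normalizer (U : Set X)) hc')
      (Subgroup.mem_sup_right (S := Subgroup.centralizer (U : Set X)) (Subgroup.mem_inf.mpr ⟨ha, haN⟩))
    rwa [inv_mul_cancel_right] at this
  · intro hyp
    refine h.hasNormalPComplement fun U hUS hU ⟨g, hgN, hgo, hgC⟩ => hgC ?_
    haveI := Transfer.centralizer_subgroupOf_normalizer_normal U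
    set N := Subgroup.normalizer (U : Set X)
    set C := (Subgroup.centralizer (U : Set X)).subgroupOf N
    have htop : C ⊔ ((S : Subgroup X) ⊓ N).subgroupOf N = ⊤ := by
      rw [← Subgroup.subgroupOf_sup (Subgroup.centralizer_le_normalizer _) inf_le_right, ← hyp U hUS hU,
        Subgroup.subgroupOf_self]
    have hq : IsPGroup 2 (↥N ⧸ C) := by
      intro q
      obtain ⟨n, rfl⟩ := QuotientGroup.mk'_surjective C q
      obtain ⟨c, hc, t, ht, rfl⟩ := Subgroup.mem_sup_of_normal_left.mp (htop ▸ Subgroup.mem_top n)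
      obtain ⟨j, hj⟩ := (S.2.to_le (inf_le_left : (S : Subgroup X) ⊓ N ≤ S)) ⟨t.1, ht⟩
      refine ⟨j, ?_⟩
      have hj' : t ^ 2 ^ j = 1 := Subtype.ext (by simpa using congrArg Subtype.val hj)
      rw [map_mul, show QuotientGroup.mk' C c = 1 from (QuotientGroup.eq_one_iff c).mpr hc, one_mul, ← map_pow, hj',
        map_one]
    refine (QuotientGroup.eq_one_iff (⟨g, hgN⟩ : ↥N)).mp (Transfer.eq_one_of_coprime_orderOf hq
      (Nat.coprime_two_right.mpr (Odd.of_dvd_nat hgo ?_)))
    exact (orderOf_map_dvd (QuotientGroup.mk' C) _).trans (by rw [Subgroup.orderOf_mk])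

end Cfsg.Agent.S1254
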