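import Cfsg.Statements.S1255
import Cfsg.Agent.TwoGroups.DihedralFusion

set_option autoImplicit false
open Cfsg

namespace Cfsg.Agent.S1255

/-- Let X be a finite group whose Sylow 2-subgroup S is dihedral of order 2m ≥ 4. Then X has no subgroup of index 2 and no isolated involution if and only if either all involutions of X are conjugate, or for every Klein four-subgroup U ≤ S the index |N_X(U) : C_X(U)| equals 3 when |S| = 4 and equals 6 when |S| > 4. -/
theorem result {X : Type*} [Group X] [Finite X] (S : Sylow 2 X) (m : ℕ) (hm : 2 ≤ m) (eS : (S : Subgroup X) ≃* DihedralGroup m) : ((∀ H : Subgroup X, H.index ≠ 2) ∧ (∀ z : X, ¬ Cfsg.IsIsolatedInvolution z)) ↔ ((∀ a b : X, orderOf a = 2 → orderOf b = 2 → IsConj a b) ∨ (∀ U : Subgroup X, U ≤ S → IsKleinFour U → (Subgroup.centralizer (U : Set X)).relIndex (Subgroup.normalizer (U : Set X)) = (if Nat.card S = 4 then 3 else 6))) := by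
  obtain ⟨r, s, k, h, hmk⟩ := TwoGroups.exists_dihIn S m hm eS
  constructor
  · rintro ⟨hidx, -⟩
    refine Or.inr fun U hUS hU => (h.relIndex_eq hUS hU).mp ?_
    obtain ⟨i, rfl⟩ := h.eq_four hU hUS
    by_contra hne
    obtain ⟨H, -, hH⟩ := h.exists_normal_index_two hne
    exact hidx H hH
  · intro hyp
    have hx : ∀ U : Subgroup X, U ≤ S → IsKleinFour U → TwoGroups.Exotic U := by
      intro U hUS hU
      rcases hyp with hone | haut
      · obtain ⟨i, rfl⟩ := h.eq_four hU hUS
        by_contra hne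
        exact h.not_isConj hne (hone _ _ h.orderOf_z (h.orderOf_refl i))
      · exact (h.relIndex_eq hUS hU).mpr (haut U hUS hU)
    refine ⟨h.index_ne_two hx, fun a ⟨ha, hiso⟩ => ?_⟩
    set z := r ^ ((2 : ℤ) ^ (k - 1))
    set t := r ^ (0 : ℤ) * s
    obtain ⟨c, hc⟩ := isConj_iff.mp ((h.isConj_all hx ha).symm)
    obtain ⟨d, hd⟩ := isConj_iff.mp ((h.isConj_all hx ha).trans (h.isConj_all hx (h.orderOf_refl 0)).symm)
    have e : (c * d) * a * (c * d)⁻¹ = c * t * c⁻¹ := by rw [show t = d * a * d⁻¹ from hd.symm]; group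
    have hcomm : Commute a ((c * d) * a * (c * d)⁻¹) := by
      rw [e, ← hc]
      show c * z * c⁻¹ * (c * t * c⁻¹) = c * t * c⁻¹ * (c * z * c⁻¹)
      calc c * z * c⁻¹ * (c * t * c⁻¹) = c * (z * t) * c⁻¹ := by group
        _ = c * (t * z) * c⁻¹ := by rw [(h.z_comm 0).eq]
        _ = _ := by group
    have h1 := hiso _ hcomm
    rw [e, ← hc] at h1
    have e' : t = z := mul_left_cancel (mul_right_cancel h1)
    refine h.refl_notMem 0 ?_
    show t ∈ _
    rw [e']
    exact Subgroup.zpow_mem_zpowers r _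

end Cfsg.Agent.S1255
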