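import Cfsg.Statements.S1256
import Cfsg.Agent.TwoGroups.DihedralFusion

set_option autoImplicit false
open Cfsg

namespace Cfsg.Agent.S1256

/-- Let X be a finite group whose Sylow 2-subgroup S is dihedral of order 2m ≥ 4. If |S| = 4, any two Klein four-subgroups of X are conjugate; if |S| > 4, there are Klein four-subgroups U₁, U₂ of X that are not conjugate, and every Klein four-subgroup of X is conjugate to U₁ or to U₂. -/
theorem result {X : Type*} [Group X] [Finite X] (S : Sylow 2 X) (m : ℕ) (hm : 2 ≤ m) (eS : (S : Subgroup X) ≃* DihedralGroup m) : (Nat.card S = 4 → ∀ U V : Subgroup X, IsKleinFour U → IsKleinFour V → (∃ x : X, U.map (MulAut.conj x).toMonoidHom = V)) ∧ (4 < Nat.card S → ∃ U₁ U₂ : Subgroup X, IsKleinFour U₁ ∧ IsKleinFour U₂ ∧ ¬ (∃ x : X, U₁.map (MulAut.conj x).toMonoidHom = U₂) ∧ ∀ V : Subgroup X, IsKleinFour V → (∃ x : X, V.map (MulAut.conj x).toMonoidHom = U₁) ∨ (∃ x : X, V.map (MulAut.conj x).toMonoidHom = U₂)) := by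
  obtain ⟨r, s, k, h, hmk⟩ := TwoGroups.exists_dihIn S m hm eS
  constructor
  · intro h4 U V hU hV
    obtain ⟨g, hg, hg4⟩ := h.exists_conj_le hU
    obtain ⟨g', hg', hg'4⟩ := h.exists_conj_le hV
    have e : U.map (MulAut.conj g).toMonoidHom = V.map (MulAut.conj g').toMonoidHom :=
      (Subgroup.eq_of_le_of_card_ge hg (by rw [h4, (TwoGroups.four_facts hg4).1])).trans
        (Subgroup.eq_of_le_of_card_ge hg' (by rw [h4, (TwoGroups.four_facts hg'4).1])).symm
    exact ⟨g'⁻¹ * g, by rw [← Transfer.map_conj_mul, e, Transfer.map_conj_mul, inv_mul_cancel, Transfer.map_conj_one]⟩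
  · intro h4
    have hk : 2 ≤ k := by
      by_contra hlt
      rw [h.card, show k = 1 by have := h.kpos; omega] at h4
      norm_num at h4
    refine ⟨h.four 0, h.four 1, h.isKleinFour_four 0, h.isKleinFour_four 1, ?_, fun V hV => ?_⟩
    · rintro ⟨x, hx⟩
      obtain ⟨a, ha, e⟩ := h.four_fusion (h.four_le 0) (h.isKleinFour_four 0) (g := x) (hx.le.trans (h.four_le 1))
      exact h.four_zero_ne_one hk ha (e.trans hx)
    · obtain ⟨g, hg, hg4⟩ := h.exists_conj_le hV
      obtain ⟨i, hi⟩ := h.eq_four hg4 hg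
      obtain ⟨a, -, ha⟩ := h.four_cases i
      rw [← hi, Transfer.map_conj_mul] at ha
      exact ha.imp (fun e => ⟨_, e⟩) (fun e => ⟨_, e⟩)

end Cfsg.Agent.S1256
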