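import Cfsg.Statements.S1258
import Mathlib.Tactic.Group
import Cfsg.Agent.Components.Basic

set_option autoImplicit false
open Cfsg
open scoped commutatorElement

namespace Cfsg.Agent.S1258

/-- If the central quotient of a finite group X is non-abelian simple, then X = X' Z(X) and the commutator subgroup X' is quasisimple. -/
theorem result {X : Type*} [Group X] [Finite X] (hs : IsSimpleGroup (X ⧸ Subgroup.center X)) (hna : ¬ IsMulCommutative (X ⧸ Subgroup.center X)) : commutator X ⊔ Subgroup.center X = ⊤ ∧ Cfsg.IsQuasisimple ↥(commutator X) := by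
  haveI := hs
  haveI hnX : (commutator X).Normal := inferInstance
  have hsup : commutator X ⊔ Subgroup.center X = ⊤ := by
    have hc : commutator (X ⧸ Subgroup.center X) = ⊤ :=
      ((inferInstance : (commutator (X ⧸ Subgroup.center X)).Normal).eq_bot_or_eq_top).resolve_left
        fun h => hna ((commutator_eq_bot_iff _).mp h)
    have hm : (commutator X).map (QuotientGroup.mk' (Subgroup.center X)) = ⊤ := by
      rw [commutator_def, Subgroup.map_commutator,
        Subgroup.map_top_of_surjective _ (QuotientGroup.mk'_surjective _), ← commutator_def, hc]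
    rw [sup_comm, ← QuotientGroup.comap_map_mk', hm, Subgroup.comap_top]
  refine ⟨hsup, ?_, ?_⟩
  · rw [Subgroup.isPerfect_iff]
    refine le_antisymm (Subgroup.commutator_le_self _) ?_
    conv_lhs => rw [commutator_def, ← hsup]
    rw [Subgroup.commutator_le]
    intro a ha b hb
    rw [Subgroup.mem_sup_of_normal_right] at ha hb
    obtain ⟨a, ha, z, hz, rfl⟩ := ha
    obtain ⟨b, hb, w, hw, rfl⟩ := hb
    have e : ⁅a * z, b * w⁆ = ⁅a, b⁆ := by
      have hz' : ∀ g, g * z = z * g := Subgroup.mem_center_iff.mp hz
      have hw' : ∀ g, g * w = w * g := Subgroup.mem_center_iff.mp hw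
      simp only [commutatorElement_def, mul_inv_rev]
      calc a * z * (b * w) * (z⁻¹ * a⁻¹) * (w⁻¹ * b⁻¹)
          = a * (z * b) * (w * z⁻¹) * a⁻¹ * w⁻¹ * b⁻¹ := by group
        _ = a * (b * z) * (z⁻¹ * w) * a⁻¹ * w⁻¹ * b⁻¹ := by rw [hz' b, hw' z⁻¹]
        _ = a * b * (w * a⁻¹) * w⁻¹ * b⁻¹ := by group
        _ = a * b * (a⁻¹ * w) * w⁻¹ * b⁻¹ := by rw [hw' a⁻¹]
        _ = a * b * a⁻¹ * b⁻¹ := by group
    rw [e]
    exact Subgroup.commutator_mem_commutator ha hb
  · let f := (QuotientGroup.mk' (Subgroup.center X)).comp (commutator X).subtype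
    have hf : Function.Surjective f := by
      intro y
      obtain ⟨x, rfl⟩ := QuotientGroup.mk'_surjective _ y
      have hx : x ∈ commutator X ⊔ Subgroup.center X := hsup ▸ Subgroup.mem_top x
      rw [Subgroup.mem_sup_of_normal_right] at hx
      obtain ⟨a, ha, z, hz, rfl⟩ := hx
      exact ⟨⟨a, ha⟩, by simp [f, (QuotientGroup.eq_one_iff z).mpr hz]⟩
    have hk : f.ker = Subgroup.center ↥(commutator X) := by
      ext a
      simp only [f, MonoidHom.mem_ker, MonoidHom.comp_apply, QuotientGroup.mk'_apply,
        QuotientGroup.eq_one_iff, Subgroup.coe_subtype]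
      constructor
      · exact fun h => Subgroup.mem_center_iff.mpr fun g =>
          Subtype.ext (Subgroup.mem_center_iff.mp h g)
      · intro h
        rw [Subgroup.mem_center_iff]
        intro x
        have hx : x ∈ commutator X ⊔ Subgroup.center X := hsup ▸ Subgroup.mem_top x
        rw [Subgroup.mem_sup_of_normal_right] at hx
        obtain ⟨c, hc, z, hz, rfl⟩ := hx
        have h1 : c * (a : X) = (a : X) * c :=
          congrArg Subtype.val (Subgroup.mem_center_iff.mp h ⟨c, hc⟩)
        rw [mul_assoc, ← Subgroup.mem_center_iff.mp hz (a : X), ← mul_assoc, h1, mul_assoc]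
    let e := (QuotientGroup.quotientMulEquivOfEq hk).symm.trans
      (QuotientGroup.quotientKerEquivOfSurjective f hf)
    haveI := e.toEquiv.nontrivial
    exact e.isSimpleGroup

end Cfsg.Agent.S1258
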