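import Cfsg.Statements.S1264
import Cfsg.Agent.Components.FStar

set_option autoImplicit false
open Cfsg

namespace Cfsg.Agent.S1264

/-- Let G be finite, C = C_G(F(G)) the centralizer of the Fitting subgroup, and N a solvable subgroup of C normalized by C. Then N ≤ Z(F(G)). -/
theorem result {G : Type*} [Group G] [Finite G] (N : Subgroup G) (hN : N ≤ Subgroup.centralizer (Cfsg.fittingSubgroup G : Set G)) (hnorm : Subgroup.centralizer (Cfsg.fittingSubgroup G : Set G) ≤ Subgroup.normalizer (N : Set G)) (hsolv : Group.IsSolvable ↥N) : N ≤ (Subgroup.center ↥(Cfsg.fittingSubgroup G)).map (Cfsg.fittingSubgroup G).subtype := by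
  rw [Components.map_center_eq_inf_centralizer]
  set C := Subgroup.centralizer (Cfsg.fittingSubgroup G : Set G) with hC
  haveI : (N.subgroupOf C).Normal := (Subgroup.normal_subgroupOf_iff_le_normalizer hN).mpr hnorm
  have hsub : Group.IsSolvable ↥N := hsolv
  have hR : N ≤ Components.solvableRadical G :=
    Components.le_solvableRadical_of_isSubnormal
      (Components.isSubnormal_of_subgroupOf hN (Subgroup.Normal.isSubnormal inferInstance)
        (Subgroup.Normal.isSubnormal inferInstance)) hsub
  set M := Components.solvableRadical G ⊓ C with hM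
  have hMs : Group.IsSolvable ↥M :=
    Components.isSolvable_of_le inf_le_left Components.solvableRadical_isSolvable
  suffices hMF : M ≤ Cfsg.fittingSubgroup G from
    fun x hx => ⟨hMF ⟨hR hx, hN hx⟩, hN hx⟩
  -- solvable normal subgroups centralizing F(G) lie in F(G)
  suffices ∀ T : Subgroup G, T.Normal → Group.IsSolvable ↥T → T ≤ C → T ≤ Cfsg.fittingSubgroup G from
    this M inferInstance hMs inf_le_right
  intro T
  induction T using WellFoundedLT.induction with
  | ind T ih =>
    intro hT hTs hTC
    by_cases hb : T = ⊥
    · rw [hb]; exact bot_le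
    haveI := hT
    have hlt : ⁅T, T⁆ < T :=
      lt_of_le_of_ne (Subgroup.commutator_le_self _) fun h =>
        hb (Components.perfect_eq_bot_of_le_solvable h le_rfl hTs)
    have h1 := ih _ hlt inferInstance (Components.isSolvable_of_le hlt.le hTs) (hlt.le.trans hTC)
    refine Components.le_fitting hT (Components.isNilpotent_of_commutator_central ?_)
    exact le_bot_iff.mp ((Subgroup.commutator_mono h1 hTC).trans
      (Subgroup.commutator_eq_bot_iff_le_centralizer.mpr
        (Subgroup.le_centralizer_iff.mp le_rfl)).le)

end Cfsg.Agent.S1264
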