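import Cfsg.Statements.S1272
import Cfsg.Agent.Components.PComponent

set_option autoImplicit false
open Cfsg

namespace Cfsg.Agent.S1272

/-- Let X be finite and Q = X / O_{p'}(X). For every component Kbar of Q there is a unique p-component K of X whose image in Q is Kbar; and the image of the p-layer L_{p'}(X) in Q is E(Q). -/
theorem result {X : Type*} [Group X] [Finite X] (p : ℕ) [Fact p.Prime] : (∀ Kbar : Subgroup (X ⧸ Cfsg.pPrimeCore p X), Cfsg.IsComponent Kbar → ∃! K : Subgroup X, Cfsg.IsPComponent p K ∧ K.map (QuotientGroup.mk' (Cfsg.pPrimeCore p X)) = Kbar) ∧ (Cfsg.pLayer p X).map (QuotientGroup.mk' (Cfsg.pPrimeCore p X)) = Cfsg.layer (X ⧸ Cfsg.pPrimeCore p X) := by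
  refine ⟨fun Kbar hK => ⟨Components.pComp Kbar,
    ⟨Components.isPComponent_pComp hK, Components.pComp_map hK⟩, fun K hKK => ?_⟩, Components.pLayer_map⟩
  exact (Components.pComponent_eq hKK.1).trans (congrArg Components.pComp hKK.2)

end Cfsg.Agent.S1272
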