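import Cfsg.Statements.S1277
import Cfsg.Agent.Components.PComponent

set_option autoImplicit false
open Cfsg

namespace Cfsg.Agent.S1277

/-- For a finite group X with core O(X): the image of E(X) in X / O(X) is all of E(X / O(X)) if and only if every 2-component of X is a component, i.e. L_{2'}(X) ≤ E(X). -/
theorem result {X : Type*} [Group X] [Finite X] : (Cfsg.layer X).map (QuotientGroup.mk' (Cfsg.oddCore X)) = Cfsg.layer (X ⧸ Cfsg.oddCore X) ↔ Cfsg.pLayer 2 X ≤ Cfsg.layer X := by
  haveI : Fact (Nat.Prime 2) := ⟨Nat.prime_two⟩
  set q := Components.pBar 2 X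
  have hle : (Cfsg.layer X).map q ≤ Cfsg.layer (X ⧸ Cfsg.oddCore X) := by
    rw [Subgroup.map_le_iff_le_comap, Components.layer_le_iff]
    intro L hL
    rw [← Subgroup.map_le_iff_le_comap]
    by_cases hb : L.map q = ⊥
    · rw [hb]; exact bot_le
    · refine Components.component_le_layer ⟨hL.1.map Components.pBar_surjective, ?_⟩
      haveI := (Subgroup.nontrivial_iff_ne_bot _).mpr hb
      exact Components.isQuasisimple_of_surjective (q.subgroupMap_surjective L) hL.2
  constructor
  · intro h
    refine sSup_le fun K hK => ?_
    have hKb : K.map q ≤ (Cfsg.layer X).map q := (Components.component_le_layer hK.2.1).trans h.ge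
    -- K̄ is the image of one of the components of X
    obtain ⟨L, hL, hLK⟩ : ∃ L : Subgroup X, Cfsg.IsComponent L ∧ L.map q = K.map q := by
      by_contra hno
      push Not at hno
      apply Components.component_not_commute hK.2.1
      rw [Subgroup.commutator_eq_bot_iff_le_centralizer]
      refine hKb.trans ?_
      rw [Subgroup.map_le_iff_le_comap, Components.layer_le_iff]
      intro L hL
      rw [← Subgroup.map_le_iff_le_comap]
      by_cases hb : L.map q = ⊥
      · rw [hb]; exact bot_le
      · haveI := (Subgroup.nontrivial_iff_ne_bot _).mpr hb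
        exact Components.components_commute_le ⟨hL.1.map Components.pBar_surjective,
          Components.isQuasisimple_of_surjective (q.subgroupMap_surjective L) hL.2⟩ hK.2.1 (hno L hL)
    rw [Components.pComponent_eq hK]
    exact (Components.pComp_le_of_map_eq hL.1 hLK).trans (Components.component_le_layer hL)
  · intro h
    exact le_antisymm hle (Components.pLayer_map (p := 2) (G := X) ▸ Subgroup.map_mono h)

end Cfsg.Agent.S1277
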