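import Cfsg.Statements.S1278
import Cfsg.Agent.Components.PComponent

set_option autoImplicit false
open Cfsg

namespace Cfsg.Agent.S1278

/-- Let K ≠ L be 2-components of the finite group X. Then ⁅K, L⁆ ≤ O(K) ⊓ O(L), and if K is quasisimple then ⁅K, L⁆ = 1. -/
theorem result {X : Type*} [Group X] [Finite X] (K L : Subgroup X) (hK : Cfsg.IsPComponent 2 K) (hL : Cfsg.IsPComponent 2 L) (hne : K ≠ L) : ⁅K, L⁆ ≤ ((Cfsg.oddCore ↥K).map K.subtype) ⊓ ((Cfsg.oddCore ↥L).map L.subtype) ∧ (Cfsg.IsQuasisimple ↥K → ⁅K, L⁆ = ⊥) := by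
  haveI : Fact (Nat.Prime 2) := ⟨Nat.prime_two⟩
  have hN : ⁅K, L⁆ ≤ Cfsg.oddCore X := by
    show _ ≤ Cfsg.pPrimeCore 2 X
    rw [← Components.pBar_ker (p := 2), ← Subgroup.map_eq_bot_iff, Subgroup.map_commutator]
    exact Components.pComponent_map_commute hK hL hne
  have hLK : L ≤ Subgroup.normalizer (K : Set X) := Components.pComponent_le_normalizer hK hL
  have hKL : K ≤ Subgroup.normalizer (L : Set X) := Components.pComponent_le_normalizer hL hK
  have h1 : ⁅K, L⁆ ≤ (Cfsg.oddCore ↥K).map K.subtype := by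
    rw [Components.pPrimeCore_map_subtype hK.1]
    exact le_inf (Subgroup.le_normalizer_iff_commutator_le_left.mp hLK) hN
  have h2 : ⁅K, L⁆ ≤ (Cfsg.oddCore ↥L).map L.subtype := by
    rw [Components.pPrimeCore_map_subtype hL.1]
    exact le_inf (Subgroup.le_normalizer_iff_commutator_le_right.mp hKL) hN
  refine ⟨le_inf h1 h2, fun hq => ?_⟩
  refine Components.commutator_eq_bot_of_perfect (Components.pComponent_commutator_self hK) ?_
  rw [Subgroup.commutator_comm L K]
  refine le_bot_iff.mp ((Subgroup.commutator_mono h1 le_rfl).trans (le_of_eq ?_))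
  rw [Subgroup.commutator_comm]
  exact (Components.pComponent_quasisimple_iff hK).mp hq

end Cfsg.Agent.S1278
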