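import Cfsg.Statements.S1279
import Cfsg.Agent.Components.Local

set_option autoImplicit false
open Cfsg

namespace Cfsg.Agent.S1279

/-- Let A be a noncyclic elementary abelian p-subgroup of the finite group G such that C_G(a) is solvable for every non-identity a ∈ A. Then a ↦ O_{p'}(C_G(a)) is a solvable A-signalizer functor on G. -/
theorem result {G : Type*} [Group G] [Finite G] (p : ℕ) [Fact p.Prime] (A : Subgroup G) (hA : Cfsg.IsElementaryAbelian p A) (hA2 : p ^ 2 ≤ Nat.card ↥A) (hsolv : ∀ a ∈ A, a ≠ 1 → Group.IsSolvable ↥(Subgroup.centralizer ({a} : Set G))) : Cfsg.IsSolvableSignalizerFunctor p A (fun a => Cfsg.centralizerPPrimeCore p a) := by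
  haveI := hA.1
  have hAC : ∀ a ∈ A, A ≤ Subgroup.centralizer ({a} : Set G) := fun a ha b hb => by
    rw [Subgroup.mem_centralizer_iff]
    rintro _ rfl
    exact mul_comm' (⟨_, ha⟩ : A) ⟨b, hb⟩ |> congrArg Subtype.val
  refine ⟨⟨fun a _ _ => Subgroup.map_subtype_le _, fun a _ _ => ?_, fun a ha _ b hb x hx => ?_,
    fun a ha ha1 b hb hb1 => ?_⟩, fun a ha ha1 => ?_⟩
  · change ¬ p ∣ Nat.card ↥(Cfsg.centralizerPPrimeCore p a)
    rw [Cfsg.centralizerPPrimeCore, Cfsg.Agent.Core.card_map_subtype]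
    exact fun h => (Fact.out : p.Prime).one_lt.ne'
      (Nat.eq_one_of_dvd_coprimes (Cfsg.Agent.Core.card_pPrimeCore_coprime p _) h dvd_rfl)
  · obtain ⟨y, hy, rfl⟩ := hx
    exact ⟨⟨b, hAC a ha hb⟩ * y * ⟨b, hAC a ha hb⟩⁻¹,
      (inferInstance : (Cfsg.pPrimeCore p ↥(Subgroup.centralizer ({a} : Set G))).Normal).conj_mem y hy _, rfl⟩
  · have hbp : b ^ p = 1 := hA.2 b hb
    have hap : a ^ p = 1 := hA.2 a ha
    set H := Subgroup.centralizer ({b} : Set G) with hH
    have haH : a ∈ H := hAC b hb ha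
    set P := Subgroup.zpowers (⟨a, haH⟩ : ↥H)
    have hP : IsPGroup p P := IsPGroup.of_card (n := 1) (by
      rw [Nat.card_zpowers, pow_one]
      exact orderOf_eq_prime (Subtype.ext hap) fun h => ha1 (congrArg Subtype.val h))
    set W := (Cfsg.centralizerPPrimeCore p a).subgroupOf H with hW
    have hWC : W ≤ Subgroup.centralizer (P : Set ↥H) := fun w hw => by
      rw [Subgroup.mem_centralizer_iff]
      rintro _ ⟨i, rfl⟩
      have h1 : (w : G) ∈ Subgroup.centralizer ({a} : Set G) := Subgroup.map_subtype_le _ hw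
      have h2 : Commute (⟨a, haH⟩ : ↥H) w :=
        Subtype.ext (Subgroup.mem_centralizer_iff.mp h1 a rfl)
      exact h2.zpow_left i
    have hn : Subgroup.centralizer (P : Set ↥H) ≤ Subgroup.normalizer (W : Set ↥H) := fun g hg =>
      Cfsg.Agent.Coprime.mem_normalizer_of_conj_mem fun w hw => by
        have hga : (g : G) ∈ Subgroup.centralizer ({a} : Set G) := by
          rw [Subgroup.mem_centralizer_iff]
          rintro _ rfl
          exact congrArg Subtype.val (Subgroup.mem_centralizer_iff.mp hg _ (Subgroup.mem_zpowers _))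
        obtain ⟨y, hy, hyw⟩ := hw
        refine ⟨⟨g, hga⟩ * y * ⟨g, hga⟩⁻¹,
          (inferInstance : (Cfsg.pPrimeCore p ↥(Subgroup.centralizer ({a} : Set G))).Normal).conj_mem y hy _, ?_⟩
        change (g : G) * (y : G) * (g : G)⁻¹ = (g : G) * (w : G) * (g : G)⁻¹
        rw [show (y : G) = w from hyw]
    have hWp : (Nat.card W).Coprime p := by
      refine Nat.Coprime.coprime_dvd_left ?_ (Cfsg.Agent.Core.card_pPrimeCore_coprime p
        ↥(Subgroup.centralizer ({a} : Set G)))
      rw [← Cfsg.Agent.Core.card_map_subtype (Cfsg.pPrimeCore p ↥(Subgroup.centralizer ({a} : Set G)))]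
      exact Subgroup.card_comap_dvd_of_injective _ _ H.subtype_injective
    have := Cfsg.Agent.Components.le_pPrimeCore_of_local
      (Cfsg.Agent.Components.pLayer_eq_bot_of_solvable (hsolv b hb hb1)) hP hWC hWp hn
    rintro x ⟨hx1, hx2⟩
    exact ⟨⟨x, hx2⟩, this (show (⟨x, hx2⟩ : ↥H) ∈ W from hx1), rfl⟩
  · haveI := hsolv a ha ha1
    exact Group.isSolvable_of_isSolvable_injective
      (f := Subgroup.inclusion (Subgroup.map_subtype_le _)) (Subgroup.inclusion_injective _)

end Cfsg.Agent.S1279
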