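import Cfsg.Statements.S1284
import Cfsg.Agent.Components.Transitivity

set_option autoImplicit false
open Cfsg

namespace Cfsg.Agent.S1284

/-- Let θ be a solvable A-signalizer functor on the finite group G, A elementary abelian of rank at least 3, q a prime dividing some |θ a|, and Q maximal among the q-subgroups in the family of θ. Then (a) for every member H of the family, some c in the intersection of the θ a (a ∈ A non-identity) makes c Q c⁻¹ ∩ H a Sylow q-subgroup of H; and (b) for every nontrivial subgroup B ≤ A, C_Q(B) is a Sylow q-subgroup of the intersection of the θ b over the non-identity b ∈ B. -/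
theorem result {G : Type*} [Group G] [Finite G] (p : ℕ) [Fact p.Prime] (A : Subgroup G) (hA : Cfsg.IsElementaryAbelian p A) (hA3 : p ^ 3 ≤ Nat.card ↥A) (θ : G → Subgroup G) (hθ : Cfsg.IsSolvableSignalizerFunctor p A θ) (q : ℕ) [Fact q.Prime] (hq : ∃ a ∈ A, a ≠ 1 ∧ q ∣ Nat.card ↥(θ a)) (Q : Subgroup G) (hQW : Q ∈ Cfsg.signalizerFamily p A θ) (hQq : IsPGroup q ↥Q) (hQmax : ∀ R ∈ Cfsg.signalizerFamily p A θ, IsPGroup q ↥R → Q ≤ R → R = Q) : (∀ H : Subgroup G, H ∈ Cfsg.signalizerFamily p A θ → ∃ c ∈ Cfsg.signalizerInf A θ, ∃ S : Sylow q ↥H, (S : Subgroup ↥H).map H.subtype = Q.map (MulAut.conj c).toMonoidHom ⊓ H) ∧ (∀ B : Subgroup G, B ≤ A → B ≠ ⊥ → ∃ S : Sylow q ↥(Cfsg.signalizerInf B θ), (S : Subgroup ↥(Cfsg.signalizerInf B θ)).map (Cfsg.signalizerInf B θ).subtype = Q ⊓ Subgroup.centralizer (B : Set G)) := by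
  have hqp := Cfsg.Agent.Components.ne_of_dvd_theta hθ hq
  have hQ : Cfsg.Agent.Components.IsMaxQ p A θ q Q := ⟨hQW, hQq, hQmax⟩
  have mkS : ∀ (T H : Subgroup G), T ≤ H → IsPGroup q T → ¬ q ∣ T.relIndex H →
      ∃ S : Sylow q ↥H, (S : Subgroup ↥H).map H.subtype = T := by
    intro T H hTH hT hi
    refine ⟨(hT.comap_of_injective _ H.subtype_injective : IsPGroup q (T.subgroupOf H)).toSylow hi, ?_⟩
    show (T.subgroupOf H).map H.subtype = T
    exact Subgroup.map_subgroupOf_eq_of_le hTH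
  refine ⟨fun H hH => ?_, fun B hB hB1 => ?_⟩
  · obtain ⟨c, hc, hi⟩ := Cfsg.Agent.Components.sylow_of_member hA hA3 hθ hqp hQ hH
    exact ⟨c, hc, mkS _ H inf_le_right ((hQq.map _).to_le inf_le_left) hi⟩
  · haveI := B.nontrivial_iff_ne_bot.mpr hB1
    obtain ⟨⟨b, hb⟩, hb1⟩ := exists_ne (1 : B)
    have hb1' : b ≠ 1 := fun h => hb1 (Subtype.ext h)
    set K := Cfsg.signalizerInf B θ with hKdef
    obtain ⟨c, hc, hi⟩ := Cfsg.Agent.Components.sylow_of_member hA hA3 hθ hqp hQ
      (Cfsg.Agent.Components.signalizerInf_mem_family hA hθ hB hb hb1')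
    have hcK : c ∈ K := Subgroup.mem_iInf.mpr fun d =>
      (Subgroup.mem_iInf.mp hc) ⟨d, hB d.2.1, d.2.2⟩
    have hKc : K.map (MulAut.conj c).toMonoidHom = K :=
      Subgroup.mem_normalizer_iff_map_conj_eq.mp (Subgroup.le_normalizer hcK)
    have hQK : Q ⊓ K = Q ⊓ Subgroup.centralizer (B : Set G) :=
      Cfsg.Agent.Components.signalizerInf_eq_family hQW hθ hB
    rw [← hQK]
    refine mkS _ K inf_le_right (hQq.to_le inf_le_left) ?_
    have e : (Q ⊓ K).map (MulAut.conj c).toMonoidHom = Q.map (MulAut.conj c).toMonoidHom ⊓ K := by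
      rw [Subgroup.map_inf _ _ _ (MulAut.conj c).injective, hKc]
    have h1 := Cfsg.Agent.Components.card_mul_relIndex' (inf_le_right : Q ⊓ K ≤ K)
    have h2 := Cfsg.Agent.Components.card_mul_relIndex'
      (inf_le_right : Q.map (MulAut.conj c).toMonoidHom ⊓ K ≤ K)
    rw [← e, Cfsg.Agent.Coprime.card_map_conj, ← h1, Nat.mul_left_cancel_iff Nat.card_pos] at h2
    rw [← e] at hi
    exact h2 ▸ hi

end Cfsg.Agent.S1284
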