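import Cfsg.Statements.S1286
import Mathlib.GroupTheory.Perm.Cycle.Type

set_option autoImplicit false
open Cfsg

namespace Cfsg.Agent.S1286

/-- There exist a finite group X, an elementary abelian subgroup A of order 4 and a solvable A-signalizer functor θ on X for the prime 2 which is not complete. -/
theorem result : ∃ (X : Type) (_ : Group X) (_ : Finite X) (A : Subgroup X) (θ : X → Subgroup X), Cfsg.IsElementaryAbelian 2 A ∧ Nat.card ↥A = 4 ∧ Cfsg.IsSolvableSignalizerFunctor 2 A θ ∧ ¬ Cfsg.IsCompleteSignalizerFunctor 2 A θ := by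
  let a : Equiv.Perm (Fin 5) := Equiv.swap 0 1
  let b : Equiv.Perm (Fin 5) := Equiv.swap 3 4
  let c : Equiv.Perm (Fin 5) := Equiv.swap 2 3 * Equiv.swap 3 4
  let d : Equiv.Perm (Fin 5) := Equiv.swap 0 1 * Equiv.swap 1 2
  let A : Subgroup (Equiv.Perm (Fin 5)) :=
    { carrier := {x | x ∈ ({1, a, b, a * b} : Finset (Equiv.Perm (Fin 5)))}
      one_mem' := by decide
      mul_mem' := fun {x y} hx hy => by
        simp only [Set.mem_setOf_eq, Finset.mem_insert, Finset.mem_singleton] at hx hy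
        rcases hx with rfl | rfl | rfl | rfl <;> rcases hy with rfl | rfl | rfl | rfl <;> decide
      inv_mem' := fun {x} hx => by
        simp only [Set.mem_setOf_eq, Finset.mem_insert, Finset.mem_singleton] at hx
        rcases hx with rfl | rfl | rfl | rfl <;> decide }
  let Cc : Subgroup (Equiv.Perm (Fin 5)) :=
    { carrier := {x | x ∈ ({1, c, c * c} : Finset (Equiv.Perm (Fin 5)))}
      one_mem' := by decide
      mul_mem' := fun {x y} hx hy => by
        simp only [Set.mem_setOf_eq, Finset.mem_insert, Finset.mem_singleton] at hx hy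
        rcases hx with rfl | rfl | rfl <;> rcases hy with rfl | rfl | rfl <;> decide
      inv_mem' := fun {x} hx => by
        simp only [Set.mem_setOf_eq, Finset.mem_insert, Finset.mem_singleton] at hx
        rcases hx with rfl | rfl | rfl <;> decide }
  let Dd : Subgroup (Equiv.Perm (Fin 5)) :=
    { carrier := {x | x ∈ ({1, d, d * d} : Finset (Equiv.Perm (Fin 5)))}
      one_mem' := by decide
      mul_mem' := fun {x y} hx hy => by
        simp only [Set.mem_setOf_eq, Finset.mem_insert, Finset.mem_singleton] at hx hy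
        rcases hx with rfl | rfl | rfl <;> rcases hy with rfl | rfl | rfl <;> decide
      inv_mem' := fun {x} hx => by
        simp only [Set.mem_setOf_eq, Finset.mem_insert, Finset.mem_singleton] at hx
        rcases hx with rfl | rfl | rfl <;> decide }
  let θ : Equiv.Perm (Fin 5) → Subgroup (Equiv.Perm (Fin 5)) := fun x =>
    if x = a then Cc else if x = b then Dd else ⊥
  have hA : ∀ x, x ∈ A ↔ x = 1 ∨ x = a ∨ x = b ∨ x = a * b := fun x => by
    show x ∈ ({1, a, b, a * b} : Finset (Equiv.Perm (Fin 5))) ↔ _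
    simp
  have hCc : ∀ x, x ∈ Cc ↔ x = 1 ∨ x = c ∨ x = c * c := fun x => by
    show x ∈ ({1, c, c * c} : Finset (Equiv.Perm (Fin 5))) ↔ _
    simp
  have hDd : ∀ x, x ∈ Dd ↔ x = 1 ∨ x = d ∨ x = d * d := fun x => by
    show x ∈ ({1, d, d * d} : Finset (Equiv.Perm (Fin 5))) ↔ _
    simp
  have hθa : θ a = Cc := if_pos rfl
  have hθb : θ b = Dd := (if_neg (by decide)).trans (if_pos rfl)
  have hθab : θ (a * b) = ⊥ := (if_neg (by decide)).trans (if_neg (by decide))
  have hcases : ∀ x ∈ A, x ≠ 1 → (x = a ∧ θ x = Cc) ∨ (x = b ∧ θ x = Dd) ∨ (x = a * b ∧ θ x = ⊥) := by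
    intro x hx h1
    rcases (hA x).mp hx with h | h | h | h
    · exact absurd h h1
    · exact Or.inl ⟨h, h ▸ hθa⟩
    · exact Or.inr (Or.inl ⟨h, h ▸ hθb⟩)
    · exact Or.inr (Or.inr ⟨h, h ▸ hθab⟩)
  have hcardA : Nat.card ↥A = 4 := by
    show Nat.card {x : Equiv.Perm (Fin 5) // x ∈ ({1, a, b, a * b} : Finset (Equiv.Perm (Fin 5)))} = 4
    rw [Nat.card_eq_fintype_card, Fintype.card_coe]
    decide
  have hcardC : Nat.card ↥Cc = 3 := by
    show Nat.card {x : Equiv.Perm (Fin 5) // x ∈ ({1, c, c * c} : Finset (Equiv.Perm (Fin 5)))} = 3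
    rw [Nat.card_eq_fintype_card, Fintype.card_coe]
    decide
  have hcardD : Nat.card ↥Dd = 3 := by
    show Nat.card {x : Equiv.Perm (Fin 5) // x ∈ ({1, d, d * d} : Finset (Equiv.Perm (Fin 5)))} = 3
    rw [Nat.card_eq_fintype_card, Fintype.card_coe]
    decide
  have hEA : Cfsg.IsElementaryAbelian 2 A := by
    refine ⟨⟨⟨fun ⟨x, hx⟩ ⟨y, hy⟩ => Subtype.ext ?_⟩⟩, fun x hx => ?_⟩
    · show x * y = y * x
      rw [hA] at hx hy
      rcases hx with rfl | rfl | rfl | rfl <;> rcases hy with rfl | rfl | rfl | rfl <;> decide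
    · rw [hA] at hx
      rcases hx with rfl | rfl | rfl | rfl <;> decide
  have hsf : Cfsg.IsSignalizerFunctor 2 A θ := by
    refine ⟨fun x hx h1 y hy => ?_, fun x hx h1 => ?_, fun x hx h1 g hg y hy => ?_,
      fun x hx h1 g hg hg1 => ?_⟩
    · rw [Subgroup.mem_centralizer_singleton_iff]
      rcases hcases x hx h1 with ⟨rfl, h⟩ | ⟨rfl, h⟩ | ⟨rfl, h⟩ <;> rw [h] at hy
      · rcases (hCc y).mp hy with rfl | rfl | rfl <;> decide
      · rcases (hDd y).mp hy with rfl | rfl | rfl <;> decide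
      · rw [Subgroup.mem_bot] at hy; subst hy; decide
    · rcases hcases x hx h1 with ⟨rfl, h⟩ | ⟨rfl, h⟩ | ⟨rfl, h⟩ <;> rw [h]
      · rw [hcardC]; decide
      · rw [hcardD]; decide
      · rw [Subgroup.card_bot]; decide
    · rw [hA] at hg
      rcases hcases x hx h1 with ⟨rfl, h⟩ | ⟨rfl, h⟩ | ⟨rfl, h⟩ <;> rw [h] at hy ⊢
      · rw [hCc] at hy ⊢
        rcases hg with rfl | rfl | rfl | rfl <;> rcases hy with rfl | rfl | rfl <;> decide
      · rw [hDd] at hy ⊢
        rcases hg with rfl | rfl | rfl | rfl <;> rcases hy with rfl | rfl | rfl <;> decide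
      · rw [Subgroup.mem_bot] at hy ⊢; subst hy; simp
    · rintro y ⟨hy, hyc⟩
      have hyc : y * g = g * y := Subgroup.mem_centralizer_singleton_iff.mp hyc
      by_cases hy1 : y = 1
      · subst hy1; exact one_mem _
      rcases hcases x hx h1 with ⟨rfl, h⟩ | ⟨rfl, h⟩ | ⟨rfl, h⟩ <;> rw [h] at hy <;>
        rcases hcases g hg hg1 with ⟨rfl, h'⟩ | ⟨rfl, h'⟩ | ⟨rfl, h'⟩ <;> rw [h']
      · exact hy
      · exfalso; have hy' := (hCc y).mp hy; clear hy; revert hyc hy1; rcases hy' with rfl | rfl | rfl <;> decide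
      · exfalso; have hy' := (hCc y).mp hy; clear hy; revert hyc hy1; rcases hy' with rfl | rfl | rfl <;> decide
      · exfalso; have hy' := (hDd y).mp hy; clear hy; revert hyc hy1; rcases hy' with rfl | rfl | rfl <;> decide
      · exact hy
      · exfalso; have hy' := (hDd y).mp hy; clear hy; revert hyc hy1; rcases hy' with rfl | rfl | rfl <;> decide
      · exact absurd (Subgroup.mem_bot.mp hy) hy1
      · exact absurd (Subgroup.mem_bot.mp hy) hy1
      · exact hy
  refine ⟨Equiv.Perm (Fin 5), inferInstance, inferInstance, A, θ, hEA, hcardA, ⟨hsf, ?_⟩, ?_⟩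
  · intro x hx h1
    rcases hcases x hx h1 with ⟨rfl, h⟩ | ⟨rfl, h⟩ | ⟨rfl, h⟩ <;> rw [h]
    · haveI : Fact (Nat.Prime 3) := ⟨Nat.prime_three⟩
      haveI : IsCyclic ↥Cc := isCyclic_of_prime_card hcardC
      open scoped IsMulCommutative in infer_instance
    · haveI : Fact (Nat.Prime 3) := ⟨Nat.prime_three⟩
      haveI : IsCyclic ↥Dd := isCyclic_of_prime_card hcardD
      open scoped IsMulCommutative in infer_instance
    · infer_instance
  · rintro ⟨-, X, -, hXodd, hX⟩
    have hc : c ∈ X := by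
      have : c ∈ X ⊓ Subgroup.centralizer {a} := by
        rw [hX a ((hA a).mpr (Or.inr (Or.inl rfl))) (by decide), hθa, hCc]; exact Or.inr (Or.inl rfl)
      exact this.1
    have hd : d ∈ X := by
      have : d ∈ X ⊓ Subgroup.centralizer {b} := by
        rw [hX b ((hA b).mpr (Or.inr (Or.inr (Or.inl rfl)))) (by decide), hθb, hDd]; exact Or.inr (Or.inl rfl)
      exact this.1
    apply hXodd
    have hw : c * c * d * c * d ∈ X := mul_mem (mul_mem (mul_mem (mul_mem hc hc) hd) hc) hd
    have h2 : orderOf (c * c * d * c * d) = 2 := orderOf_eq_prime (by decide) (by decide)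
    have := orderOf_dvd_natCard (⟨_, hw⟩ : ↥X)
    rwa [Subgroup.orderOf_mk, h2] at this

end Cfsg.Agent.S1286
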