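import Cfsg.Statements.S1289
import Cfsg.Agent.Components.PComponent

set_option autoImplicit false
open Cfsg

namespace Cfsg.Agent.S1289

/-- A p-component K of the finite group X is subnormal, perfect, of order divisible by p, and minimal among the subnormal perfect subgroups of X of order divisible by p. -/
theorem result {X : Type*} [Group X] [Finite X] (p : ℕ) [Fact p.Prime] (K : Subgroup X) (hK : Cfsg.IsPComponent p K) : K.IsSubnormal ∧ ⁅K, K⁆ = K ∧ p ∣ Nat.card ↥K ∧ ∀ H : Subgroup X, H ≤ K → H.IsSubnormal → ⁅H, H⁆ = H → p ∣ Nat.card ↥H → H = K := by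
  refine ⟨hK.1, Components.pComponent_commutator_self hK, Components.pComponent_dvd_card hK,
    fun H hle hsn hperf hp => hK.2.2 H hsn hle ?_⟩
  set q := Components.pBar p X
  have hHle : H.map q ≤ K.map q := Subgroup.map_mono hle
  rcases Components.quasisimple_subnormal_eq_top_or_le_center hK.2.1.2
    ((hsn.map Components.pBar_surjective).subgroupOf (K := K.map q)) with h | h
  · exact le_antisymm hHle (Subgroup.subgroupOf_eq_top.mp h)
  · exfalso
    have hab : ⁅H.map q, H.map q⁆ = ⊥ := by
      rw [Subgroup.commutator_eq_bot_iff_le_centralizer]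
      intro x hx
      rw [Subgroup.mem_centralizer_iff]
      intro y hy
      exact congrArg Subtype.val (Subgroup.mem_center_iff.mp
        (h (show (⟨x, hHle hx⟩ : ↥(K.map q)) ∈ _ from hx)) ⟨y, hHle hy⟩)
    rw [← Subgroup.map_commutator, hperf, Subgroup.map_eq_bot_iff, Components.pBar_ker] at hab
    exact Core.not_dvd_card_pPrimeCore p X (hp.trans (Subgroup.card_dvd_of_le hab))

end Cfsg.Agent.S1289
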