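import Cfsg.Statements.S1297
import Cfsg.Agent.Components.LocalKBalance

set_option autoImplicit false
open Cfsg

namespace Cfsg.Agent.S1297

/-- Let G be finite. Suppose that for every involution x, writing C = C_G(x), every component K of C / O(C) has K / Z(K) locally balanced. Then G is balanced. -/
theorem result {G : Type*} [Group G] [Finite G] (h : ∀ x : G, orderOf x = 2 → ∀ K : Subgroup (↥(Subgroup.centralizer ({x} : Set G)) ⧸ Cfsg.oddCore ↥(Subgroup.centralizer ({x} : Set G))), Cfsg.IsComponent K → Cfsg.IsLocallyBalanced (↥K ⧸ Subgroup.center ↥K)) : Cfsg.IsBalanced G :=fun x y hx hy hxy => by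
  open Components.LocalKBal in
  have hloc : ∀ K : Type _, [Group K] → [Finite K] → Cfsg.IsLocallyBalanced K →
      Cfsg.IsLocallyKBalanced 2 1 K := by
    intro K _ _ hK H hH A hA hc
    obtain ⟨a, ha, ha1⟩ := exists_ne_one_of_card hc le_rfl
    exact le_bot_iff.mp ((delta_le_core ha ha1).trans (hK H hH a (orderOf_eq_prime (hA.2 a ha) ha1)).le)
  have key : ∀ u v : G, orderOf u = 2 → orderOf v = 2 → u * v = v * u →
      Cfsg.centralizerPPrimeCore 2 u ⊓ Subgroup.centralizer {v} ≤
        Cfsg.centralizerPPrimeCore 2 v ⊓ Subgroup.centralizer {u} := by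
    intro u v hu hv huv
    have hA : Cfsg.IsElementaryAbelian 2 (Subgroup.zpowers u) := by
      refine ⟨inferInstance, fun w hw => ?_⟩
      obtain ⟨i, rfl⟩ := hw
      rw [← zpow_natCast, ← zpow_mul, mul_comm, zpow_mul, zpow_natCast, ← hu, pow_orderOf_eq_one, one_zpow]
    have hc : Nat.card ↥(Subgroup.zpowers u) = 2 ^ 1 := by rw [Nat.card_zpowers, hu, pow_one]
    have hAb : Subgroup.zpowers u ≤ Subgroup.centralizer ({v} : Set G) :=
      Subgroup.zpowers_le.mpr (Subgroup.mem_centralizer_singleton_iff.mpr huv)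
    obtain ⟨hEA, hcard, -⟩ := quotient_data hA hc hAb
    have hle := delta_inf_le_core le_rfl hA hc hAb fun L hL =>
      delta_centralizes_component (Core.pPrimeCore_quotient_pPrimeCore 2 _) le_rfl hL (isInd_centerQuot hL)
        (hloc _ (h v hv L hL)) hEA hcard
    rintro z ⟨hz, hzv⟩
    refine ⟨hle ⟨Subgroup.mem_iInf.mpr ?_, hzv⟩, (Subgroup.map_subtype_le _) hz⟩
    rintro ⟨w, hw, hw1⟩
    obtain ⟨i, rfl⟩ := hw
    rcases Int.emod_two_eq_zero_or_one i with hi | hi
    · exact absurd (show u ^ i = 1 by rw [← zpow_mod_orderOf, hu, show i % ((2 : ℕ) : ℤ) = 0 from hi, zpow_zero]) hw1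
    · show z ∈ Cfsg.centralizerPPrimeCore 2 (u ^ i)
      rw [← zpow_mod_orderOf, hu, show i % ((2 : ℕ) : ℤ) = 1 from hi, zpow_one]
      exact hz
  exact le_antisymm (key x y hx hy hxy) (key y x hy hx hxy.symm)

end Cfsg.Agent.S1297
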