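import Cfsg.Statements.S1300
import Cfsg.Agent.Components.Rank
import Cfsg.Agent.Components.InvolutionCount

set_option autoImplicit false
open Cfsg

namespace Cfsg.Agent.S1300

/-- For a finite group G, balance in the sense of commuting involutions is the same as 1-balance for the prime 2. -/
theorem result {G : Type*} [Group G] [Finite G] : Cfsg.IsBalanced G ↔ Cfsg.IsKBalanced 2 1 G := by
  have hle : ∀ x : G, Cfsg.centralizerPPrimeCore 2 x ≤ Subgroup.centralizer ({x} : Set G) :=
    fun x => Subgroup.map_subtype_le _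
  constructor
  · intro h A hA hcard b hb hab
    obtain ⟨⟨a, ha⟩, ho⟩ := Components.exists_involution (G := ↥A) (hcard ▸ ⟨1, rfl⟩)
    rw [Subgroup.orderOf_mk] at ho
    rintro y ⟨hy, hyb⟩
    have hy' : y ∈ Cfsg.centralizerPPrimeCore 2 a :=
      Subgroup.mem_iInf.mp hy (⟨a, ha, Components.invol_ne_one ho⟩ : {a : G // a ∈ A ∧ a ≠ 1})
    have h2 : y ∈ Cfsg.centralizerPPrimeCore 2 a ⊓ Subgroup.centralizer {b} := ⟨hy', hyb⟩
    rw [h a b ho hb (hab a ha)] at h2
    exact h2.1
  · intro h
    have key : ∀ x y : G, orderOf x = 2 → orderOf y = 2 → x * y = y * x →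
        Cfsg.centralizerPPrimeCore 2 x ⊓ Subgroup.centralizer {y} ≤ Cfsg.centralizerPPrimeCore 2 y := by
      intro x y hx hy hxy
      obtain ⟨hel, hcard⟩ := Components.isElementaryAbelian_zpowers hx
      rintro z ⟨hz, hzy⟩
      refine h (Subgroup.zpowers x) hel (by rw [hcard, pow_one]) y hy (fun a ha => ?_) ⟨?_, hzy⟩
      · obtain ⟨i, rfl⟩ := ha
        exact (Commute.zpow_left hxy i)
      · refine Subgroup.mem_iInf.mpr fun a => ?_
        suffices (a : G) = x by rw [this]; exact hz
        obtain ⟨i, hi⟩ := a.2.1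
        have hi : x ^ i = (a : G) := hi
        rcases Int.even_or_odd i with ⟨j, rfl⟩ | ⟨j, rfl⟩
        · exfalso; apply a.2.2
          rw [← hi, ← two_mul, zpow_mul, zpow_two, Components.invol_mul_self hx, one_zpow]
        · rw [← hi, zpow_add, zpow_mul, zpow_two, Components.invol_mul_self hx, one_zpow, one_mul, zpow_one]
    intro x y hx hy hxy
    exact le_antisymm (le_inf (key x y hx hy hxy) (inf_le_left.trans (hle x)))
      (le_inf (key y x hy hx hxy.symm) (inf_le_left.trans (hle y)))

end Cfsg.Agent.S1300
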