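import Cfsg.Statements.S1303
import Mathlib.LinearAlgebra.Matrix.SpecialLinearGroup
import Mathlib.GroupTheory.OrderOfElement
import Cfsg.Agent.Core.Cores

set_option autoImplicit false
open Cfsg

namespace Cfsg.Agent.S1303

theorem isPConstrained_of_self_centralizing {H : Type*} [Group H] (Q : Subgroup H) (hQn : Q.Normal)
    (hQp : IsPGroup 2 ↥Q) (hc : ∀ x : H, (∀ g ∈ Q, g * x = x * g) → x ∈ Q) :
    Cfsg.IsPConstrained 2 H := by
  intro P
  have hle : Q ≤ Cfsg.pPrimePCore 2 H := by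
    intro g hg
    rw [Cfsg.pPrimePCore, Subgroup.mem_comap]
    exact Core.le_pCore (hQn.map _ (QuotientGroup.mk'_surjective _)) (hQp.map _) ⟨g, hg, rfl⟩
  have hQP : Q.subgroupOf (Cfsg.pPrimePCore 2 H) ≤ (P : Subgroup _) := by
    haveI := hQn
    have hp : IsPGroup 2 ↥(Q.subgroupOf (Cfsg.pPrimePCore 2 H)) :=
      hQp.comap_of_injective _ (Subgroup.subtype_injective _)
    exact le_sup_right.trans (P.3 (IsPGroup.to_sup_of_normal_right' P.2 hp
      (by rw [Subgroup.normalizer_eq_top_iff.mpr inferInstance]; exact le_top)) le_sup_left).le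
  intro x hx
  exact hle (hc x fun g hg =>
    Subgroup.mem_centralizer_iff.mp hx g ⟨⟨g, hle hg⟩, hQP hg, rfl⟩)

/-- The group X = SL(2, 3): it is 2-constrained, O_{2'}(X) = 1, its centre A = Z(X) contains every involution of X = C_X(A), and X has a subgroup of order 3 (normalized by A) not contained in O_{2'}(X). -/
theorem result : Cfsg.IsPConstrained 2 (Matrix.SpecialLinearGroup (Fin 2) (ZMod 3)) ∧ Cfsg.pPrimeCore 2 (Matrix.SpecialLinearGroup (Fin 2) (ZMod 3)) = ⊥ ∧ (∀ t : Matrix.SpecialLinearGroup (Fin 2) (ZMod 3), orderOf t = 2 → t ∈ Subgroup.center (Matrix.SpecialLinearGroup (Fin 2) (ZMod 3))) ∧ ∃ Q : Subgroup (Matrix.SpecialLinearGroup (Fin 2) (ZMod 3)), Nat.card ↥Q = 3 ∧ ¬ (Q ≤ Cfsg.pPrimeCore 2 (Matrix.SpecialLinearGroup (Fin 2) (ZMod 3))) := by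
  set G := Matrix.SpecialLinearGroup (Fin 2) (ZMod 3) with hG
  have hO : Cfsg.pPrimeCore 2 G = ⊥ := by
    haveI : Fact (Nat.Prime 2) := ⟨Nat.prime_two⟩
    rw [Subgroup.eq_bot_iff_forall]
    intro x hx
    have hodd : ∀ y ∈ Cfsg.pPrimeCore 2 G, Odd (orderOf y) := fun y hy => by
      have h1 := Subgroup.orderOf_dvd_natCard _ hy
      exact Nat.coprime_two_right.mp (Nat.Coprime.coprime_dvd_left h1 (Core.card_pPrimeCore_coprime 2 G))
    have h3 : ∀ y ∈ Cfsg.pPrimeCore 2 G, y ^ 3 = 1 := by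
      intro y hy
      have hk : ∀ z : G, z ^ 4 = 1 ∨ z ^ 6 = 1 := by decide +kernel
      have ho := hodd y hy
      apply orderOf_dvd_iff_pow_eq_one.mp
      rcases hk y with h | h
      · have : Nat.Coprime (orderOf y) 4 := (Nat.coprime_two_right.mpr ho).pow_right 2
        rw [Nat.eq_one_of_dvd_coprimes this dvd_rfl (orderOf_dvd_of_pow_eq_one h)]
        exact one_dvd 3
      · exact (Nat.coprime_two_right.mpr ho).dvd_of_dvd_mul_left (show orderOf y ∣ 2 * 3 from orderOf_dvd_of_pow_eq_one h)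
    have key : ∀ y : G, y ^ 3 = 1 → (∀ h : G, (y * (h * y * h⁻¹)) ^ 3 = 1) → y = 1 := by decide +kernel
    exact key x (h3 x hx) fun h =>
      h3 _ (mul_mem hx ((inferInstance : (Cfsg.pPrimeCore 2 G).Normal).conj_mem x hx h))
  let Q8 : Subgroup G :=
    { carrier := {g | g ^ 4 = 1}
      one_mem' := by simp
      mul_mem' := fun {a b} ha hb => (by decide +kernel : ∀ a b : G, a ^ 4 = 1 → b ^ 4 = 1 → (a * b) ^ 4 = 1) a b ha hb
      inv_mem' := fun {a} ha => (by decide +kernel : ∀ a : G, a ^ 4 = 1 → a⁻¹ ^ 4 = 1) a ha }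
  have hQ8n : Q8.Normal := ⟨fun g hg h =>
    (by decide +kernel : ∀ g : G, g ^ 4 = 1 → ∀ h : G, (h * g * h⁻¹) ^ 4 = 1) g hg h⟩
  have hQ8p : IsPGroup 2 ↥Q8 := fun g => ⟨2, Subtype.ext g.2⟩
  refine ⟨?_, hO, ?_, ?_⟩
  · intro P
    exact isPConstrained_of_self_centralizing Q8 hQ8n hQ8p (fun x hx =>
      (by decide +kernel : ∀ x : G, (∀ g : G, g ^ 4 = 1 → g * x = x * g) → x ^ 4 = 1) x hx) P
  · intro t ht
    rw [Subgroup.mem_center_iff]
    intro g
    exact ((by decide +kernel : ∀ t : G, t ^ 2 = 1 → ∀ g : G, g * t = t * g) t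
      (orderOf_dvd_iff_pow_eq_one.mp ht.dvd)) g
  · haveI : Fact (Nat.Prime 3) := ⟨Nat.prime_three⟩
    obtain ⟨x, hx⟩ : ∃ x : G, x ^ 3 = 1 ∧ x ≠ 1 := by decide +kernel
    refine ⟨Subgroup.zpowers x, by rw [Nat.card_zpowers, orderOf_eq_prime hx.1 hx.2], fun h => hx.2 ?_⟩
    rw [hO, Subgroup.zpowers_le, Subgroup.mem_bot] at h
    exact h

end Cfsg.Agent.S1303
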