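import Cfsg.Statements.S1304
import Mathlib.Tactic.Group


set_option autoImplicit false
open Cfsg
open scoped commutatorElement

namespace Cfsg.Agent.S1304

/-- Let X be a perfect group and α an automorphism of X with α(x) x⁻¹ central for every x. Then α is the identity. -/
theorem result {X : Type*} [Group X] (hperf : commutator X = ⊤) (α : X ≃* X) (h : ∀ x : X, α x * x⁻¹ ∈ Subgroup.center X) : ∀ x : X, α x = x := by
  have h1 : ∀ x y : X, α ⁅x, y⁆ = ⁅x, y⁆ := by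
    intro x y
    obtain ⟨z, hz, hzx⟩ : ∃ z ∈ Subgroup.center X, α x = z * x := ⟨_, h x, by simp⟩
    obtain ⟨w, hw, hwy⟩ : ∃ w ∈ Subgroup.center X, α y = w * y := ⟨_, h y, by simp⟩
    rw [map_commutatorElement, hzx, hwy]
    have hz' : ∀ g, g * z = z * g := Subgroup.mem_center_iff.mp hz
    have hw' : ∀ g, g * w = w * g := Subgroup.mem_center_iff.mp hw
    simp only [commutatorElement_def, mul_inv_rev]
    calc z * x * (w * y) * (x⁻¹ * z⁻¹) * (y⁻¹ * w⁻¹)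
        = z * (x * w) * y * x⁻¹ * z⁻¹ * y⁻¹ * w⁻¹ := by group
      _ = z * (w * x) * y * x⁻¹ * z⁻¹ * y⁻¹ * w⁻¹ := by rw [hw' x]
      _ = (z * w) * (x * y * x⁻¹) * z⁻¹ * y⁻¹ * w⁻¹ := by group
      _ = (w * z) * (x * y * x⁻¹) * z⁻¹ * y⁻¹ * w⁻¹ := by rw [hw' z]
      _ = w * (z * (x * y * x⁻¹)) * z⁻¹ * y⁻¹ * w⁻¹ := by group
      _ = w * ((x * y * x⁻¹) * z) * z⁻¹ * y⁻¹ * w⁻¹ := by rw [hz' (x * y * x⁻¹)]
      _ = (w * (x * y * x⁻¹ * y⁻¹)) * w⁻¹ := by group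
      _ = ((x * y * x⁻¹ * y⁻¹) * w) * w⁻¹ := by rw [hw' (x * y * x⁻¹ * y⁻¹)]
      _ = x * y * x⁻¹ * y⁻¹ := by group
  have h2 : commutator X ≤ α.toMonoidHom.eqLocus (MonoidHom.id X) := by
    rw [commutator_def, Subgroup.commutator_le]
    exact fun x _ y _ => h1 x y
  intro x
  exact h2 (hperf ▸ Subgroup.mem_top x)

end Cfsg.Agent.S1304
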