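import Cfsg.Statements.S1305
import Cfsg.Agent.Components.Pump
import Cfsg.Agent.PLocal.ElemAb

set_option autoImplicit false
open Cfsg

namespace Cfsg.Agent.S1305

/-- Let G be a finite group of component type with the B-property and no nontrivial normal subgroup of odd order. Let a be an involution and K a component of C_G(a) such that (a) |K| is maximal among the orders of components of centralizers of involutions of G, (b) subject to (a) the 2-rank of the centralizer of K in C_G(a) is as large as possible, and (c) K has 2-rank at least 2. If B is an elementary abelian 2-subgroup of that centralizer of the largest possible order, then K is a component of C_G(b) for every non-identity b ∈ B. -/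
theorem result {G : Type*} [Group G] [Finite G] (hO : Cfsg.oddCore G = ⊥) (hB : Cfsg.HasBProperty G) (hct : Cfsg.IsComponentType G) (a : G) (ha : orderOf a = 2) (K : Subgroup G) (hKa : K ≤ Subgroup.centralizer ({a} : Set G)) (hK : Cfsg.IsComponent (K.subgroupOf (Subgroup.centralizer ({a} : Set G)))) (hmax : ∀ y : G, orderOf y = 2 → ∀ K' : Subgroup G, K' ≤ Subgroup.centralizer ({y} : Set G) → Cfsg.IsComponent (K'.subgroupOf (Subgroup.centralizer ({y} : Set G))) → Nat.card ↥K' ≤ Nat.card ↥K ∧ (Nat.card ↥K' = Nat.card ↥K → ∀ k : ℕ, Cfsg.PRankLE 2 k ↥(Subgroup.centralizer ({a} : Set G) ⊓ Subgroup.centralizer (K : Set G)) → Cfsg.PRankLE 2 k ↥(Subgroup.centralizer ({y} : Set G) ⊓ Subgroup.centralizer (K' : Set G)))) (hrk : ¬ Cfsg.PRankLE 2 1 ↥K) (B : Subgroup G) (hBle : B ≤ Subgroup.centralizer ({a} : Set G) ⊓ Subgroup.centralizer (K : Set G)) (hBel : Cfsg.IsElementaryAbelian 2 B) (hBmax : ∀ B' : Subgroup G, B' ≤ Subgroup.centralizer ({a} : Set G)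 ⊓ Subgroup.centralizer (K : Set G) → Cfsg.IsElementaryAbelian 2 B' → Nat.card ↥B' ≤ Nat.card ↥B) (b : G) (hb : b ∈ B) (hb1 : b ≠ 1) : K ≤ Subgroup.centralizer ({b} : Set G) ∧ Cfsg.IsComponent (K.subgroupOf (Subgroup.centralizer ({b} : Set G))) :=by
  haveI : Fact (Nat.Prime 2) := ⟨Nat.prime_two⟩
  open Components in
  open LocalCore (cj cj_mul cj_one mem_cj cj_eq_iff) in
  set Cb := Subgroup.centralizer ({b} : Set G) with hCb
  set Ca := Subgroup.centralizer ({a} : Set G) with hCa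
  have hob : orderOf b = 2 := orderOf_eq_prime (hBel.2 b hb) hb1
  have hKb : K ≤ Cb := fun k hk => Subgroup.mem_centralizer_singleton_iff.mpr
    (Subgroup.mem_centralizer_iff.mp (hBle hb).2 k hk)
  refine ⟨hKb, ?_⟩
  have hab : a ∈ Cb := Subgroup.mem_centralizer_singleton_iff.mpr
    (Subgroup.mem_centralizer_singleton_iff.mp (hBle hb).1).symm
  set K' := K.subgroupOf Cb with hK'
  set a' : ↥Cb := ⟨a, hab⟩
  have ha2 : a * a = 1 := by rw [← pow_two, ← ha, pow_orderOf_eq_one]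
  have ha' : a' * a' = 1 := Subtype.ext ha2
  -- `K` is a component of the centralizer of `a` in `C(b)`
  have hcomp : Components.IsCompAt a' K' := by
    have hle : K' ≤ Subgroup.centralizer ({a'} : Set ↥Cb) := fun k hk =>
      Subgroup.mem_centralizer_singleton_iff.mpr (Subtype.ext (Subgroup.mem_centralizer_singleton_iff.mp (hKa hk)))
    refine ⟨hle, ?_⟩
    let f : ↥(Subgroup.centralizer ({a'} : Set ↥Cb)) →* ↥Ca :=
      (Cb.subtype.comp (Subgroup.subtype _)).codRestrict Ca fun v =>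
        Subgroup.mem_centralizer_singleton_iff.mpr
          (congrArg Subtype.val (Subgroup.mem_centralizer_singleton_iff.mp v.2))
    refine ⟨hK.1.comap f, ?_⟩
    exact isQuasisimple_of_equiv (((Subgroup.subgroupOfEquivOfLe hle).trans (Subgroup.subgroupOfEquivOfLe hKb)).trans
      (Subgroup.subgroupOfEquivOfLe hKa).symm).symm hK.2
  obtain ⟨EK, hEKc, hEK2, hEKcard⟩ : ∃ A : Subgroup ↥K, IsMulCommutative A ∧ (∀ a ∈ A, a ^ 2 = 1) ∧
      2 ^ 1 < Nat.card A := by
    by_contra h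
    exact hrk fun A h1 h2 => not_lt.mp fun h3 => h ⟨A, h1, h2, h3⟩
  have hK2 : 2 ∣ Nat.card ↥K := by
    haveI : Nontrivial ↥EK := Finite.one_lt_card_iff_nontrivial.mp (by omega)
    obtain ⟨v, hv⟩ := exists_ne (1 : ↥EK)
    have hv' : orderOf ((v : ↥K)) = 2 :=
      orderOf_eq_prime (hEK2 v v.2) fun e => hv (Subtype.ext e)
    exact hv' ▸ orderOf_dvd_natCard _
  -- `K` lies in the layer of `C(b)`
  have hlay : K' ≤ Cfsg.layer ↥Cb := by
    have h1 : K' ≤ Cfsg.pLayer 2 ↥Cb := by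
      set Cab := Subgroup.centralizer ((Subgroup.zpowers a' : Subgroup ↥Cb) : Set ↥Cb) with hCab
      have he : Cab = Subgroup.centralizer ({a'} : Set ↥Cb) := by
        rw [hCab, Subgroup.zpowers_eq_closure, Subgroup.centralizer_closure]
      have hp : IsPGroup 2 ↥(Subgroup.zpowers a') := IsPGroup.of_card (n := 1) (by
        rw [Nat.card_zpowers, ← Subgroup.orderOf_coe, pow_one]; exact ha)
      refine le_trans ?_ (LBalance.lBalance hp)
      show K' ≤ (Cfsg.pLayer 2 ↥Cab).map Cab.subtype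
      rw [he]
      intro k hk
      refine ⟨⟨k, hcomp.1 hk⟩, Pump.component_le_pLayer_two hcomp.2 ?_ hk, rfl⟩
      rwa [Nat.card_congr ((Subgroup.subgroupOfEquivOfLe hcomp.1).trans
        (Subgroup.subgroupOfEquivOfLe hKb)).toEquiv]
    refine h1.trans (sSup_le fun L hL => component_le_layer ⟨hL.1, ?_⟩)
    rw [pComponent_quasisimple_iff hL]
    have h2 : ⁅Cfsg.pLayer 2 ↥Cb, Cfsg.oddCore ↥Cb⁆ = ⊥ :=
      (Subgroup.map_eq_bot_iff_of_injective _ Cb.subtype_injective).mp (le_bot_iff.mp ((hB b hob).trans hO.le))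
    refine le_bot_iff.mp ((Subgroup.commutator_mono (pComponent_le_pLayer hL) ?_).trans h2.le)
    rw [pPrimeCore_map_subtype hL.1]
    exact inf_le_right
  obtain ⟨D, hD, hKD, hcases⟩ := Pump.exists_component ha' hcomp hlay
  set DG := D.map Cb.subtype with hDG
  have hDGb : DG ≤ Cb := Subgroup.map_subtype_le D
  have hDG2 : DG.subgroupOf Cb = D := Subgroup.comap_map_eq_self_of_injective Cb.subtype_injective D
  have hmx := hmax b hob DG hDGb (by rw [hDG2]; exact hD)
  have hcD : Nat.card ↥DG = Nat.card ↥D := Core.card_map_subtype D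
  have hcK : Nat.card ↥K' = Nat.card ↥K := Nat.card_congr (Subgroup.subgroupOfEquivOfLe hKb).toEquiv
  rcases hcases with ⟨-, hle⟩ | ⟨hmove, hmem⟩
  · rw [Subgroup.eq_of_le_of_card_ge hle (by rw [hcK, ← hcD]; exact hmx.1)]
    exact hD
  exfalso
  set D' := cj a' D with hD'
  have hD'c : Cfsg.IsComponent D' := isComponent_conj hD a'
  have hcomm : D' ≤ Subgroup.centralizer (D : Set ↥Cb) := components_commute_le hD'c hD hmove
  have hinv : a'⁻¹ = a' := inv_eq_of_mul_eq_one_right ha'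
  let r : ↥D → ↥K' := fun d => ⟨(d : ↥Cb) * (a' * d * a'⁻¹), (hmem _).mpr ⟨d, d.2, rfl⟩⟩
  have hrs : Function.Surjective r := by
    rintro ⟨k, hk⟩
    obtain ⟨d, hd, rfl⟩ := (hmem k).mp hk
    exact ⟨⟨d, hd⟩, rfl⟩
  have hcard : Nat.card ↥DG = Nat.card ↥K := le_antisymm hmx.1 (by
    rw [hcD, ← hcK]; exact Nat.card_le_card_of_surjective r hrs)
  have hrb : Function.Bijective r :=
    (Nat.bijective_iff_surjective_and_card r).mpr ⟨hrs, by rw [hcK, ← hcD, hcard]⟩
  -- the elements of `B` that normalize `D`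
  set B' := B.subgroupOf Cb with hB'
  have hBb : B ≤ Cb := fun β hβ => Subgroup.mem_centralizer_singleton_iff.mpr (PLocal.comm_of_EA hBel hβ hb)
  have hBa : ∀ β ∈ B', β * a' = a' * β := fun β hβ =>
    Subtype.ext (Subgroup.mem_centralizer_singleton_iff.mp (hBle hβ).1)
  have hBK : ∀ β ∈ B', ∀ k ∈ K', k * β = β * k := fun β hβ k hk =>
    Subtype.ext (Subgroup.mem_centralizer_iff.mp (hBle hβ).2 _ hk)
  have hswap : cj a' D' = D := by rw [hD', cj_mul, ha', cj_one]
  set B0 := B' ⊓ Subgroup.normalizer (D : Set ↥Cb) with hB0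
  have hB0c : B0 ≤ Subgroup.centralizer (D : Set ↥Cb) := by
    rintro β ⟨hβ, hβN⟩
    refine Subgroup.mem_centralizer_iff.mpr fun d hd => ?_
    have hd' : β * d * β⁻¹ ∈ D := (Subgroup.mem_normalizer_iff.mp hβN d).mp hd
    have hβc : β * a' * β⁻¹ = a' := by rw [hBa β hβ, mul_inv_cancel_right]
    have hβc' : β * a'⁻¹ * β⁻¹ = a'⁻¹ := by rw [hinv]; exact hβc
    have h1 : r ⟨β * d * β⁻¹, hd'⟩ = r ⟨d, hd⟩ := by
      apply Subtype.ext
      show β * d * β⁻¹ * (a' * (β * d * β⁻¹) * a'⁻¹) = d * (a' * d * a'⁻¹)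
      calc β * d * β⁻¹ * (a' * (β * d * β⁻¹) * a'⁻¹)
          = β * d * β⁻¹ * ((β * a' * β⁻¹) * (β * d * β⁻¹) * (β * a'⁻¹ * β⁻¹)) := by rw [hβc, hβc']
        _ = β * (d * (a' * d * a'⁻¹)) * β⁻¹ := by group
        _ = _ := by rw [← hBK β hβ _ ((hmem _).mpr ⟨d, hd, rfl⟩), mul_inv_cancel_right]
    have h2 : β * d * β⁻¹ = d := congrArg Subtype.val (hrb.1 h1)
    rw [mul_inv_eq_iff_eq_mul] at h2
    exact h2.symm
  have hB0c' : B0 ≤ Subgroup.centralizer (D' : Set ↥Cb) := by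
    intro β hβ
    refine Subgroup.mem_centralizer_iff.mpr ?_
    rintro _ ⟨d, hd, rfl⟩
    have h1 : Commute β d := (Subgroup.mem_centralizer_iff.mp (hB0c hβ) d hd).symm
    have h2 : Commute β a' := hBa β hβ.1
    exact ((h2.mul_right h1).mul_right h2.inv_right).symm.eq
  have horb : ∀ β ∈ B', cj β D = D ∨ cj β D = D' := by
    intro β hβ
    by_contra h
    push Not at h
    have hβD : Cfsg.IsComponent (cj β D) := isComponent_conj hD β
    apply hKD
    intro k hk
    rw [Subgroup.mem_centralizer_iff]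
    intro d hd
    obtain ⟨d₀, hd₀, rfl⟩ := (hmem k).mp hk
    have e1 : Commute (β * d * β⁻¹) d₀ := Subgroup.mem_centralizer_iff.mp
      (components_commute_le hD hβD (Ne.symm h.1) hd₀) _ (mem_cj hd)
    have e2 : Commute (β * d * β⁻¹) (a' * d₀ * a'⁻¹) := Subgroup.mem_centralizer_iff.mp
      (components_commute_le hD'c hβD (Ne.symm h.2) (mem_cj hd₀)) _ (mem_cj hd)
    have e3 : Commute (β * d * β⁻¹) (d₀ * (a' * d₀ * a'⁻¹)) := e1.mul_right e2
    have e4 : Commute β (d₀ * (a' * d₀ * a'⁻¹)) := (hBK β hβ _ hk).symm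
    have e5 := (e4.inv_left.mul_left e3).mul_left e4
    rwa [show β⁻¹ * (β * d * β⁻¹) * β = d by group] at e5
  have hidx : Nat.card ↥B' ≤ 2 * Nat.card ↥B0 := by
    haveI : Fintype ↥B' := Fintype.ofFinite _
    have hcm := Subgroup.card_mul_index (B0.subgroupOf B')
    rw [Nat.card_congr (Subgroup.subgroupOfEquivOfLe (inf_le_left : B0 ≤ B')).toEquiv] at hcm
    rw [← hcm, mul_comm 2]
    refine Nat.mul_le_mul_left _ ?_
    classical
    let θ : ↥B' ⧸ B0.subgroupOf B' → Bool := fun q => decide (cj ((Quotient.out q : ↥B') : ↥Cb) D = D)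
    refine (Nat.card_le_card_of_injective θ fun q q' he => ?_).trans_eq (by simp)
    have key : ∀ u v : ↥B', decide (cj (u : ↥Cb) D = D) = decide (cj (v : ↥Cb) D = D) →
        cj (u : ↥Cb) D = cj (v : ↥Cb) D := by
      intro u v huv
      rw [decide_eq_decide] at huv
      rcases horb _ u.2 with h1 | h1
      · rw [h1, huv.mp h1]
      · rcases horb _ v.2 with h2 | h2
        · exact absurd (huv.mpr h2) (h1 ▸ hmove)
        · rw [h1, h2]
    have h1 := key _ _ he
    rw [← Quotient.out_eq q, ← Quotient.out_eq q']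
    apply Quotient.sound
    refine QuotientGroup.leftRel_apply.mpr ?_
    refine ⟨Subgroup.mul_mem _ (Subgroup.inv_mem _ (Quotient.out q).2) (Quotient.out q').2, ?_⟩
    apply cj_eq_iff.mp
    show cj (((Quotient.out q : ↥B') : ↥Cb)⁻¹ * ((Quotient.out q' : ↥B') : ↥Cb)) D = D
    rw [← cj_mul, ← h1, cj_mul, inv_mul_cancel, cj_one]
  -- a four-group in the conjugate component
  let φ : ↥D →* ↥K := MonoidHom.mk' (fun d => ⟨((d : ↥Cb) * (a' * d * a'⁻¹) : ↥Cb), (r d).2⟩) fun d e =>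
    Subtype.ext (by
      have h1 := Subgroup.mem_centralizer_iff.mp (hcomm (mem_cj d.2)) (e : ↥Cb) e.2
      show (((d : ↥Cb) * e * (a' * ((d : ↥Cb) * e) * a'⁻¹) : ↥Cb) : G) =
        (((d : ↥Cb) * (a' * d * a'⁻¹) * ((e : ↥Cb) * (a' * e * a'⁻¹)) : ↥Cb) : G)
      refine congrArg Subtype.val ?_
      calc (d : ↥Cb) * e * (a' * ((d : ↥Cb) * e) * a'⁻¹)
          = (d : ↥Cb) * ((e : ↥Cb) * (a' * d * a'⁻¹)) * (a' * e * a'⁻¹) := by group
        _ = _ := by rw [h1]; group)
  have hφ : Function.Bijective φ := by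
    constructor
    · intro x y hxy
      have h0 : (((r x : ↥K') : ↥Cb) : G) = (((r y : ↥K') : ↥Cb) : G) := congrArg (fun w : ↥K => (w : G)) hxy
      exact hrb.1 (Subtype.ext (Subtype.ext h0))
    · rintro ⟨k, hk⟩
      obtain ⟨d, hd⟩ := hrs ⟨⟨k, hKb hk⟩, hk⟩
      exact ⟨d, Subtype.ext (congrArg (fun w : ↥K' => ((w : ↥Cb) : G)) hd)⟩
  set E1 : Subgroup ↥Cb := (((EK.comap φ).map D.subtype).map (MulAut.conj a').toMonoidHom) with hE1
  have hE1card : Nat.card ↥E1 = Nat.card ↥EK := by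
    rw [hE1, Subgroup.card_map_of_injective (MulAut.conj a').injective, Core.card_map_subtype]
    have := (Nat.card_congr ((EK.comap φ).equivMapOfInjective φ hφ.1).toEquiv).symm
    rwa [Subgroup.map_comap_eq_self_of_surjective hφ.2, eq_comm] at this
  have hE1D : E1 ≤ D' := Subgroup.map_mono (Subgroup.map_subtype_le _)
  have hE1EA : Cfsg.IsElementaryAbelian 2 E1 :=
    PLocal.isEA_map (PLocal.isEA_map (PLocal.isEA_comap ⟨hEKc, hEK2⟩ φ hφ.1) _) _
  have hB'EA : Cfsg.IsElementaryAbelian 2 B' := PLocal.isEA_comap hBel Cb.subtype Cb.subtype_injective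
  have hBE : ∀ x ∈ B0, ∀ y ∈ E1, x * y = y * x := fun x hx y hy =>
    (Subgroup.mem_centralizer_iff.mp (hB0c' hx) y (hE1D hy)).symm
  have hBC : B0 ≤ Subgroup.centralizer (E1 : Set ↥Cb) := fun x hx =>
    Subgroup.mem_centralizer_iff.mpr fun y hy => (hBE x hx y hy).symm
  have hinf : B0 ⊓ E1 = ⊥ := by
    rw [Subgroup.eq_bot_iff_forall]
    rintro z ⟨hz, hzE⟩
    obtain ⟨d, hd, e⟩ := hE1D hzE
    have e' : a' * d * a'⁻¹ = z := e
    have hza : a' * z = z * a' := (hBa z hz.1).symm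
    have hd' : d = z := by
      have h3 : a' * z * a'⁻¹ = z := by rw [hza, mul_inv_cancel_right]
      have h4 : a' * (a' * d * a'⁻¹) * a'⁻¹ = d := by
        calc a' * (a' * d * a'⁻¹) * a'⁻¹ = (a' * a') * d * (a' * a')⁻¹ := by group
          _ = d := by rw [ha', one_mul, inv_one, mul_one]
      rw [← h4, e', h3]
    subst hd'
    have h1 : r ⟨d, hd⟩ = r 1 := by
      apply Subtype.ext
      show d * (a' * d * a'⁻¹) = 1 * (a' * 1 * a'⁻¹)
      rw [e', show d * d = 1 by rw [← pow_two]; exact hB'EA.2 d hz.1]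
      group
    exact congrArg Subtype.val (hrb.1 h1)
  have hEA : Cfsg.IsElementaryAbelian 2 (B0 ⊔ E1 : Subgroup ↥Cb) :=
    PLocal.isEA_sup (PLocal.isEA_mono hB'EA inf_le_left) hE1EA hBC
  have hcard2 := PLocal.card_sup_mul_card_inf (A := B0) (B := E1)
  -- compare ranks
  obtain ⟨m, hm⟩ := (PLocal.isPGroup_of_EA hBel).exists_card_eq
  have hR : Cfsg.PRankLE 2 m ↥(Ca ⊓ Subgroup.centralizer (K : Set G)) := fun A hA1 hA2 => by
    rw [← hm, ← Core.card_map_subtype]
    exact hBmax _ (Subgroup.map_subtype_le _) (PLocal.isEA_map ⟨hA1, hA2⟩ _)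
  have h3 := hmx.2 hcard m hR
  have hle : (B0 ⊔ E1).map Cb.subtype ≤ Cb ⊓ Subgroup.centralizer (DG : Set G) := by
    refine le_inf (Subgroup.map_subtype_le _) ?_
    rintro _ ⟨v, hv, rfl⟩
    rw [Subgroup.mem_centralizer_iff]
    rintro _ ⟨d, hd, rfl⟩
    exact congrArg Subtype.val (Subgroup.mem_centralizer_iff.mp
      ((sup_le hB0c (hE1D.trans hcomm) : B0 ⊔ E1 ≤ Subgroup.centralizer (D : Set ↥Cb)) hv) d hd)
  set A2 := ((B0 ⊔ E1).map Cb.subtype).subgroupOf (Cb ⊓ Subgroup.centralizer (DG : Set G)) with hA2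
  have hA2EA := PLocal.isEA_comap (PLocal.isEA_map hEA Cb.subtype)
    (Cb ⊓ Subgroup.centralizer (DG : Set G)).subtype (Subgroup.subtype_injective _)
  have h4 := h3 A2 hA2EA.1 hA2EA.2
  rw [hA2, Nat.card_congr (Subgroup.subgroupOfEquivOfLe hle).toEquiv, Core.card_map_subtype, ← hm,
    ← Nat.card_congr (Subgroup.subgroupOfEquivOfLe hBb).toEquiv] at h4
  have hsup : Nat.card ↥(B0 ⊔ E1 : Subgroup ↥Cb) = Nat.card ↥B0 * Nat.card ↥E1 := by
    have := hcard2 (hBC.trans (Subgroup.centralizer_le_normalizer _))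
    rwa [hinf, Subgroup.card_bot, mul_one] at this
  have hpos : 0 < Nat.card ↥B0 := Nat.card_pos
  have h5 : Nat.card ↥B0 * 3 ≤ Nat.card ↥B0 * Nat.card ↥E1 := Nat.mul_le_mul_left _ (by rw [hE1card]; omega)
  change Nat.card ↥(B0 ⊔ E1 : Subgroup ↥Cb) ≤ Nat.card ↥B' at h4
  omega

end Cfsg.Agent.S1305
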