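import Cfsg.Statements.S1306
import Cfsg.Agent.Components.Standard

set_option autoImplicit false
open Cfsg

namespace Cfsg.Agent.S1306

/-- Let G be finite, x an involution and L ≤ C_G(x) a component of C_G(x). Suppose L is a component of C_G(y) for every involution y ∈ C_G(L), and ⁅L, g L g⁻¹⁆ ≠ 1 whenever g L g⁻¹ ≠ L. Then L is a standard subgroup of G. -/
theorem result {G : Type*} [Group G] [Finite G] (x : G) (hx : orderOf x = 2) (L : Subgroup G) (hLx : L ≤ Subgroup.centralizer ({x} : Set G)) (hL : Cfsg.IsComponent (L.subgroupOf (Subgroup.centralizer ({x} : Set G)))) (hne : ∀ y : G, orderOf y = 2 → y ∈ Subgroup.centralizer (L : Set G) → L ≤ Subgroup.centralizer ({y} : Set G) ∧ Cfsg.IsComponent (L.subgroupOf (Subgroup.centralizer ({y} : Set G)))) (hnc : ∀ g : G, L.map (MulAut.conj g).toMonoidHom ≠ L → ⁅L, L.map (MulAut.conj g).toMonoidHom⁆ ≠ ⊥) : Cfsg.IsStandardSubgroup L := by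
  have hxC : x ∈ Subgroup.centralizer (L : Set G) := by
    rw [Subgroup.mem_centralizer_iff]
    intro l hl
    exact (Subgroup.mem_centralizer_singleton_iff.mp (hLx hl)).symm ▸ rfl
  have hev : Even (Nat.card ↥(Subgroup.centralizer (L : Set G))) :=
    even_iff_two_dvd.mpr (hx ▸ Subgroup.orderOf_dvd_natCard _ hxC)
  have key : ∀ y g : G, orderOf y = 2 → y ∈ Subgroup.centralizer (L : Set G) →
      g⁻¹ * y * g ∈ Subgroup.centralizer (L : Set G) → g ∈ Subgroup.normalizer (L : Set G) := by
    intro y g hy hyC hyg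
    apply Cfsg.Agent.Components.mem_normalizer_of_map_conj_eq
    refine Cfsg.Agent.Components.map_conj_eq_of_isCompAt (hnc g) (hne y hy hyC) (hne _ ?_ hyg)
    have h := (MulAut.conj g⁻¹).orderOf_eq y
    simpa [MulAut.conj_apply] using h.trans hy
  refine ⟨Cfsg.Agent.Components.isQuasisimple_of_equiv (Subgroup.subgroupOfEquivOfLe hLx) hL.2,
    ⟨hev, fun g hg => ?_⟩, hnc, ?_⟩
  · by_contra hodd
    rw [Nat.not_odd_iff_even, even_iff_two_dvd] at hodd
    obtain ⟨⟨y, hy⟩, hy2⟩ := exists_prime_orderOf_dvd_card' 2 hodd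
    obtain ⟨hyC, z, hz, hzy⟩ := hy
    apply hg
    apply Cfsg.Agent.Components.mem_normalizer_centralizer
    have hzy' : g⁻¹ * y * g = z := by
      rw [← hzy]; simp [mul_assoc]
    exact key y g ((Subgroup.orderOf_coe _).trans hy2) hyC (hzy' ▸ hz)
  · apply le_antisymm (fun g hg => Cfsg.Agent.Components.mem_normalizer_centralizer hg)
    intro g hg
    exact key x g hx hxC (((Subgroup.normalizer _).inv_mem hg |> Subgroup.mem_normalizer_iff.mp) x
      |>.mp hxC |> fun h => by simpa using h)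

end Cfsg.Agent.S1306
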