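import Cfsg.Statements.S1307
import Cfsg.Agent.Components.RankOne

set_option autoImplicit false
open Cfsg

namespace Cfsg.Agent.S1307

/-- Let G be finite, x an involution and L ≤ C_G(x) a component of C_G(x) of even order and 2-rank 1, such that L is a component of C_G(y) for every involution y ∈ C_G(L). Then some involution of L is a classical involution of G. -/
theorem result {G : Type*} [Group G] [Finite G] (x : G) (hx : orderOf x = 2) (L : Subgroup G) (hLx : L ≤ Subgroup.centralizer ({x} : Set G)) (hL : Cfsg.IsComponent (L.subgroupOf (Subgroup.centralizer ({x} : Set G)))) (heven : Even (Nat.card ↥L)) (hrk : Cfsg.PRankLE 2 1 ↥L) (hne : ∀ y : G, orderOf y = 2 → y ∈ Subgroup.centralizer (L : Set G) → L ≤ Subgroup.centralizer ({y} : Set G) ∧ Cfsg.IsComponent (L.subgroupOf (Subgroup.centralizer ({y} : Set G)))) : ∃ t ∈ L, Cfsg.IsClassicalInvolution t := by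
  have hQ : Cfsg.IsQuasisimple ↥L :=
    Cfsg.Agent.Components.isQuasisimple_of_equiv (Subgroup.subgroupOfEquivOfLe hLx) hL.2
  obtain ⟨⟨t, htL⟩, ht, htc, S, n, hS⟩ := Cfsg.Agent.Components.quasisimple_rankOne hQ heven hrk
  have ht2 : orderOf t = 2 := (Subgroup.orderOf_coe _).trans ht
  have htC : t ∈ Subgroup.centralizer (L : Set G) := by
    rw [Subgroup.mem_centralizer_iff]
    intro l hl
    exact congrArg Subtype.val (Subgroup.mem_center_iff.mp htc ⟨l, hl⟩)
  obtain ⟨hLt, hLc⟩ := hne t ht2 htC
  exact ⟨t, htL, ht2, L, hLt, htL, hLc.1, S, n, hS⟩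

end Cfsg.Agent.S1307
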