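import Cfsg.Statements.S1314
import Mathlib.Tactic.Group
import Cfsg.Agent.Components.Basic

set_option autoImplicit false
open Cfsg
open scoped commutatorElement

namespace Cfsg.Agent.S1314

/-- Let x be an involution of a group G and L a perfect subgroup with ⁅L, x L x⁻¹⁆ = 1. Then l ↦ l (x l x⁻¹) is a group homomorphism π from L to G whose kernel is central in L and whose image lies in C_G(x); and the commutator subgroup of C_{L ⊔ xLx⁻¹}(x) equals the image of π. -/
theorem result {G : Type*} [Group G] [Finite G] (x : G) (hx : orderOf x = 2) (L : Subgroup G) (hperf : ⁅L, L⁆ = L) (hcomm : ⁅L, L.map (MulAut.conj x).toMonoidHom⁆ = ⊥) : ∃ π : ↥L →* G, (∀ l : ↥L, π l = (l : G) * (x * (l : G) * x⁻¹)) ∧ π.ker ≤ Subgroup.center ↥L ∧ π.range ≤ Subgroup.centralizer ({x} : Set G) ∧ ⁅(L ⊔ L.map (MulAut.conj x).toMonoidHom) ⊓ Subgroup.centralizer ({x} : Set G), (L ⊔ L.map (MulAut.conj x).toMonoidHom) ⊓ Subgroup.centralizer ({x} : Set G)⁆ = π.range := by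
  set L' := L.map (MulAut.conj x).toMonoidHom with hL'
  have hx2 : x * x = 1 := by rw [← sq, ← hx]; exact pow_orderOf_eq_one x
  have hxx : ∀ g, x * (x * g * x⁻¹) * x⁻¹ = g := fun g => by
    rw [← mul_assoc, ← mul_assoc, hx2, one_mul, mul_assoc, ← mul_inv_rev, hx2, inv_one, mul_one]
  have hmem : ∀ l ∈ L, x * l * x⁻¹ ∈ L' := fun l hl => ⟨l, hl, rfl⟩
  have hc : ∀ l ∈ L, ∀ m ∈ L', l * m = m * l := fun l hl m hm =>
    (Subgroup.mem_centralizer_iff.mp
      ((Subgroup.commutator_eq_bot_iff_le_centralizer.mp hcomm) hl) m hm).symm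
  let π : ↥L →* G :=
    MonoidHom.mk' (fun l => (l : G) * (x * (l : G) * x⁻¹)) fun a b => by
      have := hc b b.2 _ (hmem a a.2)
      show (a * b : G) * (x * (a * b : G) * x⁻¹) = (a : G) * (x * a * x⁻¹) * ((b : G) * (x * b * x⁻¹))
      calc (a * b : G) * (x * (a * b : G) * x⁻¹)
          = (a : G) * ((b : G) * (x * a * x⁻¹)) * (x * b * x⁻¹) := by group
        _ = (a : G) * ((x * a * x⁻¹) * b) * (x * b * x⁻¹) := by rw [this]
        _ = _ := by group
  have hπC : π.range ≤ Subgroup.centralizer ({x} : Set G) := by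
    rintro _ ⟨l, rfl⟩
    rw [Subgroup.mem_centralizer_singleton_iff]
    show (l : G) * (x * l * x⁻¹) * x = x * ((l : G) * (x * l * x⁻¹))
    calc (l : G) * (x * l * x⁻¹) * x = (x * l * x⁻¹) * l * x := by rw [hc l l.2 _ (hmem l l.2)]
      _ = (x * l * x⁻¹) * (x * (x * l * x⁻¹) * x⁻¹) * x := by rw [hxx]
      _ = x * ((l : G) * (x * l * x⁻¹)) := by group
  refine ⟨π, fun l => rfl, ?_, hπC, ?_⟩
  · intro l hl
    rw [Subgroup.mem_center_iff]
    intro g
    apply Subtype.ext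
    have h1 : (l : G) = (x * l * x⁻¹)⁻¹ := eq_inv_of_mul_eq_one_left (MonoidHom.mem_ker.mp hl)
    have h2 : (l : G) ∈ L' := h1 ▸ inv_mem (hmem l l.2)
    exact hc g g.2 l h2
  · set K := (L ⊔ L') ⊓ Subgroup.centralizer ({x} : Set G) with hK
    have hπK : π.range ≤ K := le_inf
      (by rintro _ ⟨l, rfl⟩; exact mul_mem (le_sup_left (b := L') l.2) (le_sup_right (a := L) (hmem l l.2)))
      hπC
    apply le_antisymm
    · rw [Subgroup.commutator_le]
      have hdec : ∀ y ∈ K, ∃ (l : ↥L) (c : G), y = π l * c ∧ ∀ g ∈ L ⊔ L', g * c = c * g := by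
        rintro y ⟨hy, hyx⟩
        obtain ⟨l, hl, m, hm, rfl⟩ := Set.mem_mul.mp
          (Subgroup.coe_mul_of_left_le_normalizer_right L L'
            ((Subgroup.commutator_eq_bot_iff_le_centralizer.mp hcomm).trans
              (Subgroup.centralizer_le_normalizer _)) ▸ (hy : y ∈ ((L ⊔ L' : Subgroup G) : Set G)))
        obtain ⟨k, hk, rfl⟩ := hm
        refine ⟨⟨l, hl⟩, x * (l⁻¹ * k) * x⁻¹, ?_, fun g hg => ?_⟩
        · show l * (x * k * x⁻¹) = l * (x * l * x⁻¹) * (x * (l⁻¹ * k) * x⁻¹)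
          group
        · have hy' : l * (x * k * x⁻¹) = (x * l * x⁻¹) * k := by
            have h1 := Subgroup.mem_centralizer_singleton_iff.mp hyx
            change l * (x * k * x⁻¹) * x = x * (l * (x * k * x⁻¹)) at h1
            calc l * (x * k * x⁻¹) = x * (l * (x * k * x⁻¹)) * x⁻¹ := by
                  rw [← h1]; group
              _ = (x * l * x⁻¹) * (x * (x * k * x⁻¹) * x⁻¹) := by group
              _ = _ := by rw [hxx]
          have hcL' : x * (l⁻¹ * k) * x⁻¹ ∈ L' := hmem _ (mul_mem (inv_mem hl) hk)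
          have hcL : x * (l⁻¹ * k) * x⁻¹ ∈ L := by
            have : x * (l⁻¹ * k) * x⁻¹ = l⁻¹ * k := by
              calc x * (l⁻¹ * k) * x⁻¹ = (x * l * x⁻¹)⁻¹ * (x * k * x⁻¹) := by group
                _ = (x * l * x⁻¹)⁻¹ * (l⁻¹ * (l * (x * k * x⁻¹))) := by group
                _ = (x * l * x⁻¹)⁻¹ * l⁻¹ * ((x * l * x⁻¹) * k) := by rw [hy']; group
                _ = (l * (x * l * x⁻¹))⁻¹ * ((x * l * x⁻¹) * k) := by group
                _ = ((x * l * x⁻¹) * l)⁻¹ * ((x * l * x⁻¹) * k) := by rw [hc l hl _ (hmem l hl)]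
                _ = l⁻¹ * k := by group
            rw [this]; exact mul_mem (inv_mem hl) hk
          have hsup : L ⊔ L' ≤ Subgroup.centralizer ({x * (l⁻¹ * k) * x⁻¹} : Set G) := by
            refine sup_le ?_ ?_ <;> intro a ha <;> rw [Subgroup.mem_centralizer_singleton_iff]
            · exact hc a ha _ hcL'
            · exact (hc _ hcL a ha).symm
          exact Subgroup.mem_centralizer_singleton_iff.mp (hsup hg)
      intro a ha b hb
      obtain ⟨la, ca, ea, hca⟩ := hdec a ha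
      obtain ⟨lb, cb, eb, hcb⟩ := hdec b hb
      have hinl : ∀ l : ↥L, π l ∈ L ⊔ L' := fun l => (hπK ⟨l, rfl⟩).1
      have hca' : ca ∈ L ⊔ L' := by
        have := mul_mem (inv_mem (hinl la)) ha.1
        rwa [ea, inv_mul_cancel_left] at this
      refine ⟨⁅la, lb⁆, ?_⟩
      rw [map_commutatorElement, ea, eb]
      set p := π la
      set q := π lb
      simp only [commutatorElement_def, mul_inv_rev]
      have e1 : q * ca = ca * q := hca q (hinl lb)
      have e2 : p * cb = cb * p := hcb p (hinl la)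
      have e3 : ca * cb = cb * ca := hcb ca hca'
      have e4 : ca⁻¹ * p⁻¹ * cb = cb * (ca⁻¹ * p⁻¹) := hcb _ (mul_mem (inv_mem hca') (inv_mem (hinl la)))
      calc p * q * p⁻¹ * q⁻¹ = p * (q * ca) * (ca⁻¹ * p⁻¹ * cb) * (cb⁻¹ * q⁻¹) := by group
        _ = p * (ca * q) * (cb * (ca⁻¹ * p⁻¹)) * (cb⁻¹ * q⁻¹) := by rw [e1, e4]
        _ = p * ca * (q * cb) * (ca⁻¹ * p⁻¹) * (cb⁻¹ * q⁻¹) := by group
    · have hLp : ⁅(⊤ : Subgroup ↥L), ⊤⁆ = ⊤ := (Subgroup.isPerfect_iff.mpr hperf).commutator_eq_top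
      conv_lhs => rw [MonoidHom.range_eq_map, ← hLp, Subgroup.map_commutator, ← MonoidHom.range_eq_map]
      exact Subgroup.commutator_mono hπK hπK

end Cfsg.Agent.S1314
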