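import Cfsg.Statements.S1316
import Cfsg.Agent.Components.Embedding

set_option autoImplicit false
open Cfsg

namespace Cfsg.Agent.S1316

/-- For a finite group X, E(X) equals the intersection of the derived series of F*(X) (its last term). -/
theorem result {X : Type*} [Group X] [Finite X] : (⨅ n : ℕ, (derivedSeries ↥(Cfsg.generalizedFittingSubgroup X) n).map (Cfsg.generalizedFittingSubgroup X).subtype) = Cfsg.layer X := by
  set F := Cfsg.generalizedFittingSubgroup X with hF
  have hle : Cfsg.layer X ≤ F := Components.layer_le_generalizedFitting
  apply le_antisymm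
  · set E := (Cfsg.layer X).subgroupOf F with hE
    haveI : Group.IsSolvable (↥F ⧸ E) := by
      haveI : Group.IsSolvable ↥((Cfsg.fittingSubgroup X).subgroupOf F) := by
        haveI := Core.isSolvable_fittingSubgroup X
        exact Group.isSolvable_of_isSolvable_injective
          (f := (Subgroup.subgroupOfEquivOfLe Components.fitting_le_generalizedFitting).toMonoidHom)
          (MulEquiv.injective _)
      refine Group.isSolvable_of_surjective
        (f := (QuotientGroup.mk' E).comp ((Cfsg.fittingSubgroup X).subgroupOf F).subtype) ?_
      intro y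
      obtain ⟨⟨x, hx⟩, rfl⟩ := QuotientGroup.mk'_surjective E y
      obtain ⟨e, he, f, hf, rfl⟩ :=
        Components.mem_sup_of_le_centralizer Components.layer_le_centralizer_fitting hx
      refine ⟨⟨⟨f, Components.fitting_le_generalizedFitting hf⟩, hf⟩, ?_⟩
      simp only [MonoidHom.comp_apply, QuotientGroup.mk'_apply, QuotientGroup.eq]
      show f⁻¹ * (e * f) ∈ Cfsg.layer X
      have := (inferInstance : (Cfsg.layer X).Normal).conj_mem e he f⁻¹
      rwa [inv_inv, mul_assoc] at this
    obtain ⟨n, hn⟩ := (Group.isSolvable_def (↥F ⧸ E)).mp inferInstance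
    refine (iInf_le _ n).trans ?_
    have h1 := map_derivedSeries_le_derivedSeries (QuotientGroup.mk' E) n
    rw [hn, le_bot_iff, Subgroup.map_eq_bot_iff, QuotientGroup.ker_mk'] at h1
    calc (derivedSeries ↥F n).map F.subtype ≤ E.map F.subtype := Subgroup.map_mono h1
      _ = Cfsg.layer X := Components.map_subgroupOf_of_le hle
  · refine le_iInf fun n => ?_
    induction n with
    | zero =>
      rw [derivedSeries_zero, ← MonoidHom.range_eq_map, Subgroup.range_subtype]
      exact hle
    | succ n ih =>
      rw [derivedSeries_succ, Subgroup.map_commutator, ← Components.layer_commutator_self]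
      exact Subgroup.commutator_mono ih ih

end Cfsg.Agent.S1316
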