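import Cfsg.Statements.S1319
import Cfsg.Agent.Components.Basic

set_option autoImplicit false
open Cfsg

namespace Cfsg.Agent.S1319

/-- Let A be a subnormal subgroup of the finite group X with E(A) = A. Then A ≤ E(X) and A is normal in E(X). -/
theorem result {X : Type*} [Group X] [Finite X] (A : Subgroup X) (hsn : A.IsSubnormal) (hA : Cfsg.layer ↥A = ⊤) : A ≤ Cfsg.layer X ∧ (A.subgroupOf (Cfsg.layer X)).Normal := by
  have hA' : A ≤ sSup {L : Subgroup X | Cfsg.IsComponent L ∧ L ≤ A} := by
    have : (⊤ : Subgroup ↥A).map A.subtype ≤ sSup {L : Subgroup X | Cfsg.IsComponent L ∧ L ≤ A} := by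
      rw [← hA, Subgroup.map_le_iff_le_comap]
      refine Components.layer_le_iff.mpr fun L hL => ?_
      rw [← Subgroup.map_le_iff_le_comap]
      exact le_sSup (show L.map A.subtype ∈ {L : Subgroup X | Cfsg.IsComponent L ∧ L ≤ A} from
        ⟨(Components.isComponent_subtype_iff hsn L).mpr hL, Subgroup.map_subtype_le L⟩)
    rwa [← MonoidHom.range_eq_map, Subgroup.range_subtype] at this
  have hle : A ≤ Cfsg.layer X := hA'.trans (sSup_le fun L hL => Components.component_le_layer hL.1)
  refine ⟨hle, (Subgroup.normal_subgroupOf_iff_le_normalizer hle).mpr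
    (Components.layer_le_iff.mpr fun K hK => ?_)⟩
  by_cases hKA : K ≤ A
  · exact hKA.trans Subgroup.le_normalizer
  · exact (Subgroup.commutator_eq_bot_iff_le_centralizer.mp
      (Components.component_commutator_eq_bot_of_not_le hK hsn hKA)).trans
        (Subgroup.centralizer_le_normalizer _)

end Cfsg.Agent.S1319
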