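import Cfsg.Statements.S1328
import Cfsg.Agent.Components.BenderLemma

set_option autoImplicit false
open Cfsg

namespace Cfsg.Agent.S1328

/-- Let G be finite, H ≤ G with O(H) = 1, t an involution of G normalizing H, and Y a nontrivial subgroup of O(C_H(t)). Then some component E of H is normalized by t and by Y and centralized by neither t nor Y. -/
theorem result {G : Type*} [Group G] [Finite G] (H : Subgroup G) (hO : Cfsg.oddCore ↥H = ⊥) (t : G) (ht : orderOf t = 2) (htH : t ∈ Subgroup.normalizer (H : Set G)) (Y : Subgroup G) (hY1 : Y ≠ ⊥) (hY : Y ≤ (Cfsg.oddCore ↥(H ⊓ Subgroup.centralizer ({t} : Set G))).map (H ⊓ Subgroup.centralizer ({t} : Set G)).subtype) : ∃ E : Subgroup ↥H, Cfsg.IsComponent E ∧ (E.map H.subtype).map (MulAut.conj t).toMonoidHom = E.map H.subtype ∧ Y ≤ Subgroup.normalizer ((E.map H.subtype : Subgroup G) : Set G) ∧ ¬ (t ∈ Subgroup.centralizer ((E.map H.subtype : Subgroup G) : Set G)) ∧ ¬ (Y ≤ Subgroup.centralizer ((E.map H.subtype :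 Subgroup G) : Set G)) := by
  open Cfsg.Agent.Components in
  haveI : Fact (Nat.Prime 2) := ⟨Nat.prime_two⟩
  have ht2 : t * t = 1 := by rw [← sq, ← ht, pow_orderOf_eq_one]
  let φ : ↥H ≃* ↥H :=
    { toFun := fun h => ⟨t * h * t⁻¹, (Subgroup.mem_normalizer_iff.mp htH h).mp h.2⟩
      invFun := fun h => ⟨t⁻¹ * h * t, (Subgroup.mem_normalizer_iff''.mp htH h).mp h.2⟩
      left_inv := fun h => Subtype.ext (by show t⁻¹ * (t * h * t⁻¹) * t = h; group)
      right_inv := fun h => Subtype.ext (by show t * (t⁻¹ * h * t) * t⁻¹ = h; group)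
      map_mul' := fun a b => Subtype.ext (by
        show t * (a * b : G) * t⁻¹ = t * a * t⁻¹ * (t * b * t⁻¹); group) }
  have hφ : ∀ g, φ (φ g) = g := fun g => Subtype.ext (by
    show t * (t * g * t⁻¹) * t⁻¹ = g
    calc t * (t * g * t⁻¹) * t⁻¹ = t * t * g * (t * t)⁻¹ := by group
      _ = g := by rw [ht2]; group)
  have hfix : ∀ g : ↥H, g ∈ BenderCore.fixedBy φ ↔
      (g : G) ∈ Subgroup.centralizer ({t} : Set G) := by
    intro g
    rw [BenderCore.mem_fixedBy, Subgroup.mem_centralizer_singleton_iff, Subtype.ext_iff]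
    exact (mul_inv_eq_iff_eq_mul (a := t * g) (b := t) (c := (g : G))).trans eq_comm
  let e : ↥(H ⊓ Subgroup.centralizer ({t} : Set G)) ≃* ↥(BenderCore.fixedBy φ) :=
    { toFun := fun g => ⟨⟨g, g.2.1⟩, (hfix _).mpr g.2.2⟩
      invFun := fun g => ⟨g.1.1, g.1.2, (hfix _).mp g.2⟩
      left_inv := fun g => rfl
      right_inv := fun g => rfl
      map_mul' := fun a b => rfl }
  have hV : BenderCore.fixedCore φ ≤ Subgroup.centralizer (Cfsg.pCore 2 ↥H : Set ↥H) := by
    intro y hy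
    have hyc : y ∈ BenderCore.fixedBy φ := BenderCore.fixedCore_le φ hy
    have hV2 : IsPGroup 2 ↥((Cfsg.pCore 2 ↥H).map H.subtype) :=
      (Cfsg.Agent.Core.isPGroup_pCore 2 ↥H).map _
    have hVn : Subgroup.normalizer (H : Set G) ≤
        Subgroup.normalizer (((Cfsg.pCore 2 ↥H).map H.subtype : Subgroup G) : Set G) :=
      normalizer_le_normalizer_map_char _
    have hP : IsPGroup 2 ↥(Subgroup.zpowers t) :=
      IsPGroup.of_card (n := 1) (by rw [Nat.card_zpowers, ht, pow_one])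
    have hres : (y : G) ∈ Subgroup.centralizer
        (((Cfsg.pCore 2 ↥H).map H.subtype : Subgroup G) : Set G) := by
      refine pprime_element_centralizes hP hV2 (Subgroup.zpowers_le.mpr (hVn htH))
        (hVn (Subgroup.le_normalizer y.2)) ?_ ?_ ?_
      · rw [Subgroup.orderOf_coe]
        exact Nat.coprime_two_right.mpr (BenderCore.odd_orderOf_fixedCore φ hy)
      · rw [Subgroup.mem_centralizer_iff]
        rintro _ ⟨i, rfl⟩
        exact Commute.zpow_left (a := t) (b := (y : G))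
          (Subgroup.mem_centralizer_singleton_iff.mp ((hfix y).mp hyc)).symm i
      · rintro _ ⟨v, hv, rfl⟩ hvt
        have hvf : v ∈ BenderCore.fixedBy φ := (hfix v).mpr (Subgroup.mem_centralizer_singleton_iff.mpr
          ((Subgroup.mem_centralizer_iff.mp hvt t (Subgroup.mem_zpowers t)).symm))
        have h1 := BenderCore.commutator_mem_fixedCore φ hvf hy
        have h2 : v * y * v⁻¹ * y⁻¹ ∈ Cfsg.pCore 2 ↥H := by
          rw [show v * y * v⁻¹ * y⁻¹ = v * (y * v⁻¹ * y⁻¹) by group]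
          exact mul_mem hv ((inferInstance : (Cfsg.pCore 2 ↥H).Normal).conj_mem _ (inv_mem hv) y)
        obtain ⟨k, hk⟩ := Cfsg.Agent.Core.isPGroup_pCore 2 ↥H ⟨_, h2⟩
        have h3 : orderOf (v * y * v⁻¹ * y⁻¹) ∣ 2 ^ k :=
          orderOf_dvd_of_pow_eq_one (congrArg Subtype.val hk)
        have h4 := Nat.eq_one_of_dvd_coprimes (Nat.Coprime.pow_right k
          (Nat.coprime_two_right.mpr (BenderCore.odd_orderOf_fixedCore φ h1))) dvd_rfl h3
        have h5 : v * y = y * v := by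
          rw [orderOf_eq_one_iff, mul_inv_eq_one, mul_inv_eq_iff_eq_mul] at h4
          exact h4
        exact congrArg Subtype.val h5
    rw [Subgroup.mem_centralizer_iff]
    intro v hv
    exact Subtype.ext (Subgroup.mem_centralizer_iff.mp hres v ⟨v, hv, rfl⟩)
  have hYH : Y ≤ H := fun y hy => by
    obtain ⟨z, -, rfl⟩ := hY hy
    exact z.2.1
  have hY' : Y.subgroupOf H ≤ BenderCore.fixedCore φ := by
    intro y hy
    obtain ⟨z, hz, hzy⟩ := hY hy
    refine ⟨e z, ?_, Subtype.ext hzy⟩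
    show e z ∈ Cfsg.pPrimeCore 2 _
    rw [← Cfsg.Agent.Core.pPrimeCore_map_equiv e]
    exact ⟨z, hz, rfl⟩
  have hY1' : Y.subgroupOf H ≠ ⊥ := fun h => hY1 (by
    rw [← Subgroup.map_subgroupOf_eq_of_le hYH, h, Subgroup.map_bot])
  obtain ⟨E, hE, hEY⟩ := BenderCore.exists_component_not_centralized φ hO hV hY' hY1'
  obtain ⟨y, hy, hyE⟩ := SetLike.not_le_iff_exists.mp hEY
  have hcase : ¬ (E.map φ.toMonoidHom ≠ E ∨ ∀ g ∈ E, φ g = g) := fun h =>
    hyE (BenderCore.centralizes_component φ hO hV hφ hE h (hY' hy))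
  simp only [not_or, not_not, ne_eq] at hcase
  obtain ⟨hinv, hnfix⟩ := hcase
  refine ⟨E, hE, ?_, fun w hw => ?_, fun htc => hnfix fun g hg => ?_, fun hYc => hyE ?_⟩
  · conv_rhs => rw [← hinv]
    rw [Subgroup.map_map, Subgroup.map_map]
    rfl
  · apply mem_normalizer_of_map_conj_eq
    have hn := BenderCore.normalizes_component φ hO hV hφ hE (y := ⟨w, hYH hw⟩)
      (hY' (show (⟨w, hYH hw⟩ : ↥H) ∈ Y.subgroupOf H from hw))
    conv_rhs => rw [← hn]
    rw [Subgroup.map_map, Subgroup.map_map]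
    rfl
  · apply Subtype.ext
    show t * g * t⁻¹ = g
    rw [mul_inv_eq_iff_eq_mul]
    exact (Subgroup.mem_centralizer_iff.mp htc g ⟨g, hg, rfl⟩).symm
  · rw [Subgroup.mem_centralizer_iff]
    intro g hg
    exact Subtype.ext (Subgroup.mem_centralizer_iff.mp (hYc hy) g ⟨g, hg, rfl⟩)

end Cfsg.Agent.S1328
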