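import Cfsg.Statements.S1335
import Cfsg.Agent.Components.Rank

set_option autoImplicit false
open Cfsg

namespace Cfsg.Agent.S1335

/-- Let H be a subgroup of the finite group G, p a prime, k ≥ 1, P a Sylow p-subgroup of H of p-rank at least k, and suppose N_G(X) ≤ H for every subgroup X ≤ P of p-rank at least k. Then P is a Sylow p-subgroup of G. -/
theorem result {G : Type*} [Group G] [Finite G] {p : ℕ} [Fact p.Prime] (k : ℕ) (hk : 1 ≤ k) (H : Subgroup G) (P : Sylow p ↥H) (hP : ¬ Cfsg.PRankLE p (k - 1) ↥(P : Subgroup ↥H)) (hΓ : (∀ X : Subgroup G, X ≤ (P : Subgroup ↥H).map H.subtype → ¬ Cfsg.PRankLE p (k - 1) ↥X → Subgroup.normalizer (X : Set G) ≤ H)) : ∃ Q : Sylow p G, (Q : Subgroup G) = (P : Subgroup ↥H).map H.subtype := by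
  set P' := (P : Subgroup ↥H).map H.subtype with hP'
  have hP'p : IsPGroup p ↥P' := P.2.map _
  obtain ⟨Q, hQ⟩ := hP'p.exists_le_sylow
  refine ⟨Q, le_antisymm ?_ hQ⟩
  have hN : Subgroup.normalizer (P' : Set G) ≤ H := hΓ P' le_rfl fun h => hP
    ((Components.pRankLE_congr ((P : Subgroup ↥H).equivMapOfInjective H.subtype H.subtype_injective)).mpr h)
  haveI := Q.2.isNilpotent
  by_contra hne
  have hlt : P'.subgroupOf Q < ⊤ :=
    lt_top_iff_ne_top.mpr fun h => hne (Subgroup.subgroupOf_eq_top.mp h)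
  obtain ⟨⟨g, hgQ⟩, hgn, hgP⟩ :=
    SetLike.exists_of_lt (Group.normalizerCondition_of_isNilpotent (G := ↥(Q : Subgroup G)) _ hlt)
  have hgN : g ∈ Subgroup.normalizer (P' : Set G) := by
    rw [Subgroup.mem_normalizer_iff]
    intro y
    constructor
    · exact fun hy => (Subgroup.mem_normalizer_iff.mp hgn ⟨y, hQ hy⟩).mp hy
    · intro hy
      have hyQ : y ∈ (Q : Subgroup G) := by
        have := mul_mem (mul_mem (inv_mem hgQ) (hQ hy)) hgQ
        simpa [mul_assoc] using this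
      exact (Subgroup.mem_normalizer_iff.mp hgn ⟨y, hyQ⟩).mpr hy
  have hTH : IsPGroup p ↥((Q : Subgroup G).subgroupOf H) :=
    Q.2.comap_of_injective H.subtype H.subtype_injective
  have hgP' : (⟨g, hN hgN⟩ : ↥H) ∈ (P : Subgroup ↥H) :=
    (P.3 hTH fun y hy => hQ ⟨y, hy, rfl⟩).le hgQ
  exact hgP ⟨_, hgP', rfl⟩

end Cfsg.Agent.S1335
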