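import Cfsg.Statements.S1336
import Cfsg.Agent.Components.Rank
import Cfsg.Agent.Components.InvolutionCount

set_option autoImplicit false
open Cfsg

namespace Cfsg.Agent.S1336

/-- Let G be finite and p prime. Then G has a proper subgroup H with p ∣ |H| and p ∤ |H ∩ gHg⁻¹| for every g ∉ H (a strongly p-embedded subgroup) if and only if G is not 1-connected for p. -/
theorem result {G : Type*} [Group G] [Finite G] (p : ℕ) [Fact p.Prime] : (∃ H : Subgroup G, H ≠ ⊤ ∧ p ∣ Nat.card ↥H ∧ ∀ g : G, g ∉ H → ¬ p ∣ Nat.card ↥(H ⊓ H.map (MulAut.conj g).toMonoidHom)) ↔ ¬ Cfsg.IsKConnected p 1 G := by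
  have hp : p.Prime := Fact.out
  set R : Subgroup G → Subgroup G → Prop := fun A B => Cfsg.IsElementaryAbelian p A ∧ p ^ 1 ≤ Nat.card ↥A ∧
    Cfsg.IsElementaryAbelian p B ∧ p ^ 1 ≤ Nat.card ↥B ∧ ∀ a ∈ A, ∀ b ∈ B, a * b = b * a with hR
  have hconn : Cfsg.IsKConnected p 1 G ↔ ∀ E E' : Subgroup G, Cfsg.IsElementaryAbelian p E →
      p ^ 1 ≤ Nat.card ↥E → Cfsg.IsElementaryAbelian p E' → p ^ 1 ≤ Nat.card ↥E' →
      Relation.ReflTransGen R E E' := Iff.rfl
  rw [hconn]
  have hvx : ∀ x : G, orderOf x = p →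
      Cfsg.IsElementaryAbelian p (Subgroup.zpowers x) ∧ p ^ 1 ≤ Nat.card ↥(Subgroup.zpowers x) := fun x hx => by
    obtain ⟨h1, h2⟩ := Components.isElementaryAbelian_zpowers hx
    exact ⟨h1, by rw [h2, pow_one]⟩
  have helt : ∀ E : Subgroup G, Cfsg.IsElementaryAbelian p E → p ^ 1 ≤ Nat.card ↥E →
      ∃ e ∈ E, orderOf e = p := by
    intro E hE hc
    have : Nontrivial ↥E := Finite.one_lt_card_iff_nontrivial.mp
      (lt_of_lt_of_le (by rw [pow_one]; exact hp.one_lt) hc)
    obtain ⟨e, he⟩ := exists_ne (1 : ↥E)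
    exact ⟨e, e.2, orderOf_eq_prime (hE.2 e e.2) fun h => he (Subtype.ext h)⟩
  have hsub : ∀ E : Subgroup G, Cfsg.IsElementaryAbelian p E → p ^ 1 ≤ Nat.card ↥E → ∀ e ∈ E,
      orderOf e = p → R E (Subgroup.zpowers e) := fun E hE hc e he ho =>
    ⟨hE, hc, (hvx e ho).1, (hvx e ho).2, fun a ha b hb => by
      have hb' : b ∈ E := (Subgroup.zpowers_le.mpr he) hb
      exact congrArg Subtype.val (hE.1.is_comm.comm ⟨a, ha⟩ ⟨b, hb'⟩)⟩
  constructor
  · rintro ⟨H, hH, hpH, hse⟩ hcon
    have key : ∀ g x : G, orderOf x = p → x ∈ H → g⁻¹ * x * g ∈ H → g ∈ H := by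
      intro g x hx hxH hgx
      by_contra hg
      have hmem : x ∈ H ⊓ H.map (MulAut.conj g).toMonoidHom :=
        ⟨hxH, g⁻¹ * x * g, hgx, by show g * (g⁻¹ * x * g) * g⁻¹ = x; group⟩
      exact hse g hg (hx ▸ Subgroup.orderOf_dvd_natCard _ hmem)
    obtain ⟨⟨x₀, hx₀H⟩, hx₀⟩ := exists_prime_orderOf_dvd_card' p hpH
    rw [Subgroup.orderOf_mk] at hx₀
    have hall : ∀ E : Subgroup G, Relation.ReflTransGen R (Subgroup.zpowers x₀) E → E ≤ H := by
      intro E h
      induction h with
      | refl => exact Subgroup.zpowers_le.mpr hx₀H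
      | tail _ h2 ih =>
        obtain ⟨hA, hAc, hB, hBc, hcomm⟩ := h2
        obtain ⟨e, he, heo⟩ := helt _ hA hAc
        intro b hb
        refine key b e heo (ih he) ?_
        rw [mul_assoc, hcomm e he b hb, inv_mul_cancel_left]
        exact ih he
    apply hH
    rw [eq_top_iff]
    intro g _
    have hgx : orderOf (g⁻¹ * x₀ * g) = p := by
      rw [← hx₀]
      simpa using MulEquiv.orderOf_eq (MulAut.conj g⁻¹) x₀
    exact key g x₀ hx₀ hx₀H (hall _ (hcon _ _ (hvx x₀ hx₀).1 (hvx x₀ hx₀).2 (hvx _ hgx).1 (hvx _ hgx).2)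
      (Subgroup.mem_zpowers _))
  · intro hnc
    push Not at hnc
    obtain ⟨E, E', hE, hEc, hE', hE'c, hne⟩ := hnc
    have hsymm : ∀ A B, Relation.ReflTransGen R A B → Relation.ReflTransGen R B A := fun A B h =>
      by
        induction h with
        | refl => exact Relation.ReflTransGen.refl
        | tail _ h2 ih =>
          obtain ⟨h1, h2, h3, h4, h5⟩ := h2
          exact (Relation.ReflTransGen.single ⟨h3, h4, h1, h2, fun x hx y hy => (h5 y hy x hx).symm⟩).trans ih
    set c : G → Subgroup G → Subgroup G := fun g A => A.map (MulAut.conj g).toMonoidHom with hc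
    have hcm : ∀ a b A, c a (c b A) = c (a * b) A := fun a b A => by
      simp only [hc, Subgroup.map_map]
      congr 1
      ext y
      simp [mul_assoc]
    have hc1 : ∀ A, c 1 A = A := fun A => by
      simp only [hc]
      convert Subgroup.map_id A
      ext y; simp
    have hcv : ∀ g A, Cfsg.IsElementaryAbelian p A → p ^ 1 ≤ Nat.card ↥A →
        Cfsg.IsElementaryAbelian p (c g A) ∧ p ^ 1 ≤ Nat.card ↥(c g A) := by
      intro g A hA hAc
      refine ⟨⟨⟨⟨?_⟩⟩, ?_⟩, by simpa only [hc, Subgroup.card_map_of_injective (f := (MulAut.conj g).toMonoidHom) (MulAut.conj g).injective] using hAc⟩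
      · rintro ⟨_, a, ha, rfl⟩ ⟨_, b, hb, rfl⟩
        apply Subtype.ext
        show _ * _ = _ * _
        rw [← map_mul, ← map_mul]
        exact congrArg _ (congrArg Subtype.val (hA.1.is_comm.comm ⟨a, ha⟩ ⟨b, hb⟩) : a * b = b * a)
      · rintro _ ⟨a, ha, rfl⟩
        rw [← map_pow, hA.2 a ha, map_one]
    have hlift : ∀ g A B, Relation.ReflTransGen R A B → Relation.ReflTransGen R (c g A) (c g B) := by
      intro g A B h
      refine Relation.ReflTransGen.lift (c g) ?_ _ _ h
      rintro a b ⟨h1, h2, h3, h4, h5⟩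
      refine ⟨(hcv g a h1 h2).1, (hcv g a h1 h2).2, (hcv g b h3 h4).1, (hcv g b h3 h4).2, ?_⟩
      rintro _ ⟨x, hx, rfl⟩ _ ⟨y, hy, rfl⟩
      rw [← map_mul, ← map_mul, h5 x hx y hy]
    let H : Subgroup G :=
      { carrier := {g | Relation.ReflTransGen R E (c g E)}
        one_mem' := by show Relation.ReflTransGen R E (c 1 E); rw [hc1]
        mul_mem' := fun {a b} ha hb => by
          show Relation.ReflTransGen R E (c (a * b) E)
          rw [← hcm]
          exact (show Relation.ReflTransGen R E (c a E) from ha).trans (hlift a _ _ hb)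
        inv_mem' := fun {a} ha => by
          show Relation.ReflTransGen R E (c a⁻¹ E)
          have := hlift a⁻¹ _ _ ha
          rw [hcm, inv_mul_cancel, hc1] at this
          exact hsymm _ _ this }
    -- a Sylow subgroup containing E lies in H, and all its vertices are linked to E
    have hEp : IsPGroup p ↥E := fun e => ⟨1, Subtype.ext (by simpa using hE.2 e e.2)⟩
    obtain ⟨P, hP⟩ := hEp.exists_le_sylow
    obtain ⟨e₀, he₀, he₀o⟩ := helt E hE hEc
    haveI : Nontrivial ↥(P : Subgroup G) :=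
      ⟨⟨⟨e₀, hP he₀⟩, 1, fun h => by
        have h' : e₀ = 1 := congrArg Subtype.val h
        rw [h', orderOf_one] at he₀o; exact hp.one_lt.ne he₀o⟩⟩
    haveI := P.2.center_nontrivial
    obtain ⟨⟨⟨z, hzP⟩, hzc⟩, hzo⟩ := exists_prime_orderOf_dvd_card' p
      (show p ∣ Nat.card ↥(Subgroup.center ↥(P : Subgroup G)) by
        obtain ⟨k, hk⟩ := (P.2.to_subgroup (Subgroup.center ↥(P : Subgroup G))).exists_card_eq
        rw [hk]
        refine dvd_pow_self p fun h0 => ?_
        rw [h0, pow_zero] at hk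
        exact absurd hk Finite.one_lt_card.ne')
    rw [← Subgroup.orderOf_coe, ← Subgroup.orderOf_coe] at hzo
    have hlink : ∀ A : Subgroup G, Cfsg.IsElementaryAbelian p A → p ^ 1 ≤ Nat.card ↥A → A ≤ P →
        Relation.ReflTransGen R E A := by
      have h1 : ∀ A : Subgroup G, Cfsg.IsElementaryAbelian p A → p ^ 1 ≤ Nat.card ↥A → A ≤ P →
          R A (Subgroup.zpowers z) := fun A hA hAc hAP =>
        ⟨hA, hAc, (hvx z hzo).1, (hvx z hzo).2, fun a ha b hb => by
          obtain ⟨i, rfl⟩ := hb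
          have : a * z = z * a := congrArg Subtype.val (Subgroup.mem_center_iff.mp hzc ⟨a, hAP ha⟩)
          exact Commute.zpow_right this i⟩
      intro A hA hAc hAP
      exact (Relation.ReflTransGen.single (h1 E hE hEc hP)).trans
        (hsymm _ _ (Relation.ReflTransGen.single (h1 A hA hAc hAP)))
    have hPH : (P : Subgroup G) ≤ H := by
      intro g hg
      refine hlink (c g E) (hcv g E hE hEc).1 (hcv g E hE hEc).2 ?_
      rintro _ ⟨a, ha, rfl⟩
      exact mul_mem (mul_mem hg (hP ha)) (inv_mem hg)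
    have hlink' : ∀ A : Subgroup G, Cfsg.IsElementaryAbelian p A → p ^ 1 ≤ Nat.card ↥A →
        ∀ g : G, A ≤ (g • P : Sylow p G) → Relation.ReflTransGen R (c g E) A := by
      intro A hA hAc g hAg
      have hle : c g⁻¹ A ≤ P := by
        rintro _ ⟨a, ha, rfl⟩
        have h := hAg ha
        rw [Sylow.smul_def] at h
        obtain ⟨b, hb, rfl⟩ := Subgroup.mem_map.mp h
        simpa [mul_assoc] using hb
      have h := hlift g _ _ (hlink (c g⁻¹ A) (hcv _ A hA hAc).1 (hcv _ A hA hAc).2 hle)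
      rwa [hcm, mul_inv_cancel, hc1] at h
    have hpt : ∀ x ∈ H, orderOf x = p → Relation.ReflTransGen R E (Subgroup.zpowers x) := by
      intro x hx hxo
      have hxp : IsPGroup p ↥((Subgroup.zpowers x).subgroupOf H) :=
        (IsPGroup.of_card (n := 1) (by rw [Nat.card_zpowers, hxo, pow_one])).comap_of_injective
          H.subtype H.subtype_injective
      obtain ⟨S, hS⟩ := hxp.exists_le_sylow
      obtain ⟨h, hh⟩ := MulAction.exists_smul_eq ↥H (P.subtype hPH) S
      refine (show Relation.ReflTransGen R E (c (h : G) E) from h.2).trans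
        (hlink' _ (hvx x hxo).1 (hvx x hxo).2 (h : G) (Subgroup.zpowers_le.mpr ?_))
      have hxS : (⟨x, hx⟩ : ↥H) ∈ S := hS (Subgroup.mem_zpowers x)
      rw [← hh, ← SetLike.mem_coe, Sylow.smul_def] at hxS
      obtain ⟨b, hb, hbe⟩ := Subgroup.mem_map.mp hxS
      rw [Sylow.smul_def]
      exact Subgroup.mem_map.mpr ⟨(b : G), hb, congrArg Subtype.val hbe⟩
    refine ⟨H, fun htop => ?_, ?_, fun g hg hdvd => hg ?_⟩
    · apply hne
      have hE'p : IsPGroup p ↥E' := fun e => ⟨1, Subtype.ext (by simpa using hE'.2 e e.2)⟩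
      obtain ⟨Q, hQ⟩ := hE'p.exists_le_sylow
      obtain ⟨g, rfl⟩ := MulAction.exists_smul_eq G P Q
      exact (show Relation.ReflTransGen R E (c g E) from (show g ∈ H from htop ▸ Subgroup.mem_top g)).trans
        (hlink' E' hE' hE'c g hQ)
    · exact he₀o ▸ Subgroup.orderOf_dvd_natCard _ (hPH (hP he₀))
    · obtain ⟨⟨x, hxH, s, hs, hsx⟩, hxo⟩ := exists_prime_orderOf_dvd_card' p hdvd
      rw [← Subgroup.orderOf_coe] at hxo
      have hso : orderOf s = p := by
        rw [← hxo]
        refine Eq.trans ?_ (congrArg orderOf hsx)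
        exact (MulEquiv.orderOf_eq (MulAut.conj g) s).symm
      have h1 := hpt x hxH hxo
      have h2 := hlift g _ _ (hpt s hs hso)
      have he : c g (Subgroup.zpowers s) = Subgroup.zpowers x := by
        simp only [hc, MonoidHom.map_zpowers]
        congr 1
      rw [he] at h2
      exact h1.trans (hsymm _ _ h2)

end Cfsg.Agent.S1336
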