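import Cfsg.Statements.S1449
import Cfsg.Agent.OddLocal.RankTwo.SmallAut

set_option autoImplicit false
open Cfsg

namespace Cfsg.Agent.S1449

/-- Let G be a finite group, p an odd prime, R a p-subgroup with no elementary abelian subgroup of order p ^ 3, and A a solvable subgroup of odd order normalizing R with A ∩ C_G(R) = 1. Then the derived subgroup [A, A] is a p-group. -/
theorem result {G : Type*} [Group G] [Finite G] (p : ℕ) [Fact p.Prime] (hp : p ≠ 2) (R A : Subgroup G) (hR : IsPGroup p R) (hr : Cfsg.PRankLE p 2 R)
    (hA : (A ≤ Subgroup.normalizer (R : Set G))) (hAs : Group.IsSolvable A) (hAodd : Odd (Nat.card A)) (hfaith : A ⊓ Subgroup.centralizer (R : Set G) = ⊥) :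
    IsPGroup p ↥⁅A, A⁆ := by
  set φ : A →* MulAut R := R.normalizerMonoidHom.comp (Subgroup.inclusion hA)
  have hinj : Function.Injective φ := by
    rw [← MonoidHom.ker_eq_bot_iff, eq_bot_iff]
    intro a ha
    have h1 : Subgroup.inclusion hA a ∈ R.normalizerMonoidHom.ker := ha
    rw [Subgroup.normalizerMonoidHom_ker] at h1
    have h2 : (a : G) ∈ A ⊓ Subgroup.centralizer (R : Set G) := ⟨a.2, h1⟩
    rw [hfaith, Subgroup.mem_bot] at h2
    exact Subgroup.mem_bot.mpr (Subtype.ext h2)
  have h := (OddLocal.RankTwo.oddAutSmall_of_rankLE_two hp hR hr).1 φ.range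
    (by rwa [← Nat.card_congr (MonoidHom.ofInjective hinj).toEquiv])
    (Group.isSolvable_of_surjective φ.rangeRestrict_surjective)
  have h2 : IsPGroup p (commutator ↥A) := by
    let e := MonoidHom.ofInjective hinj
    have he : (commutator ↥A).map e.toMonoidHom = commutator φ.range := by
      rw [commutator_def, commutator_def, Subgroup.map_commutator,
        Subgroup.map_top_of_surjective e.toMonoidHom e.surjective]
    rw [← he] at h
    exact h.of_equiv ((commutator ↥A).equivMapOfInjective e.toMonoidHom e.injective).symm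
  have h3 := h2.map A.subtype
  rwa [Subgroup.map_subtype_commutator] at h3

end Cfsg.Agent.S1449
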