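import Cfsg.Statements.S1458
import Cfsg.Agent.OddLocal.ZJ

set_option autoImplicit false
open Cfsg

namespace Cfsg.Agent.S1458

/-- Let G be a solvable group of odd order, p a prime and S a Sylow p-subgroup of G. Then the subgroup generated by the centre of the Thompson subgroup of S and O_{p'}(G) is normal in G. -/
theorem result {G : Type*} [Group G] [Finite G] [Group.IsSolvable G] (hodd : Odd (Nat.card G)) (p : ℕ) [Fact p.Prime] (S : Sylow p G) :
    (Cfsg.centerThompsonOf p (S : Subgroup G) ⊔ Cfsg.pPrimeCore p G).Normal := by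
  set f := QuotientGroup.mk' (Cfsg.pPrimeCore p G) with hf
  have hfs : Function.Surjective f := QuotientGroup.mk'_surjective _
  haveI : Group.IsSolvable (G ⧸ Cfsg.pPrimeCore p G) := Group.isSolvable_of_surjective hfs
  set S' := S.mapSurjective hfs
  have hS' : (S' : Subgroup (G ⧸ Cfsg.pPrimeCore p G)) = (S : Subgroup G).map f := rfl
  have h1 := OddLocal.ZJ.center_thompson_normal _ rfl (hodd.of_dvd_nat (Subgroup.card_quotient_dvd_card _))
    (Cfsg.Agent.Core.pPrimeCore_quotient_pPrimeCore p G) S'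
  have hinj : ∀ x ∈ (S : Subgroup G), f x = 1 → x = 1 := by
    intro x hx hfx
    obtain ⟨k, hk⟩ := S.isPGroup' ⟨x, hx⟩
    exact orderOf_eq_one_iff.mp (Nat.eq_one_of_dvd_coprimes
      (((Cfsg.Agent.Core.card_pPrimeCore_coprime p G).symm).pow_left k)
      (orderOf_dvd_of_pow_eq_one (congrArg Subtype.val hk))
      (Subgroup.orderOf_dvd_natCard _ ((QuotientGroup.eq_one_iff x).mp hfx)))
  let e : ↥(S : Subgroup G) ≃* ↥((S : Subgroup G).map f) := MulEquiv.ofBijective (f.subgroupMap (S : Subgroup G))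
    ⟨(injective_iff_map_eq_one _).mpr fun x hx => Subtype.ext (hinj x x.2 (congrArg Subtype.val hx)),
      f.subgroupMap_surjective _⟩
  have hJ : Cfsg.thompsonSubgroupOf p ((S : Subgroup G).map f) =
      (Cfsg.thompsonSubgroupOf p (S : Subgroup G)).map f := by
    rw [Cfsg.thompsonSubgroupOf, Cfsg.thompsonSubgroupOf, ← PLocal.thompsonSubgroup_map e,
      Subgroup.map_map, Subgroup.map_map]
    exact congrArg (fun φ => Subgroup.map φ (Cfsg.thompsonSubgroup p _)) (MonoidHom.ext fun _ => rfl)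
  have hZ : Cfsg.centerThompsonOf p (S' : Subgroup (G ⧸ Cfsg.pPrimeCore p G)) =
      (Cfsg.centerThompsonOf p (S : Subgroup G)).map f := by
    rw [hS', Cfsg.centerThompsonOf, hJ, Cfsg.centerThompsonOf]
    refine le_antisymm ?_ ?_
    · rintro _ ⟨⟨x, hx, rfl⟩, hc⟩
      refine ⟨x, ⟨hx, Subgroup.mem_centralizer_iff.mpr fun y hy => ?_⟩, rfl⟩
      have h2 := Subgroup.mem_centralizer_iff.mp hc (f y) (Subgroup.mem_map_of_mem f hy)
      have hle := OddLocal.thompsonSubgroupOf_le_self p (S : Subgroup G)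
      refine mul_inv_eq_one.mp (hinj _ (Subgroup.mul_mem _ (Subgroup.mul_mem _ (hle hy) (hle hx))
        (Subgroup.inv_mem _ (Subgroup.mul_mem _ (hle hx) (hle hy)))) ?_)
      rw [map_mul, map_mul, map_inv, map_mul, h2, mul_inv_cancel]
    · rintro _ ⟨x, hx, rfl⟩
      refine ⟨Subgroup.mem_map_of_mem f hx.1, Subgroup.mem_centralizer_iff.mpr ?_⟩
      rintro _ ⟨y, hy, rfl⟩
      rw [← map_mul, ← map_mul, Subgroup.mem_centralizer_iff.mp hx.2 y hy]
  rw [hZ] at h1
  have h2 : ((Cfsg.centerThompsonOf p (S : Subgroup G)).map f).comap f =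
      Cfsg.centerThompsonOf p (S : Subgroup G) ⊔ Cfsg.pPrimeCore p G := by
    rw [Subgroup.comap_map_eq, hf, QuotientGroup.ker_mk']
  rw [← h2]
  exact h1.comap f

end Cfsg.Agent.S1458
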