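import Cfsg.Statements.S1464
import Cfsg.Agent.OddLocal.Stability65

set_option autoImplicit false
open Cfsg

namespace Cfsg.Agent.S1464

/-- Let p be an odd prime and G a solvable group of odd order, P a p-subgroup with O_{p'}(G)P normal in G, and A a p-subgroup of N_G(P) with [[P, A], A] = 1. Then the image of A in the quotient N_G(P)/C_G(P) is contained in the p-core of that quotient. -/
theorem result {G : Type*} [Group G] [Finite G] [Group.IsSolvable G] (hodd : Odd (Nat.card G)) (p : ℕ) [Fact p.Prime] (hp : p ≠ 2) (P A : Subgroup G) (hP : IsPGroup p P) (hPn : (Cfsg.pPrimeCore p G ⊔ P).Normal)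
    (hA : IsPGroup p A) (hAN : A ≤ Subgroup.normalizer (P : Set G)) (hquad : ⁅⁅P, A⁆, A⁆ = ⊥) :
    (A.subgroupOf (Subgroup.normalizer (P : Set G))).map
        (QuotientGroup.mk' ((Subgroup.centralizer (P : Set G)).subgroupOf (Subgroup.normalizer (P : Set G))))
      ≤ Cfsg.pCore p _ := by
  rintro _ ⟨⟨a, haN⟩, haA, rfl⟩
  set N := Subgroup.normalizer (P : Set G)
  haveI : (P.subgroupOf N).Normal := Subgroup.normal_in_normalizer
  have hC : Subgroup.centralizer ((P.subgroupOf N : Subgroup N) : Set N) = (Subgroup.centralizer (P : Set G)).subgroupOf N := by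
    ext x
    constructor
    · intro hx
      refine Subgroup.mem_centralizer_iff.mpr fun y hy => ?_
      exact congrArg Subtype.val (Subgroup.mem_centralizer_iff.mp hx ⟨y, Subgroup.le_normalizer hy⟩ hy)
    · intro hx
      exact Subgroup.mem_centralizer_iff.mpr fun y hy => Subtype.ext (Subgroup.mem_centralizer_iff.mp hx y hy)
  have key : ∀ (C : Subgroup N) [C.Normal], C = Subgroup.centralizer ((P.subgroupOf N : Subgroup N) : Set N) →
      QuotientGroup.mk' C ⟨a, haN⟩ ∈ Cfsg.pCore p (N ⧸ C) := by
    intro C _ hCeq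
    subst hCeq
    refine OddLocal.mk_mem_pCore_of_quadratic (hodd.of_dvd_nat (Subgroup.card_subgroup_dvd_card N)) (P.subgroupOf N) hP.comap_subtype ?_
    apply Subgroup.map_injective N.subtype_injective
    rw [Subgroup.map_commutator, Subgroup.map_commutator, MonoidHom.map_zpowers, Subgroup.map_bot,
      Subgroup.subgroupOf_map_subtype, inf_of_le_left Subgroup.le_normalizer]
    exact le_bot_iff.mp (le_of_le_of_eq (Subgroup.commutator_mono (Subgroup.commutator_mono le_rfl
      (Subgroup.zpowers_le.mpr haA)) (Subgroup.zpowers_le.mpr haA)) hquad)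
  exact key _ hC.symm

end Cfsg.Agent.S1464
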