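import Cfsg.Statements.S1466
import Cfsg.Agent.OddLocal.Puig

set_option autoImplicit false
open Cfsg

namespace Cfsg.Agent.S1466

/-- Let p be a prime and R a nontrivial finite p-group. Then for every i > 0, Z(R) ≤ C_R(L_i(R)) ≤ L_i(R); likewise Z(R) ≤ C_R(L_*(R)) ≤ L_*(R) and Z(R) ≤ C_R(L(R)) ≤ L(R); and L(R) ≠ 1, L_*(R) ≠ 1. -/
theorem result {R : Type*} [Group R] [Finite R] (p : ℕ) [Fact p.Prime] (hR : IsPGroup p R) [Nontrivial R] :
    (∀ i : ℕ, 0 < i → Subgroup.center R ≤ Subgroup.centralizer ((Cfsg.puigSeq R i : Subgroup R) : Set R) ∧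
        Subgroup.centralizer ((Cfsg.puigSeq R i : Subgroup R) : Set R) ≤ Cfsg.puigSeq R i) ∧
      (Subgroup.center R ≤ Subgroup.centralizer ((Cfsg.puigLower R : Subgroup R) : Set R) ∧ Subgroup.centralizer ((Cfsg.puigLower R : Subgroup R) : Set R) ≤ Cfsg.puigLower R) ∧
      (Subgroup.center R ≤ Subgroup.centralizer ((Cfsg.puigSubgroup R : Subgroup R) : Set R) ∧ Subgroup.centralizer ((Cfsg.puigSubgroup R : Subgroup R) : Set R) ≤ Cfsg.puigSubgroup R) ∧
      Cfsg.puigSubgroup R ≠ ⊥ ∧ Cfsg.puigLower R ≠ ⊥ := by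
  have : Group.IsNilpotent R := hR.isNilpotent
  obtain ⟨A, hAn, hAc, hA⟩ := OddLocal.exists_normal_isMulCommutative_eq_centralizer (G := R)
  have key : ∀ X : Subgroup R, A ≤ X → Subgroup.center R ≤ Subgroup.centralizer (X : Set R) ∧
      Subgroup.centralizer (X : Set R) ≤ X := fun X hX =>
    ⟨Subgroup.center_le_centralizer _, le_trans (le_trans (Subgroup.centralizer_le hX) hA.le) hX⟩
  have hA1 : A ≠ ⊥ := by
    rintro rfl
    have hnt : Nontrivial (Subgroup.center R) := hR.center_nontrivial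
    have : Subgroup.center R ≤ ⊥ := le_trans (Subgroup.center_le_centralizer _) hA.le
    rw [le_bot_iff] at this
    exact (Subgroup.nontrivial_iff_ne_bot _).mp hnt this
  exact ⟨fun i hi => key _ (OddLocal.le_puigSeq_of_normal hAc hi),
    key _ (OddLocal.le_puigLower_of_normal hAc), key _ (OddLocal.le_puigSubgroup_of_normal hAc),
    fun h => hA1 (le_bot_iff.mp (h ▸ OddLocal.le_puigSubgroup_of_normal hAc)),
    fun h => hA1 (le_bot_iff.mp (h ▸ OddLocal.le_puigLower_of_normal hAc))⟩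

end Cfsg.Agent.S1466
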