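import Cfsg.Statements.S1476
import Cfsg.Agent.OddLocal.CNSolvable

set_option autoImplicit false
open Cfsg

namespace Cfsg.Agent.S1476

/-- Let G be a finite solvable group in which every non-identity element has nilpotent centralizer. Then either G is nilpotent; or G has a normal subgroup K with a Frobenius complement E (K E = G, K ∩ E = 1, E meets its conjugates by outside elements trivially) such that E is cyclic or E is generated by two elementwise-commuting subgroups, one cyclic of odd order and one isomorphic to a generalized quaternion group; or G is a three-step group with respect to some prime p. -/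
theorem result {G : Type*} [Group G] [Finite G] [Group.IsSolvable G] (hCN : Cfsg.IsCNGroup G) :
    Group.IsNilpotent G ∨
      (∃ K E : Subgroup G, K.Normal ∧ Subgroup.IsComplement' K E ∧ Cfsg.IsFrobeniusComplement E ∧
        (IsCyclic E ∨ ∃ C Q : Subgroup G, C ⊔ Q = E ∧ (∀ a ∈ C, ∀ b ∈ Q, a * b = b * a) ∧ IsCyclic C ∧ Odd (Nat.card C) ∧
          ∃ n : ℕ, Nonempty (↥Q ≃* QuaternionGroup (2 ^ n)))) ∨
      ∃ p : ℕ, p.Prime ∧ Cfsg.IsThreeStepGroup p G := by
  by_cases hn : Group.IsNilpotent G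
  · exact Or.inl hn
  rcases OddLocal.CN.frobenius_or_threeStep hCN hn with hne | h
  swap
  · exact Or.inr (Or.inr h)
  obtain ⟨-, E, hE, hEne, hfr, hfpf, hnil⟩ := OddLocal.CN.frobenius_structure hCN hn hne
  refine Or.inr (Or.inl ⟨Cfsg.fittingHall G, E, inferInstance, hE, hfr, ?_⟩)
  haveI := Fact.mk Nat.prime_two
  have hnE : E ≤ Subgroup.normalizer ((Cfsg.fittingHall G) : Set G) := by
    rw [Subgroup.normalizer_eq_top]; exact le_top
  obtain ⟨Q⟩ : Nonempty (Sylow 2 E) := inferInstance
  set Q' := (Q : Subgroup E).map E.subtype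
  have hQE : Q' ≤ E := Subgroup.map_subtype_le _
  set C₀ : Subgroup E := Cfsg.piCore {2}ᶜ E
  set C := C₀.map E.subtype
  have hCE : C ≤ E := Subgroup.map_subtype_le _
  have hCodd : Odd (Nat.card C) := by
    rw [Nat.odd_iff]
    by_contra h
    have h2 : 2 ∣ Nat.card C₀ := by
      rw [show Nat.card C₀ = Nat.card C from (Cfsg.Agent.Core.card_map_subtype C₀).symm]; omega
    exact (Cfsg.Agent.Core.isPiNat_card_piCore {2}ᶜ E) 2 Nat.prime_two h2 rfl
  have hCcyc : IsCyclic C :=
    (hfpf.mono le_rfl hCE).isCyclic_of_nilpotent_odd hne (hCE.trans hnE)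
      (Cfsg.Agent.Core.isNilpotent_of_le hCE hnil) hCodd
  have hcop : (Nat.card C).Coprime (Nat.card Q') := by
    obtain ⟨k, hk⟩ := IsPGroup.iff_card.mp (Q.isPGroup'.map E.subtype)
    rw [hk]
    exact (Nat.coprime_two_right.mpr hCodd).pow_right k
  have hsup : C ⊔ Q' = E := by
    refine le_antisymm (sup_le hCE hQE) (OddLocal.CN.le_of_prime_pow_elements fun g hg t k ht htk => ?_)
    haveI := Fact.mk ht
    haveI := hnil
    obtain ⟨T, hT⟩ := (show IsPGroup t (Subgroup.zpowers (⟨g, hg⟩ : E)) from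
      IsPGroup.of_card (n := _) (by
        rw [Nat.card_zpowers, ← Subgroup.orderOf_coe]
        exact ((Nat.dvd_prime_pow ht).mp (orderOf_dvd_of_pow_eq_one htk)).choose_spec.2)).exists_le_sylow
    by_cases ht2 : t = 2
    · subst ht2
      refine Subgroup.mem_sup_right ⟨⟨g, hg⟩, ?_, rfl⟩
      rw [SetLike.mem_coe, ← Cfsg.Agent.Core.pCore_eq_sylow Q, Cfsg.Agent.Core.pCore_eq_sylow T]
      exact hT (Subgroup.mem_zpowers _)
    · refine Subgroup.mem_sup_left ⟨⟨g, hg⟩, ?_, rfl⟩
      refine Cfsg.Agent.Core.le_piCore (N := (T : Subgroup E)) inferInstance ?_ (hT (Subgroup.mem_zpowers _))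
      intro s hs hsd
      obtain ⟨j, hj⟩ := IsPGroup.iff_card.mp T.isPGroup'
      rw [hj] at hsd
      show s ≠ 2
      rw [(Nat.prime_dvd_prime_iff_eq hs ht).mp (hs.dvd_of_dvd_pow hsd)]
      exact ht2
  have hcomm : ∀ a ∈ C, ∀ b ∈ Q', a * b = b * a := fun a ha b hb =>
    OddLocal.CN.commute_of_coprime hnil (hCE ha) (hQE hb)
      (Nat.Coprime.of_dvd (Subgroup.orderOf_dvd_natCard C ha) (Subgroup.orderOf_dvd_natCard Q' hb) hcop)
  rcases OddLocal.isCyclic_or_quaternion (Q.isPGroup'.map E.subtype)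
      (hfpf.uniqueOrderP hne hnE Q' hQE (Q.isPGroup'.map E.subtype)) with hQ | ⟨-, n, hn'⟩
  swap
  · exact Or.inr ⟨C, Q', hsup, hcomm, hCcyc, hCodd, n, hn'⟩
  left
  haveI := hnil
  haveI : IsZGroup E := by
    refine ⟨fun p hp P => ?_⟩
    haveI := Fact.mk hp
    haveI hP' : IsCyclic ((P : Subgroup E).map E.subtype) := by
      by_cases hp2 : p = 2
      · subst hp2
        rw [← Cfsg.Agent.Core.pCore_eq_sylow P, Cfsg.Agent.Core.pCore_eq_sylow Q]
        exact hQ
      · exact hfpf.sylow_cyclic_of_odd hne hnE hp2 _ (Subgroup.map_subtype_le _) (P.isPGroup'.map _)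
    exact isCyclic_of_injective ((P : Subgroup E).equivMapOfInjective E.subtype E.subtype_injective).toMonoidHom
      (MulEquiv.injective _)
  infer_instance

end Cfsg.Agent.S1476
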