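import Cfsg.Statements.S1483
import Cfsg.Agent.OddLocal.CNStructure

set_option autoImplicit false
open Cfsg

namespace Cfsg.Agent.S1483

/-- Let G be a minimal simple group of odd order in which every non-identity element has nilpotent centralizer. Then any two nilpotent subgroups each contained in no larger nilpotent subgroup are either conjugate or of coprime orders; and for primes p, q, r: if some elements x, y ≠ 1 of p-power and q-power order commute, and some elements y', z ≠ 1 of q-power and r-power order commute, then some elements of p-power and r-power order, both ≠ 1, commute. -/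
theorem result {G : Type*} [Group G] [Finite G] (hG : Cfsg.IsMinSimpleOddOrder G) (hCN : Cfsg.IsCNGroup G) :
    (∀ H₁ H₂ : Subgroup G, (Group.IsNilpotent ↥H₁ ∧ ∀ L : Subgroup G, Group.IsNilpotent L → H₁ ≤ L → L = H₁) → (Group.IsNilpotent ↥H₂ ∧ ∀ L : Subgroup G, Group.IsNilpotent L → H₂ ≤ L → L = H₂) → (∃ g : G, H₂ = H₁.map (MulAut.conj g).toMonoidHom) ∨ (Nat.card H₁).Coprime (Nat.card H₂)) ∧
      ∀ (p q r : ℕ), p.Prime → q.Prime → r.Prime → ∀ (x y y' z : G), x ≠ 1 → y ≠ 1 → y' ≠ 1 → z ≠ 1 →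
        IsPGroup p (Subgroup.zpowers x) → IsPGroup q (Subgroup.zpowers y) → IsPGroup q (Subgroup.zpowers y') → IsPGroup r (Subgroup.zpowers z) →
        x * y = y * x → y' * z = z * y' →
        ∃ x' z' : G, x' ≠ 1 ∧ z' ≠ 1 ∧ IsPGroup p (Subgroup.zpowers x') ∧ IsPGroup r (Subgroup.zpowers z') ∧ x' * z' = z' * x' := by
  refine ⟨fun H₁ H₂ h₁ h₂ => OddLocal.CN.conj_or_coprime hG hCN h₁ h₂, ?_⟩
  intro p q r hp hq hr x y y' z hx hy hy' hz hxp hyq hy'q hzr hxy hyz
  haveI := Fact.mk hp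
  haveI := Fact.mk hq
  haveI := Fact.mk hr
  have key : ∀ {s : ℕ} [Fact s.Prime] {a : G}, a ≠ 1 → IsPGroup s (Subgroup.zpowers a) →
      ∀ {H : Subgroup G}, a ∈ H → s ∣ Nat.card H := by
    intro s _ a ha has H haH
    obtain ⟨k, hk⟩ := IsPGroup.iff_card.mp has
    have hk0 : k ≠ 0 := fun e => ha (Subgroup.zpowers_eq_bot.mp (Subgroup.card_eq_one.mp (by rw [hk, e, pow_zero])))
    exact (dvd_pow_self s hk0).trans (hk ▸ Subgroup.card_dvd_of_le (Subgroup.zpowers_le.mpr haH))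
  have pair : ∀ {a b : G}, a * b = b * a → b ≠ 1 → ∃ H : Subgroup G, OddLocal.CN.IsMaxNilp H ∧ a ∈ H ∧ b ∈ H := by
    intro a b hab hb
    obtain ⟨H, hle, hH⟩ := OddLocal.CN.exists_isMaxNilp_ge (hCN b hb)
    exact ⟨H, hH, hle (Subgroup.mem_centralizer_singleton_iff.mpr hab),
      hle (Subgroup.mem_centralizer_singleton_iff.mpr rfl)⟩
  obtain ⟨H₁, hH₁, hx₁, hy₁⟩ := pair hxy hy
  obtain ⟨H₂, hH₂, hy₂, hz₂⟩ := pair hyz hz
  rcases OddLocal.CN.conj_or_coprime hG hCN hH₁ hH₂ with ⟨g, hg⟩ | hc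
  swap
  · exact absurd (Nat.eq_one_of_dvd_coprimes hc (key hy hyq hy₁) (key hy' hy'q hy₂)) hq.ne_one
  have hr₁ : r ∣ Nat.card H₁ := by
    rw [← Cfsg.Agent.Coprime.card_map_conj H₁ g, ← hg]; exact key hz hzr hz₂
  by_cases hpr : p = r
  · subst hpr
    exact ⟨x, x, hx, hx, hxp, hxp, rfl⟩
  obtain ⟨x', hx', hx'1, hx'c, hx'p⟩ := OddLocal.CN.exists_central_of_dvd hH₁.1 (key hx hxp hx₁)
  obtain ⟨z', hz', hz'1, -, hz'p⟩ := OddLocal.CN.exists_central_of_dvd hH₁.1 hr₁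
  refine ⟨x', z', hx'1, hz'1, ?_, ?_, (hx'c z' hz').symm⟩
  · exact IsPGroup.of_card (n := 1) (by rw [Nat.card_zpowers, pow_one, orderOf_eq_prime hx'p hx'1])
  · exact IsPGroup.of_card (n := 1) (by rw [Nat.card_zpowers, pow_one, orderOf_eq_prime hz'p hz'1])

end Cfsg.Agent.S1483
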