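import Cfsg.Statements.S1485
import Cfsg.Agent.OddChar.NormalInd
import Mathlib.Tactic.Linarith
import Mathlib.Tactic.GCongr
import Mathlib.Tactic.Ring

set_option autoImplicit false
open Cfsg

namespace Cfsg.Agent.S1485

/-- Let H be a normal subgroup of the finite group G and θ an irreducible character of H. On H, the function induced from θ equals r times the sum of the distinct G-conjugates of θ, where r is the number of elements of G fixing θ under conjugation divided by the order of H (the index of H in the inertia group). -/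
theorem result {G : Type*} [Group G] [Fintype G] (H : Subgroup G) [hN : H.Normal] (θ : H → ℂ) (hθ : Cfsg.IsIrrCharacter H θ) : (fun h : H => Cfsg.indFun H θ h) = ((Nat.card {g : G // ∀ h : H, θ ⟨g * h * g⁻¹, hN.conj_mem h h.2 g⟩ = θ h} : ℂ) / (Nat.card H : ℂ)) • ∑ᶠ ψ ∈ {ψ : H → ℂ | ∃ g : G, ψ = fun h : H => θ ⟨g * h * g⁻¹, hN.conj_mem h h.2 g⟩}, ψ := by
  classical
  show (fun h : H => Cfsg.indFun H θ h) = ((Nat.card {g : G // ∀ h : H, OddChar.cj θ g h = θ h} : ℂ) /
    (Nat.card H : ℂ)) • ∑ᶠ ψ ∈ {ψ : H → ℂ | ∃ g : G, ψ = OddChar.cj θ g}, ψ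
  rw [show {ψ : H → ℂ | ∃ g : G, ψ = OddChar.cj θ g} =
      ↑(Finset.univ.image fun g : G => OddChar.cj θ g) by ext; simp [eq_comm],
    finsum_mem_coe_finset, OddChar.res_indFun_orbit θ]
  rw [Nat.card_congr (Equiv.subtypeEquivRight (p := fun g : G => OddChar.cj θ g = θ)
    (q := fun g : G => ∀ h : H, OddChar.cj θ g h = θ h) fun g => funext_iff)]

end Cfsg.Agent.S1485
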