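import Cfsg.Statements.S1488
import Cfsg.Agent.OddChar.NormalInd
import Mathlib.Tactic.Linarith
import Mathlib.Tactic.GCongr
import Mathlib.Tactic.Ring

set_option autoImplicit false
open Cfsg

namespace Cfsg.Agent.S1488

/-- Let A be a normal subgroup of the finite group G contained in the subgroup H, let θ be a function on H and θ₁ a function on the image of H in G ⧸ A whose composite with the projection is θ. Then the function induced from θ₁ to G ⧸ A, composed with the projection G → G ⧸ A, equals the function induced from θ to G. -/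
theorem result {G : Type*} [Group G] [Fintype G] (A H : Subgroup G) [A.Normal] (hAH : A ≤ H) [Fintype (G ⧸ A)] [Fintype ↥(H.map (QuotientGroup.mk' A))] (θ : H → ℂ) (θ₁ : ↥(H.map (QuotientGroup.mk' A)) → ℂ) (hθ : ∀ x : H, θ₁ ⟨QuotientGroup.mk' A x, Subgroup.mem_map_of_mem _ x.2⟩ = θ x) (g : G) : Cfsg.indFun (H.map (QuotientGroup.mk' A)) θ₁ (QuotientGroup.mk' A g) = Cfsg.indFun H θ g := by
  classical
  rw [Chars.indFun_apply, Chars.indFun_apply]
  have hcard : Nat.card A * Nat.card ↥(H.map (QuotientGroup.mk' A)) = Nat.card H := by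
    have h1 := Subgroup.relIndex_ker (K := H) (QuotientGroup.mk' A)
    rw [QuotientGroup.ker_mk'] at h1
    have h2 := Subgroup.relIndex_mul_relIndex (⊥ : Subgroup G) A H bot_le hAH
    rw [Subgroup.relIndex_bot_left, Subgroup.relIndex_bot_left] at h2
    rw [← h2, ← h1]
  have hterm : ∀ x : G, Cfsg.extendByZero (H.map (QuotientGroup.mk' A)) θ₁
      ((QuotientGroup.mk' A x)⁻¹ * QuotientGroup.mk' A g * QuotientGroup.mk' A x) =
      Cfsg.extendByZero H θ (x⁻¹ * g * x) := by
    intro x
    rw [← map_inv, ← map_mul, ← map_mul]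
    by_cases h : x⁻¹ * g * x ∈ H
    · rw [Chars.extendByZero_of_mem _ _ h, Chars.extendByZero_of_mem _ _ (Subgroup.mem_map_of_mem _ h)]
      exact hθ ⟨_, h⟩
    · rw [Chars.extendByZero_of_not_mem _ _ h, Chars.extendByZero_of_not_mem]
      intro hm
      obtain ⟨y, hy, he⟩ := Subgroup.mem_map.mp hm
      obtain ⟨z, hz, he'⟩ := (QuotientGroup.mk'_eq_mk' A).mp he
      exact h (he' ▸ H.mul_mem hy (hAH hz))
  have hsum : ∑ x : G, Cfsg.extendByZero H θ (x⁻¹ * g * x) = (Nat.card A : ℂ) *
      ∑ q : G ⧸ A, Cfsg.extendByZero (H.map (QuotientGroup.mk' A)) θ₁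
        (q⁻¹ * QuotientGroup.mk' A g * q) := by
    rw [← Finset.sum_fiberwise_of_maps_to (s := Finset.univ) (t := Finset.univ)
      (g := fun x => QuotientGroup.mk' A x) (fun _ _ => Finset.mem_univ _), Finset.mul_sum]
    refine Finset.sum_congr rfl fun q _ => ?_
    rw [Finset.sum_congr rfl (g := fun _ => Cfsg.extendByZero (H.map (QuotientGroup.mk' A)) θ₁
        (q⁻¹ * QuotientGroup.mk' A g * q))
      (fun x hx => by rw [← hterm, (Finset.mem_filter.mp hx).2]), Finset.sum_const, nsmul_eq_mul]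
    congr 2
    obtain ⟨q₀, rfl⟩ := QuotientGroup.mk'_surjective A q
    rw [← Fintype.card_subtype, ← Nat.card_eq_fintype_card]
    refine (Nat.card_congr ((Equiv.mulLeft q₀).subtypeEquiv fun a => ?_)).symm
    show a ∈ A ↔ QuotientGroup.mk' A (q₀ * a) = QuotientGroup.mk' A q₀
    rw [map_mul, mul_eq_left]
    exact (QuotientGroup.eq_one_iff a).symm
  rw [hsum, ← hcard, Nat.cast_mul, mul_inv, mul_comm (Nat.card A : ℂ)⁻¹, mul_assoc,
    inv_mul_cancel_left₀ (Chars.subgroup_card_ne_zero A)]

end Cfsg.Agent.S1488
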