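import Cfsg.Statements.S1489
import Cfsg.Agent.OddChar.NormalInd
import Mathlib.Tactic.Linarith
import Mathlib.Tactic.GCongr
import Mathlib.Tactic.Ring

set_option autoImplicit false
open Cfsg

namespace Cfsg.Agent.S1489

/-- Let H be a normal subgroup of the finite group G, θ an irreducible character of H, and T the inertia group of θ (the elements g with θ(g h g⁻¹) = θ(h) for all h ∈ H). If ψ and ψ' are irreducible characters of T having nonzero inner product with the function induced from θ to T, then the function induced from ψ to G is an irreducible character of G, and it equals the one induced from ψ' only if ψ = ψ'. -/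
theorem result {G : Type*} [Group G] [Fintype G] (H T : Subgroup G) [hN : H.Normal] [Fintype T] (θ : H → ℂ) (hθ : Cfsg.IsIrrCharacter H θ) (hT : ∀ g : G, g ∈ T ↔ ∀ h : H, θ ⟨g * h * g⁻¹, hN.conj_mem h h.2 g⟩ = θ h) (hHT : H ≤ T) (ψ ψ' : T → ℂ) (hψ : Cfsg.IsIrrCharacter T ψ) (hψ' : Cfsg.IsIrrCharacter T ψ') (hc : Cfsg.classInner (Cfsg.indFun (H.subgroupOf T) (fun x => θ ⟨(x : T), Subgroup.mem_subgroupOf.mp x.2⟩)) ψ ≠ 0) (hc' : Cfsg.classInner (Cfsg.indFun (H.subgroupOf T) (fun x => θ ⟨(x : T), Subgroup.mem_subgroupOf.mp x.2⟩)) ψ' ≠ 0) : Cfsg.IsIrrCharacter G (Cfsg.indFun T ψ) ∧ (Cfsg.indFun T ψ = Cfsg.indFun T ψ' → ψ = ψ') := by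
  classical
  haveI : Fintype H := Fintype.ofFinite _
  have hTe : T = Chars2.inertiaSub θ := Chars2.inertiaSub_eq T hT
  have key : ∀ η : T → ℂ, Cfsg.IsIrrCharacter T η →
      Cfsg.classInner (Cfsg.indFun (H.subgroupOf T) (fun x => θ ⟨(x : T), Subgroup.mem_subgroupOf.mp x.2⟩)) η ≠ 0 →
      Cfsg.classInner (Chars2.resSub H T hHT η) θ ≠ 0 := by
    intro η hη h h0
    apply h
    haveI : Fintype (H.subgroupOf T) := Fintype.ofFinite _
    rw [Chars.classInner_indFun _ _ (Chars.isClassFunction_of_isCharacter (Chars.isCharacter_of_isIrr hη))]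
    have h1 : Cfsg.classInner θ (Chars2.resSub H T hHT η) = 0 := by
      rw [← Chars.classInner_conj_symm, h0, map_zero]
    rw [← h1, ← Chars2.classInner_comp_mulEquiv (Subgroup.subgroupOfEquivOfLe hHT) θ
      (Chars2.resSub H T hHT η)]
    rfl
  exact ⟨Chars2.isIrr_indFun_of_inertia hHT hθ hTe hψ (key ψ hψ hc),
    fun he => Chars2.indFun_inj_of_inertia hHT hθ hTe hψ hψ' (key ψ hψ hc) (key ψ' hψ' hc') he⟩

end Cfsg.Agent.S1489
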