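import Cfsg.Statements.S1494
import Cfsg.Agent.OddChar.NormalInd
import Cfsg.Agent.OddChar.Virtual
import Cfsg.Agent.Chars.Linear
import Mathlib.Algebra.Ring.GeomSum
import Mathlib.Tactic.Ring
import Mathlib.RingTheory.RootsOfUnity.Complex

set_option autoImplicit false
open Cfsg

namespace Cfsg.Agent.S1494

/-- Let χ be a generalized character of the finite group G, p a prime, x an element of order p and y an element commuting with x. Then χ(x * y) − χ(y) = (1 − ε) * ω for some algebraic integer ω, where ε = exp(2πi/p). -/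
theorem result {G : Type*} [Group G] [Finite G] (χ : G → ℂ) (hχ : Cfsg.IsGeneralizedCharacter G χ) (p : ℕ) (hp : p.Prime) (x y : G) (hx : orderOf x = p) (hxy : x * y = y * x) : ∃ ω : ℂ, IsIntegral ℤ ω ∧ χ (x * y) - χ y = (1 - Complex.exp (2 * Real.pi * Complex.I / p)) * ω := by
  classical
  haveI := Fintype.ofFinite G
  have hcomm : ∀ a ∈ ({x, y} : Set G), ∀ b ∈ ({x, y} : Set G), a * b = b * a := by
    intro a ha b hb
    simp only [Set.mem_insert_iff, Set.mem_singleton_iff] at ha hb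
    rcases ha with rfl | rfl <;> rcases hb with rfl | rfl <;> first | rfl | exact hxy | exact hxy.symm
  haveI := Subgroup.isMulCommutative_closure hcomm
  set K := Subgroup.closure ({x, y} : Set G)
  haveI : Fintype K := Fintype.ofFinite _
  have hxK : x ∈ K := Subgroup.subset_closure (by simp)
  have hyK : y ∈ K := Subgroup.subset_closure (by simp)
  set ε := Complex.exp (2 * Real.pi * Complex.I / p) with hεdef
  haveI : NeZero p := ⟨hp.ne_zero⟩
  have hε : IsPrimitiveRoot ε p := Complex.isPrimitiveRoot_exp p hp.ne_zero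
  have hεi : IsIntegral ℤ ε := hε.isIntegral hp.pos
  have hlin : ∀ φ : Cfsg.IrrCharacter K, ∃ w : ℂ, IsIntegral ℤ w ∧
      (φ : K → ℂ) (⟨x, hxK⟩ * ⟨y, hyK⟩) - (φ : K → ℂ) ⟨y, hyK⟩ = (1 - ε) * w := by
    intro φ
    obtain ⟨f, hf⟩ := Chars.exists_hom_of_degree_one (Chars.irr_isCharacter φ)
      (Chars.irr_apply_one_of_comm (fun a b => mul_comm' a b) φ.2)
    have hxp : (⟨x, hxK⟩ : K) ^ p = 1 := Subtype.ext (by simp [← hx, pow_orderOf_eq_one])
    obtain ⟨i, -, hi⟩ := hε.eq_pow_of_pow_eq_one (ξ := (f ⟨x, hxK⟩ : ℂ))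
      (by rw [← Units.val_pow_eq_pow_val, ← map_pow, hxp, map_one, Units.val_one])
    refine ⟨-(f ⟨y, hyK⟩ : ℂ) * ∑ j ∈ Finset.range i, ε ^ j, ?_, ?_⟩
    · refine IsIntegral.mul (IsIntegral.neg ?_) (IsIntegral.sum _ fun j _ => hεi.pow j)
      have h := Chars.isIntegral_of_isCharacter (Chars.isCharacter_hom f) ⟨y, hyK⟩
      exact h
    · rw [hf]
      simp only [map_mul, Units.val_mul, ← hi]
      rw [show (1 - ε) * (-(f ⟨y, hyK⟩ : ℂ) * ∑ j ∈ Finset.range i, ε ^ j) =
        -(f ⟨y, hyK⟩ : ℂ) * ((1 - ε) * ∑ j ∈ Finset.range i, ε ^ j) by ring, mul_neg_geom_sum]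
      ring
  choose w hw1 hw2 using hlin
  have hres : Cfsg.IsGeneralizedCharacter K (fun k : K => χ k) := Chars.isGen_restrict hχ K
  choose m hm using fun φ : Cfsg.IrrCharacter K =>
    Chars.exists_classInner_eq_int hres (OddChar.virt_of_irr φ.2)
  refine ⟨∑ φ : Cfsg.IrrCharacter K, (m φ : ℂ) * w φ,
    IsIntegral.sum _ fun φ _ => IsIntegral.mul (by exact_mod_cast isIntegral_algebraMap) (hw1 φ), ?_⟩
  have hcl := Chars.isClassFunction_of_isGen hres
  have e1 := Chars2.apply_eq_sum hcl (⟨x, hxK⟩ * ⟨y, hyK⟩)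
  have e2 := Chars2.apply_eq_sum hcl ⟨y, hyK⟩
  simp only [hm] at e1 e2
  rw [show χ (x * y) = _ from e1, show χ y = _ from e2, ← Finset.sum_sub_distrib, Finset.mul_sum]
  exact Finset.sum_congr rfl fun φ _ => by rw [← mul_sub, hw2]; ring

end Cfsg.Agent.S1494
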