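import Cfsg.Statements.S1496
import Cfsg.Agent.OddChar.Elem

set_option autoImplicit false
open Cfsg

namespace Cfsg.Agent.S1496

/-- Let H be a subgroup of the finite group G and g an element normalising H whose order is coprime to the order of H. Then for every h ∈ H there are x ∈ H and c ∈ H commuting with g such that x * (h * g) * x⁻¹ = c * g. -/
theorem result {G : Type*} [Group G] [Finite G] (H : Subgroup G) (g : G) (hg : g ∈ Subgroup.normalizer (H : Set G)) (hcop : Nat.Coprime (orderOf g) (Nat.card H)) (h : G) (hh : h ∈ H) : ∃ x ∈ H, ∃ c ∈ H, c * g = g * c ∧ x * (h * g) * x⁻¹ = c * g := by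
  classical
  obtain ⟨m, hm⟩ := OddChar.exists_split_exponent hcop
  let C : Subgroup G := H ⊓ Subgroup.centralizer ({g} : Set G)
  have hC : ∀ c ∈ C, c * g = g * c := fun c hc =>
    (OddChar.mem_centralizer_singleton.mp hc.2).symm
  have hn := Subgroup.mem_normalizer_iff.mp hg
  let f : (H ⧸ C.subgroupOf H) × C → H := fun p =>
    ⟨(p.1.out : G) * (p.2 : G) * g * (p.1.out : G)⁻¹ * g⁻¹, by
      have h2 : g * (p.1.out : G)⁻¹ * g⁻¹ ∈ H := (hn _).mp (H.inv_mem p.1.out.2)
      simpa [mul_assoc] using H.mul_mem (H.mul_mem p.1.out.2 p.2.2.1) h2⟩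
  have hinj : Function.Injective f := by
    rintro ⟨q, c⟩ ⟨q', c'⟩ he
    have he' : (q.out : G) * (c : G) * g * (q.out : G)⁻¹ =
        (q'.out : G) * (c' : G) * g * (q'.out : G)⁻¹ := by
      simpa [f] using congrArg Subtype.val he
    have conjpow : ∀ (y : G), ∀ x ∈ C, (y * x * g * y⁻¹) ^ m = y * g * y⁻¹ := fun y x hx => by
      rw [mul_assoc y x g, conj_pow, hC x hx,
        hm g x (hC x hx).symm (pow_orderOf_eq_one g) (OddChar.pow_card_eq_one_of_mem H hx.1)]
    have hg' : (q.out : G) * g * (q.out : G)⁻¹ = (q'.out : G) * g * (q'.out : G)⁻¹ := by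
      rw [← conjpow _ _ c.2, he', conjpow _ _ c'.2]
    have hq : q = q' := by
      rw [← q.out_eq', ← q'.out_eq', QuotientGroup.eq, Subgroup.mem_subgroupOf]
      refine ⟨((q.out)⁻¹ * q'.out).2, OddChar.mem_centralizer_singleton.mpr ?_⟩
      push_cast
      calc g * ((q.out : G)⁻¹ * (q'.out : G))
          = (q.out : G)⁻¹ * ((q.out : G) * g * (q.out : G)⁻¹) * (q'.out : G) := by group
        _ = (q.out : G)⁻¹ * (q'.out : G) * g := by rw [hg']; group
    subst hq
    exact Prod.ext rfl (Subtype.ext (by simpa using he'))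
  have hbij : Function.Bijective f := by
    refine (Nat.bijective_iff_injective_and_card f).mpr ⟨hinj, ?_⟩
    rw [Nat.card_prod, ← Subgroup.index_eq_card,
      ← Nat.card_congr (Subgroup.subgroupOfEquivOfLe (inf_le_left : C ≤ H)).toEquiv,
      Subgroup.index_mul_card]
  obtain ⟨⟨q, c⟩, hqc⟩ := hbij.2 ⟨h, hh⟩
  have he : (q.out : G) * (c : G) * g * (q.out : G)⁻¹ * g⁻¹ = h := congrArg Subtype.val hqc
  refine ⟨(q.out : G)⁻¹, H.inv_mem q.out.2, c, c.2.1, hC c c.2, ?_⟩
  rw [← he]; group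

end Cfsg.Agent.S1496
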