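import Cfsg.Statements.S1497
import Cfsg.Agent.OddChar.Elem

set_option autoImplicit false
open Cfsg

namespace Cfsg.Agent.S1497

/-- Let A be a nonempty subset of the finite group G not containing 1 and L a subgroup. Then A is a TI-subset whose normaliser is L if and only if the Dade hypothesis holds for A, L and the constant choice H(a) = ⊥. -/
theorem result {G : Type*} [Group G] [Finite G] (A : Set G) (hA : A.Nonempty) (h1 : (1 : G) ∉ A) (L : Subgroup G) : (Cfsg.IsTISubset A ∧ Subgroup.normalizer A = L) ↔ Cfsg.DadeHypothesis A L (fun _ => ⊥) := by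
  constructor
  · rintro ⟨hTI, hN⟩
    have hmem : ∀ g : G, ∀ a ∈ A, g * a * g⁻¹ ∈ A → g ∈ L := by
      intro g a ha hga
      by_contra hg
      exact h1 (hTI g (by rw [hN]; exact hg) a ha hga ▸ ha)
    have hC : ∀ a ∈ A, Subgroup.centralizer ({a} : Set G) ≤ L := fun a ha c hc =>
      hmem c a ha (by rw [OddChar.conj_eq_self_of_mem_centralizer hc]; exact ha)
    refine ⟨h1, fun a ha => hmem a a ha (by simpa using ha), fun x hx a ha => ?_,
      fun a ha g hga => ⟨g, hmem g a ha hga, rfl⟩, fun _ _ => bot_le, ?_,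
      fun _ _ => bot_inf_eq _, fun a ha => ?_, fun _ _ _ _ => ?_⟩
    · rw [← hN, Subgroup.mem_set_normalizer_iff] at hx
      exact (hx a).mp ha
    · intro a _ c _ u hu
      simp only [Subgroup.mem_bot] at hu ⊢
      simp [hu]
    · simpa using hC a ha
    · simp
  · intro hD
    have hC : ∀ a ∈ A, Subgroup.centralizer ({a} : Set G) ≤ L := fun a ha => by
      have := hD.sup_eq a ha
      simp only [bot_sup_eq, inf_eq_right] at this
      exact this
    have hmem : ∀ g : G, ∀ a ∈ A, g * a * g⁻¹ ∈ A → g ∈ L := by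
      intro g a ha hga
      obtain ⟨x, hx, he⟩ := hD.fusion a ha g hga
      have : x⁻¹ * g ∈ Subgroup.centralizer ({a} : Set G) := by
        rw [OddChar.mem_centralizer_singleton]
        have h2 : x⁻¹ * (g * a * g⁻¹) * x = a := by rw [← he]; group
        calc a * (x⁻¹ * g) = x⁻¹ * (g * a * g⁻¹) * x * (x⁻¹ * g) := by rw [h2]
          _ = x⁻¹ * g * a := by group
      simpa using L.mul_mem hx (hC a ha this)
    have hN : Subgroup.normalizer A = L := by
      apply le_antisymm
      · intro g hg
        obtain ⟨a, ha⟩ := hA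
        exact hmem g a ha ((Subgroup.mem_set_normalizer_iff.mp hg a).mp ha)
      · intro x hx
        rw [Subgroup.mem_set_normalizer_iff]
        intro n
        refine ⟨fun hn => hD.conj_mem x hx n hn, fun hn => ?_⟩
        simpa [mul_assoc] using hD.conj_mem x⁻¹ (L.inv_mem hx) _ hn
    exact ⟨fun g hg a ha hga => absurd (hmem g a ha hga) (hN ▸ hg), hN⟩

end Cfsg.Agent.S1497
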