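import Cfsg.Statements.S1498
import Cfsg.Agent.OddChar.Elem

set_option autoImplicit false
open Cfsg

namespace Cfsg.Agent.S1498

/-- Under the Dade hypothesis for (A, L, H): for a ∈ A and x ∈ L, the subgroup attached to x * a * x⁻¹ is the conjugate of H a by x. -/
theorem result {G : Type*} [Group G] [Finite G] (A : Set G) (L : Subgroup G) (H : G → Subgroup G) (hD : Cfsg.DadeHypothesis A L H) (a : G) (ha : a ∈ A) (x : G) (hx : x ∈ L) : H (x * a * x⁻¹) = (H a).map (MulAut.conj x).toMonoidHom := by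
  have key : ∀ y ∈ L, ∀ b ∈ A, ∀ h ∈ H b, y * h * y⁻¹ ∈ H (y * b * y⁻¹) := by
    intro y hy b hb h hh
    have hc := hD.conj_mem y hy b hb
    rw [OddChar.dade_mem_iff hD hc]
    refine ⟨?_, ?_⟩
    · rw [OddChar.mem_centralizer_singleton]
      calc y * b * y⁻¹ * (y * h * y⁻¹) = y * (b * h) * y⁻¹ := by group
        _ = y * h * y⁻¹ * (y * b * y⁻¹) := by rw [OddChar.dade_commute hD hb hh]; group
    · refine Nat.Coprime.coprime_dvd_left ?_ (hD.coprime b hb _ hc)
      refine orderOf_dvd_of_pow_eq_one ?_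
      rw [conj_pow, OddChar.pow_card_eq_one_of_mem _ hh]; group
  ext u
  rw [Subgroup.mem_map]
  constructor
  · intro hu
    refine ⟨x⁻¹ * u * x, ?_, by simp [MulAut.conj_apply, mul_assoc]⟩
    simpa [mul_assoc] using key x⁻¹ (L.inv_mem hx) _ (hD.conj_mem x hx a ha) u hu
  · rintro ⟨h, hh, rfl⟩
    simpa [MulAut.conj_apply] using key x hx a ha h hh

end Cfsg.Agent.S1498
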