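import Cfsg.Statements.S1499
import Cfsg.Agent.OddChar.Elem

set_option autoImplicit false
open Cfsg

namespace Cfsg.Agent.S1499

/-- Under the Dade hypothesis for (A, L, H), let a, b ∈ A. If an element of the coset a·H(a) is conjugate in G to an element of b·H(b), then a and b are conjugate by an element of L. Moreover the set normaliser of the coset a·H(a) is the centraliser of a. -/
theorem result {G : Type*} [Group G] [Finite G] (A : Set G) (L : Subgroup G) (H : G → Subgroup G) (hD : Cfsg.DadeHypothesis A L H) (a b : G) (ha : a ∈ A) (hb : b ∈ A) : ((∃ u ∈ H a, ∃ v ∈ H b, ∃ g : G, g * (a * u) * g⁻¹ = b * v) → ∃ x ∈ L, x * a * x⁻¹ = b) ∧ Subgroup.normalizer ((fun u : G => a * u) '' (H a : Set G)) = Subgroup.centralizer ({a} : Set G) := by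
  refine ⟨?_, ?_⟩
  · rintro ⟨u, hu, v, hv, g, hg⟩
    have he := OddChar.dade_conj_base hD ha hb hu hv hg
    obtain ⟨x, hx, hxe⟩ := hD.fusion a ha g (he ▸ hb)
    exact ⟨x, hx, hxe.trans he⟩
  · apply le_antisymm
    · intro g hg
      rw [Subgroup.mem_set_normalizer_iff] at hg
      obtain ⟨v, hv, hv'⟩ := (hg (a * 1)).mp ⟨1, (H a).one_mem, rfl⟩
      have he := OddChar.dade_conj_base hD ha ha (H a).one_mem hv hv'.symm
      rw [OddChar.mem_centralizer_singleton]
      calc a * g = g * a * g⁻¹ * g := by rw [he]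
        _ = g * a := by group
    · intro c hc
      rw [Subgroup.mem_set_normalizer_iff]
      have key : ∀ c ∈ Subgroup.centralizer ({a} : Set G),
          ∀ n ∈ (fun u : G => a * u) '' (H a : Set G),
          c * n * c⁻¹ ∈ (fun u : G => a * u) '' (H a : Set G) := by
        rintro c hc _ ⟨u, hu, rfl⟩
        refine ⟨c * u * c⁻¹, hD.conj_mem_H a ha c hc u hu, ?_⟩
        calc a * (c * u * c⁻¹) = c * a * c⁻¹ * (c * u * c⁻¹) := by
              rw [OddChar.conj_eq_self_of_mem_centralizer hc]
          _ = c * (a * u) * c⁻¹ := by group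
      intro n
      refine ⟨fun hn => key c hc n hn, fun hn => ?_⟩
      simpa [mul_assoc] using key c⁻¹ ((Subgroup.centralizer ({a} : Set G)).inv_mem hc) _ hn

end Cfsg.Agent.S1499
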