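import Cfsg.Statements.S1500
import Cfsg.Agent.OddChar.DadeSum

set_option autoImplicit false
open Cfsg

namespace Cfsg.Agent.S1500

/-- Under the Dade hypothesis for (A, L, H), let α be a class function of L vanishing outside A. Then (i) for every class function β of L vanishing outside A, the inner product over G of the Dade images of α and β equals the inner product of α and β over L; and (ii) for every class function χ of G and every function ψ on L whose value at each a ∈ A is the average of χ over the coset a·H(a), the inner product over G of the Dade image of α with χ equals the inner product over L of α with ψ. -/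
theorem result {G : Type*} [Group G] [Fintype G] (A : Set G) (L : Subgroup G) [Fintype L] (H : G → Subgroup G) (hD : Cfsg.DadeHypothesis A L H) (α : L → ℂ) (hα : Cfsg.IsClassFunction L α) (hαA : ∀ x : L, (x : G) ∉ A → α x = 0) : (∀ β : L → ℂ, Cfsg.IsClassFunction L β → (∀ x : L, (x : G) ∉ A → β x = 0) → Cfsg.classInner (Cfsg.dadeIsometry A L H α) (Cfsg.dadeIsometry A L H β) = Cfsg.classInner α β) ∧ (∀ (χ : G → ℂ) (ψ : L → ℂ), Cfsg.IsClassFunction G χ → (∀ a : L, (a : G) ∈ A → ψ a = (Nat.card (H a) : ℂ)⁻¹ * ∑ᶠ u ∈ (H a : Set G), χ (a * u)) → Cfsg.classInner (Cfsg.dadeIsometry A L H α) χ = Cfsg.classInner α ψ) := by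
  classical
  have key : ∀ χ : G → ℂ, Cfsg.IsClassFunction G χ →
      Cfsg.classInner (Cfsg.dadeIsometry A L H α) χ = (Nat.card L : ℂ)⁻¹ * ∑ a : L,
        if (a : G) ∈ A then α a * (starRingEnd ℂ)
          ((Nat.card (H (a : G)) : ℂ)⁻¹ * ∑ u : H (a : G), χ ((a : G) * u)) else 0 := by
    intro χ hχ
    unfold Cfsg.classInner
    rw [OddChar.dade_sum hD (fun g => Cfsg.dadeIsometry A L H α g * (starRingEnd ℂ) (χ g))
      (fun g h => by rw [OddChar.dade_isClassFunction hD hα g h, hχ g h])
      (fun g hg => by rw [OddChar.dade_apply_of_notMem α hg, zero_mul])]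
    congr 1
    refine Finset.sum_congr rfl fun a _ => ?_
    split_ifs with ha
    · have h : ∀ u : H (a : G), Cfsg.dadeIsometry A L H α ((a : G) * u) = α a := fun u =>
        OddChar.dade_apply_self hD hα a ha u u.2
      simp only [h, ← Finset.mul_sum, map_mul, map_sum, map_inv₀, map_natCast]
      ring
    · rfl
  constructor
  · intro β hβ hβA
    rw [key _ (OddChar.dade_isClassFunction hD hβ)]
    unfold Cfsg.classInner
    congr 1
    refine Finset.sum_congr rfl fun a _ => ?_
    split_ifs with ha
    · have h : ∀ u : H (a : G), Cfsg.dadeIsometry A L H β ((a : G) * u) = β a := fun u =>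
        OddChar.dade_apply_self hD hβ a ha u u.2
      simp only [h, Finset.sum_const, Finset.card_univ, nsmul_eq_mul, ← Nat.card_eq_fintype_card]
      rw [← mul_assoc, inv_mul_cancel₀ (Nat.cast_ne_zero.mpr Nat.card_pos.ne'), one_mul]
    · rw [hαA a ha, zero_mul]
  · intro χ ψ hχ hψ
    rw [key χ hχ]
    unfold Cfsg.classInner
    congr 1
    refine Finset.sum_congr rfl fun a _ => ?_
    split_ifs with ha
    · rw [hψ a ha, OddChar.finsum_mem_subgroup]
    · rw [hαA a ha, zero_mul]

end Cfsg.Agent.S1500
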