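import Cfsg.Statements.S1501
import Cfsg.Agent.OddChar.DadeIntegral
import Cfsg.Agent.OddChar.Virtual

set_option autoImplicit false
open Cfsg

namespace Cfsg.Agent.S1501

/-- Under the Dade hypothesis for (A, L, H): if α is a generalized character of L vanishing outside A, then its image under the Dade map is a generalized character of G. -/
theorem result {G : Type*} [Group G] [Fintype G] (A : Set G) (L : Subgroup G) [Fintype L] (H : G → Subgroup G) (hD : Cfsg.DadeHypothesis A L H) (α : L → ℂ) (hα : Cfsg.IsGeneralizedCharacter L α) (hαA : ∀ x : L, (x : G) ∉ A → α x = 0) : Cfsg.IsGeneralizedCharacter G (Cfsg.dadeIsometry A L H α) := by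
  classical
  have hαc : Cfsg.IsClassFunction L α := OddChar.virt_isClassFunction hα
  refine OddChar.virt_of_classInner_int (OddChar.dade_isClassFunction hD hαc) fun χ hχ => ?_
  obtain ⟨n, ρ, -, rfl⟩ := hχ
  obtain ⟨a, b, ⟨n₁, σ₁, rfl⟩, ⟨n₂, σ₂, rfl⟩, rfl⟩ := hα
  obtain ⟨z, hz⟩ := OddChar.dade_integral hD ρ.dual σ₁ σ₂ hαA
  refine ⟨z, ?_⟩
  rw [← hz]
  unfold Cfsg.classInner
  rw [OddChar.dade_sum hD
    (fun g => Cfsg.dadeIsometry A L H (σ₁.character - σ₂.character) g *
      (starRingEnd ℂ) (ρ.character g))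
    (fun g h => by rw [OddChar.dade_isClassFunction hD hαc g h, Representation.char_conj])
    (fun g hg => by rw [OddChar.dade_apply_of_notMem _ hg, zero_mul])]
  congr 1
  refine Finset.sum_congr rfl fun x _ => ?_
  split_ifs with ha
  · have h : ∀ u : H (x : G), Cfsg.dadeIsometry A L H (σ₁.character - σ₂.character) ((x : G) * u) =
        σ₁.character x - σ₂.character x := fun u =>
      OddChar.dade_apply_self hD hαc x ha u u.2
    have h2 : ∀ g, (starRingEnd ℂ) (ρ.character g) = ρ.dual.character g := fun g => by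
      rw [Representation.char_dual, Chars.char_inv_eq_conj (Chars.isCharacter_of_rep ρ)]
    simp only [h, h2, ← Finset.mul_sum]
    ring
  · rfl

end Cfsg.Agent.S1501
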