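import Cfsg.Statements.S1504
import Cfsg.Agent.OddChar.Elem
import Mathlib.LinearAlgebra.LinearIndependent.Lemmas

set_option autoImplicit false
open Cfsg

namespace Cfsg.Agent.S1504

/-- Let W₁, W₂ be subgroups of a finite group with W₁ ⊓ W₂ = ⊥ whose elements commute, and W = W₁ ⊔ W₂. For linear characters φ, ψ of W with φ trivial on W₂ and ψ trivial on W₁, the function (1 − φ)(1 − ψ) vanishes on W₁ ∪ W₂; and the family of these functions, indexed by pairs (φ, ψ) with φ ≠ 1 ≠ ψ, is linearly independent over ℂ. -/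
theorem result {G : Type*} [Group G] [Finite G] (W₁ W₂ : Subgroup G) (hdisj : W₁ ⊓ W₂ = ⊥) (hcomm : ∀ a ∈ W₁, ∀ b ∈ W₂, a * b = b * a) : (∀ φ ψ : ↥(W₁ ⊔ W₂) →* ℂˣ, (∀ w : ↥(W₁ ⊔ W₂), (w : G) ∈ W₂ → φ w = 1) → (∀ w : ↥(W₁ ⊔ W₂), (w : G) ∈ W₁ → ψ w = 1) → ∀ w : ↥(W₁ ⊔ W₂), ((w : G) ∈ W₁ ∨ (w : G) ∈ W₂) → (1 - (φ w : ℂ) - (ψ w : ℂ) + (φ w : ℂ) * (ψ w : ℂ)) = 0) ∧ LinearIndependent ℂ (fun p : {p : (↥(W₁ ⊔ W₂) →* ℂˣ) × (↥(W₁ ⊔ W₂) →* ℂˣ) // p.1 ≠ 1 ∧ p.2 ≠ 1 ∧ (∀ w : ↥(W₁ ⊔ W₂), (w : G) ∈ W₂ → p.1 w = 1) ∧ (∀ w : ↥(W₁ ⊔ W₂), (w : G) ∈ W₁ → p.2 w = 1)} => fun w : ↥(W₁ ⊔ W₂) => 1 - (p.1.1 w : ℂ) - (p.1.2 w : ℂ) + (p.1.1 w : ℂ) * (p.1.2 w : ℂ)) := by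
  classical
  have hsplit : ∀ w : ↥(W₁ ⊔ W₂), ∃ a b : ↥(W₁ ⊔ W₂), (a : G) ∈ W₁ ∧ (b : G) ∈ W₂ ∧ w = a * b := by
    intro w
    have hle : W₂ ≤ Subgroup.normalizer (W₁ : Set G) := fun b hb => by
      refine Subgroup.centralizer_le_normalizer _ ?_
      rw [Subgroup.mem_centralizer_iff]
      exact fun a ha => hcomm a ha b hb
    have hw : (w : G) ∈ ((W₁ ⊔ W₂ : Subgroup G) : Set G) := w.2
    rw [Subgroup.coe_mul_of_right_le_normalizer_left W₁ W₂ hle] at hw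
    obtain ⟨a, ha, b, hb, hab⟩ := Set.mem_mul.mp hw
    exact ⟨⟨a, Subgroup.mem_sup_left ha⟩, ⟨b, Subgroup.mem_sup_right hb⟩, ha, hb, Subtype.ext hab.symm⟩
  refine ⟨?_, ?_⟩
  · intro φ ψ hφ hψ w hw
    rcases hw with h | h
    · rw [hψ w h, Units.val_one]; ring
    · rw [hφ w h, Units.val_one]; ring
  · set ι := {p : (↥(W₁ ⊔ W₂) →* ℂˣ) × (↥(W₁ ⊔ W₂) →* ℂˣ) // p.1 ≠ 1 ∧ p.2 ≠ 1 ∧
      (∀ w : ↥(W₁ ⊔ W₂), (w : G) ∈ W₂ → p.1 w = 1) ∧ (∀ w : ↥(W₁ ⊔ W₂), (w : G) ∈ W₁ → p.2 w = 1)}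
    let e : (↥(W₁ ⊔ W₂) →* ℂˣ) → (↥(W₁ ⊔ W₂) →* ℂ) := fun ω => (Units.coeHom ℂ).comp ω
    have heinj : Function.Injective e := fun u v h => MonoidHom.ext fun w =>
      Units.ext (DFunLike.congr_fun h w)
    have hli : LinearIndependent ℂ (fun ω : ↥(W₁ ⊔ W₂) →* ℂˣ => ((e ω : ↥(W₁ ⊔ W₂) → ℂ))) :=
      (linearIndependent_monoidHom ↥(W₁ ⊔ W₂) ℂ).comp e heinj
    rw [linearIndependent_iff'] 
    intro s c hsum i hi
    let δ : (↥(W₁ ⊔ W₂) →* ℂˣ) → ((↥(W₁ ⊔ W₂) →* ℂˣ) →₀ ℂ) := fun ω => Finsupp.single ω 1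
    let F : (↥(W₁ ⊔ W₂) →* ℂˣ) →₀ ℂ :=
      ∑ p ∈ s, c p • (δ 1 - δ p.1.1 - δ p.1.2 + δ (p.1.1 * p.1.2))
    have hF : Finsupp.linearCombination ℂ (fun ω => (e ω : ↥(W₁ ⊔ W₂) → ℂ)) F = 0 := by
      rw [← hsum]
      simp only [F, δ, map_sum, map_smul, map_add, map_sub, Finsupp.linearCombination_single, one_smul]
      refine Finset.sum_congr rfl fun p _ => ?_
      congr 1
    have hF0 : F = 0 := hli (by rw [hF, map_zero])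
    -- the coefficient of `φψ` only comes from `(φ, ψ)`
    have hone : ∀ ω : ↥(W₁ ⊔ W₂) →* ℂˣ, (∀ w : ↥(W₁ ⊔ W₂), (w : G) ∈ W₁ → ω w = 1) →
        (∀ w : ↥(W₁ ⊔ W₂), (w : G) ∈ W₂ → ω w = 1) → ω = 1 := by
      intro ω h1 h2
      refine MonoidHom.ext fun w => ?_
      obtain ⟨a, b, ha, hb, rfl⟩ := hsplit w
      simp [h1 a ha, h2 b hb]
    obtain ⟨⟨φ, ψ⟩, hφ1, hψ1, hφ, hψ⟩ := i
    have n1 : (1 : ↥(W₁ ⊔ W₂) →* ℂˣ) ≠ φ * ψ := by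
      intro h
      refine hψ1 (hone ψ hψ fun w hw => ?_)
      have := DFunLike.congr_fun h w
      simpa [hφ w hw] using this.symm
    have n2 : ∀ φ' : ↥(W₁ ⊔ W₂) →* ℂˣ, (∀ w : ↥(W₁ ⊔ W₂), (w : G) ∈ W₂ → φ' w = 1) → φ' ≠ φ * ψ := by
      intro φ' h' h
      refine hψ1 (hone ψ hψ fun w hw => ?_)
      have := DFunLike.congr_fun h w
      simpa [hφ w hw, h' w hw] using this.symm
    have n3 : ∀ ψ' : ↥(W₁ ⊔ W₂) →* ℂˣ, (∀ w : ↥(W₁ ⊔ W₂), (w : G) ∈ W₁ → ψ' w = 1) → ψ' ≠ φ * ψ := by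
      intro ψ' h' h
      refine hφ1 (hone φ (fun w hw => ?_) hφ)
      have := DFunLike.congr_fun h w
      simpa [hψ w hw, h' w hw] using this.symm
    have n4 : ∀ p : ι, p.1.1 * p.1.2 = φ * ψ → p.1 = (φ, ψ) := by
      intro p hmul
      have hφ' := p.2.2.2.1
      have hψ' := p.2.2.2.2
      have hsame : ∀ w, p.1.1 w * p.1.2 w = φ w * ψ w := fun w => DFunLike.congr_fun hmul w
      refine Prod.ext (MonoidHom.ext fun w => ?_) (MonoidHom.ext fun w => ?_)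
      · obtain ⟨a, b, ha, hb, rfl⟩ := hsplit w
        have := hsame a
        rw [hψ' a ha, hψ a ha, mul_one, mul_one] at this
        simp [map_mul, hφ' b hb, hφ b hb, this]
      · obtain ⟨a, b, ha, hb, rfl⟩ := hsplit w
        have := hsame b
        rw [hφ' b hb, hφ b hb, one_mul, one_mul] at this
        simp [map_mul, hψ' a ha, hψ a ha, this]
    have hcoef := DFunLike.congr_fun hF0 (φ * ψ)
    simp only [F, δ, Finsupp.finsetSum_apply, Finsupp.smul_apply, Finsupp.add_apply, Finsupp.sub_apply,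
      smul_eq_mul, Finsupp.zero_apply] at hcoef
    rw [Finset.sum_eq_single_of_mem _ hi] at hcoef
    · rw [Finsupp.single_eq_of_ne n1.symm, Finsupp.single_eq_of_ne (n2 φ hφ).symm,
        Finsupp.single_eq_of_ne (n3 ψ hψ).symm, Finsupp.single_eq_same] at hcoef
      simpa using hcoef
    · intro p _ hp
      have h4 : p.1.1 * p.1.2 ≠ φ * ψ := fun h => hp (Subtype.ext (n4 p h))
      rw [Finsupp.single_eq_of_ne n1.symm, Finsupp.single_eq_of_ne (n2 _ p.2.2.2.1).symm,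
        Finsupp.single_eq_of_ne (n3 _ p.2.2.2.2).symm, Finsupp.single_eq_of_ne h4.symm]
      simp

end Cfsg.Agent.S1504
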