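import Cfsg.Statements.S1505
import Cfsg.Agent.OddChar.CyclicTI
import Mathlib.Tactic.LinearCombination

set_option autoImplicit false
open Cfsg

namespace Cfsg.Agent.S1505

open Classical in
/-- Let W₁, W₂ ≤ G form a self-normalising cyclic subgroup W = W₁ ⊔ W₂. For nontrivial linear characters φ, φ' of W trivial on W₂ and ψ, ψ' trivial on W₁, put α = (1 − φ)(1 − ψ) and α' = (1 − φ')(1 − ψ'). Then the function induced from α to G has inner product 1 with the principal character, and the inner product of the functions induced from α and α' is 1 + a + b + ab where a = 1 if φ = φ' (else 0) and b = 1 if ψ = ψ' (else 0). -/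
theorem result {G : Type*} [Group G] [Fintype G] (W₁ W₂ : Subgroup G) (hW : Cfsg.IsSelfNormalizingCyclic W₁ W₂) (φ φ' ψ ψ' : ↥(W₁ ⊔ W₂) →* ℂˣ) (hφ : φ ≠ 1) (hφ' : φ' ≠ 1) (hψ : ψ ≠ 1) (hψ' : ψ' ≠ 1) (hφ₂ : ∀ w : ↥(W₁ ⊔ W₂), (w : G) ∈ W₂ → φ w = 1 ∧ φ' w = 1) (hψ₁ : ∀ w : ↥(W₁ ⊔ W₂), (w : G) ∈ W₁ → ψ w = 1 ∧ ψ' w = 1) : Cfsg.classInner (Cfsg.indFun (W₁ ⊔ W₂) (fun w => 1 - (φ w : ℂ) - (ψ w : ℂ) + (φ w : ℂ) * (ψ w : ℂ))) (fun _ => 1) = 1 ∧ Cfsg.classInner (Cfsg.indFun (W₁ ⊔ W₂) (fun w => 1 - (φ w : ℂ) - (ψ w : ℂ) + (φ w : ℂ) * (ψ w : ℂ))) (Cfsg.indFun (W₁ ⊔ W₂) (fun w => 1 - (φ' w : ℂ) - (ψ' w : ℂ) + (φ' w : ℂ) * (ψ' w : ℂ))) = 1 + (if φ = φ' then 1 else 0) + (if ψ = ψ' then 1 else 0) + (if φ = φ' then 1 else 0) * (if ψ = ψ' then 1 else 0) := by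
  classical
  letI : Fintype ↥(W₁ ⊔ W₂) := Fintype.ofFinite _
  have h1 : OddChar.TIFirst φ := fun w hw => (hφ₂ w hw).1
  have h1' : OddChar.TIFirst φ' := fun w hw => (hφ₂ w hw).2
  have h2 : OddChar.TISecond ψ := fun w hw => (hψ₁ w hw).1
  have h2' : OddChar.TISecond ψ' := fun w hw => (hψ₁ w hw).2
  show Cfsg.classInner (Cfsg.indFun (W₁ ⊔ W₂) (OddChar.tiFun φ ψ)) (fun _ => 1) = 1 ∧
    Cfsg.classInner (Cfsg.indFun (W₁ ⊔ W₂) (OddChar.tiFun φ ψ))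
      (Cfsg.indFun (W₁ ⊔ W₂) (OddChar.tiFun φ' ψ')) = _
  constructor
  · rw [Chars.classInner_indFun _ _ (fun _ _ => rfl)]
    have he : (fun _ : ↥(W₁ ⊔ W₂) => (1 : ℂ)) = fun w => ((1 : OddChar.TIDual W₁ W₂) w : ℂ) := by
      funext w; simp
    rw [he, ← Chars.classInner_conj_symm, OddChar.ti_inner_tiFun hW, if_pos rfl, if_neg (Ne.symm hφ),
      if_neg (Ne.symm hψ), if_neg (fun h => hφ ((OddChar.ti_mul_eq_one_iff hW h1 h2).mp h.symm).1)]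
    simp
  · rw [OddChar.ti_inner_indFun hW (OddChar.tiFun_eq_zero h1 h2) (OddChar.tiFun_eq_zero h1' h2')]
    convert OddChar.ti_inner_tiFun_tiFun hW h1 h1' h2 h2' hφ hψ hφ' hψ' using 2
    all_goals (by_cases ha : φ = φ' <;> by_cases hb : ψ = ψ' <;> simp [ha, hb])

end Cfsg.Agent.S1505
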