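import Cfsg.Statements.S1506
import Cfsg.Agent.OddChar.CyclicTI
import Mathlib.Tactic.LinearCombination

set_option autoImplicit false
open Cfsg

namespace Cfsg.Agent.S1506

/-- Let W₁, W₂ ≤ G form a self-normalising cyclic subgroup W = W₁ ⊔ W₂ and χ an orthonormal family of irreducible characters of G up to sign, indexed by the linear characters ω of W, with χ_1 = 1, χ_ω = ω on W outside W₁ ∪ W₂, and the induction identity for (1 − φ)(1 − ψ). Let θ be a class function of G vanishing at every element of W outside W₁ ∪ W₂. For linear characters φ, φ' of W trivial on W₂ and ψ, ψ' trivial on W₁, the inner products a(ω) = ⟨θ, χ ω⟩ satisfy a(φψ) + a(φ'ψ') = a(φψ') + a(φ'ψ). -/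
theorem result {G : Type*} [Group G] [Fintype G] (W₁ W₂ : Subgroup G) (hW : Cfsg.IsSelfNormalizingCyclic W₁ W₂) (χ : (↥(W₁ ⊔ W₂) →* ℂˣ) → (G → ℂ)) (hχ : Cfsg.IsCyclicTIFamily W₁ W₂ χ) (θ : G → ℂ) (hθ : Cfsg.IsClassFunction G θ) (hθV : ∀ w : ↥(W₁ ⊔ W₂), (w : G) ∉ W₁ → (w : G) ∉ W₂ → θ w = 0) (φ φ' ψ ψ' : ↥(W₁ ⊔ W₂) →* ℂˣ) (hφ₂ : ∀ w : ↥(W₁ ⊔ W₂), (w : G) ∈ W₂ → φ w = 1 ∧ φ' w = 1) (hψ₁ : ∀ w : ↥(W₁ ⊔ W₂), (w : G) ∈ W₁ → ψ w = 1 ∧ ψ' w = 1) : Cfsg.classInner θ (χ (φ * ψ)) + Cfsg.classInner θ (χ (φ' * ψ')) = Cfsg.classInner θ (χ (φ * ψ')) + Cfsg.classInner θ (χ (φ' * ψ)) := by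
  classical
  letI : Fintype ↥(W₁ ⊔ W₂) := Fintype.ofFinite _
  have key : ∀ φ ψ : OddChar.TIDual W₁ W₂, OddChar.TIFirst φ → OddChar.TISecond ψ →
      Cfsg.classInner θ (χ (φ * ψ)) =
        Cfsg.classInner θ (χ φ) + Cfsg.classInner θ (χ ψ) - Cfsg.classInner θ (χ 1) := by
    intro φ ψ h1 h2
    by_cases hφ : φ = 1
    · subst hφ
      rw [show (1 : OddChar.TIDual W₁ W₂) * ψ = ψ from MonoidHom.ext fun _ => one_mul _]; ring
    by_cases hψ : ψ = 1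
    · subst hψ
      rw [show φ * (1 : OddChar.TIDual W₁ W₂) = φ from MonoidHom.ext fun _ => mul_one _]; ring
    have h0 : Cfsg.classInner θ (Cfsg.indFun (W₁ ⊔ W₂) (OddChar.tiFun φ ψ)) = 0 := by
      rw [Chars.classInner_indFun_right _ _ hθ, Chars.classInner_def]
      refine mul_eq_zero_of_right _ (Finset.sum_eq_zero fun w _ => ?_)
      by_cases hw : (w : G) ∈ W₁ ∨ (w : G) ∈ W₂
      · rw [OddChar.tiFun_eq_zero h1 h2 w hw, map_zero, mul_zero]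
      · push Not at hw
        rw [hθV w hw.1 hw.2, zero_mul]
    have he : Cfsg.indFun (W₁ ⊔ W₂) (OddChar.tiFun φ ψ) = χ 1 - χ φ - χ ψ + χ (φ * ψ) := by
      refine (hχ.induced_eq φ ψ hφ hψ h1 h2).trans ?_
      funext g; simp [hχ.map_one]
    rw [he, Chars.classInner_add_right, Chars.classInner_sub_right, Chars.classInner_sub_right] at h0
    linear_combination h0
  rw [key φ ψ (fun w h => (hφ₂ w h).1) (fun w h => (hψ₁ w h).1),
    key φ' ψ' (fun w h => (hφ₂ w h).2) (fun w h => (hψ₁ w h).2),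
    key φ ψ' (fun w h => (hφ₂ w h).1) (fun w h => (hψ₁ w h).2),
    key φ' ψ (fun w h => (hφ₂ w h).2) (fun w h => (hψ₁ w h).1)]
  ring

end Cfsg.Agent.S1506
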