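import Cfsg.Statements.S1507
import Cfsg.Agent.OddChar.TIExists
import Cfsg.Agent.S1506
import Mathlib.Tactic.LinearCombination

set_option autoImplicit false
open Cfsg

namespace Cfsg.Agent.S1507

open Classical in
/-- Let W₁, W₂ ≤ G form a self-normalising cyclic subgroup W = W₁ ⊔ W₂ of odd order with Nat.card W₁ < Nat.card W₂, and χ an orthonormal family of irreducible characters of G up to sign, indexed by the linear characters ω of W, with χ_1 = 1, χ_ω = ω on W outside W₁ ∪ W₂, and the induction identity for (1 − φ)(1 − ψ). Let θ be a class function of G vanishing on W outside W₁ ∪ W₂, and suppose fewer than 2 · Nat.card W₁ linear characters ω of W have ⟨θ, χ ω⟩ ≠ 0. Then one of: all ⟨θ, χ ω⟩ vanish; or there are ψ₀ and a with ⟨θ, χ ω⟩ = a when ω ψ₀⁻¹ is trivial on W₂ and 0 otherwise; or there are φ₀ and a with ⟨θ, χ ω⟩ = a when ω φ₀⁻¹ is trivial on W₁ and 0 otherwise. -/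
theorem result {G : Type*} [Group G] [Fintype G] (W₁ W₂ : Subgroup G) (hW : Cfsg.IsSelfNormalizingCyclic W₁ W₂) (hodd : Odd (Nat.card ↥(W₁ ⊔ W₂))) (χ : (↥(W₁ ⊔ W₂) →* ℂˣ) → (G → ℂ)) (hχ : Cfsg.IsCyclicTIFamily W₁ W₂ χ) (hlt : Nat.card W₁ < Nat.card W₂) (θ : G → ℂ) (hθ : Cfsg.IsClassFunction G θ) (hθV : ∀ w : ↥(W₁ ⊔ W₂), (w : G) ∉ W₁ → (w : G) ∉ W₂ → θ w = 0) (hfew : Nat.card {ω : ↥(W₁ ⊔ W₂) →* ℂˣ // Cfsg.classInner θ (χ ω) ≠ 0} < 2 * Nat.card W₁) : (∀ ω, Cfsg.classInner θ (χ ω) = 0) ∨ (∃ (ψ₀ : ↥(W₁ ⊔ W₂) →* ℂˣ) (a : ℂ), ∀ ω, Cfsg.classInner θ (χ ω) = if (∀ w : ↥(W₁ ⊔ W₂), (w : G) ∈ W₂ → (ω * ψ₀⁻¹) w = 1) then a else 0) ∨ (∃ (φ₀ : ↥(W₁ ⊔ W₂) →* ℂˣ) (a : ℂ), ∀ ω, Cfsg.classInner θ (χ ω) = if (∀ w : ↥(W₁ ⊔ W₂), (w : G) ∈ W₁ → (ω * φ₀⁻¹) w = 1) then a else 0) := by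
  classical
  set a : OddChar.TIDual W₁ W₂ → ℂ := fun ω => Cfsg.classInner θ (χ ω) with ha
  show (∀ ω, a ω = 0) ∨ (∃ (ψ₀ : OddChar.TIDual W₁ W₂) (c : ℂ), ∀ ω, a ω =
      if (∀ w : ↥(W₁ ⊔ W₂), (w : G) ∈ W₂ → (ω * ψ₀⁻¹) w = 1) then c else 0) ∨
    ∃ (φ₀ : OddChar.TIDual W₁ W₂) (c : ℂ), ∀ ω, a ω =
      if (∀ w : ↥(W₁ ⊔ W₂), (w : G) ∈ W₁ → (ω * φ₀⁻¹) w = 1) then c else 0
  letI : CommGroup ↥(W₁ ⊔ W₂) :=
    { (inferInstance : Group ↥(W₁ ⊔ W₂)) with mul_comm := OddChar.ti_comm hW }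
  haveI : Finite (OddChar.TIDual W₁ W₂) := Nat.finite_of_card_ne_zero (by
    rw [CommGroup.card_monoidHom_of_hasEnoughRootsOfUnity ↥(W₁ ⊔ W₂) ℂ]
    exact Nat.card_pos.ne')
  obtain ⟨hm, hn⟩ := OddChar.ti_card_parts hW
  let Φ := {φ : OddChar.TIDual W₁ W₂ // OddChar.TIFirst φ}
  let Ψ := {ψ : OddChar.TIDual W₁ W₂ // OddChar.TISecond ψ}
  have hrule : ∀ (φ : Φ) (ψ : Ψ), a (φ.1 * ψ.1) = a φ.1 + a ψ.1 - a 1 := by
    intro φ ψ
    have h := S1506.result W₁ W₂ hW χ hχ θ hθ hθV φ.1 1 ψ.1 1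
      (fun w hw => ⟨φ.2 w hw, rfl⟩) (fun w hw => ⟨ψ.2 w hw, rfl⟩)
    simp only [show φ.1 * (1 : OddChar.TIDual W₁ W₂) = φ.1 from MonoidHom.ext fun _ => mul_one _,
      show (1 : OddChar.TIDual W₁ W₂) * ψ.1 = ψ.1 from MonoidHom.ext fun _ => one_mul _,
      show (1 : OddChar.TIDual W₁ W₂) * 1 = 1 from MonoidHom.ext fun _ => mul_one _] at h
    simp only [ha]
    linear_combination h
  have hinj : ∀ (φ φ' : Φ) (ψ ψ' : Ψ), φ.1 * ψ.1 = φ'.1 * ψ'.1 → φ = φ' ∧ ψ = ψ' := fun φ φ' ψ ψ' h =>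
    let ⟨e1, e2⟩ := (OddChar.ti_mul_eq_mul_iff hW φ.2 φ'.2 ψ.2 ψ'.2).mp h
    ⟨Subtype.ext e1, Subtype.ext e2⟩
  have hsplit : ∀ ω, ∃ (φ : Φ) (ψ : Ψ), ω = φ.1 * ψ.1 := fun ω =>
    ⟨⟨_, OddChar.tiPartOne_first hW ω⟩, ⟨_, OddChar.tiPartTwo_second hW ω⟩,
      (OddChar.tiPart_mul hW ω).symm⟩
  by_cases hv : ∀ ψ : Ψ, a ψ.1 = a 1
  · -- one full row
    have hrow : ∀ (φ : Φ) (ψ : Ψ), a (φ.1 * ψ.1) = a φ.1 := fun φ ψ => by rw [hrule, hv]; ring
    by_cases hu : ∃ φ : Φ, a φ.1 ≠ 0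
    · obtain ⟨φ₀, h₀⟩ := hu
      refine Or.inr (Or.inr ⟨φ₀.1, a φ₀.1, fun ω => ?_⟩)
      obtain ⟨φ, ψ, rfl⟩ := hsplit ω
      rw [hrow]
      by_cases he : φ = φ₀
      · subst he
        rw [if_pos]
        intro w hw
        simp [ψ.2 w hw]
      · rw [if_neg]
        · by_contra hne
          refine absurd hfew (not_lt.mpr ?_)
          have hsub : ∀ p : ({φ, φ₀} : Finset Φ) × Ψ, Cfsg.classInner θ (χ ((p.1.1).1 * p.2.1)) ≠ 0 := by
            rintro ⟨⟨x, hx⟩, y⟩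
            show a (x.1 * y.1) ≠ 0
            rw [hrow]
            rcases Finset.mem_insert.mp hx with rfl | hx
            · exact hne
            · rw [Finset.mem_singleton.mp hx]; exact h₀
          calc 2 * Nat.card W₁ ≤ 2 * Nat.card W₂ := by omega
            _ = Nat.card (({φ, φ₀} : Finset Φ) × Ψ) := by
              rw [Nat.card_prod, Nat.card_eq_finsetCard, Finset.card_pair he, hn]
            _ ≤ _ := Nat.card_le_card_of_injective (fun p => ⟨_, hsub p⟩) fun p q h => by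
              obtain ⟨e1, e2⟩ := hinj _ _ _ _ (congrArg Subtype.val h)
              exact Prod.ext (Subtype.ext e1) e2
        · intro hall
          refine he (Subtype.ext (MonoidHom.ext fun w => ?_))
          have h := hall _ (OddChar.tiProjOne_mem hW w)
          simp only [MonoidHom.mul_apply, MonoidHom.inv_apply, ψ.2 _ (OddChar.tiProjOne_mem hW w),
            mul_one, mul_inv_eq_one] at h
          conv_lhs => rw [← OddChar.tiProj_mul hW w, map_mul, φ.2 _ (OddChar.tiProjTwo_mem hW w), mul_one]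
          conv_rhs => rw [← OddChar.tiProj_mul hW w, map_mul, φ₀.2 _ (OddChar.tiProjTwo_mem hW w), mul_one]
          exact h
    · push Not at hu
      refine Or.inl fun ω => ?_
      obtain ⟨φ, ψ, rfl⟩ := hsplit ω
      rw [hrow, hu]
  push Not at hv
  by_cases hu : ∀ φ : Φ, a φ.1 = a 1
  · -- one full column
    have hcol : ∀ (φ : Φ) (ψ : Ψ), a (φ.1 * ψ.1) = a ψ.1 := fun φ ψ => by rw [hrule, hu]; ring
    by_cases hu' : ∃ ψ : Ψ, a ψ.1 ≠ 0
    · obtain ⟨ψ₀, h₀⟩ := hu'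
      refine Or.inr (Or.inl ⟨ψ₀.1, a ψ₀.1, fun ω => ?_⟩)
      obtain ⟨φ, ψ, rfl⟩ := hsplit ω
      rw [hcol]
      by_cases he : ψ = ψ₀
      · subst he
        rw [if_pos]
        intro w hw
        simp [φ.2 w hw]
      · rw [if_neg]
        · by_contra hne
          refine absurd hfew (not_lt.mpr ?_)
          have hsub : ∀ p : Φ × ({ψ, ψ₀} : Finset Ψ), Cfsg.classInner θ (χ (p.1.1 * (p.2.1).1)) ≠ 0 := by
            rintro ⟨y, ⟨x, hx⟩⟩
            show a (y.1 * x.1) ≠ 0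
            rw [hcol]
            rcases Finset.mem_insert.mp hx with rfl | hx
            · exact hne
            · rw [Finset.mem_singleton.mp hx]; exact h₀
          calc 2 * Nat.card W₁ = Nat.card (Φ × ({ψ, ψ₀} : Finset Ψ)) := by
                rw [Nat.card_prod, Nat.card_eq_finsetCard, Finset.card_pair he, hm, mul_comm]
            _ ≤ _ := Nat.card_le_card_of_injective (fun p => ⟨_, hsub p⟩) fun p q h => by
              obtain ⟨e1, e2⟩ := hinj _ _ _ _ (congrArg Subtype.val h)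
              exact Prod.ext e1 (Subtype.ext e2)
        · intro hall
          refine he (Subtype.ext (MonoidHom.ext fun w => ?_))
          have h := hall _ (OddChar.tiProjTwo_mem hW w)
          simp only [MonoidHom.mul_apply, MonoidHom.inv_apply, φ.2 _ (OddChar.tiProjTwo_mem hW w),
            one_mul, mul_inv_eq_one] at h
          conv_lhs => rw [← OddChar.tiProj_mul hW w, map_mul, ψ.2 _ (OddChar.tiProjOne_mem hW w), one_mul]
          conv_rhs => rw [← OddChar.tiProj_mul hW w, map_mul, ψ₀.2 _ (OddChar.tiProjOne_mem hW w), one_mul]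
          exact h
    · push Not at hu'
      refine Or.inl fun ω => ?_
      obtain ⟨φ, ψ, rfl⟩ := hsplit ω
      rw [hcol, hu']
  -- too large a support otherwise
  exfalso
  push Not at hu
  obtain ⟨ψ₁, hψ₁⟩ := hv
  obtain ⟨φ₁, hφ₁⟩ := hu
  let φ₂ : Φ := ⟨1, OddChar.tiFirst_one⟩
  let ψ₂ : Ψ := ⟨1, OddChar.tiSecond_one⟩
  have hφ12 : φ₁ ≠ φ₂ := fun h => hφ₁ (by rw [h])
  have hother : ∀ φ : Φ, ∃ ψ : Ψ, a (φ.1 * ψ.1) ≠ 0 := by
    intro φ
    by_contra h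
    push Not at h
    have h1 := h ψ₁
    have h2 := h ψ₂
    rw [hrule] at h1 h2
    have h2' : a φ.1 + a 1 - a 1 = 0 := h2
    exact hψ₁ (by linear_combination h1 - h2')
  have hpair : ∀ ψ : Ψ, ∃ φ : Φ, (φ = φ₁ ∨ φ = φ₂) ∧ a (φ.1 * ψ.1) ≠ 0 := by
    intro ψ
    by_contra h
    push Not at h
    have h1 := h φ₁ (Or.inl rfl)
    have h2 := h φ₂ (Or.inr rfl)
    rw [hrule] at h1 h2
    have h2' : a 1 + a ψ.1 - a 1 = 0 := h2
    exact hφ₁ (by linear_combination h1 - h2')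
  choose f hf using hother
  choose g hg1 hg2 using hpair
  let F : {φ : Φ // φ ∉ ({φ₁, φ₂} : Finset Φ)} ⊕ Ψ →
      {ω : OddChar.TIDual W₁ W₂ // Cfsg.classInner θ (χ ω) ≠ 0} :=
    Sum.elim (fun φ => ⟨φ.1.1 * (f φ.1).1, hf φ.1⟩) (fun ψ => ⟨(g ψ).1 * ψ.1, hg2 ψ⟩)
  have hF : Function.Injective F := by
    rintro (φ | ψ) (φ' | ψ') h <;> obtain ⟨e1, e2⟩ := hinj _ _ _ _ (congrArg Subtype.val h)
    · exact congrArg Sum.inl (Subtype.ext e1)
    · exact absurd (by rcases hg1 ψ' with h' | h' <;> rw [e1, h'] <;> simp) φ.2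
    · exact absurd (by rcases hg1 ψ with h' | h' <;> rw [← e1, h'] <;> simp) φ'.2
    · exact congrArg Sum.inr e2
  haveI := Fintype.ofFinite Φ
  have hle := Nat.card_le_card_of_injective F hF
  rw [Nat.card_sum, hn, Nat.card_eq_fintype_card, Fintype.card_subtype_compl, Fintype.card_coe,
    Finset.card_pair hφ12, ← Nat.card_eq_fintype_card, hm] at hle
  have ho1 : Odd (Nat.card W₁) := hodd.of_dvd_nat (Subgroup.card_dvd_of_le le_sup_left)
  have ho2 : Odd (Nat.card W₂) := hodd.of_dvd_nat (Subgroup.card_dvd_of_le le_sup_right)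
  have hn1 : Nat.card W₁ ≠ 1 := fun h => hW.1 (Subgroup.eq_bot_of_card_eq W₁ h)
  rw [Nat.odd_iff] at ho1 ho2
  have := lt_of_le_of_lt hle hfew
  omega

end Cfsg.Agent.S1507
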