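import Cfsg.Statements.S1508
import Cfsg.Agent.OddChar.TIExists
import Cfsg.Agent.OddChar.GaloisAut
import Cfsg.Agent.S1506
import Mathlib.Tactic.LinearCombination

set_option autoImplicit false
open Cfsg

namespace Cfsg.Agent.S1508

/-- Let W₁, W₂ ≤ G form a self-normalising cyclic subgroup W = W₁ ⊔ W₂ of odd order and χ an orthonormal family of irreducible characters of G up to sign, indexed by the linear characters ω of W, with χ_1 = 1, χ_ω = ω on W outside W₁ ∪ W₂, and the induction identity for (1 − φ)(1 − ψ). Let ω be a linear character of W and g an element of G whose order is coprime to the order of ω. Then χ ω g is an integer. -/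
theorem result {G : Type*} [Group G] [Fintype G] (W₁ W₂ : Subgroup G) (hW : Cfsg.IsSelfNormalizingCyclic W₁ W₂) (hodd : Odd (Nat.card ↥(W₁ ⊔ W₂))) (χ : (↥(W₁ ⊔ W₂) →* ℂˣ) → (G → ℂ)) (hχ : Cfsg.IsCyclicTIFamily W₁ W₂ χ) (ω : ↥(W₁ ⊔ W₂) →* ℂˣ) (g : G) (hg : Nat.Coprime (orderOf g) (orderOf ω)) : ∃ n : ℤ, χ ω g = n := by
  classical
  letI : CommGroup ↥(W₁ ⊔ W₂) :=
    { (inferInstance : Group ↥(W₁ ⊔ W₂)) with mul_comm := OddChar.ti_comm hW }
  haveI : Finite (OddChar.TIDual W₁ W₂) := Nat.finite_of_card_ne_zero (by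
    rw [CommGroup.card_monoidHom_of_hasEnoughRootsOfUnity ↥(W₁ ⊔ W₂) ℂ]
    exact Nat.card_pos.ne')
  obtain ⟨hcΦ, hcΨ⟩ := OddChar.ti_card_parts hW
  have hm : orderOf ω ≠ 0 := by
    have : IsOfFinOrder ω := isOfFinOrder_iff_pow_eq_one.mpr ⟨Nat.card ↥(W₁ ⊔ W₂), Nat.card_pos,
      MonoidHom.ext fun w => by
        show (ω w) ^ Nat.card ↥(W₁ ⊔ W₂) = 1
        rw [← map_pow, pow_card_eq_one', map_one]⟩
    exact this.orderOf_pos.ne'
  have hsig : ∀ η, OddChar.IsSigned (χ η) := hχ.irr_or_neg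
  have hV : ∃ w : ↥(W₁ ⊔ W₂), (w : G) ∉ W₁ ∧ (w : G) ∉ W₂ := by
    obtain ⟨a, ha, ha1⟩ := (Subgroup.bot_or_exists_ne_one W₁).resolve_left hW.1
    obtain ⟨b, hb, hb1⟩ := (Subgroup.bot_or_exists_ne_one W₂).resolve_left hW.2.1
    refine ⟨⟨a * b, mul_mem (Subgroup.mem_sup_left ha) (Subgroup.mem_sup_right hb)⟩, ?_, ?_⟩
    · exact fun h => hb1 (OddChar.ti_eq_one hW ((W₁.mul_mem_cancel_left ha).mp h) hb)
    · exact fun h => ha1 (OddChar.ti_eq_one hW ha ((W₂.mul_mem_cancel_right hb).mp h))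
  have hkey : ∀ σ : ℂ ≃+* ℂ, (∀ z : ℂ, z ^ orderOf ω = 1 → σ z = z) → σ (χ ω g) = χ ω g := by
    intro σ hσ
    let α : G → ℂ := fun x => σ (χ ω x)
    have hα : OddChar.IsSigned α := by
      rcases hsig ω with h | h
      · exact Or.inl (OddChar.isIrrCharacter_map σ h)
      · refine Or.inr ?_
        have h' := OddChar.isIrrCharacter_map σ h
        simpa [α, Pi.neg_def] using h'
    have hαV : ∀ w : ↥(W₁ ⊔ W₂), (w : G) ∉ W₁ → (w : G) ∉ W₂ → α w = χ ω w := by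
      intro w h1 h2
      simp only [α, hχ.eq_on ω w h1 h2]
      refine hσ _ ?_
      rw [← Units.val_pow_eq_pow_val, ← MonoidHom.pow_apply, pow_orderOf_eq_one]
      simp
    by_contra hne
    have hne' : α ≠ χ ω := fun h => hne (congrFun h g)
    have horth : Cfsg.classInner α (χ ω) = 0 := by
      rcases hα.inner_cases (hsig ω) with h | ⟨ε, hε, he, -⟩
      · exact h
      rcases hε with rfl | rfl
      · exact absurd (by simpa using he) hne'
      · exfalso
        obtain ⟨w, h1, h2⟩ := hV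
        have h3 := hαV w h1 h2
        rw [he, Pi.smul_apply, hχ.eq_on ω w h1 h2, smul_eq_mul, neg_one_mul, neg_eq_self] at h3
        exact Units.ne_zero _ h3
    obtain ⟨η₀, hη₀⟩ : ∃ η₀, ∀ η, η ≠ η₀ → Cfsg.classInner α (χ η) = 0 := by
      by_cases hex : ∃ η, Cfsg.classInner α (χ η) ≠ 0
      · obtain ⟨η₀, h₀⟩ := hex
        refine ⟨η₀, fun η hη => ?_⟩
        rcases hα.inner_cases (hsig η₀) with h | ⟨ε, -, he, -⟩
        · exact absurd h h₀
        · rw [he, Chars.classInner_smul_left, hχ.orthonormal, if_neg (Ne.symm hη), mul_zero]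
      · push Not at hex
        exact ⟨1, fun η _ => hex η⟩
    let θ : G → ℂ := α - χ ω
    have hθ : Cfsg.IsClassFunction G θ :=
      OddChar.virt_isClassFunction (OddChar.virt_sub hα.virt (hsig ω).virt)
    have hθV : ∀ w : ↥(W₁ ⊔ W₂), (w : G) ∉ W₁ → (w : G) ∉ W₂ → θ w = 0 := fun w h1 h2 => by
      simp [θ, hαV w h1 h2]
    have ho1 : Odd (Nat.card W₁) := hodd.of_dvd_nat (Subgroup.card_dvd_of_le le_sup_left)
    have ho2 : Odd (Nat.card W₂) := hodd.of_dvd_nat (Subgroup.card_dvd_of_le le_sup_right)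
    have hn1 : Nat.card W₁ ≠ 1 := fun h => hW.1 (Subgroup.eq_bot_of_card_eq W₁ h)
    have hn2 : Nat.card W₂ ≠ 1 := fun h => hW.2.1 (Subgroup.eq_bot_of_card_eq W₂ h)
    rw [Nat.odd_iff] at ho1 ho2
    have hpick : ∀ {T : Type _} [Finite T], 3 ≤ Nat.card T → ∀ x y : T, ∃ z, z ≠ x ∧ z ≠ y := by
      intro T _ h x y
      haveI := Fintype.ofFinite T
      rw [Nat.card_eq_fintype_card] at h
      obtain ⟨z, -, hz⟩ := Finset.exists_mem_notMem_of_card_lt_card (s := ({x, y} : Finset T))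
        (t := Finset.univ) (by
          have := Finset.card_le_two (a := x) (b := y)
          rw [Finset.card_univ]; omega)
      simp only [Finset.mem_insert, Finset.mem_singleton, not_or] at hz
      exact ⟨z, hz⟩
    obtain ⟨φ', h1, h2⟩ := hpick (T := {φ : OddChar.TIDual W₁ W₂ // OddChar.TIFirst φ})
      (by rw [hcΦ]; omega) ⟨_, OddChar.tiPartOne_first hW ω⟩ ⟨_, OddChar.tiPartOne_first hW η₀⟩
    obtain ⟨ψ', h3, h4⟩ := hpick (T := {φ : OddChar.TIDual W₁ W₂ // OddChar.TISecond φ})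
      (by rw [hcΨ]; omega) ⟨_, OddChar.tiPartTwo_second hW ω⟩ ⟨_, OddChar.tiPartTwo_second hW η₀⟩
    set φ := OddChar.tiPartOne hW ω with hφ
    set ψ := OddChar.tiPartTwo hW ω with hψ
    have hφF : OddChar.TIFirst φ := OddChar.tiPartOne_first hW ω
    have hψS : OddChar.TISecond ψ := OddChar.tiPartTwo_second hW ω
    have hω : φ * ψ = ω := OddChar.tiPart_mul hW ω
    have hz : ∀ η, η ≠ ω → η ≠ η₀ → Cfsg.classInner θ (χ η) = 0 := fun η e1 e2 => by
      rw [Chars.classInner_sub_left, hη₀ η e2, hχ.orthonormal, if_neg (Ne.symm e1), sub_zero]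
    have hne_of : ∀ (a : OddChar.TIDual W₁ W₂) (b : OddChar.TIDual W₁ W₂), OddChar.TIFirst a →
        OddChar.TISecond b → ∀ η, a * b = η →
        a = OddChar.tiPartOne hW η ∧ b = OddChar.tiPartTwo hW η := by
      rintro a b ha hb η rfl
      exact ⟨(OddChar.tiPartOne_mul hW ha hb).symm, (OddChar.tiPartTwo_mul hW ha hb).symm⟩
    have hr := S1506.result W₁ W₂ hW χ hχ θ hθ hθV φ φ'.1 ψ ψ'.1
      (fun w hw => ⟨hφF w hw, φ'.2 w hw⟩) (fun w hw => ⟨hψS w hw, ψ'.2 w hw⟩)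
    rw [hω, hz (φ'.1 * ψ'.1) (fun h => h1 (Subtype.ext (hne_of _ _ φ'.2 ψ'.2 _ h).1))
        (fun h => h2 (Subtype.ext (hne_of _ _ φ'.2 ψ'.2 _ h).1)),
      hz (φ * ψ'.1) (fun h => h3 (Subtype.ext (hne_of _ _ hφF ψ'.2 _ h).2))
        (fun h => h4 (Subtype.ext (hne_of _ _ hφF ψ'.2 _ h).2)),
      hz (φ'.1 * ψ) (fun h => h1 (Subtype.ext (hne_of _ _ φ'.2 hψS _ h).1))
        (fun h => h2 (Subtype.ext (hne_of _ _ φ'.2 hψS _ h).1)),
      Chars.classInner_sub_left, horth, hχ.orthonormal, if_pos rfl] at hr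
    norm_num at hr
  rcases hsig ω with h | h
  · exact OddChar.char_value_int_of_fixed (Chars.isCharacter_of_isIrr h) hm hg hkey
  · obtain ⟨a, ha⟩ := OddChar.char_value_int_of_fixed (Chars.isCharacter_of_isIrr h) hm hg
      (fun σ hσ => by simp only [Pi.neg_apply, map_neg, hkey σ hσ])
    exact ⟨-a, by rw [Int.cast_neg, ← ha, Pi.neg_apply, neg_neg]⟩

end Cfsg.Agent.S1508
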