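import Cfsg.Statements.S1510
import Cfsg.Agent.OddChar.Elem
import Mathlib.GroupTheory.SpecificGroups.Cyclic
import Mathlib.GroupTheory.Complement

set_option autoImplicit false
open Cfsg

namespace Cfsg.Agent.S1510

/-- Let L be a finite group with a normal subgroup K and a nontrivial cyclic subgroup W₁ of order coprime to its index, K ⊓ W₁ = ⊥ and K ⊔ W₁ = ⊤; let W₂ ≠ ⊥ be a cyclic subgroup of K with K ⊓ C_L(x) = W₂ for every non-identity x ∈ W₁, and suppose W₁ ⊔ W₂ has odd order. Then (W₁, W₂) is a self-normalising cyclic pair in L. -/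
theorem result {L : Type*} [Group L] [Fintype L] (K W₁ W₂ : Subgroup L) [hK : K.Normal] (hKW₁ : K ⊓ W₁ = ⊥) (hKW₁' : K ⊔ W₁ = ⊤) (hW₁ : W₁ ≠ ⊥) (hW₁c : IsCyclic W₁) (hHall : Nat.Coprime (Nat.card W₁) W₁.index) (hW₂ : W₂ ≠ ⊥) (hW₂c : IsCyclic W₂) (hW₂K : W₂ ≤ K) (hC : ∀ x ∈ W₁, x ≠ 1 → K ⊓ Subgroup.centralizer ({x} : Set L) = W₂) (hodd : Odd (Nat.card ↥(W₁ ⊔ W₂))) : Cfsg.IsSelfNormalizingCyclic W₁ W₂ := by
  have hcomm : ∀ a ∈ W₁, ∀ b ∈ W₂, a * b = b * a := by
    intro a ha b hb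
    rcases eq_or_ne a 1 with rfl | ha1
    · simp
    · exact OddChar.mem_centralizer_singleton.mp ((hC a ha ha1).ge hb).2
  have hdisj : W₁ ⊓ W₂ = ⊥ := by
    rw [eq_bot_iff]
    exact fun x hx => hKW₁.le ⟨hW₂K hx.2, hx.1⟩
  have hcop : Nat.Coprime (Nat.card W₁) (Nat.card W₂) := by
    refine Nat.Coprime.coprime_dvd_right ?_ hHall
    have hKidx : K.IsComplement' W₁ := Subgroup.isComplement'_of_disjoint_and_mul_eq_univ
      (disjoint_iff.mpr hKW₁) (by rw [← Subgroup.normal_mul, hKW₁']; rfl)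
    rw [hKidx.index_eq_card]
    exact Subgroup.card_dvd_of_le hW₂K
  obtain ⟨m, hm⟩ := OddChar.exists_split_exponent hcop
  have hpow : ∀ a ∈ W₁, ∀ b ∈ W₂, (a * b) ^ m = a := fun a ha b hb =>
    hm a b (hcomm a ha b hb) (OddChar.pow_card_eq_one_of_mem W₁ ha)
      (OddChar.pow_card_eq_one_of_mem W₂ hb)
  have hcW : ∀ u ∈ W₁ ⊔ W₂, ∀ v ∈ W₁ ⊔ W₂, u * v = v * u := by
    have hle : W₁ ⊔ W₂ ≤ Subgroup.centralizer ((W₁ ⊔ W₂ : Subgroup L) : Set L) := by
      rw [Subgroup.le_centralizer_iff, sup_le_iff]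
      constructor <;> rw [Subgroup.le_centralizer_iff, sup_le_iff] <;>
        refine ⟨?_, ?_⟩ <;> intro u hu <;> rw [Subgroup.mem_centralizer_iff] <;> intro v hv
      · exact congrArg Subtype.val ((IsCyclic.commGroup (α := W₁)).mul_comm ⟨v, hv⟩ ⟨u, hu⟩)
      · exact hcomm v hv u hu
      · exact (hcomm u hu v hv).symm
      · exact congrArg Subtype.val ((IsCyclic.commGroup (α := W₂)).mul_comm ⟨v, hv⟩ ⟨u, hu⟩)
    intro u hu v hv
    exact Subgroup.mem_centralizer_iff.mp (hle hv) u hu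
  have hmem : ∀ w ∈ W₁ ⊔ W₂, ∃ a ∈ W₁, ∃ b ∈ W₂, a * b = w := by
    intro w hw
    have hle : W₂ ≤ Subgroup.normalizer (W₁ : Set L) := fun b hb => by
      refine Subgroup.centralizer_le_normalizer _ ?_
      rw [Subgroup.mem_centralizer_iff]
      exact fun a ha => hcomm a ha b hb
    rw [← SetLike.mem_coe, Subgroup.coe_mul_of_right_le_normalizer_left W₁ W₂ hle] at hw
    exact Set.mem_mul.mp hw
  refine ⟨hW₁, hW₂, hdisj, hcomm, ?_, ?_⟩
  · obtain ⟨x, hx⟩ := hW₁c.exists_generator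
    obtain ⟨y, hy⟩ := hW₂c.exists_generator
    have hsub : W₁ ⊔ W₂ = Subgroup.zpowers ((x : L) * y) := by
      apply le_antisymm
      · have h1 : (x : L) ∈ Subgroup.zpowers ((x : L) * y) := by
          have := Subgroup.npow_mem_zpowers ((x : L) * y) m
          rwa [hpow x x.2 y y.2] at this
        have h2 : (y : L) ∈ Subgroup.zpowers ((x : L) * y) := by
          have := Subgroup.mul_mem _ (Subgroup.inv_mem _ h1) (Subgroup.mem_zpowers ((x : L) * y))
          simpa using this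
        apply sup_le
        · intro w hw
          obtain ⟨k, hk⟩ := Subgroup.mem_zpowers_iff.mp (hx ⟨w, hw⟩)
          have hk' : (x : L) ^ k = w := by simpa using congrArg Subtype.val hk
          exact hk' ▸ Subgroup.zpow_mem _ h1 k
        · intro w hw
          obtain ⟨k, hk⟩ := Subgroup.mem_zpowers_iff.mp (hy ⟨w, hw⟩)
          have hk' : (y : L) ^ k = w := by simpa using congrArg Subtype.val hk
          exact hk' ▸ Subgroup.zpow_mem _ h2 k
      · rw [Subgroup.zpowers_le]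
        exact Subgroup.mul_mem_sup x.2 y.2
    rw [hsub]; infer_instance
  · intro X hX hne
    apply le_antisymm
    · intro g hg
      rw [Subgroup.mem_set_normalizer_iff] at hg
      obtain ⟨w, hw⟩ := hne
      obtain ⟨hwW, hw12⟩ := hX hw
      obtain ⟨hwW', -⟩ := hX ((hg w).mp hw)
      obtain ⟨a, ha, b, hb, hab⟩ := hmem w hwW
      obtain ⟨a', ha', b', hb', hab'⟩ := hmem _ hwW'
      have ha1 : a ≠ 1 := by
        rintro rfl
        exact hw12 (Or.inr (by rw [← hab, one_mul]; exact hb))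
      have hga : g * a * g⁻¹ = a' := by
        rw [← hpow a' ha' b' hb', hab', ← hab, conj_pow, hpow a ha b hb]
      have hgKW : g ∈ ((K ⊔ W₁ : Subgroup L) : Set L) := by rw [hKW₁']; trivial
      rw [Subgroup.normal_mul] at hgKW
      obtain ⟨k, hk, w₁, hw₁, rfl⟩ := Set.mem_mul.mp hgKW
      have hw₁a : w₁ * a * w₁⁻¹ = a := by
        rw [hcW w₁ (Subgroup.mem_sup_left hw₁) a (Subgroup.mem_sup_left ha)]; group
      have hka : k * a * k⁻¹ = a' := by
        calc k * a * k⁻¹ = k * (w₁ * a * w₁⁻¹) * k⁻¹ := by rw [hw₁a]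
          _ = k * w₁ * a * (k * w₁)⁻¹ := by group
          _ = a' := hga
      have haa' : a' = a := by
        have h1 : a' * a⁻¹ ∈ K := by
          rw [← hka]
          have h2 : k * (a * k⁻¹ * a⁻¹) ∈ K := K.mul_mem hk (hK.conj_mem _ (K.inv_mem hk) a)
          simpa [mul_assoc] using h2
        have h3 : a' * a⁻¹ ∈ (⊥ : Subgroup L) :=
          hKW₁.le ⟨h1, W₁.mul_mem ha' (W₁.inv_mem ha)⟩
        exact mul_inv_eq_one.mp (Subgroup.mem_bot.mp h3)
      have hkW₂ : k ∈ W₂ := by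
        rw [← hC a ha ha1]
        refine ⟨hk, OddChar.mem_centralizer_singleton.mpr ?_⟩
        calc a * k = k * a * k⁻¹ * k := by rw [hka, haa']
          _ = k * a := by group
      exact Subgroup.mul_mem _ (Subgroup.mem_sup_right hkW₂) (Subgroup.mem_sup_left hw₁)
    · intro u hu
      rw [Subgroup.mem_set_normalizer_iff]
      intro n
      constructor
      · intro hn
        rwa [hcW u hu n (hX hn).1, mul_inv_cancel_right]
      · intro hn
        have h2 := hcW u hu _ (hX hn).1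
        have : n = u * n * u⁻¹ := by
          apply mul_left_cancel (a := u)
          rw [h2]; group
        rwa [this]

end Cfsg.Agent.S1510
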