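import Cfsg.Statements.S1512
import Cfsg.Agent.OddChar.Elem
import Mathlib.GroupTheory.Perm.Cycle.Type
import Mathlib.GroupTheory.GroupAction.Quotient
import Mathlib.GroupTheory.GroupAction.ConjAct

set_option autoImplicit false
open Cfsg

namespace Cfsg.Agent.S1512

/-- Let K be a normal subgroup of the finite group L and x a non-identity element whose order is coprime to the order of K, such that K ⊓ C_L(y) = W₂ for every non-identity element y of the cyclic group generated by x. Then the number of conjugacy classes of K mapped to themselves by conjugation by x is at most Nat.card W₂. -/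
theorem result {L : Type*} [Group L] [Finite L] (K W₂ : Subgroup L) [hK : K.Normal] (x : L) (hx1 : x ≠ 1) (hx : Nat.Coprime (orderOf x) (Nat.card K)) (hC : ∀ y ∈ Subgroup.zpowers x, y ≠ 1 → K ⊓ Subgroup.centralizer ({y} : Set L) = W₂) : Nat.card {C : ConjClasses K // ConjClasses.map (MulEquiv.toMonoidHom ((MulAut.conjNormal x : MulAut K))) C = C} ≤ Nat.card W₂ := by
  classical
  set τ : MulAut K := MulAut.conjNormal x with hτ
  have key : ∀ C : ConjClasses K, ConjClasses.map τ.toMonoidHom C = C →
      ∃ k : K, ConjClasses.mk k = C ∧ (k : L) ∈ W₂ := by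
    intro C hCfix
    obtain ⟨p, hp, hpd⟩ := Nat.exists_prime_and_dvd
      (n := orderOf x) (by rwa [Ne, orderOf_eq_one_iff])
    haveI := Fact.mk hp
    set n := orderOf x / p with hn
    set y := x ^ n with hy
    have hordy : orderOf y = p := by
      rw [hy, orderOf_pow_orderOf_div (orderOf_pos x).ne' hpd]
    have hy1 : y ≠ 1 := by
      intro h; rw [h, orderOf_one] at hordy; exact hp.ne_one hordy.symm
    have hCy := hC y (Subgroup.npow_mem_zpowers x n) hy1
    -- the class is invariant under conjugation by powers of `x`
    have hinvx : ∀ k : K, ConjClasses.mk k = C → ConjClasses.mk (τ k) = C := by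
      intro k hk
      rw [← hk] at hCfix ⊢
      exact hCfix
    have hinv : ∀ (m : ℕ) (k : K), ConjClasses.mk k = C →
        ConjClasses.mk (MulAut.conjNormal (x ^ m) k) = C := by
      intro m
      induction m with
      | zero => intro k hk; simpa using hk
      | succ m ih =>
        intro k hk
        rw [pow_succ', map_mul]
        exact hinvx _ (ih k hk)
    let σ : C.carrier → C.carrier := fun k =>
      ⟨MulAut.conjNormal y (k : K), ConjClasses.mem_carrier_iff_mk_eq.mpr
        (hinv n k (ConjClasses.mem_carrier_iff_mk_eq.mp k.2))⟩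
    have hσinj : Function.Injective σ := fun a b hab =>
      Subtype.ext ((MulAut.conjNormal y).injective (congrArg Subtype.val hab))
    let σe : Equiv.Perm C.carrier := Equiv.ofBijective σ (Finite.injective_iff_bijective.mp hσinj)
    have hpow : ∀ (m : ℕ) (k : C.carrier), (((σe ^ m) k : C.carrier) : K) = MulAut.conjNormal (y ^ m) (k : K) := by
      intro m
      induction m with
      | zero => intro k; simp
      | succ m ih =>
        intro k
        rw [pow_succ', Equiv.Perm.mul_apply, pow_succ', map_mul]
        show MulAut.conjNormal y (((σe ^ m) k : C.carrier) : K) = _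
        rw [ih]; rfl
    have hσp : σe ^ p ^ 1 = 1 := by
      ext k
      rw [pow_one, hpow, ← hordy, pow_orderOf_eq_one]
      simp
    obtain ⟨k₀, hk₀⟩ := C.exists_rep
    haveI : Fintype K := Fintype.ofFinite K
    have hcard : ¬ p ∣ Fintype.card C.carrier := by
      intro hd
      have h1 : Fintype.card C.carrier ∣ Nat.card K := by
        rw [← Nat.card_eq_fintype_card, ← hk₀]
        rw [← ConjAct.orbit_eq_carrier_conjClasses]
        rw [Nat.card_congr (MulAction.orbitEquivQuotientStabilizer (ConjAct K) k₀), ← Subgroup.index]
        exact (Subgroup.index_dvd_card _).trans (dvd_of_eq rfl)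
      exact hp.ne_one (Nat.eq_one_of_dvd_coprimes hx hpd (hd.trans h1))
    obtain ⟨k, hk⟩ := Equiv.Perm.exists_fixed_point_of_prime hcard hσp
    refine ⟨k, ConjClasses.mem_carrier_iff_mk_eq.mp k.2, ?_⟩
    rw [← hCy]
    refine ⟨(k : K).2, ?_⟩
    show ((k : K) : L) ∈ Subgroup.centralizer ({y} : Set L)
    rw [Subgroup.mem_centralizer_iff]
    intro a ha
    rw [Set.mem_singleton_iff] at ha
    rw [ha]
    have h3 : y * ((k : K) : L) * y⁻¹ = ((k : K) : L) := by
      have := congrArg (fun t : C.carrier => ((t : K) : L)) hk
      simpa [σe, σ] using this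
    calc y * ((k : K) : L) = y * ((k : K) : L) * y⁻¹ * y := by group
      _ = ((k : K) : L) * y := by rw [h3]
  choose f hf using key
  refine Nat.card_le_card_of_injective
    (fun C => (⟨((f C.1 C.2 : K) : L), (hf C.1 C.2).2⟩ : W₂)) ?_
  intro C D he
  have he' : f C.1 C.2 = f D.1 D.2 := Subtype.ext (by simpa using congrArg Subtype.val he)
  exact Subtype.ext ((hf C.1 C.2).1.symm.trans ((congrArg ConjClasses.mk he').trans (hf D.1 D.2).1))

end Cfsg.Agent.S1512
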