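import Cfsg.Statements.S1518
import Cfsg.Agent.OddChar.DadeIntegral
import Cfsg.Agent.OddChar.Virtual
import Cfsg.Agent.S1500
import Cfsg.Agent.S1501

set_option autoImplicit false
open Cfsg

namespace Cfsg.Agent.S1518

/-- Under the Dade hypothesis for (A, L, H): if χ is an irreducible character of L vanishing at every non-identity element of L outside A, then the Dade image of χ − conj χ equals μ − conj μ for some irreducible character μ of G. -/
theorem result {G : Type*} [Group G] [Fintype G] (A : Set G) (L : Subgroup G) [Fintype L] (H : G → Subgroup G) (hD : Cfsg.DadeHypothesis A L H) (χ : L → ℂ) (hχ : Cfsg.IsIrrCharacter L χ) (hsupp : ∀ x : L, x ≠ 1 → (x : G) ∉ A → χ x = 0) : ∃ μ : G → ℂ, Cfsg.IsIrrCharacter G μ ∧ Cfsg.dadeIsometry A L H (χ - Cfsg.conjFun χ) = μ - Cfsg.conjFun μ := by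
  classical
  have hχg := OddChar.virt_of_irr hχ
  have hcirr : Cfsg.IsIrrCharacter L (Cfsg.conjFun χ) := Chars.isIrrCharacter_star hχ
  set α : L → ℂ := χ - Cfsg.conjFun χ with hα
  have hαg : Cfsg.IsGeneralizedCharacter L α := OddChar.virt_sub hχg (OddChar.virt_of_irr hcirr)
  have hαc : Cfsg.IsClassFunction L α := OddChar.virt_isClassFunction hαg
  have hα1 : α 1 = 0 := by
    simp [hα, Cfsg.conjFun, Chars.irr_apply_one_conj (Chars.isCharacter_of_isIrr hχ)]
  have hαA : ∀ x : L, (x : G) ∉ A → α x = 0 := by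
    intro x hx
    rcases eq_or_ne x 1 with rfl | hx1
    · exact hα1
    · simp [hα, Cfsg.conjFun, hsupp x hx1 hx]
  have hτg : Cfsg.IsGeneralizedCharacter G (Cfsg.dadeIsometry A L H α) :=
    S1501.result A L H hD α hαg hαA
  by_cases hreal : Cfsg.conjFun χ = χ
  · refine ⟨fun _ => 1, Chars.isIrrCharacter_one, ?_⟩
    funext g
    have h0 : α = 0 := by rw [hα, hreal, sub_self]
    have : Cfsg.dadeIsometry A L H α g = 0 := by
      by_cases hg : g ∈ OddChar.dadeSupport A H
      · obtain ⟨a, ha, u, hu, y, hy⟩ := hg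
        rw [OddChar.dade_apply hD hαc ⟨a, hD.subset ha⟩ ha g y u hu hy, h0]; rfl
      · exact OddChar.dade_apply_of_notMem α hg
    rw [this]; simp [Cfsg.conjFun]
  have hnorm : Cfsg.classInner (Cfsg.dadeIsometry A L H α) (Cfsg.dadeIsometry A L H α) = 2 := by
    rw [(S1500.result A L H hD α hαc hαA).1 α hαc hαA, hα, Chars.classInner_sub_left,
      Chars.classInner_sub_right, Chars.classInner_sub_right, Chars.classInner_self_irr hχ,
      Chars.classInner_self_irr hcirr, Chars.classInner_irr_of_ne hχ hcirr (Ne.symm hreal),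
      Chars.classInner_irr_of_ne hcirr hχ hreal]
    norm_num
  have hone : (1 : G) ∉ OddChar.dadeSupport A H := by
    rintro ⟨a, ha, u, hu, y, hy⟩
    have h1 : a * u = 1 := by rw [← hy]; group
    have hai : a⁻¹ ∈ H a := by rw [inv_eq_of_mul_eq_one_right h1]; exact hu
    have hau : a ∈ H a := inv_mem_iff.mp hai
    have hmem : a ∈ H a ⊓ (L ⊓ Subgroup.centralizer ({a} : Set G)) :=
      ⟨hau, OddChar.dade_self_mem hD ha⟩
    rw [hD.inf_eq_bot a ha, Subgroup.mem_bot] at hmem
    exact hD.one_not_mem (hmem ▸ ha)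
  obtain ⟨μ, ν, hμ, hν, hne, heq⟩ := OddChar.virt_norm_two hτg hnorm
    (OddChar.dade_apply_of_notMem α hone)
  refine ⟨μ, hμ, ?_⟩
  rw [heq]
  -- complex conjugation changes the sign
  have hconj : ∀ g, (starRingEnd ℂ) (Cfsg.dadeIsometry A L H α g) = -Cfsg.dadeIsometry A L H α g := by
    intro g
    by_cases hg : g ∈ OddChar.dadeSupport A H
    · obtain ⟨a, ha, u, hu, y, hy⟩ := hg
      rw [OddChar.dade_apply hD hαc ⟨a, hD.subset ha⟩ ha g y u hu hy]
      simp [hα, Cfsg.conjFun]
    · simp [OddChar.dade_apply_of_notMem α hg]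
  have hcμ : Cfsg.IsIrrCharacter G (Cfsg.conjFun μ) := Chars.isIrrCharacter_star hμ
  have hcν : Cfsg.IsIrrCharacter G (Cfsg.conjFun ν) := Chars.isIrrCharacter_star hν
  have hfun : Cfsg.conjFun μ - Cfsg.conjFun ν = ν - μ := by
    funext g
    have := hconj g
    rw [heq] at this
    simp only [Pi.sub_apply, Cfsg.conjFun, map_sub] at this ⊢
    rw [this]; ring
  have hip := congrArg (fun f => Cfsg.classInner f (Cfsg.conjFun μ)) hfun
  simp only [Chars.classInner_sub_left, Chars.classInner_self_irr hcμ,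
    Chars.classInner_irr hcν hcμ, Chars.classInner_irr hν hcμ, Chars.classInner_irr hμ hcμ] at hip
  have hne' : Cfsg.conjFun ν ≠ Cfsg.conjFun μ := fun h => hne (funext fun g =>
    (starRingEnd ℂ).injective (congrFun h g).symm)
  rw [if_neg hne', sub_zero] at hip
  split_ifs at hip with h1 h2
  · norm_num at hip
  · rw [h1]
  · norm_num at hip
  · norm_num at hip

end Cfsg.Agent.S1518
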