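import Cfsg.Statements.S1524
import Cfsg.Agent.OddChar.SibleyCase
import Cfsg.Agent.OddChar.FrobCoprime

set_option autoImplicit false
open Cfsg

namespace Cfsg.Agent.S1524

/-- Let G be a finite group and H ≤ L subgroups with L of odd order, H ≠ ⊥ nilpotent and normal in L with a nontrivial complement W₁ in L (H ⊓ W₁ = ⊥, H ⊔ W₁ = L) acting on H without non-identity fixed points (L is a Frobenius group with kernel H), and suppose the underlying set of H is a TI-subset of G whose normaliser is L. Let S be the set of functions on L induced from the non-principal irreducible characters of H. Then (S, L minus 1, induction to G) is coherent. -/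
theorem result {G : Type*} [Group G] [Fintype G] (H L W₁ : Subgroup G) [Fintype L] (hodd : Odd (Nat.card L)) (hHL : H ≤ L) (hW₁L : W₁ ≤ L) (hH1 : H ≠ ⊥) (hW1 : W₁ ≠ ⊥) (hnil : Group.IsNilpotent H) (hHn : ∀ x ∈ L, ∀ h ∈ H, x * h * x⁻¹ ∈ H) (hinf : H ⊓ W₁ = ⊥) (hsup : H ⊔ W₁ = L) (hfpf : ∀ w ∈ W₁, w ≠ 1 → ∀ h ∈ H, w * h = h * w → h = 1) (hTI : Cfsg.IsTISubset (H : Set G)) (hN : Subgroup.normalizer (H : Set G) = L) : Cfsg.IsCoherent (Cfsg.inducedIrrAbove (H.subgroupOf L) ⊥) {1}ᶜ (fun α : L → ℂ => Cfsg.indFun L α) := by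
  classical
  haveI hn : (H.subgroupOf L).Normal := ⟨fun h hh x => hHn x x.2 h hh⟩
  have hlt : H.subgroupOf L < ⊤ := lt_top_iff_ne_top.mpr fun h => hW1 (by
    rw [Subgroup.subgroupOf_eq_top] at h
    rw [← hinf]
    exact (inf_eq_right.mpr (hW₁L.trans h)).symm)
  have hnil' : Group.IsNilpotent (H.subgroupOf L) := by
    haveI := hnil
    exact Group.nilpotent_of_mulEquiv (Subgroup.subgroupOfEquivOfLe hHL).symm
  have hC : ∀ k ∈ H.subgroupOf L, k ≠ 1 → Subgroup.centralizer ({k} : Set L) ≤ H.subgroupOf L := by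
    intro k hk hk1 x hx
    have hcomm : (x : G) * k = k * x := congrArg Subtype.val (show x * k = k * x by
      have h := Subgroup.mem_centralizer_singleton_iff.mp hx
      first | exact h | exact h.symm)
    have hxmem : (x : G) ∈ H ⊔ W₁ := by rw [hsup]; exact x.2
    rw [← SetLike.mem_coe, Subgroup.coe_mul_of_right_le_normalizer_left H W₁ fun w hw => ?_] at hxmem
    swap
    · refine Subgroup.mem_normalizer_iff.mpr fun h => ⟨fun hh => hHn w (hW₁L hw) h hh, fun hh => ?_⟩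
      have := hHn w⁻¹ (L.inv_mem (hW₁L hw)) _ hh
      simpa [mul_assoc] using this
    obtain ⟨h', hh', w, hw, hxe⟩ := Set.mem_mul.mp hxmem
    by_cases hw1 : w = 1
    · show (x : G) ∈ H
      rw [← hxe, hw1, mul_one]; exact hh'
    exfalso
    let f : H → H := fun a => ⟨a * (w * (a : G)⁻¹ * w⁻¹),
      H.mul_mem a.2 (hHn w (hW₁L hw) _ (H.inv_mem a.2))⟩
    have hf : Function.Injective f := by
      intro a b hab
      have e : (a : G) * (w * (a : G)⁻¹ * w⁻¹) = b * (w * (b : G)⁻¹ * w⁻¹) := congrArg Subtype.val hab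
      have e2 : w * ((b : G)⁻¹ * a) = (b : G)⁻¹ * a * w := by
        calc w * ((b : G)⁻¹ * a) = (b : G)⁻¹ * (b * (w * (b : G)⁻¹ * w⁻¹)) * w * a := by group
          _ = (b : G)⁻¹ * (a * (w * (a : G)⁻¹ * w⁻¹)) * w * a := by rw [e]
          _ = (b : G)⁻¹ * a * w := by group
      exact Subtype.ext (inv_mul_eq_one.mp (hfpf w hw hw1 _ (H.mul_mem (H.inv_mem b.2) a.2) e2)).symm
    obtain ⟨a, ha⟩ := Finite.injective_iff_surjective.mp hf ⟨h', hh'⟩
    have hxa : (x : G) = a * w * (a : G)⁻¹ := by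
      have ha' : (a : G) * (w * (a : G)⁻¹ * w⁻¹) = h' := congrArg Subtype.val ha
      rw [← hxe, ← ha']; group
    have e3 : w * ((a : G)⁻¹ * k * a) = (a : G)⁻¹ * k * a * w := by
      calc w * ((a : G)⁻¹ * k * a) = (a : G)⁻¹ * ((a * w * (a : G)⁻¹) * k) * a := by group
        _ = (a : G)⁻¹ * (k * (a * w * (a : G)⁻¹)) * a := by rw [← hxa, hcomm]
        _ = (a : G)⁻¹ * k * a * w := by group
    have h4 := hfpf w hw hw1 _ (H.mul_mem (H.mul_mem (H.inv_mem a.2) hk) a.2) e3
    exact hk1 (Subtype.ext (show (k : G) = 1 by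
      calc (k : G) = a * ((a : G)⁻¹ * k * a) * (a : G)⁻¹ := by group
        _ = 1 := by
          have h5 : (a : G)⁻¹ * (k : G) * a = 1 := h4
          rw [h5, mul_one, mul_inv_cancel]))
  by_cases hcase : (¬ ∃ p m : ℕ, p.Prime ∧ Nat.card H = p ^ m) ∨
      ⁅H.subgroupOf L, H.subgroupOf L⁆ = ⊥
  · exact OddChar.sibley_easy H L hHL hTI hN hodd hH1 hlt hnil' hC hcase
  push Not at hcase
  obtain ⟨⟨p, m, hp, hm⟩, hna⟩ := hcase
  haveI : Fact p.Prime := ⟨hp⟩
  subst hN
  obtain ⟨P, hP⟩ := OddChar.exists_sylow_eq (p := p) H (IsPGroup.iff_card.mpr ⟨m, hm⟩) (by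
    intro hd
    have hcop := OddChar.frob_coprime _ hC
    rw [Nat.card_congr (Subgroup.subgroupOfEquivOfLe hHL).toEquiv, hm] at hcop
    have hm0 : m ≠ 0 := fun h => hH1 (Subgroup.card_eq_one.mp (by rw [hm, h, pow_zero]))
    exact Nat.Prime.not_coprime_iff_dvd.mpr ⟨p, hp, dvd_pow_self p hm0, hd⟩ hcop)
  subst hP
  exact OddChar.sibley_sylow P hTI hodd hlt hC hna

end Cfsg.Agent.S1524
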