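import Cfsg.Statements.S1525
import Cfsg.Agent.OddChar.DadeSum
import Mathlib.Algebra.Order.Chebyshev

set_option autoImplicit false
open Cfsg

namespace Cfsg.Agent.S1525

/-- Under the Dade hypothesis for (A, L, H), let χ be a class function of G and let ψ be a function on L whose value at each a ∈ A is the average of χ over the coset a·H(a). Then (1/|G|) Σ |χ g|² over the elements g of G conjugate into some coset a·H(a) with a ∈ A is at least (1/|L|) Σ_{a ∈ A ∩ L} |ψ a|². -/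
theorem result {G : Type*} [Group G] [Fintype G] (A : Set G) (L : Subgroup G) [Fintype L] (H : G → Subgroup G) (hD : Cfsg.DadeHypothesis A L H) (χ : G → ℂ) (hχ : Cfsg.IsClassFunction G χ) (ψ : L → ℂ) (hψ : ∀ a : L, (a : G) ∈ A → ψ a = (Nat.card (H a) : ℂ)⁻¹ * ∑ᶠ u ∈ (H a : Set G), χ (a * u)) : (Nat.card L : ℝ)⁻¹ * ∑ᶠ a ∈ {a : L | (a : G) ∈ A}, ‖ψ a‖ ^ 2 ≤ (Nat.card G : ℝ)⁻¹ * ∑ᶠ g ∈ {g : G | ∃ a ∈ A, ∃ u ∈ H a, ∃ x : G, x * g * x⁻¹ = a * u}, ‖χ g‖ ^ 2 := by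
  classical
  let F : G → ℝ := fun g => if g ∈ OddChar.dadeSupport A H then ‖χ g‖ ^ 2 else 0
  have hF : ∀ g h : G, F (h * g * h⁻¹) = F g := by
    intro g h
    have : h * g * h⁻¹ ∈ OddChar.dadeSupport A H ↔ g ∈ OddChar.dadeSupport A H :=
      ⟨fun hh => by simpa [mul_assoc] using OddChar.dadeSupport_conj hh h⁻¹,
        fun hh => OddChar.dadeSupport_conj hh h⟩
    simp only [F, this, hχ g h]
  have hsum := OddChar.dade_sum hD F hF (fun g hg => if_neg hg)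
  have hrhs : (∑ᶠ g ∈ {g : G | ∃ a ∈ A, ∃ u ∈ H a, ∃ x : G, x * g * x⁻¹ = a * u}, ‖χ g‖ ^ 2) =
      ∑ g : G, F g := by
    rw [finsum_mem_eq_toFinset_sum, ← Finset.sum_subset (Finset.subset_univ
      ({g : G | ∃ a ∈ A, ∃ u ∈ H a, ∃ x : G, x * g * x⁻¹ = a * u}.toFinset))]
    · exact Finset.sum_congr rfl fun g hg => (if_pos (Set.mem_toFinset.mp hg)).symm
    · intro g _ hg
      exact if_neg fun h => hg (Set.mem_toFinset.mpr h)
  rw [hrhs, hsum]
  refine mul_le_mul_of_nonneg_left ?_ (by positivity)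
  rw [finsum_mem_eq_toFinset_sum]
  calc ∑ a ∈ {a : L | (a : G) ∈ A}.toFinset, ‖ψ a‖ ^ 2
      = ∑ a : L, if (a : G) ∈ A then ‖ψ a‖ ^ 2 else 0 := by
        rw [← Finset.sum_filter]; congr 1; ext a; simp
    _ ≤ _ := Finset.sum_le_sum fun a _ => ?_
  split_ifs with ha
  · rw [hψ a ha, OddChar.finsum_mem_subgroup]
    have hval : ∀ u : H (a : G), F ((a : G) * u) = ‖χ ((a : G) * u)‖ ^ 2 := fun u =>
      if_pos ⟨a, ha, u, u.2, 1, by group⟩
    simp only [hval]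
    set n : ℝ := (Nat.card (H (a : G)) : ℝ) with hn
    have hnpos : 0 < n := by rw [hn]; exact_mod_cast Nat.card_pos
    have h1 : ‖∑ u : H (a : G), χ ((a : G) * u)‖ ≤ ∑ u : H (a : G), ‖χ ((a : G) * u)‖ :=
      norm_sum_le _ _
    have h2 := sq_sum_le_card_mul_sum_sq (s := (Finset.univ : Finset (H (a : G))))
      (f := fun u => ‖χ ((a : G) * u)‖)
    rw [Finset.card_univ, ← Nat.card_eq_fintype_card, ← hn] at h2
    rw [norm_mul, norm_inv, Complex.norm_natCast, ← hn, mul_pow]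
    calc n⁻¹ ^ 2 * ‖∑ u : H (a : G), χ ((a : G) * u)‖ ^ 2
        ≤ n⁻¹ ^ 2 * (n * ∑ u : H (a : G), ‖χ ((a : G) * u)‖ ^ 2) := by
          refine mul_le_mul_of_nonneg_left ?_ (by positivity)
          exact (pow_le_pow_left₀ (norm_nonneg _) h1 2).trans h2
      _ = n⁻¹ * ∑ u : H (a : G), ‖χ ((a : G) * u)‖ ^ 2 := by field_simp
  · exact le_rfl

end Cfsg.Agent.S1525
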