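import Cfsg.Statements.S1527
import Cfsg.Agent.OddChar.Elem
import Mathlib.SetTheory.Cardinal.Finite
import Mathlib.Data.Fintype.BigOperators

set_option autoImplicit false
open Cfsg

namespace Cfsg.Agent.S1527

/-- Let G be a finite group and H i (i in a finite index type) subgroups of pairwise coprime orders, each of whose underlying sets is a TI-subset of G, such that every non-identity element of G is conjugate to an element of some H i. Then Nat.card G − 1 = Σ_i [G : N_G(H i)] · (Nat.card (H i) − 1). -/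
theorem result {G : Type*} [Group G] [Finite G] {ι : Type*} [Fintype ι] (H : ι → Subgroup G) (hcop : ∀ i j, i ≠ j → Nat.Coprime (Nat.card (H i)) (Nat.card (H j))) (hTI : ∀ i, Cfsg.IsTISubset (H i : Set G)) (hcover : ∀ g : G, g ≠ 1 → ∃ i, ∃ x : G, x * g * x⁻¹ ∈ H i) : Nat.card G - 1 = ∑ i, (Subgroup.normalizer (H i : Set G)).index * (Nat.card (H i) - 1) := by
  classical
  let ψ : (Σ i, (G ⧸ Subgroup.normalizer (H i : Set G)) × {h : H i // h ≠ 1}) → {g : G // g ≠ 1} :=
    fun s => ⟨(s.2.1.out : G) * ((s.2.2 : H s.1) : G) * (s.2.1.out : G)⁻¹, fun hh => by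
      have h2 : ((s.2.2 : H s.1) : G) = 1 := by
        have := congrArg (fun t => (s.2.1.out : G)⁻¹ * t * s.2.1.out) hh
        simpa [mul_assoc] using this
      exact s.2.2.2 (Subtype.ext h2)⟩
  have hψ : Function.Bijective ψ := by
    constructor
    · rintro ⟨i, q, ⟨⟨x, hx⟩, hx1⟩⟩ ⟨j, q', ⟨⟨y, hy⟩, hy1⟩⟩ he
      have he' : (q.out : G) * x * (q.out : G)⁻¹ = (q'.out : G) * y * (q'.out : G)⁻¹ := by
        simpa [ψ] using congrArg Subtype.val he
      have hx1' : x ≠ 1 := fun h => hx1 (Subtype.ext h)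
      have hord : orderOf x = orderOf y := by
        have e1 : ∀ (c : G) (t : G), orderOf (c * t * c⁻¹) = orderOf t := fun c t =>
          (SemiconjBy.orderOf_eq c (SemiconjBy.conj_mk c t)).symm
        rw [← e1 (q.out : G) x, he', e1]
      have hij : i = j := by
        by_contra hne
        refine hx1' (orderOf_eq_one_iff.mp (Nat.eq_one_of_dvd_coprimes (hcop i j hne) ?_ ?_))
        · exact orderOf_dvd_of_pow_eq_one (OddChar.pow_card_eq_one_of_mem _ hx)
        · rw [hord]; exact orderOf_dvd_of_pow_eq_one (OddChar.pow_card_eq_one_of_mem _ hy)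
      subst hij
      have hconj : (q'.out : G)⁻¹ * q.out * x * ((q'.out : G)⁻¹ * q.out)⁻¹ = y := by
        calc (q'.out : G)⁻¹ * q.out * x * ((q'.out : G)⁻¹ * q.out)⁻¹
            = (q'.out : G)⁻¹ * (q.out * x * (q.out : G)⁻¹) * q'.out := by group
          _ = y := by rw [he']; group
      have hmem : (q'.out : G)⁻¹ * q.out ∈ Subgroup.normalizer (H i : Set G) := by
        by_contra hn
        exact hx1' (hTI i _ hn x hx (by rw [hconj]; exact hy))
      have hq : q' = q := by
        rw [← q.out_eq', ← q'.out_eq', QuotientGroup.eq]; exact hmem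
      subst hq
      have hxy : x = y := by simpa using he'
      subst hxy
      rfl
    · rintro ⟨g, hg⟩
      obtain ⟨i, x, hx⟩ := hcover g hg
      set N := Subgroup.normalizer (H i : Set G)
      set q : G ⧸ N := QuotientGroup.mk x⁻¹
      obtain ⟨⟨n, hn⟩, hout⟩ := QuotientGroup.mk_out_eq_mul N x⁻¹
      have hmem : (q.out : G)⁻¹ * g * q.out ∈ H i := by
        rw [show (q.out : G) = x⁻¹ * n from hout]
        have hn' := (Subgroup.mem_normalizer_iff.mp (N.inv_mem hn) (x * g * x⁻¹)).mp hx
        simpa [mul_assoc] using hn'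
      refine ⟨⟨i, q, ⟨⟨_, hmem⟩, fun h => hg ?_⟩⟩, ?_⟩
      · have h2 : (q.out : G)⁻¹ * g * q.out = 1 := congrArg Subtype.val h
        calc g = (q.out : G) * ((q.out : G)⁻¹ * g * q.out) * (q.out : G)⁻¹ := by group
          _ = 1 := by rw [h2]; group
      · refine Subtype.ext ?_
        simp [ψ, mul_assoc]
  have hne1 : ∀ (X : Type _) [Finite X] (e : X), Nat.card {x : X // x ≠ e} = Nat.card X - 1 := by
    intro X _ e
    haveI := Fintype.ofFinite X
    simp [Nat.card_eq_fintype_card, Fintype.card_subtype_compl]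
  have h := Nat.card_eq_of_bijective ψ hψ
  rw [Nat.card_sigma, hne1 G 1] at h
  rw [← h]
  refine Finset.sum_congr rfl fun i _ => ?_
  rw [Nat.card_prod, hne1 (H i) 1, Subgroup.index]

end Cfsg.Agent.S1527
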