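import Cfsg.Statements.S1529
import Cfsg.Agent.OddChar.Coherence
import Cfsg.Agent.OddChar.Signed

set_option autoImplicit false
open Cfsg

namespace Cfsg.Agent.S1529

/-- Let N be a subgroup of the finite group G, S a set of irreducible characters of N with at least two members, and τ₁ a linear isometry on the integer combinations of S with virtual-character values such that τ₁ α vanishes at 1 whenever α ∈ ℤ[S] does. Then there is ε ∈ {1, −1} such that ε • τ₁ χ is an irreducible character of G for every χ ∈ S, and distinct members of S give distinct characters. -/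
theorem result {G : Type*} [Group G] [Fintype G] (N : Subgroup G) [Fintype N] (S : Set (N → ℂ)) (hirr : ∀ χ ∈ S, Cfsg.IsIrrCharacter N χ) (htwo : ∃ χ ∈ S, ∃ ψ ∈ S, χ ≠ ψ) (τ₁ : (N → ℂ) → (G → ℂ)) (hτ₁ : Cfsg.IsLinearIsometryOn (Cfsg.zspan S) τ₁) (h0 : ∀ α ∈ Cfsg.zspan S, α 1 = 0 → τ₁ α 1 = 0) : ∃ ε : ℂ, (ε = 1 ∨ ε = -1) ∧ (∀ χ ∈ S, Cfsg.IsIrrCharacter G (ε • τ₁ χ)) ∧ (∀ χ ∈ S, ∀ ψ ∈ S, τ₁ χ = τ₁ ψ → χ = ψ) := by
  classical
  have hmem : ∀ χ ∈ S, χ ∈ Cfsg.zspan S := fun χ h => OddChar.zspan_subset_apply h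
  have hs : ∀ χ ∈ S, OddChar.IsSigned (τ₁ χ) := fun χ hχ =>
    OddChar.virt_norm_one (hτ₁.2.2.2 χ (hmem χ hχ))
      (by rw [hτ₁.2.2.1 χ (hmem χ hχ) χ (hmem χ hχ), Chars.classInner_self_irr (hirr χ hχ)])
  choose d hd0 hd using fun (χ : N → ℂ) (h : χ ∈ S) => Chars.exists_irr_apply_one_eq (hirr χ h)
  obtain ⟨χ₀, hχ₀, -, -, -⟩ := htwo
  have hrel : ∀ χ (hχ : χ ∈ S), (d χ₀ hχ₀ : ℂ) * τ₁ χ 1 = (d χ hχ : ℂ) * τ₁ χ₀ 1 := by
    intro χ hχ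
    set α := (d χ₀ hχ₀ : ℤ) • χ - (d χ hχ : ℤ) • χ₀ with hα
    have hα2 : (d χ₀ hχ₀ : ℤ) • χ ∈ Cfsg.zspan S := OddChar.zspan_zsmul_mem (hmem χ hχ) _
    have hα3 : (d χ hχ : ℤ) • χ₀ ∈ Cfsg.zspan S := OddChar.zspan_zsmul_mem (hmem χ₀ hχ₀) _
    have hαm : α ∈ Cfsg.zspan S := OddChar.zspan_sub_mem hα2 hα3
    have h := h0 α hαm (by simp [hα, hd χ hχ, hd χ₀ hχ₀, mul_comm])
    rw [hα, OddChar.iso_map_sub hτ₁ hαm hα3, hτ₁.2.1 χ (hmem χ hχ), hτ₁.2.1 χ₀ (hmem χ₀ hχ₀)] at h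
    simpa [sub_eq_zero] using h
  have hinj : ∀ χ ∈ S, ∀ ψ ∈ S, τ₁ χ = τ₁ ψ → χ = ψ := by
    intro χ hχ ψ hψ he
    by_contra hne
    have h1 := hτ₁.2.2.1 χ (hmem χ hχ) ψ (hmem ψ hψ)
    rw [he, (hs ψ hψ).norm, Chars.classInner_irr_of_ne (hirr χ hχ) (hirr ψ hψ) hne] at h1
    exact one_ne_zero h1
  have key : ∀ χ (hχ : χ ∈ S) (f : G → ℂ) (g : G → ℂ), Cfsg.IsIrrCharacter G f →
      Cfsg.IsIrrCharacter G g → (d χ₀ hχ₀ : ℂ) * f 1 = -((d χ hχ : ℂ) * g 1) → False := by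
    intro χ hχ f g hf hg he
    obtain ⟨a, ha, ha'⟩ := Chars.exists_irr_apply_one_eq hf
    obtain ⟨b, hb, hb'⟩ := Chars.exists_irr_apply_one_eq hg
    rw [ha', hb'] at he
    have hsum : ((d χ₀ hχ₀ * a + d χ hχ * b : ℕ) : ℂ) = 0 := by push_cast; rw [he]; ring
    have hz : d χ₀ hχ₀ * a + d χ hχ * b = 0 := by exact_mod_cast hsum
    have := Nat.mul_pos (hd0 χ₀ hχ₀) ha
    omega
  rcases hs χ₀ hχ₀ with h | h
  · refine ⟨1, Or.inl rfl, fun χ hχ => ?_, hinj⟩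
    rcases hs χ hχ with h' | h'
    · rwa [one_smul]
    · exact (key χ hχ _ _ h' h (by simpa using congrArg Neg.neg (hrel χ hχ))).elim
  · refine ⟨-1, Or.inr rfl, fun χ hχ => ?_, hinj⟩
    rcases hs χ hχ with h' | h'
    · exact (key χ hχ _ _ h' h (by simpa using hrel χ hχ)).elim
    · rwa [neg_one_smul]

end Cfsg.Agent.S1529
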