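import Cfsg.Statements.S1530
import Cfsg.Agent.OddChar.Coherence
import Cfsg.Agent.OddChar.Signed

set_option autoImplicit false
open Cfsg

namespace Cfsg.Agent.S1530

/-- Let N be a subgroup of the finite group G and S₀ a finite set of irreducible characters of N, χ an irreducible character of N not in S₀, with degrees ξ 1 = d ξ. Let τ be a linear isometry on the integer combinations of S₀ ∪ {χ} vanishing at 1, with values virtual characters of G vanishing at 1, such that (S₀, N minus 1, τ) is coherent. If some ψ ∈ S₀ has d ψ dividing d χ and 2 · d ψ · d χ < Σ_{ξ ∈ S₀} (d ξ)², then (S₀ ∪ {χ}, N minus 1, τ) is coherent. -/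
theorem result {G : Type*} [Group G] [Fintype G] (N : Subgroup G) [Fintype N] (S₀ : Finset (N → ℂ)) (χ : N → ℂ) (hirr : ∀ ξ ∈ S₀, Cfsg.IsIrrCharacter N ξ) (hχ : Cfsg.IsIrrCharacter N χ) (hχS : χ ∉ S₀) (d : (N → ℂ) → ℕ) (hd : ∀ ξ ∈ insert χ S₀, ξ 1 = (d ξ : ℂ)) (τ : (N → ℂ) → (G → ℂ)) (hτ : Cfsg.IsLinearIsometryOn (Cfsg.zspanOn (↑(insert χ S₀) : Set (N → ℂ)) {1}ᶜ) τ) (hτ1 : ∀ α ∈ Cfsg.zspanOn (↑(insert χ S₀) : Set (N → ℂ)) {1}ᶜ, τ α 1 = 0) (hcoh : Cfsg.IsCoherent (↑S₀ : Set (N → ℂ)) {1}ᶜ τ) (ψ : N → ℂ) (hψ : ψ ∈ S₀) (hdvd : d ψ ∣ d χ) (hlt : 2 * d ψ * d χ < ∑ ξ ∈ S₀, d ξ ^ 2) : Cfsg.IsCoherent (↑(insert χ S₀) : Set (N → ℂ)) {1}ᶜ τ := by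
  classical
  obtain ⟨τ₁, hτ₁, hagree⟩ := hcoh.2
  have hS' : (↑(insert χ S₀) : Set (N → ℂ)) = insert χ (S₀ : Set (N → ℂ)) := Finset.coe_insert _ _
  have hsub : (S₀ : Set (N → ℂ)) ⊆ ↑(insert χ S₀) := by rw [hS']; exact Set.subset_insert _ _
  have hdS : ∀ φ ∈ S₀, φ 1 = (d φ : ℂ) := fun φ h => hd φ (Finset.mem_insert_of_mem h)
  have hdχ : χ 1 = (d χ : ℂ) := hd χ (Finset.mem_insert_self _ _)
  have hdpos : ∀ φ ∈ insert χ S₀, 0 < d φ := by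
    intro φ hφ
    have hi : Cfsg.IsIrrCharacter N φ := by
      rcases Finset.mem_insert.mp hφ with h | h
      · exact h ▸ hχ
      · exact hirr φ h
    obtain ⟨k, hk, hk'⟩ := Chars.exists_irr_apply_one_eq hi
    have : (k : ℂ) = (d φ : ℂ) := hk'.symm.trans (hd φ hφ)
    have : k = d φ := by exact_mod_cast this
    omega
  have hmem : ∀ φ ∈ S₀, φ ∈ Cfsg.zspan (S₀ : Set (N → ℂ)) := fun φ h => OddChar.zspan_subset_apply h
  obtain ⟨a, ha⟩ := hdvd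
  have hu : χ - (a : ℤ) • ψ ∈ Cfsg.zspanOn (↑(insert χ S₀) : Set (N → ℂ)) {1}ᶜ :=
    OddChar.mem_zspanOn_one.mpr ⟨OddChar.zspan_sub_mem
      (OddChar.zspan_subset_apply (by simp)) (OddChar.zspan_zsmul_mem
        (OddChar.zspan_subset_apply (hsub hψ)) _), by simp [hdχ, hdS ψ hψ, ha, mul_comm]⟩
  set β := τ (χ - (a : ℤ) • ψ) with hβ
  have hβg : Cfsg.IsGeneralizedCharacter G β := hτ.2.2.2 _ hu
  have horth : ∀ φ ∈ S₀, Cfsg.classInner χ φ = 0 := fun φ h =>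
    Chars.classInner_irr_of_ne hχ (hirr φ h) fun he => hχS (he ▸ h)
  choose c hc using fun (φ : {φ // φ ∈ S₀}) =>
    OddChar.exists_classInner_eq_int hβg (hτ₁.2.2.2 φ.1 (hmem φ.1 φ.2))
  set e : {φ // φ ∈ S₀} := ⟨ψ, hψ⟩ with he
  set m : ℤ := c e + a with hm
  have hcφ : ∀ φ : {φ // φ ∈ S₀},
      (d ψ : ℤ) * c φ = d φ.1 * m - if φ = e then (a : ℤ) * d ψ else 0 := by
    intro φ
    have hδ₁ : (d ψ : ℤ) • φ.1 ∈ Cfsg.zspan (S₀ : Set (N → ℂ)) := OddChar.zspan_zsmul_mem (hmem φ.1 φ.2) _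
    have hδ₂ : (d φ.1 : ℤ) • ψ ∈ Cfsg.zspan (S₀ : Set (N → ℂ)) := OddChar.zspan_zsmul_mem (hmem ψ hψ) _
    have hδE : (d ψ : ℤ) • φ.1 - (d φ.1 : ℤ) • ψ ∈ Cfsg.zspanOn (S₀ : Set (N → ℂ)) {1}ᶜ :=
      OddChar.mem_zspanOn_one.mpr ⟨OddChar.zspan_sub_mem hδ₁ hδ₂, by
        simp [hdS φ.1 φ.2, hdS ψ hψ, mul_comm]⟩
    have h1 : Cfsg.classInner β (τ ((d ψ : ℤ) • φ.1 - (d φ.1 : ℤ) • ψ)) =
        Cfsg.classInner (χ - (a : ℤ) • ψ) ((d ψ : ℤ) • φ.1 - (d φ.1 : ℤ) • ψ) :=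
      hτ.2.2.1 _ hu _ (OddChar.zspanOn_mono hsub hδE)
    rw [← hagree _ hδE, OddChar.iso_map_sub hτ₁ hδE.1 hδ₂, hτ₁.2.1 _ (hmem φ.1 φ.2),
      hτ₁.2.1 _ (hmem ψ hψ), Chars.classInner_sub_right, OddChar.classInner_zsmul_right,
      OddChar.classInner_zsmul_right, hc φ, show Cfsg.classInner β (τ₁ ψ) = c e from hc e,
      Chars.classInner_sub_left, Chars.classInner_sub_right, Chars.classInner_sub_right,
      OddChar.classInner_zsmul_left, OddChar.classInner_zsmul_left, OddChar.classInner_zsmul_right,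
      OddChar.classInner_zsmul_right, OddChar.classInner_zsmul_right, OddChar.classInner_zsmul_right,
      horth φ.1 φ.2, horth ψ hψ, Chars.classInner_self_irr (hirr ψ hψ)] at h1
    by_cases hφe : φ = e
    · subst hφe
      rw [if_pos rfl, hm]
      simp only [he]
      ring
    · rw [if_neg hφe, sub_zero]
      rw [Chars.classInner_irr_of_ne (hirr ψ hψ) (hirr φ.1 φ.2)
        (fun h => hφe (Subtype.ext h.symm))] at h1
      have h2 : (((d ψ : ℤ) * c φ : ℤ) : ℂ) = ((d φ.1 * m : ℤ) : ℂ) := by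
        rw [hm]; push_cast at h1 ⊢; linear_combination h1
      exact_mod_cast h2
  set dSum : ℤ := ∑ φ : {φ // φ ∈ S₀}, (d φ.1 : ℤ) ^ 2 with hSig
  have hSiggt : 2 * (a : ℤ) * (d ψ : ℤ) ^ 2 < dSum := by
    have h : ((2 * d ψ * d χ : ℕ) : ℤ) < ((∑ ξ ∈ S₀, d ξ ^ 2 : ℕ) : ℤ) := by exact_mod_cast hlt
    rw [ha] at h
    push_cast at h
    rw [hSig, ← Finset.sum_coe_sort S₀] at *
    linarith
  have hQ : (d ψ : ℤ) ^ 2 * ∑ φ, c φ ^ 2 =
      m ^ 2 * dSum - 2 * a * (d ψ : ℤ) ^ 2 * m + (a : ℤ) ^ 2 * (d ψ : ℤ) ^ 2 := by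
    have hterm : ∀ φ : {φ // φ ∈ S₀}, (d ψ : ℤ) ^ 2 * c φ ^ 2 = m ^ 2 * (d φ.1 : ℤ) ^ 2 +
        if φ = e then (a : ℤ) ^ 2 * (d ψ : ℤ) ^ 2 - 2 * a * (d ψ : ℤ) ^ 2 * m else 0 := by
      intro φ
      rw [← mul_pow, hcφ φ]
      by_cases hφe : φ = e
      · subst hφe; rw [if_pos rfl, if_pos rfl]; simp only [he]; ring
      · rw [if_neg hφe, if_neg hφe]; ring
    rw [Finset.mul_sum, Finset.sum_congr rfl fun φ _ => hterm φ, Finset.sum_add_distrib,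
      ← Finset.mul_sum, Finset.sum_ite_eq' Finset.univ e, if_pos (Finset.mem_univ e)]
    ring
  set P : G → ℂ := ∑ φ : {φ // φ ∈ S₀}, c φ • τ₁ φ.1 with hP
  have hPg : Cfsg.IsGeneralizedCharacter G P :=
    OddChar.virt_sum _ _ fun φ _ => OddChar.virt_zsmul (hτ₁.2.2.2 φ.1 (hmem φ.1 φ.2)) _
  have iPφ : ∀ ξ : {φ // φ ∈ S₀}, Cfsg.classInner P (τ₁ ξ.1) = (c ξ : ℂ) := by
    intro ξ
    rw [hP, Chars.classInner_sum_left, Finset.sum_eq_single ξ]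
    · rw [OddChar.classInner_zsmul_left, hτ₁.2.2.1 ξ.1 (hmem ξ.1 ξ.2) ξ.1 (hmem ξ.1 ξ.2),
        Chars.classInner_self_irr (hirr ξ.1 ξ.2), mul_one]
    · intro φ _ hφ
      rw [OddChar.classInner_zsmul_left, hτ₁.2.2.1 φ.1 (hmem φ.1 φ.2) ξ.1 (hmem ξ.1 ξ.2),
        Chars.classInner_irr_of_ne (hirr φ.1 φ.2) (hirr ξ.1 ξ.2) (fun h => hφ (Subtype.ext h)),
        mul_zero]
    · simp
  have iβP : Cfsg.classInner β P = ((∑ φ, c φ ^ 2 : ℤ) : ℂ) := by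
    rw [hP, Chars.classInner_sum_right]
    push_cast
    exact Finset.sum_congr rfl fun φ _ => by rw [OddChar.classInner_zsmul_right, hc φ]; ring
  have iPP : Cfsg.classInner P P = ((∑ φ, c φ ^ 2 : ℤ) : ℂ) := by
    conv_lhs => arg 2; rw [hP]
    rw [Chars.classInner_sum_right]
    push_cast
    exact Finset.sum_congr rfl fun φ _ => by rw [OddChar.classInner_zsmul_right, iPφ φ]; ring
  have iββ : Cfsg.classInner β β = ((1 + (a : ℤ) ^ 2 : ℤ) : ℂ) := by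
    rw [hβ, hτ.2.2.1 _ hu _ hu, Chars.classInner_sub_left, Chars.classInner_sub_right,
      Chars.classInner_sub_right, OddChar.classInner_zsmul_left, OddChar.classInner_zsmul_right,
      OddChar.classInner_zsmul_left, OddChar.classInner_zsmul_right, horth ψ hψ,
      show Cfsg.classInner ψ χ = 0 by rw [← Chars.classInner_conj_symm, horth ψ hψ, map_zero],
      Chars.classInner_self_irr hχ, Chars.classInner_self_irr (hirr ψ hψ)]
    push_cast; ring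
  have iW : Cfsg.classInner (β - P) (β - P) = ((1 + (a : ℤ) ^ 2 - ∑ φ, c φ ^ 2 : ℤ) : ℂ) := by
    rw [Chars.classInner_sub_left, Chars.classInner_sub_right, Chars.classInner_sub_right, iββ, iβP,
      iPP, ← OddChar.classInner_symm_of_virt hβg hPg, iβP]
    push_cast; ring
  have hz0 : 0 ≤ 1 + (a : ℤ) ^ 2 - ∑ φ, c φ ^ 2 := by
    have := OddChar.classInner_self_re_nonneg (β - P)
    rw [iW, Complex.intCast_re] at this
    exact_mod_cast this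
  have hm0 : m = 0 := by
    by_contra hm0
    have h1 : 1 ≤ |m| := Int.one_le_abs hm0
    have h3 : 0 ≤ 2 * (a : ℤ) * (d ψ : ℤ) ^ 2 := by positivity
    have hmm : m ≤ m ^ 2 := Int.le_self_sq m
    have hm2 : 0 < m ^ 2 := by positivity
    have hpos : 0 < m ^ 2 * dSum - 2 * a * (d ψ : ℤ) ^ 2 * m := by
      nlinarith [mul_lt_mul_of_pos_left hSiggt hm2, mul_le_mul_of_nonneg_left hmm h3]
    have hd0 : 0 < (d ψ : ℤ) := by exact_mod_cast hdpos ψ (Finset.mem_insert_of_mem hψ)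
    have hzero : 1 + (a : ℤ) ^ 2 - ∑ φ, c φ ^ 2 = 0 := by
      by_contra hne
      have : (1 : ℤ) ≤ 1 + (a : ℤ) ^ 2 - ∑ φ, c φ ^ 2 := by omega
      nlinarith [mul_le_mul_of_nonneg_left this (sq_nonneg (d ψ : ℤ))]
    have hW : β - P = 0 := OddChar.eq_zero_of_classInner_self_re (by rw [iW, hzero]; simp)
    have hP1 : P 1 = 0 := by rw [← sub_eq_zero.mp hW]; exact hτ1 _ hu
    -- degrees of the images are proportional to the degrees
    have hrel : ∀ φ : {φ // φ ∈ S₀}, (d ψ : ℂ) * τ₁ φ.1 1 = (d φ.1 : ℂ) * τ₁ ψ 1 := by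
      intro φ
      have hδ₂ : (d φ.1 : ℤ) • ψ ∈ Cfsg.zspan (S₀ : Set (N → ℂ)) := OddChar.zspan_zsmul_mem (hmem ψ hψ) _
      have hδE : (d ψ : ℤ) • φ.1 - (d φ.1 : ℤ) • ψ ∈ Cfsg.zspanOn (S₀ : Set (N → ℂ)) {1}ᶜ :=
        OddChar.mem_zspanOn_one.mpr ⟨OddChar.zspan_sub_mem
          (OddChar.zspan_zsmul_mem (hmem φ.1 φ.2) _) hδ₂, by simp [hdS φ.1 φ.2, hdS ψ hψ, mul_comm]⟩
      have h := hτ1 _ (OddChar.zspanOn_mono hsub hδE)
      rw [← hagree _ hδE, OddChar.iso_map_sub hτ₁ hδE.1 hδ₂, hτ₁.2.1 _ (hmem φ.1 φ.2),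
        hτ₁.2.1 _ (hmem ψ hψ)] at h
      simpa [sub_eq_zero] using h
    have ht : τ₁ ψ 1 ≠ 0 :=
      OddChar.IsSigned.apply_one_ne_zero (OddChar.virt_norm_one (hτ₁.2.2.2 ψ (hmem ψ hψ))
        (by rw [hτ₁.2.2.1 ψ (hmem ψ hψ) ψ (hmem ψ hψ), Chars.classInner_self_irr (hirr ψ hψ)]))
    have hsum : ((m * dSum - (a : ℤ) * (d ψ : ℤ) ^ 2 : ℤ) : ℂ) * τ₁ ψ 1 = 0 := by
      have e1 : (d ψ : ℂ) ^ 2 * P 1 = ((∑ φ, (d ψ : ℤ) * c φ * d φ.1 : ℤ) : ℂ) * τ₁ ψ 1 := by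
        simp only [hP, Finset.sum_apply, Pi.smul_apply, zsmul_eq_mul, Pi.mul_apply, Pi.intCast_apply, Int.cast_sum, Int.cast_mul,
          Int.cast_natCast, Finset.mul_sum, Finset.sum_mul]
        refine Finset.sum_congr rfl fun φ _ => ?_
        linear_combination ((d ψ : ℂ) * (c φ : ℂ)) * hrel φ
      have e2 : ∑ φ, (d ψ : ℤ) * c φ * d φ.1 = m * dSum - (a : ℤ) * (d ψ : ℤ) ^ 2 := by
        simp only [hcφ, sub_mul, ite_mul, zero_mul, Finset.sum_sub_distrib]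
        rw [Finset.sum_ite_eq' Finset.univ e, if_pos (Finset.mem_univ e), hSig, Finset.mul_sum]
        simp only [he]
        congr 1
        · exact Finset.sum_congr rfl fun φ _ => by ring
        · ring
      rw [← e2, ← e1, hP1, mul_zero]
    have hmS := (mul_eq_zero.mp hsum).resolve_right ht
    have hmS' : m * dSum - (a : ℤ) * (d ψ : ℤ) ^ 2 = 0 := by exact_mod_cast hmS
    have ha0 : 0 < (a : ℤ) := by
      have := hdpos χ (Finset.mem_insert_self _ _)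
      rcases Nat.eq_zero_or_pos a with h | h
      · rw [ha, h] at this; simp at this
      · exact_mod_cast h
    rcases le_or_gt m 0 with hneg | hneg
    · nlinarith [mul_pos ha0 (pow_pos hd0 2)]
    · nlinarith [mul_pos ha0 (pow_pos hd0 2)]
  have hce : ∀ φ : {φ // φ ∈ S₀}, c φ = if φ = e then -(a : ℤ) else 0 := by
    intro φ
    have h := hcφ φ
    rw [hm0, mul_zero] at h
    refine mul_left_cancel₀ (a := (d ψ : ℤ))
      (by exact_mod_cast (hdpos ψ (Finset.mem_insert_of_mem hψ)).ne') ?_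
    rw [h]; split_ifs <;> ring
  have hPval : P = -((a : ℤ) • τ₁ ψ) := by
    rw [hP, Finset.sum_eq_single e (fun φ _ h => by rw [hce φ, if_neg h, zero_smul]) (by simp),
      hce e, if_pos rfl, neg_smul]
  have hsum2 : ∑ φ, c φ ^ 2 = (a : ℤ) ^ 2 := by
    rw [Finset.sum_eq_single e (fun φ _ h => by rw [hce φ, if_neg h]; simp) (by simp),
      hce e, if_pos rfl, neg_sq]
  obtain ⟨τ₂, hτ₂, hag₂, -, -⟩ := OddChar.coherent_insert hτ S₀ χ (by rw [hS'])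
    (OddChar.orthFamily_of_irr (by
      rintro φ (rfl | h)
      exacts [hχ, hirr φ h])) hχS ψ hψ a
    (by simp [hdχ, hdS ψ hψ, ha, mul_comm]) τ₁ hτ₁ hagree (β - P) (OddChar.virt_sub hβg hPg)
    (by rw [iW, hsum2, Chars.classInner_self_irr hχ]; simp)
    (fun φ hφ => by
      rw [Chars.classInner_sub_left, hc ⟨φ, hφ⟩, iPφ ⟨φ, hφ⟩, sub_self])
    (by rw [hPval, hβ]; abel)
  obtain ⟨α, hα, hα0⟩ := hcoh.1
  rw [Finset.coe_insert]
  exact ⟨⟨α, OddChar.zspanOn_mono (Set.subset_insert _ _) hα, hα0⟩, τ₂, hτ₂, hag₂⟩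

end Cfsg.Agent.S1530
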