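import Cfsg.Statements.S1532
import Cfsg.Agent.OddChar.SibleyCase
import Cfsg.Agent.OddChar.FrobEven

set_option autoImplicit false
open Cfsg

namespace Cfsg.Agent.S1532

/-- Let G be a finite group, p an odd prime and P a Sylow p-subgroup that is non-abelian, whose underlying set is a TI-subset of G, with P properly contained in its set normaliser N and C_G(x) ≤ P for every non-identity x ∈ P. Let Z be a nontrivial subgroup of the centre of P normalised by N. Then the set of irreducible characters χ of N with χ z ≠ χ 1 for some z ∈ Z is coherent for the map induced by induction from N to G. -/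
theorem result {G : Type*} [Group G] [Fintype G] (p : ℕ) [Fact p.Prime] (hp : p ≠ 2) (P : Sylow p G) (hna : ¬ IsMulCommutative (P : Subgroup G)) (hTI : Cfsg.IsTISubset ((P : Subgroup G) : Set G)) (hlt : (P : Subgroup G) < Subgroup.normalizer ((P : Subgroup G) : Set G)) (hC : ∀ k ∈ (P : Subgroup G), k ≠ 1 → Subgroup.centralizer ({k} : Set G) ≤ (P : Subgroup G)) [Fintype ↥(Subgroup.normalizer ((P : Subgroup G) : Set G))] (Z : Subgroup G) (hZ1 : Z ≠ ⊥) (hZP : ∀ z ∈ Z, z ∈ (P : Subgroup G) ∧ ∀ y ∈ (P : Subgroup G), z * y = y * z) (hZn : ∀ x ∈ Subgroup.normalizer ((P : Subgroup G) : Set G), ∀ z ∈ Z, x * z * x⁻¹ ∈ Z) : Cfsg.IsCoherent {χ : ↥(Subgroup.normalizer ((P : Subgroup G) : Set G)) → ℂ | Cfsg.IsIrrCharacter ↥(Subgroup.normalizer ((P : Subgroup G) : Set G)) χ ∧ ∃ z : ↥(Subgroup.normalizer ((P : Subgroup G) : Set G)), (z : G) ∈ Z ∧ χ z ≠ χ 1} {1}ᶜ (fun α => Cfsg.indFun (Subgroup.normalizer ((P : Subgroup G) : Set G)) α) := by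
  classical
  set K := (P : Subgroup G).subgroupOf (Subgroup.normalizer ((P : Subgroup G) : Set G)) with hK
  haveI hKn : K.Normal := Subgroup.normal_in_normalizer
  have hKle : (P : Subgroup G) ≤ (Subgroup.normalizer ((P : Subgroup G) : Set G)) := Subgroup.le_normalizer
  have hCN : ∀ k ∈ K, k ≠ 1 → Subgroup.centralizer ({k} : Set (Subgroup.normalizer ((P : Subgroup G) : Set G))) ≤ K := by
    intro k hk hk1 x hx
    refine hC k hk (fun e => hk1 (Subtype.ext e)) (Subgroup.mem_centralizer_singleton_iff.mpr ?_)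
    exact congrArg Subtype.val (Subgroup.mem_centralizer_singleton_iff.mp hx)
  have hKcard : Nat.card K = Nat.card (P : Subgroup G) :=
    Nat.card_congr (Subgroup.subgroupOfEquivOfLe hKle).toEquiv
  obtain ⟨m, hm⟩ := IsPGroup.iff_card.mp P.isPGroup'
  have hKodd : Odd (Nat.card K) := by
    rw [hKcard, hm]; exact ((Fact.out : p.Prime).odd_of_ne_two hp).pow
  have hidx : Odd K.index := by
    by_contra h
    apply hna
    have hcm := OddChar.frob_even_index hCN hKodd (Nat.not_odd_iff_even.mp h)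
    refine ⟨⟨fun a b => Subtype.ext ?_⟩⟩
    exact congrArg (Subtype.val : ↥(Subgroup.normalizer ((P : Subgroup G) : Set G)) → G) (hcm ⟨a, hKle a.2⟩ a.2 ⟨b, hKle b.2⟩ b.2)
  have hodd : Odd (Nat.card (Subgroup.normalizer ((P : Subgroup G) : Set G))) := by rw [← K.index_mul_card]; exact hidx.mul hKodd
  have hP1 : (P : Subgroup G) ≠ ⊥ := fun h => hna (by rw [h]; infer_instance)
  have hKlt : K < ⊤ := lt_top_iff_ne_top.mpr fun h => hlt.not_ge (Subgroup.subgroupOf_eq_top.mp h)
  have hnil : Group.IsNilpotent K := (P.isPGroup'.comap_subtype).isNilpotent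
  haveI hZN : (Z.subgroupOf (Subgroup.normalizer ((P : Subgroup G) : Set G))).Normal := ⟨fun z hz x => hZn x x.2 z hz⟩
  have hZK : Z.subgroupOf (Subgroup.normalizer ((P : Subgroup G) : Set G)) ≤ K := fun z hz => (hZP _ hz).1
  have hZne : Z.subgroupOf (Subgroup.normalizer ((P : Subgroup G) : Set G)) ≠ ⊥ := fun h => hZ1 (by
    rw [← Subgroup.map_subgroupOf_eq_of_le (fun z hz => hKle (hZP z hz).1 : Z ≤ (Subgroup.normalizer ((P : Subgroup G) : Set G))), h,
      Subgroup.map_bot])
  obtain ⟨h1, h2⟩ := OddChar.ti_central_coherent (P : Subgroup G) (Subgroup.normalizer ((P : Subgroup G) : Set G)) hKle hTI rfl hodd hP1 hKlt hnil hCN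
    (Z.subgroupOf (Subgroup.normalizer ((P : Subgroup G) : Set G))) hZne hZK (fun z hz k hk => Subtype.ext ((hZP _ hz).2 _ hk))
  rw [h1] at h2
  exact h2

end Cfsg.Agent.S1532
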