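import Cfsg.Statements.S1536
import Cfsg.Agent.OddChar.NormalInd
import Cfsg.Agent.OddChar.Elem
import Cfsg.Agent.Coprime.Action
import Mathlib.Tactic.Group
import Mathlib.GroupTheory.SpecificGroups.Cyclic.Basic

set_option autoImplicit false
open Cfsg

namespace Cfsg.Agent.S1536

/-- Let H be a normal subgroup of the finite group M whose order is coprime to its index. For x ∈ M: some non-principal irreducible character of H is unchanged under h ↦ θ(x h x⁻¹) if and only if some non-identity element of H commutes with x. -/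
theorem result {M : Type*} [Group M] [Finite M] (H : Subgroup M) [hN : H.Normal] (hHall : Nat.Coprime (Nat.card H) H.index) (x : M) : (∃ θ : H → ℂ, Cfsg.IsIrrCharacter H θ ∧ θ ≠ (fun _ => 1) ∧ (fun h : H => θ ⟨x * h * x⁻¹, hN.conj_mem h h.2 x⟩) = θ) ↔ ∃ h ∈ H, h ≠ 1 ∧ x * h = h * x := by
  classical
  haveI := Fintype.ofFinite M
  constructor
  · rintro ⟨θ, hθ, hne, hfix⟩
    by_contra hno
    push Not at hno
    refine hne (OddChar.eq_one_of_fixed (x := x) (fun n hn => ?_) hθ hfix)
    by_contra hn1
    -- split off the part of `x` inside `H`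
    obtain ⟨e, he1, he2⟩ := Nat.chineseRemainder hHall 0 1
    have hu : x ^ (1 - (e : ℤ)) ∈ H := by
      have hq : ((x : M ⧸ H)) ^ H.index = 1 := pow_card_eq_one' (G := M ⧸ H)
      rw [← QuotientGroup.eq_one_iff, QuotientGroup.mk_zpow]
      obtain ⟨t, ht⟩ : (H.index : ℤ) ∣ 1 - (e : ℤ) := by exact_mod_cast (Int.natCast_modEq_iff.mpr he2).dvd
      rw [ht, zpow_mul, zpow_natCast, hq, one_zpow]
    have hu1 : x ^ (1 - (e : ℤ)) = 1 := by
      by_contra hne1
      exact hno _ hu hne1 ((Commute.refl x).zpow_right _).eq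
    have hcop : (Nat.card (Subgroup.zpowers x)).Coprime (Nat.card H) := by
      rw [Nat.card_zpowers]
      have hxe : x ^ H.index = 1 := by
        obtain ⟨t, ht⟩ := Nat.modEq_zero_iff_dvd.mp he1
        have h1 : (x ^ H.index) ^ (1 - (e : ℤ)) = 1 := by
          rw [← zpow_natCast, ← zpow_mul, mul_comm, zpow_mul, hu1, one_zpow]
        have h2 : x ^ H.index ∈ H := by
          rw [← QuotientGroup.eq_one_iff, QuotientGroup.mk_pow]
          exact pow_card_eq_one' (G := M ⧸ H)
        have h3 : (x ^ H.index) ^ e = 1 := by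
          rw [ht, pow_mul]
          have : (⟨_, h2⟩ : H) ^ Nat.card H = 1 := pow_card_eq_one'
          have h4 : (x ^ H.index) ^ Nat.card H = 1 :=
            (SubmonoidClass.coe_pow _ _).symm.trans (congrArg Subtype.val this)
          rw [h4, one_pow]
        rwa [zpow_sub, zpow_one, zpow_natCast, h3, inv_one, mul_one] at h1
      exact Nat.Coprime.coprime_dvd_left (orderOf_dvd_of_pow_eq_one hxe) hHall.symm
    obtain ⟨c, hc⟩ := isConj_iff.mp hn
    have hc' : (c : M) * (x * n * x⁻¹) * (c : M)⁻¹ = n := congrArg Subtype.val hc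
    haveI : Group.IsSolvable (Subgroup.zpowers x) :=
      Group.isSolvable_of_comm fun a b => mul_comm' a b
    obtain ⟨y, hy, hyS⟩ := Coprime.exists_conj_le (N := H) (A := Subgroup.zpowers x)
      (S := Subgroup.centralizer ({(n : M)} : Set M))
      (fun a _ => by rw [Subgroup.normalizer_eq_top]; exact Subgroup.mem_top a) hcop
      (fun a ha => by
        have hx : x ∈ H ⊔ Subgroup.centralizer ({(n : M)} : Set M) := by
          have h1 : (c : M) * x ∈ Subgroup.centralizer ({(n : M)} : Set M) := by
            rw [OddChar.mem_centralizer_singleton]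
            have : (c : M) * x * n = n * ((c : M) * x) := by
              calc (c : M) * x * n = (c : M) * (x * n * x⁻¹) * (c : M)⁻¹ * ((c : M) * x) := by group
                _ = n * ((c : M) * x) := by rw [hc']
            first | exact this | exact this.symm
          simpa using mul_mem (Subgroup.mem_sup_left (H.inv_mem c.2)) (Subgroup.mem_sup_right h1)
        obtain ⟨u, hu', s, hs, hus⟩ :=
          Subgroup.mem_sup_of_normal_left.mp ((Subgroup.zpowers_le.mpr hx) ha)
        exact ⟨u⁻¹, H.inv_mem hu', by rw [← hus, inv_mul_cancel_left]; exact hs⟩)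
    have h1 := OddChar.mem_centralizer_singleton.mp (hyS x (Subgroup.mem_zpowers x))
    refine hno (y⁻¹ * (n : M) * y) (by simpa using hN.conj_mem _ n.2 y⁻¹) ?_ ?_
    · intro h
      exact hn1 (Subtype.ext (by
        calc (n : M) = y * (y⁻¹ * (n : M) * y) * y⁻¹ := by group
          _ = 1 := by rw [h]; group))
    · calc x * (y⁻¹ * (n : M) * y) = y⁻¹ * (y * x * y⁻¹ * (n : M)) * y := by group
        _ = y⁻¹ * ((n : M) * (y * x * y⁻¹)) * y := by first | rw [h1] | rw [← h1]
        _ = y⁻¹ * (n : M) * y * x := by group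
  · rintro ⟨h, hh, hne, hcomm⟩
    have : (⟨x * ((⟨h, hh⟩ : H) : M) * x⁻¹, hN.conj_mem _ hh x⟩ : H) = ⟨h, hh⟩ :=
      Subtype.ext (by simp [hcomm])
    exact OddChar.exists_fixed (n := ⟨h, hh⟩) (fun h' => hne (congrArg Subtype.val h'))
      (by rw [this])

end Cfsg.Agent.S1536
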