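import Cfsg.Statements.S1545
import Cfsg.Agent.OddChar.FrobFixed

set_option autoImplicit false
open Cfsg

namespace Cfsg.Agent.S1545

/-- Let X be a finite group with subgroups U, E and H such that U and E generate a subgroup UE = U ⊔ E normalising H, with U normal in UE, U ⊓ E = ⊥, U ≠ ⊥, E ≠ ⊥, every non-identity element of E commuting with no non-identity element of U (UE is a Frobenius group with kernel U acting on H by conjugation), H solvable, H ⊓ (U ⊔ E) = ⊥ and the orders of H and U ⊔ E coprime. Then Nat.card (H ⊓ C(U ⊔ E)) ^ Nat.card E * Nat.card H = Nat.card (H ⊓ C(E)) ^ Nat.card E * Nat.card (H ⊓ C(U)), where C(·) denotes the centraliser. -/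
theorem result {X : Type*} [Group X] [Finite X] (U E H : Subgroup X) (hU1 : U ≠ ⊥) (hE1 : E ≠ ⊥) (hUE : U ⊓ E = ⊥) (hUn : ∀ e ∈ E, ∀ u ∈ U, e * u * e⁻¹ ∈ U) (hfpf : ∀ e ∈ E, e ≠ 1 → ∀ u ∈ U, e * u = u * e → u = 1) (hHn : ∀ x ∈ U ⊔ E, ∀ h ∈ H, x * h * x⁻¹ ∈ H) (hdisj : H ⊓ (U ⊔ E) = ⊥) (hsolv : Group.IsSolvable H) (hcop : Nat.Coprime (Nat.card H) (Nat.card ↥(U ⊔ E))) : Nat.card ↥(H ⊓ Subgroup.centralizer ((U ⊔ E : Subgroup X) : Set X)) ^ Nat.card E * Nat.card H = Nat.card ↥(H ⊓ Subgroup.centralizer (E : Set X)) ^ Nat.card E * Nat.card ↥(H ⊓ Subgroup.centralizer (U : Set X)) := by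
  classical
  set W := U ⊔ E with hW
  haveI : Fintype W := Fintype.ofFinite _
  have hUW : U ≤ W := le_sup_left
  have hEW : E ≤ W := le_sup_right
  have hWN : W ≤ Subgroup.normalizer (U : Set X) := by
    refine sup_le Subgroup.le_normalizer fun e he => Subgroup.mem_normalizer_iff.mpr fun u => ⟨hUn e he u, fun h => ?_⟩
    have h' := hUn e⁻¹ (E.inv_mem he) _ h
    rwa [show e⁻¹ * (e * u * e⁻¹) * e⁻¹⁻¹ = u by group] at h'
  haveI : (U.subgroupOf W).Normal := (Subgroup.normal_subgroupOf_iff_le_normalizer hUW).mpr hWN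
  have hinf : U.subgroupOf W ⊓ E.subgroupOf W = ⊥ := by
    ext x
    simp only [Subgroup.mem_inf, Subgroup.mem_subgroupOf, Subgroup.mem_bot]
    exact ⟨fun h => Subtype.ext (Subgroup.mem_bot.mp (hUE ▸ Subgroup.mem_inf.mpr h)), fun h => by subst h; exact ⟨U.one_mem, E.one_mem⟩⟩
  have hcU : Nat.card (U.subgroupOf W) = Nat.card U :=
    Nat.card_congr (Subgroup.subgroupOfEquivOfLe hUW).toEquiv
  have hcE : Nat.card (E.subgroupOf W) = Nat.card E :=
    Nat.card_congr (Subgroup.subgroupOfEquivOfLe hEW).toEquiv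
  have hcompl : Subgroup.IsComplement' (U.subgroupOf W) (E.subgroupOf W) := by
    refine Subgroup.isComplement'_of_disjoint_and_mul_eq_univ (disjoint_iff.mpr hinf) ?_
    have htop : U.subgroupOf W ⊔ E.subgroupOf W = ⊤ := by
      rw [← Subgroup.subgroupOf_sup hUW hEW, Subgroup.subgroupOf_self]
    rw [← Subgroup.normal_mul, htop, Subgroup.coe_top]
  let φ : W →* MulAut H :=
    { toFun := fun x =>
        { toFun := fun h => ⟨x * h * (x : X)⁻¹, hHn x x.2 h h.2⟩
          invFun := fun h => ⟨(x : X)⁻¹ * h * x, by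
            have := hHn (x : X)⁻¹ (W.inv_mem x.2) h h.2
            rwa [inv_inv] at this⟩
          left_inv := fun h => Subtype.ext (show (x : X)⁻¹ * (x * h * (x : X)⁻¹) * x = h by group)
          right_inv := fun h => Subtype.ext (show (x : X) * ((x : X)⁻¹ * h * x) * (x : X)⁻¹ = h by group)
          map_mul' := fun a b => Subtype.ext (show (x : X) * (a * b) * (x : X)⁻¹ =
            (x * a * (x : X)⁻¹) * (x * b * (x : X)⁻¹) by group) }
      map_one' := by ext h; simp
      map_mul' := fun x y => by ext h; simp [mul_assoc] }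
  have hfix : ∀ Y : Subgroup X, Y ≤ W →
      Nat.card (OddChar.fixGroup φ (Y.subgroupOf W)) = Nat.card ↥(H ⊓ Subgroup.centralizer (Y : Set X)) := by
    intro Y hY
    refine Nat.card_congr
      ⟨fun h => ⟨h.1.1, h.1.2, Subgroup.mem_centralizer_iff.mpr fun y hy =>
          mul_inv_eq_iff_eq_mul.mp (congrArg Subtype.val (h.2 ⟨y, hY hy⟩ hy))⟩,
        fun h => ⟨⟨h.1, h.2.1⟩, fun x hx => Subtype.ext
          (mul_inv_eq_iff_eq_mul.mpr (Subgroup.mem_centralizer_iff.mp h.2.2 (x : X) hx))⟩,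
        fun _ => rfl, fun _ => rfl⟩
  have key := OddChar.frob_fixed_formula_aux (U.subgroupOf W) (E.subgroupOf W) hcompl.card_mul.symm hinf
    (fun e he he1 u hu h => Subtype.ext (hfpf e he (fun h' => he1 (Subtype.ext h')) u hu
      (congrArg Subtype.val h)))
    (Nat.card H) H rfl hsolv hcop φ
  rw [hfix E hEW, hfix U hUW, hcE, ← Subgroup.subgroupOf_self (H := W), hfix W le_rfl] at key
  exact key

end Cfsg.Agent.S1545
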