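import Cfsg.Statements.S1546
import Mathlib.FieldTheory.Finite.Basic
import Mathlib.RingTheory.UniqueFactorizationDomain.Nat
import Mathlib.Algebra.Ring.GeomSum

set_option autoImplicit false
open Cfsg

namespace Cfsg.Agent.S1546

/-- Let p and q be odd primes and N = (p ^ q − 1) / (p − 1) = 1 + p + ⋯ + p^(q−1). Then N is odd; if p ≡ 1 (mod q) then q ∣ N; and if p is not ≡ 1 (mod q) then N is coprime to p − 1 and every divisor of N is ≡ 1 (mod q). -/
theorem result (p q : ℕ) (hp : p.Prime) (hq : q.Prime) (hp2 : p ≠ 2) (hq2 : q ≠ 2) : Odd ((p ^ q - 1) / (p - 1)) ∧ (p % q = 1 → q ∣ (p ^ q - 1) / (p - 1)) ∧ (p % q ≠ 1 → Nat.Coprime ((p ^ q - 1) / (p - 1)) (p - 1) ∧ ∀ x : ℕ, x ∣ (p ^ q - 1) / (p - 1) → x % q = 1) := by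
  rw [← Nat.geomSum_eq hp.two_le]
  set N := ∑ i ∈ Finset.range q, p ^ i with hN
  have hmod : ∀ d : ℕ, p ≡ 1 [MOD d] → N ≡ q [MOD d] := by
    intro d hd
    have h : ((p : ZMod d)) = 1 := by
      simpa using (ZMod.natCast_eq_natCast_iff p 1 d).mpr hd
    rw [← ZMod.natCast_eq_natCast_iff]
    simp [hN, h]
  have hq1 : ∀ a : ℕ, 1 ≤ a → q ∣ a - 1 → a % q = 1 := by
    intro a ha hd
    have := ((Nat.modEq_iff_dvd' ha).mpr hd).symm
    rwa [Nat.ModEq, Nat.mod_eq_of_lt hq.one_lt] at this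
  refine ⟨?_, ?_, ?_⟩
  · exact Nat.odd_iff.mpr (Eq.trans (hmod 2 (Nat.odd_iff.mp (hp.odd_of_ne_two hp2)))
      (Nat.odd_iff.mp (hq.odd_of_ne_two hq2)))
  · intro h
    have h1 : p ≡ 1 [MOD q] := by rw [Nat.ModEq, h, Nat.mod_eq_of_lt hq.one_lt]
    exact Nat.dvd_of_mod_eq_zero (Eq.trans (hmod q h1) (Nat.mod_self q))
  · intro h
    have hp1 : p ≡ 1 [MOD (p - 1)] := ((Nat.modEq_iff_dvd' hp.one_le).mpr dvd_rfl).symm
    have hcop : Nat.Coprime N (p - 1) := by
      rw [Nat.Coprime, (hmod _ hp1).gcd_eq]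
      exact hq.coprime_iff_not_dvd.mpr fun hd => h (hq1 p hp.one_le hd)
    refine ⟨hcop, ?_⟩
    have hprime : ∀ r : ℕ, r.Prime → r ∣ N → r % q = 1 := by
      intro r hr hrN
      haveI := Fact.mk hr
      have hN0 : (N : ZMod r) = 0 := (ZMod.natCast_eq_zero_iff N r).mpr hrN
      have hgs : (N : ZMod r) * ((p : ZMod r) - 1) = (p : ZMod r) ^ q - 1 := by
        rw [hN]; push_cast; exact geom_sum_mul _ _
      have hpq : (p : ZMod r) ^ q = 1 := by
        rw [hN0, zero_mul] at hgs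
        exact sub_eq_zero.mp hgs.symm
      have hpne : (p : ZMod r) ≠ 1 := by
        intro he
        have hd : r ∣ p - 1 := by
          rw [← Nat.modEq_iff_dvd' hp.one_le]
          exact ((ZMod.natCast_eq_natCast_iff p 1 r).mp (by simpa using he)).symm
        exact hr.ne_one (Nat.eq_one_of_dvd_coprimes hcop hrN hd)
      haveI := Fact.mk hq
      have hord : orderOf (p : ZMod r) = q := orderOf_eq_prime hpq hpne
      have hp0 : (p : ZMod r) ≠ 0 := by
        intro he; rw [he, zero_pow hq.ne_zero] at hpq; exact zero_ne_one hpq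
      exact hq1 r hr.one_le (hord ▸ ZMod.orderOf_dvd_card_sub_one hp0)
    intro x
    induction x using induction_on_primes with
    | zero =>
      intro h0
      have : N ≠ 0 := by
        rw [hN]
        exact (Finset.sum_pos (fun i _ => pow_pos hp.pos i)
          (Finset.nonempty_range_iff.mpr hq.ne_zero)).ne'
      exact absurd (zero_dvd_iff.mp h0) this
    | one => intro _; exact Nat.mod_eq_of_lt hq.one_lt
    | prime_mul r a hr ih =>
      intro hd
      rw [Nat.mul_mod, hprime r hr (dvd_of_mul_right_dvd hd),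
        ih (dvd_of_mul_left_dvd hd), Nat.mod_eq_of_lt hq.one_lt]

end Cfsg.Agent.S1546
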