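import Cfsg.Statements.S1551
import Cfsg.Agent.Golay.SextetStab

set_option autoImplicit false
open scoped Pointwise
open Cfsg

namespace Cfsg.Agent.S1551

/-- Structure of a sextet stabiliser: it induces every permutation of the six tetrads, the subgroup fixing each tetrad setwise has order 192, and there is a normal subgroup of order 64 consisting of elements squaring to the identity. -/
theorem result (S : Finset (Finset Cfsg.GolayPt)) (hS : S ∈ Cfsg.sextets) : (∀ e : Equiv.Perm ↥S, ∃ g ∈ MulAction.stabilizer Cfsg.M24 S, ∀ t : ↥S, (g : Equiv.Perm Cfsg.GolayPt) • (t : Finset Cfsg.GolayPt) = ((e t : ↥S) : Finset Cfsg.GolayPt)) ∧ Nat.card {g : ↥(MulAction.stabilizer Cfsg.M24 S) // ∀ t ∈ S, ((g : Cfsg.M24) : Equiv.Perm Cfsg.GolayPt) • t = t} = 192 ∧ ∃ N : Subgroup ↥(MulAction.stabilizer Cfsg.M24 S), N.Normal ∧ Nat.card N = 64 ∧ ∀ x ∈ N, x * x = 1 := by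
  obtain ⟨h1, h2, h3, h4⟩ := Cfsg.Agent.Golay.sextet_structure hS
  refine ⟨fun e => ?_, ?_, ?_⟩
  · obtain ⟨g, hg, hgS, hgt⟩ := h1 e
    exact ⟨⟨g, hg⟩, hgS, hgt⟩
  · rw [← h2]
    refine Nat.card_congr
      { toFun := fun g => ⟨g.1.1.1, Cfsg.Agent.Golay.mem_fixAll.2 ⟨g.1.1.2, g.2⟩⟩
        invFun := fun g => ⟨⟨⟨g.1, (Cfsg.Agent.Golay.mem_fixAll.1 g.2).1⟩, ?_⟩, (Cfsg.Agent.Golay.mem_fixAll.1 g.2).2⟩
        left_inv := fun _ => rfl
        right_inv := fun _ => rfl }
    show g.1 • S = S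
    refine Finset.eq_of_subset_of_card_le (fun t ht => ?_) (by rw [Finset.card_smul_finset])
    obtain ⟨s, hs, rfl⟩ := Finset.mem_smul_finset.1 ht
    rwa [(Cfsg.Agent.Golay.mem_fixAll.1 g.2).2 s hs]
  · let N : Subgroup ↥(MulAction.stabilizer Cfsg.M24 S) :=
      { carrier := {x | x.1.1 ∈ Cfsg.Agent.Golay.fixAll S ∧ x * x = 1}
        one_mem' := ⟨one_mem _, one_mul 1⟩
        mul_mem' := by
          rintro a b ⟨ha, ha2⟩ ⟨hb, hb2⟩
          have hc : a * b = b * a := Subtype.ext (Subtype.ext (h3 _ ha _ hb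
            (congrArg (fun z : ↥(MulAction.stabilizer Cfsg.M24 S) => z.1.1) ha2)
            (congrArg (fun z : ↥(MulAction.stabilizer Cfsg.M24 S) => z.1.1) hb2)))
          refine ⟨mul_mem ha hb, ?_⟩
          rw [show a * b * (a * b) = a * (b * a) * b by group, ← hc,
            show a * (a * b) * b = (a * a) * (b * b) by group, ha2, hb2, one_mul]
        inv_mem' := by
          rintro a ⟨ha, ha2⟩
          refine ⟨inv_mem ha, ?_⟩
          rw [← mul_inv_rev, ha2, inv_one] }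
    refine ⟨N, ⟨fun x hx y => ?_⟩, ?_, fun x hx => hx.2⟩
    · obtain ⟨hx1, hx2⟩ := hx
      refine ⟨?_, ?_⟩
      · have hy : y.1.1 • S = S := y.2
        have h := (Cfsg.Agent.Golay.conj_fixAll y.1.2 S x.1.1).2 hx1
        rw [hy] at h
        exact h
      · rw [show y * x * y⁻¹ * (y * x * y⁻¹) = y * (x * x) * y⁻¹ by group, hx2]; group
    · rw [← h4, ← Nat.card_coe_set_eq]
      refine Nat.card_congr
        { toFun := fun g => ⟨g.1.1.1, g.2.1, congrArg (fun z : ↥(MulAction.stabilizer Cfsg.M24 S) => z.1.1) g.2.2⟩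
          invFun := fun g => ⟨⟨⟨g.1, g.2.1.1⟩, ?_⟩, g.2.1, Subtype.ext (Subtype.ext g.2.2)⟩
          left_inv := fun _ => rfl
          right_inv := fun _ => rfl }
      show g.1 • S = S
      refine Finset.eq_of_subset_of_card_le (fun t ht => ?_) (by rw [Finset.card_smul_finset])
      obtain ⟨s, hs, rfl⟩ := Finset.mem_smul_finset.1 ht
      rwa [(Cfsg.Agent.Golay.mem_fixAll.1 g.2.1).2 s hs]

end Cfsg.Agent.S1551
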