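import Cfsg.Statements.S1553
import Cfsg.Agent.Golay.OctadStab

set_option autoImplicit false
open scoped Pointwise
open Cfsg

namespace Cfsg.Agent.S1553

/-- The stabiliser of an octad in the group of the length-24 code induces on the octad exactly its alternating group. -/
theorem result (o : Finset Cfsg.GolayPt) (ho : o ∈ Cfsg.octads) : {e : Equiv.Perm ↥o | ∃ g : Equiv.Perm Cfsg.GolayPt, g ∈ Cfsg.M24 ∧ ∃ h : (∀ x, g x ∈ o ↔ x ∈ o), g.subtypePerm h = e} = (alternatingGroup ↥o : Set (Equiv.Perm ↥o)) := by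
  classical
  rw [← Cfsg.Agent.Golay.octadRes_range ho]
  ext e
  constructor
  · rintro ⟨g, hg, h, rfl⟩
    refine ⟨⟨g, hg, ?_⟩, Equiv.ext fun x => rfl⟩
    ext y
    rw [← Finset.inv_smul_mem_iff, Equiv.Perm.smul_def]
    conv_rhs => rw [← g.apply_symm_apply y, h]
    rfl
  · rintro ⟨g, rfl⟩
    refine ⟨g.1, g.2.1, fun x => ?_, rfl⟩
    constructor
    · intro hx
      exact (Finset.smul_mem_smul_finset_iff g.1).1 (by rw [(g.2.2 : g.1 • o = o)]; exact hx)
    · intro hx
      have h2 := Finset.smul_mem_smul_finset (a := g.1) hx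
      rwa [(g.2.2 : g.1 • o = o)] at h2
  
end Cfsg.Agent.S1553
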