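import Cfsg.Statements.S1555
import Cfsg.Agent.Golay.Code
import Cfsg.Agent.Golay.Steiner

set_option autoImplicit false
open scoped Pointwise
open Cfsg

namespace Cfsg.Agent.S1555

/-- Bottom row of the Leech triangle: an octad is met in a prescribed pair of its points by exactly 16 octads and in a prescribed 4-subset by exactly 4 octads. -/
theorem result (o : Finset Cfsg.GolayPt) (ho : o ∈ Cfsg.octads) (s : Finset Cfsg.GolayPt) (hs : s ⊆ o) : (s.card = 2 → {o' : Finset Cfsg.GolayPt | o' ∈ Cfsg.octads ∧ o ∩ o' = s}.ncard = 16) ∧ (s.card = 4 → {o' : Finset Cfsg.GolayPt | o' ∈ Cfsg.octads ∧ o ∩ o' = s}.ncard = 4) := by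
  have hB := Cfsg.Agent.Golay.octads_steiner
  have hα := Cfsg.Agent.Golay.card_golayPt
  simp only [← Cfsg.Agent.Golay.exactCount_ncard]
  have hlarge : ∀ s' : Finset Cfsg.GolayPt, s' ⊆ o → 5 ≤ s'.card →
      Cfsg.Agent.Golay.exactCount Cfsg.octads o s' = if s'.card = 8 then 1 else 0 :=
    fun s' h h' => Cfsg.Agent.Golay.exactCount_large hB ho h h'
  have h4 : ∀ s' : Finset Cfsg.GolayPt, s' ⊆ o → s'.card = 4 → Cfsg.Agent.Golay.exactCount Cfsg.octads o s' = 4 := by
    intro s' h hc
    have := Cfsg.Agent.Golay.exactCount_add hB ho h (fun n => if n = 8 then 1 else 0)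
      (fun s'' hss hb'' => hlarge s'' hb'' (by have := Finset.card_lt_card hss; omega))
      (L := 5) (by rw [hα, hc]; decide +kernel) (by omega) (by norm_num)
    simp [hc, Finset.sum_range_succ, Nat.choose_succ_succ] at this
    omega
  have h3 : ∀ s' : Finset Cfsg.GolayPt, s' ⊆ o → s'.card = 3 → Cfsg.Agent.Golay.exactCount Cfsg.octads o s' = 0 := by
    intro s' h hc
    have := Cfsg.Agent.Golay.exactCount_add hB ho h (fun n => if n = 8 then 1 else if n = 4 then 4 else 0)
      (fun s'' hss hb'' => by
        have h34 := Finset.card_lt_card hss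
        by_cases e : s''.card = 4
        · simp [e, h4 s'' hb'' e]
        · simp [e, hlarge s'' hb'' (by omega)])
      (L := 21) (by rw [hα, hc]; decide +kernel) (by omega) (by norm_num)
    simp [hc, Finset.sum_range_succ, Nat.choose_succ_succ] at this
    omega
  have h2 : ∀ s' : Finset Cfsg.GolayPt, s' ⊆ o → s'.card = 2 → Cfsg.Agent.Golay.exactCount Cfsg.octads o s' = 16 := by
    intro s' h hc
    have := Cfsg.Agent.Golay.exactCount_add hB ho h (fun n => if n = 8 then 1 else if n = 4 then 4 else 0)
      (fun s'' hss hb'' => by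
        have h34 := Finset.card_lt_card hss
        by_cases e : s''.card = 4
        · simp [e, h4 s'' hb'' e]
        · by_cases e' : s''.card = 3
          · simp [e', h3 s'' hb'' e']
          · simp [e, hlarge s'' hb'' (by omega)])
      (L := 77) (by rw [hα, hc]; decide +kernel) (by omega) (by norm_num)
    simp [hc, Finset.sum_range_succ, Nat.choose_succ_succ] at this
    omega
  exact ⟨h2 s hs, h4 s hs⟩

end Cfsg.Agent.S1555
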