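import Cfsg.Statements.S1556
import Cfsg.Agent.Golay.StabOrbits

set_option autoImplicit false
open scoped Pointwise
open Cfsg
open scoped Pointwise

namespace Cfsg.Agent.S1556

/-- Two octads meeting a fixed octad in equally many points are in the same orbit of its stabiliser. -/
theorem result (o o' o'' : Finset Cfsg.GolayPt) (ho : o ∈ Cfsg.octads) (ho' : o' ∈ Cfsg.octads) (ho'' : o'' ∈ Cfsg.octads) (h : (o ∩ o').card = (o ∩ o'').card) : ∃ g : Equiv.Perm Cfsg.GolayPt, g ∈ Cfsg.M24 ∧ g • o = o ∧ g • o' = o'' := by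
  obtain ⟨c, hc, rfl⟩ := Cfsg.Agent.Golay.std_octad ho
  obtain ⟨g, hg, hgo, e⟩ := Cfsg.Agent.Golay.octO_conj (Cfsg.Agent.Golay.smul_mem_octads (inv_mem hc) ho')
    (Cfsg.Agent.Golay.smul_mem_octads (inv_mem hc) ho'') (by
      rwa [← Finset.card_smul_finset c, Finset.smul_finset_inter, smul_inv_smul,
        ← Finset.card_smul_finset c (Cfsg.Agent.Golay.bset Cfsg.Agent.Golay.octMask ∩ c⁻¹ • o''), Finset.smul_finset_inter,
        smul_inv_smul])
  exact ⟨c * g * c⁻¹, mul_mem (mul_mem hc hg) (inv_mem hc), by rw [mul_smul, inv_smul_smul, mul_smul, hgo],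
    by rw [mul_smul, mul_smul, e, smul_inv_smul]⟩

end Cfsg.Agent.S1556
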