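import Cfsg.Statements.S1561
import Cfsg.Agent.Golay.StabOrbits

set_option autoImplicit false
open scoped Pointwise
open Cfsg
open scoped Pointwise

namespace Cfsg.Agent.S1561

/-- Two dodecads meeting a fixed dodecad in equally many points lie in one orbit of its stabiliser. -/
theorem result (d d' d'' : Finset Cfsg.GolayPt) (hd : d ∈ Cfsg.dodecads) (hd' : d' ∈ Cfsg.dodecads) (hd'' : d'' ∈ Cfsg.dodecads) (h : (d ∩ d').card = (d ∩ d'').card) : ∃ g : Equiv.Perm Cfsg.GolayPt, g ∈ Cfsg.M24 ∧ g • d = d ∧ g • d' = d'' := by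
  obtain ⟨c, hc, rfl⟩ := Cfsg.Agent.Golay.exists_mem_M24_sqMask hd
  obtain ⟨g, hg, hgo, e⟩ := Cfsg.Agent.Golay.dodD_conj (Cfsg.Agent.Golay.smul_mem_dodecads (inv_mem hc) hd')
    (Cfsg.Agent.Golay.smul_mem_dodecads (inv_mem hc) hd'') (by
      rwa [← Finset.card_smul_finset c, Finset.smul_finset_inter, smul_inv_smul,
        ← Finset.card_smul_finset c (Cfsg.Agent.Golay.bset Cfsg.Agent.Golay.sqMask ∩ c⁻¹ • d''), Finset.smul_finset_inter,
        smul_inv_smul])
  exact ⟨c * g * c⁻¹, mul_mem (mul_mem hc hg) (inv_mem hc), by rw [mul_smul, inv_smul_smul, mul_smul, hgo],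
    by rw [mul_smul, mul_smul, e, smul_inv_smul]⟩

end Cfsg.Agent.S1561
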