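import Cfsg.Statements.S1568
import Cfsg.Agent.Golay.LeechCount

set_option autoImplicit false
open Cfsg Cfsg.Agent.Golay

namespace Cfsg.Agent.S1568

/-- Shape census of the lattice vectors of sum of squares 48 (customary norm 6): the four families (2^12, 0^12), (±3^3, ±1^21), (±4, ±2^8, 0^15) and (±5, ±1^23) have 5275648, 8290304, 3108864 and 98304 members. -/
theorem result : {x : Cfsg.GolayPt → ℤ | x ∈ Cfsg.leechLattice ∧ Cfsg.sqNorm x = 48 ∧ ∀ i, x i = 0 ∨ x i = 2 ∨ x i = -2}.ncard = 5275648 ∧ {x : Cfsg.GolayPt → ℤ | x ∈ Cfsg.leechLattice ∧ Cfsg.sqNorm x = 48 ∧ ∃ i j k, i ≠ j ∧ j ≠ k ∧ i ≠ k ∧ |x i| = 3 ∧ |x j| = 3 ∧ |x k| = 3}.ncard = 8290304 ∧ {x : Cfsg.GolayPt → ℤ | x ∈ Cfsg.leechLattice ∧ Cfsg.sqNorm x = 48 ∧ ∃ i, |x i| = 4}.ncard = 3108864 ∧ {x : Cfsg.GolayPt → ℤ | x ∈ Cfsg.leechLattice ∧ Cfsg.sqNorm x = 48 ∧ ∃ i, |x i| = 5}.ncard = 98304 := by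
  obtain ⟨-, v48, -, v2, v3, v4, v5⟩ := census_values
  have small : ∀ S : List ℤ, (∀ a ∈ S, a ≤ 8) → (shellSet S 48).ncard = censusFormula S 48 := fun S h => by
    simpa using census S h 48 (by norm_num)
  have hall := small allAbs allAbs_small
  have habs : ∀ x : Cfsg.GolayPt → ℤ, Cfsg.sqNorm x = 48 → ∀ i, |x i| ∈ allAbs := fun x h i => by
    have h3 := abs_le_eight (x := x) (by omega) i
    have h4 := abs_nonneg (x i)
    simp only [allAbs, List.mem_cons, List.not_mem_nil, or_false]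
    omega
  have hcompl : ∀ (S : List ℤ) (v : ℤ), (∀ a, a ∈ S ↔ a ∈ allAbs ∧ a ≠ v) →
      {x : Cfsg.GolayPt → ℤ | x ∈ Cfsg.leechLattice ∧ Cfsg.sqNorm x = 48 ∧ ∃ i, |x i| = v}.ncard =
        censusFormula allAbs 48 - censusFormula S 48 := fun S v hS => by
    rw [← hall, ← small S (fun a ha => allAbs_small a ((hS a).1 ha).1)]
    have hfin : (shellSet allAbs 48).Finite := Set.finite_of_ncard_ne_zero (by rw [hall, v48]; norm_num)
    have hsub : shellSet S 48 ⊆ shellSet allAbs 48 := fun x hx => ⟨hx.1, hx.2.1, fun i => ((hS _).1 (hx.2.2 i)).1⟩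
    rw [← Set.ncard_sdiff hsub (hfin.subset hsub)]
    refine congrArg Set.ncard ?_
    ext x
    simp only [shellSet, Set.mem_ofPred_eq, Set.mem_sdiff]
    constructor
    · rintro ⟨h1, h2, i, hi⟩
      exact ⟨⟨h1, h2, habs x h2⟩, fun h => ((hS _).1 (h.2.2 i)).2 hi⟩
    · rintro ⟨⟨h1, h2, -⟩, h⟩
      refine ⟨h1, h2, ?_⟩
      by_contra hne
      exact h ⟨h1, h2, fun i => (hS _).2 ⟨habs x h2 i, fun hi => hne ⟨i, hi⟩⟩⟩
  refine ⟨?_, ?_, ?_, ?_⟩
  · rw [← v2, ← small [0, 2] (by decide)]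
    refine congrArg Set.ncard ?_
    ext x
    simp only [shellSet, Set.mem_ofPred_eq, List.mem_cons, List.not_mem_nil, or_false]
    refine and_congr_right fun _ => and_congr_right fun _ => forall_congr' fun i => ?_
    rw [abs_eq (by norm_num : (0 : ℤ) ≤ 2), abs_eq_zero]
  · rw [← v3, ← small [1, 3] (by decide)]
    refine congrArg Set.ncard ?_
    ext x
    simp only [shellSet, Set.mem_ofPred_eq, List.mem_cons, List.not_mem_nil, or_false]
    refine and_congr_right fun hx => and_congr_right fun hn => ?_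
    rw [Cfsg.sqNorm] at hn
    constructor
    · rintro ⟨i, j, k, hij, hjk, hik, hi, hj, hk⟩ l
      have hodd : ∀ l, (2 : ℤ) ∣ x l - 1 := by
        obtain ⟨m, y, hy, -, -⟩ := mem_leech_iff.1 hx
        intro l
        have := hy i
        have := hy l
        rcases (abs_eq (by norm_num : (0 : ℤ) ≤ 3)).1 hi with h | h <;> omega
      by_cases hl : l ∈ ({i, j, k} : Finset Cfsg.GolayPt)
      · simp only [Finset.mem_insert, Finset.mem_singleton] at hl
        rcases hl with rfl | rfl | rfl <;> right <;> assumption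
      left
      have hsub : ∑ a ∈ ({i, j, k} : Finset Cfsg.GolayPt)ᶜ, (x a ^ 2 - 1) = 0 := by
        have h := Finset.sum_add_sum_compl ({i, j, k} : Finset Cfsg.GolayPt) (fun a => x a ^ 2)
        rw [hn, Finset.sum_insert (by simp [hij, hik]), Finset.sum_insert (by simp [hjk]), Finset.sum_singleton,
          ← sq_abs (x i), ← sq_abs (x j), ← sq_abs (x k), hi, hj, hk] at h
        rw [Finset.sum_sub_distrib, Finset.sum_const, Finset.card_compl, card_golayPt,
          Finset.card_insert_of_notMem (by simp [hij, hik]), Finset.card_insert_of_notMem (by simp [hjk]),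
          Finset.card_singleton]
        norm_num
        simp at h ⊢
        linarith
      have h0 : ∀ a ∈ ({i, j, k} : Finset Cfsg.GolayPt)ᶜ, 0 ≤ x a ^ 2 - 1 := fun a _ => by
        have : x a ≠ 0 := by have := hodd a; omega
        have := Int.one_le_abs this
        nlinarith [sq_abs (x a)]
      have := (Finset.sum_eq_zero_iff_of_nonneg h0).1 hsub l (Finset.mem_compl.2 hl)
      exact (sq_eq_one_iff.1 (by linarith : x l ^ 2 = 1)).elim (fun e => by rw [e]; rfl) (fun e => by rw [e]; rfl)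
    · intro h
      have e : ∀ a, x a ^ 2 = 1 + if |x a| = 3 then 8 else 0 := fun a => by
        rw [← sq_abs]
        rcases h a with h | h <;> rw [h] <;> norm_num
      rw [Finset.sum_congr rfl fun a _ => e a, Finset.sum_add_distrib, Finset.sum_const, Finset.card_univ,
        card_golayPt, ← Finset.sum_filter, Finset.sum_const] at hn
      have hc : (Finset.univ.filter fun a => |x a| = 3).card = 3 := by
        simp only [nsmul_eq_mul] at hn
        omega
      obtain ⟨i, j, k, hij, hik, hjk, hT⟩ := Finset.card_eq_three.1 hc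
      have hm : ∀ a ∈ ({i, j, k} : Finset Cfsg.GolayPt), |x a| = 3 := fun a ha => by
        rw [← hT] at ha
        exact (Finset.mem_filter.1 ha).2
      exact ⟨i, j, k, hij, hjk, hik, hm i (by simp), hm j (by simp), hm k (by simp)⟩
  · rw [hcompl [0, 1, 2, 3, 5, 6, 7, 8] 4 (by intro a; simp [allAbs]; omega), v48, v4]
  · rw [hcompl [0, 1, 2, 3, 4, 6, 7, 8] 5 (by intro a; simp [allAbs]; omega), v48, v5]

end Cfsg.Agent.S1568
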