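import Cfsg.Statements.S1573
import Cfsg.Agent.Golay.LeechPairs

set_option autoImplicit false

open Cfsg.Agent.Golay
open Cfsg

namespace Cfsg.Agent.S1573

/-- Census of minimal vectors by inner product with a fixed minimal vector: 4600 have customary inner product −2, 47104 have −1, and 93150 are orthogonal. -/
theorem result (v : Cfsg.GolayPt → ℤ) (hv : v ∈ Cfsg.leechLattice) (hvn : Cfsg.sqNorm v = 32) : {w : Cfsg.GolayPt → ℤ | w ∈ Cfsg.leechLattice ∧ Cfsg.sqNorm w = 32 ∧ Cfsg.dotInt v w = -16}.ncard = 4600 ∧ {w : Cfsg.GolayPt → ℤ | w ∈ Cfsg.leechLattice ∧ Cfsg.sqNorm w = 32 ∧ Cfsg.dotInt v w = -8}.ncard = 47104 ∧ {w : Cfsg.GolayPt → ℤ | w ∈ Cfsg.leechLattice ∧ Cfsg.sqNorm w = 32 ∧ Cfsg.dotInt v w = 0}.ncard = 93150 := by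
  have key : ∀ s : ℤ, {w : Cfsg.GolayPt → ℤ | w ∈ Cfsg.leechLattice ∧ Cfsg.sqNorm w = 32 ∧ Cfsg.dotInt v w = 4 * s}.ncard = sumFormula 32 s := fun s => by
    have h := dot_count (n := 32) (by norm_num) (v := ⟨v, hv⟩) hvn s
    rw [ncard_coe_leech (fun w => Cfsg.sqNorm w = ((32 : ℕ) : ℤ) ∧ Cfsg.dotInt v w = 4 * s)] at h
    exact h
  obtain ⟨a, b, c, -⟩ := sum_values
  exact ⟨(key (-4)).trans a, (key (-2)).trans b, (key 0).trans c⟩

end Cfsg.Agent.S1573
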