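import Cfsg.Statements.S1580
import Cfsg.Agent.Golay.LeechMcL

set_option autoImplicit false
open Cfsg

namespace Cfsg.Agent.S1580

/-- The McLaughlin configuration: for u of customary norm 6 and v minimal with u − v minimal, there are 275 further such summands x of customary inner product 2 with v, permuted transitively by the stabiliser of u and v. -/
theorem result (u v : ↥Cfsg.leechLattice) (hu : Cfsg.sqNorm (u : Cfsg.GolayPt → ℤ) = 48) (hv : Cfsg.sqNorm (v : Cfsg.GolayPt → ℤ) = 32 ∧ Cfsg.sqNorm ((u - v) : Cfsg.GolayPt → ℤ) = 32) : {x : ↥Cfsg.leechLattice | Cfsg.sqNorm (x : Cfsg.GolayPt → ℤ) = 32 ∧ Cfsg.sqNorm ((u - x) : Cfsg.GolayPt → ℤ) = 32 ∧ Cfsg.dotInt (v : Cfsg.GolayPt → ℤ) (x : Cfsg.GolayPt → ℤ) = 16}.ncard = 275 ∧ ∀ x ∈ {x : ↥Cfsg.leechLattice | Cfsg.sqNorm (x : Cfsg.GolayPt → ℤ) = 32 ∧ Cfsg.sqNorm ((u - x) : Cfsg.GolayPt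 → ℤ) = 32 ∧ Cfsg.dotInt (v : Cfsg.GolayPt → ℤ) (x : Cfsg.GolayPt → ℤ) = 16}, ∀ x' ∈ {x : ↥Cfsg.leechLattice | Cfsg.sqNorm (x : Cfsg.GolayPt → ℤ) = 32 ∧ Cfsg.sqNorm ((u - x) : Cfsg.GolayPt → ℤ) = 32 ∧ Cfsg.dotInt (v : Cfsg.GolayPt → ℤ) (x : Cfsg.GolayPt → ℤ) = 16}, ∃ g : ↥Cfsg.Co0, g • u = u ∧ g • v = v ∧ g • x = x' := by
  obtain ⟨g, g1, g2⟩ := Cfsg.Agent.Golay.mcl_conj hu hv
  refine ⟨(Cfsg.Agent.Golay.ncard_transport g _ _ (Cfsg.Agent.Golay.mclSet_transport g1 g2)).trans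
    Cfsg.Agent.Golay.mcl_total, fun x hx x' hx' => ?_⟩
  obtain ⟨a, a1, a2, a3⟩ := Cfsg.Agent.Golay.mcl_orbit _ ((Cfsg.Agent.Golay.mclSet_transport g1 g2 x).1 hx)
  obtain ⟨b, b1, b2, b3⟩ := Cfsg.Agent.Golay.mcl_orbit _ ((Cfsg.Agent.Golay.mclSet_transport g1 g2 x').1 hx')
  refine ⟨g⁻¹ * (b * a⁻¹) * g, ?_, ?_, ?_⟩
  · simp only [mul_smul, g1, inv_smul_eq_iff.2 a1.symm, b1]
    exact inv_smul_eq_iff.2 g1.symm
  · simp only [mul_smul, g2, inv_smul_eq_iff.2 a2.symm, b2]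
    exact inv_smul_eq_iff.2 g2.symm
  · simp only [mul_smul, inv_smul_eq_iff.2 a3.symm, b3, inv_smul_smul]

end Cfsg.Agent.S1580
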