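import Cfsg.Statements.S1581
import Cfsg.Agent.Golay.LeechMcL

set_option autoImplicit false
open Cfsg

namespace Cfsg.Agent.S1581

/-- The McLaughlin group acts with rank 3 and subdegrees 1, 112, 162 on its 275 points: the point stabiliser has two orbits on the remaining points, distinguished by customary inner product 1 or 2 with the fixed point. -/
theorem result (u v x : ↥Cfsg.leechLattice) (hu : Cfsg.sqNorm (u : Cfsg.GolayPt → ℤ) = 48) (hv : Cfsg.sqNorm (v : Cfsg.GolayPt → ℤ) = 32 ∧ Cfsg.sqNorm ((u - v) : Cfsg.GolayPt → ℤ) = 32) (hx : x ∈ {x : ↥Cfsg.leechLattice | Cfsg.sqNorm (x : Cfsg.GolayPt → ℤ) = 32 ∧ Cfsg.sqNorm ((u - x) : Cfsg.GolayPt → ℤ) = 32 ∧ Cfsg.dotInt (v : Cfsg.GolayPt → ℤ) (x : Cfsg.GolayPt → ℤ) = 16}) : {y : ↥Cfsg.leechLattice | y ∈ {x : ↥Cfsg.leechLattice | Cfsg.sqNorm (x : Cfsg.GolayPt → ℤ) = 32 ∧ Cfsg.sqNorm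 ((u - x) : Cfsg.GolayPt → ℤ) = 32 ∧ Cfsg.dotInt (v : Cfsg.GolayPt → ℤ) (x : Cfsg.GolayPt → ℤ) = 16} ∧ Cfsg.dotInt (x : Cfsg.GolayPt → ℤ) (y : Cfsg.GolayPt → ℤ) = 8}.ncard = 112 ∧ {y : ↥Cfsg.leechLattice | y ∈ {x : ↥Cfsg.leechLattice | Cfsg.sqNorm (x : Cfsg.GolayPt → ℤ) = 32 ∧ Cfsg.sqNorm ((u - x) : Cfsg.GolayPt → ℤ) = 32 ∧ Cfsg.dotInt (v : Cfsg.GolayPt → ℤ) (x : Cfsg.GolayPt → ℤ) = 16} ∧ y ≠ x ∧ Cfsg.dotInt (x : Cfsg.GolayPt → ℤ) (y : Cfsg.GolayPt → ℤ) = 16}.ncard = 162 ∧ ∀ y ∈ {x : ↥Cfsg.leechLattice | Cfsg.sqNorm (x : Cfsg.GolayPt → ℤ) = 32 ∧ Cfsg.sqNorm ((u - x) : Cfsg.GolayPt → ℤ) = 32 ∧ Cfsg.dotInt (v : Cfsg.GolayPt → ℤ) (x : Cfsg.GolayPt → ℤ) = 16}, ∀ y' ∈ {x : ↥Cfsg.leechLattice | Cfsg.sqNorm (x : Cfsg.GolayPt → ℤ) = 32 ∧ Cfsg.sqNorm ((u - x) : Cfsg.GolayPt → ℤ) = 32 ∧ Cfsg.dotInt (v : Cfsg.GolayPt → ℤ) (x : Cfsg.GolayPt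 → ℤ) = 16}, y ≠ x → y' ≠ x → Cfsg.dotInt (x : Cfsg.GolayPt → ℤ) (y : Cfsg.GolayPt → ℤ) = Cfsg.dotInt (x : Cfsg.GolayPt → ℤ) (y' : Cfsg.GolayPt → ℤ) → ∃ g : ↥Cfsg.Co0, g • u = u ∧ g • v = v ∧ g • x = x ∧ g • y = y' := by
  obtain ⟨g, g1, g2⟩ := Cfsg.Agent.Golay.mcl_conj hu hv
  obtain ⟨a, a1, a2, a3⟩ := Cfsg.Agent.Golay.mcl_orbit _ ((Cfsg.Agent.Golay.mclSet_transport g1 g2 x).1 hx)
  obtain ⟨f, fu, fv, fx⟩ : ∃ f : ↥Co0, f • u = Cfsg.Agent.Golay.hsV ∧ f • v = Cfsg.Agent.Golay.hsX ∧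
      f • x = Cfsg.Agent.Golay.mclX :=
    ⟨a⁻¹ * g, by rw [mul_smul, g1, inv_smul_eq_iff, a1], by rw [mul_smul, g2, inv_smul_eq_iff, a2],
      by rw [mul_smul, inv_smul_eq_iff, a3]⟩
  have tr := fun y => Cfsg.Agent.Golay.mclSet_transport fu fv y
  have hd : ∀ y : ↥leechLattice, dotInt (Cfsg.Agent.Golay.mclX : GolayPt → ℤ) ((f • y : ↥leechLattice) : GolayPt → ℤ) =
      dotInt (x : GolayPt → ℤ) y := fun y => by rw [← fx, Cfsg.Agent.Golay.co0_dot]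
  obtain ⟨h8, h16, horb⟩ := Cfsg.Agent.Golay.mcl_suborbits
  refine ⟨?_, ?_, fun y hy y' hy' n1 n2 h => ?_⟩
  · exact (Cfsg.Agent.Golay.ncard_transport f _ _ fun y => and_congr (tr y) (by rw [hd])).trans h8
  · exact (Cfsg.Agent.Golay.ncard_transport f _ _ fun y => and_congr (tr y)
      (and_congr (by rw [← fx, (MulAction.injective f).ne_iff]) (by rw [hd]))).trans h16
  · obtain ⟨b, b1, b2, b3, hb⟩ := horb _ ((tr y).1 hy) (by rw [← fx]; exact (MulAction.injective f).ne n1)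
    obtain ⟨c, c1, c2, c3, hc⟩ := horb _ ((tr y').1 hy') (by rw [← fx]; exact (MulAction.injective f).ne n2)
    rw [hd] at hb hc
    have key : (c * b⁻¹) • f • y = f • y' := by
      rcases hb with ⟨d, e⟩ | ⟨d, e⟩ <;> rcases hc with ⟨d', e'⟩ | ⟨d', e'⟩
      · rw [mul_smul, ← e, inv_smul_smul, e']
      · rw [← h, d] at d'; norm_num at d'
      · rw [← h, d] at d'; norm_num at d'
      · rw [mul_smul, ← e, inv_smul_smul, e']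
    refine ⟨f⁻¹ * (c * b⁻¹) * f, ?_, ?_, ?_, by rw [mul_smul, mul_smul, key, inv_smul_smul]⟩
    · simp only [mul_smul, fu, inv_smul_eq_iff.2 b1.symm, c1]; exact inv_smul_eq_iff.2 fu.symm
    · simp only [mul_smul, fv, inv_smul_eq_iff.2 b2.symm, c2]; exact inv_smul_eq_iff.2 fv.symm
    · simp only [mul_smul, fx, inv_smul_eq_iff.2 b3.symm, c3]; exact inv_smul_eq_iff.2 fx.symm

end Cfsg.Agent.S1581
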