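import Cfsg.Statements.S1584
import Cfsg.Agent.Golay.LeechHS

set_option autoImplicit false
open Cfsg

namespace Cfsg.Agent.S1584

/-- The Higman–Sims group acts with rank 3 and subdegrees 1, 22, 77 on its 100 points, the orbits of a point stabiliser being distinguished by customary inner product 1 with the fixed point. -/
theorem result (v w x : ↥Cfsg.leechLattice) (hv : Cfsg.sqNorm (v : Cfsg.GolayPt → ℤ) = 48) (hw : Cfsg.sqNorm (w : Cfsg.GolayPt → ℤ) = 48) (hvw : Cfsg.dotInt (v : Cfsg.GolayPt → ℤ) (w : Cfsg.GolayPt → ℤ) = -32) (hx : x ∈ {x : ↥Cfsg.leechLattice | Cfsg.sqNorm (x : Cfsg.GolayPt → ℤ) = 32 ∧ Cfsg.dotInt (v : Cfsg.GolayPt → ℤ) (x : Cfsg.GolayPt → ℤ) = 24 ∧ Cfsg.dotInt (w : Cfsg.GolayPt → ℤ) (x : Cfsg.GolayPt → ℤ) = -24}) : {y : ↥Cfsg.leechLattice | y ∈ {x : ↥Cfsg.leechLattice | Cfsg.sqNorm (x : Cfsg.GolayPt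 → ℤ) = 32 ∧ Cfsg.dotInt (v : Cfsg.GolayPt → ℤ) (x : Cfsg.GolayPt → ℤ) = 24 ∧ Cfsg.dotInt (w : Cfsg.GolayPt → ℤ) (x : Cfsg.GolayPt → ℤ) = -24} ∧ Cfsg.dotInt (x : Cfsg.GolayPt → ℤ) (y : Cfsg.GolayPt → ℤ) = 8}.ncard = 22 ∧ {y : ↥Cfsg.leechLattice | y ∈ {x : ↥Cfsg.leechLattice | Cfsg.sqNorm (x : Cfsg.GolayPt → ℤ) = 32 ∧ Cfsg.dotInt (v : Cfsg.GolayPt → ℤ) (x : Cfsg.GolayPt → ℤ) = 24 ∧ Cfsg.dotInt (w : Cfsg.GolayPt → ℤ) (x : Cfsg.GolayPt → ℤ) = -24} ∧ y ≠ x ∧ Cfsg.dotInt (x : Cfsg.GolayPt → ℤ) (y : Cfsg.GolayPt → ℤ) ≠ 8}.ncard = 77 ∧ ∀ y ∈ {x : ↥Cfsg.leechLattice | Cfsg.sqNorm (x : Cfsg.GolayPt → ℤ) = 32 ∧ Cfsg.dotInt (v : Cfsg.GolayPt → ℤ) (x : Cfsg.GolayPt → ℤ) = 24 ∧ Cfsg.dotInt (w : Cfsg.GolayPt → ℤ) (x : Cfsg.GolayPt → ℤ) = -24}, ∀ y' ∈ {x : ↥Cfsg.leechLattice | Cfsg.sqNorm (x : Cfsg.GolayPt → ℤ) = 32 ∧ Cfsg.dotInt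 (v : Cfsg.GolayPt → ℤ) (x : Cfsg.GolayPt → ℤ) = 24 ∧ Cfsg.dotInt (w : Cfsg.GolayPt → ℤ) (x : Cfsg.GolayPt → ℤ) = -24}, y ≠ x → y' ≠ x → (Cfsg.dotInt (x : Cfsg.GolayPt → ℤ) (y : Cfsg.GolayPt → ℤ) = 8 ↔ Cfsg.dotInt (x : Cfsg.GolayPt → ℤ) (y' : Cfsg.GolayPt → ℤ) = 8) → ∃ g : ↥Cfsg.Co0, g • v = v ∧ g • w = w ∧ g • x = x ∧ g • y = y' := by
  obtain ⟨g, g1, g2⟩ := Cfsg.Agent.Golay.hs_conj hv hw hvw
  obtain ⟨a, a1, a2, a3⟩ := Cfsg.Agent.Golay.hs_set_transitive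
    ((Cfsg.Agent.Golay.hsSet_transport g1 g2 x).1 hx)
  obtain ⟨f, fv, fw, fx⟩ : ∃ f : ↥Co0, f • v = Cfsg.Agent.Golay.hsV ∧ f • w = Cfsg.Agent.Golay.hsW ∧
      f • x = Cfsg.Agent.Golay.hsX :=
    ⟨a⁻¹ * g, by rw [mul_smul, g1, inv_smul_eq_iff, a1], by rw [mul_smul, g2, inv_smul_eq_iff, a2],
      by rw [mul_smul, inv_smul_eq_iff, a3]⟩
  have tr := fun y => Cfsg.Agent.Golay.hsSet_transport fv fw y
  have hd : ∀ y : ↥leechLattice, dotInt (Cfsg.Agent.Golay.hsX : GolayPt → ℤ) ((f • y : ↥leechLattice) : GolayPt → ℤ) =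
      dotInt (x : GolayPt → ℤ) y := fun y => by rw [← fx, Cfsg.Agent.Golay.co0_dot]
  refine ⟨?_, ?_, fun y hy y' hy' n1 n2 h => ?_⟩
  · exact (Cfsg.Agent.Golay.ncard_transport f _ _ fun y => and_congr (tr y) (by rw [hd])).trans
      Cfsg.Agent.Golay.hs_near_ncard
  · exact (Cfsg.Agent.Golay.ncard_transport f _ _ fun y => and_congr (tr y)
      (and_congr (by rw [← fx, (MulAction.injective f).ne_iff]) (by rw [hd]))).trans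
      Cfsg.Agent.Golay.hs_far_ncard
  · obtain ⟨k, k1, k2, k3, k4⟩ := Cfsg.Agent.Golay.hs_suborbit ((tr y).1 hy) ((tr y').1 hy')
      (by rw [← fx]; exact (MulAction.injective f).ne n1) (by rw [← fx]; exact (MulAction.injective f).ne n2)
      (by rw [hd, hd]; exact h)
    refine ⟨f⁻¹ * k * f, ?_, ?_, ?_, by simp only [mul_smul, k4, inv_smul_smul]⟩
    · simp only [mul_smul, fv, k1]; exact inv_smul_eq_iff.2 fv.symm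
    · simp only [mul_smul, fw, k2]; exact inv_smul_eq_iff.2 fw.symm
    · simp only [mul_smul, fx, k3]; exact inv_smul_eq_iff.2 fx.symm

end Cfsg.Agent.S1584
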