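import Cfsg.Statements.S1587

set_option autoImplicit false
open Matrix
open Cfsg

namespace Cfsg.Agent.S1587

/-- First step of the characterisation of the rank-24 lattice: in an even lattice without roots, norm-8 vectors congruent modulo 2 are equal, opposite or orthogonal. -/
theorem result (B : Matrix (Fin 24) (Fin 24) ℤ) (hsymm : B.IsSymm) (hpos : ∀ x : Fin 24 → ℤ, x ≠ 0 → 0 < x ⬝ᵥ (B *ᵥ x)) (heven : ∀ x : Fin 24 → ℤ, (2 : ℤ) ∣ x ⬝ᵥ (B *ᵥ x)) (h2 : ∀ x : Fin 24 → ℤ, x ⬝ᵥ (B *ᵥ x) ≠ 2) (x y : Fin 24 → ℤ) (hx : x ⬝ᵥ (B *ᵥ x) = 8) (hy : y ⬝ᵥ (B *ᵥ y) = 8) (hc : ∀ i, (2 : ℤ) ∣ (x - y) i) : y = x ∨ y = -x ∨ x ⬝ᵥ (B *ᵥ y) = 0 := by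
  obtain ⟨z, hz⟩ : ∃ z : Fin 24 → ℤ, x - y = 2 • z :=
    ⟨fun i => (x - y) i / 2, funext fun i => by
      rw [Pi.smul_apply, nsmul_eq_mul, Nat.cast_two]; exact (Int.mul_ediv_cancel' (hc i)).symm⟩
  set q : (Fin 24 → ℤ) → ℤ := fun v => v ⬝ᵥ (B *ᵥ v) with hq
  have hbil : ∀ u v : Fin 24 → ℤ, u ⬝ᵥ (B *ᵥ v) = v ⬝ᵥ (B *ᵥ u) := by
    intro u v
    rw [dotProduct_mulVec, ← mulVec_transpose, hsymm.eq, dotProduct_comm]
  have hadd : ∀ u v : Fin 24 → ℤ, q (u + v) = q u + 2 * (u ⬝ᵥ (B *ᵥ v)) + q v := by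
    intro u v
    simp only [hq, mulVec_add, dotProduct_add, add_dotProduct, hbil v u]
    ring
  have hsub : ∀ u v : Fin 24 → ℤ, q (u - v) = q u - 2 * (u ⬝ᵥ (B *ᵥ v)) + q v := by
    intro u v
    simp only [hq, mulVec_sub, dotProduct_sub, sub_dotProduct, hbil v u]
    ring
  have hsmul : ∀ u : Fin 24 → ℤ, q (2 • u) = 4 * q u := by
    intro u
    rw [two_nsmul, hadd]
    simp only [hq]
    ring
  have hmin : ∀ u : Fin 24 → ℤ, u ≠ 0 → 4 ≤ q u := by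
    intro u hu
    have h1 : 0 < q u := hpos u hu
    have h3 : q u ≠ 2 := h2 u
    obtain ⟨k, hk⟩ : (2 : ℤ) ∣ q u := heven u
    omega
  by_cases hz0 : z = 0
  · left; rw [hz0, smul_zero, sub_eq_zero] at hz; exact hz.symm
  set w := z + y with hw
  by_cases hw0 : w = 0
  · right; left
    have hzy : z = -y := eq_neg_of_add_eq_zero_left hw0
    rw [hzy, two_nsmul] at hz
    rw [eq_neg_iff_add_eq_zero, ← sub_eq_zero.2 hz]
    abel
  right; right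
  have hxy : x + y = 2 • w := by
    rw [hw, nsmul_add, ← hz, two_nsmul]; abel
  have e1 := hsmul z
  have e2 := hsmul w
  rw [← hz, hsub] at e1
  rw [← hxy, hadd] at e2
  have g1 := hmin z hz0
  have g2 := hmin w hw0
  simp only [hq] at e1 e2 g1 g2 ⊢
  omega

end Cfsg.Agent.S1587
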