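import Cfsg.Statements.S1588
import Cfsg.Agent.Golay.ModTwo

set_option autoImplicit false

open Cfsg.Agent.Golay
open Matrix
open Cfsg

namespace Cfsg.Agent.S1588

/-- Second step of the characterisation: under the vector counts of the rank-24 lattice, the norm-8 vectors fall into congruence classes of exactly 48 modulo twice the lattice. -/
theorem result (B : Matrix (Fin 24) (Fin 24) ℤ) (hsymm : B.IsSymm) (hpos : ∀ x : Fin 24 → ℤ, x ≠ 0 → 0 < x ⬝ᵥ (B *ᵥ x)) (heven : ∀ x : Fin 24 → ℤ, (2 : ℤ) ∣ x ⬝ᵥ (B *ᵥ x)) (h2 : ∀ x : Fin 24 → ℤ, x ⬝ᵥ (B *ᵥ x) ≠ 2) (h4 : {x : Fin 24 → ℤ | x ⬝ᵥ (B *ᵥ x) = 4}.ncard = 196560) (h6 : {x : Fin 24 → ℤ | x ⬝ᵥ (B *ᵥ x) = 6}.ncard = 16773120) (h8 : {x : Fin 24 → ℤ | x ⬝ᵥ (B *ᵥ x) = 8}.ncard = 398034000) (x : Fin 24 → ℤ) (hx : x ⬝ᵥ (B *ᵥ x) = 8) : {y : Fin 24 → ℤ | y ⬝ᵥ (B *ᵥ y) = 8 ∧ ∀ i, (2 : ℤ) ∣ (x - y) i}.ncard = 48 := by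
  let ip : (Fin 24 → ℤ) →+ (Fin 24 → ℤ) →+ ℤ :=
    AddMonoidHom.mk' (fun a => AddMonoidHom.mk' (fun b => a ⬝ᵥ (B *ᵥ b)) fun p q => by
      rw [Matrix.mulVec_add, dotProduct_add]) fun a b => AddMonoidHom.ext fun y => by
      show (a + b) ⬝ᵥ (B *ᵥ y) = a ⬝ᵥ (B *ᵥ y) + b ⬝ᵥ (B *ᵥ y)
      exact add_dotProduct _ _ _
  let D : ModTwoData (Fin 24 → ℤ) (Fin 24) ((⊤ : AddSubgroup (Fin 24 → ℤ)).map (nsmulAddMonoidHom 2)) :=
    { u := 1
      ip := ip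
      symm := fun a b => by
        show a ⬝ᵥ (B *ᵥ b) = b ⬝ᵥ (B *ᵥ a)
        rw [Matrix.dotProduct_mulVec, ← Matrix.mulVec_transpose, hsymm.eq, dotProduct_comm]
      upos := one_pos
      emb := AddMonoidHom.id _
      emb_inj := fun _ _ h => h
      rank := Fintype.card_fin 24
      sub := fun a => by simp [eq_comm]
      index := by
        rw [← AddSubgroup.relIndex_top_right, relIndex_doubles _ (by simp), Fintype.card_fin]
        norm_num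
      min := fun a ha => by
        show 4 * 1 ≤ a ⬝ᵥ (B *ᵥ a)
        have := hpos a ha
        have := heven a
        have := h2 a
        omega
      c4 := h4
      c6 := h6
      c8 := h8 }
  have h := D.main.2 x hx
  rw [← h]
  refine congrArg Set.ncard (Set.ext fun y => ?_)
  show _ ↔ y ⬝ᵥ (B *ᵥ y) = 8 * 1 ∧ ∃ z, x - y = 2 • z
  refine and_congr (by norm_num) ⟨fun h => ⟨fun i => (x - y) i / 2, funext fun i => ?_⟩, ?_⟩
  · have := h i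
    simp only [Pi.sub_apply, Pi.smul_apply, nsmul_eq_mul] at this ⊢
    push_cast
    omega
  · rintro ⟨z, hz⟩ i
    rw [hz]
    exact ⟨z i, by simp⟩

end Cfsg.Agent.S1588
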