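import Cfsg.Statements.S1591
import Cfsg.Agent.Golay.Ternary

set_option autoImplicit false
open Cfsg

namespace Cfsg.Agent.S1591

/-- Any two words of the length-12 ternary code have dot product zero. -/
theorem result (x y : Cfsg.ArrayPt → ZMod 3) (hx : x ∈ Cfsg.ternaryGolayCode) (hy : y ∈ Cfsg.ternaryGolayCode) : ∑ p, x p * y p = 0 := by
  rw [Cfsg.Agent.Golay.ternary_eq_tComb hx, Cfsg.Agent.Golay.ternary_eq_tComb hy]
  have hsingle : ∀ (f : Fin 6 → ZMod 3) p, Cfsg.Agent.Golay.tComb f p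
      = ∑ i, f i * Cfsg.Agent.Golay.tComb (Pi.single i 1) p := by
    intro f p
    simp [Cfsg.Agent.Golay.tComb, Pi.single_apply]
  simp only [hsingle (fun i => x _), hsingle (fun i => y _), Finset.sum_mul, Finset.mul_sum]
  rw [Finset.sum_comm]
  refine Finset.sum_eq_zero fun i _ => ?_
  rw [Finset.sum_comm]
  refine Finset.sum_eq_zero fun j _ => ?_
  simp only [mul_mul_mul_comm, ← Finset.mul_sum, Cfsg.Agent.Golay.tRows_orth, mul_zero]

end Cfsg.Agent.S1591
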