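import Cfsg.Statements.S1595
import Cfsg.Agent.Golay.Steiner

set_option autoImplicit false
open Cfsg

namespace Cfsg.Agent.S1595

/-- Leech triangle of S(5, 6, 12): blocks meet in 0, 2, 3 or 4 points, and a block is met exactly in a given 2-, 3- or 4-subset by 3, 2, 3 blocks respectively. -/
theorem result {α : Type*} [Fintype α] [DecidableEq α] (hα : Fintype.card α = 12) {B : Set (Finset α)} (hB : Cfsg.IsSteinerSystem 5 6 B) (b : Finset α) (hb : b ∈ B) : (∀ c ∈ B, c ≠ b → (b ∩ c).card = 0 ∨ (b ∩ c).card = 2 ∨ (b ∩ c).card = 3 ∨ (b ∩ c).card = 4) ∧ ∀ s ⊆ b, (s.card = 2 → {c : Finset α | c ∈ B ∧ b ∩ c = s}.ncard = 3) ∧ (s.card = 3 → {c : Finset α | c ∈ B ∧ b ∩ c = s}.ncard = 2) ∧ (s.card = 4 → {c : Finset α | c ∈ B ∧ b ∩ c = s}.ncard = 3) := by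
  obtain ⟨-, h1, -, -, -⟩ := Cfsg.Agent.Golay.block_dist_12 hα hB hb
  refine ⟨fun c hc hcb => ?_, fun s hs => ?_⟩
  · have hlt : (b ∩ c).card < 5 := by
      by_contra h
      exact hcb (Cfsg.Agent.Golay.block_eq_of_card_inter hB hb hc (not_lt.1 h)).symm
    have hne : (b ∩ c).card ≠ 1 := fun e =>
      absurd (Cfsg.Agent.Golay.interCount_pos_iff.2 ⟨c, hc, by rw [Finset.inter_comm, e]⟩ : 0 < Cfsg.Agent.Golay.interCount B b 1)
        (by omega)
    omega
  simp only [← Cfsg.Agent.Golay.exactCount_ncard]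
  have hlarge : ∀ s' : Finset α, s' ⊆ b → 5 ≤ s'.card →
      Cfsg.Agent.Golay.exactCount B b s' = if s'.card = 6 then 1 else 0 :=
    fun s' h h' => Cfsg.Agent.Golay.exactCount_large hB hb h h'
  have h4 : ∀ s' : Finset α, s' ⊆ b → s'.card = 4 → Cfsg.Agent.Golay.exactCount B b s' = 3 := by
    intro s' h hc
    have := Cfsg.Agent.Golay.exactCount_add hB hb h (fun n => if n = 6 then 1 else 0)
      (fun s'' hss hb'' => hlarge s'' hb'' (by have := Finset.card_lt_card hss; omega))
      (L := 4) (by rw [hα, hc]; decide +kernel) (by omega) (by norm_num)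
    simp [hc, Finset.sum_range_succ, Nat.choose_succ_succ] at this
    omega
  have h3 : ∀ s' : Finset α, s' ⊆ b → s'.card = 3 → Cfsg.Agent.Golay.exactCount B b s' = 2 := by
    intro s' h hc
    have := Cfsg.Agent.Golay.exactCount_add hB hb h (fun n => if n = 6 then 1 else if n = 4 then 3 else 0)
      (fun s'' hss hb'' => by
        have h34 := Finset.card_lt_card hss
        by_cases e : s''.card = 4
        · simp [e, h4 s'' hb'' e]
        · simp [e, hlarge s'' hb'' (by omega)])
      (L := 12) (by rw [hα, hc]; decide +kernel) (by omega) (by norm_num)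
    simp [hc, Finset.sum_range_succ, Nat.choose_succ_succ] at this
    omega
  have h2 : ∀ s' : Finset α, s' ⊆ b → s'.card = 2 → Cfsg.Agent.Golay.exactCount B b s' = 3 := by
    intro s' h hc
    have := Cfsg.Agent.Golay.exactCount_add hB hb h
      (fun n => if n = 6 then 1 else if n = 4 then 3 else if n = 3 then 2 else 0)
      (fun s'' hss hb'' => by
        have h34 := Finset.card_lt_card hss
        by_cases e : s''.card = 4
        · simp [e, h4 s'' hb'' e]
        · by_cases e' : s''.card = 3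
          · simp [e', h3 s'' hb'' e']
          · simp [e, e', hlarge s'' hb'' (by omega)])
      (L := 30) (by rw [hα, hc]; decide +kernel) (by omega) (by norm_num)
    simp [hc, Finset.sum_range_succ, Nat.choose_succ_succ] at this
    omega
  exact ⟨h2 s hs, h3 s hs, h4 s hs⟩

end Cfsg.Agent.S1595
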