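import Cfsg.Statements.S1600
import Cfsg.Agent.Golay.DodStab

set_option autoImplicit false
open scoped Pointwise
open Cfsg

namespace Cfsg.Agent.S1600

/-- The pointwise stabiliser of three points of a dodecad inside the dodecad stabiliser (order 72) is transitive on the complementary dodecad. -/
theorem result (d : Finset Cfsg.GolayPt) (hd : d ∈ Cfsg.dodecads) (p q r : Cfsg.GolayPt) (hp : p ∈ d) (hq : q ∈ d) (hr : r ∈ d) (hpq : p ≠ q) (hpr : p ≠ r) (hqr : q ≠ r) : Nat.card ↥(MulAction.stabilizer Cfsg.M24 d ⊓ MulAction.stabilizer Cfsg.M24 p ⊓ MulAction.stabilizer Cfsg.M24 q ⊓ MulAction.stabilizer Cfsg.M24 r) = 72 ∧ ∀ x ∉ d, ∀ y ∉ d, ∃ g ∈ (MulAction.stabilizer Cfsg.M24 d ⊓ MulAction.stabilizer Cfsg.M24 p ⊓ MulAction.stabilizer Cfsg.M24 q ⊓ MulAction.stabilizer Cfsg.M24 r), ((g : ↥Cfsg.M24) : Equiv.Perm Cfsg.GolayPt) x = y := by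
  refine ⟨?_, fun x hx y hy => ?_⟩
  · rw [← Cfsg.Agent.Golay.dod_three_stab_card hd hp hq hr hpq hpr hqr]
    exact Nat.card_congr
      { toFun := fun g => ⟨g.1.1, ⟨⟨⟨g.1.2, g.2.1.1.1⟩, g.2.1.1.2⟩, g.2.1.2⟩, g.2.2⟩
        invFun := fun g => ⟨⟨g.1, g.2.1.1.1.1⟩, ⟨⟨g.2.1.1.1.2, g.2.1.1.2⟩, g.2.1.2⟩, g.2.2⟩
        left_inv := fun _ => rfl
        right_inv := fun _ => rfl }
  · obtain ⟨g, hg, hgd, h0, h1, h2, e⟩ := Cfsg.Agent.Golay.dod_three_outside hd hp hq hr hpq hpr hqr hx hy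
    exact ⟨⟨g, hg⟩, ⟨⟨⟨hgd, h0⟩, h1⟩, h2⟩, e⟩

end Cfsg.Agent.S1600
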