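import Cfsg.Statements.S1605
import Cfsg.Agent.Golay.StabOrbits

set_option autoImplicit false
open scoped Pointwise
open Cfsg

namespace Cfsg.Agent.S1605

/-- The two-point stabiliser acts on the 176 octads through the first point avoiding the second with rank 3 and subdegrees 1, 70, 105 (intersections 8, 2, 4). -/
theorem result (p q : Cfsg.GolayPt) (hpq : p ≠ q) : {x : Finset Cfsg.GolayPt | (x ∈ Cfsg.octads ∧ p ∈ x ∧ q ∉ x)}.ncard = 176 ∧ (∀ o o' : Finset Cfsg.GolayPt, (o ∈ Cfsg.octads ∧ p ∈ o ∧ q ∉ o) → (o' ∈ Cfsg.octads ∧ p ∈ o' ∧ q ∉ o') → ∃ g : Equiv.Perm Cfsg.GolayPt, g ∈ Cfsg.M24 ∧ g p = p ∧ g q = q ∧ g • o = o') ∧ ∀ o : Finset Cfsg.GolayPt, (o ∈ Cfsg.octads ∧ p ∈ o ∧ q ∉ o) → {x : Finset Cfsg.GolayPt | (x ∈ Cfsg.octads ∧ p ∈ x ∧ q ∉ x) ∧ (o ∩ x).card = 2}.ncard = 70 ∧ {x : Finset Cfsg.GolayPt | (x ∈ Cfsg.octads ∧ p ∈ x ∧ q ∉ x) ∧ (o ∩ x).card = 4}.ncard = 105 ∧ ∀ o' o'' : Finset Cfsg.GolayPt,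 (o' ∈ Cfsg.octads ∧ p ∈ o' ∧ q ∉ o') → (o'' ∈ Cfsg.octads ∧ p ∈ o'' ∧ q ∉ o'') → (o ∩ o').card = (o ∩ o'').card → ∃ g : Equiv.Perm Cfsg.GolayPt, g ∈ Cfsg.M24 ∧ g p = p ∧ g q = q ∧ g • o = o ∧ g • o' = o'' := by
  refine ⟨?_, fun o o' ho ho' => ?_, fun o ho => ?_⟩
  · obtain ⟨c, hc, rfl, rfl⟩ := Cfsg.Agent.Golay.exists_mem_M24_two (p := (none : Cfsg.GolayPt)) (q := some 0) (by simp) hpq
    rw [Cfsg.Agent.Golay.ncard_conj_supports c hc _ (fun n => Cfsg.Agent.Golay.pc n == 8 && (n.testBit 23 && !n.testBit 0))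
      (fun s hs => by
        simp only [Cfsg.octads, Cfsg.wordsOfWeight, Set.mem_ofPred_eq, Finset.card_smul_finset,
          Cfsg.Agent.Golay.mem_conj, and_assoc, hs, Cfsg.Agent.Golay.smul_mem_supports hc hs, true_and,
          Bool.and_eq_true, beq_iff_eq, Bool.not_eq_true', Bool.not_eq_true, Cfsg.Agent.Golay.idx, ZMod.val_zero]
        simp only [Cfsg.Agent.Golay.card_eq_pc_mask])
      (fun s h => h.1.1)]
    decide +kernel
  · obtain ⟨c, hc, rfl, rfl, rfl⟩ := Cfsg.Agent.Golay.std_hep ho.1 ho.2.1 ho.2.2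
    obtain ⟨g, hg, hn, hz, e⟩ := Cfsg.Agent.Golay.hep_conj Cfsg.Agent.Golay.std_mem.2.1 (Cfsg.Agent.Golay.smul_mem_octads (inv_mem hc) ho'.1)
      ⟨Cfsg.Agent.Golay.point_facts.2.2.1, Cfsg.Agent.Golay.point_facts.2.2.2.1⟩
      ⟨by rw [Finset.mem_inv_smul_finset_iff]; exact ho'.2.1,
       by rw [Finset.mem_inv_smul_finset_iff]; exact ho'.2.2⟩
    exact ⟨c * g * c⁻¹, mul_mem (mul_mem hc hg) (inv_mem hc), by simp [hn], by simp [hz],
      by rw [mul_smul, inv_smul_smul, mul_smul, e, smul_inv_smul]⟩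
  · obtain ⟨c, hc, rfl, rfl, rfl⟩ := Cfsg.Agent.Golay.std_hep ho.1 ho.2.1 ho.2.2
    refine ⟨?_, ?_, fun o' o'' ho' ho'' h => ?_⟩
    · rw [Cfsg.Agent.Golay.ncard_conj_supports c hc _
        (fun n => Cfsg.Agent.Golay.pc n == 8 && (n.testBit 23 && (!n.testBit 0 && (Cfsg.Agent.Golay.pc (n &&& Cfsg.Agent.Golay.hepMask) == 2)))) (fun s hs => by
          simp only [Cfsg.octads, Cfsg.dodecads, Cfsg.wordsOfWeight, Set.mem_ofPred_eq, Finset.card_smul_finset,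
            Cfsg.Agent.Golay.card_inter_conj, Cfsg.Agent.Golay.mem_conj, and_assoc, iff_self,  hs, Cfsg.Agent.Golay.smul_mem_supports hc hs, true_and,
            Bool.and_eq_true, beq_iff_eq, Bool.not_eq_true', Bool.not_eq_true, Cfsg.Agent.Golay.idx,
            ZMod.val_zero]
          simp only [Cfsg.Agent.Golay.card_eq_pc_mask])
        (fun s h => h.1.1.1)]
      decide +kernel
    · rw [Cfsg.Agent.Golay.ncard_conj_supports c hc _
        (fun n => Cfsg.Agent.Golay.pc n == 8 && (n.testBit 23 && (!n.testBit 0 && (Cfsg.Agent.Golay.pc (n &&& Cfsg.Agent.Golay.hepMask) == 4)))) (fun s hs => by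
          simp only [Cfsg.octads, Cfsg.dodecads, Cfsg.wordsOfWeight, Set.mem_ofPred_eq, Finset.card_smul_finset,
            Cfsg.Agent.Golay.card_inter_conj, Cfsg.Agent.Golay.mem_conj, and_assoc, iff_self,  hs, Cfsg.Agent.Golay.smul_mem_supports hc hs, true_and,
            Bool.and_eq_true, beq_iff_eq, Bool.not_eq_true', Bool.not_eq_true, Cfsg.Agent.Golay.idx,
            ZMod.val_zero]
          simp only [Cfsg.Agent.Golay.card_eq_pc_mask])
        (fun s h => h.1.1.1)]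
      decide +kernel
    obtain ⟨g, hg, hn, hz, hgo, e⟩ := Cfsg.Agent.Golay.hepO_conj (Cfsg.Agent.Golay.smul_mem_octads (inv_mem hc) ho'.1)
      (Cfsg.Agent.Golay.smul_mem_octads (inv_mem hc) ho''.1)
      ⟨by rw [Finset.mem_inv_smul_finset_iff]; exact ho'.2.1, by rw [Finset.mem_inv_smul_finset_iff]; exact ho'.2.2⟩
      ⟨by rw [Finset.mem_inv_smul_finset_iff]; exact ho''.2.1, by rw [Finset.mem_inv_smul_finset_iff]; exact ho''.2.2⟩ (by
        rwa [← Finset.card_smul_finset c, Finset.smul_finset_inter, smul_inv_smul,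
          ← Finset.card_smul_finset c (Cfsg.Agent.Golay.bset Cfsg.Agent.Golay.hepMask ∩ c⁻¹ • o''), Finset.smul_finset_inter,
          smul_inv_smul])
    exact ⟨c * g * c⁻¹, mul_mem (mul_mem hc hg) (inv_mem hc), by simp [hn], by simp [hz],
      by rw [mul_smul, inv_smul_smul, mul_smul, hgo], by rw [mul_smul, mul_smul, e, smul_inv_smul]⟩

end Cfsg.Agent.S1605
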