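import Cfsg.Statements.S1607
import Cfsg.Agent.Golay.StabOrbits

set_option autoImplicit false
open scoped Pointwise
open Cfsg

namespace Cfsg.Agent.S1607

/-- The point stabiliser acts on the 253 heptads of its S(4, 7, 23) with rank 3 and subdegrees 1, 112, 140 (intersections 8, 2, 4). -/
theorem result (x : Cfsg.GolayPt) (o : Finset Cfsg.GolayPt) (ho : o ∈ Cfsg.octads) (hx : x ∈ o) : {o' : Finset Cfsg.GolayPt | o' ∈ Cfsg.octads ∧ x ∈ o' ∧ (o ∩ o').card = 2}.ncard = 112 ∧ {o' : Finset Cfsg.GolayPt | o' ∈ Cfsg.octads ∧ x ∈ o' ∧ (o ∩ o').card = 4}.ncard = 140 ∧ ∀ o' o'' : Finset Cfsg.GolayPt, o' ∈ Cfsg.octads → o'' ∈ Cfsg.octads → x ∈ o' → x ∈ o'' → (o ∩ o').card = (o ∩ o'').card → ∃ g : Equiv.Perm Cfsg.GolayPt, g ∈ Cfsg.M24 ∧ g x = x ∧ g • o = o ∧ g • o' = o'' := by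
  obtain ⟨c, hc, rfl, rfl⟩ := Cfsg.Agent.Golay.std_octad_one ho hx
  refine ⟨?_, ?_, fun o' o'' ho' ho'' hx' hx'' h => ?_⟩
  · rw [Cfsg.Agent.Golay.ncard_conj_supports c hc _
      (fun n => Cfsg.Agent.Golay.pc n == 8 && (n.testBit 23 && (Cfsg.Agent.Golay.pc (n &&& Cfsg.Agent.Golay.octMask) == 2))) (fun s hs => by
        simp only [Cfsg.octads, Cfsg.dodecads, Cfsg.wordsOfWeight, Set.mem_ofPred_eq, Finset.card_smul_finset,
          Cfsg.Agent.Golay.card_inter_conj, Cfsg.Agent.Golay.mem_conj, and_assoc, iff_self,  hs, Cfsg.Agent.Golay.smul_mem_supports hc hs, true_and,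
          Bool.and_eq_true, beq_iff_eq, Bool.not_eq_true', Bool.not_eq_true, Cfsg.Agent.Golay.idx,
          ZMod.val_zero]
        simp only [Cfsg.Agent.Golay.card_eq_pc_mask])
      (fun s h => h.1.1)]
    decide +kernel
  · rw [Cfsg.Agent.Golay.ncard_conj_supports c hc _
      (fun n => Cfsg.Agent.Golay.pc n == 8 && (n.testBit 23 && (Cfsg.Agent.Golay.pc (n &&& Cfsg.Agent.Golay.octMask) == 4))) (fun s hs => by
        simp only [Cfsg.octads, Cfsg.dodecads, Cfsg.wordsOfWeight, Set.mem_ofPred_eq, Finset.card_smul_finset,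
          Cfsg.Agent.Golay.card_inter_conj, Cfsg.Agent.Golay.mem_conj, and_assoc, iff_self,  hs, Cfsg.Agent.Golay.smul_mem_supports hc hs, true_and,
          Bool.and_eq_true, beq_iff_eq, Bool.not_eq_true', Bool.not_eq_true, Cfsg.Agent.Golay.idx,
          ZMod.val_zero]
        simp only [Cfsg.Agent.Golay.card_eq_pc_mask])
      (fun s h => h.1.1)]
    decide +kernel
  obtain ⟨g, hg, hn, hgo, e⟩ := Cfsg.Agent.Golay.m23o_conj (Cfsg.Agent.Golay.smul_mem_octads (inv_mem hc) ho')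
    (Cfsg.Agent.Golay.smul_mem_octads (inv_mem hc) ho'') (by rwa [Finset.mem_inv_smul_finset_iff])
    (by rwa [Finset.mem_inv_smul_finset_iff]) (by
      rwa [← Finset.card_smul_finset c, Finset.smul_finset_inter, smul_inv_smul,
        ← Finset.card_smul_finset c (Cfsg.Agent.Golay.bset Cfsg.Agent.Golay.octMask ∩ c⁻¹ • o''), Finset.smul_finset_inter,
        smul_inv_smul])
  exact ⟨c * g * c⁻¹, mul_mem (mul_mem hc hg) (inv_mem hc), by simp [hn],
    by rw [mul_smul, inv_smul_smul, mul_smul, hgo], by rw [mul_smul, mul_smul, e, smul_inv_smul]⟩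

end Cfsg.Agent.S1607
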