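import Cfsg.Statements.S1610
import Cfsg.Agent.Golay.Hexacode

set_option autoImplicit false
open Cfsg

namespace Cfsg.Agent.S1610

/-- The hexacode has 64 words, minimum weight 4, and weight distribution 0^1 4^45 6^18. -/
theorem result (F : Type*) [Field F] [Fintype F] [DecidableEq F] (hF : Fintype.card F = 4) (ω : F) (hω : ω ^ 2 + ω + 1 = 0) : Nat.card ↥(Cfsg.hexacode F ω) = 64 ∧ (∀ x ∈ Cfsg.hexacode F ω, x ≠ 0 → (Finset.univ.filter fun i => x i ≠ 0).card = 4 ∨ (Finset.univ.filter fun i => x i ≠ 0).card = 6) ∧ {x : Fin 6 → F | x ∈ Cfsg.hexacode F ω ∧ (Finset.univ.filter fun i => x i ≠ 0).card = 4}.ncard = 45 ∧ {x : Fin 6 → F | x ∈ Cfsg.hexacode F ω ∧ (Finset.univ.filter fun i => x i ≠ 0).card = 6}.ncard = 18 := by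
  have hr := Cfsg.Agent.Golay.hexacode_eq_range hF hω
  have hinj := Cfsg.Agent.Golay.hexWordF_injective hF hω
  have hcount : ∀ n : ℕ, {x : Fin 6 → F | x ∈ Cfsg.hexacode F ω ∧
      (Finset.univ.filter fun i => x i ≠ 0).card = n}.ncard
      = (Finset.univ.filter fun t : Fin 4 × Fin 4 × Fin 4 =>
          (Finset.univ.filter fun i => Cfsg.Agent.Golay.hexWord t.1 t.2.1 t.2.2 i ≠ 0).card = n).card := by
    intro n
    rw [← Set.ncard_coe_finset, ← Set.ncard_image_of_injective _ hinj]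
    congr 1
    ext x
    simp only [← SetLike.mem_coe, hr, Set.mem_range, Set.mem_ofPred_eq, Finset.coe_filter, Set.mem_image,
      Finset.mem_univ, true_and]
    constructor
    · rintro ⟨⟨t, rfl⟩, h⟩
      rw [Cfsg.Agent.Golay.hexWordF_support hF hω] at h
      exact ⟨t, ⟨Finset.mem_coe.2 (Finset.mem_univ t), h⟩, rfl⟩
    · rintro ⟨t, ⟨-, h⟩, rfl⟩
      rw [Cfsg.Agent.Golay.hexWordF_support hF hω]
      exact ⟨⟨t, rfl⟩, h⟩
  refine ⟨?_, fun x hx h0 => ?_, ?_, ?_⟩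
  · rw [← SetLike.coe_sort_coe, hr, Nat.card_range_of_injective hinj]
    simp
  · rw [← SetLike.mem_coe, hr] at hx
    obtain ⟨t, rfl⟩ := hx
    rw [Cfsg.Agent.Golay.hexWordF_support hF hω]
    refine Cfsg.Agent.Golay.hexWord_weights t fun e => h0 ?_
    subst e
    funext i
    exact congrArg (Cfsg.Agent.Golay.q4 ω) ((by decide +kernel : ∀ i, Cfsg.Agent.Golay.hexWord 0 0 0 i = 0) i)
  · rw [hcount, Cfsg.Agent.Golay.hexWord_count 4 (Or.inl rfl)]; rfl
  · rw [hcount, Cfsg.Agent.Golay.hexWord_count 6 (Or.inr rfl)]; rfl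

end Cfsg.Agent.S1610
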