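import Cfsg.Statements.S1620
import Cfsg.Agent.FGS2.J2.Simple
-- import your own Cfsg.Agent.* helpers here

set_option autoImplicit false
open Quaternion
open Cfsg

namespace Cfsg.Agent.S1620

/-- The Hall–Janko group is simple and non-abelian. -/
theorem result : IsSimpleGroup Cfsg.Spor.J2 ∧ ∃ a b : Cfsg.Spor.J2, a * b ≠ b * a := by
  exact ⟨FGS2.J2.simple_J2, FGS2.J2.not_comm⟩

end Cfsg.Agent.S1620
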