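import Cfsg.Statements.S1635
import Cfsg.Agent.Golay.CodeFacts

set_option autoImplicit false
open Cfsg

namespace Cfsg.Agent.S1635

/-- Coset leaders of the length-24 code: a coset contains a unique word of weight ≤ 3, or else exactly six words of weight 4 and none lighter. -/
theorem result (w : Cfsg.GolayPt → ZMod 2) : ({v : Cfsg.GolayPt → ZMod 2 | hammingNorm v ≤ 4 ∧ w - v ∈ Cfsg.golayCode}.ncard = 1 ∧ ∃ v : Cfsg.GolayPt → ZMod 2, hammingNorm v ≤ 3 ∧ w - v ∈ Cfsg.golayCode) ∨ ({v : Cfsg.GolayPt → ZMod 2 | hammingNorm v ≤ 4 ∧ w - v ∈ Cfsg.golayCode}.ncard = 6 ∧ ∀ v : Cfsg.GolayPt → ZMod 2, w - v ∈ Cfsg.golayCode → hammingNorm v ≤ 4 → hammingNorm v = 4) := by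
  obtain ⟨t, ht4, ht⟩ := Cfsg.Agent.Golay.exists_small_congr (Cfsg.support₂ w)
  have key : ∀ v : Cfsg.GolayPt → ZMod 2, w - v ∈ Cfsg.golayCode ↔
      symmDiff (Cfsg.support₂ v) t ∈ Cfsg.supports (Cfsg.golayCode : Set (Cfsg.GolayPt → ZMod 2)) := by
    intro v
    rw [ZModModule.sub_eq_add, Cfsg.Agent.Golay.mem_golayCode_iff, Cfsg.Agent.Golay.wmask_add]
    have e1 : ∀ a b : ℕ, a < 2 ^ 24 → b < 2 ^ 24 → (Cfsg.Agent.Golay.inC (a ^^^ b) = true ↔
        symmDiff (Cfsg.Agent.Golay.bset a) (Cfsg.Agent.Golay.bset b) ∈ Cfsg.supports (Cfsg.golayCode : Set (Cfsg.GolayPt → ZMod 2))) := by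
      intro a b ha hb
      rw [← Cfsg.Agent.Golay.bset_xor, Cfsg.Agent.Golay.mem_supports_iff, Cfsg.Agent.Golay.mask_bset (Nat.xor_lt_two_pow ha hb)]
    rw [e1 _ _ (Cfsg.Agent.Golay.wmask_lt w) (Cfsg.Agent.Golay.wmask_lt v)]
    simp only [Cfsg.Agent.Golay.wmask, Cfsg.Agent.Golay.bset_mask]
    constructor
    · intro h
      have := Cfsg.Agent.Golay.symmDiff_mem_supports h ht
      rwa [symmDiff_symmDiff_symmDiff_comm, symmDiff_self, bot_symmDiff] at this
    · intro h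
      have := Cfsg.Agent.Golay.symmDiff_mem_supports ht h
      rwa [symmDiff_comm (Cfsg.support₂ v) t, ← symmDiff_assoc, symmDiff_symmDiff_cancel_right] at this
  have hinj : ∀ v v' : Cfsg.GolayPt → ZMod 2, Cfsg.support₂ v = Cfsg.support₂ v' → v = v' := by
    intro v v' h
    rw [← Cfsg.Agent.Golay.wordOf_wmask v, ← Cfsg.Agent.Golay.wordOf_wmask v', Cfsg.Agent.Golay.wmask, Cfsg.Agent.Golay.wmask, h]
  have hself : Cfsg.support₂ (Cfsg.Agent.Golay.wordOf (Cfsg.Agent.Golay.mask t)) = t := by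
    rw [Cfsg.Agent.Golay.support₂_wordOf, Cfsg.Agent.Golay.bset_mask]
  rcases lt_or_eq_of_le ht4 with h3 | h4
  · left
    have hv : ∀ v, hammingNorm v ≤ 4 → w - v ∈ Cfsg.golayCode → v = Cfsg.Agent.Golay.wordOf (Cfsg.Agent.Golay.mask t) := by
      intro v hv hw
      rw [Cfsg.Agent.Golay.hammingNorm_eq_card_support] at hv
      apply hinj
      rw [hself]
      exact (Cfsg.Agent.Golay.congr_small hv ht4 ((key v).1 hw)).resolve_right (fun h => by omega)
    have hmem : w - Cfsg.Agent.Golay.wordOf (Cfsg.Agent.Golay.mask t) ∈ Cfsg.golayCode := by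
      rw [key, hself, symmDiff_self]; exact Cfsg.Agent.Golay.empty_mem_supports
    have hn : hammingNorm (Cfsg.Agent.Golay.wordOf (Cfsg.Agent.Golay.mask t)) = t.card := by
      rw [Cfsg.Agent.Golay.hammingNorm_eq_card_support, hself]
    refine ⟨Set.ncard_eq_one.2 ⟨Cfsg.Agent.Golay.wordOf (Cfsg.Agent.Golay.mask t), ?_⟩, Cfsg.Agent.Golay.wordOf (Cfsg.Agent.Golay.mask t), ?_, hmem⟩
    · ext v
      exact ⟨fun h => hv v h.1 h.2, fun h => by subst h; exact ⟨hn ▸ ht4, hmem⟩⟩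
    · omega
  · right
    constructor
    · rw [← Cfsg.Agent.Golay.partners_card h4, ← Set.ncard_coe_finset]
      refine Set.ncard_congr (fun v _ => Cfsg.support₂ v) ?_ (fun v v' _ _ h => hinj v v' h) ?_
      · rintro v ⟨hv, hw⟩
        rw [Cfsg.Agent.Golay.hammingNorm_eq_card_support] at hv
        rw [Finset.mem_coe, Cfsg.Agent.Golay.mem_partners, symmDiff_comm]
        rcases Cfsg.Agent.Golay.congr_small hv ht4 ((key v).1 hw) with e | e
        · rw [e]; exact ⟨h4, e ▸ (key v).1 hw⟩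
        · exact ⟨e.1, (key v).1 hw⟩
      · intro u hu
        rw [Finset.mem_coe, Cfsg.Agent.Golay.mem_partners] at hu
        have hu' : Cfsg.support₂ (Cfsg.Agent.Golay.wordOf (Cfsg.Agent.Golay.mask u)) = u := by
          rw [Cfsg.Agent.Golay.support₂_wordOf, Cfsg.Agent.Golay.bset_mask]
        refine ⟨Cfsg.Agent.Golay.wordOf (Cfsg.Agent.Golay.mask u), ⟨?_, ?_⟩, hu'⟩
        · rw [Cfsg.Agent.Golay.hammingNorm_eq_card_support, hu', hu.1]
        · rw [key, hu', symmDiff_comm]; exact hu.2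
    · intro v hw hv
      rw [Cfsg.Agent.Golay.hammingNorm_eq_card_support] at hv ⊢
      rcases Cfsg.Agent.Golay.congr_small hv ht4 ((key v).1 hw) with e | e
      · rw [e, h4]
      · exact e.1

end Cfsg.Agent.S1635
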