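import Cfsg.Statements.S1636
import Cfsg.Agent.Golay.CodeFacts

set_option autoImplicit false
open Cfsg

namespace Cfsg.Agent.S1636

/-- The punctured length-23 code has weight distribution 0^1 7^253 8^506 11^1288 12^1288 15^506 16^253 23^1. -/
theorem result : {u : ZMod 23 → ZMod 2 | ∃ w ∈ Cfsg.golayCode, ∀ x : ZMod 23, u x = w (some x)}.ncard = 4096 ∧ {u : ZMod 23 → ZMod 2 | u ∈ {u : ZMod 23 → ZMod 2 | ∃ w ∈ Cfsg.golayCode, ∀ x : ZMod 23, u x = w (some x)} ∧ hammingNorm u = 7}.ncard = 253 ∧ {u : ZMod 23 → ZMod 2 | u ∈ {u : ZMod 23 → ZMod 2 | ∃ w ∈ Cfsg.golayCode, ∀ x : ZMod 23, u x = w (some x)} ∧ hammingNorm u = 8}.ncard = 506 ∧ {u : ZMod 23 → ZMod 2 | u ∈ {u : ZMod 23 → ZMod 2 | ∃ w ∈ Cfsg.golayCode, ∀ x : ZMod 23, u x = w (some x)} ∧ hammingNorm u = 11}.ncard = 1288 ∧ {u : ZMod 23 → ZMod 2 | u ∈ {u : ZMod 23 → ZMod 2 | ∃ w ∈ Cfsg.golayCode, ∀ x : ZMod 23, u x = w (some x)} ∧ hammingNorm u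 = 12}.ncard = 1288 ∧ {u : ZMod 23 → ZMod 2 | u ∈ {u : ZMod 23 → ZMod 2 | ∃ w ∈ Cfsg.golayCode, ∀ x : ZMod 23, u x = w (some x)} ∧ hammingNorm u = 15}.ncard = 506 ∧ {u : ZMod 23 → ZMod 2 | u ∈ {u : ZMod 23 → ZMod 2 | ∃ w ∈ Cfsg.golayCode, ∀ x : ZMod 23, u x = w (some x)} ∧ hammingNorm u = 16}.ncard = 253 ∧ ∀ u ∈ {u : ZMod 23 → ZMod 2 | ∃ w ∈ Cfsg.golayCode, ∀ x : ZMod 23, u x = w (some x)}, u ≠ 0 → 7 ≤ hammingNorm u := by
  set U := {u : ZMod 23 → ZMod 2 | ∃ w ∈ Cfsg.golayCode, ∀ x : ZMod 23, u x = w (some x)} with hU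
  have hmap : U = (fun w x => w (some x)) '' (Cfsg.golayCode : Set (Cfsg.GolayPt → ZMod 2)) := by
    ext u
    exact ⟨fun ⟨w, hw, h⟩ => ⟨w, hw, funext fun x => (h x).symm⟩,
      fun ⟨w, hw, h⟩ => ⟨w, hw, fun x => h ▸ rfl⟩⟩
  have hres : ∀ w : Cfsg.GolayPt → ZMod 2,
      hammingNorm (fun x : ZMod 23 => w (some x)) = Cfsg.Agent.Golay.pc (Cfsg.Agent.Golay.wmask w &&& 8388607) := by
    intro w
    rw [← Cfsg.Agent.Golay.card_bset, Cfsg.Agent.Golay.bset_and, Cfsg.Agent.Golay.wmask, Cfsg.Agent.Golay.bset_mask, hammingNorm]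
    have e : Cfsg.Agent.Golay.bset 8388607 = Finset.univ.map ⟨some, Option.some_injective _⟩ := by decide +kernel
    rw [e, ← Finset.card_map ⟨some, Option.some_injective _⟩]
    congr 1
    ext p
    simp only [Finset.mem_map, Finset.mem_filter, Finset.mem_univ, true_and, Finset.mem_inter,
      Cfsg.support₂, Function.Embedding.coeFn_mk]
    constructor
    · rintro ⟨x, hx, rfl⟩; exact ⟨hx, x, rfl⟩
    · rintro ⟨hp, x, rfl⟩; exact ⟨x, hp, rfl⟩
  have hmin : ∀ w ∈ Cfsg.golayCode, Cfsg.Agent.Golay.pc (Cfsg.Agent.Golay.wmask w &&& 8388607) = 0 ∨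
      7 ≤ Cfsg.Agent.Golay.pc (Cfsg.Agent.Golay.wmask w &&& 8388607) := by
    intro w hw
    have h := Cfsg.Agent.Golay.forall_code (fun n => Cfsg.Agent.Golay.pc (n &&& 8388607) == 0 || decide (7 ≤ Cfsg.Agent.Golay.pc (n &&& 8388607)))
      (by decide +kernel) (Cfsg.Agent.Golay.mem_golayCode_iff.1 hw)
    simpa using h
  have hinj : Set.InjOn (fun (w : Cfsg.GolayPt → ZMod 2) (x : ZMod 23) => w (some x))
      (Cfsg.golayCode : Set (Cfsg.GolayPt → ZMod 2)) := by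
    intro v hv w hw e
    have h0 : hammingNorm (fun x : ZMod 23 => (v + w) (some x)) = 0 := by
      rw [hammingNorm_eq_zero]
      funext x
      simp only [Pi.add_apply, Pi.zero_apply, show v (some x) = w (some x) from congrFun e x]
      exact CharTwo.add_self_eq_zero _
    have h := Cfsg.Agent.Golay.forall_code (fun n => !(Cfsg.Agent.Golay.pc (n &&& 8388607) == 0) || Cfsg.Agent.Golay.pc n == 0) (by decide +kernel)
      (Cfsg.Agent.Golay.mem_golayCode_iff.1 (add_mem hv hw))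
    rw [hres] at h0
    simp only [h0, beq_self_eq_true, Bool.not_true, Bool.false_or, beq_iff_eq] at h
    rw [← Cfsg.Agent.Golay.hammingNorm_wordOf, Cfsg.Agent.Golay.wordOf_wmask, hammingNorm_eq_zero] at h
    exact (eq_neg_of_add_eq_zero_left h).trans (ZModModule.neg_eq_self w)
  have hcount : ∀ k : ℕ, {u : ZMod 23 → ZMod 2 | u ∈ U ∧ hammingNorm u = k}.ncard
      = Cfsg.Agent.Golay.countB (fun i => Cfsg.Agent.Golay.pc (Cfsg.Agent.Golay.encode i &&& 8388607) == k) 12 0 := by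
    intro k
    rw [← Cfsg.Agent.Golay.ncard_supports_filter (fun n => Cfsg.Agent.Golay.pc (n &&& 8388607) == k)
      (Cfsg.support₂ '' {w | w ∈ Cfsg.golayCode ∧ hammingNorm (fun x : ZMod 23 => w (some x)) = k})]
    · rw [Set.ncard_image_of_injective _ (fun v w h => by
        rw [← Cfsg.Agent.Golay.wordOf_wmask v, ← Cfsg.Agent.Golay.wordOf_wmask w, Cfsg.Agent.Golay.wmask, Cfsg.Agent.Golay.wmask, h])]
      rw [← Set.InjOn.ncard_image (hinj.mono (fun w hw => hw.1))]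
      congr 1
      ext u
      simp only [hmap, Set.mem_image, Set.mem_ofPred_eq, SetLike.mem_coe]
      constructor
      · rintro ⟨⟨w, hw, rfl⟩, h⟩; exact ⟨w, ⟨hw, h⟩, rfl⟩
      · rintro ⟨w, ⟨hw, h⟩, rfl⟩; exact ⟨⟨w, hw, rfl⟩, h⟩
    · intro s
      simp only [Set.mem_image, Set.mem_ofPred_eq, hres, beq_iff_eq]
      constructor
      · rintro ⟨w, ⟨hw, h⟩, rfl⟩; exact ⟨Cfsg.Agent.Golay.mem_golayCode_iff.1 hw, h⟩
      · rintro ⟨h, h'⟩
        refine ⟨Cfsg.Agent.Golay.wordOf (Cfsg.Agent.Golay.mask s), ⟨Cfsg.Agent.Golay.wordOf_mem h, ?_⟩, ?_⟩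
        · rwa [Cfsg.Agent.Golay.wmask_wordOf (Cfsg.Agent.Golay.mask_lt s)]
        · rw [Cfsg.Agent.Golay.support₂_wordOf, Cfsg.Agent.Golay.bset_mask]
  refine ⟨?_, ?_, ?_, ?_, ?_, ?_, ?_, ?_⟩
  · rw [hmap, Set.InjOn.ncard_image hinj, ← Cfsg.Agent.Golay.golayCode_card]; exact (Nat.card_coe_set_eq _).symm
  · rw [hcount]; decide +kernel
  · rw [hcount]; decide +kernel
  · rw [hcount]; decide +kernel
  · rw [hcount]; decide +kernel
  · rw [hcount]; decide +kernel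
  · rw [hcount]; decide +kernel
  · intro u hu hu0
    rw [hmap] at hu
    obtain ⟨w, hw, rfl⟩ := hu
    rw [hres]
    refine (hmin w hw).resolve_left fun h => hu0 ?_
    rw [← hammingNorm_eq_zero, hres, h]

end Cfsg.Agent.S1636
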