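import Cfsg.Statements.S1637
import Cfsg.Agent.Golay.CodeFacts

set_option autoImplicit false
open Cfsg

namespace Cfsg.Agent.S1637

/-- The punctured length-23 code is a perfect 3-error-correcting code: each word of length 23 is within distance 3 of exactly one codeword. -/
theorem result (u : ZMod 23 → ZMod 2) : ∃! c : ZMod 23 → ZMod 2, c ∈ {u : ZMod 23 → ZMod 2 | ∃ w ∈ Cfsg.golayCode, ∀ x : ZMod 23, u x = w (some x)} ∧ hammingDist u c ≤ 3 := by
  classical
  have hres : ∀ w : Cfsg.GolayPt → ZMod 2,
      hammingNorm (fun x : ZMod 23 => w (some x)) + (if w none ≠ 0 then 1 else 0) = hammingNorm w := by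
    intro w
    simp only [hammingNorm, Finset.card_filter, Fintype.sum_option]
    exact add_comm _ _
  -- extend the word to even or odd weight so that a leader of weight at most three exists
  let b : ZMod 2 := if Even (hammingNorm u) then 1 else 0
  let w : Cfsg.GolayPt → ZMod 2 := fun p => p.elim b u
  have hwodd : Odd (hammingNorm w) := by
    rw [← hres w]
    show Odd (hammingNorm u + if b ≠ 0 then 1 else 0)
    by_cases h : Even (hammingNorm u)
    · simp only [b, h, if_true]; exact Even.add_odd h odd_one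
    · simp only [b, h, if_false]; simpa using Nat.not_even_iff_odd.1 h
  obtain ⟨t, ht4, ht⟩ := Cfsg.Agent.Golay.exists_small_congr (Cfsg.support₂ w)
  have ht3 : t.card ≤ 3 := by
    have hc := Cfsg.Agent.Golay.card_symmDiff_add (s := Cfsg.support₂ w) (t := t)
    have h8 := Cfsg.Agent.Golay.card_of_mem_supports ht
    rw [Cfsg.Agent.Golay.hammingNorm_eq_card_support] at hwodd
    obtain ⟨k, hk⟩ := hwodd
    omega
  let c0 : Cfsg.GolayPt → ZMod 2 := Cfsg.Agent.Golay.wordOf (Cfsg.Agent.Golay.mask (symmDiff (Cfsg.support₂ w) t))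
  have hc0 : c0 ∈ Cfsg.golayCode := Cfsg.Agent.Golay.wordOf_mem (Cfsg.Agent.Golay.mem_supports_iff.1 ht)
  refine ⟨fun x => c0 (some x), ⟨⟨c0, hc0, fun x => rfl⟩, ?_⟩, ?_⟩
  · rw [hammingDist_eq_hammingNorm]
    refine le_trans ?_ ht3
    have hd : hammingNorm (-u + fun x => c0 (some x))
        ≤ hammingNorm (-w + c0) := by
      rw [← hres (-w + c0)]
      exact Nat.le_add_right _ _
    refine hd.trans (le_of_eq ?_)
    rw [ZModModule.neg_eq_self, Cfsg.Agent.Golay.hammingNorm_eq_card_support]
    congr 1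
    have : w = Cfsg.Agent.Golay.wordOf (Cfsg.Agent.Golay.mask (Cfsg.support₂ w)) := (Cfsg.Agent.Golay.wordOf_wmask w).symm
    conv_lhs => rw [this]
    rw [← Cfsg.Agent.Golay.wordOf_xor, Cfsg.Agent.Golay.support₂_wordOf, Cfsg.Agent.Golay.bset_xor, Cfsg.Agent.Golay.bset_mask, Cfsg.Agent.Golay.bset_mask,
      symmDiff_symmDiff_cancel_left]
  · rintro c ⟨⟨w', hw', hc⟩, hdist⟩
    obtain rfl : c = fun x => w' (some x) := funext hc
    have hmin := Cfsg.Agent.Golay.forall_code
      (fun n => Cfsg.Agent.Golay.pc n == 0 || decide (8 ≤ Cfsg.Agent.Golay.pc n)) (by decide +kernel)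
      (Cfsg.Agent.Golay.mem_golayCode_iff.1 (add_mem hw' hc0))
    rw [Bool.or_eq_true, decide_eq_true_eq, beq_iff_eq, ← Cfsg.Agent.Golay.hammingNorm_wordOf, Cfsg.Agent.Golay.wordOf_wmask] at hmin
    have hd0 : hammingDist u (fun x => c0 (some x)) ≤ 3 := by
      rw [hammingDist_eq_hammingNorm]
      refine le_trans ?_ ht3
      have hd : hammingNorm (-u + fun x => c0 (some x)) ≤ hammingNorm (-w + c0) := by
        rw [← hres (-w + c0)]
        exact Nat.le_add_right _ _
      refine hd.trans (le_of_eq ?_)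
      rw [ZModModule.neg_eq_self, Cfsg.Agent.Golay.hammingNorm_eq_card_support]
      congr 1
      have : w = Cfsg.Agent.Golay.wordOf (Cfsg.Agent.Golay.mask (Cfsg.support₂ w)) := (Cfsg.Agent.Golay.wordOf_wmask w).symm
      conv_lhs => rw [this]
      rw [← Cfsg.Agent.Golay.wordOf_xor, Cfsg.Agent.Golay.support₂_wordOf, Cfsg.Agent.Golay.bset_xor, Cfsg.Agent.Golay.bset_mask, Cfsg.Agent.Golay.bset_mask,
        symmDiff_symmDiff_cancel_left]
    have h6 := (hammingDist_triangle (fun x => w' (some x)) u (fun x => c0 (some x))).trans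
      (add_le_add (hammingDist_comm u _ ▸ hdist) hd0)
    rw [hammingDist_eq_hammingNorm] at h6
    have h7 := hres (w' + c0)
    rcases hmin with h | h
    · rw [hammingNorm_eq_zero] at h
      funext x
      exact congrFun ((eq_neg_of_add_eq_zero_left h).trans (ZModModule.neg_eq_self c0)) (some x)
    · exfalso
      rw [ZModModule.neg_eq_self] at h6
      change hammingNorm (fun x : ZMod 23 => (w' + c0) (some x)) ≤ 3 + 3 at h6
      split_ifs at h7 <;> omega

end Cfsg.Agent.S1637
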