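import Cfsg.Statements.S1681
import Cfsg.Agent.Screen.CosetEnum.PresSuz
import Cfsg.Agent.Screen.CosetEnum.SuzU43.Checked

set_option autoImplicit false
set_option maxRecDepth 20000
open Cfsg

namespace Cfsg.Agent.S1681

/-- In the presented sporadic Suzuki group (generators a, …, g), the subgroup generated by the images of a, b, c, d, f, g has index 22880. -/
theorem result : (((Subgroup.closure ({Cfsg.Spor.Suz.a, Cfsg.Spor.Suz.b, Cfsg.Spor.Suz.c, Cfsg.Spor.Suz.d, Cfsg.Spor.Suz.f, Cfsg.Spor.Suz.g} : Set (FreeGroup Cfsg.Spor.Suz.Gen))).map (PresentedGroup.mk (Cfsg.Spor.coxRelators Cfsg.Spor.Suz.edges ∪ {r | r ∈ Cfsg.Spor.Suz.extra})))).index = 22880 := by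
  obtain ⟨f, hf⟩ := Cfsg.Agent.Screen.CosetEnum.PresSuz.exists_hom Cfsg.Agent.Screen.CosetEnum.SuzU43.checked.perm (fun x => Cfsg.Agent.Screen.CosetEnum.SuzU43.checked.perm_sq x)
    Cfsg.Agent.Screen.CosetEnum.SuzU43.checked.perm_rel
  have hH : ((Subgroup.closure ({Cfsg.Spor.Suz.a, Cfsg.Spor.Suz.b, Cfsg.Spor.Suz.c, Cfsg.Spor.Suz.d, Cfsg.Spor.Suz.f, Cfsg.Spor.Suz.g} : Set (FreeGroup Cfsg.Spor.Suz.Gen))).map
      (PresentedGroup.mk (Cfsg.Spor.coxRelators Cfsg.Spor.Suz.edges ∪ {r | r ∈ Cfsg.Spor.Suz.extra}))) =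
      Subgroup.closure {g | ∃ w ∈ Cfsg.Agent.Screen.CosetEnum.SuzU43.tbl.subs, g = Cfsg.Agent.Screen.CosetEnum.evalW Cfsg.Agent.Screen.CosetEnum.PresSuz.gens w} := by
    rw [MonoidHom.map_closure]
    congr 1
    ext g
    simp only [Cfsg.Agent.Screen.CosetEnum.SuzU43.tbl, List.mem_cons, List.not_mem_nil, or_false, exists_eq_or_imp, exists_eq_left,
      Set.image_insert_eq, Set.image_singleton, Set.mem_insert_iff, Set.mem_singleton_iff, Set.mem_setOf_eq]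
    simp [Cfsg.Agent.Screen.CosetEnum.evalW, Cfsg.Agent.Screen.CosetEnum.PresSuz.gens, PresentedGroup.of, pow_succ, mul_assoc]
  obtain ⟨e, he0, he⟩ := Cfsg.Agent.Screen.CosetEnum.SuzU43.checked.exists_equiv Cfsg.Agent.Screen.CosetEnum.PresSuz.gens Cfsg.Agent.Screen.CosetEnum.PresSuz.gens_sq
    Cfsg.Agent.Screen.CosetEnum.PresSuz.gens_out Cfsg.Agent.Screen.CosetEnum.PresSuz.gens_rels Cfsg.Agent.Screen.CosetEnum.PresSuz.gens_top _ hH f hf
  have hidx : Subgroup.index ((Subgroup.closure ({Cfsg.Spor.Suz.a, Cfsg.Spor.Suz.b, Cfsg.Spor.Suz.c, Cfsg.Spor.Suz.d, Cfsg.Spor.Suz.f, Cfsg.Spor.Suz.g} : Set (FreeGroup Cfsg.Spor.Suz.Gen))).map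
      (PresentedGroup.mk (Cfsg.Spor.coxRelators Cfsg.Spor.Suz.edges ∪ {r | r ∈ Cfsg.Spor.Suz.extra}))) = 22880 :=
    (Nat.card_congr e.symm).trans (Nat.card_fin _)
  exact hidx

end Cfsg.Agent.S1681
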