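import Cfsg.Statements.S1683
import Cfsg.Agent.Screen.CosetEnum.PresHe
import Cfsg.Agent.Screen.CosetEnum.HeS44.Checked
import Cfsg.Agent.Screen.CosetEnum.HeS44.Orbits

set_option autoImplicit false
set_option maxRecDepth 20000
open Cfsg

namespace Cfsg.Agent.S1683

/-- In the presented Held group, let H be the subgroup generated by the images of a, c, d, e, f, (ab)^2 and (bcde)^7. Then H has index 2058, there are four distinct H-orbits on the cosets of H other than H itself, of sizes 136, 136, 425 and 1360. -/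
theorem result : (((Subgroup.closure ({Cfsg.Spor.He.a, Cfsg.Spor.He.c, Cfsg.Spor.He.d, Cfsg.Spor.He.e, Cfsg.Spor.He.f, (Cfsg.Spor.He.a * Cfsg.Spor.He.b) ^ 2, (Cfsg.Spor.He.b * Cfsg.Spor.He.c * Cfsg.Spor.He.d * Cfsg.Spor.He.e) ^ 7} : Set (FreeGroup Cfsg.Spor.He.Gen))).map (PresentedGroup.mk (Cfsg.Spor.coxRelators Cfsg.Spor.He.edges ∪ {r | r ∈ Cfsg.Spor.He.extra})))).index = 2058 ∧ ∃ q₁ q₂ q₃ q₄ : Cfsg.Spor.He ⧸ (((Subgroup.closure ({Cfsg.Spor.He.a, Cfsg.Spor.He.c, Cfsg.Spor.He.d, Cfsg.Spor.He.e, Cfsg.Spor.He.f, (Cfsg.Spor.He.a * Cfsg.Spor.He.b) ^ 2, (Cfsg.Spor.He.b * Cfsg.Spor.He.c * Cfsg.Spor.He.d * Cfsg.Spor.He.e) ^ 7} : Set (FreeGroup Cfsg.Spor.He.Gen))).map (PresentedGroup.mk (Cfsg.Spor.coxRelators Cfsg.Spor.He.edges ∪ {r | r ∈ Cfsg.Spor.He.extra})))), MulAction.orbit (((Subgroup.closure ({Cfsg.Spor.He.a, Cfsg.Spor.He.c,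 Cfsg.Spor.He.d, Cfsg.Spor.He.e, Cfsg.Spor.He.f, (Cfsg.Spor.He.a * Cfsg.Spor.He.b) ^ 2, (Cfsg.Spor.He.b * Cfsg.Spor.He.c * Cfsg.Spor.He.d * Cfsg.Spor.He.e) ^ 7} : Set (FreeGroup Cfsg.Spor.He.Gen))).map (PresentedGroup.mk (Cfsg.Spor.coxRelators Cfsg.Spor.He.edges ∪ {r | r ∈ Cfsg.Spor.He.extra})))) q₁ ≠ MulAction.orbit (((Subgroup.closure ({Cfsg.Spor.He.a, Cfsg.Spor.He.c, Cfsg.Spor.He.d, Cfsg.Spor.He.e, Cfsg.Spor.He.f, (Cfsg.Spor.He.a * Cfsg.Spor.He.b) ^ 2, (Cfsg.Spor.He.b * Cfsg.Spor.He.c * Cfsg.Spor.He.d * Cfsg.Spor.He.e) ^ 7} : Set (FreeGroup Cfsg.Spor.He.Gen))).map (PresentedGroup.mk (Cfsg.Spor.coxRelators Cfsg.Spor.He.edges ∪ {r | r ∈ Cfsg.Spor.He.extra})))) q₂ ∧ (MulAction.orbit (((Subgroup.closure ({Cfsg.Spor.He.a, Cfsg.Spor.He.c, Cfsg.Spor.He.d, Cfsg.Spor.He.e, Cfsg.Spor.He.f, (Cfsg.Spor.He.a * Cfsg.Spor.He.b) ^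 2, (Cfsg.Spor.He.b * Cfsg.Spor.He.c * Cfsg.Spor.He.d * Cfsg.Spor.He.e) ^ 7} : Set (FreeGroup Cfsg.Spor.He.Gen))).map (PresentedGroup.mk (Cfsg.Spor.coxRelators Cfsg.Spor.He.edges ∪ {r | r ∈ Cfsg.Spor.He.extra})))) q₁).ncard = 136 ∧ (MulAction.orbit (((Subgroup.closure ({Cfsg.Spor.He.a, Cfsg.Spor.He.c, Cfsg.Spor.He.d, Cfsg.Spor.He.e, Cfsg.Spor.He.f, (Cfsg.Spor.He.a * Cfsg.Spor.He.b) ^ 2, (Cfsg.Spor.He.b * Cfsg.Spor.He.c * Cfsg.Spor.He.d * Cfsg.Spor.He.e) ^ 7} : Set (FreeGroup Cfsg.Spor.He.Gen))).map (PresentedGroup.mk (Cfsg.Spor.coxRelators Cfsg.Spor.He.edges ∪ {r | r ∈ Cfsg.Spor.He.extra})))) q₂).ncard = 136 ∧ (MulAction.orbit (((Subgroup.closure ({Cfsg.Spor.He.a, Cfsg.Spor.He.c, Cfsg.Spor.He.d, Cfsg.Spor.He.e, Cfsg.Spor.He.f, (Cfsg.Spor.He.a * Cfsg.Spor.He.b) ^ 2, (Cfsg.Spor.He.b * Cfsg.Spor.He.c * Cfsg.Spor.He.d * Cfsg.Spor.He.e)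 ^ 7} : Set (FreeGroup Cfsg.Spor.He.Gen))).map (PresentedGroup.mk (Cfsg.Spor.coxRelators Cfsg.Spor.He.edges ∪ {r | r ∈ Cfsg.Spor.He.extra})))) q₃).ncard = 425 ∧ (MulAction.orbit (((Subgroup.closure ({Cfsg.Spor.He.a, Cfsg.Spor.He.c, Cfsg.Spor.He.d, Cfsg.Spor.He.e, Cfsg.Spor.He.f, (Cfsg.Spor.He.a * Cfsg.Spor.He.b) ^ 2, (Cfsg.Spor.He.b * Cfsg.Spor.He.c * Cfsg.Spor.He.d * Cfsg.Spor.He.e) ^ 7} : Set (FreeGroup Cfsg.Spor.He.Gen))).map (PresentedGroup.mk (Cfsg.Spor.coxRelators Cfsg.Spor.He.edges ∪ {r | r ∈ Cfsg.Spor.He.extra})))) q₄).ncard = 1360 := by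
  obtain ⟨f, hf⟩ := Cfsg.Agent.Screen.CosetEnum.PresHe.exists_hom Cfsg.Agent.Screen.CosetEnum.HeS44.checked.perm (fun x => Cfsg.Agent.Screen.CosetEnum.HeS44.checked.perm_sq x)
    Cfsg.Agent.Screen.CosetEnum.HeS44.checked.perm_rel
  have hH : ((Subgroup.closure ({Cfsg.Spor.He.a, Cfsg.Spor.He.c, Cfsg.Spor.He.d, Cfsg.Spor.He.e, Cfsg.Spor.He.f, (Cfsg.Spor.He.a * Cfsg.Spor.He.b) ^ 2, (Cfsg.Spor.He.b * Cfsg.Spor.He.c * Cfsg.Spor.He.d * Cfsg.Spor.He.e) ^ 7} : Set (FreeGroup Cfsg.Spor.He.Gen))).map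
      (PresentedGroup.mk (Cfsg.Spor.coxRelators Cfsg.Spor.He.edges ∪ {r | r ∈ Cfsg.Spor.He.extra}))) =
      Subgroup.closure {g | ∃ w ∈ Cfsg.Agent.Screen.CosetEnum.HeS44.tbl.subs, g = Cfsg.Agent.Screen.CosetEnum.evalW Cfsg.Agent.Screen.CosetEnum.PresHe.gens w} := by
    rw [MonoidHom.map_closure]
    congr 1
    ext g
    simp only [Cfsg.Agent.Screen.CosetEnum.HeS44.tbl, List.mem_cons, List.not_mem_nil, or_false, exists_eq_or_imp, exists_eq_left,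
      Set.image_insert_eq, Set.image_singleton, Set.mem_insert_iff, Set.mem_singleton_iff, Set.mem_setOf_eq]
    simp [Cfsg.Agent.Screen.CosetEnum.evalW, Cfsg.Agent.Screen.CosetEnum.PresHe.gens, PresentedGroup.of, pow_succ, mul_assoc]
  obtain ⟨e, he0, he⟩ := Cfsg.Agent.Screen.CosetEnum.HeS44.checked.exists_equiv Cfsg.Agent.Screen.CosetEnum.PresHe.gens Cfsg.Agent.Screen.CosetEnum.PresHe.gens_sq
    Cfsg.Agent.Screen.CosetEnum.PresHe.gens_out Cfsg.Agent.Screen.CosetEnum.PresHe.gens_rels Cfsg.Agent.Screen.CosetEnum.PresHe.gens_top _ hH f hf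
  obtain ⟨k0, hk0, hc0, hm0⟩ := Cfsg.Agent.Screen.CosetEnum.HeS44.checked.orbit Cfsg.Agent.Screen.CosetEnum.PresHe.gens hH hf e he
    Cfsg.Agent.Screen.CosetEnum.HeS44.orbit2
  obtain ⟨k1, hk1, hc1, hm1⟩ := Cfsg.Agent.Screen.CosetEnum.HeS44.checked.orbit Cfsg.Agent.Screen.CosetEnum.PresHe.gens hH hf e he
    Cfsg.Agent.Screen.CosetEnum.HeS44.orbit3
  obtain ⟨k2, hk2, hc2, hm2⟩ := Cfsg.Agent.Screen.CosetEnum.HeS44.checked.orbit Cfsg.Agent.Screen.CosetEnum.PresHe.gens hH hf e he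
    Cfsg.Agent.Screen.CosetEnum.HeS44.orbit1
  obtain ⟨k3, hk3, hc3, hm3⟩ := Cfsg.Agent.Screen.CosetEnum.HeS44.checked.orbit Cfsg.Agent.Screen.CosetEnum.PresHe.gens hH hf e he
    Cfsg.Agent.Screen.CosetEnum.HeS44.orbit0
  have hidx : Subgroup.index ((Subgroup.closure ({Cfsg.Spor.He.a, Cfsg.Spor.He.c, Cfsg.Spor.He.d, Cfsg.Spor.He.e, Cfsg.Spor.He.f, (Cfsg.Spor.He.a * Cfsg.Spor.He.b) ^ 2, (Cfsg.Spor.He.b * Cfsg.Spor.He.c * Cfsg.Spor.He.d * Cfsg.Spor.He.e) ^ 7} : Set (FreeGroup Cfsg.Spor.He.Gen))).map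
      (PresentedGroup.mk (Cfsg.Spor.coxRelators Cfsg.Spor.He.edges ∪ {r | r ∈ Cfsg.Spor.He.extra}))) = 2058 :=
    (Nat.card_congr e.symm).trans (Nat.card_fin _)
  refine ⟨hidx, e k0, e k1, e k2, e k3, fun h => ?_, hc0, hc1, hc2, hc3⟩
  have h1 := (hm0 k1).1 (h.symm ▸ MulAction.mem_orbit_self _)
  rw [hk1] at h1
  exact absurd h1 (by decide +kernel)

end Cfsg.Agent.S1683
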