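import Cfsg.Statements.S1686
import Cfsg.Agent.Chars.Fi22O7.Iso
import Cfsg.Agent.Screen.CosetEnum.PresFi22
import Cfsg.Agent.Screen.CosetEnum.Fi22U62.Checked

set_option autoImplicit false
set_option maxRecDepth 20000
open Cfsg

namespace Cfsg.Agent.S1686

/-- In the presented Fischer group Fi₂₂, the subgroup generated by the images of b, …, i is isomorphic to PΩ(7, 3), the commutator subgroup of the isometry group of the quadratic form x₀² + x₁y₁ + x₂y₂ + x₃y₃ over the integers mod 3, modulo its centre. -/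
theorem result : Nonempty ((((Subgroup.closure ({Cfsg.Spor.Fi22.b, Cfsg.Spor.Fi22.c, Cfsg.Spor.Fi22.d, Cfsg.Spor.Fi22.e, Cfsg.Spor.Fi22.f, Cfsg.Spor.Fi22.g, Cfsg.Spor.Fi22.h, Cfsg.Spor.Fi22.i} : Set (FreeGroup Cfsg.Spor.Fi22.Gen))).map (PresentedGroup.mk (Cfsg.Spor.coxRelators Cfsg.Spor.Fi22.edges ∪ {r | r ∈ Cfsg.Spor.Fi22.extra})))) ≃* Cfsg.POmega (ZMod 3) (Cfsg.quadFormOdd 3 (ZMod 3))) := by
  obtain ⟨ε⟩ := Cfsg.Agent.Chars.Fi22O7.exists_iso
  let g : ℕ → Cfsg.Spor.Fi22 := fun x => if x < 8 then Cfsg.Agent.Screen.CosetEnum.PresFi22.gens (x + 1) else 1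
  have hg : ∀ w : List ℕ, (∀ x ∈ w, x < 8) → Cfsg.Agent.Screen.CosetEnum.evalW g w =
      Cfsg.Agent.Screen.CosetEnum.evalW Cfsg.Agent.Screen.CosetEnum.PresFi22.gens (w.map (· + 1)) := by
    intro w
    induction w with
    | nil => intro _; rfl
    | cons a w ih =>
      intro hw
      rw [List.map_cons, Cfsg.Agent.Screen.CosetEnum.evalW, Cfsg.Agent.Screen.CosetEnum.evalW,
        ih fun x hx => hw x (List.mem_cons_of_mem _ hx)]
      simp [g, hw a List.mem_cons_self]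
  obtain ⟨χ, hχ⟩ := Cfsg.Agent.Chars.Fi22O7.exists_whom 8 Cfsg.Agent.Chars.Fi22O7.P8.tbl.rels g
    (fun x hx => by simp [g, Nat.not_lt.2 hx])
    (fun w hw => by
      rw [hg w (Cfsg.Agent.Chars.Fi22O7.P8.checked.letters (Or.inl hw))]
      rcases (show ∀ w ∈ Cfsg.Agent.Chars.Fi22O7.P8.tbl.rels,
        w.map (· + 1) ∈ Cfsg.Agent.Screen.CosetEnum.PresFi22.relList ∨
          (w.map (· + 1)).reverse ∈ Cfsg.Agent.Screen.CosetEnum.PresFi22.relList by decide +kernel) w hw with h | h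
      · exact Cfsg.Agent.Screen.CosetEnum.PresFi22.gens_rels _ h
      · have h1 := Cfsg.Agent.Screen.CosetEnum.PresFi22.gens_rels _ h
        rw [Cfsg.Agent.Screen.CosetEnum.evalW_reverse Cfsg.Agent.Screen.CosetEnum.PresFi22.gens_sq] at h1
        exact inv_eq_one.1 h1)
  have hrange : χ.range = ((Subgroup.closure ({Cfsg.Spor.Fi22.b, Cfsg.Spor.Fi22.c, Cfsg.Spor.Fi22.d, Cfsg.Spor.Fi22.e, Cfsg.Spor.Fi22.f, Cfsg.Spor.Fi22.g, Cfsg.Spor.Fi22.h, Cfsg.Spor.Fi22.i} : Set (FreeGroup Cfsg.Spor.Fi22.Gen))).map (PresentedGroup.mk (Cfsg.Spor.coxRelators Cfsg.Spor.Fi22.edges ∪ {r | r ∈ Cfsg.Spor.Fi22.extra}))) := by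
    rw [MonoidHom.map_closure, Cfsg.Agent.Chars.Fi22O7.range_le_closure χ]
    simp only [hχ]
    refine le_antisymm ((Subgroup.closure_le _).2 ?_) ((Subgroup.closure_le _).2 ?_)
    · rintro _ ⟨x, rfl⟩
      by_cases hx : x < 8
      · refine Subgroup.subset_closure ?_
        interval_cases x <;>
          simp [g, Cfsg.Agent.Screen.CosetEnum.PresFi22.gens, PresentedGroup.of, Set.image_insert_eq]
      · simp [g, hx]
    · rintro _ ⟨y, hy, rfl⟩
      simp only [Set.mem_insert_iff, Set.mem_singleton_iff] at hy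
      rcases hy with rfl | rfl | rfl | rfl | rfl | rfl | rfl | rfl
      · exact Subgroup.subset_closure ⟨0, rfl⟩
      · exact Subgroup.subset_closure ⟨1, rfl⟩
      · exact Subgroup.subset_closure ⟨2, rfl⟩
      · exact Subgroup.subset_closure ⟨3, rfl⟩
      · exact Subgroup.subset_closure ⟨4, rfl⟩
      · exact Subgroup.subset_closure ⟨5, rfl⟩
      · exact Subgroup.subset_closure ⟨6, rfl⟩
      · exact Subgroup.subset_closure ⟨7, rfl⟩
  obtain ⟨f, hf⟩ := Cfsg.Agent.Screen.CosetEnum.PresFi22.exists_hom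
    Cfsg.Agent.Screen.CosetEnum.Fi22U62.checked.perm
    (fun x => Cfsg.Agent.Screen.CosetEnum.Fi22U62.checked.perm_sq x)
    Cfsg.Agent.Screen.CosetEnum.Fi22U62.checked.perm_rel
  have hne : χ (Cfsg.Agent.Chars.Fi22O7.g8 0) ≠ 1 := by
    intro h
    have h0 : Cfsg.Agent.Screen.CosetEnum.PresFi22.gens 1 = 1 := (hχ 0).symm.trans h
    have h1 := hf 1 (by norm_num)
    rw [h0, map_one] at h1
    have h2 := Cfsg.Agent.Screen.CosetEnum.Fi22U62.checked.perm_apply (x := 1) (by decide +kernel)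
      ⟨0, Cfsg.Agent.Screen.CosetEnum.Fi22U62.checked.pos⟩
    rw [← h1, Equiv.Perm.one_apply] at h2
    exact (show (0 : ℕ) ≠ Cfsg.Agent.Screen.CosetEnum.Fi22U62.tbl.img 0 1 by decide +kernel) h2
  haveI := Cfsg.Agent.Chars.Fi22O7.simple_PO7
  let κ := χ.comp ε.symm.toMonoidHom
  have hinj : Function.Injective κ := by
    refine (MonoidHom.ker_eq_bot_iff κ).1 ((MonoidHom.normal_ker κ).eq_bot_or_eq_top.resolve_right fun h => hne ?_)
    have : ε (Cfsg.Agent.Chars.Fi22O7.g8 0) ∈ κ.ker := by rw [h]; trivial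
    simpa [κ] using this
  have hκ : κ.range = χ.range := by
    ext y
    exact ⟨fun ⟨z, hz⟩ => ⟨ε.symm z, hz⟩, fun ⟨z, hz⟩ => ⟨ε z, by simpa [κ] using hz⟩⟩
  exact ⟨((MonoidHom.ofInjective hinj).trans (MulEquiv.subgroupCongr (hκ.trans hrange))).symm⟩

end Cfsg.Agent.S1686
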