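import Cfsg.Statements.S1689
import Cfsg.Agent.Screen.CosetEnum.PresFi23
import Cfsg.Agent.Screen.CosetEnum.Fi23Fi22.Checked
import Cfsg.Agent.Screen.CosetEnum.Fi23Fi22.Orbits

set_option autoImplicit false
set_option maxRecDepth 20000
open Cfsg

namespace Cfsg.Agent.S1689

/-- In the presented Fischer group Fi₂₃, let H be the subgroup generated by the images of a, …, i. Then H has index 31671, H has orbits of sizes 3510 and 28160 on the cosets of H other than H itself. -/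
theorem result : (((Subgroup.closure ({Cfsg.Spor.Fi23.a, Cfsg.Spor.Fi23.b, Cfsg.Spor.Fi23.c, Cfsg.Spor.Fi23.d, Cfsg.Spor.Fi23.e, Cfsg.Spor.Fi23.f, Cfsg.Spor.Fi23.g, Cfsg.Spor.Fi23.h, Cfsg.Spor.Fi23.i} : Set (FreeGroup Cfsg.Spor.Fi23.Gen))).map (PresentedGroup.mk (Cfsg.Spor.coxRelators Cfsg.Spor.Fi23.edges ∪ {r | r ∈ Cfsg.Spor.Fi23.extra})))).index = 31671 ∧ ∃ q₁ q₂ : Cfsg.Spor.Fi23 ⧸ (((Subgroup.closure ({Cfsg.Spor.Fi23.a, Cfsg.Spor.Fi23.b, Cfsg.Spor.Fi23.c, Cfsg.Spor.Fi23.d, Cfsg.Spor.Fi23.e, Cfsg.Spor.Fi23.f, Cfsg.Spor.Fi23.g, Cfsg.Spor.Fi23.h, Cfsg.Spor.Fi23.i} : Set (FreeGroup Cfsg.Spor.Fi23.Gen))).map (PresentedGroup.mk (Cfsg.Spor.coxRelators Cfsg.Spor.Fi23.edges ∪ {r | r ∈ Cfsg.Spor.Fi23.extra})))), (MulAction.orbit (((Subgroup.closure ({Cfsg.Spor.Fi23.a, Cfsg.Spor.Fi23.b, Cfsg.Spor.Fi23.c, Cfsg.Spor.Fi23.d,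 Cfsg.Spor.Fi23.e, Cfsg.Spor.Fi23.f, Cfsg.Spor.Fi23.g, Cfsg.Spor.Fi23.h, Cfsg.Spor.Fi23.i} : Set (FreeGroup Cfsg.Spor.Fi23.Gen))).map (PresentedGroup.mk (Cfsg.Spor.coxRelators Cfsg.Spor.Fi23.edges ∪ {r | r ∈ Cfsg.Spor.Fi23.extra})))) q₁).ncard = 3510 ∧ (MulAction.orbit (((Subgroup.closure ({Cfsg.Spor.Fi23.a, Cfsg.Spor.Fi23.b, Cfsg.Spor.Fi23.c, Cfsg.Spor.Fi23.d, Cfsg.Spor.Fi23.e, Cfsg.Spor.Fi23.f, Cfsg.Spor.Fi23.g, Cfsg.Spor.Fi23.h, Cfsg.Spor.Fi23.i} : Set (FreeGroup Cfsg.Spor.Fi23.Gen))).map (PresentedGroup.mk (Cfsg.Spor.coxRelators Cfsg.Spor.Fi23.edges ∪ {r | r ∈ Cfsg.Spor.Fi23.extra})))) q₂).ncard = 28160 := by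
  obtain ⟨f, hf⟩ := Cfsg.Agent.Screen.CosetEnum.PresFi23.exists_hom Cfsg.Agent.Screen.CosetEnum.Fi23Fi22.checked.perm (fun x => Cfsg.Agent.Screen.CosetEnum.Fi23Fi22.checked.perm_sq x)
    Cfsg.Agent.Screen.CosetEnum.Fi23Fi22.checked.perm_rel
  have hH : ((Subgroup.closure ({Cfsg.Spor.Fi23.a, Cfsg.Spor.Fi23.b, Cfsg.Spor.Fi23.c, Cfsg.Spor.Fi23.d, Cfsg.Spor.Fi23.e, Cfsg.Spor.Fi23.f, Cfsg.Spor.Fi23.g, Cfsg.Spor.Fi23.h, Cfsg.Spor.Fi23.i} : Set (FreeGroup Cfsg.Spor.Fi23.Gen))).map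
      (PresentedGroup.mk (Cfsg.Spor.coxRelators Cfsg.Spor.Fi23.edges ∪ {r | r ∈ Cfsg.Spor.Fi23.extra}))) =
      Subgroup.closure {g | ∃ w ∈ Cfsg.Agent.Screen.CosetEnum.Fi23Fi22.tbl.subs, g = Cfsg.Agent.Screen.CosetEnum.evalW Cfsg.Agent.Screen.CosetEnum.PresFi23.gens w} := by
    rw [MonoidHom.map_closure]
    congr 1
    ext g
    simp only [Cfsg.Agent.Screen.CosetEnum.Fi23Fi22.tbl, List.mem_cons, List.not_mem_nil, or_false, exists_eq_or_imp, exists_eq_left,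
      Set.image_insert_eq, Set.image_singleton, Set.mem_insert_iff, Set.mem_singleton_iff, Set.mem_setOf_eq]
    simp [Cfsg.Agent.Screen.CosetEnum.evalW, Cfsg.Agent.Screen.CosetEnum.PresFi23.gens, PresentedGroup.of, pow_succ, mul_assoc]
  obtain ⟨e, he0, he⟩ := Cfsg.Agent.Screen.CosetEnum.Fi23Fi22.checked.exists_equiv Cfsg.Agent.Screen.CosetEnum.PresFi23.gens Cfsg.Agent.Screen.CosetEnum.PresFi23.gens_sq
    Cfsg.Agent.Screen.CosetEnum.PresFi23.gens_out Cfsg.Agent.Screen.CosetEnum.PresFi23.gens_rels Cfsg.Agent.Screen.CosetEnum.PresFi23.gens_top _ hH f hf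
  obtain ⟨k0, hk0, hc0, hm0⟩ := Cfsg.Agent.Screen.CosetEnum.Fi23Fi22.checked.orbit Cfsg.Agent.Screen.CosetEnum.PresFi23.gens hH hf e he
    Cfsg.Agent.Screen.CosetEnum.Fi23Fi22.orbit1
  obtain ⟨k1, hk1, hc1, hm1⟩ := Cfsg.Agent.Screen.CosetEnum.Fi23Fi22.checked.orbit Cfsg.Agent.Screen.CosetEnum.PresFi23.gens hH hf e he
    Cfsg.Agent.Screen.CosetEnum.Fi23Fi22.orbit0
  have hidx : Subgroup.index ((Subgroup.closure ({Cfsg.Spor.Fi23.a, Cfsg.Spor.Fi23.b, Cfsg.Spor.Fi23.c, Cfsg.Spor.Fi23.d, Cfsg.Spor.Fi23.e, Cfsg.Spor.Fi23.f, Cfsg.Spor.Fi23.g, Cfsg.Spor.Fi23.h, Cfsg.Spor.Fi23.i} : Set (FreeGroup Cfsg.Spor.Fi23.Gen))).map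
      (PresentedGroup.mk (Cfsg.Spor.coxRelators Cfsg.Spor.Fi23.edges ∪ {r | r ∈ Cfsg.Spor.Fi23.extra}))) = 31671 :=
    (Nat.card_congr e.symm).trans (Nat.card_fin _)
  exact ⟨hidx, e k0, e k1, hc0, hc1⟩

end Cfsg.Agent.S1689
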