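import Cfsg.Statements.S1691
import Mathlib.GroupTheory.Abelianization.Defs
import Mathlib.Data.Fintype.Units
import Mathlib.GroupTheory.PresentedGroup
-- import your own Cfsg.Agent.* helpers here

set_option autoImplicit false
open Cfsg

namespace Cfsg.Agent.S1691

/-- Every generator is a node. -/
theorem node (x : Cfsg.Spor.Fi24.Gen) : x ∈ Cfsg.Spor.coxNodes Cfsg.Spor.Fi24.edges := by
  cases x <;> decide

/-- The commutator subgroup of the presented group Fi₂₄ has index 2 (the presented group is Fi₂₄′:2 with Fi₂₄′ its derived subgroup). -/
theorem result : (commutator Cfsg.Spor.Fi24).index = 2 := by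
  open Spor in
  · have hrel : ∀ r ∈ (coxRelators Fi24.edges ∪ {r | r ∈ Fi24.extra}), FreeGroup.lift (fun _ : Fi24.Gen => (-1 : ℤˣ)) r = 1 := by
      rintro r (⟨x, -, y, -, rfl⟩ | hr)
      · simp
      · simp only [Set.mem_ofPred_eq, Fi24.extra, List.mem_cons, List.not_mem_nil, or_false] at hr
        rcases hr with rfl | rfl <;> simp [pow_succ]
    let sgn : Fi24 →* ℤˣ := PresentedGroup.toGroup hrel
    let u : Fi24 := PresentedGroup.of Fi24.Gen.d
    have hsq : ∀ x : Fi24.Gen, (PresentedGroup.of x : Fi24) * PresentedGroup.of x = 1 := fun x => by
      have h : (FreeGroup.of x * FreeGroup.of x) ^ coxLabel Fi24.edges x x ∈ coxRelators Fi24.edges :=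
        ⟨x, node x, x, node x, rfl⟩
      have h' := PresentedGroup.one_of_mem (rels := coxRelators Fi24.edges ∪ {r | r ∈ Fi24.extra}) (Or.inl h)
      simpa [coxLabel, PresentedGroup.of] using h'
    have hedge : ∀ x y : Fi24.Gen, coxLabel Fi24.edges x y = 3 →
        Abelianization.of (PresentedGroup.of x : Fi24) = Abelianization.of (PresentedGroup.of y : Fi24) := by
      intro x y hxy
      have h : (FreeGroup.of x * FreeGroup.of y) ^ coxLabel Fi24.edges x y ∈ coxRelators Fi24.edges :=
        ⟨x, node x, y, node y, rfl⟩
      rw [hxy] at h
      have h' : ((PresentedGroup.of x : Fi24) * PresentedGroup.of y) ^ 3 = 1 :=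
        PresentedGroup.one_of_mem (rels := coxRelators Fi24.edges ∪ {r | r ∈ Fi24.extra}) (Or.inl h)
      have e := congrArg Abelianization.of h'
      rw [map_pow, map_mul, map_one, mul_pow] at e
      have ex : ∀ z : Fi24.Gen, Abelianization.of (PresentedGroup.of z : Fi24) ^ 3 =
          Abelianization.of (PresentedGroup.of z : Fi24) := fun z => by
        rw [pow_succ, pow_two, ← map_mul, hsq, map_one, one_mul]
      rw [ex, ex] at e
      have e2 : Abelianization.of (PresentedGroup.of y : Fi24) * Abelianization.of (PresentedGroup.of y : Fi24) = 1 := by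
        rw [← map_mul, hsq, map_one]
      exact mul_right_cancel (e.trans e2.symm)
    have hall : ∀ x : Fi24.Gen, Abelianization.of (PresentedGroup.of x : Fi24) = Abelianization.of u := by
      have hc := hedge .c .d rfl
      have hb := (hedge .b .c rfl).trans hc
      have ha := (hedge .a .b rfl).trans hb
      have hk := (hedge .k .a rfl).trans ha
      have hl := (hedge .l .k rfl).trans hk
      have he := (hedge .d .e rfl).symm
      have hf := (hedge .e .f rfl).symm.trans he
      have hg := (hedge .f .g rfl).symm.trans hf
      have hj := (hedge .g .j rfl).symm.trans hg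
      have hh := (hedge .d .h rfl).symm
      have hi := (hedge .h .i rfl).symm.trans hh
      intro x
      cases x <;> first | rfl | assumption
    have hle : Nat.card (Abelianization Fi24) ≤ 2 := by
      have htop : ∀ a : Abelianization Fi24, a ∈ Subgroup.zpowers (Abelianization.of u) := by
        intro a
        obtain ⟨g, rfl⟩ := Quot.exists_rep a
        show Abelianization.of g ∈ _
        have hg : g ∈ Subgroup.closure (Set.range (PresentedGroup.of (rels := coxRelators Fi24.edges ∪ {r | r ∈ Fi24.extra}))) := by
          rw [PresentedGroup.closure_range_of]; exact Subgroup.mem_top g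
        induction hg using Subgroup.closure_induction with
        | mem v hv => obtain ⟨x, rfl⟩ := hv; exact ⟨1, (zpow_one _).trans (hall x).symm⟩
        | one => rw [map_one]; exact one_mem _
        | mul v w _ _ hv hw => rw [map_mul]; exact mul_mem hv hw
        | inv v _ hv => rw [map_inv]; exact inv_mem hv
      rw [← Subgroup.card_top (G := Abelianization Fi24),
        show (⊤ : Subgroup (Abelianization Fi24)) = Subgroup.zpowers (Abelianization.of u) from
          (eq_top_iff.2 fun a _ => htop a).symm, Nat.card_zpowers]
      refine Nat.le_of_dvd two_pos (orderOf_dvd_of_pow_eq_one ?_)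
      rw [pow_two, ← map_mul, hsq, map_one]
    have hker : sgn.ker.index = 2 := by
      rw [Subgroup.index_ker]
      have htop : sgn.range = ⊤ := by
        rw [eq_top_iff]
        intro v _
        rcases Int.units_eq_one_or v with rfl | rfl
        · exact one_mem _
        · exact ⟨u, PresentedGroup.toGroup.of hrel⟩
      rw [htop, Subgroup.card_top, Nat.card_eq_fintype_card, Fintype.card_units_int]
    have hdvd : sgn.ker.index ∣ (commutator Fi24).index :=
      Subgroup.index_dvd_of_le (Abelianization.commutator_subset_ker sgn)
    rw [hker] at hdvd
    have h0 : (commutator Fi24).index ≠ 0 := by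
      rw [Subgroup.index_eq_card]
      have : Finite (Abelianization Fi24) := by
        have hfin : IsOfFinOrder (Abelianization.of u) := isOfFinOrder_iff_pow_eq_one.2
          ⟨2, two_pos, by rw [pow_two, ← map_mul, hsq, map_one]⟩
        refine Set.finite_univ_iff.1 (Set.Finite.subset ((Set.finite_singleton (Abelianization.of u)).insert 1) ?_)
        intro a ha
        clear ha
        obtain ⟨g, rfl⟩ := Quot.exists_rep a
        show Abelianization.of g ∈ ({1, Abelianization.of u} : Set _)
        have hg : g ∈ Subgroup.closure (Set.range (PresentedGroup.of (rels := coxRelators Fi24.edges ∪ {r | r ∈ Fi24.extra}))) := by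
          rw [PresentedGroup.closure_range_of]; exact Subgroup.mem_top g
        have h2 : Abelianization.of u * Abelianization.of u = 1 := by rw [← map_mul, hsq, map_one]
        induction hg using Subgroup.closure_induction with
        | mem v hv => obtain ⟨x, rfl⟩ := hv; exact Or.inr (hall x)
        | one => simp
        | mul v w _ _ hv hw =>
          rw [map_mul]
          rcases hv with h | h <;> rcases hw with h' | h' <;> simp_all
        | inv v _ hv =>
          rw [map_inv]
          rcases hv with h | h
          · simp [h]
          · simp only [Set.mem_insert_iff, Set.mem_singleton_iff] at h ⊢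
            rw [h, inv_eq_of_mul_eq_one_right h2]; simp
      exact (Nat.card_pos (α := Abelianization Fi24)).ne'
    have hle' : (commutator Fi24).index ≤ 2 := by rw [Subgroup.index_eq_card]; exact hle
    have := Nat.le_of_dvd (Nat.pos_of_ne_zero h0) hdvd
    omega

end Cfsg.Agent.S1691
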