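import Cfsg.Statements.S1717
import Mathlib.LinearAlgebra.Matrix.SpecialLinearGroup
import Mathlib.LinearAlgebra.Matrix.Transvection
import Mathlib.GroupTheory.Sylow
import Mathlib.GroupTheory.Nilpotent
import Mathlib.Tactic.Group
import Mathlib.Tactic.NoncommRing
import Mathlib.Data.Matrix.Basis
-- import your own Cfsg.Agent.* helpers here

set_option autoImplicit false
open Cfsg

namespace Cfsg.Agent.S1717

open Matrix in
/-- Position of a basis vector: the transvection sits in the top corner. -/
def pos : Fin 5 → ℕ := ![0, 4, 1, 2, 3]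

theorem pos_lt (a : Fin 5) : pos a < 5 := by revert a; decide

theorem pos_zero : ∀ i : Fin 5, i ≠ 0 → pos 0 < pos i := by decide

theorem pos_one : ∀ i : Fin 5, i ≠ 1 → pos i < pos 1 := by decide

theorem pos_inj : ∀ a b : Fin 5, pos a = pos b → a = b := by decide

/-- The unitriangular matrices. -/
def IsUni (M : Matrix (Fin 5) (Fin 5) (ZMod 2)) : Prop :=
  (∀ a b, pos b < pos a → M a b = 0) ∧ ∀ a, M a a = 1

theorem isUni_mul {M N : Matrix (Fin 5) (Fin 5) (ZMod 2)} (hM : IsUni M) (hN : IsUni N) : IsUni (M * N) := by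
  constructor
  · intro a b hab
    rw [Matrix.mul_apply]
    refine Finset.sum_eq_zero fun k _ => ?_
    by_cases h : pos k < pos a
    · rw [hM.1 a k h, zero_mul]
    · rw [hN.1 k b (by omega), mul_zero]
  · intro a
    rw [Matrix.mul_apply, Finset.sum_eq_single a]
    · rw [hM.2, hN.2, mul_one]
    · intro k _ hk
      rcases lt_or_gt_of_ne (fun h => hk (pos_inj k a h)) with h | h
      · rw [hM.1 a k h, zero_mul]
      · rw [hN.1 k a h, mul_zero]
    · simp

theorem isUni_pow_eight {M : Matrix (Fin 5) (Fin 5) (ZMod 2)} (hM : IsUni M) : M ^ 8 = 1 := by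
  have hN : ∀ k : ℕ, ∀ a b, pos b < pos a + k → ((M - 1) ^ k) a b = 0 := by
    intro k
    induction k with
    | zero =>
      intro a b h
      rw [pow_zero, Matrix.one_apply_ne]
      intro e; subst e; omega
    | succ k ih =>
      intro a b h
      rw [pow_succ, Matrix.mul_apply]
      refine Finset.sum_eq_zero fun c _ => ?_
      by_cases h1 : pos c < pos a + k
      · rw [ih a c h1, zero_mul]
      · have h2 : pos b ≤ pos c := by omega
        rcases h2.lt_or_eq with h2 | h2
        · rw [Matrix.sub_apply, hM.1 c b h2, Matrix.one_apply_ne (fun e => by subst e; omega), sub_zero, mul_zero]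
        · obtain rfl := pos_inj _ _ h2
          rw [Matrix.sub_apply, hM.2, Matrix.one_apply_eq, sub_self, mul_zero]
  have h8 : (M - 1) ^ 8 = 0 := by
    ext a b
    exact hN 8 a b (by have := pos_lt b; omega)
  have hsq : ∀ X : Matrix (Fin 5) (Fin 5) (ZMod 2), (1 + X) ^ 2 = 1 + X ^ 2 := by
    intro X
    have hXX : X + X = 0 := by
      ext a b
      rw [Matrix.add_apply, Matrix.zero_apply]
      generalize X a b = v
      revert v; decide
    have : (1 + X) ^ 2 = 1 + X ^ 2 + (X + X) := by noncomm_ring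
    rw [this, hXX, add_zero]
  have e : M = 1 + (M - 1) := by abel
  rw [e, show (1 + (M - 1)) ^ 8 = (((1 + (M - 1)) ^ 2) ^ 2) ^ 2 by rw [← pow_mul, ← pow_mul],
    hsq, hsq, hsq, ← pow_mul, ← pow_mul, show 2 * 2 * 2 = 8 from rfl, h8, add_zero]

/-- The unitriangular group. -/
def uni : Subgroup (Matrix.SpecialLinearGroup (Fin 5) (ZMod 2)) where
  carrier := {M | IsUni M.1}
  one_mem' := ⟨fun a b h => Matrix.one_apply_ne (fun e => by subst e; omega), fun a => Matrix.one_apply_eq a⟩
  mul_mem' hM hN := isUni_mul hM hN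
  inv_mem' {M} hM := by
    have h8 : M ^ 8 = 1 := Subtype.ext (by
      show (M ^ 8 : Matrix.SpecialLinearGroup (Fin 5) (ZMod 2)).1 = 1
      rw [Matrix.SpecialLinearGroup.coe_pow]; exact isUni_pow_eight hM)
    have : M⁻¹ = M * M * M * M * M * M * M := by
      apply inv_eq_of_mul_eq_one_right
      rw [← h8]; simp only [pow_succ, pow_zero, one_mul, mul_assoc]
    rw [Set.mem_ofPred_eq, this]
    exact isUni_mul (isUni_mul (isUni_mul (isUni_mul (isUni_mul (isUni_mul hM hM) hM) hM) hM) hM) hM

theorem isPGroup_uni : IsPGroup 2 uni := fun M => ⟨3, Subtype.ext (Subtype.ext (by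
  show ((M.1 : Matrix.SpecialLinearGroup (Fin 5) (ZMod 2)) ^ 2 ^ 3).1 = 1
  rw [Matrix.SpecialLinearGroup.coe_pow]; exact isUni_pow_eight M.2))⟩

/-- Transvections in the unitriangular group. -/
theorem transvection_mem {a b : Fin 5} (hab : pos a < pos b) :
    ∃ t ∈ uni, (t : Matrix (Fin 5) (Fin 5) (ZMod 2)) = Matrix.transvection a b 1 := by
  have hne : a ≠ b := fun e => by subst e; omega
  refine ⟨⟨Matrix.transvection a b 1, Matrix.det_transvection_of_ne a b hne 1⟩, ⟨?_, ?_⟩, rfl⟩
  · intro c d hcd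
    show Matrix.transvection a b (1 : ZMod 2) c d = 0
    rw [Matrix.transvection, Matrix.add_apply, Matrix.one_apply_ne (fun e => by subst e; omega),
      Matrix.single_apply_of_ne (h := fun e => by obtain ⟨rfl, rfl⟩ := e; omega), add_zero]
  · intro c
    show Matrix.transvection a b (1 : ZMod 2) c c = 1
    rw [Matrix.transvection, Matrix.add_apply, Matrix.one_apply_eq,
      Matrix.single_apply_of_ne (h := fun e => hne (e.1.trans e.2.symm)), add_zero]

/-- The centralizer of the unitriangular group. -/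
theorem centralizer_uni (s : Matrix.SpecialLinearGroup (Fin 5) (ZMod 2))
    (hs : (s : Matrix (Fin 5) (Fin 5) (ZMod 2)) = Matrix.transvection 0 1 1)
    (M : Matrix.SpecialLinearGroup (Fin 5) (ZMod 2)) (hM : ∀ t ∈ uni, t * M = M * t) :
    M = 1 ∨ M = s := by
  set A : Matrix (Fin 5) (Fin 5) (ZMod 2) := M.1 with hA
  have hcomm : ∀ a b : Fin 5, pos a < pos b →
      Matrix.single a b (1 : ZMod 2) * A = A * Matrix.single a b 1 := by
    intro a b hab
    obtain ⟨t, ht, hte⟩ := transvection_mem hab
    have e : (t * M : Matrix.SpecialLinearGroup (Fin 5) (ZMod 2)).1 = (M * t).1 := by rw [hM t ht]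
    rw [Matrix.SpecialLinearGroup.coe_mul, Matrix.SpecialLinearGroup.coe_mul, hte, Matrix.transvection,
      add_mul, mul_add, one_mul, mul_one] at e
    exact add_left_cancel e
  have hcol : ∀ a b i, pos a < pos b → i ≠ a → A i a = 0 := by
    intro a b i hab hi
    have e := congrFun (congrFun (hcomm a b hab) i) b
    rw [Matrix.single_mul_apply_of_ne (h := hi), Matrix.mul_single_apply_same, mul_one] at e
    exact e.symm
  have hrow : ∀ a b j, pos a < pos b → j ≠ b → A b j = 0 := by
    intro a b j hab hj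
    have e := congrFun (congrFun (hcomm a b hab) a) j
    rw [Matrix.single_mul_apply_same, one_mul, Matrix.mul_single_apply_of_ne (hbj := hj)] at e
    exact e
  have hdiag : ∀ a b, pos a < pos b → A b b = A a a := by
    intro a b hab
    have e := congrFun (congrFun (hcomm a b hab) a) b
    rwa [Matrix.single_mul_apply_same, one_mul, Matrix.mul_single_apply_same, mul_one] at e
  have hd : ∀ i, A i i = A 0 0 := by
    intro i
    by_cases hi : i = 0
    · rw [hi]
    · exact hdiag 0 i (pos_zero i hi)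
  have hoff : ∀ i j, i ≠ j → ¬ (i = 0 ∧ j = 1) → A i j = 0 := by
    intro i j hij h01
    by_cases hi : i = 0
    · exact hcol j 1 i (pos_one j (fun e => h01 ⟨hi, e⟩)) hij
    · exact hrow 0 i j (pos_zero i hi) hij.symm
  have hd1 : A 0 0 = 1 := by
    rcases (by decide : ∀ v : ZMod 2, v = 0 ∨ v = 1) (A 0 0) with h | h
    · exfalso
      have h0 : A.det = 0 := Matrix.det_eq_zero_of_column_eq_zero 0 fun i => by
        by_cases hi : i = 0
        · rw [hi, h]
        · exact hoff i 0 hi (fun e => hi e.1)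
      rw [M.det_coe] at h0
      exact one_ne_zero h0
    · exact h
  rcases (by decide : ∀ v : ZMod 2, v = 0 ∨ v = 1) (A 0 1) with h | h
  · left
    apply Subtype.ext
    show A = 1
    ext i j
    by_cases hij : i = j
    · subst hij; rw [hd, hd1, Matrix.one_apply_eq]
    · rw [Matrix.one_apply_ne hij]
      by_cases h01 : i = 0 ∧ j = 1
      · rw [h01.1, h01.2, h]
      · exact hoff i j hij h01
  · right
    apply Subtype.ext
    show A = (s : Matrix (Fin 5) (Fin 5) (ZMod 2))
    rw [hs]
    ext i j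
    rw [Matrix.transvection, Matrix.add_apply]
    by_cases hij : i = j
    · subst hij
      rw [hd, hd1, Matrix.one_apply_eq,
        Matrix.single_apply_of_ne (h := fun e => absurd (e.1.trans e.2.symm) (by decide)), add_zero]
    · rw [Matrix.one_apply_ne hij, zero_add]
      by_cases h01 : i = 0 ∧ j = 1
      · rw [h01.1, h01.2, h, Matrix.single_apply_same]
      · rw [hoff i j hij h01, Matrix.single_apply_of_ne (h := fun e => h01 ⟨e.1.symm, e.2.symm⟩)]

theorem uni_le_centralizer (s : Matrix.SpecialLinearGroup (Fin 5) (ZMod 2))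
    (hs : (s : Matrix (Fin 5) (Fin 5) (ZMod 2)) = Matrix.transvection 0 1 1) :
    uni ≤ Subgroup.centralizer ({s} : Set (Matrix.SpecialLinearGroup (Fin 5) (ZMod 2))) := by
  intro M hM
  rw [Subgroup.mem_centralizer_singleton_iff]
  apply Subtype.ext
  rw [Matrix.SpecialLinearGroup.coe_mul, Matrix.SpecialLinearGroup.coe_mul, hs, Matrix.transvection,
    mul_add, add_mul, mul_one, one_mul]
  congr 1
  ext i j
  have hcol : ∀ i, i ≠ 0 → M.1 i 0 = 0 := fun i hi => hM.1 i 0 (pos_zero i hi)
  have hrow : ∀ j, j ≠ 1 → M.1 1 j = 0 := fun j hj => hM.1 1 j (pos_one j hj)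
  by_cases hi : i = 0
  · subst hi
    rw [Matrix.single_mul_apply_same, one_mul]
    by_cases hj : j = 1
    · subst hj; rw [Matrix.mul_single_apply_same, mul_one, hM.2, hM.2]
    · rw [Matrix.mul_single_apply_of_ne (hbj := hj), hrow j hj]
  · rw [Matrix.single_mul_apply_of_ne (h := hi)]
    by_cases hj : j = 1
    · subst hj; rw [Matrix.mul_single_apply_same, mul_one, hcol i hi]
    · rw [Matrix.mul_single_apply_of_ne (hbj := hj)]

/-- The argument. -/
theorem key {G : Type*} [Group G] [Finite G] [Fact (Nat.Prime 2)] (s : Matrix.SpecialLinearGroup (Fin 5) (ZMod 2))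
    (hs : (s : Matrix (Fin 5) (Fin 5) (ZMod 2)) = Matrix.transvection 0 1 1) (z : G) (hz : orderOf z = 2)
    (C : Subgroup G) (hmem : ∀ c : G, c ∈ C ↔ c * z = z * c)
    (e : C ≃* Subgroup.centralizer ({s} : Set (Matrix.SpecialLinearGroup (Fin 5) (ZMod 2))))
    (T : Sylow 2 C) :
    ¬ 2 ∣ ((T : Subgroup C).map C.subtype).index := by
  let U : Subgroup C := ((uni).subgroupOf (Subgroup.centralizer ({s} : Set _))).map e.symm.toMonoidHom
  have hU : IsPGroup 2 U :=
    (isPGroup_uni.of_equiv (Subgroup.subgroupOfEquivOfLe (uni_le_centralizer s hs)).symm).map _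
  obtain ⟨T₁, hT₁⟩ := hU.exists_le_sylow
  obtain ⟨m, hm⟩ := MulAction.exists_smul_eq C T₁ T
  let sC : C := e.symm ⟨s, Subgroup.mem_centralizer_singleton_iff.2 rfl⟩
  have hsC : ∀ c : C, c * sC = sC * c := fun c => by
    apply e.injective
    rw [map_mul, map_mul, e.apply_symm_apply]
    exact Subtype.ext (Subgroup.mem_centralizer_singleton_iff.1 (e c).2)
  have hcent : ∀ w ∈ (T : Subgroup C), (∀ t ∈ (T : Subgroup C), t * w = w * t) → w ≠ 1 → w = sC := by
    intro w _ hwc hw1
    have h1 : ∀ u ∈ uni, u * ((e (m⁻¹ * w * m) : Subgroup.centralizer ({s} : Set _)) :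
        Matrix.SpecialLinearGroup (Fin 5) (ZMod 2)) =
        ((e (m⁻¹ * w * m) : Subgroup.centralizer ({s} : Set _)) : Matrix.SpecialLinearGroup (Fin 5) (ZMod 2)) * u := by
      intro u hu
      set u' : Subgroup.centralizer ({s} : Set (Matrix.SpecialLinearGroup (Fin 5) (ZMod 2))) :=
        ⟨u, uni_le_centralizer s hs hu⟩ with hu'
      have huU : e.symm u' ∈ U := Subgroup.mem_map.2 ⟨u', hu, rfl⟩
      have hmu : m * e.symm u' * m⁻¹ ∈ (T : Subgroup C) := by
        rw [← hm]
        exact Subgroup.smul_mem_pointwise_smul _ (MulAut.conj m) _ (hT₁ huU)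
      have h := hwc _ hmu
      have h' : e.symm u' * (m⁻¹ * w * m) = (m⁻¹ * w * m) * e.symm u' := by
        calc e.symm u' * (m⁻¹ * w * m) = m⁻¹ * ((m * e.symm u' * m⁻¹) * w) * m := by group
          _ = _ := by rw [h]; group
      have h'' := congrArg (fun v => ((e v : Subgroup.centralizer ({s} : Set _)) :
        Matrix.SpecialLinearGroup (Fin 5) (ZMod 2))) h'
      simpa [hu'] using h''
    rcases centralizer_uni s hs _ h1 with h | h
    · exfalso
      apply hw1
      have h2 : m⁻¹ * w * m = 1 := e.injective (by rw [map_one]; exact Subtype.ext h)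
      calc w = m * (m⁻¹ * w * m) * m⁻¹ := by group
        _ = 1 := by rw [h2]; group
    · have h2 : m⁻¹ * w * m = sC := e.injective (by rw [e.apply_symm_apply]; exact Subtype.ext h)
      calc w = m * (m⁻¹ * w * m) * m⁻¹ := by group
        _ = sC := by rw [h2, hsC m, mul_inv_cancel_right]
  set zC : C := ⟨z, (hmem z).2 rfl⟩
  have hzc : ∀ c : C, c * zC = zC * c := fun c =>
    Subtype.ext ((hmem _).1 c.2)
  have hzT : zC ∈ (T : Subgroup C) := by
    have hzp : IsPGroup 2 ↥(Subgroup.zpowers zC) := IsPGroup.of_card (n := 1) (by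
      rw [Nat.card_zpowers, ← Subgroup.orderOf_coe, pow_one]; exact hz)
    obtain ⟨R, hR⟩ := hzp.exists_le_sylow
    obtain ⟨k, hk⟩ := MulAction.exists_smul_eq C R T
    rw [← hk]
    have h := Subgroup.smul_mem_pointwise_smul zC (MulAut.conj k) _ (hR (Subgroup.mem_zpowers zC))
    have e' : MulAut.conj k • zC = zC := by
      show k * zC * k⁻¹ = zC
      rw [hzc, mul_inv_cancel_right]
    rwa [e'] at h
  have hz1 : zC ≠ 1 := fun h => by
    have : z = 1 := congrArg Subtype.val h
    rw [this, orderOf_one] at hz; omega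
  set TG := (T : Subgroup C).map C.subtype with hTG
  intro h2
  obtain ⟨P, hP⟩ := (T.2.map C.subtype).exists_le_sylow
  have hlt : TG.subgroupOf (P : Subgroup G) < ⊤ := lt_of_le_of_ne le_top fun h => by
    have : TG = (P : Subgroup G) := le_antisymm hP (Subgroup.subgroupOf_eq_top.1 h)
    exact P.not_dvd_index (this ▸ h2)
  have : Group.IsNilpotent (P : Subgroup G) := P.2.isNilpotent
  obtain ⟨n, hn, hnT⟩ := SetLike.exists_of_lt (Group.normalizerCondition_of_isNilpotent _ hlt)
  have hnorm : ∀ t ∈ TG, (n : G) * t * (n : G)⁻¹ ∈ TG := fun t ht =>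
    Subgroup.mem_subgroupOf.1 (((Subgroup.mem_normalizer_iff).1 hn ⟨t, hP ht⟩).1 (Subgroup.mem_subgroupOf.2 ht))
  have hnC : (n : G) ∈ C := by
    obtain ⟨w, hw, hwe⟩ := Subgroup.mem_map.1 (hnorm z ⟨zC, hzT, rfl⟩)
    have hwc : ∀ t ∈ (T : Subgroup C), t * w = w * t := by
      intro t ht
      apply Subtype.ext
      show (t : G) * w = w * t
      rw [show ((w : C) : G) = (n : G) * z * (n : G)⁻¹ from hwe]
      have hti : (n : G)⁻¹ * t * n ∈ TG := by
        have := Subgroup.mem_subgroupOf.1 (((Subgroup.mem_normalizer_iff).1 (inv_mem hn)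
          ⟨t, hP ⟨t, ht, rfl⟩⟩).1 (Subgroup.mem_subgroupOf.2 (⟨t, ht, rfl⟩ : (t : G) ∈ TG)))
        simpa using this
      obtain ⟨t', -, hte⟩ := hti
      have h3 : ((n : G)⁻¹ * t * n) * z = z * ((n : G)⁻¹ * t * n) := by
        rw [← hte]; exact (hmem _).1 t'.2
      calc (t : G) * ((n : G) * z * (n : G)⁻¹) = n * (((n : G)⁻¹ * t * n) * z) * (n : G)⁻¹ := by group
        _ = _ := by rw [h3]; group
    have hw1 : w ≠ 1 := fun h => by
      subst h
      rw [map_one, eq_comm, conj_eq_one_iff] at hwe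
      exact hz1 (Subtype.ext hwe)
    have hweq : w = zC := (hcent w hw hwc hw1).trans (hcent zC hzT (fun t _ => hzc t) hz1).symm
    rw [hweq] at hwe
    exact (hmem _).2 (mul_inv_eq_iff_eq_mul.1 hwe.symm)
  apply hnT
  rw [Subgroup.mem_subgroupOf]
  refine ⟨⟨n, hnC⟩, ?_, rfl⟩
  have hle : (T : Subgroup C) ≤ (P : Subgroup G).subgroupOf C := fun t ht => hP ⟨t, ht, rfl⟩
  have hp : IsPGroup 2 ((P : Subgroup G).subgroupOf C) :=
    P.2.of_injective ((C.subtype.domRestrict _).codRestrict (P : Subgroup G) fun x => x.2) fun a b h =>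
      Subtype.ext (Subtype.ext (congrArg (fun v : (P : Subgroup G) => (v : G)) h))
  rw [← T.3 hp hle]
  exact n.2

/-- Let G be a finite group with an involution z whose centraliser C is isomorphic to the centraliser of a transvection of SL(5, 2). Then a Sylow 2-subgroup of C, viewed in G, is a Sylow 2-subgroup of G (its index in G is odd). -/
theorem result {G : Type*} [Group G] [Finite G] (s : Matrix.SpecialLinearGroup (Fin 5) (ZMod 2)) (hs : (s : Matrix (Fin 5) (Fin 5) (ZMod 2)) = Matrix.transvection 0 1 1) (z : G) (hz : orderOf z = 2) (e : (Subgroup.centralizer ({z} : Set G)) ≃* Subgroup.centralizer ({s} : Set (Matrix.SpecialLinearGroup (Fin 5) (ZMod 2)))) (T : Sylow 2 (Subgroup.centralizer ({z} : Set G))) : ¬ 2 ∣ ((T : Subgroup (Subgroup.centralizer ({z} : Set G))).map (Subgroup.subtype (Subgroup.centralizer ({z} : Set G)))).index := by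
  classical
  haveI : Fact (Nat.Prime 2) := ⟨Nat.prime_two⟩
  exact key s hs z hz _ (fun _ => Subgroup.mem_centralizer_singleton_iff) e T

end Cfsg.Agent.S1717
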