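import Cfsg.Statements.S1753
-- import your own Cfsg.Agent.* helpers here

set_option autoImplicit false
universe u
open Cfsg

namespace Cfsg.Agent.S1753

theorem kproper_of_lt (K : ∀ (X : Type u) [Group X], Prop) (G : Type u) [Group G] [Finite G]
    (h : ∀ (X : Type u) [Group X] [Finite X],
      IsSimpleGroup X → ¬ IsMulCommutative X → Nat.card X < Nat.card G → K X) :
    Cfsg.IsKProperWith K G := by
  intro H hH H' N hN hs hc
  refine h (H' ⧸ N) hs hc ?_
  calc Nat.card (H' ⧸ N) ≤ Nat.card H' :=
        Nat.card_le_card_of_surjective _ (QuotientGroup.mk'_surjective N)
    _ ≤ Nat.card H := Nat.card_le_card_of_injective _ (Subgroup.subtype_injective H')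
    _ < Nat.card G := lt_of_le_of_ne (Subgroup.card_le_card_group H)
        (fun hcard => hH (Subgroup.card_eq_iff_eq_top H |>.1 hcard))

/-- Let K be any property of groups. (1) If G is a minimal counterexample relative to K — a finite non-abelian simple group not satisfying K such that every finite non-abelian simple group of smaller order satisfies K — then every proper subgroup of G is a K-group (all its non-abelian simple sections satisfy K), since such sections have smaller order than G. (2) Consequently (induction on the order), if every finite non-abelian simple group all of whose proper subgroups are K-groups satisfies K, then every finite non-abelian simple group satisfies K. -/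
theorem result (K : ∀ (X : Type u) [Group X], Prop) :
    (∀ (G : Type u) [Group G], Cfsg.IsMinCounterexampleWith K G → Cfsg.IsKProperWith K G) ∧
      ((∀ (X : Type u) [Group X] [Finite X], IsSimpleGroup X → ¬ IsMulCommutative X → Cfsg.IsKProperWith K X → K X) →
        ∀ (G : Type u) [Group G] [Finite G], IsSimpleGroup G → ¬ IsMulCommutative G → K G) := by
  refine ⟨fun G _ hG => ?_, fun hK G _ _ hS hn => ?_⟩
  · haveI := hG.1
    exact kproper_of_lt K G hG.2.2.2.2
  · have main : ∀ n : ℕ, ∀ (X : Type u) [Group X] [Finite X], Nat.card X = n →
        IsSimpleGroup X → ¬ IsMulCommutative X → K X := by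
      intro n
      induction n using Nat.strong_induction_on with
      | _ n ih =>
        intro X _ _ hn' hs hc
        refine hK X hs hc (kproper_of_lt K X ?_)
        intro Y _ _ hsY hcY hlt
        exact ih (Nat.card Y) (hn' ▸ hlt) Y rfl hsY hcY
    exact main _ G rfl hS hn

end Cfsg.Agent.S1753
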