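import Cfsg.Statements.S1754
-- import your own Cfsg.Agent.* helpers here

set_option autoImplicit false
open Cfsg

namespace Cfsg.Agent.S1754

theorem quasisimple_of_equiv {G H : Type*} [Group G] [Group H] (e : G ≃* H)
    (h : Cfsg.IsQuasisimple G) : Cfsg.IsQuasisimple H := by
  refine ⟨?_, ?_⟩
  · refine ⟨?_⟩
    have h1 := map_commutator_eq (G := G) e.toMonoidHom
    rw [h.1.1, Subgroup.map_top_of_surjective e.toMonoidHom e.surjective,
      MonoidHom.range_eq_top.2 e.surjective] at h1
    exact h1.symm
  · haveI := h.2
    have hmap : (Subgroup.center G).map e.toMonoidHom = Subgroup.center H := by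
      ext x
      simp only [Subgroup.mem_map, Subgroup.mem_center_iff]
      constructor
      · rintro ⟨a, ha, rfl⟩ y
        obtain ⟨b, rfl⟩ := e.surjective y
        show e b * e a = e a * e b
        rw [← map_mul, ← map_mul, ha b]
      · intro hx
        refine ⟨e.symm x, fun g => e.injective ?_, e.apply_symm_apply x⟩
        rw [map_mul, map_mul, e.apply_symm_apply, hx]
    exact (QuotientGroup.congr _ _ e hmap).symm.isSimpleGroup

/-- Let A be a standard subgroup of the finite group G (A quasisimple, C_G(A) tightly embedded of even order, A commuting elementwise with no other conjugate of itself, and N_G(A) = N_G(C_G(A))), and let t be an involution of G centralizing A. Then the centralizer of t lies in the normalizer of A; in particular A, viewed inside C_G(t), is a component of C_G(t). -/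
theorem result {G : Type*} [Group G] [Finite G]
    (A : Subgroup G) (hA : Cfsg.IsStandardSubgroup A) (t : G) (ht : orderOf t = 2) (htA : t ∈ Subgroup.centralizer (A : Set G)) :
    Subgroup.centralizer ({t} : Set G) ≤ Subgroup.normalizer (A : Set G) ∧
      Cfsg.IsComponent (A.subgroupOf (Subgroup.centralizer ({t} : Set G))) := by
  obtain ⟨hq, ⟨-, htight⟩, -, hNN⟩ := hA
  have hle : Subgroup.centralizer ({t} : Set G) ≤ Subgroup.normalizer (A : Set G) := by
    intro g hg
    rw [hNN]
    by_contra hgN
    have hodd := htight g hgN
    have hmem : t ∈ Subgroup.centralizer (A : Set G) ⊓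
        (Subgroup.centralizer (A : Set G)).map (MulAut.conj g).toMonoidHom := by
      refine Subgroup.mem_inf.2 ⟨htA, Subgroup.mem_map.2 ⟨t, htA, ?_⟩⟩
      show g * t * g⁻¹ = t
      rw [Subgroup.mem_centralizer_singleton_iff.1 hg, mul_inv_cancel_right]
    have hd := orderOf_dvd_natCard (⟨t, hmem⟩ : ↥(Subgroup.centralizer (A : Set G) ⊓
        (Subgroup.centralizer (A : Set G)).map (MulAut.conj g).toMonoidHom))
    rw [← Subgroup.orderOf_coe] at hd
    rw [show (((⟨t, hmem⟩ : ↥(Subgroup.centralizer (A : Set G) ⊓
        (Subgroup.centralizer (A : Set G)).map (MulAut.conj g).toMonoidHom))) : G) = t from rfl,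
      ht] at hd
    exact Nat.not_even_iff_odd.2 hodd (even_iff_two_dvd.2 hd)
  have hAC : A ≤ Subgroup.centralizer ({t} : Set G) := by
    intro a ha
    rw [Subgroup.mem_centralizer_singleton_iff]
    exact Subgroup.mem_centralizer_iff.1 htA a ha
  refine ⟨hle, Subgroup.Normal.isSubnormal (Subgroup.normal_subgroupOf_of_le_normalizer hle),
    quasisimple_of_equiv (Subgroup.subgroupOfEquivOfLe hAC).symm hq⟩

end Cfsg.Agent.S1754
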