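import Cfsg.Statements.S1755
import Cfsg.Agent.Components.FStar
import Cfsg.Agent.Core.Fitting
import Cfsg.Agent.Screen.SylowAux
-- import your own Cfsg.Agent.* helpers here

set_option autoImplicit false
open Cfsg

namespace Cfsg.Agent.S1755

/-- The argument. -/
theorem key {G : Type*} [Group G] [Finite G] (z : G) (hz : orderOf z = 2) (C : Subgroup G)
    (hC : ∀ c : G, c ∈ C ↔ c * z = z * c) (Q : Subgroup C) (hQF : Q = Cfsg.generalizedFittingSubgroup C)
    (hQ : Cfsg.IsOfSymplecticType Q) (B : Subgroup Q) (hBc : B.Characteristic) (hBa : IsMulCommutative B) (g : G) :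
    ((B.map Q.subtype).map C.subtype).map (MulAut.conj g).toMonoidHom = (B.map Q.subtype).map C.subtype ∨
      ((B.map Q.subtype).map C.subtype).map (MulAut.conj g).toMonoidHom ⊓ (B.map Q.subtype).map C.subtype = ⊥ := by
  set BG := (B.map Q.subtype).map C.subtype with hBG
  haveI : Fact (Nat.Prime 2) := ⟨Nat.prime_two⟩
  haveI := hBc
  have hQn : Q.Normal := hQF ▸ inferInstance
  haveI := hQn
  have hBn : (B.map Q.subtype).Normal := Core.normal_map_subtype_of_characteristic B
  have hBcyc : IsCyclic B := hQ.2 B hBc hBa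
  by_cases hbot : BG.map (MulAut.conj g).toMonoidHom ⊓ BG = ⊥
  · exact Or.inr hbot
  left
  -- the involution `z` in `Z(Q)`
  have hzC : z ∈ C := (hC z).2 rfl
  set z' : C := ⟨z, hzC⟩
  have hz'c : z' ∈ Subgroup.center C := Subgroup.mem_center_iff.2 fun c =>
    Subtype.ext ((hC _).1 c.2)
  have hz'Q : z' ∈ Q := by
    rw [hQF]
    refine Components.fitting_le_generalizedFitting ?_
    refine Components.le_fitting (N := Subgroup.center C) inferInstance
      (Components.isNilpotent_of_commute ?_) hz'c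
    rw [_root_.eq_bot_iff, Subgroup.commutator_le]
    intro u hu w _
    rw [Subgroup.mem_bot, commutatorElement_eq_one_iff_commute]
    exact ((Subgroup.mem_center_iff.1 hu) w).symm
  set zQ : Q := ⟨z', hz'Q⟩
  have hzQc : zQ ∈ Subgroup.center Q := Subgroup.mem_center_iff.2 fun q =>
    Subtype.ext ((Subgroup.mem_center_iff.1 hz'c) q)
  have hzQo : orderOf zQ = 2 := by rw [← hz, ← Subgroup.orderOf_coe zQ, ← Subgroup.orderOf_coe]
  have hZcyc : IsCyclic (Subgroup.center Q) := hQ.2 _ inferInstance inferInstance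
  -- every involution of `B` is `z`
  have hinv : ∀ b ∈ B, orderOf b = 2 → b = zQ := by
    intro b hb hbo
    refine Screen.eq_of_orderOf_eq_two_of_isCyclic hZcyc ?_ hzQc hbo hzQo
    refine Subgroup.mem_center_iff.2 fun q => mul_inv_eq_iff_eq_mul.1 ?_
    have hBnQ : B.Normal := inferInstance
    exact Screen.eq_of_orderOf_eq_two_of_isCyclic hBcyc (hBnQ.conj_mem b hb q) hb
      ((MulAut.conj q).orderOf_eq b |>.trans hbo) hbo
  have hB2 : IsPGroup 2 BG := ((hQ.1.to_subgroup B).map Q.subtype).map C.subtype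
  obtain ⟨v, hv, hv1⟩ := (Subgroup.ne_bot_iff_exists_ne_one.1 hbot) |> fun ⟨w, hw⟩ =>
    (⟨(w : G), w.2, fun e => hw (Subtype.ext e)⟩ : ∃ v, v ∈ BG.map (MulAut.conj g).toMonoidHom ⊓ BG ∧ v ≠ 1)
  obtain ⟨j, hj⟩ := IsPGroup.iff_orderOf.1 hB2 ⟨v, hv.2⟩
  rw [← Subgroup.orderOf_coe] at hj
  rcases j with _ | j
  · rw [pow_zero, orderOf_eq_one_iff] at hj
    exact absurd hj hv1
  set u := v ^ 2 ^ j
  have huo : orderOf u = 2 := by
    rw [orderOf_pow' _ (by positivity), show orderOf v = 2 ^ (j + 1) from hj,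
      Nat.gcd_eq_right (pow_dvd_pow 2 j.le_succ), pow_succ, Nat.mul_div_cancel_left _ (by positivity)]
  have hval : ∀ w ∈ BG, orderOf w = 2 → w = z := by
    rintro _ ⟨_, ⟨b, hb, rfl⟩, rfl⟩ hw
    have hb2 : orderOf b = 2 := by
      rw [← hw, show C.subtype (Q.subtype b) = ((b : C) : G) from rfl, Subgroup.orderOf_coe, Subgroup.orderOf_coe]
    rw [hinv b hb hb2]; rfl
  have hu1 := hval u (BG.pow_mem hv.2 _) huo
  obtain ⟨w, hw, hwe⟩ := Subgroup.pow_mem _ hv.1 (2 ^ j)
  have hwe' : g * w * g⁻¹ = u := hwe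
  have hwo : orderOf w = 2 := by
    rw [← huo, ← hwe']; exact ((MulAut.conj g).orderOf_eq w).symm
  rw [hval w hw hwo, hu1] at hwe'
  have hgC : g ∈ C := (hC g).2 (mul_inv_eq_iff_eq_mul.1 hwe')
  have hfix : ∀ c : C, ∀ b ∈ BG, (c : G) * b * (c : G)⁻¹ ∈ BG := by
    rintro c _ ⟨b, hb, rfl⟩
    exact ⟨c * b * c⁻¹, hBn.conj_mem b hb c, rfl⟩
  ext w
  constructor
  · rintro ⟨b, hb, rfl⟩; exact hfix ⟨g, hgC⟩ b hb
  · intro hw
    refine ⟨g⁻¹ * w * g, ?_, by simp [mul_assoc]⟩
    simpa using hfix ⟨g, hgC⟩⁻¹ w hw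

/-- Let G be a finite group and let z be an involution of G such that Q, the generalized Fitting subgroup of the centralizer C of z, is a 2-group of symplectic type (every characteristic abelian subgroup of Q is cyclic). Let B be a characteristic abelian subgroup of Q, viewed as a subgroup of G. Then for every g in G, the conjugate of B by g either equals B or meets B trivially. -/
theorem result {G : Type*} [Group G] [Finite G] (z : G) (hz : orderOf z = 2) (hQ : Cfsg.IsOfSymplecticType ↥(Cfsg.generalizedFittingSubgroup ↥(Subgroup.centralizer ({z} : Set G))))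
    (B : Subgroup ↥(Cfsg.generalizedFittingSubgroup ↥(Subgroup.centralizer ({z} : Set G)))) (hBc : B.Characteristic) (hBa : IsMulCommutative ↥B) (g : G) :
    ((B.map (Cfsg.generalizedFittingSubgroup ↥(Subgroup.centralizer ({z} : Set G))).subtype).map (Subgroup.centralizer ({z} : Set G)).subtype).map (MulAut.conj g).toMonoidHom =
        (B.map (Cfsg.generalizedFittingSubgroup ↥(Subgroup.centralizer ({z} : Set G))).subtype).map (Subgroup.centralizer ({z} : Set G)).subtype ∨
      ((B.map (Cfsg.generalizedFittingSubgroup ↥(Subgroup.centralizer ({z} : Set G))).subtype).map (Subgroup.centralizer ({z} : Set G)).subtype).map (MulAut.conj g).toMonoidHom ⊓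
        (B.map (Cfsg.generalizedFittingSubgroup ↥(Subgroup.centralizer ({z} : Set G))).subtype).map (Subgroup.centralizer ({z} : Set G)).subtype = ⊥ := by
  exact key z hz _ (fun _ => Subgroup.mem_centralizer_singleton_iff) _ rfl hQ B hBc hBa g

end Cfsg.Agent.S1755
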