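import Cfsg.Statements.S1756
import Cfsg.Agent.LocalEven.ExtraspecialCount
import Mathlib.Tactic.Group
import Mathlib.GroupTheory.Index
-- import your own Cfsg.Agent.* helpers here

set_option autoImplicit false
open Cfsg
open scoped commutatorElement

namespace Cfsg.Agent.S1756


theorem aux {Q : Type*} [Group Q] [Finite Q] (hQ : Cfsg.IsExtraspecial 2 Q) (φ : MulAut Q)
    (hφ : ∀ x, φ (φ x) = x) (M : Subgroup Q) (hM : ∀ m ∈ M, φ m = m) (hi : M.index = 2)
    (x : Q) (hx : x ∉ M) (hne : φ x ≠ x) :
    ∃ q : Q, ∀ y, φ y = q * y * q⁻¹ := by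
  haveI : Fact (Nat.Prime 2) := ⟨Nat.prime_two⟩
  have hcomm : commutator Q = Subgroup.center Q := FGS3.IsExtraspecial_commutator hQ
  haveI hMn : M.Normal := Subgroup.normal_of_index_eq_two hi
  have hsq : ∀ a : Q, a * a ∈ M := fun a => Subgroup.mul_self_mem_of_index_two hi a
  have hmul : ∀ a b : Q, a * b ∈ M ↔ (a ∈ M ↔ b ∈ M) :=
    fun a b => Subgroup.mul_mem_iff_of_index_two hi
  -- centre inside M
  have hZM : Subgroup.center Q ≤ M := by
    rw [← hcomm, commutator_eq_closure, Subgroup.closure_le]
    rintro _ ⟨a, b, rfl⟩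
    rw [commutatorElement_def, SetLike.mem_coe, hmul, hmul, hmul, M.inv_mem_iff, M.inv_mem_iff]
    tauto
  obtain ⟨z, hz, hz1⟩ : ∃ z ∈ Subgroup.center Q, z ≠ 1 := by
    by_contra h
    push Not at h
    have h1 : Subgroup.center Q = ⊥ := (Subgroup.eq_bot_iff_forall _).2 h
    have := hQ.2
    rw [h1, Subgroup.card_bot] at this
    omega
  have hZ2 : ∀ a ∈ Subgroup.center Q, a = 1 ∨ a = z := by
    intro a ha
    by_contra h
    push Not at h
    have hsub : ({1, z, a} : Set Q) ⊆ (Subgroup.center Q : Set Q) := by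
      rintro u (rfl | rfl | rfl)
      exacts [one_mem _, hz, ha]
    have := Set.ncard_le_ncard hsub (Set.toFinite _)
    rw [Set.ncard_eq_three.2 ⟨1, z, a, hz1.symm, h.1.symm, h.2.symm, rfl⟩] at this
    rw [show (Subgroup.center Q : Set Q).ncard = Nat.card (Subgroup.center Q) from rfl, hQ.2] at this
    omega
  -- an element outside the centre centralising M
  have hcard := LocalEven.card_centralizer_mul_card hQ hZM
  have hMi := M.card_mul_index
  rw [hi] at hMi
  have hC4 : Nat.card (Subgroup.centralizer (M : Set Q)) = 4 := by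
    have hpos : 0 < Nat.card M := Nat.card_pos
    rw [← hMi] at hcard
    nlinarith
  obtain ⟨q, hqC, hqZ⟩ : ∃ q ∈ Subgroup.centralizer (M : Set Q), q ∉ Subgroup.center Q := by
    by_contra h
    push Not at h
    have := Subgroup.card_le_of_le h
    rw [hQ.2, hC4] at this
    omega
  have hqM : Subgroup.centralizer ({q} : Set Q) = M := by
    have hle : M ≤ Subgroup.centralizer ({q} : Set Q) := fun m hm =>
      Subgroup.mem_centralizer_singleton_iff.2 (Subgroup.mem_centralizer_iff.1 hqC m hm)
    refine le_antisymm ?_ hle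
    have h1 := FGS3.IsExtraspecial_index_centralizer hQ hqZ
    have h2 := (Subgroup.centralizer ({q} : Set Q)).card_mul_index
    rw [h1] at h2
    have := Subgroup.eq_of_le_of_card_ge hle (by omega)
    exact this.ge
  -- conjugation by q moves x by z
  have hqx : q * x * q⁻¹ = x * z := by
    have hc : ⁅x⁻¹, q⁆ ∈ Subgroup.center Q := by
      rw [← hcomm]
      exact Subgroup.commutator_mem_commutator (Subgroup.mem_top _) (Subgroup.mem_top _)
    rcases hZ2 _ hc with h | h
    · exfalso
      refine hx (hqM ▸ Subgroup.mem_centralizer_singleton_iff.2 ?_)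
      have := commutatorElement_eq_one_iff_mul_comm.1 h
      calc x * q = x * (q * x⁻¹) * x := by group
        _ = x * (x⁻¹ * q) * x := by rw [this]
        _ = q * x := by group
    · rw [← h, commutatorElement_def]
      group
  -- φ x = x * c with c central
  obtain ⟨c, hc⟩ : ∃ c, φ x = x * c := ⟨x⁻¹ * φ x, by group⟩
  have hcM : ∀ m ∈ M, c * m = m * c := by
    intro m hm
    have h1 : φ (x * m * x⁻¹) = x * m * x⁻¹ := hM _ (hMn.conj_mem m hm x)
    rw [map_mul, map_mul, map_inv, hM m hm, hc] at h1
    calc c * m = x⁻¹ * (x * c * m * (x * c)⁻¹) * x * c := by group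
      _ = m * c := by rw [h1]; group
  have hcZ : c ∈ Subgroup.center Q := by
    by_contra hcz
    have hle : M ≤ Subgroup.centralizer ({c} : Set Q) := fun m hm =>
      Subgroup.mem_centralizer_singleton_iff.2 (hcM m hm).symm
    have hcM' : Subgroup.centralizer ({c} : Set Q) = M := by
      have h1 := FGS3.IsExtraspecial_index_centralizer hQ hcz
      have h2 := (Subgroup.centralizer ({c} : Set Q)).card_mul_index
      rw [h1] at h2
      exact (Subgroup.eq_of_le_of_card_ge hle (by omega)).symm
    have hcin : c ∈ M := hcM' ▸ Subgroup.mem_centralizer_singleton_iff.2 rfl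
    have hc2 : c * c = 1 := by
      have := hφ x
      rw [hc, map_mul, hc, hM c hcin, mul_assoc] at this
      exact mul_eq_left.1 this
    have h1 : φ (x * x) = x * x := hM _ (hsq x)
    rw [map_mul, hc] at h1
    -- so c commutes with x
    have h2 : c * x = x * c := by
      have : x * (c * x * c) = x * x := by rw [← h1]; group
      have h3 := mul_left_cancel this
      calc c * x = c * x * (c * c) := by rw [hc2, mul_one]
        _ = c * x * c * c := by group
        _ = x * c := by rw [h3]
    exact hx (hcM' ▸ Subgroup.mem_centralizer_singleton_iff.2 h2.symm)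
  have hcz' : c = z := by
    rcases hZ2 c hcZ with rfl | h
    · exact absurd (by rw [hc, mul_one]) hne
    · exact h
  refine ⟨q, fun y => ?_⟩
  by_cases hy : y ∈ M
  · rw [hM y hy, ← Subgroup.mem_centralizer_iff.1 hqC y hy, mul_inv_cancel_right]
  · have hm : x⁻¹ * y ∈ M := (hmul _ _).2 (by simp [M.inv_mem_iff, hx, hy])
    obtain ⟨m, hm2, rfl⟩ : ∃ m ∈ M, y = x * m := ⟨x⁻¹ * y, hm, by group⟩
    have hqm : q * m = m * q := (Subgroup.mem_centralizer_iff.1 hqC m hm2).symm
    rw [map_mul, hc, hM m hm2, hcz']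
    calc x * z * m = q * x * q⁻¹ * m := by rw [hqx]
      _ = q * x * (q⁻¹ * (m * q)) * q⁻¹ := by group
      _ = q * x * (q⁻¹ * (q * m)) * q⁻¹ := by rw [hqm]
      _ = q * (x * m) * q⁻¹ := by group

/-- Let Q be an extraspecial 2-subgroup of the finite group G (special with centre of order 2) and t an involution of G normalizing Q such that the centralizer of t in Q has index at most 2 in Q. Then t lies in the product of Q with the centralizer of Q. -/
theorem result {G : Type*} [Group G] [Finite G] (Q : Subgroup G)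
    (hQ : Cfsg.IsExtraspecial 2 ↥Q) (t : G) (ht : orderOf t = 2) (htN : t ∈ Subgroup.normalizer (Q : Set G))
    (hi : (Subgroup.centralizer ({t} : Set G) ⊓ Q).relIndex Q ≤ 2) :
    t ∈ Q ⊔ Subgroup.centralizer (Q : Set G) := by
  classical
  have hN : ∀ a : G, a ∈ Q → t * a * t⁻¹ ∈ Q := fun a ha =>
    (Subgroup.mem_normalizer_iff.1 htN a).1 ha
  have ht2 : t * t = 1 := by rw [← pow_two, ← ht]; exact pow_orderOf_eq_one t
  by_cases hfix : ∀ a ∈ Q, t * a * t⁻¹ = a
  · refine Subgroup.mem_sup_right (Subgroup.mem_centralizer_iff.2 fun a ha => ?_)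
    have := hfix a ha
    calc a * t = t * a * t⁻¹ * t := by rw [this]
      _ = t * a := by group
  push Not at hfix
  obtain ⟨a, haQ, hne⟩ := hfix
  set M : Subgroup Q := (Subgroup.centralizer ({t} : Set G) ⊓ Q).subgroupOf Q with hMdef
  have hfixM : ∀ m ∈ M, t * (m : G) * t⁻¹ = m := by
    intro m hm
    rw [hMdef, Subgroup.mem_subgroupOf, Subgroup.mem_inf,
      Subgroup.mem_centralizer_singleton_iff] at hm
    rw [← hm.1, mul_inv_cancel_right]
  have ha : (⟨a, haQ⟩ : Q) ∉ M := fun h => hne (hfixM _ h)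
  have hi2 : M.index = 2 := by
    have h0 : M.index ≠ 0 := Subgroup.index_ne_zero_of_finite
    have h1 : M.index ≠ 1 := fun h => ha (by rw [Subgroup.index_eq_one.1 h]; trivial)
    have : M.index ≤ 2 := hi
    omega
  let φ : MulAut Q :=
    { toFun := fun b => ⟨t * b * t⁻¹, hN b b.2⟩
      invFun := fun b => ⟨t * b * t⁻¹, hN b b.2⟩
      left_inv := fun b => Subtype.ext (by
        show t * (t * b * t⁻¹) * t⁻¹ = (b : G)
        rw [show t⁻¹ = t from inv_eq_of_mul_eq_one_left ht2]
        calc t * (t * b * t) * t = t * t * b * (t * t) := by group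
          _ = b := by rw [ht2, one_mul, mul_one])
      right_inv := fun b => Subtype.ext (by
        show t * (t * b * t⁻¹) * t⁻¹ = (b : G)
        rw [show t⁻¹ = t from inv_eq_of_mul_eq_one_left ht2]
        calc t * (t * b * t) * t = t * t * b * (t * t) := by group
          _ = b := by rw [ht2, one_mul, mul_one])
      map_mul' := fun b b' => Subtype.ext (by
        show t * ((b : G) * b') * t⁻¹ = t * b * t⁻¹ * (t * b' * t⁻¹)
        group) }
  obtain ⟨q, hq⟩ := aux hQ φ φ.left_inv M (fun m hm => Subtype.ext (hfixM m hm)) hi2 ⟨a, haQ⟩ ha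
    (fun h => hne (congrArg Subtype.val h))
  have h1 : (q : G)⁻¹ * t ∈ Subgroup.centralizer (Q : Set G) := by
    refine Subgroup.mem_centralizer_iff.2 fun b hb => ?_
    have := congrArg Subtype.val (hq ⟨b, hb⟩)
    simp only [Subgroup.coe_mul, Subgroup.coe_inv] at this
    have hb' : t * b * t⁻¹ = q * b * (q : G)⁻¹ := this
    calc b * ((q : G)⁻¹ * t) = (q : G)⁻¹ * (q * b * (q : G)⁻¹) * t := by group
      _ = (q : G)⁻¹ * (t * b * t⁻¹) * t := by rw [hb']
      _ = (q : G)⁻¹ * t * b := by group
  have : t = (q : G) * ((q : G)⁻¹ * t) := by group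
  rw [this]
  exact Subgroup.mul_mem_sup q.2 h1

end Cfsg.Agent.S1756
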