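import Cfsg.Statements.S1757
import Mathlib.Tactic.Group
-- import your own Cfsg.Agent.* helpers here

set_option autoImplicit false
open Cfsg

namespace Cfsg.Agent.S1757

/-- Let p be a prime and A, B p-subgroups of the finite group G, each of which meets every conjugate of itself other than itself trivially. Suppose the order of A is at most that of B, A and B intersect trivially, and B normalizes A. Then A and B commute elementwise. -/
theorem result {G : Type*} [Group G] [Finite G] (p : ℕ) [Fact p.Prime] (A B : Subgroup G)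
    (hA : IsPGroup p ↥A) (hB : IsPGroup p ↥B)
    (hAti : ∀ g : G, A.map (MulAut.conj g).toMonoidHom = A ∨ A.map (MulAut.conj g).toMonoidHom ⊓ A = ⊥)
    (hBti : ∀ g : G, B.map (MulAut.conj g).toMonoidHom = B ∨ B.map (MulAut.conj g).toMonoidHom ⊓ B = ⊥)
    (hle : Nat.card ↥A ≤ Nat.card ↥B) (hAB : A ⊓ B = ⊥) (hN : B ≤ Subgroup.normalizer (A : Set G)) : ⁅A, B⁆ = ⊥ := by
  rw [Subgroup.commutator_eq_bot_iff_le_centralizer]
  intro a ha
  rw [Subgroup.mem_centralizer_iff]
  by_contra hne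
  push Not at hne
  obtain ⟨b₀, hb₀, hab₀⟩ := hne
  -- `a` commutes with no nontrivial element of `B`
  have key : ∀ b ∈ B, b * a = a * b → b = 1 := by
    intro b hb hab
    by_contra hb1
    rcases hBti a with h | h
    · refine hab₀ ?_
      have hcB : a * b₀ * a⁻¹ ∈ B := by
        rw [← h]; exact Subgroup.mem_map.2 ⟨b₀, hb₀, rfl⟩
      have hA' : b₀ * a⁻¹ * b₀⁻¹ ∈ A :=
        (Subgroup.mem_normalizer_iff.1 (hN hb₀) a⁻¹).1 (A.inv_mem ha)
      have h1 : a * b₀ * a⁻¹ * b₀⁻¹ ∈ A ⊓ B := Subgroup.mem_inf.2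
        ⟨by rw [show a * b₀ * a⁻¹ * b₀⁻¹ = a * (b₀ * a⁻¹ * b₀⁻¹) by group]; exact A.mul_mem ha hA',
         B.mul_mem hcB (B.inv_mem hb₀)⟩
      rw [hAB, Subgroup.mem_bot, mul_inv_eq_one, mul_inv_eq_iff_eq_mul] at h1
      exact h1.symm
    · have hmem : b ∈ B.map (MulAut.conj a).toMonoidHom ⊓ B := Subgroup.mem_inf.2
        ⟨Subgroup.mem_map.2 ⟨b, hb, by
          show a * b * a⁻¹ = b
          rw [← hab, mul_inv_cancel_right]⟩, hb⟩
      rw [h, Subgroup.mem_bot] at hmem
      exact hb1 hmem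
  have ha1 : a ≠ 1 := fun h => hab₀ (by rw [h, mul_one, one_mul])
  have hf : ∀ b : B, (b : G) * a * (b : G)⁻¹ ∈ A := fun b =>
    (Subgroup.mem_normalizer_iff.1 (hN b.2) a).1 ha
  let f : B → A := fun b => ⟨_, hf b⟩
  have finj : Function.Injective f := by
    intro b c hbc
    have h' : (b : G) * a * (b : G)⁻¹ = (c : G) * a * (c : G)⁻¹ := congrArg Subtype.val hbc
    have h'' : ((c : G)⁻¹ * b) * a = a * ((c : G)⁻¹ * b) := by
      have h3 := congrArg (fun x => (c : G)⁻¹ * x * b) h'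
      simpa [mul_assoc] using h3
    exact Subtype.ext (inv_mul_eq_one.1 (key _ (B.mul_mem (B.inv_mem c.2) b.2) h'')).symm
  have hnsurj : ¬ Function.Surjective f := by
    intro hs
    obtain ⟨b, hb⟩ := hs 1
    refine ha1 ?_
    have h' : (b : G) * a * (b : G)⁻¹ = 1 := congrArg Subtype.val hb
    have h3 := congrArg (fun x => (b : G)⁻¹ * x * b) h'
    simpa [mul_assoc] using h3
  have hbij := Nat.card_le_card_of_injective f finj
  exact hnsurj ((Nat.bijective_iff_injective_and_card f).2 ⟨finj, le_antisymm hbij hle⟩).2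

end Cfsg.Agent.S1757
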