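import Cfsg.Statements.S1774
import Cfsg.Agent.TwoGroups.SymplecticConjugate
import Cfsg.Agent.Components.FStar
import Cfsg.Agent.Core.Fitting

set_option autoImplicit false
set_option linter.style.haveILetI false
open Cfsg

namespace Cfsg.Agent.S1774

/-- Let G be a finite group and let z be an involution of G such that Q, the generalized Fitting subgroup of the centralizer C of z, is a 2-group of symplectic type (every characteristic abelian subgroup of Q is cyclic); suppose every element of Q has order dividing 4. Let g ∈ G with z' = g z g⁻¹ ≠ z and z' ∈ Q. Then z lies in the conjugate g Q g⁻¹, and the subgroup X generated by Q and g Q g⁻¹ induces every automorphism of the four-group generated by z and z': for any two distinct non-identity elements u, v of that four-group there is x ∈ X with x z x⁻¹ = u and x z' x⁻¹ = v. -/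
theorem result {G : Type*} [Group G] [Finite G] (z : G) (hz : orderOf z = 2) (hQ : Cfsg.IsOfSymplecticType ↥(Cfsg.generalizedFittingSubgroup ↥(Subgroup.centralizer ({z} : Set G))))
    (h4 : ∀ q ∈ (Cfsg.generalizedFittingSubgroup ↥(Subgroup.centralizer ({z} : Set G))).map (Subgroup.centralizer ({z} : Set G)).subtype, q ^ 4 = 1) (g : G) (hne : g * z * g⁻¹ ≠ z) (hin : g * z * g⁻¹ ∈ (Cfsg.generalizedFittingSubgroup ↥(Subgroup.centralizer ({z} : Set G))).map (Subgroup.centralizer ({z} : Set G)).subtype) :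
    z ∈ ((Cfsg.generalizedFittingSubgroup ↥(Subgroup.centralizer ({z} : Set G))).map (Subgroup.centralizer ({z} : Set G)).subtype).map (MulAut.conj g).toMonoidHom ∧
      ∀ u ∈ Subgroup.closure ({z, g * z * g⁻¹} : Set G), ∀ v ∈ Subgroup.closure ({z, g * z * g⁻¹} : Set G),
        u ≠ 1 → v ≠ 1 → u ≠ v →
          ∃ x ∈ (Cfsg.generalizedFittingSubgroup ↥(Subgroup.centralizer ({z} : Set G))).map (Subgroup.centralizer ({z} : Set G)).subtype ⊔ ((Cfsg.generalizedFittingSubgroup ↥(Subgroup.centralizer ({z} : Set G))).map (Subgroup.centralizer ({z} : Set G)).subtype).map (MulAut.conj g).toMonoidHom, x * z * x⁻¹ = u ∧ x * (g * z * g⁻¹) * x⁻¹ = v := by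
    haveI := Fact.mk Nat.prime_two
    set C := Subgroup.centralizer ({z} : Set G) with hC
    set F := Cfsg.generalizedFittingSubgroup ↥C with hF
    set Q := F.map C.subtype with hQdef
    have hzC : z ∈ C := Subgroup.mem_centralizer_singleton_iff.mpr rfl
    have hzz : (⟨z, hzC⟩ : ↥C) ∈ Subgroup.center ↥C :=
      Subgroup.mem_center_iff.mpr fun g => Subtype.ext (Subgroup.mem_centralizer_singleton_iff.mp g.2)
    have hzF : (⟨z, hzC⟩ : ↥C) ∈ F := Cfsg.Agent.Components.fitting_le_generalizedFitting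
      (Cfsg.Agent.Core.le_fittingSubgroup inferInstance (Cfsg.Agent.Components.isNilpotent_of_commute
        (le_bot_iff.mp (Subgroup.commutator_le.mpr fun a ha b _ => Subgroup.mem_bot.mpr
          (commutatorElement_eq_one_iff_mul_comm.mpr (Subgroup.mem_center_iff.mp ha b).symm)))) hzz)
    have hzo : orderOf (⟨⟨z, hzC⟩, hzF⟩ : ↥F) = 2 := by rw [← hz, ← Subgroup.orderOf_coe, ← Subgroup.orderOf_coe]
    have hzc : (⟨⟨z, hzC⟩, hzF⟩ : ↥F) ∈ Subgroup.center ↥F :=
      Subgroup.mem_center_iff.mpr fun q => Subtype.ext (Subgroup.mem_center_iff.mp hzz q.1)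
    obtain ⟨hcomm, hsq, hinv⟩ := Cfsg.Agent.TwoGroups.sympCore_facts (F := ↥F) hQ
      (fun q => Subtype.ext (Subtype.ext (h4 ((q : ↥C) : G) ⟨_, q.2, rfl⟩))) hzo hzc
    have hval : ∀ y : ↥F, y ∈ Subgroup.zpowers (⟨⟨z, hzC⟩, hzF⟩ : ↥F) → ((y : ↥C) : G) ∈ Subgroup.zpowers z := by
      rintro _ ⟨i, rfl⟩
      exact ⟨i, rfl⟩
    have hcore : Cfsg.Agent.TwoGroups.SympCore z Q := by
      refine ⟨by rw [← pow_two, ← hz, pow_orderOf_eq_one], fun e => by rw [e, orderOf_one] at hz; omega,
        ⟨_, hzF, rfl⟩, ?_, ?_, ?_, ?_, ?_, ?_⟩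
      · rintro _ ⟨q, -, rfl⟩
        exact Subgroup.mem_centralizer_singleton_iff.mp q.2
      · rintro x hx _ ⟨q, hq, rfl⟩
        exact ⟨⟨x, Subgroup.mem_centralizer_singleton_iff.mpr hx⟩ * q *
          (⟨x, Subgroup.mem_centralizer_singleton_iff.mpr hx⟩ : ↥C)⁻¹,
          Cfsg.Agent.Components.generalizedFitting_normal.conj_mem q hq _, rfl⟩
      · intro x hx hc
        exact ⟨⟨x, Subgroup.mem_centralizer_singleton_iff.mpr hx⟩,
          Cfsg.Agent.Components.centralizer_generalizedFitting_le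
            (Subgroup.mem_centralizer_iff.mpr fun q hq => Subtype.ext (hc _ ⟨q, hq, rfl⟩).symm), rfl⟩
      · rintro _ ⟨a, ha, rfl⟩ _ ⟨b, hb, rfl⟩
        exact hval _ (hcomm ⟨a, ha⟩ ⟨b, hb⟩)
      · rintro _ ⟨a, ha, rfl⟩
        exact hval _ (hsq ⟨a, ha⟩)
      · rintro _ ⟨y, hy, rfl⟩ hy2 hyc
        rcases hinv ⟨y, hy⟩ (Subgroup.mem_center_iff.mpr fun q => Subtype.ext (Subtype.ext (hyc _ ⟨q.1, q.2, rfl⟩)))
          (Subtype.ext (Subtype.ext hy2)) with e | e
        · exact Or.inl (congrArg (fun t : ↥F => ((t : ↥C) : G)) e)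
        · exact Or.inr (congrArg (fun t : ↥F => ((t : ↥C) : G)) e)
    exact ⟨hcore.mem_conj g hne hin, hcore.transitive g hne hin⟩

end Cfsg.Agent.S1774
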