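import Cfsg.Statements.S1775
import Cfsg.Agent.Components.LBalance
import Cfsg.Agent.Components.FStar
import Cfsg.Agent.Components.PComponent

set_option autoImplicit false
set_option linter.style.haveILetI false
open Cfsg

namespace Cfsg.Agent.S1775

open Cfsg.Agent.Components Cfsg.Agent.Components.LBalance
open scoped commutatorElement

theorem centralizer_data {G : Type*} [Group G] [Finite G]
    (hF : IsSimpleGroup ↥(Cfsg.generalizedFittingSubgroup G))
    (hF' : ¬ IsMulCommutative ↥(Cfsg.generalizedFittingSubgroup G)) (y : G) (hy : orderOf y = 2)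
    (x : G) (hxy : x * y = y * x) :
    Subgroup.centralizer ({y} : Set G) ≠ ⊤ ∧ x ∈ Subgroup.centralizer ({y} : Set G) := by
  refine ⟨fun h => ?_, Subgroup.mem_centralizer_singleton_iff.mpr hxy⟩
  set F := Cfsg.generalizedFittingSubgroup G
  have hyc : ∀ g : G, g * y = y * g := fun g =>
    Subgroup.mem_centralizer_singleton_iff.mp (h ▸ Subgroup.mem_top g)
  have hyF : y ∈ F := centralizer_generalizedFitting_le
    (Subgroup.mem_centralizer_iff.mpr fun g _ => hyc g)
  have hz : (⟨y, hyF⟩ : F) ∈ Subgroup.center F :=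
    Subgroup.mem_center_iff.mpr fun g => Subtype.ext (hyc g)
  rcases (inferInstance : (Subgroup.center F).Normal).eq_bot_or_eq_top with hb | ht
  · rw [hb, Subgroup.mem_bot] at hz
    have : y = 1 := congrArg Subtype.val hz
    rw [this, orderOf_one] at hy
    omega
  · exact hF' (Subgroup.center_eq_top_iff.mp ht)

theorem core_statement {G : Type*} [Group G] [Finite G] (Y : Subgroup G)
    (hB : Cfsg.HasBProperty (↥Y ⧸ Cfsg.oddCore ↥Y))
    (x' : G) (hx : orderOf x' = 2) (hxY : x' ∈ Y)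
    (Cx : Subgroup G) (hCx : Cx = Subgroup.centralizer ({x'} : Set G))
    (D : Subgroup G) (hD : D = (Cfsg.pLayer 2 ↥Cx).map Cx.subtype ⊓ Y)
    (J : Subgroup ↥D) (hJ : Cfsg.IsPComponent 2 J) :
    Cfsg.IsComponent
        ((((J.map D.subtype).subgroupOf Y).map (QuotientGroup.mk' (Cfsg.oddCore ↥Y))).subgroupOf
          (Subgroup.centralizer ({(QuotientGroup.mk' (Cfsg.oddCore ↥Y) ⟨x', hxY⟩ : ↥Y ⧸ Cfsg.oddCore ↥Y)} : Set _))) ∧
      ∀ E : Subgroup G, E ≤ Cx ⊓ Y → Odd (Nat.card ↥E) →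
        (∀ j ∈ J.map D.subtype, ∀ e ∈ E, j * e * j⁻¹ ∈ E) →
          ⁅J.map D.subtype, E⁆ ≤ (Cfsg.oddCore ↥Y).map Y.subtype := by
  classical
  haveI : Fact (Nat.Prime 2) := ⟨Nat.prime_two⟩
  set q := QuotientGroup.mk' (Cfsg.oddCore ↥Y) with hq
  set X₀ : ↥Y ⧸ Cfsg.oddCore ↥Y := q ⟨x', hxY⟩ with hX₀
  set C := Subgroup.centralizer ({X₀} : Set (↥Y ⧸ Cfsg.oddCore ↥Y)) with hC
  have hOY : Cfsg.oddCore (↥Y ⧸ Cfsg.oddCore ↥Y) = ⊥ :=
    Cfsg.Agent.Core.pPrimeCore_quotient_pPrimeCore 2 ↥Y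
  have hx2 : x' ^ 2 = 1 := by rw [← hx, pow_orderOf_eq_one]
  have hnotO : (⟨x', hxY⟩ : ↥Y) ∉ Cfsg.oddCore ↥Y := by
    intro h
    have h1 := (Core.card_pPrimeCore_coprime 2 ↥Y).coprime_dvd_left (Subgroup.orderOf_dvd_natCard _ h)
    rw [Subgroup.orderOf_mk, hx] at h1
    simp at h1
  have hX₀ord : orderOf X₀ = 2 := by
    rw [orderOf_eq_prime_iff]
    refine ⟨?_, fun h => hnotO ((QuotientGroup.eq_one_iff _).mp h)⟩
    rw [hX₀, ← map_pow, show (⟨x', hxY⟩ : ↥Y) ^ 2 = 1 from Subtype.ext hx2, map_one]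
  -- the map into the centralizer in the quotient
  let inc : ↥(Cx ⊓ Y) →* ↥Y := Subgroup.inclusion inf_le_right
  let g₀ : ↥(Cx ⊓ Y) →* ↥C := (q.comp inc).codRestrict C fun w => by
    rw [hC, Subgroup.mem_centralizer_singleton_iff]
    show q (inc w) * q ⟨x', hxY⟩ = q ⟨x', hxY⟩ * q (inc w)
    rw [← map_mul, ← map_mul]
    congr 1
    apply Subtype.ext
    have hw : (w : G) ∈ Subgroup.centralizer ({x'} : Set G) := hCx ▸ w.2.1
    exact Subgroup.mem_centralizer_singleton_iff.mp hw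
  have hg₀ : Function.Surjective g₀ := by
    rintro ⟨z, hz⟩
    obtain ⟨w, rfl⟩ := QuotientGroup.mk'_surjective (Cfsg.oddCore ↥Y) z
    rw [hC, Subgroup.mem_centralizer_singleton_iff, hX₀, ← map_mul, ← map_mul] at hz
    have hT : IsPGroup 2 (Subgroup.zpowers (⟨x', hxY⟩ : ↥Y)) :=
      IsPGroup.of_card (n := 1) (by rw [Nat.card_zpowers, Subgroup.orderOf_mk, hx, pow_one])
    obtain ⟨n, hn, hnw⟩ := exists_mul_mem_normalizer hT (g := w) (fun t ht => by
      refine ⟨t, ht, ?_⟩
      obtain ⟨k, rfl⟩ := Subgroup.mem_zpowers_iff.mp ht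
      have h2 : Commute (q w) (q ⟨x', hxY⟩ ^ k) :=
        Commute.zpow_right (show Commute (q w) (q ⟨x', hxY⟩) by
          show _ = _
          rw [← map_mul, ← map_mul]
          exact hz) k
      show q (⟨x', hxY⟩ ^ k) = q (w * ⟨x', hxY⟩ ^ k * w⁻¹)
      rw [map_mul, map_mul, map_inv, map_zpow, h2.eq, mul_inv_cancel_right])
    have hfix : n * w * ⟨x', hxY⟩ = ⟨x', hxY⟩ * (n * w) := by
      have h1 := (Subgroup.mem_normalizer_iff.mp hnw ⟨x', hxY⟩).mp (Subgroup.mem_zpowers _)
      rw [mem_zpowers_iff_mem_range_orderOf, Subgroup.orderOf_mk, hx, Finset.mem_image] at h1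
      obtain ⟨i, hi, he⟩ := h1
      rw [Finset.mem_range] at hi
      interval_cases i
      · exfalso
        rw [pow_zero, eq_comm, mul_inv_eq_one] at he
        have h3 : (⟨x', hxY⟩ : ↥Y) = 1 := by
          have h4 := congrArg (fun t => (n * w)⁻¹ * t) he
          simpa [mul_assoc] using h4
        exact hnotO (h3 ▸ Subgroup.one_mem _)
      · rw [pow_one] at he
        conv_rhs => rw [he, inv_mul_cancel_right]
    have hW : ((n * w : ↥Y) : G) ∈ Cx ⊓ Y := by
      refine ⟨?_, (n * w).2⟩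
      rw [hCx]
      exact Subgroup.mem_centralizer_singleton_iff.mpr
        (congrArg Subtype.val hfix)
    refine ⟨⟨_, hW⟩, Subtype.ext ?_⟩
    show q (n * w) = q w
    rw [map_mul, show q n = 1 from (QuotientGroup.eq_one_iff n).mpr hn, one_mul]
  have hDle : D ≤ Cx ⊓ Y := hD.le.trans (inf_le_inf_right Y (Subgroup.map_subtype_le _))
  let f : ↥D →* ↥C := g₀.comp (Subgroup.inclusion hDle)
  have hr : f.range.Normal := by
    rw [MonoidHom.range_eq_map, ← Subgroup.map_map, ← MonoidHom.range_eq_map]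
    haveI : (Subgroup.inclusion hDle).range.Normal := by
      constructor
      rintro w ⟨d, rfl⟩ a
      have hmem : (a : G) * (d : G) * (a : G)⁻¹ ∈ D := by
        apply hD.ge
        refine ⟨?_, Y.mul_mem (Y.mul_mem a.2.2 (hD.le d.2).2) (Y.inv_mem a.2.2)⟩
        obtain ⟨l, hl, hle⟩ := (hD.le d.2).1
        haveI : (Cfsg.pLayer 2 ↥Cx).Normal := pLayer_normal
        exact ⟨⟨(a : G), a.2.1⟩ * l * ⟨(a : G), a.2.1⟩⁻¹, Subgroup.Normal.conj_mem inferInstance l hl _,
          by rw [← hle]; rfl⟩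
      exact ⟨⟨_, hmem⟩, Subtype.ext rfl⟩
    exact Subgroup.Normal.map inferInstance _ hg₀
  have hker : (Nat.card f.ker).Coprime 2 := by
    let ι : ↥D →* ↥Y := inc.comp (Subgroup.inclusion hDle)
    have hι : Function.Injective ι := fun a b h =>
      Subtype.ext (show (a : G) = (b : G) from congrArg (fun t : ↥Y => (t : G)) h)
    refine (Core.card_pPrimeCore_coprime 2 ↥Y).coprime_dvd_left ?_
    rw [Nat.card_congr (f.ker.equivMapOfInjective ι hι).toEquiv]
    refine Subgroup.card_dvd_of_le ?_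
    rintro _ ⟨d, hd, rfl⟩
    exact (QuotientGroup.eq_one_iff _).mp (congrArg Subtype.val (MonoidHom.mem_ker.mp hd))
  have hset : ((J.map D.subtype).subgroupOf Y).map q = (J.map f).map C.subtype := by
    ext z
    constructor
    · rintro ⟨w, ⟨d, hd, hdw⟩, rfl⟩
      refine ⟨f d, ⟨d, hd, rfl⟩, ?_⟩
      show q (inc (Subgroup.inclusion hDle d)) = q w
      congr 1
      exact Subtype.ext hdw
    · rintro ⟨_, ⟨d, hd, rfl⟩, rfl⟩
      exact ⟨⟨(d : G), (hD.le d.2).2⟩, ⟨d, hd, rfl⟩, rfl⟩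
  -- the component upstairs
  have hCc : Cfsg.IsComponent ((J.map f).map (pBar 2 ↥C)) := by
    have h := (isComponent_map_iff (barMap_injective f hker hr)
      (barMap_range_normal f hker hr).isSubnormal _).mpr hJ.2.1
    convert h using 1
    rw [Subgroup.map_map, Subgroup.map_map]
    rfl
  have hK := isPComponent_pComp hCc
  set K := pComp ((J.map f).map (pBar 2 ↥C)) with hKdef
  have hJK : J.map f ≤ K := by
    conv_lhs => rw [pComponent_eq hJ]
    refine (map_pGen_le f _).trans (pGen_mono ?_)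
    rintro _ ⟨w, hw, rfl⟩
    rw [Subgroup.mem_comap]
    obtain ⟨j, hj, hje⟩ := hw
    refine ⟨f j, ⟨j, hj, rfl⟩, ?_⟩
    exact congrArg (barMap f hker hr) hje
  have hKq : Cfsg.IsQuasisimple ↥K := by
    rw [pComponent_quasisimple_iff hK, ← le_bot_iff]
    have h1 := hB X₀ hX₀ord
    rw [hOY, le_bot_iff, Subgroup.map_eq_bot_iff_of_injective _ C.subtype_injective] at h1
    refine le_trans (Subgroup.commutator_mono (pComponent_le_pLayer hK) ?_) h1.le
    rw [pPrimeCore_map_subtype hK.1]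
    exact inf_le_right
  have hJsn : (J.map f).IsSubnormal := isSubnormal_map_injective hr.isSubnormal hJ.1
  have hJeq : J.map f = K := by
    refine le_antisymm hJK ?_
    rcases quasisimple_subnormal_eq_top_or_le_center hKq (hJsn.subgroupOf (K := K)) with h | h
    · exact Subgroup.subgroupOf_eq_top.mp h
    · exfalso
      apply component_not_commute hCc
      rw [← Subgroup.map_commutator, Subgroup.map_eq_bot_iff,
        show ⁅J.map f, J.map f⁆ = ⊥ from ?_]
      · exact bot_le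
      · rw [Subgroup.commutator_eq_bot_iff_le_centralizer]
        intro a ha
        rw [Subgroup.mem_centralizer_iff]
        intro b hb
        exact congrArg Subtype.val
          (Subgroup.mem_center_iff.mp (h (x := ⟨a, hJK ha⟩) ha) ⟨b, hJK hb⟩)
  have hcomp : Cfsg.IsComponent (J.map f) := hJeq ▸ ⟨hK.1, hKq⟩
  refine ⟨?_, ?_⟩
  · rw [hset, Subgroup.subgroupOf, Subgroup.comap_map_eq_self_of_injective C.subtype_injective]
    exact hcomp
  intro E hE hodd hconj
  rw [Subgroup.commutator_le]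
  rintro _ ⟨d, hd, rfl⟩ e he
  -- the image of `E`
  set Ec : Subgroup ↥C := (E.subgroupOf (Cx ⊓ Y)).map g₀ with hEc
  have hEcop : (Nat.card Ec).Coprime 2 := by
    refine Nat.Coprime.coprime_dvd_left (Subgroup.card_map_dvd _ _) ?_
    rw [Core.card_subgroupOf hE]
    exact (Nat.coprime_two_right).mpr hodd
  set H := J.map f ⊔ Ec with hH
  haveI hEn : (Ec.subgroupOf H).Normal := by
    rw [Subgroup.normal_subgroupOf_iff_le_normalizer le_sup_right]
    refine sup_le ?_ Subgroup.le_normalizer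
    rintro _ ⟨j, hj, rfl⟩
    rw [Subgroup.mem_normalizer_iff]
    have key : ∀ (j : ↥D), j ∈ J → ∀ w ∈ Ec, f j * w * (f j)⁻¹ ∈ Ec := by
      rintro j hj _ ⟨w, hw, rfl⟩
      refine ⟨Subgroup.inclusion hDle j * w * (Subgroup.inclusion hDle j)⁻¹,
        hconj _ ⟨j, hj, rfl⟩ _ hw, ?_⟩
      rw [map_mul, map_mul, map_inv]
      rfl
    intro w
    refine ⟨key j hj w, fun h => ?_⟩
    have h2 := key j⁻¹ (J.inv_mem hj) _ h
    simpa [mul_assoc] using h2
  have hJH := isComponent_subgroupOf (S := H) hcomp le_sup_left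
  rcases component_le_or_commutator_normal hJH (Ec.subgroupOf H) with hle | hbot
  · exfalso
    have hle' : J.map f ≤ Ec := by
      intro a ha
      exact hle (x := ⟨a, le_sup_left (b := Ec) ha⟩) ha
    have h2 : 2 ∣ Nat.card Ec :=
      (hJeq ▸ pComponent_dvd_card hK : 2 ∣ Nat.card (J.map f)).trans (Subgroup.card_dvd_of_le hle')
    have h3 := Nat.dvd_gcd h2 (dvd_refl 2)
    rw [hEcop] at h3
    omega
  · have hfe : (g₀ ⟨e, hE he⟩ : ↥C) ∈ Ec := ⟨⟨e, hE he⟩, he, rfl⟩
    have hm := Subgroup.commutator_mem_commutator (H₁ := (J.map f).subgroupOf H)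
      (H₂ := Ec.subgroupOf H) (g₁ := ⟨f d, le_sup_left (b := Ec) ⟨d, hd, rfl⟩⟩)
      (g₂ := ⟨g₀ ⟨e, hE he⟩, le_sup_right (a := J.map f) hfe⟩) ⟨d, hd, rfl⟩ hfe
    rw [hbot, Subgroup.mem_bot] at hm
    have h4 : q (⁅(⟨(d : G), (hD.le d.2).2⟩ : ↥Y), (⟨e, (hE he).2⟩ : ↥Y)⁆) = 1 := by
      rw [map_commutatorElement]
      exact congrArg Subtype.val (congrArg Subtype.val hm)
    exact ⟨_, (QuotientGroup.eq_one_iff _).mp h4, rfl⟩

/-- Let G be a finite group whose generalized Fitting subgroup is a non-abelian simple group and in which every proper section (every quotient H/N of a proper subgroup H, or of G by a nontrivial normal subgroup) has the B-property. Let x, y be commuting involutions, let D be the intersection of the 2-layer of C_G(x) with C_G(y), and let J be a 2-component of D. Write Q for the quotient of C_G(y) by its largest normal odd-order subgroup. Then (i) the image of J in Q is a component of the centralizer in Q of the image of x; and (ii) for every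 J-invariant subgroup E of odd order of C_G(x) ∩ C_G(y), the commutator subgroup [J, E] lies in the largest normal odd-order subgroup of C_G(y). -/
theorem result {G : Type*} [Group G] [Finite G]
    (hF : IsSimpleGroup ↥(Cfsg.generalizedFittingSubgroup G)) (hF' : ¬ IsMulCommutative ↥(Cfsg.generalizedFittingSubgroup G))
    (hsec : ∀ (H : Subgroup G) (N : Subgroup ↥H) [N.Normal], (H ≠ ⊤ ∨ N ≠ ⊥) → Cfsg.HasBProperty (↥H ⧸ N))
    (x y : G) (hx : orderOf x = 2) (hy : orderOf y = 2) (hxy : x * y = y * x)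
    (J : Subgroup ↥((Cfsg.pLayer 2 ↥(Subgroup.centralizer ({x} : Set G))).map (Subgroup.centralizer ({x} : Set G)).subtype ⊓ Subgroup.centralizer ({y} : Set G)))
    (hJ : Cfsg.IsPComponent 2 J) :
    Cfsg.IsComponent
        ((((J.map (Subgroup.subtype _)).subgroupOf (Subgroup.centralizer ({y} : Set G))).map (QuotientGroup.mk' (Cfsg.oddCore ↥(Subgroup.centralizer ({y} : Set G))))).subgroupOf
          (Subgroup.centralizer ({(QuotientGroup.mk' (Cfsg.oddCore ↥(Subgroup.centralizer ({y} : Set G))) ⟨x, Subgroup.mem_centralizer_singleton_iff.mpr hxy⟩ : ↥(Subgroup.centralizer ({y} : Set G)) ⧸ Cfsg.oddCore ↥(Subgroup.centralizer ({y} : Set G)))} : Set _))) ∧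
      ∀ E : Subgroup G, E ≤ Subgroup.centralizer ({x} : Set G) ⊓ Subgroup.centralizer ({y} : Set G) → Odd (Nat.card ↥E) →
        (∀ j ∈ J.map (Subgroup.subtype _), ∀ e ∈ E, j * e * j⁻¹ ∈ E) →
          ⁅J.map (Subgroup.subtype _), E⁆ ≤ (Cfsg.oddCore ↥(Subgroup.centralizer ({y} : Set G))).map (Subgroup.centralizer ({y} : Set G)).subtype := by
    obtain ⟨hyY, hxY⟩ := centralizer_data hF hF' y hy x hxy
    have hB : Cfsg.HasBProperty (↥(Subgroup.centralizer ({y} : Set G)) ⧸
        Cfsg.oddCore ↥(Subgroup.centralizer ({y} : Set G))) := hsec _ _ (Or.inl hyY)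
    exact core_statement _ hB x hx hxY _ rfl _ rfl J hJ

end Cfsg.Agent.S1775
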