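import Cfsg.Statements.S1780
-- import your own Cfsg.Agent.* helpers here

set_option autoImplicit false
open Cfsg

namespace Cfsg.Agent.S1780

/-- Let A be a finite abelian 2-group and t an automorphism of A whose order is a power of 2. If every element of A fixed by t² is fixed by t, then t fixes every element of A. -/
theorem result {A : Type*} [CommGroup A] [Finite A]
    (hA : IsPGroup 2 A) (t : MulAut A) (ht : ∃ k : ℕ, orderOf t = 2 ^ k) (hC : ∀ a : A, t (t a) = a → t a = a) :
    ∀ a : A, t a = a := by
  obtain ⟨k, hk⟩ := ht
  have hom : ∀ i : ℕ, ∀ a : A, a * a = 1 → (t ^ 2 ^ i) a = a → t a = a := by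
    intro i
    induction i with
    | zero => intro a _ h; simpa using h
    | succ i ih =>
      intro a aa h
      set s := t ^ 2 ^ i with hs
      have hss : s (s a) = a := by
        rw [← MulAut.mul_apply, hs, ← pow_add, ← two_mul, ← pow_succ']
        exact h
      have hst : s (t a) = t (s a) := by
        rw [← MulAut.mul_apply, ← MulAut.mul_apply, hs, ← pow_succ, pow_succ']
      have sa2 : s a * s a = 1 := by rw [← map_mul, aa, map_one]
      have ta2 : t a * t a = 1 := by rw [← map_mul, aa, map_one]
      have hb : t (s a * a) = s a * a := by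
        refine ih _ ?_ ?_
        · rw [mul_mul_mul_comm, sa2, aa, one_mul]
        · rw [map_mul, hss, mul_comm]
      have htsa : t (s a) = s a * a * t a := by
        rw [map_mul] at hb
        calc t (s a) = t (s a) * t a * t a := by rw [mul_assoc, ta2, mul_one]
          _ = s a * a * t a := by rw [hb]
      have he : t (t a * a) = t a * a := by
        refine ih _ ?_ ?_
        · rw [mul_mul_mul_comm, ta2, aa, one_mul]
        · rw [map_mul, hst, htsa]
          calc s a * a * t a * s a = s a * s a * (t a * a) := by ac_rfl
            _ = t a * a := by rw [sa2, one_mul]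
      apply hC
      rw [map_mul, mul_comm (t a) a] at he
      exact mul_right_cancel he
  have hΩ : ∀ a : A, a * a = 1 → t a = a := fun a aa => hom k a aa (by
    rw [← hk, pow_orderOf_eq_one, MulAut.one_apply])
  have main : ∀ n : ℕ, ∀ a : A, a ^ 2 ^ n = 1 → t a = a := by
    intro n
    induction n with
    | zero => intro a h; rw [pow_zero, pow_one] at h; rw [h, map_one]
    | succ n ih =>
      intro a h
      have h2 : t a * t a = a * a := by
        rw [← map_mul]
        exact ih _ (by rw [← pow_two, ← pow_mul, ← pow_succ']; exact h)
      have hd : t (t a * a⁻¹) = t a * a⁻¹ := by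
        refine hΩ _ ?_
        rw [mul_mul_mul_comm, h2, ← mul_inv_rev, mul_inv_cancel]
      apply hC
      rw [map_mul, map_inv, mul_inv_eq_iff_eq_mul] at hd
      rw [hd, mul_right_comm, h2, mul_inv_cancel_right]
  intro a
  obtain ⟨n, hn⟩ := hA a
  exact main n a hn

end Cfsg.Agent.S1780
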