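import Cfsg.Statements.S1781
import Mathlib.GroupTheory.PGroup
import Mathlib.Tactic.Group
import Mathlib.GroupTheory.Commutator.Basic
-- import your own Cfsg.Agent.* helpers here

set_option autoImplicit false
open Cfsg

namespace Cfsg.Agent.S1781

/-- An element fixing a nontrivial element of a TI subgroup normalizes it. -/
theorem mem_normalizer_of_fixed {G : Type*} [Group G] (A : Subgroup G)
    (hti : ∀ h : G, A.map (MulAut.conj h).toMonoidHom = A ∨ A.map (MulAut.conj h).toMonoidHom ⊓ A = ⊥)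
    {a c : G} (ha : a ∈ A) (ha1 : a ≠ 1) (hc : Commute c a) : c ∈ Subgroup.normalizer (A : Set G) := by
  rcases hti c with h | h
  · refine Subgroup.mem_normalizer_iff.2 fun n => ?_
    conv_rhs => rw [← h]
    rw [Subgroup.mem_map]
    constructor
    · exact fun hn => ⟨n, hn, rfl⟩
    · rintro ⟨m, hm, hme⟩
      have : m = n := (MulAut.conj c).injective hme
      exact this ▸ hm
  · exfalso
    have hm : a ∈ A.map (MulAut.conj c).toMonoidHom ⊓ A :=
      ⟨⟨a, ha, by simp [hc.eq]⟩, ha⟩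
    rw [h, Subgroup.mem_bot] at hm
    exact ha1 hm

/-- Conjugates of TI subgroups are TI. -/
theorem ti_conj {G : Type*} [Group G] {A : Subgroup G}
    (hti : ∀ h : G, A.map (MulAut.conj h).toMonoidHom = A ∨ A.map (MulAut.conj h).toMonoidHom ⊓ A = ⊥) (g h : G) :
    (A.map (MulAut.conj g).toMonoidHom).map (MulAut.conj h).toMonoidHom = A.map (MulAut.conj g).toMonoidHom ∨
      (A.map (MulAut.conj g).toMonoidHom).map (MulAut.conj h).toMonoidHom ⊓ A.map (MulAut.conj g).toMonoidHom = ⊥ := by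
  have key : (A.map (MulAut.conj g).toMonoidHom).map (MulAut.conj h).toMonoidHom =
      (A.map (MulAut.conj (g⁻¹ * h * g)).toMonoidHom).map (MulAut.conj g).toMonoidHom := by
    rw [Subgroup.map_map, Subgroup.map_map]
    congr 1
    ext v
    simp [mul_assoc]
  rw [key]
  rcases hti (g⁻¹ * h * g) with h' | h'
  · left; rw [h']
  · right
    rw [← Subgroup.map_inf _ _ _ (MulAut.conj g).injective, h', Subgroup.map_bot]

/-- An element of a TI subgroup normalizing another abelian 2-subgroup, with nontrivial square,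
centralizes it. -/
theorem central_of_sq_ne_one {G : Type*} [Group G] [Finite G] (A B : Subgroup G)
    (hA2 : IsPGroup 2 A) (hB2 : IsPGroup 2 B)
    (hti : ∀ h : G, A.map (MulAut.conj h).toMonoidHom = A ∨ A.map (MulAut.conj h).toMonoidHom ⊓ A = ⊥)
    (hcA : ∀ x ∈ A, ∀ y ∈ A, Commute x y) (hcB : ∀ x ∈ B, ∀ y ∈ B, Commute x y) (hAB : A ⊓ B = ⊥)
    {a : G} (ha : a ∈ A) (haB : a ∈ Subgroup.normalizer (B : Set G)) (ha2 : a * a ≠ 1) :
    ∀ b ∈ B, Commute a b := by
  have ha1 : a ≠ 1 := fun e => ha2 (by rw [e, one_mul])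
  -- `δ b = b a b⁻¹ a⁻¹`
  have hδB : ∀ b ∈ B, b * a * b⁻¹ * a⁻¹ ∈ B := fun b hb => by
    rw [show b * a * b⁻¹ * a⁻¹ = b * (a * b⁻¹ * a⁻¹) by group]
    exact B.mul_mem hb (((Subgroup.mem_normalizer_iff).1 haB _).1 (B.inv_mem hb))
  have hzero : ∀ b ∈ B, Commute (b * a * b⁻¹ * a⁻¹) a → (b * a * b⁻¹ * a⁻¹) * (b * a * b⁻¹ * a⁻¹) = 1 →
      b * a * b⁻¹ * a⁻¹ = 1 := by
    intro b hb hcom h2
    set w := b * a * b⁻¹ * a⁻¹ with hw
    have e1 : b * a * b⁻¹ = w * a := by rw [hw]; group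
    have e2 : b * (a * a) * b⁻¹ = a * a := by
      calc b * (a * a) * b⁻¹ = (b * a * b⁻¹) * (b * a * b⁻¹) := by group
        _ = w * (a * w) * a := by rw [e1]; group
        _ = (w * w) * (a * a) := by rw [← hcom.eq]; group
        _ = a * a := by rw [h2, one_mul]
    have hbN := mem_normalizer_of_fixed A hti (A.mul_mem ha ha) ha2 (mul_inv_eq_iff_eq_mul.1 e2)
    have hwA : w ∈ A := A.mul_mem (((Subgroup.mem_normalizer_iff).1 hbN a).1 ha) (A.inv_mem ha)
    have : w ∈ A ⊓ B := ⟨hwA, hδB b hb⟩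
    rwa [hAB, Subgroup.mem_bot] at this
  -- commutators centralizing `a` vanish
  have hone : ∀ (k : ℕ) (b : G), b ∈ B → Commute (b * a * b⁻¹ * a⁻¹) a →
      (b * a * b⁻¹ * a⁻¹) ^ 2 ^ k = 1 → b * a * b⁻¹ * a⁻¹ = 1 := by
    intro k
    induction k with
    | zero => intro b _ _ h; simpa using h
    | succ k ih =>
      intro b hb hcom hk
      set e := b * a * b⁻¹ * a⁻¹ with he
      have hsq : (b * b) * a * (b * b)⁻¹ * a⁻¹ = e * e := by
        have hc : Commute b e := hcB b hb e (hδB b hb)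
        calc (b * b) * a * (b * b)⁻¹ * a⁻¹ = b * (e * a) * b⁻¹ * a⁻¹ := by rw [he]; group
          _ = (b * e) * (a * b⁻¹ * a⁻¹) := by group
          _ = e * (b * a * b⁻¹ * a⁻¹) := by rw [hc.eq]; group
      have h1 : e * e = 1 := by
        rw [← hsq]
        refine ih (b * b) (B.mul_mem hb hb) (by rw [hsq]; exact hcom.mul_left hcom) ?_
        rw [hsq, ← pow_two, ← pow_mul, ← pow_succ']
        exact hk
      exact hzero b hb hcom h1
  -- the commutator map is nilpotent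
  set f : G → G := fun b => b * a * b⁻¹ * a⁻¹
  let φ : B →* B :=
    { toFun := fun b => ⟨f b, hδB b b.2⟩
      map_one' := by ext; simp [f]
      map_mul' := fun x y => by
        ext
        show (x : G) * y * a * ((x : G) * y)⁻¹ * a⁻¹ = (x : G) * a * (x : G)⁻¹ * a⁻¹ * ((y : G) * a * (y : G)⁻¹ * a⁻¹)
        have hc := hcB _ x.2 _ (hδB y y.2)
        calc (x : G) * y * a * ((x : G) * y)⁻¹ * a⁻¹
            = ((x : G) * ((y : G) * a * (y : G)⁻¹ * a⁻¹)) * (a * (x : G)⁻¹ * a⁻¹) := by group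
          _ = ((y : G) * a * (y : G)⁻¹ * a⁻¹) * ((x : G) * a * (x : G)⁻¹ * a⁻¹) := by rw [hc.eq]; group
          _ = _ := (hcB _ (hδB y y.2) _ (hδB x x.2)).eq }
  intro b hb
  by_contra hnc
  -- a nontrivial fixed point in the image
  set R := φ.range.map B.subtype with hR
  have hRB : R ≤ B := Subgroup.map_subtype_le _
  have haR : ∀ v ∈ R, a * v * a⁻¹ ∈ R := by
    rintro _ ⟨_, ⟨⟨x, hx⟩, rfl⟩, rfl⟩
    refine ⟨φ ⟨a * x * a⁻¹, ((Subgroup.mem_normalizer_iff).1 haB x).1 hx⟩, ⟨_, rfl⟩, ?_⟩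
    show a * x * a⁻¹ * a * (a * x * a⁻¹)⁻¹ * a⁻¹ = a * (x * a * x⁻¹ * a⁻¹) * a⁻¹
    group
  have hRne : R ≠ ⊥ := by
    intro e
    have hm : f b ∈ R := ⟨φ ⟨b, hb⟩, ⟨_, rfl⟩, rfl⟩
    rw [e, Subgroup.mem_bot] at hm
    refine hnc ?_
    have : b * a = a * b := by
      calc b * a = (b * a * b⁻¹ * a⁻¹) * a * b := by group
        _ = a * b := by rw [show b * a * b⁻¹ * a⁻¹ = 1 from hm, one_mul]
    exact this.symm
  obtain ⟨v, hv, hv1, hva⟩ : ∃ v ∈ R, v ≠ 1 ∧ Commute v a := by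
    haveI : Fact (Nat.Prime 2) := ⟨Nat.prime_two⟩
    have hle : Subgroup.zpowers a ≤ Subgroup.normalizer (R : Set G) := by
      rw [Subgroup.zpowers_le, Subgroup.mem_normalizer_iff]
      refine fun v => ⟨haR v, fun hv => ?_⟩
      obtain ⟨n, hn⟩ : ∃ n, a ^ n = a⁻¹ := ⟨orderOf a - 1, by
        refine eq_inv_of_mul_eq_one_left ?_
        rw [← pow_succ, Nat.sub_add_cancel (orderOf_pos a), pow_orderOf_eq_one]⟩
      have hit : ∀ n : ℕ, ∀ w ∈ R, a ^ n * w * (a ^ n)⁻¹ ∈ R := by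
        intro n
        induction n with
        | zero => simp
        | succ n ih =>
          intro w hw
          have := haR _ (ih w hw)
          rw [show a ^ (n + 1) * w * (a ^ (n + 1))⁻¹ = a * (a ^ n * w * (a ^ n)⁻¹) * a⁻¹ by rw [pow_succ']; group]
          exact this
      have := hit n _ hv
      rw [hn] at this
      simpa [mul_assoc] using this
    let P := Subgroup.zpowers a ⊔ R
    have hP : IsPGroup 2 P :=
      IsPGroup.to_sup_of_normal_right' (hA2.to_le (Subgroup.zpowers_le.2 ha)) (hB2.to_le hRB) hle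
    set R' := R.subgroupOf P
    have hR'n : R'.Normal := by
      rw [Subgroup.normal_subgroupOf_iff_le_normalizer le_sup_right]
      exact sup_le hle Subgroup.le_normalizer
    have hR'ne : R' ≠ ⊥ := fun e => hRne (by
      rwa [Subgroup.subgroupOf_eq_bot, disjoint_iff, inf_eq_left.2 le_sup_right] at e)
    have : Nontrivial R' := (Subgroup.nontrivial_iff_ne_bot R').2 hR'ne
    have hdvd : 2 ∣ Nat.card R' := by
      obtain ⟨j, hj, hc⟩ := (hP.to_subgroup R').nontrivial_iff_card.1 this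
      rw [hc]; exact dvd_pow_self 2 hj.ne'
    obtain ⟨w, hw, hw1⟩ := (hP.of_equiv ConjAct.toConjAct).exists_fixed_point_of_prime_dvd_card_of_fixed_point
      R' hdvd (a := 1) (fun g => smul_one g)
    refine ⟨((w : P) : G), Subgroup.mem_subgroupOf.1 w.2, fun e => hw1 (Subtype.ext (Subtype.ext e.symm)), ?_⟩
    have h := congrArg (fun z : R' => ((z : P) : G))
      (hw (ConjAct.toConjAct (⟨a, Subgroup.mem_sup_left (Subgroup.mem_zpowers a)⟩ : P)))
    have h' : a * ((w : P) : G) * a⁻¹ = ((w : P) : G) := h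
    exact (mul_inv_eq_iff_eq_mul.1 h').symm
  obtain ⟨_, ⟨⟨x, hx⟩, rfl⟩, rfl⟩ := hv
  obtain ⟨k, hk⟩ := hB2 ⟨f x, hδB x hx⟩
  exact hv1 (hone k x hx hva (congrArg Subtype.val hk))

/-- Let A be an abelian 2-subgroup of the finite group G such that every conjugate of A equals A or meets A trivially, and let g ∈ G with g A g⁻¹ ≠ A. Then either the subgroup of those elements of A that normalize g A g⁻¹ is an elementary abelian 2-group, or A and g A g⁻¹ commute elementwise. -/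
theorem result {G : Type*} [Group G] [Finite G] (A : Subgroup G)
    (hA2 : IsPGroup 2 ↥A) (hAa : IsMulCommutative ↥A)
    (hti : ∀ h : G, A.map (MulAut.conj h).toMonoidHom = A ∨ A.map (MulAut.conj h).toMonoidHom ⊓ A = ⊥)
    (g : G) (hg : A.map (MulAut.conj g).toMonoidHom ≠ A) :
    Cfsg.IsElementaryAbelian 2 (A ⊓ Subgroup.normalizer ((A.map (MulAut.conj g).toMonoidHom : Subgroup G) : Set G)) ∨
      ⁅A, A.map (MulAut.conj g).toMonoidHom⁆ = ⊥ := by
  haveI : Fact (Nat.Prime 2) := ⟨Nat.prime_two⟩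
  set B := A.map (MulAut.conj g).toMonoidHom with hB
  by_cases hel : Cfsg.IsElementaryAbelian 2 (A ⊓ Subgroup.normalizer (B : Set G))
  · exact Or.inl hel
  right
  have hcA : ∀ x ∈ A, ∀ y ∈ A, Commute x y := fun x hx y hy =>
    congrArg Subtype.val (hAa.is_comm.comm (⟨x, hx⟩ : A) ⟨y, hy⟩)
  have hBab : ∀ x ∈ B, ∀ y ∈ B, Commute x y := by
    rintro _ ⟨x, hx, rfl⟩ _ ⟨y, hy, rfl⟩
    exact (hcA x hx y hy).map _
  obtain ⟨a, ha, ha2⟩ : ∃ a, a ∈ A ⊓ Subgroup.normalizer (B : Set G) ∧ a * a ≠ 1 := by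
    by_contra hcon
    push Not at hcon
    exact hel ⟨⟨⟨fun x y => Subtype.ext (hcA x x.2.1 y y.2.1)⟩⟩, fun x hx => by rw [pow_two]; exact hcon x hx⟩
  have hB2 : IsPGroup 2 ↥B := hA2.map _
  have hAB : B ⊓ A = ⊥ := (hti g).resolve_left hg
  have hBti : ∀ h : G, B.map (MulAut.conj h).toMonoidHom = B ∨ B.map (MulAut.conj h).toMonoidHom ⊓ B = ⊥ :=
    fun h => ti_conj hti g h
  have hcent := central_of_sq_ne_one A B hA2 hB2 hti hcA hBab (by rw [inf_comm]; exact hAB) ha.1 ha.2 ha2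
  have hBN : ∀ b ∈ B, b ∈ Subgroup.normalizer (A : Set G) := fun b hb =>
    mem_normalizer_of_fixed A hti ha.1 (fun e => ha2 (by rw [e, one_mul])) (hcent b hb).symm
  obtain ⟨b, hb, hb2⟩ : ∃ b ∈ B, b * b ≠ 1 := by
    refine ⟨g * a * g⁻¹, Subgroup.mem_map.2 ⟨a, ha.1, rfl⟩, fun e => ha2 ?_⟩
    rwa [show g * a * g⁻¹ * (g * a * g⁻¹) = g * (a * a) * g⁻¹ by group, conj_eq_one_iff] at e
  have hcent' := central_of_sq_ne_one B A hB2 hA2 hBti hBab hcA hAB hb (hBN b hb) hb2
  have hAN : ∀ x ∈ A, x ∈ Subgroup.normalizer (B : Set G) := fun x hx =>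
    mem_normalizer_of_fixed B hBti hb (fun e => hb2 (by rw [e, one_mul])) (hcent' x hx).symm
  rw [_root_.eq_bot_iff, Subgroup.commutator_le]
  intro x hx y hy
  rw [← hAB]
  refine ⟨?_, ?_⟩
  · rw [commutatorElement_def]
    exact B.mul_mem (((Subgroup.mem_normalizer_iff).1 (hAN x hx) y).1 hy) (B.inv_mem hy)
  · rw [commutatorElement_def, show x * y * x⁻¹ * y⁻¹ = x * (y * x⁻¹ * y⁻¹) by group]
    exact A.mul_mem hx (((Subgroup.mem_normalizer_iff).1 (hBN y hy) x⁻¹).1 (A.inv_mem hx))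

end Cfsg.Agent.S1781
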