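import Cfsg.Statements.S1782
import Cfsg.Agent.FGS3.PGroupFrattini
import Mathlib.GroupTheory.Nilpotent
import Mathlib.Tactic.Group
-- import your own Cfsg.Agent.* helpers here

set_option autoImplicit false
open Cfsg

namespace Cfsg.Agent.S1782


section

variable {G : Type*} [Group G]

/-- Conjugate of a subgroup. -/
abbrev cj (a : G) (K : Subgroup G) : Subgroup G := K.map (MulAut.conj a).toMonoidHom

theorem mem_cj {a : G} {K : Subgroup G} {x : G} (h : x ∈ K) : a * x * a⁻¹ ∈ cj a K := ⟨x, h, rfl⟩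

theorem cj_self {a : G} {K : Subgroup G} (ha : a ∈ K) : cj a K = K := by
  apply le_antisymm
  · rintro _ ⟨x, hx, rfl⟩
    exact K.mul_mem (K.mul_mem ha hx) (K.inv_mem ha)
  · intro x hx
    exact ⟨a⁻¹ * x * a, K.mul_mem (K.mul_mem (K.inv_mem ha) hx) ha, by simp [mul_assoc]⟩

theorem cj_mul (a b : G) (K : Subgroup G) : cj (a * b) K = cj a (cj b K) := by
  rw [cj, cj, cj, Subgroup.map_map]
  congr 1
  ext x
  simp [mul_assoc]

theorem cj_centralizes {a : G} {K : Subgroup G} (h : ∀ x ∈ K, a * x = x * a) : cj a K = K := by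
  have he : ∀ x ∈ K, a * x * a⁻¹ = x := fun x hx => by rw [h x hx, mul_inv_cancel_right]
  apply le_antisymm
  · rintro _ ⟨x, hx, rfl⟩
    show a * x * a⁻¹ ∈ K
    rw [he x hx]
    exact hx
  · intro x hx
    exact ⟨x, hx, he x hx⟩

theorem commute_of_fix {R T : Subgroup G} (hd : R ⊓ T = ⊥) (hR : ∀ r ∈ R, cj r T = T)
    (hT : ∀ t ∈ T, cj t R = R) : ∀ r ∈ R, ∀ t ∈ T, r * t = t * r := by
  intro r hr t ht
  have h1 : r * (t * r⁻¹ * t⁻¹) ∈ R := R.mul_mem hr (hT t ht ▸ mem_cj (R.inv_mem hr))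
  have h2 : r * t * r⁻¹ * t⁻¹ ∈ T := T.mul_mem (hR r hr ▸ mem_cj ht) (T.inv_mem ht)
  rw [show r * (t * r⁻¹ * t⁻¹) = r * t * r⁻¹ * t⁻¹ by group] at h1
  have h3 := hd.le ⟨h1, h2⟩
  rw [Subgroup.mem_bot, mul_inv_eq_one, mul_inv_eq_iff_eq_mul] at h3
  exact h3

/-- If `R` normalises `T` then `T` normalises `R`. -/
theorem fix_of_fix [Finite G] {R T : Subgroup G} (hRT : Nat.card R = Nat.card T)
    (hR : ∀ r ∈ R, cj r T = T)
    (hc : ∀ t ∈ T, cj t R ≠ R → R ⊓ cj t R = ⊥ ∧ ∀ a ∈ R, ∀ b ∈ cj t R, a * b = b * a) :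
    ∀ t ∈ T, cj t R = R := by
  intro t ht
  by_contra hne
  obtain ⟨hd, hcomm⟩ := hc t ht hne
  let f : R → T := fun r => ⟨r.1 * (t * r.1⁻¹ * t⁻¹), by
    have := T.mul_mem (hR r r.2 ▸ mem_cj ht : r.1 * t * r.1⁻¹ ∈ T) (T.inv_mem ht)
    rwa [show r.1 * t * r.1⁻¹ * t⁻¹ = r.1 * (t * r.1⁻¹ * t⁻¹) by group] at this⟩
  have hinj : Function.Injective f := by
    intro r s h
    have h' : r.1 * (t * r.1⁻¹ * t⁻¹) = s.1 * (t * s.1⁻¹ * t⁻¹) := congrArg Subtype.val h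
    have h1 : s.1⁻¹ * r.1 = (t * s.1⁻¹ * t⁻¹) * (t * r.1⁻¹ * t⁻¹)⁻¹ := by
      calc s.1⁻¹ * r.1 = s.1⁻¹ * (r.1 * (t * r.1⁻¹ * t⁻¹)) * (t * r.1⁻¹ * t⁻¹)⁻¹ := by group
        _ = _ := by rw [h']; group
    have h2 : s.1⁻¹ * r.1 ∈ cj t R :=
      h1 ▸ (cj t R).mul_mem (mem_cj (R.inv_mem s.2)) ((cj t R).inv_mem (mem_cj (R.inv_mem r.2)))
    have h3 := hd.le ⟨R.mul_mem (R.inv_mem s.2) r.2, h2⟩
    rw [Subgroup.mem_bot, inv_mul_eq_one] at h3
    exact (Subtype.ext h3).symm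
  obtain ⟨r, hr⟩ := (Function.Injective.bijective_of_nat_card_le hinj hRT.ge).2 ⟨t, ht⟩
  have hr' : r.1 * (t * r.1⁻¹ * t⁻¹) = t := congrArg Subtype.val hr
  apply hne
  rw [← hr', cj_mul, cj_centralizes fun x hx => (hcomm x hx _ (mem_cj (R.inv_mem r.2))).symm, cj_self r.2]

/-- The key computation: a mover of the second kind is an involution. -/
theorem sq_eq_one {R T : Subgroup G} {r t : G} (hr : r ∈ R) (ht : t ∈ T) (h2 : cj (r * r) T = T)
    (hd : T ⊓ cj r T = ⊥) (hcT : ∀ a ∈ T, ∀ b ∈ cj r T, a * b = b * a)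
    (hcR : ∀ a ∈ R, ∀ b ∈ cj t R, a * b = b * a) : t * t = 1 := by
  have hx := hcR r hr _ (mem_cj (a := t) (R.inv_mem hr))
  set a := r * t * r⁻¹ with ha
  have haT : a ∈ cj r T := mem_cj ht
  set b := r * r * t * (r * r)⁻¹ with hb
  have hbT : b ∈ T := h2 ▸ mem_cj ht
  have h1 : b * a⁻¹ = a * t⁻¹ := by
    calc b * a⁻¹ = r * (r * (t * r⁻¹ * t⁻¹)) * r⁻¹ := by rw [hb, ha]; group
      _ = r * ((t * r⁻¹ * t⁻¹) * r) * r⁻¹ := by rw [hx]
      _ = a * t⁻¹ := by rw [ha]; group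
  have h3 : a * a = b * t := by
    calc a * a = a * (a * t⁻¹) * t := by group
      _ = a * (b * a⁻¹) * t := by rw [h1]
      _ = a * b * a⁻¹ * t := by group
      _ = b * a * a⁻¹ * t := by rw [hcT b hbT a haT]
      _ = b * t := by rw [mul_inv_cancel_right]
  have h4 : a * a = 1 := Subgroup.mem_bot.1 (hd.le ⟨h3 ▸ T.mul_mem hbT ht, (cj r T).mul_mem haT haT⟩)
  calc t * t = r⁻¹ * (a * a) * r := by rw [ha]; group
    _ = 1 := by rw [h4, mul_one, inv_mul_cancel]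

theorem exists_sq_fix [Finite G] {R T : Subgroup G} (hp : IsPGroup 2 G) {r : G} (hr : r ∈ R)
    (h : cj r T ≠ T) : ∃ s ∈ R, cj s T ≠ T ∧ cj (s * s) T = T := by
  classical
  have hex : ∃ k, cj (r ^ 2 ^ k) T = T := by
    obtain ⟨k, hk⟩ := hp r
    exact ⟨k, by rw [hk]; exact cj_self (one_mem T)⟩
  have hfind := Nat.find_spec hex
  rcases hn : Nat.find hex with _ | m
  · rw [hn, pow_zero, pow_one] at hfind
    exact absurd hfind h
  · refine ⟨r ^ 2 ^ m, pow_mem hr _, fun hm => ?_, ?_⟩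
    · exact Nat.find_min hex (by omega : m < Nat.find hex) hm
    · rw [← pow_two, ← pow_mul, ← pow_succ, ← hn]
      exact hfind

theorem step [Finite G] (hp : IsPGroup 2 G) {R T : Subgroup G} (hd : R ⊓ T = ⊥)
    (hRT : Nat.card R = Nat.card T) (hΦ : frattini ↥R ≠ ⊥)
    (hcR : ∀ t ∈ T, cj t R ≠ R → R ⊓ cj t R = ⊥ ∧ ∀ a ∈ R, ∀ b ∈ cj t R, a * b = b * a)
    (hcT : ∀ r ∈ R, cj r T ≠ T → T ⊓ cj r T = ⊥ ∧ ∀ a ∈ T, ∀ b ∈ cj r T, a * b = b * a) :
    ∀ r ∈ R, ∀ t ∈ T, r * t = t * r := by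
  classical
  by_cases hA : ∀ r ∈ R, cj r T = T
  · exact commute_of_fix hd hA (fix_of_fix hRT hA hcR)
  by_cases hB : ∀ t ∈ T, cj t R = R
  · exact commute_of_fix hd (fix_of_fix hRT.symm hB hcT) hB
  exfalso
  push Not at hA hB
  obtain ⟨r0, hr0, hr0T⟩ := hA
  obtain ⟨t, ht, htR⟩ := hB
  obtain ⟨r, hr, hrT, hrr⟩ := exists_sq_fix hp hr0 hr0T
  have hmT : ∀ u ∈ T, cj u R ≠ R → u * u = 1 := fun u hu hu' =>
    sq_eq_one hr hu hrr (hcT r hr hrT).1 (hcT r hr hrT).2 (hcR u hu hu').2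
  have ht2 : t * t = 1 := hmT t ht htR
  have hmR : ∀ v ∈ R, cj v T ≠ T → v * v = 1 := fun v hv hv' =>
    sq_eq_one ht hv (by rw [ht2]; exact cj_self (one_mem R)) (hcR t ht htR).1 (hcR t ht htR).2 (hcT v hv hv').2
  have hinv : ∀ v ∈ R, cj v T = T → r * v * r⁻¹ = v⁻¹ := by
    intro v hv hv'
    have hm : cj (r * v) T ≠ T := by rw [cj_mul, hv']; exact hrT
    have h1 := hmR (r * v) (R.mul_mem hr hv) hm
    have h2 : r⁻¹ = r := inv_eq_of_mul_eq_one_right (hmR r hr hrT)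
    calc r * v * r⁻¹ = (r * v * (r * v)) * v⁻¹ := by rw [h2]; group
      _ = v⁻¹ := by rw [h1, one_mul]
  obtain ⟨a, haR, haT, ha2, ha4⟩ : ∃ a ∈ R, cj a T = T ∧ a * a ≠ 1 ∧ a * a * (a * a) = 1 := by
    by_contra hno
    push Not at hno
    have hexp : ∀ x ∈ R, x * x = 1 := by
      intro x hx
      by_contra hx2
      have hxT : cj x T = T := by_contra fun h => hx2 (hmR x hx h)
      have hex : ∃ k, x ^ 2 ^ k = 1 := hp x
      have hspec := Nat.find_spec hex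
      rcases hn : Nat.find hex with _ | _ | m
      · rw [hn, pow_zero, pow_one] at hspec
        exact hx2 (by rw [hspec, one_mul])
      · rw [hn, pow_one, pow_two] at hspec
        exact hx2 hspec
      · have hpow : ∀ k : ℕ, cj (x ^ k) T = T := by
          intro k
          induction k with
          | zero => rw [pow_zero]; exact cj_self (one_mem T)
          | succ k ih => rw [pow_succ, cj_mul, hxT, ih]
        have hsq : x ^ 2 ^ m * x ^ 2 ^ m = x ^ 2 ^ (m + 1) := by rw [← pow_add, pow_succ]; congr 1; omega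
        refine hno (x ^ 2 ^ m) (pow_mem hx _) (hpow _) ?_ ?_
        · rw [hsq]
          exact Nat.find_min hex (by omega : m + 1 < Nat.find hex)
        · rw [hsq, ← pow_add, show 2 ^ (m + 1) + 2 ^ (m + 1) = 2 ^ (m + 1 + 1) by rw [pow_succ _ (m+1)]; omega,
            ← hn]
          exact hspec
    haveI : Fact (Nat.Prime 2) := ⟨Nat.prime_two⟩
    refine hΦ (FGS3.frattini_eq_bot_of_elementary (p := 2) (fun x y => ?_)
      (fun x => Subtype.ext (by rw [Subgroup.coe_pow, pow_two, hexp x x.2]; rfl)))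
    have key : ∀ u : R, u⁻¹ = u := fun u =>
      inv_eq_of_mul_eq_one_right (Subtype.ext (hexp u u.2))
    calc x * y = (x * y)⁻¹ := (key _).symm
      _ = y⁻¹ * x⁻¹ := mul_inv_rev x y
      _ = y * x := by rw [key, key]
  set y := t * a⁻¹ * t⁻¹ with hy
  have hyR' : y ∈ cj t R := mem_cj (R.inv_mem haR)
  set d := a * y with hd'
  have hdT : d ∈ T := by
    have := T.mul_mem (haT ▸ mem_cj ht : a * t * a⁻¹ ∈ T) (T.inv_mem ht)
    rwa [hd', hy, show a * (t * a⁻¹ * t⁻¹) = a * t * a⁻¹ * t⁻¹ by group]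
  set e := a⁻¹ * y with he'
  have heT : e ∈ cj r T := by
    have hry := (hcR t ht htR).2 r hr y hyR'
    have h : r * d * r⁻¹ = e := by
      calc r * d * r⁻¹ = (r * a * r⁻¹) * (r * y * r⁻¹) := by rw [hd']; group
        _ = a⁻¹ * (r * y * r⁻¹) := by rw [hinv a haR haT]
        _ = e := by rw [he', hry, mul_inv_cancel_right]
    exact h ▸ mem_cj hdT
  obtain ⟨hdd, hde⟩ := hcT r hr hrT
  have hz : d * e⁻¹ = a * a := by rw [hd', he']; group
  have hd2 : d * d = 1 := by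
    have hcde := hde d hdT e heT
    have h : d * d = e * e := by
      calc d * d = (d * e⁻¹) * (e * d) := by group
        _ = (d * e⁻¹) * (d * e) := by rw [hcde]
        _ = (d * e⁻¹) * (d * e⁻¹) * (e * e) := by group
        _ = e * e := by rw [hz, ha4, one_mul]
    exact Subgroup.mem_bot.1 (hdd.le ⟨T.mul_mem hdT hdT, h ▸ (cj r T).mul_mem heT heT⟩)
  have htd : t * d * t⁻¹ = d := by
    have htinv : t⁻¹ = t := inv_eq_of_mul_eq_one_right ht2
    have h1 : t * d * t⁻¹ = d⁻¹ := by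
      calc t * d * t⁻¹ = t * a * t⁻¹ * ((t * t) * a⁻¹ * (t * t)⁻¹) := by rw [hd', hy]; group
        _ = t * a * t⁻¹ * a⁻¹ := by rw [ht2, inv_one, one_mul, mul_one]
        _ = d⁻¹ := by rw [hd', hy]; group
    rw [h1]
    exact inv_eq_of_mul_eq_one_right hd2
  have hte : t * e * t⁻¹ = e := by rw [hde t ht e heT, mul_inv_cancel_right]
  have htz : t * (a * a) * t⁻¹ = a * a := by
    rw [← hz]
    calc t * (d * e⁻¹) * t⁻¹ = (t * d * t⁻¹) * (t * e * t⁻¹)⁻¹ := by group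
      _ = d * e⁻¹ := by rw [htd, hte]
  have hmem : a * a ∈ cj t R := htz ▸ mem_cj (R.mul_mem haR haR)
  exact ha2 (Subgroup.mem_bot.1 ((hcR t ht htR).1.le ⟨R.mul_mem haR haR, hmem⟩))

end

/-- Let S be a finite 2-group and Δ a set of subgroups of S closed under conjugation by S, all of the same order, each with nontrivial Frattini subgroup, and such that two distinct members of Δ meet trivially. Then any two distinct members of Δ commute elementwise. -/
theorem result {S : Type*} [Group S] [Finite S] (hS : IsPGroup 2 S)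
    (Δ : Set (Subgroup S)) (hinv : ∀ s : S, ∀ R ∈ Δ, R.map (MulAut.conj s).toMonoidHom ∈ Δ)
    (hΦ : ∀ R ∈ Δ, frattini ↥R ≠ ⊥) (hord : ∀ R ∈ Δ, ∀ T ∈ Δ, Nat.card ↥R = Nat.card ↥T)
    (hti : ∀ R ∈ Δ, ∀ T ∈ Δ, R = T ∨ R ⊓ T = ⊥) :
    ∀ R ∈ Δ, ∀ T ∈ Δ, R ≠ T → ⁅R, T⁆ = ⊥ := by
  classical
  suffices H : ∀ (k : ℕ) (U : Subgroup S), Nat.card U ≤ k → ∀ R ∈ Δ, ∀ T ∈ Δ, R ≤ U → T ≤ U → R ≠ T →
      ∀ r ∈ R, ∀ t ∈ T, r * t = t * r by
    intro R hR T hT hne
    refine Subgroup.commutator_eq_bot_iff_le_centralizer.2 fun r hr =>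
      Subgroup.mem_centralizer_iff.2 fun t ht => ?_
    exact (H _ ⊤ le_rfl R hR T hT le_top le_top hne r hr t ht).symm
  intro k
  induction k with
  | zero => intro U hU; exact absurd hU (by have := Nat.card_pos (α := U); omega)
  | succ k ih =>
    intro U hU R hR T hT hRU hTU hne
    have key : ∀ A ∈ Δ, ∀ B ∈ Δ, A ≤ U → B ≤ U → A ≠ B → ∀ b ∈ B, cj b A ≠ A →
        A ⊓ cj b A = ⊥ ∧ ∀ x ∈ A, ∀ y ∈ cj b A, x * y = y * x := by
      intro A hA B hB hAU hBU hAB b hb hbA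
      have hA' : cj b A ∈ Δ := hinv b A hA
      refine ⟨(hti A hA _ hA').resolve_left (Ne.symm hbA), ?_⟩
      haveI : Group.IsNilpotent U := (hS.to_subgroup U).isNilpotent
      have hAne : A.subgroupOf U ≠ ⊤ := by
        rw [Ne, Subgroup.subgroupOf_eq_top]
        intro hUA
        exact hbA (cj_self (hUA (hBU hb)))
      obtain ⟨M, hM, hAM⟩ := (eq_top_or_exists_le_coatom (A.subgroupOf U)).resolve_left hAne
      haveI hMn : M.Normal :=
        Subgroup.NormalizerCondition.normal_of_coatom M Group.normalizerCondition_of_isNilpotent hM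
      have hlt : Nat.card (M.map U.subtype) < Nat.card U := by
        rw [Subgroup.card_map_of_injective U.subtype_injective]
        exact lt_of_le_of_ne (Subgroup.card_le_card_group M) fun h => hM.1 (Subgroup.eq_top_of_card_eq M h)
      refine ih (M.map U.subtype) (by omega) A hA _ hA' ?_ ?_ (Ne.symm hbA)
      · exact fun x hx => ⟨⟨x, hAU hx⟩, hAM hx, rfl⟩
      · rintro _ ⟨x, hx, rfl⟩
        exact ⟨⟨b, hBU hb⟩ * ⟨x, hAU hx⟩ * ⟨b, hBU hb⟩⁻¹, hMn.conj_mem _ (hAM hx) _, rfl⟩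
    exact step hS ((hti R hR T hT).resolve_left hne) (hord R hR T hT) (hΦ R hR)
      (key R hR T hT hRU hTU hne) (key T hT R hR hTU hRU hne.symm)

end Cfsg.Agent.S1782
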