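import Cfsg.Statements.S1783
import Cfsg.Agent.Components.FStar
import Cfsg.Agent.Core.Cores
import Cfsg.Agent.FGS3.FrattiniAction
import Cfsg.Agent.Screen.AbelianTI
-- import your own Cfsg.Agent.* helpers here

set_option autoImplicit false
open Cfsg

namespace Cfsg.Agent.S1783

/-- Let X be a finite group whose generalized Fitting subgroup equals its largest normal 2-subgroup Q, and let A be an abelian 2-subgroup of X such that every conjugate of A equals A or meets A trivially. Let B be the subgroup generated by the squares of the elements of A. Then B lies in Q, and if B is not an elementary abelian 2-group then the normal closure of B in X is commutative. -/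
theorem result {X : Type*} [Group X] [Finite X]
    (hX : Cfsg.generalizedFittingSubgroup X = Cfsg.pCore 2 X) (A : Subgroup X) (hA2 : IsPGroup 2 ↥A) (hAa : IsMulCommutative ↥A)
    (hti : ∀ h : X, A.map (MulAut.conj h).toMonoidHom = A ∨ A.map (MulAut.conj h).toMonoidHom ⊓ A = ⊥) :
    Subgroup.closure ((fun a : X => a ^ 2) '' (A : Set X)) ≤ Cfsg.pCore 2 X ∧
      (¬ Cfsg.IsElementaryAbelian 2 (Subgroup.closure ((fun a : X => a ^ 2) '' (A : Set X))) →
        IsMulCommutative ↥(Subgroup.normalClosure ((fun a : X => a ^ 2) '' (A : Set X)))) := by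
  classical
  haveI : Fact (Nat.Prime 2) := ⟨Nat.prime_two⟩
  set Q := Cfsg.pCore 2 X with hQ
  set B := Subgroup.closure ((fun a : X => a ^ 2) '' (A : Set X)) with hB
  have hQn : Q.Normal := inferInstance
  have hQ2 : IsPGroup 2 Q := Core.isPGroup_pCore 2 X
  have hCQ : Subgroup.centralizer (Q : Set X) ≤ Q := by
    have h := Components.centralizer_generalizedFitting_le (G := X)
    rwa [hX] at h
  have hcA : ∀ x ∈ A, ∀ y ∈ A, Commute x y := fun x hx y hy =>
    congrArg Subtype.val (hAa.is_comm.comm (⟨x, hx⟩ : A) ⟨y, hy⟩)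
  set Φ := (frattini ↥Q).map Q.subtype with hΦ
  have hΦn : Φ.Normal := Core.normal_map_subtype_of_characteristic _
  let K : Subgroup X :=
    { carrier := {x | ∀ q ∈ Q, x * q * x⁻¹ * q⁻¹ ∈ Φ}
      one_mem' := fun q _ => by simp
      mul_mem' := fun {x y} hx hy q hq => by
        have h1 := hy q hq
        have h2 : y * q * y⁻¹ ∈ Q := hQn.conj_mem q hq y
        rw [show x * y * q * (x * y)⁻¹ * q⁻¹ =
          (x * (y * q * y⁻¹) * x⁻¹ * (y * q * y⁻¹)⁻¹) * (y * q * y⁻¹ * q⁻¹) by group]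
        exact Φ.mul_mem (hx _ h2) h1
      inv_mem' := fun {x} hx q hq => by
        have h := hx _ (hQn.conj_mem q hq x⁻¹)
        rw [show x⁻¹ * q * x⁻¹⁻¹ * q⁻¹ = (x * (x⁻¹ * q * x⁻¹⁻¹) * x⁻¹ * (x⁻¹ * q * x⁻¹⁻¹)⁻¹)⁻¹ by group]
        exact Φ.inv_mem h }
  have hKn : K.Normal := ⟨fun x hx g q hq => by
    have h := hx _ (hQn.conj_mem q hq g⁻¹)
    rw [show g * x * g⁻¹ * q * (g * x * g⁻¹)⁻¹ * q⁻¹ =
      g * (x * (g⁻¹ * q * g⁻¹⁻¹) * x⁻¹ * (g⁻¹ * q * g⁻¹⁻¹)⁻¹) * g⁻¹ by group]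
    exact hΦn.conj_mem _ h g⟩
  have hK2 : IsPGroup 2 K := by
    intro k
    obtain ⟨e, r, hr, hor⟩ := Nat.exists_eq_pow_mul_and_not_dvd (orderOf_pos k).ne' 2 (by norm_num)
    refine ⟨e, ?_⟩
    set y := k ^ 2 ^ e with hy
    have hyo : orderOf y = r := by
      rw [hy, orderOf_pow' _ (by positivity), hor, Nat.gcd_eq_right (dvd_mul_right _ _),
        Nat.mul_div_cancel_left _ (by positivity)]
    have hc : (orderOf (y : X)).Coprime 2 := by
      rw [Subgroup.orderOf_coe, hyo]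
      exact ((Nat.Prime.coprime_iff_not_dvd Nat.prime_two).2 hr).symm
    have hyQ : (y : X) ∈ Q := hCQ (FGS3.mem_centralizer_of_frattini hQ2
      (Subgroup.mem_normalizer_iff.2 fun q => ⟨fun hq => hQn.conj_mem q hq _, fun hq => by
        have := hQn.conj_mem _ hq (y : X)⁻¹
        simpa [mul_assoc] using this⟩) hc y.2)
    obtain ⟨j, hj⟩ := IsPGroup.iff_orderOf.1 hQ2 ⟨_, hyQ⟩
    rw [← Subgroup.orderOf_coe] at hj
    have h1 : orderOf (y : X) = 1 :=
      Nat.eq_one_of_dvd_coprimes (hc.pow_right j) dvd_rfl (hj ▸ dvd_rfl)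
    exact Subtype.ext (orderOf_eq_one_iff.1 h1)
  have hKQ : K ≤ Q := Core.le_pCore hKn hK2
  have hsqQ : ∀ a ∈ A, a ^ 2 ∈ Q := by
    intro a ha
    by_cases ha2 : a * a = 1
    · rw [pow_two, ha2]; exact Q.one_mem
    refine hKQ fun q hq => ?_
    have hP : IsPGroup 2 ↥(A ⊔ Q) := hA2.to_sup_of_normal_right hQ2
    have hcm := Screen.AbelianTI.conj_commute hA2 hAa hti ha ha2 hP le_sup_left q
      (Subgroup.mem_sup_right hq) _ (A.inv_mem ha) _ ha
    rw [one_mul, inv_one, mul_one] at hcm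
    set m := a * q * a⁻¹ * q⁻¹ with hm
    have hma : Commute m a := by
      rw [hm, show a * q * a⁻¹ * q⁻¹ = a * (q * a⁻¹ * q⁻¹) by group]
      exact (Commute.refl a).mul_left hcm
    have e : a ^ 2 * q * (a ^ 2)⁻¹ * q⁻¹ = m * m := by
      calc a ^ 2 * q * (a ^ 2)⁻¹ * q⁻¹ = a * (a * q * a⁻¹ * q⁻¹) * a⁻¹ * (a * q * a⁻¹ * q⁻¹) := by
            rw [pow_two]; group
        _ = m * m := by rw [← hm, ← hma.eq, mul_inv_cancel_right]
    rw [e]
    have hmQ : m ∈ Q := by
      rw [hm]; exact Q.mul_mem (hQn.conj_mem q hq a) (Q.inv_mem hq)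
    exact Subgroup.mem_map.2 ⟨(⟨m, hmQ⟩ : Q) ^ 2, FGS3.pow_mem_frattini hQ2 _, by simp [pow_two]⟩
  have hBQ : B ≤ Q := by
    rw [hB, Subgroup.closure_le]
    rintro _ ⟨a, ha, rfl⟩
    exact hsqQ a ha
  refine ⟨hBQ, fun hne => ?_⟩
  have hBA : B ≤ A := by
    rw [hB, Subgroup.closure_le]
    rintro _ ⟨a, ha, rfl⟩
    exact A.pow_mem ha 2
  obtain ⟨b, hb, hb2⟩ : ∃ b ∈ B, b * b ≠ 1 := by
    by_contra hcon
    push Not at hcon
    exact hne ⟨⟨⟨fun x y => Subtype.ext (hcA x (hBA x.2) y (hBA y.2))⟩⟩,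
      fun x hx => by rw [pow_two]; exact hcon x hx⟩
  set D := A ⊓ Q with hD
  have hDa : IsMulCommutative D := ⟨⟨fun x y => Subtype.ext (hcA x x.2.1 y y.2.1)⟩⟩
  have hD2 : IsPGroup 2 D := hA2.to_le inf_le_left
  have hDti : Screen.AbelianTI.IsTI D := by
    intro h
    rcases hti h with he | he
    · left
      have e1 : Q.map (MulAut.conj h).toMonoidHom = Q := by
        ext v
        constructor
        · rintro ⟨q, hq, rfl⟩; exact hQn.conj_mem q hq h
        · intro hv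
          exact ⟨h⁻¹ * v * h, by simpa using hQn.conj_mem v hv h⁻¹, by simp [mul_assoc]⟩
      rw [hD, Subgroup.map_inf _ _ _ (MulAut.conj h).injective, he, e1]
    · right
      exact le_bot_iff.1 (he ▸ inf_le_inf (Subgroup.map_mono inf_le_left) inf_le_left)
  have hbD : b ∈ D := ⟨hBA hb, hBQ hb⟩
  have hQcm := Screen.AbelianTI.conj_commute hD2 hDa hDti hbD hb2 hQ2 inf_le_right
  set W := Subgroup.closure {w : X | ∃ u ∈ Q, ∃ y ∈ D, u * y * u⁻¹ = w} with hW
  have hWQ : W ≤ Q := by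
    rw [hW, Subgroup.closure_le]
    rintro _ ⟨u, hu, y, hy, rfl⟩
    exact hQn.conj_mem y hy.2 u
  have hWc : ∀ x ∈ W, ∀ y ∈ W, Commute x y := by
    have h1 : W ≤ Subgroup.centralizer {w : X | ∃ u ∈ Q, ∃ y ∈ D, u * y * u⁻¹ = w} := by
      rw [hW, Subgroup.closure_le]
      rintro _ ⟨u, hu, y, hy, rfl⟩
      rw [SetLike.mem_coe, Subgroup.mem_centralizer_iff]
      rintro _ ⟨u', hu', y', hy', rfl⟩
      have h := ((hQcm (u⁻¹ * u') (Q.mul_mem (Q.inv_mem hu) hu')).smul u) y' hy' y hy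
      rw [mul_inv_cancel_left, mul_one] at h
      exact h
    have h2 : W ≤ Subgroup.centralizer (W : Set X) := by
      rw [hW, Subgroup.closure_le]
      rintro w hw
      rw [SetLike.mem_coe, Subgroup.mem_centralizer_iff]
      intro v hv
      exact ((Subgroup.mem_centralizer_iff.1 (h1 hv)) w hw).symm
    exact fun x hx y hy => ((Subgroup.mem_centralizer_iff.1 (h2 hx)) y hy).symm
  have hall : ∀ h : X, Screen.AbelianTI.Cm D h 1 := by
    intro h
    refine Screen.AbelianTI.cm_of_normalizes hD2 hDa hDti hbD hb2 (hQ2.to_le hWQ) hWc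
      (fun y hy => Subgroup.subset_closure ⟨1, Q.one_mem, y, hy, rfl⟩) fun x hx => ?_
    have hc : h * x * h⁻¹ ∈ Q := hQn.conj_mem x hx.2 h
    have hgen : ∀ c ∈ Q, ∀ w ∈ W, c * w * c⁻¹ ∈ W := by
      intro c hc
      have : W.map (MulAut.conj c).toMonoidHom ≤ W := by
        rw [hW, MonoidHom.map_closure, Subgroup.closure_le]
        rintro _ ⟨_, ⟨u, hu, y, hy, rfl⟩, rfl⟩
        refine Subgroup.subset_closure ⟨c * u, Q.mul_mem hc hu, y, hy, ?_⟩
        simp [mul_assoc]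
      exact fun w hw => this ⟨w, hw, rfl⟩
    refine Subgroup.mem_normalizer_iff.2 fun w => ⟨hgen _ hc w, fun hw => ?_⟩
    have := hgen _ (Q.inv_mem hc) _ hw
    simpa [mul_assoc] using this
  set T := (fun a : X => a ^ 2) '' (A : Set X)
  have hTD : ∀ u ∈ Group.conjugatesOfSet T, ∃ h : X, ∃ d ∈ D, h * d * h⁻¹ = u := by
    intro u hu
    obtain ⟨v, hv, hvu⟩ := Group.mem_conjugatesOfSet_iff.1 hu
    obtain ⟨h, rfl⟩ := isConj_iff.1 hvu
    obtain ⟨a, ha, rfl⟩ := hv
    exact ⟨h, a ^ 2, ⟨A.pow_mem ha 2, hsqQ a ha⟩, rfl⟩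
  have hgens : ∀ u ∈ Group.conjugatesOfSet T, ∀ v ∈ Group.conjugatesOfSet T, u * v = v * u := by
    intro u hu v hv
    obtain ⟨g, d, hd, rfl⟩ := hTD u hu
    obtain ⟨k, e, he, rfl⟩ := hTD v hv
    have h := ((hall (k⁻¹ * g)).smul k) d hd e he
    rw [mul_inv_cancel_left, mul_one] at h
    exact h
  have h1 : Subgroup.normalClosure T ≤ Subgroup.centralizer (Group.conjugatesOfSet T) := by
    refine (Subgroup.closure_le _).2 fun u hu => ?_
    rw [SetLike.mem_coe, Subgroup.mem_centralizer_iff]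
    exact fun v hv => hgens v hv u hu
  have h2 : Subgroup.normalClosure T ≤ Subgroup.centralizer (Subgroup.normalClosure T : Set X) := by
    refine (Subgroup.closure_le _).2 fun u hu => ?_
    rw [SetLike.mem_coe, Subgroup.mem_centralizer_iff]
    intro v hv
    exact ((Subgroup.mem_centralizer_iff.1 (h1 hv)) u hu).symm
  exact ⟨⟨fun u v => Subtype.ext ((Subgroup.mem_centralizer_iff.1 (h2 u.2)) v v.2).symm⟩⟩

end Cfsg.Agent.S1783
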