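import Cfsg.Statements.S1784
import Cfsg.Agent.TwoGroups.InvolutionOnExtraspecial
import Cfsg.Agent.Components.FStar
import Cfsg.Agent.Core.Fitting
import Cfsg.Agent.Linear.AffineTwo

set_option autoImplicit false
set_option linter.style.haveILetI false
open Cfsg

namespace Cfsg.Agent.S1784

/-- Let G be a finite group and let z be an involution of G such that Q, the generalized Fitting subgroup of the centralizer C of z, is a 2-group of symplectic type (every characteristic abelian subgroup of Q is cyclic); suppose Q is extraspecial, and view Q inside G. Let α be an involution of C that is not in Q, and let Q₀ be the subgroup of those q ∈ Q whose commutator with α lies in the subgroup generated by z. Then (a) the subgroup generated by the commutators α q α⁻¹ q⁻¹, q ∈ Q, equals the centre of Q₀; and (b) if Q₀ is not contained in the product of the centralizer of α in Q with the subgroup generated by z, then some element of Q conjugates α to α z. -/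
theorem result {G : Type*} [Group G] [Finite G] (z : G) (hz : orderOf z = 2) (hQ : Cfsg.IsOfSymplecticType ↥(Cfsg.generalizedFittingSubgroup ↥(Subgroup.centralizer ({z} : Set G)))) (hE : Cfsg.IsExtraspecial 2 ↥(Cfsg.generalizedFittingSubgroup ↥(Subgroup.centralizer ({z} : Set G))))
    (α : G) (hα : orderOf α = 2) (hαC : α ∈ Subgroup.centralizer ({z} : Set G)) (hαQ : α ∉ (Cfsg.generalizedFittingSubgroup ↥(Subgroup.centralizer ({z} : Set G))).map (Subgroup.centralizer ({z} : Set G)).subtype)
    (Q₀ : Subgroup G) (hQ₀ : ∀ q : G, q ∈ Q₀ ↔ (q ∈ (Cfsg.generalizedFittingSubgroup ↥(Subgroup.centralizer ({z} : Set G))).map (Subgroup.centralizer ({z} : Set G)).subtype ∧ α * q * α⁻¹ * q⁻¹ ∈ Subgroup.zpowers z)) :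
    Subgroup.closure ((fun q : G => α * q * α⁻¹ * q⁻¹) '' ((Cfsg.generalizedFittingSubgroup ↥(Subgroup.centralizer ({z} : Set G))).map (Subgroup.centralizer ({z} : Set G)).subtype : Set G)) = (Subgroup.center ↥Q₀).map Q₀.subtype ∧
      (¬ Q₀ ≤ ((Cfsg.generalizedFittingSubgroup ↥(Subgroup.centralizer ({z} : Set G))).map (Subgroup.centralizer ({z} : Set G)).subtype ⊓ Subgroup.centralizer ({α} : Set G)) ⊔ Subgroup.zpowers z →
        ∃ q ∈ (Cfsg.generalizedFittingSubgroup ↥(Subgroup.centralizer ({z} : Set G))).map (Subgroup.centralizer ({z} : Set G)).subtype, q * α * q⁻¹ = α * z) := by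
    haveI := Fact.mk Nat.prime_two
    set C := Subgroup.centralizer ({z} : Set G) with hC
    set F := Cfsg.generalizedFittingSubgroup ↥C with hF
    set Q := F.map C.subtype with hQdef
    have hzC : z ∈ C := Subgroup.mem_centralizer_singleton_iff.mpr rfl
    have hzz : (⟨z, hzC⟩ : ↥C) ∈ Subgroup.center ↥C :=
      Subgroup.mem_center_iff.mpr fun g => Subtype.ext (Subgroup.mem_centralizer_singleton_iff.mp g.2)
    have hzF : (⟨z, hzC⟩ : ↥C) ∈ F := Cfsg.Agent.Components.fitting_le_generalizedFitting
      (Cfsg.Agent.Core.le_fittingSubgroup inferInstance (Cfsg.Agent.Components.isNilpotent_of_commute (le_bot_iff.mp (Subgroup.commutator_le.mpr fun a ha b _ => Subgroup.mem_bot.mpr (commutatorElement_eq_one_iff_mul_comm.mpr (Subgroup.mem_center_iff.mp ha b).symm)))) hzz)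
    have hαF : (⟨α, hαC⟩ : ↥C) ∉ F := fun h => hαQ ⟨_, h, rfl⟩
    have hα2 : α * α = 1 := by rw [← pow_two, ← hα, pow_orderOf_eq_one]
    refine Cfsg.Agent.TwoGroups.extraspecial_involution_commutators
      (Q := Q) (Cfsg.Agent.Linear.AffineTwo.isExtraspecial_congr (F.equivMapOfInjective C.subtype C.subtype_injective) hE)
      hz ⟨_, hzF, rfl⟩ ?_ hα2 (Subgroup.mem_centralizer_singleton_iff.mp hαC) ?_ ?_ Q₀ hQ₀
    · rintro _ ⟨q, -, rfl⟩
      exact Subgroup.mem_centralizer_singleton_iff.mp q.2
    · rintro _ ⟨q, hq, rfl⟩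
      have hi : α⁻¹ = α := inv_eq_of_mul_eq_one_right hα2
      refine ⟨(⟨α, hαC⟩ : ↥C) * q * (⟨α, hαC⟩ : ↥C)⁻¹,
        Cfsg.Agent.Components.generalizedFitting_normal.conj_mem q hq _, ?_⟩
      show α * (q : G) * α⁻¹ = α * (q : G) * α
      rw [hi]
    · by_contra hcon
      push Not at hcon
      exact hαF (Cfsg.Agent.Components.centralizer_generalizedFitting_le
        (Subgroup.mem_centralizer_iff.mpr fun q hq => Subtype.ext (hcon _ ⟨q, hq, rfl⟩).symm))

end Cfsg.Agent.S1784
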