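import Cfsg.Statements.S1785
import Cfsg.Agent.Components.Signalizer
import Cfsg.Agent.OddLocal.NilBasics
import Mathlib.GroupTheory.Sylow
import Mathlib.Tactic.Group
import Mathlib.Tactic.IntervalCases
-- import your own Cfsg.Agent.* helpers here

set_option autoImplicit false
open Cfsg

namespace Cfsg.Agent.S1785


theorem card_le_sq {X : Type*} [Group X] [Finite X] {W : Subgroup X} (hW : Cfsg.IsElementaryAbelian 2 W)
    {a : X} (ha : a * a = 1) (hn : ∀ w ∈ W, a * w * a⁻¹ ∈ W) :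
    Nat.card W ≤ Nat.card ↥(W ⊓ Subgroup.centralizer ({a} : Set X)) ^ 2 := by
  set C := W ⊓ Subgroup.centralizer ({a} : Set X) with hC
  have hsq : ∀ w ∈ W, w * w = 1 := fun w hw => by rw [← pow_two]; exact hW.2 w hw
  let f : W →* X := MonoidHom.mk' (fun w => w.1 * (a * w.1 * a⁻¹)) (by
    intro v w
    show v.1 * w.1 * (a * (v.1 * w.1) * a⁻¹) = v.1 * (a * v.1 * a⁻¹) * (w.1 * (a * w.1 * a⁻¹))
    have h := PLocal.comm_of_EA hW w.2 (hn v v.2)
    calc v.1 * w.1 * (a * (v.1 * w.1) * a⁻¹) = v.1 * (w.1 * (a * v.1 * a⁻¹)) * (a * w.1 * a⁻¹) := by group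
      _ = v.1 * ((a * v.1 * a⁻¹) * w.1) * (a * w.1 * a⁻¹) := by rw [h]
      _ = v.1 * (a * v.1 * a⁻¹) * (w.1 * (a * w.1 * a⁻¹)) := by group)
  have h1 : Nat.card f.ker ≤ Nat.card C := by
    refine Nat.card_le_card_of_injective (fun w => (⟨w.1.1, w.1.2, ?_⟩ : C)) fun v w h =>
      Subtype.ext (Subtype.ext (congrArg (fun s : C => (s : X)) h))
    have hw : w.1.1 * (a * w.1.1 * a⁻¹) = 1 := w.2
    have hw' : a * w.1.1 * a⁻¹ = w.1.1 := by
      rw [eq_inv_of_mul_eq_one_right hw]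
      exact inv_eq_of_mul_eq_one_left (hsq _ w.1.2)
    refine Subgroup.mem_centralizer_singleton_iff.2 ?_
    calc w.1.1 * a = a * w.1.1 * a⁻¹ * a := by rw [hw']
      _ = a * w.1.1 := by group
  have h2 : Nat.card f.range ≤ Nat.card C := by
    refine Subgroup.card_le_of_le ?_
    rintro _ ⟨w, rfl⟩
    refine ⟨W.mul_mem w.2 (hn w w.2), Subgroup.mem_centralizer_singleton_iff.2 ?_⟩
    show w.1 * (a * w.1 * a⁻¹) * a = a * (w.1 * (a * w.1 * a⁻¹))
    calc w.1 * (a * w.1 * a⁻¹) * a = (a * w.1 * a⁻¹) * w.1 * a := by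
          rw [PLocal.comm_of_EA hW w.2 (hn w w.2)]
      _ = (a * w.1 * a⁻¹) * w.1 * a⁻¹ := by rw [inv_eq_of_mul_eq_one_left ha]
      _ = a * (w.1 * (a⁻¹ * w.1 * a⁻¹)) := by group
      _ = a * (w.1 * (a * w.1 * a⁻¹)) := by rw [inv_eq_of_mul_eq_one_left ha]
  rw [Subgroup.card_eq_card_quotient_mul_card_subgroup f.ker,
    Nat.card_congr (QuotientGroup.quotientKerEquivRange f).toEquiv, pow_two]
  exact Nat.mul_le_mul h2 h1

theorem extend {X : Type*} [Group X] [Finite X] {F : Subgroup X} (hF : Cfsg.IsElementaryAbelian 2 F)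
    {a : X} (ha : a ^ 2 = 1) (haF : a ∉ F) (hc : ∀ f ∈ F, f * a = a * f) :
    Cfsg.IsElementaryAbelian 2 (F ⊔ Subgroup.zpowers a) ∧
      Nat.card ↥(F ⊔ Subgroup.zpowers a) = Nat.card F * 2 := by
  haveI : Fact (Nat.Prime 2) := ⟨Nat.prime_two⟩
  have h : Cfsg.IsElementaryAbelian 2 (F ⊔ Subgroup.zpowers a) := by
    refine PLocal.isEA_sup hF (PLocal.isEA_zpowers ha) fun f hf => ?_
    rw [Subgroup.mem_centralizer_iff]
    rintro _ ⟨k, rfl⟩
    exact (Commute.zpow_left (show Commute a f from (hc f hf).symm) k).eq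
  exact ⟨h, Components.ea_card_sup_zpowers h le_sup_left (Subgroup.mem_sup_right (Subgroup.mem_zpowers a)) haF⟩

theorem exists_sub {X : Type*} [Group X] [Finite X] {W : Subgroup X} (hW : Cfsg.IsElementaryAbelian 2 W)
    {k : ℕ} (hk : 2 ^ k ≤ Nat.card W) :
    ∃ K : Subgroup X, K ≤ W ∧ Cfsg.IsElementaryAbelian 2 K ∧ Nat.card K = 2 ^ k := by
  haveI : Fact (Nat.Prime 2) := ⟨Nat.prime_two⟩
  obtain ⟨n, hn⟩ := (PLocal.isPGroup_of_EA hW).exists_card_eq
  rw [hn, Nat.pow_le_pow_iff_right (by norm_num)] at hk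
  obtain ⟨K, hK⟩ := Sylow.exists_subgroup_card_pow_prime (G := W) 2 (hn ▸ pow_dvd_pow 2 hk)
  exact ⟨K.map W.subtype, Subgroup.map_subtype_le _, PLocal.isEA_mono hW (Subgroup.map_subtype_le _),
    (Subgroup.card_map_of_injective W.subtype_injective).trans hK⟩

/-- Let X be a finite 2-group having a normal elementary abelian subgroup of order at least 32. Then (a) for any two elementary abelian subgroups A, B of X of order 8 there is a chain A = A₁, A₂, …, Aₙ = B of elementary abelian subgroups of order 8 in which consecutive members commute elementwise; and (b) every elementary abelian subgroup of X of order 4 is contained in an elementary abelian subgroup of order 8. -/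
theorem result {X : Type*} [Group X] [Finite X]
    (hX : IsPGroup 2 X) (E : Subgroup X) [E.Normal] (hE : Cfsg.IsElementaryAbelian 2 E) (hE32 : 32 ≤ Nat.card ↥E) :
    (∀ A B : Subgroup X, Cfsg.IsElementaryAbelian 2 A → Nat.card ↥A = 8 → Cfsg.IsElementaryAbelian 2 B → Nat.card ↥B = 8 →
        Relation.ReflTransGen
          (fun C D : Subgroup X => Cfsg.IsElementaryAbelian 2 C ∧ Nat.card ↥C = 8 ∧ Cfsg.IsElementaryAbelian 2 D ∧ Nat.card ↥D = 8 ∧ ⁅C, D⁆ = ⊥)
          A B) ∧
      (∀ V : Subgroup X, Cfsg.IsElementaryAbelian 2 V → Nat.card ↥V = 4 →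
        ∃ A : Subgroup X, V ≤ A ∧ Cfsg.IsElementaryAbelian 2 A ∧ Nat.card ↥A = 8) := by
  haveI : Fact (Nat.Prime 2) := ⟨Nat.prime_two⟩
  haveI := hX.isNilpotent
  obtain ⟨z, hzE, hz1, hzc⟩ := OddLocal.exists_ne_one_mem_center_of_normal E (fun h => by
    rw [h, Subgroup.card_bot] at hE32; omega)
  have hz2 : z ^ 2 = 1 := hE.2 z hzE
  have hzcomm : ∀ g : X, g * z = z * g := fun g => Subgroup.mem_center_iff.1 hzc g
  -- centralisers in E
  have hC1 : ∀ a : X, a ^ 2 = 1 → 8 ≤ Nat.card ↥(E ⊓ Subgroup.centralizer ({a} : Set X)) := by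
    intro a ha
    have h := card_le_sq hE (by rw [← pow_two, ha]) (fun w hw => ‹E.Normal›.conj_mem w hw a)
    obtain ⟨n, hn⟩ := (PLocal.isPGroup_of_EA (PLocal.isEA_mono hE
      (inf_le_left : E ⊓ Subgroup.centralizer ({a} : Set X) ≤ E))).exists_card_eq
    rw [hn] at h ⊢
    by_contra hlt
    have : n ≤ 2 := by
      by_contra hn3
      exact hlt ((Nat.pow_le_pow_right (by norm_num) (show 3 ≤ n by omega)).trans' (by norm_num))
    interval_cases n <;> omega
  have hC2 : ∀ a b : X, a ^ 2 = 1 → b ^ 2 = 1 → a * b = b * a →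
      4 ≤ Nat.card ↥(E ⊓ Subgroup.centralizer ({a} : Set X) ⊓ Subgroup.centralizer ({b} : Set X)) := by
    intro a b ha hb hab
    have hW : Cfsg.IsElementaryAbelian 2 (E ⊓ Subgroup.centralizer ({a} : Set X)) :=
      PLocal.isEA_mono hE inf_le_left
    have h := card_le_sq hW (by rw [← pow_two, hb] : b * b = 1) (fun w hw =>
      ⟨‹E.Normal›.conj_mem w hw.1 b, Subgroup.mul_mem _ (Subgroup.mul_mem _
        (Subgroup.mem_centralizer_singleton_iff.2 hab.symm) hw.2)
        (Subgroup.inv_mem _ (Subgroup.mem_centralizer_singleton_iff.2 hab.symm))⟩)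
    have h8 := hC1 a ha
    obtain ⟨n, hn⟩ := (PLocal.isPGroup_of_EA (PLocal.isEA_mono hW
      (inf_le_left : E ⊓ Subgroup.centralizer ({a} : Set X) ⊓ Subgroup.centralizer ({b} : Set X) ≤ _))).exists_card_eq
    rw [hn] at h ⊢
    by_contra hlt
    have : n ≤ 1 := by
      by_contra hn2
      exact hlt ((Nat.pow_le_pow_right (by norm_num) (show 2 ≤ n by omega)).trans' (by norm_num))
    interval_cases n <;> omega
  -- an elementary abelian group of order four is generated by two commuting elements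
  have gen2 : ∀ A : Subgroup X, Cfsg.IsElementaryAbelian 2 A → Nat.card A = 4 →
      ∃ a b : X, a ∈ A ∧ b ∈ A ∧ Subgroup.zpowers a ⊔ Subgroup.zpowers b = A := by
    intro A hA hA4
    obtain ⟨a, ha, ha1⟩ : ∃ a ∈ A, a ≠ 1 := by
      by_contra h
      push Not at h
      rw [(Subgroup.eq_bot_iff_forall _).2 h, Subgroup.card_bot] at hA4
      omega
    have hca : Nat.card (Subgroup.zpowers a) = 2 := by
      rw [Nat.card_zpowers, orderOf_eq_prime (hA.2 a ha) ha1]
    obtain ⟨b, hb, hba⟩ : ∃ b ∈ A, b ∉ Subgroup.zpowers a := by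
      by_contra h
      push Not at h
      have := Subgroup.card_le_of_le (h : A ≤ Subgroup.zpowers a)
      omega
    refine ⟨a, b, ha, hb, Subgroup.eq_of_le_of_card_ge
      (sup_le (Subgroup.zpowers_le.2 ha) (Subgroup.zpowers_le.2 hb)) ?_⟩
    rw [Components.ea_card_sup_zpowers hA (Subgroup.zpowers_le.2 ha) hb hba]
    omega
  set R := fun C D : Subgroup X => Cfsg.IsElementaryAbelian 2 C ∧ Nat.card ↥C = 8 ∧
    Cfsg.IsElementaryAbelian 2 D ∧ Nat.card ↥D = 8 ∧ ⁅C, D⁆ = ⊥ with hR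
  have mkR : ∀ C D : Subgroup X, Cfsg.IsElementaryAbelian 2 C → Nat.card ↥C = 8 →
      Cfsg.IsElementaryAbelian 2 D → Nat.card ↥D = 8 → (∀ c ∈ C, ∀ d ∈ D, d * c = c * d) → R C D :=
    fun C D hC hC8 hD hD8 h => ⟨hC, hC8, hD, hD8,
      Subgroup.commutator_eq_bot_iff_le_centralizer.2 fun c hc =>
        Subgroup.mem_centralizer_iff.2 fun d hd => h c hc d hd⟩
  have symm : ∀ C D, R C D → R D C := fun C D h =>
    ⟨h.2.2.1, h.2.2.2.1, h.1, h.2.1, by rw [Subgroup.commutator_comm]; exact h.2.2.2.2⟩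
  have cl : ∀ (C : Subgroup X) (x : X), (∀ c ∈ C, x * c = c * x) → C ≤ Subgroup.centralizer ({x} : Set X) :=
    fun C x h c hc => Subgroup.mem_centralizer_singleton_iff.2 (h c hc).symm
  -- every E₈ is joined to an E₈ inside E
  have toE : ∀ A : Subgroup X, Cfsg.IsElementaryAbelian 2 A → Nat.card ↥A = 8 →
      ∃ K : Subgroup X, K ≤ E ∧ Cfsg.IsElementaryAbelian 2 K ∧ Nat.card ↥K = 8 ∧ Relation.ReflTransGen R A K := by
    intro A hA hA8
    -- first step: a neighbour generated by z and a four-group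
    obtain ⟨A1, V, hA1, hA18, hV, hV4, hVz, hA1eq, hAA1⟩ : ∃ A1 V : Subgroup X,
        Cfsg.IsElementaryAbelian 2 A1 ∧ Nat.card ↥A1 = 8 ∧ Cfsg.IsElementaryAbelian 2 V ∧
        Nat.card ↥V = 4 ∧ z ∉ V ∧ A1 = V ⊔ Subgroup.zpowers z ∧ R A A1 := by
      obtain ⟨V, hVA, hV, hV4, hVz⟩ : ∃ V : Subgroup X, V ≤ A ∧ Cfsg.IsElementaryAbelian 2 V ∧
          Nat.card ↥V = 4 ∧ z ∉ V := by
        obtain ⟨a, ha, haz⟩ : ∃ a ∈ A, a ∉ Subgroup.zpowers z := by
          by_contra h
          push Not at h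
          have := Subgroup.card_le_of_le (h : A ≤ Subgroup.zpowers z)
          rw [Nat.card_zpowers, orderOf_eq_prime hz2 hz1] at this
          omega
        have ha1 : a ≠ 1 := fun h => haz (h ▸ one_mem _)
        have hca : Nat.card (Subgroup.zpowers a) = 2 := by
          rw [Nat.card_zpowers, orderOf_eq_prime (hA.2 a ha) ha1]
        obtain ⟨hT, hT4⟩ := extend (PLocal.isEA_zpowers hz2) (hA.2 a ha) haz (by
          rintro _ ⟨k, rfl⟩
          exact (Commute.zpow_left (show Commute z a from (hzcomm a).symm) k).eq)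
        obtain ⟨b, hb, hbT⟩ : ∃ b ∈ A, b ∉ Subgroup.zpowers z ⊔ Subgroup.zpowers a := by
          by_contra h
          push Not at h
          have := Subgroup.card_le_of_le (h : A ≤ Subgroup.zpowers z ⊔ Subgroup.zpowers a)
          rw [hT4, Nat.card_zpowers, orderOf_eq_prime hz2 hz1] at this
          omega
        have hba : b ∉ Subgroup.zpowers a := fun h => hbT (Subgroup.mem_sup_right h)
        have hle : Subgroup.zpowers a ⊔ Subgroup.zpowers b ≤ A :=
          sup_le (Subgroup.zpowers_le.2 ha) (Subgroup.zpowers_le.2 hb)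
        have hc4 : Nat.card ↥(Subgroup.zpowers a ⊔ Subgroup.zpowers b) = 4 := by
          rw [Components.ea_card_sup_zpowers hA (Subgroup.zpowers_le.2 ha) hb hba, hca]
        refine ⟨_, hle, PLocal.isEA_mono hA hle, hc4, fun hzV => ?_⟩
        have heq : Subgroup.zpowers z ⊔ Subgroup.zpowers a = Subgroup.zpowers a ⊔ Subgroup.zpowers b := by
          refine Subgroup.eq_of_le_of_card_ge (sup_le (Subgroup.zpowers_le.2 hzV) le_sup_left) ?_
          rw [hc4, hT4, Nat.card_zpowers, orderOf_eq_prime hz2 hz1]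
        exact hbT (heq ▸ Subgroup.mem_sup_right (Subgroup.mem_zpowers b))
      obtain ⟨hA1, hA18⟩ := extend hV hz2 hVz fun f _ => hzcomm f
      rw [hV4] at hA18
      refine ⟨_, V, hA1, hA18, hV, hV4, hVz, rfl, mkR _ _ hA hA8 hA1 hA18 ?_⟩
      intro c hc d hd
      have hle : V ⊔ Subgroup.zpowers z ≤ Subgroup.centralizer ({c} : Set X) :=
        sup_le (cl _ _ fun v hv => PLocal.comm_of_EA hA hc (hVA hv))
          (Subgroup.zpowers_le.2 (Subgroup.mem_centralizer_singleton_iff.2 (hzcomm c).symm))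
      exact Subgroup.mem_centralizer_singleton_iff.1 (hle hd)
    obtain ⟨a, b, haV, hbV, hVab⟩ := gen2 V hV hV4
    have hab := PLocal.comm_of_EA hV haV hbV
    obtain ⟨F, hFle, hF, hF4⟩ := exists_sub (k := 2)
      (PLocal.isEA_mono hE (inf_le_left.trans inf_le_left :
        E ⊓ Subgroup.centralizer ({a} : Set X) ⊓ Subgroup.centralizer ({b} : Set X) ≤ E))
      (hC2 a b (hV.2 a haV) (hV.2 b hbV) hab)
    have hFA1 : ∀ f ∈ F, ∀ c ∈ A1, c * f = f * c := by
      intro f hf c hc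
      have hle : A1 ≤ Subgroup.centralizer ({f} : Set X) := by
        rw [hA1eq, ← hVab]
        refine sup_le (sup_le (Subgroup.zpowers_le.2 ?_) (Subgroup.zpowers_le.2 ?_)) (Subgroup.zpowers_le.2 ?_)
        · exact Subgroup.mem_centralizer_singleton_iff.2 (Subgroup.mem_centralizer_singleton_iff.1 (hFle hf).1.2).symm
        · exact Subgroup.mem_centralizer_singleton_iff.2 (Subgroup.mem_centralizer_singleton_iff.1 (hFle hf).2).symm
        · exact Subgroup.mem_centralizer_singleton_iff.2 (hzcomm f).symm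
      exact Subgroup.mem_centralizer_singleton_iff.1 (hle hc)
    obtain ⟨c, hcA, hcF⟩ : ∃ c ∈ A1, c ∉ F := by
      by_contra h
      push Not at h
      have := Subgroup.card_le_of_le (h : A1 ≤ F)
      omega
    obtain ⟨hA2, hA28⟩ := extend hF (hA1.2 c hcA) hcF fun f hf => (hFA1 f hf c hcA).symm
    rw [hF4] at hA28
    have h12 : R A1 (F ⊔ Subgroup.zpowers c) := by
      refine mkR _ _ hA1 hA18 hA2 hA28 fun x hx d hd => ?_
      have hle : F ⊔ Subgroup.zpowers c ≤ Subgroup.centralizer ({x} : Set X) :=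
        sup_le (cl _ _ fun f hf => hFA1 f hf x hx)
          (Subgroup.zpowers_le.2 (Subgroup.mem_centralizer_singleton_iff.2 (PLocal.comm_of_EA hA1 hcA hx)))
      exact Subgroup.mem_centralizer_singleton_iff.1 (hle hd)
    obtain ⟨K, hKle, hK, hK8⟩ := exists_sub (k := 3)
      (PLocal.isEA_mono hE (inf_le_left : E ⊓ Subgroup.centralizer ({c} : Set X) ≤ E)) (hC1 c (hA1.2 c hcA))
    refine ⟨K, hKle.trans inf_le_left, hK, hK8, ((Relation.ReflTransGen.single hAA1).tail h12).tail ?_⟩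
    refine mkR _ _ hA2 hA28 hK hK8 fun x hx k hk => ?_
    have hle : F ⊔ Subgroup.zpowers c ≤ Subgroup.centralizer ({k} : Set X) := by
      refine sup_le (cl _ _ fun f hf => ?_) (Subgroup.zpowers_le.2 ?_)
      · exact PLocal.comm_of_EA hE (hKle hk).1 (hFle hf).1.1
      · exact Subgroup.mem_centralizer_singleton_iff.2
          (Subgroup.mem_centralizer_singleton_iff.1 (hKle hk).2).symm
    exact (Subgroup.mem_centralizer_singleton_iff.1 (hle hx)).symm
  refine ⟨fun A B hA hA8 hB hB8 => ?_, fun V hV hV4 => ?_⟩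
  · obtain ⟨K, hKE, hK, hK8, hAK⟩ := toE A hA hA8
    obtain ⟨L, hLE, hL, hL8, hBL⟩ := toE B hB hB8
    exact (hAK.tail (mkR _ _ hK hK8 hL hL8 fun c hc d hd => PLocal.comm_of_EA hE (hLE hd) (hKE hc))).trans
      (Relation.ReflTransGen.mono (fun _ _ h => symm _ _ h) _ _ hBL.swap)
  · obtain ⟨a, b, haV, hbV, hVab⟩ := gen2 V hV hV4
    have hab := PLocal.comm_of_EA hV haV hbV
    obtain ⟨e, he2, heV, hec⟩ : ∃ e : X, e ^ 2 = 1 ∧ e ∉ V ∧ ∀ v ∈ V, v * e = e * v := by
      by_cases hWV : E ⊓ Subgroup.centralizer ({a} : Set X) ⊓ Subgroup.centralizer ({b} : Set X) ≤ V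
      · have heq := Subgroup.eq_of_le_of_card_ge hWV (by
          rw [hV4]; exact hC2 a b (hV.2 a haV) (hV.2 b hbV) hab)
        have hVE : V ≤ E := heq ▸ inf_le_left.trans inf_le_left
        obtain ⟨e, he, heV⟩ : ∃ e ∈ E, e ∉ V := by
          by_contra h
          push Not at h
          have := Subgroup.card_le_of_le (h : E ≤ V)
          omega
        exact ⟨e, hE.2 e he, heV, fun v hv => PLocal.comm_of_EA hE (hVE hv) he⟩
      · obtain ⟨e, he, heV⟩ := SetLike.not_le_iff_exists.1 hWV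
        refine ⟨e, hE.2 e he.1.1, heV, fun v hv => ?_⟩
        have hle : V ≤ Subgroup.centralizer ({e} : Set X) := by
          rw [← hVab]
          exact sup_le
            (Subgroup.zpowers_le.2 (Subgroup.mem_centralizer_singleton_iff.2
              (Subgroup.mem_centralizer_singleton_iff.1 he.1.2).symm))
            (Subgroup.zpowers_le.2 (Subgroup.mem_centralizer_singleton_iff.2
              (Subgroup.mem_centralizer_singleton_iff.1 he.2).symm))
        exact Subgroup.mem_centralizer_singleton_iff.1 (hle hv)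
    obtain ⟨h1, h2⟩ := extend hV he2 heV hec
    exact ⟨_, le_sup_left, h1, by rw [h2, hV4]⟩

end Cfsg.Agent.S1785
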