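import Cfsg.Statements.S1786
import Cfsg.Agent.Screen.TISub.Recog
import Cfsg.Agent.Components.FStar
import Cfsg.Agent.FGS3.PGroupFrattini

set_option autoImplicit false
set_option linter.style.haveILetI false
open Cfsg
open Cfsg.Agent.Screen.TISub
open scoped commutatorElement

namespace Cfsg.Agent.S1786

/-- Let G be a finite group, V an elementary abelian 2-subgroup of G and M the normalizer of V; write Q for the largest normal 2-subgroup of M. Suppose (1) the generalized Fitting subgroup of M equals Q; (2) V is a maximal abelian normal subgroup of M; (3) every conjugate of V equals V or meets V trivially, and for some g ∈ G the conjugate V' = g V g⁻¹ is different from V and contained in Q. Let P be the centralizer of V in Q, W the subgroup generated by V and V', and H the subgroup generated by P and g P g⁻¹. Then: (a) V is contained in g Q g⁻¹; (b) every non-identity element of W lies in exactly one conjugate of V contained in W, H normalizes W, and H modulo the centralizer of W in H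 is isomorphic to the special linear group of dimension 2 over the field with |V| elements; (c) P = Q, and V equals the Frattini subgroup, the centre and the commutator subgroup of Q. -/
theorem result {G : Type*} [Group G] [Finite G] (V : Subgroup G)
    (hV : Cfsg.IsElementaryAbelian 2 V)
    (h1 : (Cfsg.generalizedFittingSubgroup ↥(Subgroup.normalizer (V : Set G))).map (Subgroup.normalizer (V : Set G)).subtype =
      (Cfsg.pCore 2 ↥(Subgroup.normalizer (V : Set G))).map (Subgroup.normalizer (V : Set G)).subtype)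
    (h2 : ∀ A : Subgroup G, V ≤ A → A ≤ Subgroup.normalizer (V : Set G) → IsMulCommutative ↥A →
      (∀ m ∈ Subgroup.normalizer (V : Set G), ∀ a ∈ A, m * a * m⁻¹ ∈ A) → A = V)
    (hti : ∀ x : G, V.map (MulAut.conj x).toMonoidHom = V ∨ V.map (MulAut.conj x).toMonoidHom ⊓ V = ⊥)
    (g : G) (hg : V.map (MulAut.conj g).toMonoidHom ≠ V)
    (hgQ : V.map (MulAut.conj g).toMonoidHom ≤ (Cfsg.pCore 2 ↥(Subgroup.normalizer (V : Set G))).map (Subgroup.normalizer (V : Set G)).subtype) :
    let Q : Subgroup G := (Cfsg.pCore 2 ↥(Subgroup.normalizer (V : Set G))).map (Subgroup.normalizer (V : Set G)).subtype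
    let P : Subgroup G := Q ⊓ Subgroup.centralizer (V : Set G)
    let W : Subgroup G := V ⊔ V.map (MulAut.conj g).toMonoidHom
    let H : Subgroup G := P ⊔ P.map (MulAut.conj g).toMonoidHom
    V ≤ Q.map (MulAut.conj g).toMonoidHom ∧
      (∀ w ∈ W, w ≠ 1 → ∃! U : Subgroup G, (∃ x : G, U = V.map (MulAut.conj x).toMonoidHom) ∧ U ≤ W ∧ w ∈ U) ∧
      H ≤ Subgroup.normalizer (W : Set G) ∧
      (∀ hN : ((Subgroup.centralizer (W : Set G)).subgroupOf H).Normal, ∃ (F : Type) (_ : Field F) (_ : Fintype F), Fintype.card F = Nat.card ↥V ∧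
        Nonempty (↥H ⧸ (Subgroup.centralizer (W : Set G)).subgroupOf H ≃* Matrix.SpecialLinearGroup (Fin 2) F)) ∧
      P = Q ∧ (frattini ↥Q).map Q.subtype = V ∧ (Subgroup.center ↥Q).map Q.subtype = V ∧ (commutator ↥Q).map Q.subtype = V := by
  intro Q P W H
  classical
  have hmax : ∀ A : Subgroup G, V ≤ A → A ≤ Subgroup.normalizer (V : Set G) →
      (∀ a ∈ A, ∀ b ∈ A, a * b = b * a) →
      (∀ m ∈ Subgroup.normalizer (V : Set G), ∀ a ∈ A, m * a * m⁻¹ ∈ A) → A = V :=
    fun A h3 h4 h5 h6 => h2 A h3 h4 ⟨⟨fun a b => Subtype.ext (h5 a a.2 b b.2)⟩⟩ h6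
  have hne : V ≠ ⊥ := by
    intro e
    apply hg
    rw [e]
    exact Subgroup.map_bot _
  have D : Data V := by
    refine ⟨hV, hne, fun m hm hc => ?_, hmax, hti⟩
    have e := Subgroup.map_injective (Subgroup.subtype_injective _) h1
    have hmem : (⟨m, hm⟩ : ↥(Subgroup.normalizer (V : Set G))) ∈
        generalizedFittingSubgroup ↥(Subgroup.normalizer (V : Set G)) := by
      refine Components.centralizer_generalizedFitting_le (Subgroup.mem_centralizer_iff.2 ?_)
      intro q hq
      exact Subtype.ext (hc q ⟨q, e ▸ hq, rfl⟩)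
    exact ⟨⟨m, hm⟩, e ▸ hmem, rfl⟩
  set U : Subgroup G := V.map (MulAut.conj g).toMonoidHom with hUdef
  have hA : Adj V U := ⟨⟨g, rfl⟩, hg, hgQ⟩
  have hQP : qc V = pc V := D.qc_eq hA
  have hback := D.back hA
  have hUP := D.adj_le_pc hA
  have hPU : pc U = P.map (MulAut.conj g).toMonoidHom := pc_cj g V
  obtain ⟨u, hu, hu1⟩ := (Subgroup.bot_or_exists_ne_one U).resolve_left (D.adj_data hA).ne_bot
  have hVQ : V ≤ Q := D.le_qc_self
  have hzV : ∀ c ∈ Q, (∀ q ∈ Q, q * c = c * q) → c ∈ V := fun c hc h =>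
    D.central_mem (qc_le V hc) h
  have hVcomm : ∀ v ∈ V, ∀ q ∈ Q, q * v = v * q := fun v hv q hq =>
    Data.pc_comm (hQP ▸ (hq : q ∈ qc V)) hv
  haveI : Fact (Nat.Prime 2) := ⟨Nat.prime_two⟩
  have hcQ : (commutator ↥Q).map Q.subtype = V := by
    refine le_antisymm ?_ fun v hv => ?_
    · rw [Subgroup.map_le_iff_le_comap, commutator_def, Subgroup.commutator_le]
      intro a _ b _
      have ha : (a : G) ∈ pc V := hQP ▸ a.2
      have hb : (b : G) ∈ pc V := hQP ▸ b.2
      exact D.comm_mem ha hb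
    · obtain ⟨a, ha, hau⟩ := D.surj hA hu hu1 hv
      refine ⟨⁅(⟨a, ha.1⟩ : Q), ⟨u, (hUP hu).1⟩⁆, ?_, hau⟩
      exact Subgroup.commutator_mem_commutator (Subgroup.mem_top _) (Subgroup.mem_top _)
  refine ⟨?_, fun w hw hw1 => ?_, ?_, fun hN => ?_, hQP.symm, ?_, ?_, hcQ⟩
  · have h := hback.2.2
    rw [show qc U = Q.map (MulAut.conj g).toMonoidHom from qc_cj g V] at h
    exact h
  · have hex : ∃ x : G, w ∈ cj x V ∧ cj x V ≤ W := by
      obtain ⟨v, hv, u', hu', rfl⟩ := Data.exists_mul_of_mem_sup (D.adj_comm hA) hw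
      by_cases hu1' : u' = 1
      · subst hu1'
        exact ⟨1, by rw [cj_one, mul_one]; exact hv, by rw [cj_one]; exact le_sup_left⟩
      · obtain ⟨a, ha, hau⟩ := D.surj hA hu' hu1' hv
        refine ⟨a * g, ?_, ?_⟩
        · rw [← cj_cj, ← hau, ← conj_eq_comm_mul]
          exact conj_mem_cj a hu'
        · rw [← cj_cj]
          intro z hz
          have h5 := (Subgroup.mem_normalizer_iff.1 (D.pc_normalizes_sup hA ha) _).1
            (Subgroup.mem_sup_right (mem_cj.1 hz) : a⁻¹ * z * a ∈ V ⊔ U)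
          simpa [mul_assoc] using h5
    obtain ⟨x, hx, hxW⟩ := hex
    refine ⟨cj x V, ⟨⟨x, rfl⟩, hxW, hx⟩, ?_⟩
    rintro U' ⟨⟨y, rfl⟩, -, hwy⟩
    exact D.eq_of_mem hwy hx hw1
  · show P ⊔ P.map (MulAut.conj g).toMonoidHom ≤ _
    rw [← hPU]
    exact D.sup_normalizes hA
  · refine D.exists_sl2 hA ?_ hN
    show P ⊔ P.map (MulAut.conj g).toMonoidHom = _
    rw [← hPU]; rfl
  · refine le_antisymm ?_ ?_
    · haveI : (V.subgroupOf Q).Normal := ⟨fun a ha q =>
        (Subgroup.mem_normalizer_iff.1 (qc_le V q.2) _).1 ha⟩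
      have h := FGS3.frattini_le_of_elementary (p := 2) (N := V.subgroupOf Q)
        (fun c hc => by
          have : (c : G) ∈ V := hcQ ▸ Subgroup.mem_map_of_mem _ hc
          exact this)
        (fun a => by
          have ha : (a : G) ∈ pc V := hQP ▸ a.2
          show ((a ^ 2 : Q) : G) ∈ V
          rw [SubgroupClass.coe_pow, pow_two]
          exact D.sq_mem ha)
      rintro _ ⟨c, hc, rfl⟩
      exact h hc
    · rw [← hcQ]
      exact Subgroup.map_mono (FGS3.commutator_le_frattini (qc_isPGroup V))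
  · ext z
    constructor
    · rintro ⟨c, hc, rfl⟩
      exact hzV c c.2 fun q hq => congrArg Subtype.val (Subgroup.mem_center_iff.1 hc ⟨q, hq⟩)
    · intro hz
      exact ⟨⟨z, hVQ hz⟩, Subgroup.mem_center_iff.2 fun q => Subtype.ext (hVcomm z hz q q.2), rfl⟩

end Cfsg.Agent.S1786
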