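import Cfsg.Statements.S1850
import Cfsg.Agent.Screen.CharTwo
-- import your own Cfsg.Agent.* helpers here

set_option autoImplicit false
open Cfsg

namespace Cfsg.Agent.S1850

/-- Let G be a non-abelian finite simple QTKE-group and T a Sylow 2-subgroup of G. If U is a nontrivial 2-subgroup of G with U ∩ Z(T) ≠ 1, then F*(N_G(U)) = O₂(N_G(U)). -/
theorem result {G : Type*} [Group G] [Finite G] [IsSimpleGroup G]
    (hG : ¬ IsMulCommutative G) (hQ : Cfsg.IsQTKE G) (T : Sylow 2 G) (U : Subgroup G)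
    (hU : IsPGroup 2 ↥U) (hZ : U ⊓ ((T : Subgroup G) ⊓ Subgroup.centralizer ((T : Subgroup G) : Set G)) ≠ ⊥) :
    Subgroup.normalizer (U : Set G) ∈ Cfsg.calHe G := by
  haveI : Fact (Nat.Prime 2) := ⟨Nat.prime_two⟩
  obtain ⟨-, -, hev⟩ := hQ
  set Z := U ⊓ ((T : Subgroup G) ⊓ Subgroup.centralizer ((T : Subgroup G) : Set G)) with hZdef
  have hZp : IsPGroup 2 Z := hU.to_le inf_le_left
  have hT : (T : Subgroup G) ≤ Subgroup.normalizer (Z : Set G) := fun t ht =>
    Subgroup.centralizer_le_normalizer _ (Subgroup.mem_centralizer_iff.2 fun w hw =>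
      (Subgroup.mem_centralizer_iff.1 (Subgroup.mem_inf.1 (Subgroup.mem_inf.1 hw).2).2 t ht).symm)
  have hB : Cfsg.IsOfCharacteristicTwo ↥(Subgroup.normalizer (Z : Set G)) :=
    hev _ ⟨Z, hZp, hZ, rfl⟩ ⟨T, hT⟩
  exact Screen.CharTwo.fstar_iff.1 (Screen.CharTwo.normalizer_climb hU _ Z inf_le_left rfl hB)

end Cfsg.Agent.S1850
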