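import Cfsg.Statements.S1851
import Cfsg.Agent.Screen.CharTwo
import Cfsg.Agent.Components.PComponent
import Cfsg.Agent.OddLocal.NilBasics
import Mathlib.GroupTheory.IsSubnormal
import Mathlib.Tactic.Group
-- import your own Cfsg.Agent.* helpers here

set_option autoImplicit false
open Cfsg
open scoped commutatorElement
universe u

namespace Cfsg.Agent.S1851


section

/-- A perfect subnormal subgroup is normalised by every solvable normal subgroup. -/
theorem normalizes_aux : ∀ (n : ℕ), ∀ {X : Type u} [Group X] [Finite X] (L R : Subgroup X) [R.Normal],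
    Nat.card X = n → ⁅L, L⁆ = L → L.IsSubnormal → Group.IsSolvable R → R ≤ Subgroup.normalizer (L : Set X) := by
  intro n
  induction n using Nat.strong_induction_on with
  | _ n ih =>
    intro X _ _ L R _ hn hp hs hR
    have down : ∀ M : Subgroup X, M ≠ ⊤ → L ≤ M → R ⊓ M ≤ Subgroup.normalizer (L : Set X) := by
      intro M hMt hLM
      haveI : (R.subgroupOf M).Normal := inferInstance
      have hlt : Nat.card M < n := hn ▸ lt_of_le_of_ne (Subgroup.card_le_card_group M)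
        (fun h => hMt (Subgroup.eq_top_of_card_eq M h))
      have hp' : ⁅L.subgroupOf M, L.subgroupOf M⁆ = L.subgroupOf M := by
        apply Subgroup.map_injective M.subtype_injective
        rw [Subgroup.map_commutator, Subgroup.subgroupOf_map_subtype, inf_eq_left.2 hLM, hp]
      haveI := hR
      have hR' : Group.IsSolvable (R.subgroupOf M) :=
        Group.isSolvable_of_isSolvable_injective (f := MonoidHom.mk' (fun x : R.subgroupOf M => (⟨(x.1 : X), x.2⟩ : R)) fun _ _ => rfl)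
          (fun a b h => Subtype.ext (Subtype.ext (congrArg Subtype.val h :)))
      have h := ih _ hlt (L.subgroupOf M) (R.subgroupOf M) rfl hp' hs.subgroupOf hR'
      intro r hr
      have hrn := h (show (⟨r, hr.2⟩ : M) ∈ R.subgroupOf M from hr.1)
      refine Subgroup.mem_normalizer_iff.2 fun t => ⟨fun ht => ?_, fun ht => ?_⟩
      · exact (Subgroup.mem_normalizer_iff.1 hrn ⟨t, hLM ht⟩).1 ht
      · have htM : t ∈ M := by
          have := M.mul_mem (M.mul_mem (M.inv_mem hr.2) (hLM ht)) hr.2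
          rwa [show r⁻¹ * (r * t * r⁻¹) * r = t from by group] at this
        exact (Subgroup.mem_normalizer_iff.1 hrn ⟨t, htM⟩).2 ht
    by_cases htop : L ⊔ R = ⊤
    · rcases eq_or_ne L ⊤ with rfl | hne
      · exact fun r _ => Subgroup.le_normalizer (H := (⊤ : Subgroup X)) (Subgroup.mem_top r)
      obtain ⟨M, hMn, hLM, hMt⟩ := hs.lt_normal.resolve_left hne
      haveI := hMn
      have hmem : ∀ m ∈ M, ∃ l ∈ L, ∃ r ∈ R ⊓ M, m = l * r := by
        intro m hm
        obtain ⟨l, hl, r, hr, rfl⟩ := Subgroup.mem_sup_of_normal_right.1 (htop ▸ Subgroup.mem_top m : m ∈ L ⊔ R)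
        refine ⟨l, hl, r, ⟨hr, ?_⟩, rfl⟩
        have := M.mul_mem (M.inv_mem (hLM hl)) hm
        rwa [inv_mul_cancel_left] at this
      have hnL : M ≤ Subgroup.normalizer (L : Set X) := by
        intro m hm
        obtain ⟨l, hl, r, hr, rfl⟩ := hmem m hm
        exact mul_mem (Subgroup.le_normalizer hl) (down M hMt.ne hLM hr)
      haveI : (L.subgroupOf M).Normal := (Subgroup.normal_subgroupOf_iff_le_normalizer hLM).2 hnL
      -- every conjugate of L lies in L
      have hconj : ∀ (g : X) (x : X), x ∈ L → g * x * g⁻¹ ∈ L := by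
        intro g x hx
        set L' := L.map (MulAut.conj g).toMonoidHom with hL'
        have hL'M : L' ≤ M := by
          rintro _ ⟨y, hy, rfl⟩
          exact hMn.conj_mem y (hLM hy) g
        have hp' : ⁅L', L'⁆ = L' := by rw [hL', ← Subgroup.map_commutator, hp]
        let q := QuotientGroup.mk' (L.subgroupOf M)
        haveI := hR
        haveI hsol : Group.IsSolvable (M ⧸ L.subgroupOf M) := by
          have hR' : Group.IsSolvable (R.subgroupOf M) :=
            Group.isSolvable_of_isSolvable_injective (f := MonoidHom.mk' (fun x : R.subgroupOf M => (⟨(x.1 : X), x.2⟩ : R)) fun _ _ => rfl)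
              (fun a b h => Subtype.ext (Subtype.ext (congrArg Subtype.val h :)))
          refine Group.isSolvable_of_surjective (f := q.comp (R.subgroupOf M).subtype) fun y => ?_
          obtain ⟨⟨m, hm⟩, rfl⟩ := QuotientGroup.mk'_surjective _ y
          obtain ⟨l, hl, r, hr, rfl⟩ := hmem m hm
          refine ⟨⟨⟨r, hr.2⟩, hr.1⟩, ?_⟩
          show q ⟨r, hr.2⟩ = q ⟨l * r, hm⟩
          rw [show (⟨l * r, hm⟩ : M) = ⟨l, hLM hl⟩ * ⟨r, hr.2⟩ from rfl, map_mul,
            show q ⟨l, hLM hl⟩ = 1 from (QuotientGroup.eq_one_iff _).2 hl, one_mul]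
        have hp'' : ⁅(L'.subgroupOf M).map q, (L'.subgroupOf M).map q⁆ = (L'.subgroupOf M).map q := by
          rw [← Subgroup.map_commutator]
          congr 1
          apply Subgroup.map_injective M.subtype_injective
          rw [Subgroup.map_commutator, Subgroup.subgroupOf_map_subtype, inf_eq_left.2 hL'M, hp']
        have hb := Components.perfect_eq_bot_of_le_solvable hp'' le_top
          (Group.isSolvable_of_isSolvable_injective (f := (⊤ : Subgroup (M ⧸ L.subgroupOf M)).subtype) Subtype.val_injective)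
        have hx' : g * x * g⁻¹ ∈ L' := ⟨x, hx, rfl⟩
        have : q ⟨g * x * g⁻¹, hL'M hx'⟩ ∈ (⊥ : Subgroup (M ⧸ L.subgroupOf M)) := hb ▸ ⟨_, hx', rfl⟩
        exact (QuotientGroup.eq_one_iff (N := L.subgroupOf M) (⟨g * x * g⁻¹, hL'M hx'⟩ : M)).1 (Subgroup.mem_bot.1 this)
      intro r _
      refine Subgroup.mem_normalizer_iff.2 fun t => ⟨hconj r t, fun ht => ?_⟩
      have := hconj r⁻¹ _ ht
      rwa [show r⁻¹ * (r * t * r⁻¹) * r⁻¹⁻¹ = t from by group] at this
    · exact fun r hr => down (L ⊔ R) htop le_sup_left ⟨hr, le_sup_right (a := L) hr⟩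

variable {G : Type u} [Group G] [Finite G]

/-- `O_2(Y)` inside the ambient group. -/
theorem pCoreTwoOf_le (Y : Subgroup G) : Cfsg.pCoreTwoOf Y ≤ Y := Subgroup.map_subtype_le _

theorem pCoreTwoOf_isPGroup (Y : Subgroup G) : IsPGroup 2 (Cfsg.pCoreTwoOf Y) :=
  (Core.isPGroup_pCore 2 Y).map _

theorem pCoreTwoOf_conj (Y : Subgroup G) {a : G} (ha : a ∈ Y) {x : G} (hx : x ∈ Cfsg.pCoreTwoOf Y) :
    a * x * a⁻¹ ∈ Cfsg.pCoreTwoOf Y := by
  obtain ⟨y, hy, rfl⟩ := hx
  exact ⟨_, (inferInstance : (Cfsg.pCore 2 Y).Normal).conj_mem y hy ⟨a, ha⟩, rfl⟩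

theorem le_pCoreTwoOf {Y N : Subgroup G} (hNY : N ≤ Y) (hN : IsPGroup 2 N)
    (hn : ∀ a ∈ Y, ∀ x ∈ N, a * x * a⁻¹ ∈ N) : N ≤ Cfsg.pCoreTwoOf Y := by
  haveI : Fact (Nat.Prime 2) := ⟨Nat.prime_two⟩
  intro x hx
  refine ⟨⟨x, hNY hx⟩, Core.le_pCore (N := N.subgroupOf Y) ⟨fun n hn' a => ?_⟩
    (hN.comap_of_injective _ Y.subtype_injective) hx, rfl⟩
  exact hn a a.2 n hn'

/-- What membership in `ℒ(G, T)` gives. -/
theorem setting (hev : Cfsg.IsOfEvenCharacteristic G) (T : Sylow 2 G) (K : Subgroup G)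
    (hK : K ∈ Cfsg.calL (T : Subgroup G)) :
    K ≠ ⊥ ∧ ⁅K, K⁆ = K ∧ (∀ r ∈ Cfsg.pCoreTwoOf (K ⊔ (T : Subgroup G)), r ∈ Subgroup.normalizer (K : Set G)) ∧
    Cfsg.pCoreTwoOf K = Cfsg.pCoreTwoOf (K ⊔ (T : Subgroup G)) ⊓ K ∧
    Cfsg.pCoreTwoOf (K ⊔ (T : Subgroup G)) ≤ (T : Subgroup G) ∧
    Cfsg.IsOfCharacteristicTwo ↥(K ⊔ (T : Subgroup G)) ∧ Cfsg.IsOfCharacteristicTwo ↥K := by
  haveI : Fact (Nat.Prime 2) := ⟨Nat.prime_two⟩
  obtain ⟨⟨hne, hperf, hsn, -⟩, -, hO⟩ := hK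
  set H := K ⊔ (T : Subgroup G) with hH
  have hKH : K ≤ H := le_sup_left
  have hTH : (T : Subgroup G) ≤ H := le_sup_right
  have hne' : K ≠ ⊥ := fun h => hne (by rw [h, Subgroup.bot_subgroupOf])
  have hperf' : ⁅K, K⁆ = K := by
    have h := congrArg (Subgroup.map H.subtype) hperf
    rwa [Subgroup.map_commutator, Subgroup.subgroupOf_map_subtype, inf_eq_left.2 hKH] at h
  have hsol : Group.IsSolvable (Cfsg.pCore 2 H) := Coprime.isSolvable_of_isPGroup (Core.isPGroup_pCore 2 H)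
  have hnorm := normalizes_aux _ (K.subgroupOf H) (Cfsg.pCore 2 H) rfl hperf hsn hsol
  have hR : ∀ r ∈ Cfsg.pCoreTwoOf H, r ∈ Subgroup.normalizer (K : Set G) := by
    rintro _ ⟨r, hr, rfl⟩
    refine Subgroup.mem_normalizer_iff.2 fun t => ⟨fun ht => ?_, fun ht => ?_⟩
    · exact (Subgroup.mem_normalizer_iff.1 (hnorm hr) ⟨t, hKH ht⟩).1 ht
    · have htH : t ∈ H := by
        have := H.mul_mem (H.mul_mem (H.inv_mem r.2) (hKH ht)) r.2
        rwa [Subgroup.coe_subtype, show (r : G)⁻¹ * (r * t * (r : G)⁻¹) * r = t from by group] at this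
      exact (Subgroup.mem_normalizer_iff.1 (hnorm hr) ⟨t, htH⟩).2 ht
  have hQ : Cfsg.pCoreTwoOf K = Cfsg.pCoreTwoOf H ⊓ K := by
    apply le_antisymm
    · refine le_inf ?_ (pCoreTwoOf_le K)
      intro x hx
      have hn : ((Cfsg.pCoreTwoOf K).subgroupOf H).IsSubnormal := by
        have hle : Cfsg.pCoreTwoOf K ≤ K := pCoreTwoOf_le K
        refine Subgroup.IsSubnormal.trans (K := K.subgroupOf H) (Subgroup.comap_mono hle) ?_ hsn
        refine Subgroup.Normal.isSubnormal ⟨fun n hn a => ?_⟩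
        exact pCoreTwoOf_conj K a.2 hn
      exact ⟨⟨x, hKH (pCoreTwoOf_le K hx)⟩, Core.le_pCore_of_isSubnormal hn
        ((pCoreTwoOf_isPGroup K).comap_of_injective _ H.subtype_injective) hx, rfl⟩
    · refine le_pCoreTwoOf inf_le_right ((pCoreTwoOf_isPGroup H).to_le inf_le_left) fun a ha x hx => ?_
      exact ⟨pCoreTwoOf_conj H (hKH ha) hx.1, K.mul_mem (K.mul_mem ha hx.2) (K.inv_mem ha)⟩
  have hRT : Cfsg.pCoreTwoOf H ≤ (T : Subgroup G) := by
    have h := (Core.isPGroup_pCore 2 H).le_sylow_of_normal (T.subtype hTH)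
    rintro _ ⟨r, hr, rfl⟩
    exact h hr
  -- the 2-local above H
  set R := Cfsg.pCoreTwoOf H with hRdef
  have hRne : R ≠ ⊥ := fun h => hO ((Subgroup.map_eq_bot_iff_of_injective _ H.subtype_injective).1 h)
  have hHX : H ≤ Subgroup.normalizer (R : Set G) := fun a ha =>
    Coprime.mem_normalizer_of_conj_mem fun x hx => pCoreTwoOf_conj H ha hx
  set X := Subgroup.normalizer (R : Set G) with hX
  have hchX : Cfsg.IsOfCharacteristicTwo X :=
    hev X ⟨R, pCoreTwoOf_isPGroup H, hRne, rfl⟩ ⟨T, hTH.trans hHX⟩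
  have hXT : Cfsg.pCoreTwoOf X ≤ (T : Subgroup G) := by
    have h := (Core.isPGroup_pCore 2 X).le_sylow_of_normal (T.subtype (hTH.trans hHX))
    rintro _ ⟨r, hr, rfl⟩
    exact h hr
  have hXR : Cfsg.pCoreTwoOf X ≤ R :=
    le_pCoreTwoOf (hXT.trans hTH) (pCoreTwoOf_isPGroup X) fun a ha x hx => pCoreTwoOf_conj X (hHX ha) hx
  have hchH : Cfsg.IsOfCharacteristicTwo H := by
    intro c hc
    have h1 : (⟨(c : G), hHX c.2⟩ : X) ∈ Cfsg.pCore 2 X := by
      refine hchX (Subgroup.mem_centralizer_iff.2 fun v hv => Subtype.ext ?_)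
      obtain ⟨v', hv', hvv⟩ := hXR ⟨v, hv, rfl⟩
      have h := congrArg Subtype.val (Subgroup.mem_centralizer_iff.1 hc v' hv')
      change (v' : G) * (c : G) = (c : G) * (v' : G) at h
      rw [show (v' : G) = (v : G) from hvv] at h
      exact h
    obtain ⟨c', hc', hcc⟩ := hXR ⟨_, h1, rfl⟩
    exact Subtype.ext hcc ▸ hc'
  refine ⟨hne', hperf', hR, hQ, hRT, hchH, ?_⟩
  have hchK : Cfsg.IsOfCharacteristicTwo ↥(K.subgroupOf H) := by
    obtain ⟨hL, hO'⟩ := Components.generalizedFitting_eq_pCore_iff.1 (Screen.CharTwo.fstar_iff.1 hchH)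
    refine Screen.CharTwo.fstar_iff.2 (Components.generalizedFitting_eq_pCore_iff.2 ⟨?_, ?_⟩)
    · refine (Subgroup.map_eq_bot_iff_of_injective _ (K.subgroupOf H).subtype_injective).1 ?_
      exact le_bot_iff.1 ((Components.layer_map_subtype_le hsn).trans hL.le)
    · refine (Subgroup.map_eq_bot_iff_of_injective _ (K.subgroupOf H).subtype_injective).1 ?_
      rw [Components.pPrimeCore_map_subtype hsn, hO', inf_bot_eq]
  refine Screen.CharTwo.of_embedding (Subgroup.subgroupOfEquivOfLe hKH).toMonoidHom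
    (Subgroup.subgroupOfEquivOfLe hKH).injective hchK ?_
  rw [MonoidHom.range_eq_top.2 (Subgroup.subgroupOfEquivOfLe hKH).surjective]
  exact le_top

theorem oddGenerated_of_perfect {K : Subgroup G} (hK : ⁅K, K⁆ = K) : Cfsg.oddGenerated K = K := by
  haveI : Fact (Nat.Prime 2) := ⟨Nat.prime_two⟩
  have hle : Cfsg.oddGenerated K ≤ K := (Subgroup.closure_le K).2 fun x hx => hx.1
  refine le_antisymm hle ?_
  set N := (Cfsg.oddGenerated K).subgroupOf K with hN
  haveI hNn : N.Normal := by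
    refine ⟨fun n hn a => ?_⟩
    have hmap : (Cfsg.oddGenerated K).map (MulAut.conj (a : G)).toMonoidHom ≤ Cfsg.oddGenerated K := by
      rw [Cfsg.oddGenerated, MonoidHom.map_closure, Subgroup.closure_le]
      rintro _ ⟨x, ⟨hxK, hxo⟩, rfl⟩
      refine Subgroup.subset_closure ⟨K.mul_mem (K.mul_mem a.2 hxK) (K.inv_mem a.2), ?_⟩
      rwa [show orderOf ((MulAut.conj (a : G)).toMonoidHom x) = orderOf x from MulEquiv.orderOf_eq _ x]
    exact hmap ⟨n, hn, rfl⟩
  have hp : IsPGroup 2 (K ⧸ N) := by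
    intro q
    obtain ⟨y, rfl⟩ := QuotientGroup.mk'_surjective N q
    obtain ⟨e, r, hr, her⟩ := Nat.exists_eq_pow_mul_and_not_dvd (orderOf_pos y).ne' 2 (by norm_num)
    refine ⟨e, ?_⟩
    rw [← map_pow]
    refine (QuotientGroup.eq_one_iff _).2 (Subgroup.mem_subgroupOf.2 (Subgroup.subset_closure ⟨(y ^ 2 ^ e).2, ?_⟩))
    rw [Subgroup.orderOf_coe, orderOf_pow, her, Nat.gcd_eq_right (Dvd.intro r rfl),
      Nat.mul_div_cancel_left _ (by positivity)]
    exact Nat.odd_iff.2 (by omega)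
  haveI := hp.isNilpotent
  have hperf : ⁅(⊤ : Subgroup (K ⧸ N)), (⊤ : Subgroup (K ⧸ N))⁆ = ⊤ := by
    rw [← Subgroup.map_top_of_surjective _ (QuotientGroup.mk'_surjective N), ← Subgroup.map_commutator]
    congr 1
    apply Subgroup.map_injective K.subtype_injective
    rw [Subgroup.map_commutator, ← MonoidHom.range_eq_map, Subgroup.range_subtype, hK]
  have hb := Components.perfect_eq_bot_of_le_solvable hperf le_rfl
    (Group.isSolvable_of_isSolvable_injective (f := (⊤ : Subgroup (K ⧸ N)).subtype) Subtype.val_injective)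
  intro x hx
  have : QuotientGroup.mk' N ⟨x, hx⟩ ∈ (⊥ : Subgroup (K ⧸ N)) := hb ▸ Subgroup.mem_top _
  exact (QuotientGroup.eq_one_iff (⟨x, hx⟩ : K)).1 (Subgroup.mem_bot.1 this)

/-- A moved central involution of the two-core of `⟨L, T⟩`. -/
theorem exists_moved {L R : Subgroup G} (hRp : IsPGroup 2 R) (hRn : ∀ r ∈ R, r ∈ Subgroup.normalizer (L : Set G))
    (hLn : ∀ l ∈ L, ∀ r ∈ R, l * r * l⁻¹ ∈ R) (hodd : Cfsg.oddGenerated L = L)
    (hmod : ⁅Cfsg.omegaOne 2 ((R ⊓ L) ⊓ Subgroup.centralizer ((R ⊓ L : Subgroup G) : Set G)), L⁆ ≠ ⊥) :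
    ∃ z ∈ R, z * z = 1 ∧ (∀ r ∈ R, r * z = z * r) ∧ ∃ x ∈ L, z * x ≠ x * z := by
  classical
  haveI : Fact (Nat.Prime 2) := ⟨Nat.prime_two⟩
  set Q := R ⊓ L with hQdef
  set C := Q ⊓ Subgroup.centralizer (Q : Set G) with hCdef
  have hQn : ∀ a : G, a ∈ R ∨ a ∈ L → ∀ q ∈ Q, a * q * a⁻¹ ∈ Q := by
    rintro a (ha | ha) q hq
    · exact ⟨R.mul_mem (R.mul_mem ha hq.1) (R.inv_mem ha), (Subgroup.mem_normalizer_iff.1 (hRn a ha) q).1 hq.2⟩
    · exact ⟨hLn a ha q hq.1, L.mul_mem (L.mul_mem ha hq.2) (L.inv_mem ha)⟩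
  have hcomm : ∀ u ∈ C, ∀ v ∈ C, u * v = v * u := fun u hu v hv =>
    (Subgroup.mem_centralizer_iff.1 hu.2 v hv.1).symm
  let V : Subgroup G :=
    { carrier := {v | v ∈ C ∧ v * v = 1}
      one_mem' := ⟨one_mem C, one_mul 1⟩
      mul_mem' := fun {u v} hu hv => ⟨C.mul_mem hu.1 hv.1, by
        rw [mul_assoc u v, ← mul_assoc v u v, ← hcomm u hu.1 v hv.1, mul_assoc u v v, hv.2, mul_one, hu.2]⟩
      inv_mem' := fun {u} hu => ⟨C.inv_mem hu.1, by
        rw [inv_eq_of_mul_eq_one_right hu.2, hu.2]⟩ }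
  have hVn : ∀ a : G, a ∈ R ∨ a ∈ L → ∀ v ∈ V, a * v * a⁻¹ ∈ V := by
    intro a ha v hv
    refine ⟨⟨hQn a ha v hv.1.1, Subgroup.mem_centralizer_iff.2 fun q hq => ?_⟩, ?_⟩
    · have hq' : a⁻¹ * q * a ∈ Q := by
        have := hQn a⁻¹ (ha.imp R.inv_mem L.inv_mem) q hq
        rwa [inv_inv] at this
      have h := Subgroup.mem_centralizer_iff.1 hv.1.2 _ hq'
      calc q * (a * v * a⁻¹) = a * ((a⁻¹ * q * a) * v) * a⁻¹ := by group
        _ = a * (v * (a⁻¹ * q * a)) * a⁻¹ := by rw [h]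
        _ = a * v * a⁻¹ * q := by group
    · calc a * v * a⁻¹ * (a * v * a⁻¹) = a * (v * v) * a⁻¹ := by group
        _ = 1 := by rw [hv.2, mul_one, mul_inv_cancel]
  -- an element of odd order moving V
  obtain ⟨v0, hv0, x, hxL, hxo, hv0x⟩ : ∃ v0 ∈ V, ∃ x ∈ L, Odd (orderOf x) ∧ v0 * x ≠ x * v0 := by
    by_contra hno
    push Not at hno
    apply hmod
    rw [Subgroup.commutator_eq_bot_iff_le_centralizer, Cfsg.omegaOne, Subgroup.closure_le]
    rintro v ⟨hvC, hv2⟩
    rw [SetLike.mem_coe, ← hodd, Cfsg.oddGenerated, Subgroup.centralizer_closure, Subgroup.mem_centralizer_iff]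
    rintro x ⟨hxL, hxo⟩
    exact (hno v ⟨hvC, by rw [← pow_two]; exact hv2⟩ x hxL hxo).symm
  set m := orderOf x with hm
  let P : ℕ → G → G := fun k v => (v * x) ^ k * (x ^ k)⁻¹
  have hPs : ∀ k v, P (k + 1) v = v * (x * P k v * x⁻¹) := fun k v => by
    simp only [P, pow_succ' (v * x), pow_succ' x]
    group
  have hPV : ∀ k, ∀ v ∈ V, P k v ∈ V := by
    intro k
    induction k with
    | zero => intro v _; simpa [P] using one_mem V
    | succ k ih => intro v hv; rw [hPs]; exact V.mul_mem hv (hVn x (Or.inr hxL) _ (ih v hv))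
  have hVc : ∀ u ∈ V, ∀ v ∈ V, u * v = v * u := fun u hu v hv => hcomm u hu.1 v hv.1
  have hPmul : ∀ k, ∀ u ∈ V, ∀ v ∈ V, P k (u * v) = P k u * P k v := by
    intro k
    induction k with
    | zero => intro u _ v _; simp [P]
    | succ k ih =>
      intro u hu v hv
      rw [hPs, hPs, hPs, ih u hu v hv]
      have h := hVc v hv _ (hVn x (Or.inr hxL) _ (hPV k u hu))
      calc u * v * (x * (P k u * P k v) * x⁻¹) = u * (v * (x * P k u * x⁻¹)) * (x * P k v * x⁻¹) := by group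
        _ = u * ((x * P k u * x⁻¹) * v) * (x * P k v * x⁻¹) := by rw [h]
        _ = u * (x * P k u * x⁻¹) * (v * (x * P k v * x⁻¹)) := by group
  have hPx : ∀ v ∈ V, P m (x * v * x⁻¹) = P m v := by
    intro v hv
    have h1 : ∀ k, P k (x * v * x⁻¹) = x * P k v * x⁻¹ := by
      intro k
      induction k with
      | zero => simp [P]
      | succ k ih => rw [hPs, hPs, ih]; group
    rw [h1]
    have h2 : P (m + 1) v = P m v * v := by
      simp only [P, pow_succ (v * x), pow_succ' x, hm, pow_orderOf_eq_one, mul_one, inv_one]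
      group
    rw [hPs, ← hVc v hv _ (hPV m v hv)] at h2
    exact mul_left_cancel h2
  have hPr : ∀ r ∈ R, ∀ k, ∀ v ∈ V, P k (r * v * r⁻¹) = r * P k v * r⁻¹ := by
    intro r hr k
    induction k with
    | zero => intro v _; simp [P]
    | succ k ih =>
      intro v hv
      rw [hPs, hPs, ih v hv]
      have hq : x * r * x⁻¹ * r⁻¹ ∈ Q := by
        refine ⟨R.mul_mem (hLn x hxL r hr) (R.inv_mem hr), ?_⟩
        have := L.mul_mem hxL ((Subgroup.mem_normalizer_iff.1 (hRn r hr) x⁻¹).1 (L.inv_mem hxL))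
        rwa [show x * (r * x⁻¹ * r⁻¹) = x * r * x⁻¹ * r⁻¹ by group] at this
      have hw := hVn r (Or.inl hr) _ (hVn x (Or.inr hxL) _ (hPV k v hv))
      have h := Subgroup.mem_centralizer_iff.1 hw.1.2 _ hq
      calc r * v * r⁻¹ * (x * (r * P k v * r⁻¹) * x⁻¹)
          = r * v * r⁻¹ * (((x * r * x⁻¹ * r⁻¹) * (r * (x * P k v * x⁻¹) * r⁻¹)) * (x * r * x⁻¹ * r⁻¹)⁻¹) := by group
        _ = r * v * r⁻¹ * (r * (x * P k v * x⁻¹) * r⁻¹) := by rw [h, mul_inv_cancel_right]
        _ = r * (v * (x * P k v * x⁻¹)) * r⁻¹ := by group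
  -- the kernel D of P m on V is a normal subgroup of R
  let D : Subgroup G :=
    { carrier := {v | v ∈ V ∧ P m v = 1}
      one_mem' := ⟨one_mem V, by simp [P]⟩
      mul_mem' := fun {u v} hu hv => ⟨V.mul_mem hu.1 hv.1, by rw [hPmul m u hu.1 v hv.1, hu.2, hv.2, one_mul]⟩
      inv_mem' := fun {u} hu => ⟨V.inv_mem hu.1, by
        rw [inv_eq_of_mul_eq_one_right hu.1.2]; exact hu.2⟩ }
  have hDR : D ≤ R := fun v hv => hv.1.1.1.1
  haveI : (D.subgroupOf R).Normal := ⟨fun n hn r => ⟨hVn r (Or.inl r.2) n hn.1, by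
    show P m ((r : G) * n * (r : G)⁻¹) = 1
    have h2 : P m ((n : R) : G) = 1 := hn.2
    rw [hPr r r.2 m n hn.1, h2, mul_one, mul_inv_cancel]⟩⟩
  have hd : v0 * (x * v0 * x⁻¹) ∈ D := ⟨V.mul_mem hv0 (hVn x (Or.inr hxL) v0 hv0), by
    rw [hPmul m v0 hv0 _ (hVn x (Or.inr hxL) v0 hv0), hPx v0 hv0]
    exact (hPV m v0 hv0).2⟩
  haveI := hRp.isNilpotent
  obtain ⟨w, hwD, hw1, hwc⟩ := OddLocal.exists_ne_one_mem_center_of_normal (D.subgroupOf R) (fun h => by
    have h1 : (⟨_, hDR hd⟩ : R) ∈ (⊥ : Subgroup R) := h ▸ (show _ ∈ D.subgroupOf R from hd)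
    have h2 : v0 * (x * v0 * x⁻¹) = 1 := congrArg Subtype.val (Subgroup.mem_bot.1 h1)
    rw [← eq_inv_iff_mul_eq_one, conj_inv, inv_eq_of_mul_eq_one_right hv0.2] at h2
    apply hv0x
    calc v0 * x = x * v0 * x⁻¹ * x := by rw [← h2]
      _ = x * v0 := by group)
  refine ⟨w, w.2, hwD.1.2, fun r hr => congrArg Subtype.val (Subgroup.mem_center_iff.1 hwc ⟨r, hr⟩), x, hxL, fun hwx => ?_⟩
  have h1 : P m w = (w : G) ^ m := by
    simp only [P]
    rw [(show Commute (w : G) x from hwx).mul_pow, mul_inv_cancel_right]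
  obtain ⟨j, hj⟩ := hxo
  have h2 : (w : G) ^ m = w := by
    have hw2 : (w : G) * w = 1 := hwD.1.2
    rw [hj, pow_succ, pow_mul, pow_two, hw2, one_pow, one_mul]
  exact hw1 (Subtype.ext (h2.symm.trans (h1.symm.trans hwD.2)))

end

/-- Let G be a non-abelian finite simple QTKE-group and T a Sylow 2-subgroup of G, and let L be a member of ℒ_f(G, T) (a member of ℒ(G, T) that lies in 𝒳 — L ≠ 1, L = O²(L), F*(L) = O₂(L) — and acts nontrivially on Ω₁(Z(O₂(L)))). Then (1) every member K of ℒ(G, T) containing L is again in ℒ_f(G, T) (a sharper form of (1) also compares the modules [Ω₁(Z(R)), L] and [Ω₁(Z(R')), K] for suitable 2-subgroups R, R'; that comparison is not included); and (2) if L is maximal under inclusion among the members of ℒ_f(G, T), then L is a maximal member of ℒ(G, T), hence a member of ℒ_f*(G, T). -/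
theorem result {G : Type*} [Group G] [Finite G] [IsSimpleGroup G]
    (hG : ¬ IsMulCommutative G) (hQ : Cfsg.IsQTKE G) (T : Sylow 2 G) (L : Subgroup G)
    (hL : L ∈ Cfsg.calLf (T : Subgroup G)) :
    (∀ K ∈ Cfsg.calL (T : Subgroup G), L ≤ K → K ∈ Cfsg.calLf (T : Subgroup G)) ∧
    ((∀ K ∈ Cfsg.calLf (T : Subgroup G), L ≤ K → K = L) → L ∈ Cfsg.calLfMax (T : Subgroup G)) := by
  haveI : Fact (Nat.Prime 2) := ⟨Nat.prime_two⟩
  obtain ⟨-, -, hev⟩ := hQ
  have key : ∀ K ∈ Cfsg.calL (T : Subgroup G), L ≤ K → K ∈ Cfsg.calLf (T : Subgroup G) := by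
    intro K hKL hLK
    obtain ⟨hLcalL, ⟨-, hodd, -⟩, hmod⟩ := hL
    obtain ⟨-, -, hLR, hLQ, hLT, -, -⟩ := setting hev T L hLcalL
    obtain ⟨hKne, hKp, hKR, hKQ, hKT, hchH, hchK⟩ := setting hev T K hKL
    refine ⟨hKL, ⟨hKne, oddGenerated_of_perfect hKp, Screen.CharTwo.fstar_iff.1 hchK⟩, fun hbot => ?_⟩
    rw [Cfsg.moduleV, hLQ] at hmod
    obtain ⟨z, hzR, hz2, hzc, x, hxL, hzx⟩ := exists_moved (pCoreTwoOf_isPGroup _) hLR
      (fun l hl r hr => pCoreTwoOf_conj _ (Subgroup.mem_sup_left hl) hr) hodd hmod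
    set H' := L ⊔ (T : Subgroup G) with hH'
    set H := K ⊔ (T : Subgroup G) with hH
    have hH'H : H' ≤ H := sup_le (hLK.trans le_sup_left) le_sup_right
    have hRR : Cfsg.pCoreTwoOf H ≤ Cfsg.pCoreTwoOf H' :=
      le_pCoreTwoOf (hKT.trans le_sup_right) (pCoreTwoOf_isPGroup H) fun a ha r hr => pCoreTwoOf_conj H (hH'H ha) hr
    have hzT : z ∈ H := Subgroup.mem_sup_right (hLT hzR)
    have hzR' : z ∈ Cfsg.pCoreTwoOf H := ⟨⟨z, hzT⟩,
      hchH (Subgroup.mem_centralizer_iff.2 fun v hv => Subtype.ext (hzc v (hRR ⟨v, hv, rfl⟩))), rfl⟩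
    have hzz : z⁻¹ = z := inv_eq_of_mul_eq_one_right hz2
    set c : G → G := fun y => z * (y * z * y⁻¹) with hc
    have hconj : ∀ y ∈ K, y * z * y⁻¹ ∈ Cfsg.pCoreTwoOf H := fun y hy =>
      pCoreTwoOf_conj H (Subgroup.mem_sup_left hy) hzR'
    have hycen : ∀ y ∈ K, ∀ q ∈ Cfsg.pCoreTwoOf H, q * (y * z * y⁻¹) = y * z * y⁻¹ * q := by
      intro y hy q hq
      have h := hzc _ (hRR (pCoreTwoOf_conj H (Subgroup.mem_sup_left (K.inv_mem hy)) hq))
      calc q * (y * z * y⁻¹) = y * (y⁻¹ * q * y⁻¹⁻¹ * z) * y⁻¹ := by group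
        _ = y * (z * (y⁻¹ * q * y⁻¹⁻¹)) * y⁻¹ := by rw [h]
        _ = y * z * y⁻¹ * q := by group
    rw [Cfsg.moduleV, Subgroup.commutator_eq_bot_iff_le_centralizer] at hbot
    have hcK : ∀ y ∈ K, ∀ k ∈ K, k * c y = c y * k := by
      intro y hy k hk
      refine Subgroup.mem_centralizer_iff.1 (hbot (Subgroup.subset_closure ⟨⟨?_, ?_⟩, ?_⟩)) k hk
      · rw [hKQ]
        refine ⟨Subgroup.mul_mem _ hzR' (hconj y hy), ?_⟩
        have := K.mul_mem ((Subgroup.mem_normalizer_iff.1 (hKR z hzR') y).1 hy) (K.inv_mem hy)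
        rwa [show c y = z * y * z⁻¹ * y⁻¹ from by rw [hzz]; simp only [hc]; group]
      · refine Subgroup.mem_centralizer_iff.2 fun q hq => ?_
        rw [hKQ] at hq
        exact ((show Commute q z from hzc q (hRR hq.1)).mul_right (show Commute q (y * z * y⁻¹) from hycen y hy q hq.1)).eq
      · have h := hycen y hy z hzR'
        calc c y ^ 2 = z * ((y * z * y⁻¹) * z) * (y * z * y⁻¹) := by simp only [hc, pow_two]; group
          _ = z * (z * (y * z * y⁻¹)) * (y * z * y⁻¹) := by rw [h]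
          _ = (z * z) * (y * (z * z) * y⁻¹) := by group
          _ = 1 := by rw [hz2, one_mul, mul_one, mul_inv_cancel]
    have hmem : ∀ y ∈ K, c y ∈ Cfsg.pCoreTwoOf H := fun y hy => Subgroup.mul_mem _ hzR' (hconj y hy)
    let f : K →* Cfsg.pCoreTwoOf H := MonoidHom.mk' (fun y => ⟨c y, hmem y y.2⟩) (fun y y' => Subtype.ext (by
      show c ((y : G) * y') = c y * c y'
      have h := hcK y' y'.2 y y.2
      have e1 : c y * (y * c y' * (y : G)⁻¹) = c y * c y' := by rw [h, mul_inv_cancel_right]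
      rw [← e1]
      simp only [hc]
      calc z * ((y : G) * y' * z * ((y : G) * y')⁻¹)
          = z * ((y : G) * (z * z) * ((y' : G) * z * (y' : G)⁻¹) * (y : G)⁻¹) := by rw [hz2]; group
        _ = z * ((y : G) * z * (y : G)⁻¹) * ((y : G) * (z * ((y' : G) * z * (y' : G)⁻¹)) * (y : G)⁻¹) := by group))
    have hker : f.ker = ⊤ := by
      rw [eq_top_iff]
      have hp : ⁅(⊤ : Subgroup K), (⊤ : Subgroup K)⁆ = ⊤ := by
        apply Subgroup.map_injective K.subtype_injective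
        rw [Subgroup.map_commutator, ← MonoidHom.range_eq_map, Subgroup.range_subtype, hKp]
      rw [← hp, Subgroup.commutator_le]
      intro a _ b _
      rw [MonoidHom.mem_ker, map_commutatorElement, commutatorElement_eq_one_iff_mul_comm]
      refine Subtype.ext ?_
      have hy := fun y : K => hcK y y.2
      show c a * c b = c b * c a
      have hb' : c b ∈ K := by
        have := K.mul_mem ((Subgroup.mem_normalizer_iff.1 (hKR z hzR') b).1 b.2) (K.inv_mem b.2)
        rwa [show c b = z * b * z⁻¹ * (b : G)⁻¹ from by rw [hzz]; simp only [hc]; group]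
      exact (hy a _ hb').symm
    have h1 : c x = 1 := congrArg Subtype.val (MonoidHom.mem_ker.1 (hker.ge (Subgroup.mem_top (⟨x, hLK hxL⟩ : K))))
    apply hzx
    simp only [hc] at h1
    rw [← eq_inv_iff_mul_eq_one, conj_inv, hzz] at h1
    calc z * x = x * z * x⁻¹ * x := by rw [← h1]
      _ = x * z := by group
  exact ⟨key, fun hmax => ⟨⟨hL.1, fun K hK hLK => hmax K (key K hK hLK) hLK⟩, hL.2⟩⟩

end Cfsg.Agent.S1851
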