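import Cfsg.Statements.S1957
import Cfsg.Agent.Transfer.NormalFour.Key
import Cfsg.Agent.Coprime.Generation

set_option autoImplicit false
open Cfsg

namespace Cfsg.Agent.S1957

/-- Let `G` be a finite non-abelian simple group in which every local subgroup is solvable and which is of characteristic 2 type. Let `P` be a Sylow 2-subgroup of `G` and `U` a normal subgroup of `P` that is a four-group, with `U` central in `P` if the centre of `P` is not cyclic. Then `U` centralizes every subgroup of odd order of `G` that it normalizes. -/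
theorem result {G : Type*} [Group G] [Finite G]
    [IsSimpleGroup G] (hna : ¬ IsMulCommutative G) (hN : Cfsg.IsNGroup G) (h2 : Cfsg.IsCharacteristicTwoType G)
    (P : Sylow 2 G) (U : Subgroup G) (hUP : U ≤ (P : Subgroup G)) (hUn : (P : Subgroup G) ≤ Subgroup.normalizer (U : Set G))
    (hU4 : IsKleinFour ↥U)
    (hUZ : ¬ IsCyclic ↥((P : Subgroup G) ⊓ Subgroup.centralizer ((P : Subgroup G) : Set G)) →
      U ≤ Subgroup.centralizer ((P : Subgroup G) : Set G))
    (K : Subgroup G) (hK : Odd (Nat.card K)) (hUK : U ≤ Subgroup.normalizer (K : Set G)) :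
    U ≤ Subgroup.centralizer (K : Set G) := by
  classical
  haveI := Fact.mk Nat.prime_two
  haveI : IsMulCommutative U := hU4.isMulCommutative
  have hU2 : ∀ x ∈ U, x ^ 2 = 1 := fun x hx => by
    have h := Monoid.exponent_dvd_iff_forall_pow_eq_one.mp (hU4.exponent_two).dvd ⟨x, hx⟩
    exact congrArg Subtype.val h
  -- the local subgroup at an involution of `U`
  have hloc : ∀ v ∈ U, v ≠ 1 → Group.IsSolvable ↥(Subgroup.centralizer ({v} : Set G)) ∧
      Subgroup.centralizer ({v} : Set G) ⊓ Subgroup.centralizer (Cfsg.pCoreOf 2 (Subgroup.centralizer ({v} : Set G)) : Set G) ≤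
        Cfsg.pCoreOf 2 (Subgroup.centralizer ({v} : Set G)) := by
    intro v hv hv1
    have hvv : v * v = 1 := by rw [← pow_two]; exact hU2 v hv
    have hNeq : Subgroup.normalizer (Subgroup.zpowers v : Set G) = Subgroup.centralizer ({v} : Set G) := by
      have hz : ∀ {x : G}, x ∈ Subgroup.zpowers v → x = 1 ∨ x = v := by
        intro x hx
        obtain ⟨i, rfl⟩ := Subgroup.mem_zpowers_iff.mp hx
        rw [← Int.emod_add_mul_ediv i 2, zpow_add, zpow_mul, show v ^ (2 : ℤ) = 1 by rw [zpow_two]; exact hvv,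
          one_zpow, mul_one]
        rcases Int.emod_two_eq_zero_or_one i with e | e <;> simp [e]
      ext x
      constructor
      · intro hx
        rw [Subgroup.mem_centralizer_singleton_iff]
        rcases hz ((Subgroup.mem_normalizer_iff.mp hx v).mp (Subgroup.mem_zpowers v)) with e | e
        · exact absurd (conj_eq_one_iff.mp e) hv1
        · exact mul_inv_eq_iff_eq_mul.mp e
      · intro hx
        refine Subgroup.mem_normalizer_iff.mpr fun y => ?_
        have hc : Commute x v := Subgroup.mem_centralizer_singleton_iff.mp hx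
        constructor
        · intro hy
          obtain ⟨i, rfl⟩ := Subgroup.mem_zpowers_iff.mp hy
          rw [(hc.zpow_right i).eq, mul_inv_cancel_right]
          exact hy
        · intro hy
          obtain ⟨i, hi⟩ := Subgroup.mem_zpowers_iff.mp hy
          have e : y = v ^ i := by
            calc y = x⁻¹ * (x * y * x⁻¹) * x := by group
              _ = x⁻¹ * (v ^ i * x) := by rw [← hi, mul_assoc]
              _ = v ^ i := by rw [← (hc.zpow_right i).eq, inv_mul_cancel_left]
          rw [e]; exact Subgroup.mem_zpowers_iff.mpr ⟨i, rfl⟩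
    have hp : IsPGroup 2 (Subgroup.zpowers v) :=
      P.isPGroup'.to_le (Subgroup.zpowers_le.mpr (hUP hv))
    have hne : Subgroup.zpowers v ≠ ⊥ := fun e => hv1 (Subgroup.mem_bot.mp (e ▸ Subgroup.mem_zpowers v))
    rw [← hNeq]
    refine ⟨hN _ ⟨2, _, Nat.prime_two, hp, hne, rfl⟩, ?_⟩
    rintro x ⟨hxN, hxC⟩
    refine ⟨⟨x, hxN⟩, h2.2 _ hp hne (Subgroup.mem_centralizer_iff.mpr fun y hy => ?_), rfl⟩
    exact Subtype.ext (Subgroup.mem_centralizer_iff.mp hxC y ⟨y, hy, rfl⟩)
  -- the final commutator argument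
  have hfin : ∀ v ∈ U, v ≠ 1 → ∀ u ∈ U, u ∈ Cfsg.pCoreOf 2 (Subgroup.centralizer ({v} : Set G)) →
      ∀ k ∈ K, k * v = v * k → k * u = u * k := by
    intro v hv hv1 u hu huW k hk hkv
    set X := Subgroup.centralizer ({v} : Set G)
    set W := Cfsg.pCoreOf 2 X with hW
    have hkX : k ∈ X := Subgroup.mem_centralizer_singleton_iff.mpr hkv
    have h1 : k * u * k⁻¹ * u⁻¹ ∈ W :=
      mul_mem ((Subgroup.mem_normalizer_iff.mp (Cfsg.Agent.LocalEven.map_pCore_normalized X hkX) u).mp huW) (inv_mem huW)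
    have h3 : k * u * k⁻¹ * u⁻¹ ∈ K := by
      rw [mul_assoc k u, mul_assoc k]
      exact mul_mem hk ((Subgroup.mem_normalizer_iff.mp (hUK hu) _).mp (inv_mem hk))
    have hWp : IsPGroup 2 W := (Cfsg.Agent.Core.isPGroup_pCore 2 _).map _
    obtain ⟨i, hi⟩ := IsPGroup.iff_orderOf.mp hWp ⟨_, h1⟩
    rw [Subgroup.orderOf_mk] at hi
    have hd : 2 ^ i ∣ Nat.card K := by
      rw [← hi]; exact Subgroup.orderOf_mk (G := G) _ h3 ▸ orderOf_dvd_natCard _
    have h4 : orderOf (k * u * k⁻¹ * u⁻¹) = 1 := by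
      rw [hi]; exact ((Nat.coprime_two_left.mpr hK).pow_left i).eq_one_of_dvd hd
    rw [orderOf_eq_one_iff, mul_inv_eq_one, mul_inv_eq_iff_eq_mul] at h4
    exact h4
  have hPcore : ∀ v ∈ U, v ≠ 1 → ∀ T : Subgroup G, IsPGroup 2 T → T ≤ Subgroup.centralizer ({v} : Set G) →
      (∀ R : Subgroup G, IsPGroup 2 R → R ≤ Subgroup.centralizer ({v} : Set G) → T ≤ R → R = T) →
      Cfsg.pCoreOf 2 (Subgroup.centralizer ({v} : Set G)) ≤ T := by
    intro v hv hv1 T hT hTX hmax
    set X := Subgroup.centralizer ({v} : Set G)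
    set W := Cfsg.pCoreOf 2 X
    have hWp : IsPGroup 2 W := (Cfsg.Agent.Core.isPGroup_pCore 2 _).map _
    have hTW : T ≤ Subgroup.normalizer (W : Set G) := hTX.trans (Cfsg.Agent.LocalEven.map_pCore_normalized X)
    have h := hmax (T ⊔ W) (hT.to_sup_of_normal_right' hWp hTW) (sup_le hTX (Subgroup.map_subtype_le _)) le_sup_left
    exact le_sup_right.trans h.le
  -- every element of `U` centralizes every fixed point
  have hmain : ∀ v ∈ U, v ≠ 1 → ∀ u ∈ U, ∀ k ∈ K, k * v = v * k → k * u = u * k := by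
    intro v hv hv1 u hu k hk hkv
    obtain ⟨hsol, hchar⟩ := hloc v hv hv1
    set X := Subgroup.centralizer ({v} : Set G) with hX
    haveI := hsol
    set W := Cfsg.pCoreOf 2 X with hW
    by_cases hUc : U ≤ Subgroup.centralizer ((P : Subgroup G) : Set G)
    · -- `U` is central in `P`
      refine hfin v hv hv1 u hu ?_ k hk hkv
      have hPX : (P : Subgroup G) ≤ X := fun x hx =>
        Subgroup.mem_centralizer_singleton_iff.mpr (Subgroup.mem_centralizer_iff.mp (hUc hv) x hx)
      have hWP : W ≤ P := hPcore v hv hv1 P P.isPGroup' hPX fun R hR _ hle => P.is_maximal' hR hle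
      exact hchar ⟨hPX (hUP hu), Subgroup.mem_centralizer_iff.mpr fun w hw =>
        Subgroup.mem_centralizer_iff.mp (hUc hu) w (hWP hw)⟩
    -- the centre of `P` is cyclic
    have hcyc : IsCyclic ↥((P : Subgroup G) ⊓ Subgroup.centralizer ((P : Subgroup G) : Set G)) := by
      by_contra h
      exact hUc (hUZ h)
    have huniqP : ∀ s t : G, s ∈ (P : Subgroup G) → t ∈ (P : Subgroup G) →
        (∀ r ∈ (P : Subgroup G), s * r = r * s) → (∀ r ∈ (P : Subgroup G), t * r = r * t) →
        s ^ 2 = 1 → t ^ 2 = 1 → s ≠ 1 → t ≠ 1 → s = t := by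
      intro s t hs ht hsc htc hs2 ht2 hs1 ht1
      set Z := (P : Subgroup G) ⊓ Subgroup.centralizer ((P : Subgroup G) : Set G)
      have hsZ : s ∈ Z := ⟨hs, Subgroup.mem_centralizer_iff.mpr fun r hr => (hsc r hr).symm⟩
      have htZ : t ∈ Z := ⟨ht, Subgroup.mem_centralizer_iff.mpr fun r hr => (htc r hr).symm⟩
      haveI := Fintype.ofFinite Z
      by_contra hne
      have h3 : (Finset.univ.filter fun z : Z => z ^ 2 = 1).card ≤ 2 := IsCyclic.card_pow_eq_one_le (by norm_num)
      have hsub : ({1, ⟨s, hsZ⟩, ⟨t, htZ⟩} : Finset Z) ⊆ Finset.univ.filter fun z : Z => z ^ 2 = 1 := by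
        intro z hz
        simp only [Finset.mem_insert, Finset.mem_singleton] at hz
        simp only [Finset.mem_filter, Finset.mem_univ, true_and]
        rcases hz with rfl | rfl | rfl
        · exact one_pow 2
        · exact Subtype.ext hs2
        · exact Subtype.ext ht2
      have h4 := (Finset.card_le_card hsub).trans h3
      have h5 : ({1, ⟨s, hsZ⟩, ⟨t, htZ⟩} : Finset Z).card = 3 := by
        rw [Finset.card_insert_of_notMem, Finset.card_insert_of_notMem, Finset.card_singleton]
        · simp only [Finset.mem_singleton]; exact fun e => hne (congrArg Subtype.val e)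
        · simp only [Finset.mem_insert, Finset.mem_singleton, not_or]
          exact ⟨fun e => hs1 (congrArg Subtype.val e).symm, fun e => ht1 (congrArg Subtype.val e).symm⟩
      omega
    -- `P` permutes the three involutions of `U`
    letI : MulAction (P : Subgroup G) U :=
      { smul := fun t w => ⟨(t : G) * w * (t : G)⁻¹, (Subgroup.mem_normalizer_iff.mp (hUn t.2) w).mp w.2⟩
        one_smul := fun w => Subtype.ext (show (1 : G) * w * (1 : G)⁻¹ = w by group)
        mul_smul := fun s t w => Subtype.ext (show ((s : G) * t) * w * ((s : G) * t)⁻¹ = s * (t * w * (t : G)⁻¹) * (s : G)⁻¹ by group) }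
    obtain ⟨z, hzU, hz1, hzc⟩ : ∃ z ∈ U, z ≠ 1 ∧ ∀ r ∈ (P : Subgroup G), z * r = r * z := by
      have h1fix : (1 : U) ∈ MulAction.fixedPoints (P : Subgroup G) U :=
        fun t => Subtype.ext (show (t : G) * 1 * (t : G)⁻¹ = 1 by group)
      obtain ⟨z, hz, hz1⟩ := P.isPGroup'.exists_fixed_point_of_prime_dvd_card_of_fixed_point U
        (hU4.card_four.symm ▸ (by norm_num)) h1fix
      exact ⟨z, z.2, fun e => hz1 (Subtype.ext e.symm), fun r hr =>
        (mul_inv_eq_iff_eq_mul.mp (congrArg Subtype.val (hz ⟨r, hr⟩))).symm⟩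
    have hfour : ∀ {p q r : G}, p ∈ U → q ∈ U → r ∈ U → p ≠ 1 → q ≠ 1 → p ≠ q → r ≠ 1 → r ≠ p → r ≠ q → r = p * q := by
      intro p q r hp hq hr hp1 hq1 hpq hr1 hrp hrq
      exact congrArg Subtype.val (hU4.eq_mul_of_ne_all (x := (⟨p, hp⟩ : U)) (y := ⟨q, hq⟩) (z := ⟨r, hr⟩)
        (fun e => hp1 (congrArg Subtype.val e)) (fun e => hq1 (congrArg Subtype.val e))
        (fun e => hpq (congrArg Subtype.val e)) (fun e => hr1 (congrArg Subtype.val e))
        (fun e => hrp (congrArg Subtype.val e)) (fun e => hrq (congrArg Subtype.val e)))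
    -- index at most two
    have hidx : ∀ w ∈ U, w ≠ 1 → ∀ x ∈ (P : Subgroup G), ∀ y ∈ (P : Subgroup G),
        w * x ≠ x * w → w * y ≠ y * w → w * (x⁻¹ * y) = (x⁻¹ * y) * w := by
      intro w hw hw1 x hx y hy hwx hwy
      have hwz : w ≠ z := fun e => hwx (e ▸ hzc x hx)
      have himg : ∀ {r : G}, r ∈ (P : Subgroup G) → w * r ≠ r * w → r * w * r⁻¹ = z * w := by
        intro r hr hwr
        refine hfour hzU hw ((Subgroup.mem_normalizer_iff.mp (hUn hr) w).mp hw) hz1 hw1 hwz.symm
          (fun e => hw1 (conj_eq_one_iff.mp e)) (fun e => hwz ?_) fun e => hwr (mul_inv_eq_iff_eq_mul.mp e).symm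
        calc w = r⁻¹ * (r * w * r⁻¹) * r := by group
          _ = r⁻¹ * (z * r) := by rw [e, mul_assoc]
          _ = z := by rw [hzc r hr, inv_mul_cancel_left]
      have h := (himg hx hwx).trans (himg hy hwy).symm
      calc w * (x⁻¹ * y) = x⁻¹ * (x * w * x⁻¹) * y := by group
        _ = x⁻¹ * (y * w * y⁻¹) * y := by rw [h]
        _ = _ := by group
    have hz2 : z ^ 2 = 1 := hU2 z hzU
    have hfin' : ∀ a ∈ U, a ∈ W → a ≠ 1 → a ≠ v → k * u = u * k := by
      intro a ha haW ha1 hav
      have hka := hfin v hv hv1 a ha haW k hk hkv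
      by_cases hu1 : u = 1
      · subst hu1; simp
      by_cases huv : u = v
      · subst huv; exact hkv
      by_cases hua : u = a
      · subst hua; exact hka
      rw [hfour hv ha hu hv1 ha1 hav.symm hu1 huv hua]
      exact (Commute.mul_right hkv hka).eq
    by_cases hvz : v = z
    · -- `v` is central
      subst hvz
      have hPX : (P : Subgroup G) ≤ X := fun x hx => Subgroup.mem_centralizer_singleton_iff.mpr (hzc x hx).symm
      have hWP : W ≤ P := hPcore v hv hv1 P P.isPGroup' hPX fun R hR _ hle => P.is_maximal' hR hle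
      by_cases hu1 : u = 1
      · subst hu1; simp
      by_cases huv : u = v
      · subst huv; exact hkv
      refine hfin' u hu ?_ hu1 huv
      exact Cfsg.Agent.Transfer.NormalFour.mem_core X W P rfl hchar P.isPGroup' hPX hWP hz2 hv1 (hUP hv)
        (fun x hx => Subgroup.mem_centralizer_singleton_iff.mp hx)
        (fun t ht htc ht2 => (Classical.em (t = 1)).imp id fun h => huniqP t v ht (hUP hv) htc hzc ht2 hz2 h hv1)
        (hUP hu) (hU2 u hu) (hidx u hu hu1)
    -- `v` is not central
    refine hfin' z hzU ?_ hz1 (Ne.symm hvz)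
    set C := (P : Subgroup G) ⊓ X with hC
    obtain ⟨T, hT, hTX, hCT, hmax⟩ : ∃ T : Subgroup G, IsPGroup 2 T ∧ T ≤ X ∧ C ≤ T ∧
        ∀ R : Subgroup G, IsPGroup 2 R → R ≤ X → T ≤ R → R = T := by
      obtain ⟨T, ⟨hT, hTX, hCT⟩, hmax⟩ := (Set.toFinite {T : Subgroup G | IsPGroup 2 T ∧ T ≤ X ∧ C ≤ T}).exists_maximalFor id _
        ⟨C, P.isPGroup'.to_le inf_le_left, inf_le_right, le_rfl⟩
      exact ⟨T, hT, hTX, hCT, fun R hR hRX hle => le_antisymm (hmax ⟨hR, hRX, hCT.trans hle⟩ hle) hle⟩
    have hWT : W ≤ T := hPcore v hv hv1 T hT hTX hmax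
    have hzT : z ∈ T := hCT ⟨hUP hzU, Subgroup.mem_centralizer_singleton_iff.mpr (hzc v (hUP hv))⟩
    by_cases hTC : T ≤ C
    · exact hchar ⟨hTX hzT, Subgroup.mem_centralizer_iff.mpr fun w hw => (hzc w (hTC (hWT hw)).1).symm⟩
    -- `T` is a Sylow group
    have hCP : C.relIndex (P : Subgroup G) ≤ 2 := by
      by_cases hne : C.relIndex (P : Subgroup G) = 1
      · omega
      obtain ⟨x, hx, hxC⟩ : ∃ x ∈ (P : Subgroup G), x ∉ C := by
        by_contra h; push Not at h
        exact hne (Subgroup.relIndex_eq_one.mpr h)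
      refine le_of_eq (Subgroup.relIndex_eq_two_iff_exists_notMem_and'.mpr ⟨x⁻¹, inv_mem hx, fun h => hxC (inv_mem_iff.mp h), fun b hb => ?_⟩)
      by_cases hbC : b ∈ C
      · exact Or.inr hbC
      · left
        have hnc : ∀ {r : G}, r ∈ (P : Subgroup G) → r ∉ C → v * r ≠ r * v := fun hr hrC e =>
          hrC ⟨hr, Subgroup.mem_centralizer_singleton_iff.mpr e.symm⟩
        exact ⟨Subgroup.mul_mem _ (Subgroup.inv_mem _ hx) hb, Subgroup.mem_centralizer_singleton_iff.mpr
          (hidx v hv hv1 x hx b hb (hnc hx hxC) (hnc hb hbC)).symm⟩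
    have hcardP : Nat.card (P : Subgroup G) ≤ 2 * Nat.card C := by
      have h := Subgroup.card_mul_index (C.subgroupOf (P : Subgroup G))
      rw [Nat.card_congr (Subgroup.subgroupOfEquivOfLe (inf_le_left : C ≤ (P : Subgroup G))).toEquiv] at h
      rw [← h, mul_comm 2]
      exact Nat.mul_le_mul_left _ hCP
    obtain ⟨S, hTS⟩ := hT.exists_le_sylow
    obtain ⟨g, hg⟩ := MulAction.exists_smul_eq G P S
    have hcardS : Nat.card (S : Subgroup G) = Nat.card (P : Subgroup G) := by rw [Sylow.card_eq_multiplicity, Sylow.card_eq_multiplicity]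
    have hTcard : 2 * Nat.card C ≤ Nat.card T := by
      have h := Subgroup.card_mul_index (C.subgroupOf T)
      rw [Nat.card_congr (Subgroup.subgroupOfEquivOfLe hCT).toEquiv] at h
      have h2 : 2 ≤ C.relIndex T := by
        rcases Nat.lt_or_ge (C.relIndex T) 2 with h' | h'
        · have h0 : C.relIndex T ≠ 0 := Subgroup.index_ne_zero_of_finite
          exact absurd (Subgroup.relIndex_eq_one.mp (by omega)) hTC
        · exact h'
      rw [← h, mul_comm 2]
      exact Nat.mul_le_mul_left _ h2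
    have hTS' : T = (S : Subgroup G) := Subgroup.eq_of_le_of_card_ge hTS (by omega)
    have hTC2 : C.relIndex T = 2 := by
      have h := Subgroup.card_mul_index (C.subgroupOf T)
      rw [Nat.card_congr (Subgroup.subgroupOfEquivOfLe hCT).toEquiv] at h
      have h' : Nat.card C * C.relIndex T = Nat.card T := h
      have hTc : Nat.card T = Nat.card (P : Subgroup G) := by rw [hTS', hcardS]
      have hpos : 0 < Nat.card C := Nat.card_pos
      nlinarith [hcardP, hTcard]
    have hvT : v ∈ T := hCT ⟨hUP hv, Subgroup.mem_centralizer_singleton_iff.mpr rfl⟩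
    refine Cfsg.Agent.Transfer.NormalFour.mem_core X W T rfl hchar hT hTX hWT (hU2 v hv) hv1 hvT
      (fun x hx => Subgroup.mem_centralizer_singleton_iff.mp hx) ?_ hzT hz2 ?_
    · intro t ht htc ht2
      refine (Classical.em (t = 1)).imp id fun ht1 => ?_
      have hback : ∀ {s : G}, s ∈ T → g⁻¹ * s * g ∈ (P : Subgroup G) := by
        intro s hs
        rw [hTS', ← hg, Sylow.coe_subgroup_smul] at hs
        obtain ⟨p, hp, e⟩ := hs
        have e' : g * p * g⁻¹ = s := e
        rw [← e', show g⁻¹ * (g * p * g⁻¹) * g = p by group]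
        exact hp
      have hfwd : ∀ {p : G}, p ∈ (P : Subgroup G) → g * p * g⁻¹ ∈ T := by
        intro p hp
        rw [hTS', ← hg, Sylow.coe_subgroup_smul]
        exact ⟨p, hp, rfl⟩
      have hcen : ∀ {s : G}, (∀ r ∈ T, s * r = r * s) → ∀ r ∈ (P : Subgroup G), g⁻¹ * s * g * r = r * (g⁻¹ * s * g) := by
        intro s hsc r hr
        calc g⁻¹ * s * g * r = g⁻¹ * (s * (g * r * g⁻¹)) * g := by group
          _ = g⁻¹ * ((g * r * g⁻¹) * s) * g := by rw [hsc _ (hfwd hr)]
          _ = _ := by group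
      have hc1 : ∀ {s : G}, s ≠ 1 → g⁻¹ * s * g ≠ 1 := fun {s} hs1 e => hs1 (by
        calc s = g * (g⁻¹ * s * g) * g⁻¹ := by group
          _ = 1 := by rw [e]; group)
      have hvc : ∀ r ∈ T, v * r = r * v := fun r hr => (Subgroup.mem_centralizer_singleton_iff.mp (hTX hr)).symm
      have hsq : ∀ {s : G}, s ^ 2 = 1 → (g⁻¹ * s * g) ^ 2 = 1 := fun {s} hs => by
        have := conj_pow (a := g⁻¹) (b := s) (i := 2)
        rw [inv_inv] at this
        rw [this, hs]; group
      have := huniqP _ _ (hback ht) (hback hvT) (hcen htc) (hcen hvc) (hsq ht2) (hsq (hU2 v hv)) (hc1 ht1) (hc1 hv1)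
      exact mul_left_cancel (mul_right_cancel this)
    · intro x hx y hy hzx hzy
      have hnC : ∀ {r : G}, z * r ≠ r * z → r ∉ C := fun hzr h => hzr (hzc _ h.1)
      have h := (Subgroup.mul_mem_iff_of_index_two hTC2 (a := (⟨x⁻¹, inv_mem hx⟩ : T)) (b := ⟨y, hy⟩)).mpr
        (iff_of_false (fun h => hnC hzx (inv_mem_iff.mp h)) (hnC hzy))
      exact hzc _ h.1
  -- generation
  have hnc : ¬ IsCyclic U := hU4.not_isCyclic
  have hcop : (Nat.card U).Coprime (Nat.card K) := by
    rw [hU4.card_four]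
    exact (Nat.coprime_two_left.mpr hK).pow_left 2
  have hgen := Cfsg.Agent.Coprime.eq_centralizerJoin (N := K) (A := U) hnc hUK hcop
  rw [Subgroup.le_centralizer_iff, ← hgen, Cfsg.Agent.Coprime.centralizerJoin]
  refine iSup_le fun a => ?_
  rintro k ⟨hk, hka⟩
  exact Subgroup.mem_centralizer_iff.mpr fun u hu =>
    (hmain _ a.2.1 a.2.2 u hu k hk (Subgroup.mem_centralizer_singleton_iff.mp hka)).symm

end Cfsg.Agent.S1957
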