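import Cfsg.Statements.S1958
import Cfsg.Agent.Components.Local
import Cfsg.Agent.Core.Cores
import Cfsg.Agent.Coprime.Action

set_option autoImplicit false
open Cfsg
open scoped commutatorElement

namespace Cfsg.Agent.S1958

/-- Let `G` be a finite group, `p` a prime, and `x, y` commuting elements of order `p` whose centralizers `C_G(x)` and `C_G(y)` are both solvable. Then `O_{p'}(C_G(x)) ∩ C_G(y) = O_{p'}(C_G(y)) ∩ C_G(x)` (balance). -/
theorem result {G : Type*} [Group G] [Finite G]
    (p : ℕ) [Fact p.Prime] (x y : G) (hx : orderOf x = p) (hy : orderOf y = p) (hxy : x * y = y * x)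
    (hCx : Group.IsSolvable ↥(Subgroup.centralizer ({x} : Set G))) (hCy : Group.IsSolvable ↥(Subgroup.centralizer ({y} : Set G))) :
    Cfsg.centralizerPPrimeCore p x ⊓ Subgroup.centralizer {y} = Cfsg.centralizerPPrimeCore p y ⊓ Subgroup.centralizer {x} := by
  have key : ∀ x y : G, orderOf x = p → x * y = y * x → orderOf y = p →
      Group.IsSolvable ↥(Subgroup.centralizer ({y} : Set G)) →
      Cfsg.centralizerPPrimeCore p x ⊓ Subgroup.centralizer {y} ≤ Cfsg.centralizerPPrimeCore p y := by
    intro x y hx hxy hy hsol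
    set Cy := Subgroup.centralizer ({y} : Set G) with hCydef
    set Cx := Subgroup.centralizer ({x} : Set G) with hCxdef
    haveI := hsol
    have hxCy : x ∈ Cy := Subgroup.mem_centralizer_singleton_iff.mpr hxy
    set X : Subgroup ↥Cy := Subgroup.zpowers ⟨x, hxCy⟩ with hXdef
    set D : Subgroup G := Cfsg.centralizerPPrimeCore p x ⊓ Cy with hDdef
    have hXp : IsPGroup p X := by
      refine IsPGroup.of_card (n := 1) ?_
      rw [hXdef, Nat.card_zpowers, Subgroup.orderOf_mk, hx, pow_one]
    have hDx : D ≤ Cx := inf_le_left.trans (Subgroup.map_subtype_le _)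
    have hCX : ∀ c : ↥Cy, c ∈ Subgroup.centralizer (X : Set ↥Cy) → (c : G) ∈ Cx := fun c hc =>
      Subgroup.mem_centralizer_singleton_iff.mpr
        (congrArg Subtype.val (Subgroup.mem_centralizer_iff.mp hc _ (Subgroup.mem_zpowers _))).symm
    have hW : D.subgroupOf Cy ≤ Subgroup.centralizer (X : Set ↥Cy) := by
      intro d hd
      rw [hXdef, Subgroup.zpowers_eq_closure, Subgroup.centralizer_closure,
        Subgroup.mem_centralizer_singleton_iff]
      exact Subtype.ext (Subgroup.mem_centralizer_singleton_iff.mp (hDx hd))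
    have hWp : (Nat.card ↥(D.subgroupOf Cy)).Coprime p := by
      rw [Nat.card_congr (Subgroup.subgroupOfEquivOfLe (show D ≤ Cy from inf_le_right)).toEquiv]
      refine Nat.Coprime.coprime_dvd_left (Subgroup.card_dvd_of_le (inf_le_left (b := Cy))) ?_
      rw [Cfsg.centralizerPPrimeCore, Core.card_map_subtype]
      exact Core.card_pPrimeCore_coprime p _
    have hn : Subgroup.centralizer (X : Set ↥Cy) ≤ Subgroup.normalizer (D.subgroupOf Cy : Set ↥Cy) := by
      intro c hc
      refine Coprime.mem_normalizer_of_conj_mem fun d hd => ?_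
      obtain ⟨⟨e, he, hed⟩, hdy⟩ := Subgroup.mem_subgroupOf.mp hd
      refine Subgroup.mem_subgroupOf.mpr ⟨⟨⟨_, hCX c hc⟩ * e * ⟨_, hCX c hc⟩⁻¹,
        (inferInstance : (pPrimeCore p ↥Cx).Normal).conj_mem e he _, ?_⟩, (c * d * c⁻¹).2⟩
      rw [Subgroup.coe_subtype] at hed ⊢
      simp [hed]
    have h1 := Components.le_pPrimeCore_of_local (Components.pLayer_eq_bot_of_solvable hsol) hXp hW hWp hn
    intro d hd
    exact ⟨⟨d, hd.2⟩, h1 (Subgroup.mem_subgroupOf.mpr hd), rfl⟩
  refine le_antisymm (le_inf (key x y hx hxy hy hCy) ?_) (le_inf (key y x hy hxy.symm hx hCx) ?_)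
  · exact inf_le_left.trans (Subgroup.map_subtype_le _)
  · exact inf_le_left.trans (Subgroup.map_subtype_le _)

end Cfsg.Agent.S1958
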