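import Cfsg.Statements.S1966
import Cfsg.Agent.Core.Cores

set_option autoImplicit false
open Cfsg
open scoped commutatorElement

namespace Cfsg.Agent.S1966

/-- Let p be a prime, G a finite group with Sylow p-subgroup S and 𝓕 a conjugation family for S in G. Then the members of 𝓕 containing O_p(G) still form a conjugation family for S in G. -/
theorem result {G : Type*} [Group G] [Finite G] {p : ℕ} [Fact p.Prime] (S : Sylow p G) (𝓕 : Set (Subgroup G)) (h : Cfsg.IsConjugationFamily 𝓕 (S : Subgroup G)) : Cfsg.IsConjugationFamily {T : Subgroup G | T ∈ 𝓕 ∧ Cfsg.pCore p G ≤ T} (S : Subgroup G) := by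
  refine ⟨fun T hT => h.1 T hT.1, fun A g hne hA hAg => ?_⟩
  have hO : ∀ x : G, ∀ y ∈ pCore p G, x⁻¹ * y * x ∈ pCore p G := fun x y hy =>
    (pCore_normal p G).conj_mem' y hy x
  have hOS : (pCore p G : Set G) ⊆ (S : Subgroup G) := Core.pCore_le_sylow S
  obtain ⟨n, T, x, hp, hT, hx, h0, h1⟩ := h.2 (A ∪ (pCore p G : Set G)) g (hne.mono Set.subset_union_left)
    (Set.union_subset hA hOS) (by
      rintro _ ⟨a, ha | ha, rfl⟩
      · exact hAg ⟨a, ha, rfl⟩
      · exact hOS (hO g a ha))
  refine ⟨n, T, x, hp, fun i => ⟨hT i, ?_⟩, hx, fun hn => Set.subset_union_left.trans (h0 hn),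
    fun i hi => (Set.image_mono Set.subset_union_left).trans (h1 i hi)⟩
  intro y hy
  rcases i with ⟨i, hi⟩
  cases i with
  | zero => exact h0 hi (Or.inr hy)
  | succ j =>
    refine h1 ⟨j, by omega⟩ hi ⟨(((List.ofFn x).take (j + 1)).prod) * y * (((List.ofFn x).take (j + 1)).prod)⁻¹,
      Or.inr ((pCore_normal p G).conj_mem y hy _), ?_⟩
    simp [mul_assoc]

end Cfsg.Agent.S1966
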