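import Cfsg.Statements.S1967
import Cfsg.Agent.TwoGroups.ConjFunctor

set_option autoImplicit false
open Cfsg

namespace Cfsg.Agent.S1967

/-- Let p be a prime, G a finite group with Sylow p-subgroup S and W a conjugacy functor for p on G. Then W controls strong fusion in G if and only if, whenever T ≤ S and g ∈ G satisfy gTg⁻¹ ≤ S, one can write g = n c with n ∈ N_G(W(S)) and c ∈ C_G(T). -/
theorem result {G : Type*} [Group G] [Finite G] {p : ℕ} [Fact p.Prime] (S : Sylow p G) (W : Subgroup G → Subgroup G) (hW : Cfsg.IsConjugacyFunctor p W) : Cfsg.ControlsStrongFusionIn p W ⊤ ↔ ∀ (T : Subgroup G) (g : G), T ≤ (S : Subgroup G) → T.map (MulAut.conj g).toMonoidHom ≤ (S : Subgroup G) → ∃ n ∈ Subgroup.normalizer ((W (S : Subgroup G) : Subgroup G) : Set G), ∃ c ∈ Subgroup.centralizer (T : Set G), g = n * c := by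
  open Subgroup TwoGroups.ConjFunctor in
  constructor
  · rintro ⟨T₀, -, hp0, hi0, h0⟩ T g hT hgT
    obtain ⟨k, -, hk⟩ := exists_conj_sylow (H := (⊤ : Subgroup G)) le_top hp0 hi0 le_top S.2
      (by rw [Subgroup.relIndex_top_right]; exact S.not_dvd_index)
    have hmem : ∀ a ∈ (S : Subgroup G), k⁻¹ * a * k ∈ T₀ := fun a ha => mem_map_conj.1 (hk ▸ ha)
    obtain ⟨x, hx, hxa⟩ := h0 ((fun a => k⁻¹ * a * k) '' (T : Set G)) (k⁻¹ * g * k) (Subgroup.mem_top _)
      (by rintro _ ⟨a, ha, rfl⟩; exact hmem a (hT ha))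
      (by
        rintro _ ⟨_, ⟨a, ha, rfl⟩, rfl⟩
        have := hmem _ (hgT (conj_mem_map ha))
        simpa [mul_assoc] using this)
    refine ⟨k * x * k⁻¹, ?_, (k * x * k⁻¹)⁻¹ * g, ?_, by group⟩
    · rw [← hk, (hW T₀ hp0).2.2 k, Transfer.normalizer_map_conj]
      exact conj_mem_map hx.2
    · rw [Subgroup.mem_centralizer_iff]
      intro a ha
      have h1 := hxa _ ⟨a, ha, rfl⟩
      calc a * ((k * x * k⁻¹)⁻¹ * g) = k * x⁻¹ * (x * (k⁻¹ * a * k) * x⁻¹) * k⁻¹ * g := by group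
        _ = k * x⁻¹ * (k⁻¹ * g * k * (k⁻¹ * a * k) * (k⁻¹ * g * k)⁻¹) * k⁻¹ * g := by rw [h1]
        _ = (k * x * k⁻¹)⁻¹ * g * a := by group
  · intro h
    refine ⟨S, le_top, S.2, by rw [Subgroup.relIndex_top_right]; exact S.not_dvd_index, fun A g _ hA hgA => ?_⟩
    obtain ⟨m, hm, c, hc, rfl⟩ := h (Subgroup.closure A) g ((Subgroup.closure_le _).2 hA) (by
      rw [Subgroup.map_le_iff_le_comap, Subgroup.closure_le]
      exact fun a ha => hgA ⟨a, ha, rfl⟩)
    refine ⟨m, ⟨Subgroup.mem_top _, hm⟩, fun a ha => ?_⟩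
    have := Subgroup.mem_centralizer_iff.1 hc a (Subgroup.subset_closure ha)
    calc m * a * m⁻¹ = m * (a * c) * c⁻¹ * m⁻¹ := by group
      _ = m * (c * a) * c⁻¹ * m⁻¹ := by rw [this]
      _ = m * c * a * (m * c)⁻¹ := by group

end Cfsg.Agent.S1967
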