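import Cfsg.Statements.S1968
import Cfsg.Agent.TwoGroups.ConjFunctor

set_option autoImplicit false
open Cfsg

namespace Cfsg.Agent.S1968

open Cfsg.Agent.TwoGroups.ConjFunctor


/-- Let p be a prime, G a finite group with Sylow p-subgroup S and W a conjugacy functor for p on G with Z(P) ≤ W(P) for every p-subgroup P. Let A be a subgroup of Z(S) normalized by N_G(W(S)) that is not weakly closed in S with respect to G. Then there is a subgroup T of S, well placed in S with respect to W, such that: A ≤ T; N_G(W(N_S(T))) normalizes A; N_S(T) is a Sylow p-subgroup of N_G(T); A ≤ Z(N_S(T)); and A is not weakly closed in N_S(T) with respect to N_G(T), that is, some N_G(T)-conjugate of A other than A lies in N_S(T). -/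
theorem result {G : Type*} [Group G] [Finite G] {p : ℕ} [Fact p.Prime] (S : Sylow p G) (W : Subgroup G → Subgroup G) (hW : Cfsg.IsConjugacyFunctor p W) (hWZ : ∀ P : Subgroup G, IsPGroup p ↥P → P ⊓ Subgroup.centralizer (P : Set G) ≤ W P) (A : Subgroup G) (hAZ : A ≤ (S : Subgroup G) ⊓ Subgroup.centralizer ((S : Subgroup G) : Set G)) (hAN : Subgroup.normalizer ((W (S : Subgroup G) : Subgroup G) : Set G) ≤ Subgroup.normalizer ((A : Subgroup G) : Set G)) (hnwc : ¬ Cfsg.IsWeaklyClosed A (S : Subgroup G)) : ∃ T : Subgroup G, Cfsg.IsWellPlaced p W (S : Subgroup G) T ∧ A ≤ T ∧ Subgroup.normalizer ((W ((S : Subgroup G) ⊓ Subgroup.normalizer ((T : Subgroup G) : Set G)) : Subgroup G) : Set G) ≤ Subgroup.normalizer ((A : Subgroup G) : Set G) ∧ ¬ p ∣ ((S : Subgroup G) ⊓ Subgroup.normalizer ((T : Subgroup G) : Set G)).relIndex (Subgroup.normalizer ((T : Subgroup G) : Set G)) ∧ A ≤ Subgroup.centralizer (((S : Subgroup G) ⊓ Subgroup.normalizer ((T : Subgroup G) : Set G) : Subgroup G) : Set G) ∧ ∃ g ∈ Subgroup.normalizer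 ((T : Subgroup G) : Set G), A.map (MulAut.conj g).toMonoidHom ≤ (S : Subgroup G) ⊓ Subgroup.normalizer ((T : Subgroup G) : Set G) ∧ A.map (MulAut.conj g).toMonoidHom ≠ A := by
  have hAS : A ≤ (S : Subgroup G) := hAZ.trans inf_le_left
  obtain ⟨g, hg, hne⟩ : ∃ g : G, A.map (MulAut.conj g).toMonoidHom ≤ (S : Subgroup G) ∧ A.map (MulAut.conj g).toMonoidHom ≠ A := by
    by_contra hno
    push Not at hno
    exact hnwc ⟨hAS, hno⟩
  obtain ⟨T, hT, hAT, hN, h, hh, hhA, hne'⟩ := exists_local_failure S hW hWZ (placed_wellPlaced S hW) (fun T hT => by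
    refine ⟨tower_le hW S hT.1 1, fun i => ?_⟩
    have : Cfsg.functorTower W (S : Subgroup G) (W (nIn (S : Subgroup G) T)) i =
        Cfsg.functorTower W (S : Subgroup G) T (i + 1) := by
      induction i with
      | zero => rfl
      | succ i ih =>
        show W _ = W _
        rw [ih]
    rw [this]; exact hT.2 (i + 1)) A hAZ hAN hg hne
  exact ⟨T, hT, hAT, hN, hT.2 0, (hAZ.trans inf_le_right).trans (Subgroup.centralizer_le inf_le_left), h, hh, hhA, hne'⟩

end Cfsg.Agent.S1968
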