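import Cfsg.Statements.S1981
import Cfsg.Agent.CT.KSeq

set_option autoImplicit false
open Cfsg
open scoped commutatorElement

namespace Cfsg.Agent.S1981

/-- Let P be a finite p-group generated by its abelian normal subgroups. Then both K-infinity subgroups of P equal P. -/
theorem result {P : Type*} [Group P] [Finite P] {p : ℕ} [Fact p.Prime] (hP : IsPGroup p P) (hgen : ⨆ A ∈ {A : Subgroup P | A.Normal ∧ IsMulCommutative ↥A}, A = ⊤) : Cfsg.kInfLower P = ⊤ ∧ Cfsg.kInfUpper P = ⊤ := by
  have he : ∀ n, kSeqEven P n = ⊤ := fun n => top_le_iff.mp (hgen ▸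
    iSup₂_le fun A hA => haveI := hA.1; le_sSup (CT.normal_comm_mem A hA.2 _).1)
  refine ⟨top_le_iff.mp ((he 0).ge.trans (le_iSup (kSeqEven P) 0)), top_le_iff.mp (le_iInf fun n => ?_)⟩
  cases n with
  | zero => exact le_rfl
  | succ n =>
    rw [CT.odd_succ, ← hgen]
    exact iSup₂_le fun A hA => haveI := hA.1; le_sSup (CT.normal_comm_mem A hA.2 _).2

end Cfsg.Agent.S1981
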