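import Cfsg.Statements.S2004
import Cfsg.Agent.Dickson.Stability

set_option autoImplicit false
open Cfsg

namespace Cfsg.Agent.S2004

/-- Let p be an odd prime and G a finite group such that SL₂(p) is not involved in N_G(P) for any nonidentity p-subgroup P of G. Then every section of G is p-stable in the normalizer form: in each section, whenever an element of the normalizer of a p-subgroup Q acts quadratically on Q, its image in N(Q)/C(Q) lies in O_p(N(Q)/C(Q)). -/
theorem result {G : Type*} [Group G] [Finite G] {p : ℕ} [Fact p.Prime] (hp : p ≠ 2) (h : ∀ P : Subgroup G, IsPGroup p ↥P → P ≠ ⊥ → ¬ Cfsg.Involves (Matrix.SpecialLinearGroup (Fin 2) (ZMod p)) ↥(Subgroup.normalizer ((P : Subgroup G) : Set G))) : ∀ (K R : Subgroup G) [hR : (R.subgroupOf K).Normal], Cfsg.IsNormalizerPStable p (↥K ⧸ R.subgroupOf K) := by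
  intro K R hR P hP g hg hq
  by_contra hno
  by_cases hP1 : P = ⊥
  · apply hno
    have : ((⟨g, hg⟩ : Subgroup.normalizer (P : Set (↥K ⧸ R.subgroupOf K))) :
        ↥K ⧸ R.subgroupOf K) ∈ Subgroup.centralizer (P : Set (↥K ⧸ R.subgroupOf K)) := by
      rw [Subgroup.mem_centralizer_iff]
      intro x hx
      rw [hP1] at hx
      rw [Subgroup.mem_bot.mp hx, one_mul, mul_one]
    rw [(QuotientGroup.eq_one_iff _).mpr (Subgroup.mem_subgroupOf.mpr this)]
    exact one_mem _
  have hsec := Dickson.section_of_quadratic hp hP le_rfl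
    (QuotientGroup.mk' ((Subgroup.centralizer (P : Set (↥K ⧸ R.subgroupOf K))).subgroupOf
      (Subgroup.normalizer (P : Set (↥K ⧸ R.subgroupOf K))))) (QuotientGroup.mk'_surjective _)
    (fun h => (QuotientGroup.eq_one_iff h).trans Subgroup.mem_subgroupOf) (g := ⟨g, hg⟩) hq hno
  set π := QuotientGroup.mk' (R.subgroupOf K) with hπ
  obtain ⟨S⟩ : Nonempty (Sylow p (P.comap π)) := inferInstance
  set S' : Subgroup K := (S : Subgroup (P.comap π)).map (P.comap π).subtype with hS'
  have hsurj : Function.Surjective (π.subgroupComap P) :=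
    MonoidHom.subgroupComap_surjective_of_surjective π P (QuotientGroup.mk'_surjective _)
  have himg : S'.map π = P := by
    have h1 : ((S.mapSurjective hsurj : Sylow p P) : Subgroup P) = ⊤ :=
      ((S.mapSurjective hsurj).is_maximal' (hP.of_equiv Subgroup.topEquiv.symm) le_top).symm
    rw [hS', Subgroup.map_map]
    refine le_antisymm ?_ fun y hy => ?_
    · rintro _ ⟨x, -, rfl⟩
      exact x.2
    · obtain ⟨x, hx, e⟩ := h1.ge (Subgroup.mem_top (⟨y, hy⟩ : P))
      exact ⟨x, hx, congrArg Subtype.val e⟩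
  have hN : Subgroup.normalizer (P : Set (↥K ⧸ R.subgroupOf K)) ≤
      (Subgroup.normalizer (S' : Set K)).map π := by
    intro y hy
    obtain ⟨x, rfl⟩ := QuotientGroup.mk'_surjective _ y
    have hmem : ∀ u : K, π u ∈ P → π (x * u * x⁻¹) ∈ P := fun u hu => by
      rw [map_mul, map_mul, map_inv]
      exact (Subgroup.mem_normalizer_iff.mp hy _).mp hu
    have hx : x ∈ Subgroup.normalizer ((P.comap π : Subgroup K) : Set K) :=
      Subgroup.mem_normalizer_fintype fun u hu => hmem u hu
    let σ : (P.comap π : Subgroup K) ≃* (P.comap π : Subgroup K) :=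
      { toFun := fun u => ⟨x * u * x⁻¹, (Subgroup.mem_normalizer_iff.mp hx _).mp u.2⟩
        invFun := fun u => ⟨x⁻¹ * u * x, (Subgroup.mem_normalizer_iff''.mp hx _).mp u.2⟩
        left_inv := fun u => Subtype.ext (by simp [mul_assoc])
        right_inv := fun u => Subtype.ext (by simp [mul_assoc])
        map_mul' := fun u v => Subtype.ext (by simp [mul_assoc]) }
    obtain ⟨t, ht⟩ := MulAction.exists_smul_eq (P.comap π : Subgroup K) S (S.mapSurjective (f := σ.toMonoidHom) σ.surjective)
    have hw : (t : K)⁻¹ * x ∈ Subgroup.normalizer (S' : Set K) := by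
      refine Subgroup.mem_normalizer_fintype ?_
      rintro _ ⟨u, hu, rfl⟩
      have h1 : σ u ∈ ((t • S : Sylow p (P.comap π : Subgroup K)) : Subgroup (P.comap π : Subgroup K)) := by
        rw [ht]
        exact ⟨u, hu, rfl⟩
      rw [Sylow.coe_subgroup_smul, Subgroup.mem_pointwise_smul_iff_inv_smul_mem, ← map_inv, MulAut.smul_def,
        MulAut.conj_apply, inv_inv] at h1
      exact ⟨t⁻¹ * σ u * t, h1, by simp [σ, mul_assoc]⟩
    have ht' : π t ∈ S'.map π := by rw [himg]; exact t.2
    obtain ⟨v, hv, hvt⟩ := ht'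
    refine ⟨v * ((t : K)⁻¹ * x), mul_mem (Subgroup.le_normalizer hv) hw, ?_⟩
    rw [map_mul, hvt, map_mul, map_inv, mul_inv_cancel_left]
  have hsec' := ((hsec.mono hN).of_map π).map (f := K.subtype) K.subtype_injective
  refine h (S'.map K.subtype) ((S.isPGroup'.map _).map _) ?_ (hsec'.mono ?_).involves
  · rw [ne_eq, Subgroup.map_eq_bot_iff_of_injective _ K.subtype_injective]
    intro e
    apply hP1
    rw [← himg, e, Subgroup.map_bot]
  · exact Subgroup.le_normalizer_map _

end Cfsg.Agent.S2004
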