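import Cfsg.Statements.S2007
import Cfsg.Agent.Transfer.Burnside
import Cfsg.Agent.Transfer.Complement

set_option autoImplicit false
open Cfsg
open scoped commutatorElement

namespace Cfsg.Agent.S2007

/-- Let p be a prime, G a finite group with Sylow p-subgroup S, and T a normal subgroup of S containing C_S(T). If N_G(T)/C_G(T) is a p-group (every element of N_G(T) of order prime to p centralizes T), then N_G(T) has a normal p-complement. -/
theorem result {G : Type*} [Group G] [Finite G] {p : ℕ} [Fact p.Prime] (S : Sylow p G) (T : Subgroup G) (hTS : T ≤ (S : Subgroup G)) (hTn : (S : Subgroup G) ≤ Subgroup.normalizer ((T : Subgroup G) : Set G)) (hC : (S : Subgroup G) ⊓ Subgroup.centralizer ((T : Subgroup G) : Set G) ≤ T) (hN : ∀ g ∈ Subgroup.normalizer ((T : Subgroup G) : Set G), (orderOf g).Coprime p → g ∈ Subgroup.centralizer ((T : Subgroup G) : Set G)) : Cfsg.HasNormalPComplement p ↥(Subgroup.normalizer ((T : Subgroup G) : Set G)) := by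
  set N := Subgroup.normalizer (T : Set G) with hN'
  set C := (Subgroup.centralizer (T : Set G)).subgroupOf N with hC'
  haveI hCn : C.Normal := Transfer.centralizer_subgroupOf_normalizer_normal T
  let S' : Sylow p N := S.subtype hTn
  let Z : Sylow p C := Transfer.sylowOfNormal S' C
  have hZc : ∀ z : C, z ∈ (Z : Subgroup C) → ∀ c : C, z * c = c * z := by
    intro z hz c
    have hzS : ((z : N) : G) ∈ (S : Subgroup G) := hz
    have hzT : ((z : N) : G) ∈ T := hC ⟨hzS, z.2⟩
    exact Subtype.ext (Subtype.ext ((Subgroup.mem_centralizer_iff.mp c.2) _ hzT))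
  have hZ : HasNormalPComplement p C := Transfer.hasNormalPComplement_of_normalizer_le_centralizer Z
    fun c _ => Subgroup.mem_centralizer_iff.mpr fun z hz => hZc z hz c
  rw [Transfer.hasNormalPComplement_iff_coprime_pResidual] at hZ ⊢
  refine Nat.Coprime.coprime_dvd_left (Subgroup.card_dvd_of_le ?_) ((Subgroup.card_map_of_injective C.subtype_injective (K := pResidual p C)).symm ▸ hZ)
  rw [pResidual, Subgroup.closure_le]
  intro g hg
  have hgC : g ∈ C := hN g g.2 (by rwa [Subgroup.orderOf_coe])
  exact ⟨⟨g, hgC⟩, Transfer.mem_pResidual_of_coprime (by rwa [Subgroup.orderOf_mk] ), rfl⟩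

end Cfsg.Agent.S2007
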