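import Cfsg.Statements.S2008
import Mathlib.GroupTheory.SpecificGroups.KleinFour
import Mathlib.GroupTheory.FixedPointFree

set_option autoImplicit false
open Cfsg
open scoped commutatorElement

namespace Cfsg.Agent.S2008

variable {H : Type*} [Group H] [Finite H]

theorem eq_or_bot (z : H) (hz : orderOf z = 2)
    (hN : ∀ N : Subgroup H, N.Normal → N ≠ ⊤ → N ⊓ Subgroup.centralizer ({z} : Set H) = ⊥)
    (E : Subgroup H) (hE : IsKleinFour ↥E) (hzE : z ∈ E) (hc : ∀ e ∈ E, e ≠ 1 → IsConj z e)
    (N : Subgroup H) (hNn : N.Normal) : N = ⊥ ∨ N = ⊤ := by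
  refine (em (N = ⊤)).symm.imp (fun h => ?_) id
  have key : ∀ e ∈ E, e ≠ 1 → ∀ n ∈ N, e * n * e⁻¹ = n⁻¹ := by
    intro e he he1 n hn
    obtain ⟨c, hc⟩ := isConj_iff.mp (hc e he he1)
    let φ : N →* N :=
      { toFun := fun m => ⟨e * m * e⁻¹, hNn.conj_mem _ m.2 e⟩
        map_one' := by ext; simp
        map_mul' := fun a b => by ext; simp [mul_assoc] }
    have h2 : e * e = 1 := by
      have := hE.exponent_two
      have h3 := Monoid.pow_exponent_eq_one (⟨e, he⟩ : E)
      rw [this, sq] at h3
      exact congrArg Subtype.val h3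
    have hinv : Function.Involutive φ := fun m => by
      ext
      show e * (e * m * e⁻¹) * e⁻¹ = m
      rw [show e * (e * (m : H) * e⁻¹) * e⁻¹ = (e * e) * m * (e * e)⁻¹ by group, h2]; simp
    have hfpf : MonoidHom.FixedPointFree φ := by
      intro m hm
      have hm' : e * m * e⁻¹ = m := congrArg Subtype.val hm
      have hmem : c⁻¹ * m * c ∈ N ⊓ Subgroup.centralizer ({z} : Set H) := by
        refine ⟨hNn.conj_mem' _ m.2 c, ?_⟩
        show c⁻¹ * (m : H) * c ∈ Subgroup.centralizer {z}
        rw [Subgroup.mem_centralizer_singleton_iff]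
        have hm'' : (m : H) * e = e * m := by
          exact (mul_inv_eq_iff_eq_mul.mp hm').symm
        rw [← hc] at hm''
        have := congrArg (fun y => c⁻¹ * y * c) hm''
        simpa [mul_assoc] using this
      rw [hN N hNn h, Subgroup.mem_bot] at hmem
      exact Subtype.ext (by simpa [mul_assoc, inv_mul_eq_one] using congrArg (fun y => c * y * c⁻¹) hmem)
    exact congrArg Subtype.val (congrFun (hfpf.coe_eq_inv_of_involutive hinv) ⟨n, hn⟩)
  have hz1 : z ≠ 1 := fun hh => by simp [hh] at hz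
  obtain ⟨f, hf, hf1, hfz⟩ : ∃ f ∈ E, f ≠ 1 ∧ f ≠ z := by
    by_contra hcon
    simp only [not_exists, not_and, not_not] at hcon
    have hsub : (E : Set H) ⊆ {1, z} := fun f hf => by
      rcases em (f = 1) with h' | h'
      · exact Or.inl h'
      · exact Or.inr (hcon f hf h')
    have := Set.ncard_le_ncard hsub
    have h4 : (E : Set H).ncard = 4 := hE.card_four
    rw [h4] at this
    have := Set.ncard_pair (Ne.symm hz1)
    omega
  rw [Subgroup.eq_bot_iff_forall]
  intro n hn
  have hzf : f * z ∈ E := E.mul_mem hf hzE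
  have hzf1 : f * z ≠ 1 := fun hh => hfz (by
    have h2 : z * z = 1 := by rw [← sq, ← hz, pow_orderOf_eq_one]
    calc f = f * (z * z) := by rw [h2, mul_one]
      _ = (f * z) * z := by group
      _ = z := by rw [hh, one_mul])
  have e1 := key z hzE hz1 n hn
  have e2 := key f hf hf1 n⁻¹ (N.inv_mem hn)
  have e3 := key _ hzf hzf1 n hn
  have e4 : f * z * n * (f * z)⁻¹ = n := by
    rw [show f * z * n * (f * z)⁻¹ = f * (z * n * z⁻¹) * f⁻¹ by group, e1, e2, inv_inv]
  have hinv : n⁻¹ = n := e3.symm.trans e4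
  have hmem : n ∈ N ⊓ Subgroup.centralizer ({z} : Set H) := by
    refine ⟨hn, ?_⟩
    show n ∈ Subgroup.centralizer {z}
    rw [Subgroup.mem_centralizer_singleton_iff]
    rw [hinv] at e1
    exact (mul_inv_eq_iff_eq_mul.mp e1).symm
  rw [hN N hNn h, Subgroup.mem_bot] at hmem
  exact hmem

theorem top_not_comm (z : H) (hz : orderOf z = 2)
    (_hN : ∀ N : Subgroup H, N.Normal → N ≠ ⊤ → N ⊓ Subgroup.centralizer ({z} : Set H) = ⊥)
    (E : Subgroup H) (hE : IsKleinFour ↥E) (_hzE : z ∈ E) (hc : ∀ e ∈ E, e ≠ 1 → IsConj z e)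
    (hab : IsMulCommutative (⊤ : Subgroup H)) : False := by
  have heq : ∀ e ∈ E, e ≠ 1 → e = z := fun e he he1 => by
    obtain ⟨c, hc⟩ := isConj_iff.mp (hc e he he1)
    have h5 : c * z = z * c := congrArg Subtype.val (mul_comm' (⟨c, Subgroup.mem_top c⟩ : (⊤ : Subgroup H)) ⟨z, Subgroup.mem_top z⟩)
    rw [← hc, h5, mul_inv_cancel_right]
  have hz1 : z ≠ 1 := fun hh => by simp [hh] at hz
  have hsub : (E : Set H) ⊆ {1, z} := fun f hf => by
    rcases em (f = 1) with h' | h'
    · exact Or.inl h'
    · exact Or.inr (heq f hf h')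
  have := Set.ncard_le_ncard hsub
  have h4 : (E : Set H).ncard = 4 := hE.card_four
  rw [h4] at this
  have := Set.ncard_pair (Ne.symm hz1)
  omega


/-- Let H be a finite group and z an involution such that every proper normal subgroup of H meets the centralizer of z trivially, and suppose z lies in a Klein four-subgroup E of H all three of whose involutions are conjugate to z in H. Then H has no non-trivial abelian normal subgroup. -/
theorem result {H : Type*} [Group H] [Finite H] (z : H) (hz : orderOf z = 2) (hN : ∀ N : Subgroup H, N.Normal → N ≠ ⊤ → N ⊓ Subgroup.centralizer ({z} : Set H) = ⊥) (E : Subgroup H) (hE : IsKleinFour ↥E) (hzE : z ∈ E) (hc : ∀ e ∈ E, e ≠ 1 → IsConj z e) (N : Subgroup H) [N.Normal] (hab : IsMulCommutative ↥N) : N = ⊥ := by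
  exact (eq_or_bot z hz hN E hE hzE hc N inferInstance).resolve_right fun h => by
    subst h
    exact top_not_comm z hz hN E hE hzE hc hab

end Cfsg.Agent.S2008
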