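import Cfsg.Statements.S2034
import Cfsg.Agent.FGS4.SchurSylow.Basic
import Cfsg.Agent.Fusion.M11Shape

set_option autoImplicit false
open Cfsg

namespace Cfsg.Agent.S2034
open Cfsg.Agent.Golay Cfsg.Agent.Fusion.M11Shape

/-- A permutation code. -/
def ca : ℕ := 487607080158395075740321133224921120
/-- A permutation code. -/
def cb : ℕ := 487655643029606470073469406179395616
/-- A permutation code. -/
def cg : ℕ := 984355386066803413838770983050249280
/-- A permutation code. -/
def ca2 : ℕ := 928718206277989008510816407558424608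
/-- A permutation code. -/
def cb2 : ℕ := 929000492124499343650182431580424224
/-- A permutation code. -/
def cab : ℕ := 928952864966028496604741530750814240
/-- A permutation code. -/
def cga : ℕ := 487083544050846399029737311416255552
/-- A permutation code. -/
def cgb : ℕ := 487193109449646955262444198814680128

theorem checks :
    (isAut ca && mapMask ca sqMask == sqMask && app ca 0 == 0) = true ∧
    (isAut cb && mapMask cb sqMask == sqMask && app cb 0 == 0) = true ∧
    (isAut cg && mapMask cg sqMask == sqMask && app cg 0 == 0) = true ∧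
    permOK ca2 = true ∧ permOK cb2 = true ∧ permOK cab = true ∧ permOK cga = true ∧ permOK cgb = true ∧
    isComp ca2 ca ca = true ∧ isComp c1 ca2 ca = true ∧ isComp cb2 cb cb = true ∧ isComp c1 cb2 cb = true ∧
    isComp cab ca cb = true ∧ isComp cab cb ca = true ∧
    isComp cga cg ca = true ∧ isComp cga cb cg = true ∧ isComp cgb cg cb = true ∧ isComp cgb ca cg = true ∧
    app ca 7 = 7 ∧ app cb 7 ≠ 7 ∧ app ca 3 ≠ 3 ∧ permOK c1 = true ∧ (∀ i < 24, app c1 i = i) := by
  decide +kernel

theorem exists_swap_triple : ∃ a b g : Cfsg.Spor.M11, a ^ 3 = 1 ∧ b ^ 3 = 1 ∧ a ≠ 1 ∧ b ∉ Subgroup.zpowers a ∧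
    a * b = b * a ∧ g * a = b * g ∧ g * b = a * g := by
  obtain ⟨ha, hb, hg, a2, b2, ab, ga, gb, e1, e2, e3, e4, e5, e6, e7, e8, e9, e10, f1, f2, f3, k1, hid⟩ := checks
  have ok : ∀ {c : ℕ}, (isAut c && mapMask c sqMask == sqMask && app c 0 == 0) = true → permOK c = true := by
    intro c h
    simp only [Bool.and_eq_true] at h
    exact permOK_of_isAut h.1.1
  have h1 : permOf c1 = 1 := (eq_permOf k1 1 fun p => idx_injective (by
    rw [Equiv.Perm.one_apply, permFun, idx_pt (app_lt k1 (idx_lt p)), hid _ (idx_lt p)])).symm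
  have cube : ∀ {c c2 : ℕ}, permOK c = true → permOK c2 = true → isComp c2 c c = true →
      isComp c1 c2 c = true → permOf c ^ 3 = 1 := by
    intro c c2 k k2 i1 i2
    rw [← h1, permOf_mul k1 k2 k i2, permOf_mul k2 k k i1]
    simp only [pow_succ, pow_zero, one_mul]
  have hfix : ∀ {c i : ℕ}, permOK c = true → i < 24 → (app c i = i ↔ permOf c (pt i) = pt i) := by
    intro c i hc hi
    have := idx_permOf hc (pt i)
    rw [idx_pt hi] at this
    constructor
    · intro h
      exact idx_injective (by rw [this, h, idx_pt hi])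
    · intro h
      rw [← this, h, idx_pt hi]
  refine ⟨⟨_, mem_M11 ha⟩, ⟨_, mem_M11 hb⟩, ⟨_, mem_M11 hg⟩, Subtype.ext (cube (ok ha) a2 e1 e2),
    Subtype.ext (cube (ok hb) b2 e3 e4), ?_, ?_, Subtype.ext ?_, Subtype.ext ?_, Subtype.ext ?_⟩
  · intro h
    apply f3
    have e : permOf ca = 1 := congrArg Subtype.val h
    rw [hfix (ok ha) (by norm_num), e]
    rfl
  · intro h
    obtain ⟨i, hi⟩ := Subgroup.mem_zpowers_iff.1 h
    apply f2
    rw [hfix (ok hb) (by norm_num)]
    have hb' : permOf cb = permOf ca ^ i := by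
      have := congrArg Subtype.val hi
      simpa using this.symm
    rw [hb']
    exact Equiv.Perm.zpow_apply_eq_self_of_apply_eq_self ((hfix (ok ha) (by norm_num)).1 f1) i
  · show permOf ca * permOf cb = permOf cb * permOf ca
    rw [← permOf_mul ab (ok ha) (ok hb) e5, ← permOf_mul ab (ok hb) (ok ha) e6]
  · show permOf cg * permOf ca = permOf cb * permOf cg
    rw [← permOf_mul ga (ok hg) (ok ha) e7, ← permOf_mul ga (ok hb) (ok hg) e8]
  · show permOf cg * permOf cb = permOf ca * permOf cg
    rw [← permOf_mul gb (ok hg) (ok hb) e9, ← permOf_mul gb (ok ha) (ok hg) e10]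

theorem no_kernel_prime {Γ : Type} [Group Γ] [Finite Γ] (σ : Γ →* Cfsg.Spor.M11)
    (hσ : Cfsg.IsStemExtension σ) {z : Γ} (hz : z ∈ σ.ker) {p : ℕ} (hp : p.Prime)
    (hzo : orderOf z = p) : False := by
  haveI := Fact.mk hp
  have hne : ∀ {q k : ℕ}, q.Prime → q ^ k ∣ 7920 → ¬ q ^ (k + 1) ∣ 7920 →
      ∀ S : Sylow q Cfsg.Spor.M11, Nat.card S = q ^ k := by
    intro q k hq h1 h2 S
    haveI := Fact.mk hq
    obtain ⟨m, hm⟩ := (IsPGroup.iff_card).1 S.isPGroup'
    rw [hm]
    congr 1
    have hd : Nat.card (S : Subgroup Cfsg.Spor.M11) ∣ 7920 := spor_M11_card ▸ Subgroup.card_subgroup_dvd_card _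
    rw [hm] at hd
    refine le_antisymm ?_ ?_
    · by_contra h
      exact h2 ((pow_dvd_pow q (by omega)).trans hd)
    · refine (Nat.pow_dvd_pow_iff_le_right hq.one_lt).1 ?_
      rw [← hm]
      exact S.pow_dvd_card_of_pow_dvd_card (spor_M11_card.symm ▸ h1)
  by_cases h2 : p = 2
  · subst h2
    obtain ⟨x, y, hx, hy, hyx⟩ := exists_qd_pair
    norm_num at hx hyx
    set T := Subgroup.closure ({x, y} : Set Cfsg.Spor.M11) with hT
    have hxT : Subgroup.zpowers x ≤ T := by rw [Subgroup.zpowers_le]; exact Subgroup.subset_closure (by simp)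
    have hpT : IsPGroup 2 T := by
      have hpx : IsPGroup 2 (Subgroup.zpowers x) := IsPGroup.of_card (n := 3) (by rw [Nat.card_zpowers, hx]; norm_num)
      have hpy : IsPGroup 2 (Subgroup.zpowers y) := IsPGroup.of_card (n := 1) (by rw [Nat.card_zpowers, hy, pow_one])
      have hnorm : Subgroup.zpowers y ≤ Subgroup.normalizer (Subgroup.zpowers x : Set Cfsg.Spor.M11) := by
        rw [Subgroup.zpowers_le]
        refine Subgroup.mem_normalizer_fintype fun z hz => ?_
        obtain ⟨i, rfl⟩ := Subgroup.mem_zpowers_iff.mp hz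
        rw [SetLike.mem_coe, ← conj_zpow, hyx]
        exact zpow_mem (pow_mem (Subgroup.mem_zpowers x) _) i
      refine (hpx.to_sup_of_normal_left' hpy hnorm).to_le ?_
      rw [hT, Subgroup.closure_le]
      rintro w (rfl | rfl)
      · exact Subgroup.mem_sup_left (Subgroup.mem_zpowers _)
      · exact Subgroup.mem_sup_right (Subgroup.mem_zpowers _)
    obtain ⟨S, hS⟩ := hpT.exists_le_sylow
    refine Cfsg.Agent.FGS4.SchurSylow.stem_false_semidihedral hσ S (x := x) (y := y) ?_ hx hy hyx hz hzo
    refine (Subgroup.eq_of_le_of_card_ge hS ?_).symm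
    rw [hne Nat.prime_two (k := 4) (by norm_num) (by norm_num) S]
    obtain ⟨n, hn⟩ := (IsPGroup.iff_card).1 hpT
    by_contra hlt
    have hyn : y ∉ Subgroup.zpowers x := by
      intro h
      have hyxc : y * x = x * y := (Subgroup.mem_zpowers_iff.1 h).elim fun i hi => hi ▸ ((Commute.refl x).zpow_left i).eq
      rw [hyxc, mul_inv_cancel_right] at hyx
      have : x ^ 2 = 1 := mul_eq_left.1 (show x * x ^ 2 = x from by rw [← pow_succ']; exact hyx.symm)
      have := orderOf_dvd_of_pow_eq_one this
      rw [hx] at this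
      norm_num at this
    have hlt' : Subgroup.zpowers x < T := lt_of_le_of_ne hxT fun h => hyn (h ▸ Subgroup.subset_closure (by simp))
    have h8 : 8 < Nat.card T := by
      refine lt_of_lt_of_eq ?_ rfl
      rw [← hx, ← Nat.card_zpowers]
      exact lt_of_le_of_ne (Subgroup.card_le_of_le hxT) fun h => hlt'.ne (Subgroup.eq_of_le_of_card_ge hxT h.ge)
    rw [hn] at h8 hlt
    have : n ≤ 3 := by
      by_contra hh
      exact hlt (Nat.pow_le_pow_right (by norm_num) (by omega))
    have := Nat.pow_le_pow_right (n := 2) (by norm_num) this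
    omega
  by_cases h3 : p = 3
  · subst h3
    obtain ⟨a, b, g, ha, hb, ha1, hba, hab, hg1, hg2⟩ := exists_swap_triple
    set T := Subgroup.closure ({a, b} : Set Cfsg.Spor.M11) with hT
    have hpT : IsPGroup 3 T := by
      intro w
      refine ⟨1, ?_⟩
      apply Subtype.ext
      show (w : Cfsg.Spor.M11) ^ (3 ^ 1) = 1
      have hc := Subgroup.isMulCommutative_closure (k := ({a, b} : Set Cfsg.Spor.M11)) (by
        rintro u (rfl | rfl) v (rfl | rfl) <;> first | rfl | exact hab | exact hab.symm)
      rw [pow_one]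
      obtain ⟨w, hw⟩ := w
      show w ^ 3 = 1
      induction hw using Subgroup.closure_induction with
      | mem u hu => rcases hu with rfl | rfl <;> assumption
      | one => exact one_pow 3
      | mul u v hu hv ihu ihv =>
        have huv : Commute u v := congrArg Subtype.val (hc.is_comm.comm ⟨u, hu⟩ ⟨v, hv⟩)
        rw [huv.mul_pow, ihu, ihv, one_mul]
      | inv u hu ihu => rw [inv_pow, ihu, inv_one]
    obtain ⟨S, hS⟩ := hpT.exists_le_sylow
    refine Cfsg.Agent.FGS4.SchurSylow.stem_false_swap hσ h2 S (u := a) (v := b) (g := g) ?_ ha hab hg1 hg2 hz hzo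
    refine (Subgroup.eq_of_le_of_card_ge hS ?_).symm
    rw [hne Nat.prime_three (k := 2) (by norm_num) (by norm_num) S]
    obtain ⟨n, hn⟩ := (IsPGroup.iff_card).1 hpT
    by_contra hlt
    have hle : Subgroup.zpowers a ≤ T := by rw [Subgroup.zpowers_le]; exact Subgroup.subset_closure (by simp)
    have h3' : 3 < Nat.card T := by
      have ho : orderOf a = 3 := orderOf_eq_prime ha ha1
      rw [← ho, ← Nat.card_zpowers]
      refine lt_of_le_of_ne (Subgroup.card_le_of_le hle) fun h => hba ?_
      rw [Subgroup.eq_of_le_of_card_ge hle h.ge]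
      exact Subgroup.subset_closure (by simp)
    rw [hn] at h3' hlt
    have : n ≤ 1 := by
      by_contra hh
      exact hlt (Nat.pow_le_pow_right (by norm_num) (by omega))
    have := Nat.pow_le_pow_right (n := 3) (by norm_num) this
    omega
  obtain ⟨S⟩ := Sylow.nonempty (p := p) (G := Cfsg.Spor.M11)
  refine Cfsg.Agent.FGS4.SchurSylow.stem_false_cyclic hσ S ?_ hz hzo
  have hnd : ¬ p ^ 2 ∣ 7920 := by
    intro hd
    have hle : p ≤ 88 := by
      by_contra h
      have := Nat.le_of_dvd (by norm_num) hd
      nlinarith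
    interval_cases p <;> first | omega | (norm_num at hp) | (norm_num at hd)
  by_cases hpd : p ∣ 7920
  · exact isCyclic_of_prime_card (p := p) (by rw [hne hp (k := 1) (by rwa [pow_one]) hnd S, pow_one])
  · have h0 := hne hp (k := 0) (by simp) (by rwa [pow_one]) S
    rw [pow_zero] at h0
    haveI : Subsingleton (S : Subgroup Cfsg.Spor.M11) := (Nat.card_eq_one_iff_unique.1 h0).1
    infer_instance

/-- The Schur multiplier of the Mathieu group M₁₁ (the stabiliser of a dodecad and one of its points in the automorphism group of the length-24 binary code) is trivial; here the Schur multiplier is described through stem extensions, as in the definitions: surjective homomorphisms onto the group from a finite group, whose kernel is central in that finite group and contained in that finite group's commutator subgroup. -/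
theorem result : Cfsg.HasCyclicSchurMultiplier ↥Cfsg.Spor.M11 1 := by
  apply Cfsg.Agent.FGS2.hasCyclic_one_of_stem_ker_eq_bot
  intro Γ _ _ σ hσ
  by_contra hne
  obtain ⟨q, hq, hqd⟩ := Nat.exists_prime_and_dvd (mt Subgroup.card_eq_one.1 hne)
  haveI := Fact.mk hq
  obtain ⟨⟨z, hz⟩, hzo⟩ := exists_prime_orderOf_dvd_card' q hqd
  exact no_kernel_prime σ hσ hz hq (by rwa [← Subgroup.orderOf_coe] at hzo)

end Cfsg.Agent.S2034
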