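import Cfsg.Statements.S2035
import Cfsg.Agent.FGS4.SchurSylow.Lifts
import Cfsg.Agent.FGS4.M12Schur.Data
import Cfsg.Agent.FGS4.M12Schur.Two
import Cfsg.Agent.FGS4.M12Schur.Cover

set_option autoImplicit false
open Cfsg

namespace Cfsg.Agent.S2035
open Cfsg.Agent.FGS4.M12Schur Cfsg.Agent.FGS4.SchurSylow Cfsg.Agent.Golay
open scoped commutatorElement

set_option maxHeartbeats 2000000

theorem sylow_card {p k : ℕ} (hp : p.Prime) (h1 : p ^ k ∣ 95040) (h2 : ¬ p ^ (k + 1) ∣ 95040)
    (S : Sylow p Cfsg.Spor.M12) : Nat.card S = p ^ k := by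
  haveI := Fact.mk hp
  obtain ⟨m, hm⟩ := (IsPGroup.iff_card).1 S.isPGroup'
  rw [hm]
  congr 1
  have hd : Nat.card (S : Subgroup Cfsg.Spor.M12) ∣ 95040 :=
    Cfsg.Agent.Golay.spor_M12_card ▸ Subgroup.card_subgroup_dvd_card _
  rw [hm] at hd
  refine le_antisymm ?_ ?_
  · by_contra h
    exact h2 ((pow_dvd_pow p (by omega)).trans hd)
  · refine (Nat.pow_dvd_pow_iff_le_right hp.one_lt).1 ?_
    rw [← hm]
    exact S.pow_dvd_card_of_pow_dvd_card (Cfsg.Agent.Golay.spor_M12_card.symm ▸ h1)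

theorem three_sylow {u v w : Cfsg.Spor.M12} (hu : u ^ 3 = 1) (hv : v ^ 3 = 1) (hw : w ^ 3 = 1)
    (hcomm : ⁅u, v⁆ = w) (huw : u * w = w * u) (hvw : v * w = w * v) (hw1 : w ≠ 1) :
    ∃ S : Sylow 3 Cfsg.Spor.M12, (S : Subgroup Cfsg.Spor.M12) = Subgroup.closure {u, v} := by
  haveI : Fact (Nat.Prime 3) := ⟨Nat.prime_three⟩
  have pz : ∀ {x : Cfsg.Spor.M12}, x ^ 3 = 1 → IsPGroup 3 (Subgroup.zpowers x) := by
    rintro x hx ⟨y, i, rfl⟩
    refine ⟨1, Subtype.ext ?_⟩
    show (x ^ i) ^ (3 ^ 1) = 1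
    rw [pow_one, ← zpow_natCast, ← zpow_mul, mul_comm, zpow_mul, zpow_natCast, hx, one_zpow]
  set A := Subgroup.closure ({w, v} : Set Cfsg.Spor.M12) with hA
  have hwA : w ∈ A := Subgroup.subset_closure (by simp)
  have hvA : v ∈ A := Subgroup.subset_closure (by simp)
  have hAc : ∀ x ∈ A, ∀ y ∈ A, x * y = y * x := by
    have hc := Subgroup.isMulCommutative_closure (k := ({w, v} : Set Cfsg.Spor.M12)) (by
      rintro a (rfl | rfl) b (rfl | rfl) <;> first | rfl | exact hvw | exact hvw.symm)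
    exact fun x hx y hy => congrArg Subtype.val (hc.is_comm.comm ⟨x, hx⟩ ⟨y, hy⟩)
  have hAp : IsPGroup 3 A := by
    rintro ⟨x, hx⟩
    refine ⟨1, Subtype.ext ?_⟩
    show x ^ (3 ^ 1) = 1
    rw [pow_one]
    induction hx using Subgroup.closure_induction with
    | mem a ha => rcases ha with rfl | rfl <;> assumption
    | one => exact one_pow 3
    | mul a b ha hb iha ihb => rw [(show Commute a b from hAc a ha b hb).mul_pow, iha, ihb, one_mul]
    | inv a ha iha => rw [inv_pow, iha, inv_one]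
  have hnorm : Subgroup.zpowers u ≤ Subgroup.normalizer (A : Set Cfsg.Spor.M12) := by
    rw [Subgroup.zpowers_le]
    refine Subgroup.mem_normalizer_fintype fun x hx => ?_
    have hle : A ≤ A.comap (MulAut.conj u).toMonoidHom := by
      rw [hA, Subgroup.closure_le]
      rintro y (rfl | rfl)
      · show u * y * u⁻¹ ∈ A
        rw [huw, mul_inv_cancel_right]; exact hwA
      · show u * y * u⁻¹ ∈ A
        have e : u * y * u⁻¹ = w * y := by rw [← hcomm, commutatorElement_def]; group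
        rw [e]; exact mul_mem hwA hvA
    exact hle hx
  have hT : IsPGroup 3 ↥(A ⊔ Subgroup.zpowers u) := hAp.to_sup_of_normal_left' (pz hu) hnorm
  obtain ⟨S, hS⟩ := hT.exists_le_sylow
  have hle : Subgroup.closure ({u, v} : Set Cfsg.Spor.M12) ≤ A ⊔ Subgroup.zpowers u := by
    rw [Subgroup.closure_le]
    rintro y (rfl | rfl)
    · exact Subgroup.mem_sup_right (Subgroup.mem_zpowers y)
    · exact Subgroup.mem_sup_left hvA
  refine ⟨S, ?_⟩
  set T := Subgroup.closure ({u, v} : Set Cfsg.Spor.M12) with hTd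
  have huT : u ∈ T := Subgroup.subset_closure (by simp)
  have hvT : v ∈ T := Subgroup.subset_closure (by simp)
  have hAT : A ≤ T := by
    rw [hA, Subgroup.closure_le]
    rintro y (rfl | rfl)
    · rw [SetLike.mem_coe, ← hcomm, commutatorElement_def]
      exact mul_mem (mul_mem (mul_mem huT hvT) (inv_mem huT)) (inv_mem hvT)
    · exact hvT
  have hne : ¬ u * v = v * u := fun e => hw1 (by rw [← hcomm, commutatorElement_eq_one_iff_mul_comm.2 e])
  have hlt1 : Subgroup.zpowers w < A := lt_of_le_of_ne (Subgroup.zpowers_le.2 hwA) fun e => hne (by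
    obtain ⟨i, hi⟩ := Subgroup.mem_zpowers_iff.1 (e.symm ▸ hvA : v ∈ Subgroup.zpowers w)
    rw [← hi]
    exact ((show Commute u w from huw).zpow_right i).eq)
  have hlt2 : A < T := lt_of_le_of_ne hAT fun e => hne (hAc u (e.symm ▸ huT) v hvA)
  have hTp : IsPGroup 3 T := hT.to_le hle
  refine (Subgroup.eq_of_le_of_card_ge (hle.trans hS) ?_).symm
  rw [sylow_card Nat.prime_three (k := 3) (by norm_num) (by norm_num) S]
  have strict : ∀ {H K : Subgroup Cfsg.Spor.M12}, H < K → Nat.card H < Nat.card K := fun {H K} h =>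
    lt_of_le_of_ne (Subgroup.card_le_of_le h.le) fun e => h.ne (Subgroup.eq_of_le_of_card_ge h.le e.ge)
  have c1 := strict hlt1
  have c2 := strict hlt2
  rw [Nat.card_zpowers, orderOf_eq_prime hw hw1] at c1
  obtain ⟨a, ha⟩ := (IsPGroup.iff_card).1 hAp
  obtain ⟨t, ht⟩ := (IsPGroup.iff_card).1 hTp
  rw [ha] at c1 c2
  rw [ht] at c2 ⊢
  have h1a : 1 < a := by
    by_contra hh
    have := Nat.pow_le_pow_right (n := 3) (by norm_num) (show a ≤ 1 by omega)
    omega
  have h2t : a < t := (Nat.pow_lt_pow_iff_right (by norm_num)).1 c2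
  exact Nat.pow_le_pow_right (by norm_num) (by omega)



theorem card_gens : Nat.card (Subgroup.closure ({g_c0, g_c1, g_c2, g_c3, g_c4, g_c5} : Set Cfsg.Spor.M12)) = 64 := by
  refine le_antisymm ?_ gens_card_ge
  have b5 : Nat.card (Subgroup.closure ({g_c5} : Set Cfsg.Spor.M12)) ≤ 2 := by
    have := card_closure_insert_le (s := (∅ : Set Cfsg.Spor.M12)) rel20 (fun x hx => hx.elim)
    rwa [insert_empty_eq, Subgroup.closure_empty, Subgroup.card_bot, mul_one] at this
  have b4 := card_closure_insert_le (s := ({g_c5} : Set Cfsg.Spor.M12)) rel18 (fun x hx => by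
      simp only [Set.mem_insert_iff, Set.mem_singleton_iff] at hx
      rcases hx with rfl
      · rw [rel19]; exact (Subgroup.subset_closure (by simp)))
  have b3 := card_closure_insert_le (s := ({g_c4, g_c5} : Set Cfsg.Spor.M12)) rel15 (fun x hx => by
      simp only [Set.mem_insert_iff, Set.mem_singleton_iff] at hx
      rcases hx with rfl | rfl
      · rw [rel16]; exact (Subgroup.subset_closure (by simp))
      · rw [rel17]; exact (Subgroup.subset_closure (by simp)))
  have b2 := card_closure_insert_le (s := ({g_c3, g_c4, g_c5} : Set Cfsg.Spor.M12)) rel11 (fun x hx => by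
      simp only [Set.mem_insert_iff, Set.mem_singleton_iff] at hx
      rcases hx with rfl | rfl | rfl
      · rw [rel12]; exact (mul_mem (Subgroup.subset_closure (by simp)) (Subgroup.subset_closure (by simp)))
      · rw [rel13]; exact (Subgroup.subset_closure (by simp))
      · rw [rel14]; exact (Subgroup.subset_closure (by simp)))
  have b1 := card_closure_insert_le (s := ({g_c2, g_c3, g_c4, g_c5} : Set Cfsg.Spor.M12)) rel6 (fun x hx => by
      simp only [Set.mem_insert_iff, Set.mem_singleton_iff] at hx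
      rcases hx with rfl | rfl | rfl | rfl
      · rw [rel7]; exact (Subgroup.subset_closure (by simp))
      · rw [rel8]; exact (Subgroup.subset_closure (by simp))
      · rw [rel9]; exact (Subgroup.subset_closure (by simp))
      · rw [rel10]; exact (mul_mem (Subgroup.subset_closure (by simp)) (Subgroup.subset_closure (by simp))))
  have b0 := card_closure_insert_le (s := ({g_c1, g_c2, g_c3, g_c4, g_c5} : Set Cfsg.Spor.M12)) rel0 (fun x hx => by
      simp only [Set.mem_insert_iff, Set.mem_singleton_iff] at hx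
      rcases hx with rfl | rfl | rfl | rfl | rfl
      · rw [rel1]; exact (Subgroup.subset_closure (by simp))
      · rw [rel2]; exact (mul_mem (mul_mem (Subgroup.subset_closure (by simp)) (Subgroup.subset_closure (by simp))) (Subgroup.subset_closure (by simp)))
      · rw [rel3]; exact (mul_mem (Subgroup.subset_closure (by simp)) (Subgroup.subset_closure (by simp)))
      · rw [rel4]; exact (Subgroup.subset_closure (by simp))
      · rw [rel5]; exact (mul_mem (mul_mem (mul_mem (Subgroup.subset_closure (by simp)) (Subgroup.subset_closure (by simp))) (Subgroup.subset_closure (by simp))) (Subgroup.subset_closure (by simp))))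
  omega

theorem cube {x : Cfsg.Spor.M12} (h : x * x * x = 1) : x ^ 3 = 1 := by rw [pow_succ, pow_two, h]

theorem hu3 : g_u3 ^ 3 = 1 := cube (by simpa [mul_assoc] using rel23)
theorem hv3 : g_v3 ^ 3 = 1 := cube (by simpa [mul_assoc] using rel24)
theorem hw3 : g_w3 ^ 3 = 1 := cube (by simpa [mul_assoc] using rel25)

theorem hcomm3 : ⁅g_u3, g_v3⁆ = g_w3 := by
  rw [commutatorElement_def, rel26]; group

theorem no_kernel_three {Γ : Type} [Group Γ] [Finite Γ] (σ : Γ →* Cfsg.Spor.M12)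
    (hσ : Cfsg.IsStemExtension σ) {z : Γ} (hz : z ∈ σ.ker) (hzo : orderOf z = 3) : False := by
  haveI : Fact (Nat.Prime 3) := ⟨Nat.prime_three⟩
  obtain ⟨S, hS⟩ := three_sylow hu3 hv3 hw3 hcomm3 rel27 rel28 w3_ne
  have hg1 : g_gu * g_u3 * g_gu⁻¹ = g_u3⁻¹ := by
    have h := rel29
    rw [mul_inv_eq_iff_eq_mul, eq_inv_mul_iff_mul_eq, ← mul_assoc]
    exact h
  have hh1 : g_gv * g_v3 * g_gv⁻¹ = g_v3⁻¹ := by
    have h := rel31
    rw [mul_inv_eq_iff_eq_mul, eq_inv_mul_iff_mul_eq, ← mul_assoc]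
    exact h
  exact stem_false_extraspecial hσ (by norm_num) S (u := g_u3) (v := g_v3) (g := g_gu) (h := g_gv) hS hu3 hv3
    (by rw [hcomm3, hw3]) (by rw [hcomm3]; exact w3_ne) (by rw [hcomm3]; exact rel27)
    (by rw [hcomm3]; exact rel28) hg1 (by rw [hcomm3]; exact rel30) hh1
    (by rw [hcomm3]; exact rel32) hz hzo

theorem no_kernel_two {Γ : Type} [Group Γ] [Finite Γ] (σ : Γ →* Cfsg.Spor.M12)
    (hσ : Cfsg.IsStemExtension σ) {z : Γ} (hz : z ∈ σ.ker) (hzo : orderOf z = 2)
    (hker : ∀ w ∈ σ.ker, w * w = 1) (hA : ∃ U : Γ, σ U = g_a0 ∧ U * U = 1) : False := by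
  haveI : Fact (Nat.Prime 2) := ⟨Nat.prime_two⟩
  have sq_one_a0 : ∀ {q : Cfsg.Spor.M12}, (∃ k, k * g_a0 * k⁻¹ = q) → ∀ {X : Γ}, σ X = q → X * X = 1 := by
    intro q hq X hX
    obtain ⟨U, hU, hU1⟩ := hA
    rw [sq_eq_of_isConj hσ hker rel21 hq hU hX, hU1]
  have lift_b0 : ∀ U : Γ, σ U = g_b0 → U * U = 1 := fun U hU =>
    lift_involution hσ hker rel22 cert16 cert17 cert18 cert19 cert20 cert21 cert22 hU
  have sq_one_b0 : ∀ {q : Cfsg.Spor.M12}, (∃ k, k * g_b0 * k⁻¹ = q) → ∀ {X : Γ}, σ X = q → X * X = 1 := by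
    intro q hq X hX
    obtain ⟨U, hU⟩ := hσ.1 g_b0
    rw [sq_eq_of_isConj hσ hker rel22 hq hU hX, lift_b0 U hU]
  have hpT : IsPGroup 2 (Subgroup.closure ({g_c0, g_c1, g_c2, g_c3, g_c4, g_c5} : Set Cfsg.Spor.M12)) :=
    IsPGroup.of_card (n := 6) (by rw [card_gens]; norm_num)
  obtain ⟨S, hS⟩ := hpT.exists_le_sylow
  refine stem_false_two hσ (r02 := rel2) (r03 := rel3) (r05 := rel5) (r15 := rel10) (r23 := rel12) card_gens S ?_ hz hzo hker ?_
  · refine (Subgroup.eq_of_le_of_card_ge hS ?_).symm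
    rw [card_gens, sylow_card Nat.prime_two (k := 6) (by norm_num) (by norm_num) S]
    norm_num
  · intro X hX
    simp only [invols, List.mem_cons, List.not_mem_nil, or_false] at hX
    rcases hX with hX | hX | hX | hX | hX | hX | hX | hX | hX | hX | hX | hX | hX | hX | hX | hX
    · exact sq_one_b0 cert0 hX
    · exact sq_one_b0 cert1 hX
    · exact sq_one_a0 cert2 hX
    · exact sq_one_b0 cert3 hX
    · exact sq_one_b0 cert4 hX
    · exact sq_one_a0 cert5 hX
    · exact sq_one_b0 cert6 hX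
    · exact sq_one_b0 cert7 hX
    · exact sq_one_a0 cert8 hX
    · exact sq_one_b0 cert9 hX
    · exact sq_one_b0 cert10 hX
    · exact sq_one_a0 cert11 hX
    · exact sq_one_a0 cert12 hX
    · exact sq_one_b0 cert13 hX
    · exact sq_one_a0 cert14 hX
    · exact sq_one_a0 cert15 hX

theorem ker_prime {Γ : Type} [Group Γ] [Finite Γ] (σ : Γ →* Cfsg.Spor.M12)
    (hσ : Cfsg.IsStemExtension σ) {z : Γ} (hz : z ∈ σ.ker) {q : ℕ} (hq : q.Prime)
    (hzo : orderOf z = q) : q = 2 := by
  haveI := Fact.mk hq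
  by_contra h2
  by_cases h3 : q = 3
  · subst h3; exact no_kernel_three σ hσ hz hzo
  obtain ⟨S⟩ := Sylow.nonempty (p := q) (G := Cfsg.Spor.M12)
  refine stem_false_cyclic hσ S ?_ hz hzo
  by_cases hqd' : q ∣ 95040
  · have hmem : q = 5 ∨ q = 11 := by
      rw [show (95040 : ℕ) = 2 ^ 6 * 3 ^ 3 * 5 * 11 by norm_num] at hqd'
      have hd : ∀ {r : ℕ}, r.Prime → q ∣ r → q = r := fun hr h => (Nat.prime_dvd_prime_iff_eq hq hr).1 h
      rcases (Nat.Prime.dvd_mul hq).1 hqd' with h | h
      rotate_left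
      · exact Or.inr (hd (by norm_num) h)
      rcases (Nat.Prime.dvd_mul hq).1 h with h | h
      rotate_left
      · exact Or.inl (hd (by norm_num) h)
      rcases (Nat.Prime.dvd_mul hq).1 h with h | h
      · exact absurd (hd Nat.prime_two (hq.dvd_of_dvd_pow h)) h2
      · exact absurd (hd Nat.prime_three (hq.dvd_of_dvd_pow h)) h3
    have hnd : ¬ q ^ (1 + 1) ∣ 95040 := by rcases hmem with rfl | rfl <;> norm_num
    exact isCyclic_of_prime_card (p := q) (by
      rw [sylow_card hq (k := 1) (by rwa [pow_one]) hnd S, pow_one])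
  · have h0 := sylow_card hq (k := 0) (by simp) (by rwa [pow_one]) S
    rw [pow_zero] at h0
    haveI : Subsingleton (S : Subgroup Cfsg.Spor.M12) := (Nat.card_eq_one_iff_unique.1 h0).1
    infer_instance

theorem abel_key {A : Type} [CommGroup A] {w a b c t : A}
    (e : w * (c * c) = t * ((w * (a * a)) * (w * (b * b)))) (ht : t * t = 1) :
    w * w = (c * (a * b)⁻¹) * (c * (a * b)⁻¹) * ((c * (a * b)⁻¹) * (c * (a * b)⁻¹)) := by
  apply Additive.ofMul.injective
  have e' := congrArg Additive.ofMul e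
  have ht' := congrArg Additive.ofMul ht
  simp only [ofMul_mul, ofMul_one, ofMul_inv] at e' ht' ⊢
  linear_combination (norm := module) (-2 : ℤ) • e' - ht'

theorem ker_le_two {Γ : Type} [Group Γ] [Finite Γ] (σ : Γ →* Cfsg.Spor.M12)
    (hσ : Cfsg.IsStemExtension σ) : ∃ w : σ.ker, w * w = 1 ∧ ∀ x : σ.ker, x = 1 ∨ x = w := by
  have hc : ∀ w ∈ σ.ker, ∀ y : Γ, y * w = w * y := fun w hw => Subgroup.mem_center_iff.1 (hσ.2.1 hw)
  have hcomm : ∀ x y : σ.ker, x * y = y * x := fun x y => Subtype.ext (hc _ y.2 x)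
  obtain ⟨U, hU⟩ := hσ.1 g_a0
  set w : σ.ker := ⟨U * U, by rw [MonoidHom.mem_ker, map_mul, hU, rel21]⟩ with hwdef
  let sqr : σ.ker →* σ.ker :=
    { toFun := fun x => x * x
      map_one' := one_mul 1
      map_mul' := fun x y => by
        calc x * y * (x * y) = x * (y * x) * y := by simp [mul_assoc]
          _ = x * x * (y * y) := by rw [hcomm y x]; simp [mul_assoc] }
  set N : Subgroup σ.ker := sqr.range ⊔ Subgroup.zpowers w with hN
  have step1 : N = ⊤ := by
    by_contra hne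
    obtain ⟨u, hu⟩ : ∃ u, u ∉ N := by
      by_contra h
      push Not at h
      exact hne (eq_top_iff.2 fun x _ => h x)
    set M : Subgroup Γ := N.map σ.ker.subtype with hM
    have hMk : M ≤ σ.ker := Subgroup.map_subtype_le _
    haveI hMn : M.Normal := ⟨fun n hn g => by rwa [hc n (hMk hn) g, mul_inv_cancel_right]⟩
    let τ := QuotientGroup.lift M σ hMk
    have hτk : ∀ q ∈ τ.ker, ∃ x ∈ σ.ker, QuotientGroup.mk' M x = q := by
      intro q hq
      obtain ⟨x, rfl⟩ := QuotientGroup.mk'_surjective M q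
      exact ⟨x, hq, rfl⟩
    have hτ : Cfsg.IsStemExtension τ := by
      refine ⟨fun q => ?_, ?_, ?_⟩
      · obtain ⟨x, hx⟩ := hσ.1 q
        exact ⟨QuotientGroup.mk' M x, hx⟩
      · intro q hq
        obtain ⟨x, hx, rfl⟩ := hτk q hq
        refine Subgroup.mem_center_iff.2 fun y => ?_
        obtain ⟨y, rfl⟩ := QuotientGroup.mk'_surjective M y
        rw [← map_mul, ← map_mul, hc x hx y]
      · intro q hq
        obtain ⟨x, hx, rfl⟩ := hτk q hq
        have := Subgroup.mem_map_of_mem (QuotientGroup.mk' M) (hσ.2.2 hx)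
        rw [commutator_def, Subgroup.map_commutator,
          Subgroup.map_top_of_surjective _ (QuotientGroup.mk'_surjective M), ← commutator_def] at this
        exact this
    have hsq : ∀ q ∈ τ.ker, q * q = 1 := by
      intro q hq
      obtain ⟨x, hx, rfl⟩ := hτk q hq
      rw [← map_mul, QuotientGroup.mk'_apply, QuotientGroup.eq_one_iff]
      exact ⟨sqr ⟨x, hx⟩, Subgroup.mem_sup_left ⟨_, rfl⟩, rfl⟩
    have hu' : QuotientGroup.mk' M (u : Γ) ≠ 1 := by
      intro h
      rw [QuotientGroup.mk'_apply, QuotientGroup.eq_one_iff] at h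
      obtain ⟨v, hv, hvu⟩ := h
      exact hu (Subtype.ext hvu ▸ hv)
    refine no_kernel_two τ hτ (z := QuotientGroup.mk' M (u : Γ)) u.2
      (orderOf_eq_prime (by rw [pow_two]; exact hsq _ u.2) hu') hsq
      ⟨QuotientGroup.mk' M U, hU, ?_⟩
    rw [← map_mul, QuotientGroup.mk'_apply, QuotientGroup.eq_one_iff]
    exact ⟨w, Subgroup.mem_sup_right (Subgroup.mem_zpowers w), rfl⟩
  -- the square of a lift of a four-group involution gives `w² ∈ (K²)²`
  have hww : ∃ k : σ.ker, w * w = (k * k) * (k * k) := by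
    obtain ⟨A, hA⟩ := hσ.1 g_a0
    obtain ⟨B, hB⟩ := hσ.1 g_a1
    have conjsq : ∀ {X : Γ} {q : Cfsg.Spor.M12}, σ X = q → (∃ k, k * g_a0 * k⁻¹ = q) →
        ∃ k : σ.ker, X * X = (w : Γ) * ((k : Γ) * k) := by
      intro X q hX hq
      obtain ⟨g, hg⟩ := hq
      obtain ⟨K, rfl⟩ := hσ.1 g
      obtain ⟨k, hk, rfl⟩ : ∃ k ∈ σ.ker, X = K * U * K⁻¹ * k := ⟨(K * U * K⁻¹)⁻¹ * X, by
        rw [MonoidHom.mem_ker, map_mul, map_inv, map_mul, map_mul, map_inv, hU, hX, hg, inv_mul_cancel],
        (mul_inv_cancel_left _ _).symm⟩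
      refine ⟨⟨k, hk⟩, ?_⟩
      calc K * U * K⁻¹ * k * (K * U * K⁻¹ * k) = K * U * K⁻¹ * (k * (K * U * K⁻¹)) * k := by group
        _ = K * (U * U) * K⁻¹ * (k * k) := by rw [← hc k hk]; group
        _ = _ := by rw [hc _ w.2 K, mul_inv_cancel_right]
    obtain ⟨ka, ea⟩ := conjsq hA cert23
    obtain ⟨kb, eb⟩ := conjsq hB cert24
    obtain ⟨kc, ec⟩ := conjsq (X := A * B) (by rw [map_mul, hA, hB]) cert25
    have hA2 : A * A ∈ σ.ker := by rw [ea]; exact mul_mem w.2 (mul_mem ka.2 ka.2)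
    have hab : σ A * σ B = σ B * σ A := by
      rw [hA, hB]
      have h1 : g_a0 * g_a0 = 1 := rel21
      have h2 : g_a1 * g_a1 = 1 := by
        obtain ⟨g, hg⟩ := cert24
        rw [← hg]
        calc g * g_a0 * g⁻¹ * (g * g_a0 * g⁻¹) = g * (g_a0 * g_a0) * g⁻¹ := by group
          _ = 1 := by rw [h1]; group
      have h3 : (g_a0 * g_a1) * (g_a0 * g_a1) = 1 := by
        obtain ⟨g, hg⟩ := cert25
        rw [← hg]
        calc g * g_a0 * g⁻¹ * (g * g_a0 * g⁻¹) = g * (g_a0 * g_a0) * g⁻¹ := by group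
          _ = 1 := by rw [h1]; group
      exact (commute_of_sq h1 h2 h3).symm
    have ht : ⁅A, B⁆ ∈ σ.ker := by
      rw [MonoidHom.mem_ker, map_commutatorElement, commutatorElement_eq_one_iff_mul_comm, hab]
    have hconj : A * B * A⁻¹ = ⁅A, B⁆ * B := by rw [commutatorElement_def]; group
    have ht2 : ⁅A, B⁆ * ⁅A, B⁆ = 1 := by
      have h1 : A * A * B * (A * A)⁻¹ = B := by rw [← hc _ hA2 B, mul_inv_cancel_right]
      have h2 : A * A * B * (A * A)⁻¹ = ⁅A, B⁆ * ⁅A, B⁆ * B := by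
        calc A * A * B * (A * A)⁻¹ = A * (A * B * A⁻¹) * A⁻¹ := by group
          _ = ⁅A, B⁆ * (A * B * A⁻¹) := by rw [hconj, ← mul_assoc A, hc _ ht A]; group
          _ = _ := by rw [hconj, ← mul_assoc]
      rw [h1] at h2
      exact mul_eq_right.1 h2.symm
    have e : A * B * (A * B) = ⁅A, B⁆⁻¹ * ((A * A) * (B * B)) := by
      have hBA : B * A = ⁅A, B⁆⁻¹ * (A * B) := by rw [commutatorElement_def]; group
      calc A * B * (A * B) = A * (B * A) * B := by simp [mul_assoc]
        _ = A * (⁅A, B⁆⁻¹ * (A * B)) * B := by rw [hBA]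
        _ = (A * ⁅A, B⁆⁻¹) * (A * B) * B := by simp [mul_assoc]
        _ = (⁅A, B⁆⁻¹ * A) * (A * B) * B := by rw [hc _ (inv_mem ht) A]
        _ = _ := by simp [mul_assoc]
    rw [ea, eb, ec, inv_eq_of_mul_eq_one_right ht2] at e
    have e' : w * (kc * kc) = (⟨_, ht⟩ : σ.ker) * ((w * (ka * ka)) * (w * (kb * kb))) := Subtype.ext e
    letI : CommGroup σ.ker := { (inferInstance : Group σ.ker) with mul_comm := hcomm }
    exact ⟨kc * (ka * kb)⁻¹, abel_key e' (Subtype.ext ht2)⟩
  have hx : ∀ x : σ.ker, ∃ k i, x = k * k * w ^ (i : ℤ) := by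
    intro x
    have hxN : x ∈ N := step1 ▸ Subgroup.mem_top x
    letI : CommGroup σ.ker := { (inferInstance : Group σ.ker) with mul_comm := hcomm }
    obtain ⟨a, ⟨k, rfl⟩, b, ⟨i, rfl⟩, rfl⟩ := Subgroup.mem_sup.1 hxN
    exact ⟨k, i, rfl⟩
  have hexp : ∀ x : σ.ker, x * x = 1 := by
    letI : CommGroup σ.ker := { (inferInstance : Group σ.ker) with mul_comm := hcomm }
    obtain ⟨k0, hk0⟩ := hww
    have hsurj : ∀ y ∈ sqr.range, ∃ v ∈ sqr.range, sqr v = y := by
      rintro _ ⟨x, rfl⟩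
      obtain ⟨k, i, rfl⟩ := hx x
      refine ⟨k * k * (k0 * k0) ^ i, mul_mem ⟨k, rfl⟩ (sqr.range.zpow_mem ⟨k0, rfl⟩ i), ?_⟩
      show k * k * (k0 * k0) ^ i * (k * k * (k0 * k0) ^ i) = k * k * w ^ i * (k * k * w ^ i)
      calc k * k * (k0 * k0) ^ i * (k * k * (k0 * k0) ^ i)
          = (k * k) * (k * k) * ((k0 * k0) * (k0 * k0)) ^ i := by simp only [mul_zpow]; ac_rfl
        _ = (k * k) * (k * k) * (w * w) ^ i := by rw [hk0]
        _ = _ := by simp only [mul_zpow]; ac_rfl
    intro x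
    by_contra hxx
    have hne : sqr.range ≠ ⊥ := fun h => hxx (Subgroup.mem_bot.1 (h ▸ ⟨x, rfl⟩ : x * x ∈ (⊥ : Subgroup σ.ker)))
    obtain ⟨q, hq, hqd⟩ := Nat.exists_prime_and_dvd (mt Subgroup.card_eq_one.1 hne)
    haveI := Fact.mk hq
    obtain ⟨⟨y, hy⟩, hyo⟩ := exists_prime_orderOf_dvd_card' q hqd
    rw [← Subgroup.orderOf_coe] at hyo
    change orderOf y = _ at hyo
    have hq2 : q = 2 := ker_prime σ hσ y.2 hq (by rw [Subgroup.orderOf_coe]; exact hyo)
    subst hq2
    let f : sqr.range → sqr.range := fun v => ⟨sqr v, ⟨v, rfl⟩⟩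
    have hf : Function.Surjective f := fun v => by
      obtain ⟨u, hu, huv⟩ := hsurj v v.2
      exact ⟨⟨u, hu⟩, Subtype.ext huv⟩
    have hinj := Finite.injective_iff_surjective.2 hf
    have h2 : y * y = 1 := by
      have := pow_orderOf_eq_one y
      rwa [hyo, pow_two] at this
    have hy1 : (⟨y, hy⟩ : sqr.range) = 1 := hinj (Subtype.ext (show y * y = 1 * 1 by rw [h2, one_mul]))
    have hy2 : y = 1 := congrArg Subtype.val hy1
    rw [hy2, orderOf_one] at hyo
    exact absurd hyo (by norm_num)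
  refine ⟨w, hexp w, fun x => ?_⟩
  obtain ⟨k, i, rfl⟩ := hx x
  rw [hexp, one_mul]
  rcases Int.even_or_odd i with ⟨j, rfl⟩ | ⟨j, rfl⟩
  · left; rw [← two_mul, zpow_mul, zpow_two, hexp, one_zpow]
  · right; rw [zpow_add, zpow_mul, zpow_two, hexp, one_zpow, one_mul, zpow_one]

theorem cov_stem : ∃ (σ : cov →* Cfsg.Spor.M12), Cfsg.IsStemExtension σ ∧ Nat.card σ.ker = 2 := by
  haveI : Fact (Nat.Prime 2) := ⟨Nat.prime_two⟩
  let σ : cov →* Cfsg.Spor.M12 := (MonoidHom.snd _ _).comp cov.subtype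
  have hs : Function.Surjective σ := by
    rw [← MonoidHom.range_eq_top]
    set R := σ.range
    have mem : ∀ {l : Equiv.Perm Cfsg.GolayPt} {g : Cfsg.Spor.M12}, (l, g) ∈ cov → g ∈ R :=
      fun h => ⟨⟨_, h⟩, rfl⟩
    refine Subgroup.eq_top_of_card_eq _ (Nat.dvd_antisymm (Subgroup.card_subgroup_dvd_card _) ?_)
    rw [Cfsg.Agent.Golay.spor_M12_card, show (95040 : ℕ) = 64 * 27 * 5 * 11 by norm_num]
    have d64 : 64 ∣ Nat.card R := by
      rw [← card_gens]
      refine Subgroup.card_dvd_of_le ?_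
      rw [Subgroup.closure_le]
      simp only [Set.insert_subset_iff, Set.singleton_subset_iff]
      exact ⟨mem mem_cov_c0, mem mem_cov_c1, mem mem_cov_c2, mem mem_cov_c3, mem mem_cov_c4, mem mem_cov_c5⟩
    have d27 : 27 ∣ Nat.card R := by
      haveI : Fact (Nat.Prime 3) := ⟨Nat.prime_three⟩
      obtain ⟨S, hS⟩ := three_sylow hu3 hv3 hw3 hcomm3 rel27 rel28 w3_ne
      rw [show (27 : ℕ) = Nat.card S by rw [sylow_card Nat.prime_three (k := 3) (by norm_num) (by norm_num) S]; norm_num]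
      refine Subgroup.card_dvd_of_le ?_
      rw [hS, Subgroup.closure_le]
      simp only [Set.insert_subset_iff, Set.singleton_subset_iff]
      exact ⟨mem mem_cov_u3, mem mem_cov_v3⟩
    have d5 : 5 ∣ Nat.card R := by
      haveI : Fact (Nat.Prime 5) := ⟨by norm_num⟩
      rw [← orderOf_eq_prime (p := 5) (x := g_p5) (by simpa [pow_succ, mul_assoc] using rel33) p5_ne]
      exact Subgroup.orderOf_dvd_natCard _ (mem mem_cov_p5)
    have d11 : 11 ∣ Nat.card R := by
      haveI : Fact (Nat.Prime 11) := ⟨by norm_num⟩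
      rw [← orderOf_eq_prime (p := 11) (x := g_p11) (by simpa [pow_succ, mul_assoc] using rel34) p11_ne]
      exact Subgroup.orderOf_dvd_natCard _ (mem mem_cov_p11)
    exact Nat.Coprime.mul_dvd_of_dvd_of_dvd (by norm_num)
      (Nat.Coprime.mul_dvd_of_dvd_of_dvd (by norm_num)
        (Nat.Coprime.mul_dvd_of_dvd_of_dvd (by norm_num) d64 d27) d5) d11
  have htau : ((permOf tauC, 1) : Equiv.Perm Cfsg.GolayPt × Cfsg.Spor.M12) ∈ cov := by
    have := mul_mem mem_cov_c2 mem_cov_c2
    rwa [Prod.mk_mul_mk, tau_sq, rel11] at this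
  let t : cov := ⟨_, htau⟩
  have hk : ∀ x ∈ σ.ker, x = 1 ∨ x = t := by
    intro x hx
    have h2 : (x : Equiv.Perm Cfsg.GolayPt × Cfsg.Spor.M12).2 = 1 := hx
    rcases ker_eq x.2 h2 with h | h
    · exact Or.inl (Subtype.ext (Prod.ext h h2))
    · exact Or.inr (Subtype.ext (Prod.ext h h2))
  have htc : ∀ x : cov, x * t = t * x := fun x => Subtype.ext (Prod.ext (inv_cov x.2).2.2 (by
    show (x : Equiv.Perm Cfsg.GolayPt × Cfsg.Spor.M12).2 * 1 = 1 * _
    rw [mul_one, one_mul]))
  have ht2 : t * t = 1 := Subtype.ext (Prod.ext tau_invol (mul_one 1))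
  refine ⟨σ, ⟨hs, fun x hx => ?_, fun x hx => ?_⟩, ?_⟩
  · rcases hk x hx with rfl | rfl
    · exact one_mem _
    · exact Subgroup.mem_center_iff.2 htc
  · haveI := Cfsg.Agent.Golay.spor_M12_simple
    have htop : commutator Cfsg.Spor.M12 = ⊤ := by
      refine ((Subgroup.Normal.eq_bot_or_eq_top (inferInstance : (commutator Cfsg.Spor.M12).Normal))).resolve_left
        fun h => ?_
      have := Subgroup.commutator_mem_commutator (Subgroup.mem_top g_u3) (Subgroup.mem_top g_v3)
      rw [← commutator_def, h, Subgroup.mem_bot, hcomm3] at this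
      exact w3_ne this
    let x2 : cov := ⟨_, mem_cov_c2⟩
    have hmap : (commutator cov).map σ = ⊤ := by
      rw [commutator_def, Subgroup.map_commutator, Subgroup.map_top_of_surjective _ hs, ← commutator_def, htop]
    obtain ⟨y, hy, hyx⟩ := (hmap ▸ Subgroup.mem_top (σ x2) : σ x2 ∈ (commutator cov).map σ)
    have hy2 : y * y = t := by
      have hx2 : x2 * x2 = t := Subtype.ext (Prod.ext tau_sq rel11)
      rcases hk (x2⁻¹ * y) (by rw [MonoidHom.mem_ker, map_mul, map_inv, hyx, inv_mul_cancel]) with h | h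
      · rw [inv_mul_eq_one] at h; rw [← h, hx2]
      · rw [inv_mul_eq_iff_eq_mul] at h
        rw [h]
        calc x2 * t * (x2 * t) = x2 * (t * x2) * t := by simp [mul_assoc]
          _ = x2 * x2 * (t * t) := by rw [← htc]; simp [mul_assoc]
          _ = t := by rw [hx2, ht2, mul_one]
    rcases hk x hx with rfl | rfl
    · exact one_mem _
    · rw [← hy2]; exact mul_mem hy hy
  · have hne : t ≠ 1 := fun h => tau_ne (congrArg (fun q : cov => (q : Equiv.Perm Cfsg.GolayPt × Cfsg.Spor.M12).1) h)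
    rw [Nat.card_eq_two_iff]
    refine ⟨1, ⟨t, rfl⟩, fun h => hne (congrArg Subtype.val h).symm, Set.eq_univ_of_forall fun x => ?_⟩
    rcases hk x x.2 with h | h
    · exact Or.inl (Subtype.ext h)
    · exact Or.inr (Subtype.ext h)

/-- The Schur multiplier of the Mathieu group M₁₂ (the stabiliser of a dodecad in the automorphism group of the length-24 binary code) is cyclic of order 2; here the Schur multiplier is described through stem extensions, as in the definitions: surjective homomorphisms onto the group from a finite group, whose kernel is central in that finite group and contained in that finite group's commutator subgroup. -/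
theorem result : Cfsg.HasCyclicSchurMultiplier ↥Cfsg.Spor.M12 2 := by
  refine ⟨?_, fun Γ _ _ σ hσ => ?_⟩
  · obtain ⟨σ, hσ, hcard⟩ := cov_stem
    haveI : Fact (Nat.Prime 2) := ⟨Nat.prime_two⟩
    refine ⟨↥cov, inferInstance, inferInstance, σ, hσ, ?_⟩
    haveI : IsCyclic σ.ker := isCyclic_of_prime_card (p := 2) hcard
    exact ⟨mulEquivOfCyclicCardEq (by rw [hcard, Nat.card_eq_fintype_card]; rfl)⟩
  · obtain ⟨w, hw, hall⟩ := ker_le_two σ hσ
    let f : Multiplicative (ZMod 2) →* σ.ker :=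
      { toFun := fun x => if x = 1 then 1 else w
        map_one' := if_pos rfl
        map_mul' := fun x y => by
          rcases (by decide : ∀ a : Multiplicative (ZMod 2), a = 1 ∨ a = Multiplicative.ofAdd 1) x with rfl | rfl <;>
          rcases (by decide : ∀ a : Multiplicative (ZMod 2), a = 1 ∨ a = Multiplicative.ofAdd 1) y with rfl | rfl <;>
          simp [hw, show (Multiplicative.ofAdd (1 : ZMod 2)) ≠ 1 by decide,
            show (Multiplicative.ofAdd (1 : ZMod 2)) * Multiplicative.ofAdd 1 = 1 by decide] }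
    refine ⟨f, fun x => ?_⟩
    rcases hall x with rfl | rfl
    · exact ⟨1, f.map_one⟩
    · exact ⟨Multiplicative.ofAdd 1, by simp [f, show (Multiplicative.ofAdd (1 : ZMod 2)) ≠ 1 by decide]⟩

end Cfsg.Agent.S2035
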