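import Cfsg.Statements.S2038
import Cfsg.Agent.FGS4.SchurSylow.Lifts
import Cfsg.Agent.FGS4.M24Schur.Data
import Cfsg.Agent.FGS4.M24Schur.Two
import Cfsg.Agent.FGS2.SchurTools

set_option autoImplicit false
open Cfsg

namespace Cfsg.Agent.S2038
open Cfsg.Agent.FGS4.M24Schur Cfsg.Agent.FGS4.SchurSylow
open scoped commutatorElement

set_option maxHeartbeats 2000000

theorem sylow_card {p k : ℕ} (hp : p.Prime) (h1 : p ^ k ∣ 244823040) (h2 : ¬ p ^ (k + 1) ∣ 244823040)
    (S : Sylow p Cfsg.M24) : Nat.card S = p ^ k := by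
  haveI := Fact.mk hp
  obtain ⟨m, hm⟩ := (IsPGroup.iff_card).1 S.isPGroup'
  rw [hm]
  congr 1
  have hd : Nat.card (S : Subgroup Cfsg.M24) ∣ 244823040 :=
    Cfsg.Agent.Golay.M24_card ▸ Subgroup.card_subgroup_dvd_card _
  rw [hm] at hd
  refine le_antisymm ?_ ?_
  · by_contra h
    exact h2 ((pow_dvd_pow p (by omega)).trans hd)
  · refine (Nat.pow_dvd_pow_iff_le_right hp.one_lt).1 ?_
    rw [← hm]
    exact S.pow_dvd_card_of_pow_dvd_card (Cfsg.Agent.Golay.M24_card.symm ▸ h1)

theorem three_final {Γ : Type} [Group Γ] [Finite Γ] (σ : Γ →* Cfsg.M24) (hσ : Cfsg.IsStemExtension σ)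
    {z : Γ} (hz : z ∈ σ.ker) (hzo : orderOf z = 3) {u v w g h : Cfsg.M24}
    (hu : u ^ 3 = 1) (hv : v ^ 3 = 1) (hw : w ^ 3 = 1) (hcomm : ⁅u, v⁆ = w) (huw : u * w = w * u)
    (hvw : v * w = w * v) (hg1 : g * u * g⁻¹ = u⁻¹) (hg2 : g * w = w * g) (hh1 : h * v * h⁻¹ = v⁻¹)
    (hh2 : h * w = w * h) (hw1 : w ≠ 1 := by exact w3_ne) : False := by
  haveI : Fact (Nat.Prime 3) := ⟨Nat.prime_three⟩
  have pz : ∀ {x : Cfsg.M24}, x ^ 3 = 1 → IsPGroup 3 (Subgroup.zpowers x) := by
    rintro x hx ⟨y, i, rfl⟩
    refine ⟨1, Subtype.ext ?_⟩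
    show (x ^ i) ^ (3 ^ 1) = 1
    rw [pow_one, ← zpow_natCast, ← zpow_mul, mul_comm, zpow_mul, zpow_natCast, hx, one_zpow]
  set A := Subgroup.closure ({w, v} : Set Cfsg.M24) with hA
  have hwA : w ∈ A := Subgroup.subset_closure (by simp)
  have hvA : v ∈ A := Subgroup.subset_closure (by simp)
  have hAc : ∀ x ∈ A, ∀ y ∈ A, x * y = y * x := by
    have hc := Subgroup.isMulCommutative_closure (k := ({w, v} : Set Cfsg.M24)) (by
      rintro a (rfl | rfl) b (rfl | rfl) <;> first | rfl | exact hvw | exact hvw.symm)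
    exact fun x hx y hy => congrArg Subtype.val (hc.is_comm.comm ⟨x, hx⟩ ⟨y, hy⟩)
  have hAp : IsPGroup 3 A := by
    rintro ⟨x, hx⟩
    refine ⟨1, Subtype.ext ?_⟩
    show x ^ (3 ^ 1) = 1
    rw [pow_one]
    induction hx using Subgroup.closure_induction with
    | mem a ha => rcases ha with rfl | rfl <;> assumption
    | one => exact one_pow 3
    | mul a b ha hb iha ihb => rw [(show Commute a b from hAc a ha b hb).mul_pow, iha, ihb, one_mul]
    | inv a ha iha => rw [inv_pow, iha, inv_one]
  have hnorm : Subgroup.zpowers u ≤ Subgroup.normalizer (A : Set Cfsg.M24) := by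
    rw [Subgroup.zpowers_le]
    refine Subgroup.mem_normalizer_fintype fun x hx => ?_
    have hle : A ≤ A.comap (MulAut.conj u).toMonoidHom := by
      rw [hA, Subgroup.closure_le]
      rintro y (rfl | rfl)
      · show u * y * u⁻¹ ∈ A
        rw [huw, mul_inv_cancel_right]; exact hwA
      · show u * y * u⁻¹ ∈ A
        have e : u * y * u⁻¹ = w * y := by rw [← hcomm, commutatorElement_def]; group
        rw [e]; exact mul_mem hwA hvA
    exact hle hx
  have hT : IsPGroup 3 ↥(A ⊔ Subgroup.zpowers u) := hAp.to_sup_of_normal_left' (pz hu) hnorm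
  obtain ⟨S, hS⟩ := hT.exists_le_sylow
  have hle : Subgroup.closure ({u, v} : Set Cfsg.M24) ≤ A ⊔ Subgroup.zpowers u := by
    rw [Subgroup.closure_le]
    rintro y (rfl | rfl)
    · exact Subgroup.mem_sup_right (Subgroup.mem_zpowers y)
    · exact Subgroup.mem_sup_left hvA
  refine stem_false_extraspecial hσ (by norm_num) S (u := u) (v := v) (g := g) (h := h) ?_ hu hv
    (by rw [hcomm, hw]) (by rw [hcomm]; exact hw1) (by rw [hcomm]; exact huw) (by rw [hcomm]; exact hvw)
    hg1 (by rw [hcomm]; exact hg2) hh1 (by rw [hcomm]; exact hh2) hz hzo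
  set T := Subgroup.closure ({u, v} : Set Cfsg.M24) with hTd
  have huT : u ∈ T := Subgroup.subset_closure (by simp)
  have hvT : v ∈ T := Subgroup.subset_closure (by simp)
  have hAT : A ≤ T := by
    rw [hA, Subgroup.closure_le]
    rintro y (rfl | rfl)
    · rw [SetLike.mem_coe, ← hcomm, commutatorElement_def]
      exact mul_mem (mul_mem (mul_mem huT hvT) (inv_mem huT)) (inv_mem hvT)
    · exact hvT
  have hne : ¬ u * v = v * u := fun e => hw1 (by rw [← hcomm, commutatorElement_eq_one_iff_mul_comm.2 e])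
  have hlt1 : Subgroup.zpowers w < A := lt_of_le_of_ne (Subgroup.zpowers_le.2 hwA) fun e => hne (by
    obtain ⟨i, hi⟩ := Subgroup.mem_zpowers_iff.1 (e.symm ▸ hvA : v ∈ Subgroup.zpowers w)
    rw [← hi]
    exact ((show Commute u w from huw).zpow_right i).eq)
  have hlt2 : A < T := lt_of_le_of_ne hAT fun e => hne (hAc u (e.symm ▸ huT) v hvA)
  have hTp : IsPGroup 3 T := hT.to_le hle
  refine (Subgroup.eq_of_le_of_card_ge (hle.trans hS) ?_).symm
  rw [sylow_card Nat.prime_three (k := 3) (by norm_num) (by norm_num) S]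
  have strict : ∀ {H K : Subgroup Cfsg.M24}, H < K → Nat.card H < Nat.card K := fun {H K} h =>
    lt_of_le_of_ne (Subgroup.card_le_of_le h.le) fun e => h.ne (Subgroup.eq_of_le_of_card_ge h.le e.ge)
  have c1 := strict hlt1
  have c2 := strict hlt2
  rw [Nat.card_zpowers, orderOf_eq_prime hw hw1] at c1
  obtain ⟨a, ha⟩ := (IsPGroup.iff_card).1 hAp
  obtain ⟨t, ht⟩ := (IsPGroup.iff_card).1 hTp
  rw [ha] at c1 c2
  rw [ht] at c2 ⊢
  have h1a : 1 < a := by
    by_contra hh
    have := Nat.pow_le_pow_right (n := 3) (by norm_num) (show a ≤ 1 by omega)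
    omega
  have h2t : a < t := (Nat.pow_lt_pow_iff_right (by norm_num)).1 c2
  exact Nat.pow_le_pow_right (by norm_num) (by omega)


theorem card_gens : Nat.card (Subgroup.closure ({g_c0, g_c1, g_c2, g_c3, g_c4, g_c5, g_c6, g_c7, g_c8, g_c9} : Set Cfsg.M24)) = 1024 := by
  refine le_antisymm ?_ gens_card_ge
  have b9 : Nat.card (Subgroup.closure ({g_c9} : Set Cfsg.M24)) ≤ 2 := by
    have := card_closure_insert_le (s := (∅ : Set Cfsg.M24)) rel54 (fun x hx => hx.elim)
    rwa [insert_empty_eq, Subgroup.closure_empty, Subgroup.card_bot, mul_one] at this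
  have b8 := card_closure_insert_le (s := ({g_c9} : Set Cfsg.M24)) rel52 (fun x hx => by
      simp only [Set.mem_insert_iff, Set.mem_singleton_iff] at hx
      rcases hx with rfl
      · rw [rel53]; exact (Subgroup.subset_closure (by simp)))
  have b7 := card_closure_insert_le (s := ({g_c8, g_c9} : Set Cfsg.M24)) rel49 (fun x hx => by
      simp only [Set.mem_insert_iff, Set.mem_singleton_iff] at hx
      rcases hx with rfl | rfl
      · rw [rel50]; exact (Subgroup.subset_closure (by simp))
      · rw [rel51]; exact (Subgroup.subset_closure (by simp)))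
  have b6 := card_closure_insert_le (s := ({g_c7, g_c8, g_c9} : Set Cfsg.M24)) rel45 (fun x hx => by
      simp only [Set.mem_insert_iff, Set.mem_singleton_iff] at hx
      rcases hx with rfl | rfl | rfl
      · rw [rel46]; exact (Subgroup.subset_closure (by simp))
      · rw [rel47]; exact (Subgroup.subset_closure (by simp))
      · rw [rel48]; exact (Subgroup.subset_closure (by simp)))
  have b5 := card_closure_insert_le (s := ({g_c6, g_c7, g_c8, g_c9} : Set Cfsg.M24)) rel40 (fun x hx => by
      simp only [Set.mem_insert_iff, Set.mem_singleton_iff] at hx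
      rcases hx with rfl | rfl | rfl | rfl
      · rw [rel41]; exact (Subgroup.subset_closure (by simp))
      · rw [rel42]; exact (Subgroup.subset_closure (by simp))
      · rw [rel43]; exact (Subgroup.subset_closure (by simp))
      · rw [rel44]; exact (Subgroup.subset_closure (by simp)))
  have b4 := card_closure_insert_le (s := ({g_c5, g_c6, g_c7, g_c8, g_c9} : Set Cfsg.M24)) rel34 (fun x hx => by
      simp only [Set.mem_insert_iff, Set.mem_singleton_iff] at hx
      rcases hx with rfl | rfl | rfl | rfl | rfl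
      · rw [rel35]; exact (Subgroup.subset_closure (by simp))
      · rw [rel36]; exact (Subgroup.subset_closure (by simp))
      · rw [rel37]; exact (mul_mem (mul_mem (Subgroup.subset_closure (by simp)) (Subgroup.subset_closure (by simp))) (Subgroup.subset_closure (by simp)))
      · rw [rel38]; exact (Subgroup.subset_closure (by simp))
      · rw [rel39]; exact (mul_mem (Subgroup.subset_closure (by simp)) (Subgroup.subset_closure (by simp))))
  have b3 := card_closure_insert_le (s := ({g_c4, g_c5, g_c6, g_c7, g_c8, g_c9} : Set Cfsg.M24)) rel27 (fun x hx => by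
      simp only [Set.mem_insert_iff, Set.mem_singleton_iff] at hx
      rcases hx with rfl | rfl | rfl | rfl | rfl | rfl
      · rw [rel28]; exact (mul_mem (mul_mem (mul_mem (Subgroup.subset_closure (by simp)) (Subgroup.subset_closure (by simp))) (Subgroup.subset_closure (by simp))) (Subgroup.subset_closure (by simp)))
      · rw [rel29]; exact (Subgroup.subset_closure (by simp))
      · rw [rel30]; exact (Subgroup.subset_closure (by simp))
      · rw [rel31]; exact (Subgroup.subset_closure (by simp))
      · rw [rel32]; exact (Subgroup.subset_closure (by simp))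
      · rw [rel33]; exact (mul_mem (mul_mem (mul_mem (mul_mem (Subgroup.subset_closure (by simp)) (Subgroup.subset_closure (by simp))) (Subgroup.subset_closure (by simp))) (Subgroup.subset_closure (by simp))) (Subgroup.subset_closure (by simp))))
  have b2 := card_closure_insert_le (s := ({g_c3, g_c4, g_c5, g_c6, g_c7, g_c8, g_c9} : Set Cfsg.M24)) rel19 (fun x hx => by
      simp only [Set.mem_insert_iff, Set.mem_singleton_iff] at hx
      rcases hx with rfl | rfl | rfl | rfl | rfl | rfl | rfl
      · rw [rel20]; exact (mul_mem (mul_mem (mul_mem (Subgroup.subset_closure (by simp)) (Subgroup.subset_closure (by simp))) (Subgroup.subset_closure (by simp))) (Subgroup.subset_closure (by simp)))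
      · rw [rel21]; exact (mul_mem (Subgroup.subset_closure (by simp)) (Subgroup.subset_closure (by simp)))
      · rw [rel22]; exact (Subgroup.subset_closure (by simp))
      · rw [rel23]; exact (Subgroup.subset_closure (by simp))
      · rw [rel24]; exact (Subgroup.subset_closure (by simp))
      · rw [rel25]; exact (Subgroup.subset_closure (by simp))
      · rw [rel26]; exact (Subgroup.subset_closure (by simp)))
  have b1 := card_closure_insert_le (s := ({g_c2, g_c3, g_c4, g_c5, g_c6, g_c7, g_c8, g_c9} : Set Cfsg.M24)) rel10 (fun x hx => by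
      simp only [Set.mem_insert_iff, Set.mem_singleton_iff] at hx
      rcases hx with rfl | rfl | rfl | rfl | rfl | rfl | rfl | rfl
      · rw [rel11]; exact (Subgroup.subset_closure (by simp))
      · rw [rel12]; exact (mul_mem (mul_mem (mul_mem (Subgroup.subset_closure (by simp)) (Subgroup.subset_closure (by simp))) (Subgroup.subset_closure (by simp))) (Subgroup.subset_closure (by simp)))
      · rw [rel13]; exact (Subgroup.subset_closure (by simp))
      · rw [rel14]; exact (Subgroup.subset_closure (by simp))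
      · rw [rel15]; exact (Subgroup.subset_closure (by simp))
      · rw [rel16]; exact (Subgroup.subset_closure (by simp))
      · rw [rel17]; exact (mul_mem (mul_mem (Subgroup.subset_closure (by simp)) (Subgroup.subset_closure (by simp))) (Subgroup.subset_closure (by simp)))
      · rw [rel18]; exact (mul_mem (Subgroup.subset_closure (by simp)) (Subgroup.subset_closure (by simp))))
  have b0 := card_closure_insert_le (s := ({g_c1, g_c2, g_c3, g_c4, g_c5, g_c6, g_c7, g_c8, g_c9} : Set Cfsg.M24)) rel0 (fun x hx => by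
      simp only [Set.mem_insert_iff, Set.mem_singleton_iff] at hx
      rcases hx with rfl | rfl | rfl | rfl | rfl | rfl | rfl | rfl | rfl
      · rw [rel1]; exact (mul_mem (mul_mem (Subgroup.subset_closure (by simp)) (Subgroup.subset_closure (by simp))) (Subgroup.subset_closure (by simp)))
      · rw [rel2]; exact (mul_mem (mul_mem (mul_mem (Subgroup.subset_closure (by simp)) (Subgroup.subset_closure (by simp))) (Subgroup.subset_closure (by simp))) (Subgroup.subset_closure (by simp)))
      · rw [rel3]; exact (mul_mem (Subgroup.subset_closure (by simp)) (Subgroup.subset_closure (by simp)))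
      · rw [rel4]; exact (Subgroup.subset_closure (by simp))
      · rw [rel5]; exact (Subgroup.subset_closure (by simp))
      · rw [rel6]; exact (Subgroup.subset_closure (by simp))
      · rw [rel7]; exact (mul_mem (Subgroup.subset_closure (by simp)) (Subgroup.subset_closure (by simp)))
      · rw [rel8]; exact (Subgroup.subset_closure (by simp))
      · rw [rel9]; exact (mul_mem (mul_mem (mul_mem (mul_mem (Subgroup.subset_closure (by simp)) (Subgroup.subset_closure (by simp))) (Subgroup.subset_closure (by simp))) (Subgroup.subset_closure (by simp))) (Subgroup.subset_closure (by simp))))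
  omega

theorem no_kernel_two {Γ : Type} [Group Γ] [Finite Γ] (σ : Γ →* Cfsg.M24)
    (hσ : Cfsg.IsStemExtension σ) {z : Γ} (hz : z ∈ σ.ker) (hzo : orderOf z = 2)
    (hker : ∀ w ∈ σ.ker, w * w = 1) : False := by
  haveI : Fact (Nat.Prime 2) := ⟨Nat.prime_two⟩
  have lift_a0 : ∀ U : Γ, σ U = g_a0 → U * U = 1 := fun U hU =>
    lift_involution hσ hker rel55 cert41 cert42 cert43 cert44 cert45 cert46 cert47 hU
  have sq_one_a0 : ∀ {q : Cfsg.M24}, (∃ k, k * g_a0 * k⁻¹ = q) → ∀ {X : Γ}, σ X = q → X * X = 1 := by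
    intro q hq X hX
    obtain ⟨U, hU⟩ := hσ.1 g_a0
    rw [sq_eq_of_isConj hσ hker rel55 hq hU hX, lift_a0 U hU]
  have lift_b0 : ∀ U : Γ, σ U = g_b0 → U * U = 1 := fun U hU =>
    lift_involution hσ hker rel56 cert48 cert49 cert50 cert51 cert52 cert53 cert54 hU
  have sq_one_b0 : ∀ {q : Cfsg.M24}, (∃ k, k * g_b0 * k⁻¹ = q) → ∀ {X : Γ}, σ X = q → X * X = 1 := by
    intro q hq X hX
    obtain ⟨U, hU⟩ := hσ.1 g_b0
    rw [sq_eq_of_isConj hσ hker rel56 hq hU hX, lift_b0 U hU]
  have hpT : IsPGroup 2 (Subgroup.closure ({g_c0, g_c1, g_c2, g_c3, g_c4, g_c5, g_c6, g_c7, g_c8, g_c9} : Set Cfsg.M24)) :=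
    IsPGroup.of_card (n := 10) (by rw [card_gens]; norm_num)
  obtain ⟨S, hS⟩ := hpT.exists_le_sylow
  refine stem_false_two hσ (r01 := rel1) (r02 := rel2) (r03 := rel3) (r07 := rel7) (r09 := rel9) (r13 := rel12) (r18 := rel17) (r19 := rel18) (r23 := rel20) (r24 := rel21) (r34 := rel28) (r35 := rel29) (r36 := rel30) (r39 := rel33) (r47 := rel37) (r49 := rel39) card_gens S ?_ hz hzo hker ?_
  · refine (Subgroup.eq_of_le_of_card_ge hS ?_).symm
    rw [card_gens, sylow_card Nat.prime_two (k := 10) (by norm_num) (by norm_num) S]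
    norm_num
  · intro X hX
    simp only [invols, List.mem_cons, List.not_mem_nil, or_false] at hX
    rcases hX with hX | hX | hX | hX | hX | hX | hX | hX | hX | hX | hX | hX | hX | hX | hX | hX | hX | hX | hX | hX | hX | hX | hX | hX | hX | hX | hX | hX | hX | hX | hX | hX | hX | hX | hX | hX | hX | hX | hX | hX | hX
    · exact sq_one_b0 cert0 hX
    · exact sq_one_b0 cert1 hX
    · exact sq_one_b0 cert2 hX
    · exact sq_one_b0 cert3 hX
    · exact sq_one_b0 cert4 hX
    · exact sq_one_a0 cert5 hX
    · exact sq_one_a0 cert6 hX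
    · exact sq_one_b0 cert7 hX
    · exact sq_one_a0 cert8 hX
    · exact sq_one_a0 cert9 hX
    · exact sq_one_b0 cert10 hX
    · exact sq_one_b0 cert11 hX
    · exact sq_one_b0 cert12 hX
    · exact sq_one_b0 cert13 hX
    · exact sq_one_b0 cert14 hX
    · exact sq_one_b0 cert15 hX
    · exact sq_one_b0 cert16 hX
    · exact sq_one_b0 cert17 hX
    · exact sq_one_b0 cert18 hX
    · exact sq_one_a0 cert19 hX
    · exact sq_one_b0 cert20 hX
    · exact sq_one_a0 cert21 hX
    · exact sq_one_a0 cert22 hX
    · exact sq_one_a0 cert23 hX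
    · exact sq_one_b0 cert24 hX
    · exact sq_one_b0 cert25 hX
    · exact sq_one_b0 cert26 hX
    · exact sq_one_b0 cert27 hX
    · exact sq_one_b0 cert28 hX
    · exact sq_one_a0 cert29 hX
    · exact sq_one_a0 cert30 hX
    · exact sq_one_b0 cert31 hX
    · exact sq_one_a0 cert32 hX
    · exact sq_one_a0 cert33 hX
    · exact sq_one_b0 cert34 hX
    · exact sq_one_a0 cert35 hX
    · exact sq_one_b0 cert36 hX
    · exact sq_one_a0 cert37 hX
    · exact sq_one_b0 cert38 hX
    · exact sq_one_a0 cert39 hX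
    · exact sq_one_b0 cert40 hX

theorem no_kernel_three {Γ : Type} [Group Γ] [Finite Γ] (σ : Γ →* Cfsg.M24)
    (hσ : Cfsg.IsStemExtension σ) {z : Γ} (hz : z ∈ σ.ker) (hzo : orderOf z = 3) : False := by
  haveI : Fact (Nat.Prime 3) := ⟨Nat.prime_three⟩
  have p3 : ∀ {x : Cfsg.M24}, x * x * x = 1 → x ^ 3 = 1 := fun {x} h => by
    rw [pow_succ, pow_two, h]
  have hu : g_u3 ^ 3 = 1 := p3 (by simpa [mul_assoc] using rel57)
  have hv : g_v3 ^ 3 = 1 := p3 (by simpa [mul_assoc] using rel58)
  have hw : g_w3 ^ 3 = 1 := p3 (by simpa [mul_assoc] using rel59)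
  have hcomm : ⁅g_u3, g_v3⁆ = g_w3 := by
    rw [commutatorElement_def, rel60]; group
  have hg1 : g_gu * g_u3 * g_gu⁻¹ = g_u3⁻¹ := by
    have h := rel63
    rw [mul_inv_eq_iff_eq_mul, eq_inv_mul_iff_mul_eq, ← mul_assoc]
    exact h
  have hh1 : g_gv * g_v3 * g_gv⁻¹ = g_v3⁻¹ := by
    have h := rel65
    rw [mul_inv_eq_iff_eq_mul, eq_inv_mul_iff_mul_eq, ← mul_assoc]
    exact h
  set T := Subgroup.closure ({g_u3, g_v3} : Set Cfsg.M24) with hT
  have huT : g_u3 ∈ T := Subgroup.subset_closure (by simp)
  have hvT : g_v3 ∈ T := Subgroup.subset_closure (by simp)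
  have hwT : g_w3 ∈ T := by
    rw [← hcomm, commutatorElement_def]
    exact mul_mem (mul_mem (mul_mem huT hvT) (inv_mem huT)) (inv_mem hvT)
  exact three_final σ hσ hz hzo hu hv hw hcomm rel61 rel62 hg1 rel64 hh1 rel66

/-- The Schur multiplier of the Mathieu group M₂₄ (the automorphism group of the length-24 binary code) is trivial; here the Schur multiplier is described through stem extensions, as in the definitions: surjective homomorphisms onto the group from a finite group, whose kernel is central in that finite group and contained in that finite group's commutator subgroup. -/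
theorem result : Cfsg.HasCyclicSchurMultiplier ↥Cfsg.M24 1 := by
  apply Cfsg.Agent.FGS2.hasCyclic_one_of_stem_ker_eq_bot
  intro Γ _ _ σ hσ
  by_contra hne
  obtain ⟨q, hq, hqd⟩ := Nat.exists_prime_and_dvd (mt Subgroup.card_eq_one.1 hne)
  haveI := Fact.mk hq
  by_cases h2 : q = 2
  · subst h2
    obtain ⟨M, hM, τ, z, hτ, hker, hz, hzo⟩ := exists_elementary_quotient hσ hqd
    exact no_kernel_two τ hτ hz hzo hker
  obtain ⟨⟨z, hz⟩, hzo⟩ := exists_prime_orderOf_dvd_card' q hqd
  rw [← Subgroup.orderOf_coe] at hzo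
  by_cases h3 : q = 3
  · subst h3; exact no_kernel_three σ hσ hz hzo
  obtain ⟨S⟩ := Sylow.nonempty (p := q) (G := Cfsg.M24)
  refine stem_false_cyclic hσ S ?_ hz hzo
  by_cases hqd' : q ∣ 244823040
  · have hmem : q = 5 ∨ q = 7 ∨ q = 11 ∨ q = 23 := by
      rw [show (244823040 : ℕ) = 2 ^ 10 * 3 ^ 3 * 5 * 7 * 11 * 23 by norm_num] at hqd'
      have hd : ∀ {r : ℕ}, r.Prime → q ∣ r → q = r := fun hr h => (Nat.prime_dvd_prime_iff_eq hq hr).1 h
      rcases (Nat.Prime.dvd_mul hq).1 hqd' with h | h
      rotate_left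
      · exact Or.inr (Or.inr (Or.inr (hd (by norm_num) h)))
      rcases (Nat.Prime.dvd_mul hq).1 h with h | h
      rotate_left
      · exact Or.inr (Or.inr (Or.inl (hd (by norm_num) h)))
      rcases (Nat.Prime.dvd_mul hq).1 h with h | h
      rotate_left
      · exact Or.inr (Or.inl (hd (by norm_num) h))
      rcases (Nat.Prime.dvd_mul hq).1 h with h | h
      rotate_left
      · exact Or.inl (hd (by norm_num) h)
      rcases (Nat.Prime.dvd_mul hq).1 h with h | h
      · exact absurd (hd Nat.prime_two (hq.dvd_of_dvd_pow h)) h2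
      · exact absurd (hd Nat.prime_three (hq.dvd_of_dvd_pow h)) h3
    have hnd : ¬ q ^ (1 + 1) ∣ 244823040 := by rcases hmem with rfl | rfl | rfl | rfl <;> norm_num
    exact isCyclic_of_prime_card (p := q) (by
      rw [sylow_card hq (k := 1) (by rwa [pow_one]) hnd S, pow_one])
  · have h0 := sylow_card hq (k := 0) (by simp) (by rwa [pow_one]) S
    rw [pow_zero] at h0
    haveI : Subsingleton (S : Subgroup Cfsg.M24) := (Nat.card_eq_one_iff_unique.1 h0).1
    infer_instance

end Cfsg.Agent.S2038
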