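import Cfsg.Statements.S2054
import Cfsg.Agent.FGS2.SchurTools
import Cfsg.Agent.Screen.CosetEnum.Fi23Mult.Multiplier
-- import your own Cfsg.Agent.* helpers here

set_option autoImplicit false
open Cfsg

namespace Cfsg.Agent.S2054

/-- The Schur multiplier of the Fischer group Fi₂₃ (the finitely presented group of the definitions) is trivial; here the Schur multiplier is described through stem extensions, as in the definitions: surjective homomorphisms onto the group from a finite group, whose kernel is central in that finite group and contained in that finite group's commutator subgroup. -/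
theorem result : Cfsg.HasCyclicSchurMultiplier Cfsg.Spor.Fi23 1 := by
  haveI := Cfsg.Agent.Screen.CosetEnum.Fi23Ord.finite_fi23
  exact Cfsg.Agent.FGS2.hasCyclic_one_of_stem_ker_eq_bot fun Γ _ _ σ hσ => Cfsg.Agent.Screen.CosetEnum.Fi23Mult.stem_trivial Γ σ hσ

end Cfsg.Agent.S2054
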