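import Cfsg.Statements.S2086
import Cfsg.Agent.Suzuki.SLLift
import Cfsg.Agent.S2117
import Cfsg.Agent.S0248
import Cfsg.Agent.Linear.SL2Facts
import Cfsg.Agent.FGS2.SchurCovers

set_option autoImplicit false
open Cfsg

namespace Cfsg.Agent.S2086

/-- Schur multipliers of the linear groups: for n ≥ 2 and a field F with q elements (q ≥ 4 when n = 2), apart from the five exceptional pairs (n, q) = (2, 4), (2, 9), (3, 2), (3, 4), (4, 2), the Schur multiplier of PSL_n(F) is cyclic of order gcd(n, q − 1); here the Schur multiplier is described through stem extensions, as in the definitions. -/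
theorem result {F : Type*} [Field F] [Fintype F] {q : ℕ} (hF : Fintype.card F = q) (n : ℕ) (hn : 2 ≤ n) (h2 : n = 2 → 4 ≤ q) (hexc : (n, q) ∉ ({(2, 4), (2, 9), (3, 2), (3, 4), (4, 2)} : Set (ℕ × ℕ))) : Cfsg.HasCyclicSchurMultiplier (Matrix.ProjectiveSpecialLinearGroup (Fin n) F) (Nat.gcd n (q - 1)) := by
  classical
  subst hF
  have hne : NeZero n := ⟨by omega⟩
  have hk : (QuotientGroup.mk' (Subgroup.center (Matrix.SpecialLinearGroup (Fin n) F))).ker =
      Subgroup.center (Matrix.SpecialLinearGroup (Fin n) F) := QuotientGroup.ker_mk' _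
  have hcard : Nat.card (QuotientGroup.mk' (Subgroup.center (Matrix.SpecialLinearGroup (Fin n) F))).ker =
      Nat.gcd n (Fintype.card F - 1) := by
    rw [hk, Cfsg.Agent.Linear.card_center_SL]
  simp only [Set.mem_insert_iff, Set.mem_singleton_iff, Prod.mk.injEq, not_or, not_and] at hexc
  obtain ⟨x24, x29, x32, x34, x42⟩ := hexc
  by_cases h3 : 3 ≤ n
  · have : IsCyclic (Subgroup.center (Matrix.SpecialLinearGroup (Fin n) F)) :=
      isCyclic_of_surjective (Matrix.SpecialLinearGroup.center_equiv_rootsOfUnity' (0 : Fin n)).symm.toMonoidHom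
        (Matrix.SpecialLinearGroup.center_equiv_rootsOfUnity' (0 : Fin n)).symm.surjective
    rw [hk] at hcard
    let e := (zmodCyclicMulEquiv this)
    rw [hcard] at e
    refine Cfsg.Agent.Suzuki.StLift.hasCyclic_of_splits
      (Cfsg.Agent.Suzuki.SLSt.splits_SL h3 ?_ ?_) (Cfsg.Agent.S0248.result n h3)
      (τ := QuotientGroup.mk' _) (QuotientGroup.mk'_surjective _) hk.le (e.trans (MulEquiv.subgroupCongr hk.symm))
    · intro h
      rw [Nat.card_eq_fintype_card]
      exact ⟨x32 h, x34 h⟩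
    · intro h
      rw [Nat.card_eq_fintype_card]
      exact x42 h
  · obtain rfl : n = 2 := by omega
    have hq := h2 rfl
    have hperf : commutator (Matrix.SpecialLinearGroup (Fin 2) F) = ⊤ := Cfsg.Agent.Linear.sl2_perfect hq
    have hσ : Cfsg.IsStemExtension (QuotientGroup.mk' (Subgroup.center (Matrix.SpecialLinearGroup (Fin 2) F))) :=
      ⟨QuotientGroup.mk'_surjective _, hk.le, by rw [hperf]; exact le_top⟩
    have hm : Cfsg.Agent.FGS2.mult (Matrix.SpecialLinearGroup (Fin 2) F) = ⊥ :=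
      Cfsg.Agent.FGS2.hasCyclicSchurMultiplier_one_iff.1 (Cfsg.Agent.S2117.result (x24 rfl) (x29 rfl))
    obtain ⟨f⟩ := Cfsg.Agent.FGS2.mulEquiv_of_mult_trivial hσ hm
    have hg : Nat.gcd 2 (Fintype.card F - 1) = 1 ∨ (Nat.gcd 2 (Fintype.card F - 1)).Prime := by
      rcases (Nat.dvd_prime Nat.prime_two).1 (Nat.gcd_dvd_left 2 (Fintype.card F - 1)) with h | h
      · exact Or.inl h
      · exact Or.inr (by rw [h]; exact Nat.prime_two)
    obtain ⟨g⟩ := Cfsg.Agent.Suzuki.StLift.exists_equiv_zmod hg hcard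
    exact Cfsg.Agent.FGS2.hasSchurMultiplier_iff.2 ⟨g.trans f⟩

end Cfsg.Agent.S2086
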