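import Cfsg.Statements.S2087
import Cfsg.Agent.S2117
import Cfsg.Agent.Linear.IsoPSL27
import Cfsg.Agent.Linear.SL2Facts
import Cfsg.Agent.FGS2.SchurCovers
import Cfsg.Agent.Suzuki.StLiftMultiplier
-- import your own Cfsg.Agent.* helpers here

set_option autoImplicit false
open Cfsg

namespace Cfsg.Agent.S2087

/-- Exceptional Schur multiplier: over the field with 2 elements, PSL₃ has Schur multiplier cyclic of order 2 (here the Schur multiplier is described through stem extensions, as in the definitions). -/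
theorem result {F : Type*} [Field F] [Fintype F] (hF : Fintype.card F = 2) : Cfsg.HasCyclicSchurMultiplier (Matrix.ProjectiveSpecialLinearGroup (Fin 3) F) 2 := by
  classical
  have : Fact (Nat.Prime 7) := ⟨by norm_num⟩
  obtain ⟨e⟩ := Cfsg.Agent.Linear.PSL2_seven_iso (F := ZMod 7) (K := F) (ZMod.card 7) hF
  let σ : Matrix.SpecialLinearGroup (Fin 2) (ZMod 7) →* Matrix.ProjectiveSpecialLinearGroup (Fin 3) F :=
    e.toMonoidHom.comp (QuotientGroup.mk' _)
  have hperf : commutator (Matrix.SpecialLinearGroup (Fin 2) (ZMod 7)) = ⊤ :=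
    Cfsg.Agent.Linear.sl2_perfect (by rw [ZMod.card]; norm_num)
  have hker : σ.ker = Subgroup.center (Matrix.SpecialLinearGroup (Fin 2) (ZMod 7)) := by
    ext x
    rw [MonoidHom.mem_ker, MonoidHom.comp_apply, MulEquiv.coe_toMonoidHom, EmbeddingLike.map_eq_one_iff,
      QuotientGroup.mk'_apply, QuotientGroup.eq_one_iff]
  have hσ : Cfsg.IsStemExtension σ :=
    ⟨e.surjective.comp (QuotientGroup.mk'_surjective _), hker.le, by rw [hperf]; exact le_top⟩
  have hm : Cfsg.Agent.FGS2.mult (Matrix.SpecialLinearGroup (Fin 2) (ZMod 7)) = ⊥ :=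
    Cfsg.Agent.FGS2.hasCyclicSchurMultiplier_one_iff.1
      (Cfsg.Agent.S2117.result (by rw [ZMod.card]; norm_num) (by rw [ZMod.card]; norm_num))
  obtain ⟨f⟩ := Cfsg.Agent.FGS2.mulEquiv_of_mult_trivial hσ hm
  have hcard : Nat.card σ.ker = 2 := by
    rw [hker, Cfsg.Agent.Linear.card_center_SL]
    simp [Nat.card_eq_fintype_card, ZMod.card]
  obtain ⟨g⟩ := Cfsg.Agent.Suzuki.StLift.exists_equiv_zmod (Or.inr Nat.prime_two) hcard
  exact Cfsg.Agent.FGS2.hasSchurMultiplier_iff.2 ⟨g.trans f⟩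

end Cfsg.Agent.S2087
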