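import Cfsg.Statements.S2092
import Cfsg.Agent.Suzuki.SpLift
import Cfsg.Agent.Suzuki.SpTwo
import Cfsg.Agent.Suzuki.SpSection
import Cfsg.Agent.S0246
import Cfsg.Agent.S0269

set_option autoImplicit false
open Cfsg

namespace Cfsg.Agent.S2092

/-- Schur multipliers of the symplectic groups: for m ≥ 2 and a field F with q elements (q ≥ 3 when m = 2), with (m, q) ≠ (3, 2), the Schur multiplier of PSp_2m(F) is cyclic of order gcd(2, q − 1); here the Schur multiplier is described through stem extensions, as in the definitions. -/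
theorem result {F : Type*} [Field F] [Fintype F] {q : ℕ} (hF : Fintype.card F = q) (m : ℕ) (hm : 2 ≤ m) (h2 : m = 2 → 3 ≤ q) (hexc : ¬ (m = 3 ∧ q = 2)) : Cfsg.HasCyclicSchurMultiplier (Cfsg.PSp m F) (Nat.gcd 2 (q - 1)) := by
  classical
  subst hF
  have hsplit : Cfsg.Agent.Suzuki.StLift.Splits (Matrix.symplecticGroup (Fin m) F) := by
    intro E _ π hπ hk
    by_cases hq : 3 ≤ Fintype.card F
    · obtain ⟨R⟩ := Cfsg.Agent.Suzuki.SpSt.exists_rels hm hq π hπ hk
      exact Cfsg.Agent.Suzuki.SpSt.exists_section_of_rels R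
    · have hq2 : Fintype.card F = 2 := by
        have := Fintype.one_lt_card (α := F); omega
      have hm4 : 4 ≤ m := by
        rcases (show m = 2 ∨ m = 3 ∨ 4 ≤ m by omega) with rfl | rfl | h
        · exact absurd (h2 rfl) hq
        · exact absurd ⟨rfl, hq2⟩ hexc
        · exact h
      obtain ⟨R⟩ := Cfsg.Agent.Suzuki.SpSt.exists_rels_two hm4 hq2 π hπ hk
      exact Cfsg.Agent.Suzuki.SpSt.exists_section_of_rels R
  have hperf : commutator (Matrix.symplecticGroup (Fin m) F) = ⊤ := Cfsg.Agent.S0269.result m (by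
    rcases (show m = 2 ∨ 3 ≤ m by omega) with rfl | h
    · exact Or.inr (Or.inl ⟨rfl, h2 rfl⟩)
    · exact Or.inl h)
  have hk : (QuotientGroup.mk' (Subgroup.center (Matrix.symplecticGroup (Fin m) F))).ker =
      Subgroup.center (Matrix.symplecticGroup (Fin m) F) := QuotientGroup.ker_mk' _
  have hcard : Nat.card (QuotientGroup.mk' (Subgroup.center (Matrix.symplecticGroup (Fin m) F))).ker =
      Nat.gcd 2 (Fintype.card F - 1) := by
    rw [hk, Cfsg.Agent.S0246.result rfl m (by omega)]
  have hg : Nat.gcd 2 (Fintype.card F - 1) = 1 ∨ (Nat.gcd 2 (Fintype.card F - 1)).Prime := by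
    rcases (Nat.dvd_prime Nat.prime_two).1 (Nat.gcd_dvd_left 2 (Fintype.card F - 1)) with h | h
    · exact Or.inl h
    · exact Or.inr (by rw [h]; exact Nat.prime_two)
  obtain ⟨g⟩ := Cfsg.Agent.Suzuki.StLift.exists_equiv_zmod hg hcard
  exact Cfsg.Agent.Suzuki.StLift.hasCyclic_of_splits hsplit hperf (QuotientGroup.mk'_surjective _) hk.le g

end Cfsg.Agent.S2092
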