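import Cfsg.Statements.S2100
import Cfsg.Agent.Suzuki.StLiftCasesG2F4
import Cfsg.Agent.KnownA.Cover.CentreCases
import Cfsg.Agent.KnownA.Cover.EmbedCases

set_option autoImplicit false
open Cfsg

namespace Cfsg.Agent.S2100

/-- Schur multipliers of the Chevalley groups of type G₂: over a field with q ≥ 5 elements the Schur multiplier of G₂(q) is trivial (here the Schur multiplier is described through stem extensions, as in the definitions); the cases q = 3 and q = 4 are exceptional and q = 2 gives a non-simple group. -/
theorem result {F : Type*} [Field F] [Fintype F] (hF : 5 ≤ Fintype.card F) : Cfsg.HasCyclicSchurMultiplier ↥(Cfsg.Lie.chevG2.group F) 1 := by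
  classical
  refine Cfsg.Agent.Suzuki.StLift.hasCyclic_group (D := Cfsg.Lie.chevG2) (by simp) (fun _ => ?_)
    (Cfsg.Agent.Suzuki.StLift.splits_g2 hF) (Or.inl rfl)
    (by rw [Cfsg.Agent.KnownA.Cover.centreG2]; exact Subgroup.card_bot)
  obtain ⟨x, hx⟩ := Finset.exists_mem_notMem_of_card_lt_card (s := ({0, 1} : Finset F)) (t := Finset.univ)
    (lt_of_le_of_lt Finset.card_le_two (by rw [Finset.card_univ]; omega))
  exact ⟨x, by simpa using hx.2⟩

end Cfsg.Agent.S2100
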