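import Cfsg.Statements.S2103
import Cfsg.Agent.Suzuki.StLiftCasesG2F4
import Cfsg.Agent.KnownA.Cover.CentreCases
import Cfsg.Agent.KnownA.Cover.EmbedCases

set_option autoImplicit false
open Cfsg

namespace Cfsg.Agent.S2103

/-- Schur multipliers of the Chevalley groups of type F₄: over a finite field with more than 2 elements the Schur multiplier of F₄(q) is trivial (here the Schur multiplier is described through stem extensions, as in the definitions); q = 2 is exceptional. -/
theorem result {F : Type*} [Field F] [Fintype F] (hF : 3 ≤ Fintype.card F) : Cfsg.HasCyclicSchurMultiplier ↥(Cfsg.Lie.chevF4.group F) 1 := by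
  refine Cfsg.Agent.Suzuki.StLift.hasCyclic_group (D := Cfsg.Lie.chevF4) (by simp)
    (fun h => absurd h (fun h => ?_))
    (Cfsg.Agent.Suzuki.StLift.splits_f4 hF) (Or.inl rfl)
    (by rw [Cfsg.Agent.KnownA.Cover.centreF4]; exact Subgroup.card_bot)
  have : Cfsg.Lie.chevF4.rank = 2 := by
    simp only [List.mem_cons, List.not_mem_nil, or_false] at h
    rcases h with e | e <;> rw [e] <;> rfl
  exact absurd this (by decide +kernel)

end Cfsg.Agent.S2103
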