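import Cfsg.Statements.S2105
import Cfsg.Agent.Suzuki.StLiftCasesE6
import Cfsg.Agent.KnownA.Cover.CentreCases
import Cfsg.Agent.KnownA.Cover.EmbedCases

set_option autoImplicit false
open Cfsg

namespace Cfsg.Agent.S2105

/-- Schur multipliers of the (adjoint, simple) Chevalley groups of type E₆: over a field with q elements the Schur multiplier is cyclic of order gcd(3, q − 1) (here the Schur multiplier is described through stem extensions, as in the definitions). -/
theorem result {F : Type*} [Field F] [Fintype F] {q : ℕ} (hF : Fintype.card F = q) : Cfsg.HasCyclicSchurMultiplier ↥(Cfsg.Lie.chevE6.group F) (Nat.gcd 3 (q - 1)) := by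
  refine Cfsg.Agent.Suzuki.StLift.hasCyclic_group (D := Cfsg.Lie.chevE6) (by simp)
    (fun h => absurd h (fun h => ?_))
    Cfsg.Agent.Suzuki.StLift.splits_e6 ?_
    (by rw [Cfsg.Agent.KnownA.Cover.card_centerE6, hF, Nat.gcd_comm])
  · have : Cfsg.Lie.chevE6.rank = 2 := by
      simp only [List.mem_cons, List.not_mem_nil, or_false] at h
      rcases h with e | e <;> rw [e] <;> rfl
    exact absurd this (by decide +kernel)
  · rcases (Nat.dvd_prime Nat.prime_three).1 (Nat.gcd_dvd_left 3 (q - 1)) with e | e
    · exact Or.inl e
    · exact Or.inr (by rw [e]; exact Nat.prime_three)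

end Cfsg.Agent.S2105
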