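import Cfsg.Statements.S2111
import Cfsg.Agent.Suzuki.SzMultiplier

set_option autoImplicit false
open Cfsg

namespace Cfsg.Agent.S2111

/-- Schur multipliers of the Suzuki groups: for q = 2^(2m+1) with m ≥ 2 the Schur multiplier of Sz(q) is trivial (here the Schur multiplier is described through stem extensions, as in the definitions); q = 8 is exceptional. -/
theorem result {F : Type*} [Field F] [Fintype F] {m : ℕ} (hm : 2 ≤ m) (hF : Fintype.card F = 2 ^ (2 * m + 1)) : Cfsg.HasCyclicSchurMultiplier ↥(Cfsg.Lie.Sz F (2 ^ (m + 1))) 1 := by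
  have h : Cfsg.Agent.Suzuki.Ctx F m :=
    ⟨le_trans (by norm_num) hm, by rw [Nat.card_eq_fintype_card, hF]⟩
  let e := Cfsg.Agent.Suzuki.lieEquiv h
  have := Cfsg.Agent.Suzuki.finite_sz h
  have : Finite ↥(Cfsg.Lie.Sz F (2 ^ (m + 1))) := Finite.of_equiv _ e.toEquiv
  refine Cfsg.Agent.FGS2.hasCyclic_one_of_stem_ker_eq_bot fun Γ _ _ σ hσ => ?_
  have hk : (e.symm.toMonoidHom.comp σ).ker = σ.ker := by
    ext x
    simp [MonoidHom.mem_ker]
  have hσ' : Cfsg.IsStemExtension (e.symm.toMonoidHom.comp σ) := by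
    refine ⟨e.symm.surjective.comp hσ.1, ?_, ?_⟩ <;> rw [hk]
    exacts [hσ.2.1, hσ.2.2]
  rw [← hk]
  exact Cfsg.Agent.Suzuki.stem_trivial h hm hσ'

end Cfsg.Agent.S2111
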