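import Cfsg.Statements.S2112
import Cfsg.Agent.Suzuki.SzEightCover

set_option autoImplicit false
open Cfsg

namespace Cfsg.Agent.S2112

/-- Exceptional Schur multiplier: the Suzuki group Sz(8), built over the field with 8 elements using the map x ↦ x⁴, has Schur multiplier a four-group, the product of two cyclic groups of order 2 (here the Schur multiplier is described through stem extensions, as in the definitions). -/
theorem result {F : Type*} [Field F] [Fintype F] (hF : Fintype.card F = 8) : Cfsg.HasSchurMultiplier ↥(Cfsg.Lie.Sz F 4) (Multiplicative (ZMod 2 × ZMod 2)) := by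
  have h : Cfsg.Agent.Suzuki.Ctx F 1 :=
    ⟨le_rfl, by rw [Nat.card_eq_fintype_card, hF]; norm_num⟩
  let e := Cfsg.Agent.Suzuki.lieEquiv h
  have hA : IsAddKleinFour (Cfsg.Agent.Suzuki.SzEight.Aq F) := by
    have h2 : addOrderOf (1 : F) = 2 := by
      have := Fact.mk Nat.prime_two
      exact addOrderOf_eq_prime (by rw [two_nsmul, one_add_one_eq_two, h.two_eq_zero]) one_ne_zero
    have hc : Nat.card (Cfsg.Agent.Suzuki.SzEight.Aq F) = 4 := by
      have := AddSubgroup.card_eq_card_quotient_mul_card_addSubgroup (AddSubgroup.zmultiples (1 : F))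
      rw [Nat.card_zmultiples, h2, Nat.card_eq_fintype_card, hF] at this
      show Nat.card (F ⧸ AddSubgroup.zmultiples (1 : F)) = 4
      omega
    refine ⟨hc, (Nat.prime_two.eq_one_or_self_of_dvd _
      (AddMonoid.exponent_dvd_of_forall_nsmul_eq_zero fun x => ?_)).resolve_left fun he => ?_⟩
    · obtain ⟨b, rfl⟩ := QuotientAddGroup.mk_surjective x
      rw [two_nsmul, ← QuotientAddGroup.mk_add, ← two_mul, h.two_eq_zero, zero_mul,
        QuotientAddGroup.mk_zero]
    · have := AddMonoid.exp_eq_one_iff.1 he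
      rw [Nat.card_of_subsingleton (0 : Cfsg.Agent.Suzuki.SzEight.Aq F)] at hc
      exact absurd hc (by norm_num)
  obtain ⟨iso⟩ := IsKleinFour.nonempty_mulEquiv (G₁ := Multiplicative (Cfsg.Agent.Suzuki.SzEight.Aq F))
    (G₂ := Multiplicative (ZMod 2 × ZMod 2))
  refine ⟨?_, fun Γ _ _ σ hσ => ?_⟩
  · obtain ⟨Γ, hG, hf, σ, hσ, ⟨ι⟩⟩ := Cfsg.Agent.Suzuki.SzEight.exists_cover h
    have hk : (e.toMonoidHom.comp σ).ker = σ.ker := by
      ext x
      simp [MonoidHom.mem_ker]
    refine ⟨Γ, hG, hf, e.toMonoidHom.comp σ, ⟨e.surjective.comp hσ.1, ?_, ?_⟩,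
      ⟨((MulEquiv.subgroupCongr hk).trans ι).trans iso⟩⟩ <;> rw [hk]
    exacts [hσ.2.1, hσ.2.2]
  · have hk : (e.symm.toMonoidHom.comp σ).ker = σ.ker := by
      ext x
      simp [MonoidHom.mem_ker]
    have hσ' : Cfsg.IsStemExtension (e.symm.toMonoidHom.comp σ) := by
      refine ⟨e.symm.surjective.comp hσ.1, ?_, ?_⟩ <;> rw [hk]
      exacts [hσ.2.1, hσ.2.2]
    obtain ⟨ψ, hψ⟩ := Cfsg.Agent.Suzuki.SzEight.exists_surj h hσ'.1 hσ'.2.1 hσ'
    exact ⟨((MulEquiv.subgroupCongr hk).toMonoidHom.comp ψ).comp iso.symm.toMonoidHom,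
      ((MulEquiv.subgroupCongr hk).surjective.comp hψ).comp iso.symm.surjective⟩

end Cfsg.Agent.S2112
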