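import Cfsg.Statements.S3963
import Cfsg.Agent.FGS2.SchurTools

set_option autoImplicit false
open Cfsg

namespace Cfsg.Agent.S3963

open scoped commutatorElement

theorem closure_gen (n : ℕ) [NeZero n] :
    Subgroup.closure ({QuaternionGroup.a 1, QuaternionGroup.xa 0} : Set (QuaternionGroup n)) = ⊤ := by
  rw [eq_top_iff]
  have ha : ∀ i : ZMod (2 * n), QuaternionGroup.a i ∈
      Subgroup.closure ({QuaternionGroup.a 1, QuaternionGroup.xa 0} : Set (QuaternionGroup n)) := by
    intro i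
    rw [← ZMod.natCast_zmod_val i, ← QuaternionGroup.a_one_pow]
    exact pow_mem (Subgroup.subset_closure (by simp)) _
  rintro (i | i) -
  · exact ha i
  · have h : QuaternionGroup.xa i = QuaternionGroup.xa 0 * QuaternionGroup.a i := by simp
    rw [h]
    exact mul_mem (Subgroup.subset_closure (by simp)) (ha i)

/-- For every `n ≥ 1` the dicyclic (generalized quaternion) group of order `4 n` has trivial Schur multiplier. -/
theorem result (n : ℕ) [NeZero n] : Cfsg.HasCyclicSchurMultiplier (QuaternionGroup n) 1 := by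
  apply Cfsg.Agent.FGS2.hasCyclic_one_of_stem_ker_eq_bot
  intro Γ _ _ σ hσ
  obtain ⟨a, ha⟩ := hσ.1 (QuaternionGroup.a 1)
  obtain ⟨x, hx⟩ := hσ.1 (QuaternionGroup.xa 0)
  have hgen : Subgroup.closure ({σ a, σ x} : Set (QuaternionGroup n)) = ⊤ := by
    rw [ha, hx]; exact closure_gen n
  have hcomm : Commute (a ^ n) x := by
    have hz : (a ^ n)⁻¹ * x ^ 2 ∈ σ.ker := by
      rw [MonoidHom.mem_ker, map_mul, map_inv, map_pow, map_pow, ha, hx, QuaternionGroup.a_one_pow,
        QuaternionGroup.xa_sq, inv_mul_cancel]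
    have hzc := Subgroup.mem_center_iff.1 (hσ.2.1 hz)
    have e : a ^ n = x ^ 2 * ((a ^ n)⁻¹ * x ^ 2)⁻¹ := by group
    rw [e]
    exact ((Commute.refl x).pow_left 2).mul_left ((Commute.inv_left (hzc x).symm))
  obtain ⟨h1, h2, h3⟩ := Cfsg.Agent.FGS2.stem_dihedral_like hσ hgen (by
    rw [ha, hx, mul_inv_eq_iff_eq_mul, eq_inv_mul_iff_mul_eq, QuaternionGroup.xa_mul_a, QuaternionGroup.a_mul_xa]; simp) hcomm
  have hord : orderOf (σ ⁅x, a⁆) = n := by
    rw [h3, orderOf_inv, ha]
    have h2n : orderOf (QuaternionGroup.a 1 : QuaternionGroup n) = 2 * n := QuaternionGroup.orderOf_a_one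
    rw [orderOf_pow' _ (by norm_num : (2 : ℕ) ≠ 0), h2n, Nat.gcd_eq_right (dvd_mul_right 2 n),
      Nat.mul_div_cancel_left _ (by norm_num : 0 < 2)]
  rw [Subgroup.eq_bot_iff_forall]
  intro z hz
  have := Cfsg.Agent.FGS2.mem_zpowers_pow_of_map_eq_one σ (h2 (hσ.2.2 hz)) hz hord
  rw [h1, Subgroup.zpowers_one_eq_bot, Subgroup.mem_bot] at this
  exact this

end Cfsg.Agent.S3963
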