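import Cfsg.Statements.S3965
import Cfsg.Agent.FGS2.DihedralCover

set_option autoImplicit false
open Cfsg

namespace Cfsg.Agent.S3965

open scoped commutatorElement

theorem closure_gen (n : ℕ) [NeZero n] :
    Subgroup.closure ({DihedralGroup.r 1, DihedralGroup.sr 0} : Set (DihedralGroup n)) = ⊤ := by
  rw [eq_top_iff]
  have ha : ∀ i : ZMod n, DihedralGroup.r i ∈
      Subgroup.closure ({DihedralGroup.r 1, DihedralGroup.sr 0} : Set (DihedralGroup n)) := by
    intro i
    rw [← ZMod.natCast_zmod_val i, ← DihedralGroup.r_one_pow]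
    exact pow_mem (Subgroup.subset_closure (by simp)) _
  rintro (i | i) -
  · exact ha i
  · have h : DihedralGroup.sr i = DihedralGroup.sr 0 * DihedralGroup.r i := by simp
    rw [h]
    exact mul_mem (Subgroup.subset_closure (by simp)) (ha i)

/-- For even `n ≥ 2` the dihedral group of order `2 n` has Schur multiplier cyclic of order `2`. -/
theorem result (n : ℕ) [NeZero n] (hn : Even n) : Cfsg.HasCyclicSchurMultiplier (DihedralGroup n) 2 := by
  refine ⟨⟨QuaternionGroup n, _, inferInstance, Cfsg.Agent.FGS2.quatToDih n,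
    Cfsg.Agent.FGS2.quatToDih_stem n hn, ?_⟩, fun Γ _ _ σ hσ => ?_⟩
  · have h2 := Cfsg.Agent.FGS2.card_quatToDih_ker n
    have : IsCyclic (Cfsg.Agent.FGS2.quatToDih n).ker := isCyclic_of_prime_card (p := 2) h2
    have e := zmodCyclicMulEquiv (G := (Cfsg.Agent.FGS2.quatToDih n).ker) inferInstance
    rw [h2] at e
    exact ⟨e.symm⟩
  · obtain ⟨a, ha⟩ := hσ.1 (DihedralGroup.r 1)
    obtain ⟨x, hx⟩ := hσ.1 (DihedralGroup.sr 0)
    have hgen : Subgroup.closure ({σ a, σ x} : Set (DihedralGroup n)) = ⊤ := by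
      rw [ha, hx]; exact closure_gen n
    have hcomm : Commute (a ^ n) x := by
      have hz : a ^ n ∈ σ.ker := by
        rw [MonoidHom.mem_ker, map_pow, ha, DihedralGroup.r_one_pow]; simp
      exact ((Subgroup.mem_center_iff.1 (hσ.2.1 hz)) x).symm
    obtain ⟨h1, h2, h3⟩ := Cfsg.Agent.FGS2.stem_dihedral_like hσ hgen (by
      rw [ha, hx]; simp) hcomm
    obtain ⟨k, hk⟩ := hn
    have hk0 : 0 < k := by have := NeZero.ne n; omega
    have hord : orderOf (σ ⁅x, a⁆) = k := by
      rw [h3, orderOf_inv, ha, orderOf_pow' _ (by norm_num : (2 : ℕ) ≠ 0),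
        DihedralGroup.orderOf_r_one, Nat.gcd_eq_right ⟨k, by omega⟩]
      omega
    refine Cfsg.Agent.FGS2.exists_surj_zmod (d := ⁅x, a⁆ ^ k) (fun z hz =>
      Cfsg.Agent.FGS2.mem_zpowers_pow_of_map_eq_one σ (h2 (hσ.2.2 hz)) hz hord) ?_
    rw [← pow_mul, mul_two, ← hk, h1]

end Cfsg.Agent.S3965
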