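import Cfsg.Statements.S3979
import Cfsg.Agent.FGS2.SchurTools

set_option autoImplicit false
open Cfsg
open scoped commutatorElement

namespace Cfsg.Agent.S3979

/-- A finite cyclic group has trivial Schur multiplier: every finite stem extension of it is an isomorphism, said through `HasCyclicSchurMultiplier G 1`. -/
theorem result {G : Type*} [Group G] [Finite G] [IsCyclic G] : Cfsg.HasCyclicSchurMultiplier G 1 := by
  apply Cfsg.Agent.FGS2.hasCyclic_one_of_stem_ker_eq_bot
  intro Γ _ _ σ hσ
  rw [eq_bot_iff]
  refine hσ.2.2.trans ?_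
  have h := MonoidHom.isMulCommutative_of_isCyclic_of_ker_le_center σ hσ.2.1
  rw [commutator_eq_closure, Subgroup.closure_le]
  rintro _ ⟨x, y, rfl⟩
  exact commutatorElement_eq_one_iff_mul_comm.2 (h.is_comm.comm x y)

end Cfsg.Agent.S3979
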