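import Cfsg.Statements.S2140
import Cfsg.Agent.Suzuki.SLIndexMain

set_option autoImplicit false
open Cfsg

namespace Cfsg.Agent.S2140

/-- Minimal index of a proper subgroup of the linear groups: for n ≥ 3 and a field F with q elements, (n, q) ≠ (4, 2), every proper subgroup of PSL_n(F) has index at least (q^n − 1)/(q − 1), and some subgroup has exactly that index (the stabiliser of a point of the projective space). -/
theorem result {F : Type*} [Field F] [Fintype F] {q : ℕ} (hF : Fintype.card F = q) (n : ℕ) (hn : 3 ≤ n) (hexc : ¬ (n = 4 ∧ q = 2)) : (∀ H : Subgroup (Matrix.ProjectiveSpecialLinearGroup (Fin n) F), H ≠ ⊤ → (q ^ n - 1) / (q - 1) ≤ H.index) ∧ (∃ H : Subgroup (Matrix.ProjectiveSpecialLinearGroup (Fin n) F), H.index = (q ^ n - 1) / (q - 1)) := by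
  subst hF
  refine ⟨fun H hH => ?_, ?_⟩
  · rw [← Subgroup.index_comap_of_surjective H (f := QuotientGroup.mk' _) (QuotientGroup.mk'_surjective _)]
    refine Cfsg.Agent.Suzuki.SLIdx.index_bound hn hexc _ fun h => hH ?_
    rw [← Subgroup.map_comap_eq_self_of_surjective (QuotientGroup.mk'_surjective _) H, h,
      Subgroup.map_top_of_surjective _ (QuotientGroup.mk'_surjective _)]
  · have : Nontrivial (Fin n) := Fin.nontrivial_iff_two_le.2 (le_trans (by norm_num) hn)
    obtain ⟨v⟩ : Nonempty (Projectivization F (Fin n → F)) :=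
      ⟨Projectivization.mk F (Pi.single ⟨0, by omega⟩ (1 : F)) (by simp)⟩
    refine ⟨MulAction.stabilizer (Matrix.ProjectiveSpecialLinearGroup (Fin n) F) v, ?_⟩
    rw [MulAction.index_stabilizer, MulAction.orbit_eq_univ, Set.ncard_univ, Projectivization.card'']
    simp [Nat.card_eq_fintype_card]

end Cfsg.Agent.S2140
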