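import Cfsg.Statements.S2141
import Cfsg.Agent.Suzuki.SpIdxMain
-- import your own Cfsg.Agent.* helpers here

set_option autoImplicit false
open Cfsg

namespace Cfsg.Agent.S2141

/-- Minimal index of a proper subgroup of the symplectic groups over fields with at least 3 elements: for m ≥ 2 and a field F with q ≥ 3 elements, (m, q) ≠ (2, 3), every proper subgroup of PSp_2m(F) has index at least (q^(2m) − 1)/(q − 1), and that index is attained. -/
theorem result {F : Type*} [Field F] [Fintype F] {q : ℕ} (hF : Fintype.card F = q) (m : ℕ) (hm : 2 ≤ m) (hq : 3 ≤ q) (hexc : ¬ (m = 2 ∧ q = 3)) : (∀ H : Subgroup (Cfsg.PSp m F), H ≠ ⊤ → (q ^ (2 * m) - 1) / (q - 1) ≤ H.index) ∧ (∃ H : Subgroup (Cfsg.PSp m F), H.index = (q ^ (2 * m) - 1) / (q - 1)) := by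
  subst hF
  have hexc' : m = 2 → 4 ≤ Fintype.card F := fun h => by
    by_contra hc
    exact hexc ⟨h, by omega⟩
  have low : ∀ H : Subgroup (Cfsg.PSp m F), H ≠ ⊤ →
      (Fintype.card F ^ (2 * m) - 1) / (Fintype.card F - 1) ≤ H.index := fun H hH => by
    rw [← Subgroup.index_comap_of_surjective H (f := QuotientGroup.mk' _) (QuotientGroup.mk'_surjective _)]
    refine Cfsg.Agent.Suzuki.SpIdx.sp_index_bound hm hq hexc' _ fun h => hH ?_
    rw [← Subgroup.map_comap_eq_self_of_surjective (QuotientGroup.mk'_surjective _) H, h,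
      Subgroup.map_top_of_surjective _ (QuotientGroup.mk'_surjective _)]
  refine ⟨low, ?_⟩
  obtain ⟨L, hlt, hle⟩ := Cfsg.Agent.Suzuki.SpIdx.exists_small (F := F) hm
  refine ⟨L, le_antisymm hle (low L hlt)⟩

end Cfsg.Agent.S2141
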