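import Cfsg.Statements.S2142
import Cfsg.Agent.Suzuki.SpIdxTwoSmall
-- import your own Cfsg.Agent.* helpers here

set_option autoImplicit false
open Cfsg

namespace Cfsg.Agent.S2142

/-- Minimal index of a proper subgroup of the symplectic groups over the field with 2 elements: for m ≥ 3, every proper subgroup of Sp_2m(2) has index at least 2^(m−1)(2^m − 1), and that index is attained. -/
theorem result {F : Type*} [Field F] [Fintype F] (hF : Fintype.card F = 2) (m : ℕ) (hm : 3 ≤ m) : (∀ H : Subgroup (Cfsg.PSp m F), H ≠ ⊤ → 2 ^ (m - 1) * (2 ^ m - 1) ≤ H.index) ∧ (∃ H : Subgroup (Cfsg.PSp m F), H.index = 2 ^ (m - 1) * (2 ^ m - 1)) := by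
  have low : ∀ H : Subgroup (Cfsg.PSp m F), H ≠ ⊤ → 2 ^ (m - 1) * (2 ^ m - 1) ≤ H.index := fun H hH => by
    rw [← Subgroup.index_comap_of_surjective H (f := QuotientGroup.mk' _) (QuotientGroup.mk'_surjective _)]
    refine Cfsg.Agent.Suzuki.SpIdxTwo.sp_index_bound hF hm _ fun h => hH ?_
    rw [← Subgroup.map_comap_eq_self_of_surjective (QuotientGroup.mk'_surjective _) H, h,
      Subgroup.map_top_of_surjective _ (QuotientGroup.mk'_surjective _)]
  refine ⟨low, ?_⟩
  obtain ⟨L, hlt, hle⟩ := Cfsg.Agent.Suzuki.SpIdxTwo.exists_small hF hm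
  exact ⟨L, le_antisymm hle (low L hlt)⟩

end Cfsg.Agent.S2142
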