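import Cfsg.Statements.S2148
import Cfsg.Agent.Forms.SUThreeMinIndexOdd
import Cfsg.Agent.Forms.SUThreeMinIndexEven
import Cfsg.Agent.Forms.SUThreeMinIndexTorus

set_option autoImplicit false
open Cfsg

namespace Cfsg.Agent.S2148

open Cfsg.Agent.Forms.SUThree.MinIdx Cfsg.Agent.Forms.SUThree in
/-- A subgroup of `SU₃(q)` containing the centre, of index at most `q³`, is everything. -/
theorem eq_top_of_index_le {F : Type*} [Field F] [Fintype F] {q : ℕ} (hF : Fintype.card F = q ^ 2)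
    (hq : 3 ≤ q) (h5 : q ≠ 5) (H : Subgroup (Cfsg.SU 3 F q))
    (hZ : Subgroup.center (Cfsg.SU 3 F q) ≤ H) (hn : H.index ≤ q ^ 3) : H = ⊤ := by
  classical
  haveI : Finite (Cfsg.SU 3 F q) := Subtype.finite
  by_contra hH
  obtain ⟨htr, hord⟩ := transitive_of_index_le hF H hn
  obtain ⟨p, r, hp, hcp, hqp, hr⟩ := exists_prime_pow hF
  haveI := Fact.mk hp
  by_cases hne : ∀ (e f z : Fin 3 → F) (hfr : Frame hF e f z), (pc hF H hfr).ncard ≠ 1
  · by_cases hp2 : p = 2
    · subst hp2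
      exact even_case hF hZ hH htr hq hqp hord hne
    · exact odd_case hF hZ hH htr hp2 hqp hq h5 hord hne
  push Not at hne
  obtain ⟨e, f, z, hfr, h1⟩ := hne
  obtain ⟨h2, h3⟩ := hord e f z hfr
  rw [h1, one_mul] at h2 h3
  have hle : ∀ (e f z : Fin 3 → F) (hfr : Frame hF e f z), Nat.card (tc hF H hfr) ∣ q ^ 2 - 1 :=
    fun e f z hfr => by
      rw [← Cfsg.Agent.Forms.card_units_sq hF]; exact Subgroup.card_subgroup_dvd_card _
  have hq2 : 1 ≤ q ^ 2 - 1 := by
    have : 9 ≤ q ^ 2 := Nat.pow_le_pow_left hq 2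
    omega
  have hτ : Nat.card (tc hF H hfr) = q ^ 2 - 1 := le_antisymm (Nat.le_of_dvd hq2 (hle e f z hfr)) h3
  rw [hτ] at h2
  refine torus_case hF H hq h5 hZ htr h2 fun e' f' z' hfr' => ?_
  obtain ⟨h4, -⟩ := hord e' f' z' hfr'
  rw [h2] at h4
  have h6 := (Nat.eq_of_mul_eq_mul_left (Nat.succ_pos _) h4).symm
  have hcop : ((pc hF H hfr').ncard).Coprime (q ^ 2 - 1) := by
    refine Nat.Coprime.coprime_dvd_left (card_pc_dvd hF hfr' H).1 (Nat.Coprime.pow_left 3 ?_)
    refine Nat.coprime_of_dvd' fun k hk hkq hk1 => ?_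
    have h7 : k ∣ q ^ 2 - 1 + 1 := by
      rw [Nat.sub_add_cancel (by omega)]; exact dvd_pow hkq two_ne_zero
    exact (Nat.dvd_add_right hk1).1 h7
  have hpc1 : (pc hF H hfr').ncard = 1 := hcop.eq_one_of_dvd ⟨_, h6.symm⟩
  refine ⟨hpc1, Subgroup.eq_top_of_card_eq _ ?_⟩
  rw [hpc1, one_mul] at h6
  rw [h6, Cfsg.Agent.Forms.card_units_sq hF]

/-- Minimal index of a proper subgroup of the three-dimensional unitary groups: for a field F with q² elements, q ≥ 3 and q ≠ 5, every proper subgroup of PSU₃(q) has index at least q³ + 1, and that index is attained. -/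
theorem result {F : Type*} [Field F] [Fintype F] (q : ℕ) (hF : Fintype.card F = q ^ 2) (hq : 3 ≤ q) (h5 : q ≠ 5) : (∀ H : Subgroup (Cfsg.PSU 3 F q), H ≠ ⊤ → q ^ 3 + 1 ≤ H.index) ∧ (∃ H : Subgroup (Cfsg.PSU 3 F q), H.index = q ^ 3 + 1) := by
  classical
  haveI : Finite (Cfsg.SU 3 F q) := Subtype.finite
  have hsurj := QuotientGroup.mk'_surjective (Subgroup.center (Cfsg.SU 3 F q))
  refine ⟨fun H hH => ?_, ?_⟩
  · by_contra hlt
    push Not at hlt
    refine hH ?_
    have h1 := eq_top_of_index_le hF hq h5 (H.comap (QuotientGroup.mk' _))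
      (fun g hg => by
        rw [Subgroup.mem_comap, QuotientGroup.mk'_apply, (QuotientGroup.eq_one_iff g).2 hg]
        exact H.one_mem)
      (by rw [Subgroup.index_comap_of_surjective _ hsurj]; omega)
    rw [← Subgroup.map_comap_eq_self_of_surjective hsurj H, h1, Subgroup.map_top_of_surjective _ hsurj]
  · obtain ⟨e, f, z, hfr⟩ := Cfsg.Agent.Forms.SUThree.exists_frame hF
    refine ⟨(Cfsg.Agent.Forms.SUThree.MinIdx.bor hF e).map (QuotientGroup.mk' _), ?_⟩
    rw [Subgroup.index_map_eq _ hsurj (by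
      rw [QuotientGroup.ker_mk']; exact Cfsg.Agent.Forms.SUThree.MinIdx.center_le_bor hF hfr)]
    exact Cfsg.Agent.Forms.SUThree.MinIdx.index_bor hF hfr

end Cfsg.Agent.S2148
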