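import Cfsg.Statements.S2157
import Cfsg.Agent.Suzuki.ChevChar

set_option autoImplicit false
open Cfsg

namespace Cfsg.Agent.S2157

/-- In a Chevalley group of type G₂, B₂, D₄, F₄, E₆, E₇ or E₈, for every character `χ` of the root lattice with values in `Fˣ` the diagonal matrix `ĥ(χ)` (identity on the coroot coordinates, `χ(s)` on the coordinate of `e_s`) conjugates each root element `x_r(t)` to `x_r(χ(r) t)`: `ĥ(χ) x_r(t) ĥ(χ)⁻¹ = x_r(χ(r) t)` as matrices, with `ĥ(χ)⁻¹` written as `ĥ(χ⁻¹)`. -/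
theorem result {F : Type*} [Field F] (D : Cfsg.Lie.ChevalleyDatum) (hD : D ∈ [Cfsg.Lie.chevG2, Cfsg.Lie.chevB2, Cfsg.Lie.chevD4, Cfsg.Lie.chevF4, Cfsg.Lie.chevE6, Cfsg.Lie.chevE7, Cfsg.Lie.chevE8]) (χ : ℕ → Fˣ) (hχ : D.IsRootCharacter χ) (r : ℕ) (hr : r < D.nroots) (t : F) :
    D.charDiag F χ * D.x F r t * D.charDiag F (fun s => (χ s)⁻¹) = D.x F r ((χ r : F) * t) := by
  obtain ⟨C⟩ := Cfsg.Agent.Chev.nonempty_cert hD
  have hC := Cfsg.Agent.Suzuki.isChar_of_rootCharacter C (Cfsg.Agent.Suzuki.chainSteps hD) hχ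
  have e : ∀ ψ : ℕ → Fˣ, D.charDiag F ψ = Cfsg.Agent.Chev.dMat D (fun s => (ψ s : F)) := fun ψ => rfl
  rw [e, e, C.dMat_conj hC hr, mul_assoc, Cfsg.Agent.Chev.dMat_mul]
  conv_rhs => rw [← mul_one (D.x F r _), ← Cfsg.Agent.Chev.dMat_one]
  congr 1
  exact Cfsg.Agent.Chev.dMat_congr fun s _ => by simp

end Cfsg.Agent.S2157
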