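import Cfsg.Statements.S2159
import Cfsg.Agent.LeadWork.SteinbergPerms

set_option autoImplicit false
open Cfsg

namespace Cfsg.Agent.S2159

/-- Structure of the outer automorphism group of the Chevalley group `G` of type G₂, B₂, D₄, F₄, E₆, E₇ or E₈ over a finite field. Let `D̄` be the image in `Out(G)` of the subgroup generated by the diagonal automorphisms and `F̄` the image of the subgroup generated by the field automorphisms. Then `D̄` is a normal abelian subgroup of `Out(G)`, `F̄` is cyclic, `D̄F̄` is a normal subgroup, and the quotient of `Out(G)` by `D̄F̄` is trivial, of order 2, or non-abelian of order 6 (so isomorphic to the symmetric group on three letters): its index is 1 or 2, or it is 6 with the commutator subgroup of `Out(G)` not inside `D̄F̄`. -/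
theorem result {F : Type*} [Field F] [Finite F] (D : Cfsg.Lie.ChevalleyDatum) (hD : D ∈ [Cfsg.Lie.chevG2, Cfsg.Lie.chevB2, Cfsg.Lie.chevD4, Cfsg.Lie.chevF4, Cfsg.Lie.chevE6, Cfsg.Lie.chevE7, Cfsg.Lie.chevE8])
    (Dbar Fbar : Subgroup (Cfsg.Out ↥(D.group F)))
    (hDbar : Dbar = (Subgroup.closure {φ : MulAut ↥(D.group F) | D.IsDiagonalAut φ}).map (QuotientGroup.mk' (Cfsg.Inn ↥(D.group F))))
    (hFbar : Fbar = (Subgroup.closure {φ : MulAut ↥(D.group F) | D.IsFieldAut φ}).map (QuotientGroup.mk' (Cfsg.Inn ↥(D.group F)))) :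
    Dbar.Normal ∧ IsMulCommutative ↥Dbar ∧ IsCyclic ↥Fbar ∧ (Dbar ⊔ Fbar).Normal ∧
      ((Dbar ⊔ Fbar).index = 1 ∨ (Dbar ⊔ Fbar).index = 2 ∨
        ((Dbar ⊔ Fbar).index = 6 ∧ ¬ commutator (Cfsg.Out ↥(D.group F)) ≤ Dbar ⊔ Fbar)) := by
  obtain ⟨C⟩ := Cfsg.Agent.Chev.nonempty_cert hD
  have hst := Cfsg.Agent.Suzuki.chainSteps hD
  subst hDbar hFbar
  rw [← Cfsg.Agent.LeadWork.Steinberg.dBar_eq C hst, ← Cfsg.Agent.LeadWork.Steinberg.fBar_eq C]
  exact ⟨Cfsg.Agent.LeadWork.Steinberg.dBar_normal C hst hD,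
    Cfsg.Agent.LeadWork.Steinberg.isMulCommutative_dBar C hst,
    Cfsg.Agent.LeadWork.Steinberg.isCyclic_fBar,
    Cfsg.Agent.LeadWork.Steinberg.dfBar_normal C hst hD,
    Cfsg.Agent.LeadWork.Steinberg.out_structure hD C hst⟩

end Cfsg.Agent.S2159
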