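import Cfsg.Statements.S2160
import Cfsg.Agent.Suzuki.ChevChar

set_option autoImplicit false
open Cfsg

namespace Cfsg.Agent.S2160

/-- In a Chevalley group of type G₂, B₂, D₄, F₄, E₆, E₇ or E₈ over a finite field, every field automorphism commutes with every graph automorphism. -/
theorem result {F : Type*} [Field F] [Finite F] (D : Cfsg.Lie.ChevalleyDatum) (hD : D ∈ [Cfsg.Lie.chevG2, Cfsg.Lie.chevB2, Cfsg.Lie.chevD4, Cfsg.Lie.chevF4, Cfsg.Lie.chevE6, Cfsg.Lie.chevE7, Cfsg.Lie.chevE8]) (f g : ↥(D.group F) ≃* ↥(D.group F))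
    (hf : D.IsFieldAut f) (hg : D.IsGraphAut g) (y : ↥(D.group F)) : f (g y) = g (f y) := by
  obtain ⟨C⟩ := Cfsg.Agent.Chev.nonempty_cert hD
  obtain ⟨σ, hσ⟩ := hf
  obtain ⟨π, -, hπ⟩ := hg
  let E := (MonoidHom.eqLocus (f.toMonoidHom.comp g.toMonoidHom) (g.toMonoidHom.comp f.toMonoidHom)).map
    (D.group F).subtype
  suffices hle : D.group F ≤ E by
    obtain ⟨z, hz, hzy⟩ := hle y.2
    obtain rfl : z = y := Subtype.ext hzy
    exact hz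
  refine Cfsg.Agent.Suzuki.group_le_of_simple C fun i hi t => ?_
  have hp := C.simple_lt i hi
  have hp' := C.simple_lt (π ⟨i, hi⟩) (π ⟨i, hi⟩).isLt
  constructor
  · refine ⟨⟨C.xu (D.simple i) t, C.xu_mem_group _ _⟩, ?_, rfl⟩
    show f (g _) = g (f _)
    apply Subtype.ext
    apply Units.ext
    have e1 := (hπ ⟨C.xu (D.simple i) t, C.xu_mem_group _ _⟩ ⟨i, hi⟩ t).1 rfl
    have e2 := hσ ⟨C.xu (D.simple i) t, C.xu_mem_group _ _⟩ _ t hp rfl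
    rw [hσ _ _ _ hp' e1, (hπ _ ⟨i, hi⟩ _).1 e2, map_pow]
  · refine ⟨⟨C.xu (D.neg (D.simple i)) t, C.xu_mem_group _ _⟩, ?_, rfl⟩
    show f (g _) = g (f _)
    apply Subtype.ext
    apply Units.ext
    have e1 := (hπ ⟨C.xu (D.neg (D.simple i)) t, C.xu_mem_group _ _⟩ ⟨i, hi⟩ t).2 rfl
    have e2 := hσ ⟨C.xu (D.neg (D.simple i)) t, C.xu_mem_group _ _⟩ _ t (C.neg_lt _ hp) rfl
    rw [hσ _ _ _ (C.neg_lt _ hp') e1, (hπ _ ⟨i, hi⟩ _).2 e2, map_pow]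

end Cfsg.Agent.S2160
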