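import Cfsg.Statements.S2161
import Cfsg.Agent.Suzuki.ChevChar

set_option autoImplicit false
open Cfsg

namespace Cfsg.Agent.S2161

theorem laced {D : Cfsg.Lie.ChevalleyDatum} (hD : D ∈ [Cfsg.Lie.chevD4, Cfsg.Lie.chevE6]) :
    (∀ r < D.nroots, ∀ s < D.nroots, (∀ k < D.rank,
        Cfsg.Agent.Chev.corootC D r k = Cfsg.Agent.Chev.corootC D s k) → r = s) ∧
      (∀ i < D.rank, ∀ j < D.rank, i ≠ j → D.cartan i (D.simple j) = 0 ∨ D.cartan i (D.simple j) = -1) ∧
      ∀ i < D.rank, ∀ j < D.rank, D.cartan i (D.simple j) = D.cartan j (D.simple i) := by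
  simp only [List.mem_cons, List.not_mem_nil, or_false] at hD
  rcases hD with rfl | rfl
  · refine ⟨?_, ?_, ?_⟩ <;> decide +kernel
  · refine ⟨?_, ?_, ?_⟩ <;> decide +kernel

/-- For the Chevalley groups of types D₄ and E₆ (one root length) over any field: if `π` is a symmetry of the Dynkin diagram and `φ` is an automorphism sending `x_{p_i}(t)` to `x_{p_{π i}}(t)` and `x_{-p_i}(t)` to `x_{-p_{π i}}(t)` for every fundamental root `p_i`, then for every root `r` there is a sign `ε = ±1` with `φ(x_r(t)) = x_{π·r}(ε t)` for all `t`, where `π·r` is the root whose coefficients are those of `r` permuted by `π`. -/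
theorem result {F : Type*} [Field F] (D : Cfsg.Lie.ChevalleyDatum) (hD : D ∈ [Cfsg.Lie.chevD4, Cfsg.Lie.chevE6])
    (π : Equiv.Perm (Fin D.rank)) (hπ : D.IsDiagramSymmetry π) (φ : ↥(D.group F) ≃* ↥(D.group F))
    (hφ : ∀ (g : ↥(D.group F)) (i : Fin D.rank) (t : F),
      (((g : GL D.Idx F) : Matrix D.Idx D.Idx F) = D.x F (D.simple i) t →
        ((φ g : GL D.Idx F) : Matrix D.Idx D.Idx F) = D.x F (D.simple (π i)) t) ∧
      (((g : GL D.Idx F) : Matrix D.Idx D.Idx F) = D.x F (D.neg (D.simple i)) t →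
        ((φ g : GL D.Idx F) : Matrix D.Idx D.Idx F) = D.x F (D.neg (D.simple (π i))) t))
    (r : ℕ) (hr : r < D.nroots) :
    ∃ ε : F, (ε = 1 ∨ ε = -1) ∧ ∀ (g : ↥(D.group F)) (t : F),
      ((g : GL D.Idx F) : Matrix D.Idx D.Idx F) = D.x F r t →
        ((φ g : GL D.Idx F) : Matrix D.Idx D.Idx F) = D.x F (D.permRoot π r) (ε * t) := by
  obtain ⟨C⟩ := Cfsg.Agent.Chev.nonempty_cert (D := D) (by
    simp only [List.mem_cons, List.not_mem_nil, or_false] at hD ⊢; tauto)
  obtain ⟨hinj, hoff, hsymm⟩ := Cfsg.Agent.S2161.laced hD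
  -- Cartan integers are permuted
  have hA : ∀ i j : Fin D.rank, D.cartan (π i) (D.simple (π j)) = D.cartan i (D.simple j) := by
    intro i j
    by_cases hij : i = j
    · rw [hij, C.cartan_diag _ (π j).isLt, C.cartan_diag _ j.isLt]
    · have hij' : π i ≠ π j := fun e => hij (π.injective e)
      have hb : D.bonds (π i) (π j) = D.bonds i j := hπ i j hij
      simp only [Cfsg.Lie.ChevalleyDatum.bonds] at hb
      rw [← hsymm _ (π i).isLt _ (π j).isLt, ← hsymm _ i.isLt _ j.isLt] at hb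
      rcases hoff _ i.isLt _ j.isLt (fun e => hij (Fin.ext e)) with h | h <;>
        rcases hoff _ (π i).isLt _ (π j).isLt (fun e => hij' (Fin.ext e)) with h' | h' <;>
        rw [h, h'] at hb ⊢ <;> norm_num at hb
  let Q : ℕ → ℕ → Prop := fun r s => ∀ k : Fin D.rank,
    Cfsg.Agent.Chev.corootC D s (π k) = Cfsg.Agent.Chev.corootC D r k
  have hperm : ∀ r s, s < D.nroots → Q r s → D.permRoot π r = s := by
    intro r s hs hQ
    unfold Cfsg.Lie.ChevalleyDatum.permRoot
    cases hf : (List.range D.nroots).find? _ with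
    | none =>
      have := List.find?_eq_none.1 hf s (List.mem_range.2 hs)
      exact absurd (List.all_eq_true.2 fun k _ => beq_iff_eq.2 (hQ k)) this
    | some u =>
      have h1 := List.find?_some hf
      have h2 := List.mem_range.1 (List.mem_of_find?_eq_some hf)
      simp only [Option.getD_some]
      refine hinj u h2 s hs fun k hk => ?_
      obtain ⟨k', hk'⟩ := π.surjective ⟨k, hk⟩
      have e1 : Cfsg.Agent.Chev.corootC D u (π k') = Cfsg.Agent.Chev.corootC D r k' :=
        beq_iff_eq.1 (List.all_eq_true.1 h1 k' (List.mem_finRange k'))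
      rw [show k = (π k' : ℕ) by rw [hk'], e1, hQ k']
  have key : ∀ r < D.nroots, ∃ s < D.nroots, Q r s ∧ ∃ ε : F, (ε = 1 ∨ ε = -1) ∧
      ∀ t : F, ((φ ⟨C.xu r t, C.xu_mem_group r t⟩ : GL D.Idx F)) = C.xu s (ε * t) := by
    refine C.induction_simple _ (fun i hi => ?_) fun i hi r hr ih => ?_
    · refine ⟨D.simple (π ⟨i, hi⟩), C.simple_lt _ (π ⟨i, hi⟩).isLt, fun k => ?_, 1, Or.inl rfl,
        fun t => ?_⟩
      · rw [C.coroot_simple _ (π ⟨i, hi⟩).isLt _ (π k).isLt, C.coroot_simple i hi _ k.isLt]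
        refine if_congr ⟨fun e => ?_, fun e => ?_⟩ rfl rfl
        · exact congrArg Fin.val (π.injective (Fin.ext e : π k = π ⟨i, hi⟩))
        · rw [show k = ⟨i, hi⟩ from Fin.ext e]
      · rw [one_mul]
        exact Units.ext ((hφ ⟨C.xu (D.simple i) t, C.xu_mem_group _ t⟩ ⟨i, hi⟩ t).1 rfl)
    · obtain ⟨s, hs, hQ, ε, hε, hx⟩ := ih
      let i' : Fin D.rank := π ⟨i, hi⟩
      refine ⟨D.reflectRoot i' s, C.refl_lt _ i'.isLt s hs, fun k => ?_,
        ((C.eta i' s : ℤ) : F) * ε * ((C.eta i r : ℤ) : F), ?_, fun t => ?_⟩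
      · rw [C.coroot_refl _ i'.isLt s hs _ (π k).isLt, C.coroot_refl i hi r hr _ k.isLt, hQ k]
        congr 1
        refine if_congr ⟨fun e => ?_, fun e => ?_⟩ ?_ rfl
        · exact congrArg Fin.val (π.injective (Fin.ext e : π k = π ⟨i, hi⟩))
        · rw [show k = ⟨i, hi⟩ from Fin.ext e]
        · rw [Finset.sum_range, Finset.sum_range, ← Equiv.sum_comp π]
          exact Finset.sum_congr rfl fun j _ => by rw [hQ j, hA j ⟨i, hi⟩]
      · rcases C.eta_sign _ i'.isLt s hs with e | e <;> rcases C.eta_sign i hi r hr with e' | e' <;>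
          rcases hε with e'' | e'' <;> simp [e, e', e'']
      · let m : ∀ (u : ℕ) (v : F), ↥(D.group F) := fun u v => ⟨C.xu u v, C.xu_mem_group u v⟩
        have hN : ∀ u : ℕ, C.nu u (1 : F) = ((m u 1 * m (D.neg u) (-1) * m u 1 : ↥(D.group F)) : GL D.Idx F) :=
          fun u => by rw [C.nu_eq, inv_one]; rfl
        have hφN : ((φ (m (D.simple i) 1 * m (D.neg (D.simple i)) (-1) * m (D.simple i) 1) : ↥(D.group F)) :
            GL D.Idx F) = C.nu (D.simple i') 1 := by
          have e1 := Units.ext ((hφ (m (D.simple i) 1) ⟨i, hi⟩ 1).1 rfl) (v := C.xu (D.simple i') 1)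
          have e2 := Units.ext ((hφ (m (D.neg (D.simple i)) (-1)) ⟨i, hi⟩ (-1)).2 rfl)
            (v := C.xu (D.neg (D.simple i')) (-1))
          rw [map_mul, map_mul, Subgroup.coe_mul, Subgroup.coe_mul, e1, e2, C.nu_eq, inv_one]
        have hg : m (D.reflectRoot i r) t =
            (m (D.simple i) 1 * m (D.neg (D.simple i)) (-1) * m (D.simple i) 1) *
              m r (((C.eta i r : ℤ) : F) * t) *
              (m (D.simple i) 1 * m (D.neg (D.simple i)) (-1) * m (D.simple i) 1)⁻¹ := by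
          apply Subtype.ext
          rw [Subgroup.coe_mul, Subgroup.coe_mul, Subgroup.coe_inv, ← hN]
          show C.xu _ t = C.nu _ 1 * C.xu r _ * _
          rw [C.nu_conj hi hr, ← mul_assoc, C.eta_cast_sq hi hr, one_mul, mul_inv_cancel_right]
        show ((φ (m (D.reflectRoot i r) t) : ↥(D.group F)) : GL D.Idx F) = _
        rw [hg, map_mul, map_mul, map_inv, Subgroup.coe_mul, Subgroup.coe_mul, Subgroup.coe_inv, hφN,
          hx, C.nu_conj i'.isLt hs, mul_inv_cancel_right, mul_assoc, mul_assoc]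
  obtain ⟨s, hs, hQ, ε, hε, hx⟩ := key r hr
  refine ⟨ε, hε, fun g t hgt => ?_⟩
  rw [hperm r s hs hQ, show g = ⟨C.xu r t, C.xu_mem_group r t⟩ from Subtype.ext (Units.ext hgt), hx]
  rfl

end Cfsg.Agent.S2161
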