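import Cfsg.Statements.S2299
import Cfsg.Agent.KnownA.GL2.SLValues
-- import your own Cfsg.Agent.* helpers here

set_option autoImplicit false
open Cfsg

namespace Cfsg.Agent.S2299

/-- Over a finite field F with q elements, q odd, every irreducible complex character of SL₂ has degree 1, q, q + 1, q − 1, (q + 1)/2 or (q − 1)/2; and when q ≥ 5 (so that these six numbers are distinct) there are exactly one irreducible character of degree 1, one of degree q, (q − 3)/2 of degree q + 1, (q − 1)/2 of degree q − 1, two of degree (q + 1)/2 and two of degree (q − 1)/2. -/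
theorem result {F : Type*} [Field F] [Fintype F] (hodd : Odd (Fintype.card F)) :
    (∀ χ : Matrix.SpecialLinearGroup (Fin 2) F → ℂ, Cfsg.IsIrrCharacter (Matrix.SpecialLinearGroup (Fin 2) F) χ →
      χ 1 = 1 ∨ χ 1 = (Fintype.card F : ℂ) ∨ χ 1 = (Fintype.card F : ℂ) + 1 ∨ χ 1 = (Fintype.card F : ℂ) - 1 ∨
        χ 1 = (((Fintype.card F + 1) / 2 : ℕ) : ℂ) ∨ χ 1 = (((Fintype.card F - 1) / 2 : ℕ) : ℂ)) ∧
    (5 ≤ Fintype.card F →
      Nat.card {χ : Cfsg.IrrCharacter (Matrix.SpecialLinearGroup (Fin 2) F) // (χ : Matrix.SpecialLinearGroup (Fin 2) F → ℂ) 1 = 1} = 1 ∧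
      Nat.card {χ : Cfsg.IrrCharacter (Matrix.SpecialLinearGroup (Fin 2) F) // (χ : Matrix.SpecialLinearGroup (Fin 2) F → ℂ) 1 = (Fintype.card F : ℂ)} = 1 ∧
      Nat.card {χ : Cfsg.IrrCharacter (Matrix.SpecialLinearGroup (Fin 2) F) // (χ : Matrix.SpecialLinearGroup (Fin 2) F → ℂ) 1 = (Fintype.card F : ℂ) + 1} = (Fintype.card F - 3) / 2 ∧
      Nat.card {χ : Cfsg.IrrCharacter (Matrix.SpecialLinearGroup (Fin 2) F) // (χ : Matrix.SpecialLinearGroup (Fin 2) F → ℂ) 1 = (Fintype.card F : ℂ) - 1} = (Fintype.card F - 1) / 2 ∧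
      Nat.card {χ : Cfsg.IrrCharacter (Matrix.SpecialLinearGroup (Fin 2) F) // (χ : Matrix.SpecialLinearGroup (Fin 2) F → ℂ) 1 = (((Fintype.card F + 1) / 2 : ℕ) : ℂ)} = 2 ∧
      Nat.card {χ : Cfsg.IrrCharacter (Matrix.SpecialLinearGroup (Fin 2) F) // (χ : Matrix.SpecialLinearGroup (Fin 2) F → ℂ) 1 = (((Fintype.card F - 1) / 2 : ℕ) : ℂ)} = 2) := by
  classical
  refine ⟨fun χ hχ => ?_, fun hq => ?_⟩
  · obtain ⟨d, hd, k⟩ := Cfsg.Agent.KnownA.GL2.kinds hχ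
    rw [Nat.odd_iff] at hodd
    rw [hd]
    rcases k with ⟨-, -, -, -, -, -, e⟩ | ⟨-, -, -, -, -, -, e⟩ | ⟨-, -, -, -, -, -, e⟩ |
      ⟨-, -, -, -, -, -, e⟩ | ⟨-, -, -, -, -, -, e⟩ | ⟨-, -, -, -, -, -, e⟩
    · left; simp [e]
    · right; left; simp [e]
    · right; right; left; simp [e]
    · right; right; right; right; left
      rw [show (Fintype.card F + 1) / 2 = d by omega]
    · right; right; right; left
      rw [← e]; simp
    · right; right; right; right; right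
      rw [show (Fintype.card F - 1) / 2 = d by omega]
  · obtain ⟨hP, hB, hC⟩ := Cfsg.Agent.KnownA.GL2.counts_odd hodd
    have ho := Nat.odd_iff.1 hodd
    refine ⟨?_, ?_, ?_, ?_, ?_, ?_⟩
    · rw [Cfsg.Agent.KnownA.GL2.card_degree_eq (P := Cfsg.Agent.KnownA.GL2.KT) fun χ => ⟨fun h => ?_, fun h => ?_⟩, Cfsg.Agent.KnownA.GL2.nK_T]
      · obtain ⟨d, hd, k⟩ := Cfsg.Agent.KnownA.GL2.kinds χ.2
        have : d = 1 := by exact_mod_cast hd.symm.trans h
        rcases k with ⟨c, -, -, -, -, -, e⟩ | ⟨c, -, -, -, -, -, e⟩ | ⟨c, -, -, -, -, -, e⟩ |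
          ⟨c, -, -, -, -, -, e⟩ | ⟨c, -, -, -, -, -, e⟩ | ⟨c, -, -, -, -, -, e⟩ <;>
          first | exact c | omega
      · exact congrFun h 1
    · rw [Cfsg.Agent.KnownA.GL2.card_degree_eq (P := Cfsg.Agent.KnownA.GL2.KS) fun χ => ⟨Cfsg.Agent.KnownA.GL2.kind_of_q χ.2, fun h => ?_⟩, Cfsg.Agent.KnownA.GL2.nK_S]
      rw [show (χ : Matrix.SpecialLinearGroup (Fin 2) F → ℂ) = Cfsg.Agent.KnownA.GL2.stS from h, Cfsg.Agent.KnownA.GL2.stS_one]
    · rw [Cfsg.Agent.KnownA.GL2.card_degree_eq (P := Cfsg.Agent.KnownA.GL2.KP) fun χ => ⟨Cfsg.Agent.KnownA.GL2.kind_of_q_add_one χ.2, fun h => ?_⟩]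
      · omega
      · obtain ⟨α, -, e⟩ := h
        rw [e, Cfsg.Agent.KnownA.GL2.RS_one_apply]
    · rw [Cfsg.Agent.KnownA.GL2.card_degree_eq (P := Cfsg.Agent.KnownA.GL2.KB) fun χ => ⟨Cfsg.Agent.KnownA.GL2.kind_of_q_sub_one (by omega) χ.2, fun h => ?_⟩]
      · omega
      · obtain ⟨d, hd⟩ := Cfsg.Agent.Chars.exists_apply_one_eq (Cfsg.Agent.Chars.irr_isCharacter χ)
        rw [hd, ← Cfsg.Agent.KnownA.GL2.degB h hd]
        simp
    · rw [Cfsg.Agent.KnownA.GL2.card_degree_eq (P := Cfsg.Agent.KnownA.GL2.IsHalfS) fun χ => ⟨fun h => ?_, fun h => ?_⟩, Cfsg.Agent.KnownA.GL2.nK_H hodd]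
      · exact (Cfsg.Agent.KnownA.GL2.kind_of_half_up hodd χ.2 h).resolve_right (fun e => by omega)
      · obtain ⟨d, hd⟩ := Cfsg.Agent.Chars.exists_apply_one_eq (Cfsg.Agent.Chars.irr_isCharacter χ)
        have := Cfsg.Agent.KnownA.GL2.degH h hd
        rw [hd, show (Fintype.card F + 1) / 2 = d by omega]
    · rw [Cfsg.Agent.KnownA.GL2.card_degree_eq (P := Cfsg.Agent.KnownA.GL2.KC) fun χ => ⟨Cfsg.Agent.KnownA.GL2.kind_of_half_down hodd hq χ.2, fun h => ?_⟩, hC]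
      obtain ⟨d, hd⟩ := Cfsg.Agent.Chars.exists_apply_one_eq (Cfsg.Agent.Chars.irr_isCharacter χ)
      have := Cfsg.Agent.KnownA.GL2.degC h hd
      rw [hd, show (Fintype.card F - 1) / 2 = d by omega]

end Cfsg.Agent.S2299
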