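import Cfsg.Statements.S2300
import Cfsg.Agent.KnownA.GL2.SLValues
-- import your own Cfsg.Agent.* helpers here

set_option autoImplicit false
open Cfsg

namespace Cfsg.Agent.S2300

/-- Over a finite field F with q elements, q even, every irreducible complex character of SL₂ has degree 1, q − 1, q or q + 1; and when q ≥ 4 (so that these four numbers are distinct) there are exactly one irreducible character of degree 1, one of degree q, (q − 2)/2 of degree q + 1 and q/2 of degree q − 1. -/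
theorem result {F : Type*} [Field F] [Fintype F] [CharP F 2] :
    (∀ χ : Matrix.SpecialLinearGroup (Fin 2) F → ℂ, Cfsg.IsIrrCharacter (Matrix.SpecialLinearGroup (Fin 2) F) χ →
      χ 1 = 1 ∨ χ 1 = (Fintype.card F : ℂ) - 1 ∨ χ 1 = (Fintype.card F : ℂ) ∨ χ 1 = (Fintype.card F : ℂ) + 1) ∧
    (4 ≤ Fintype.card F →
      Nat.card {χ : Cfsg.IrrCharacter (Matrix.SpecialLinearGroup (Fin 2) F) // (χ : Matrix.SpecialLinearGroup (Fin 2) F → ℂ) 1 = 1} = 1 ∧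
      Nat.card {χ : Cfsg.IrrCharacter (Matrix.SpecialLinearGroup (Fin 2) F) // (χ : Matrix.SpecialLinearGroup (Fin 2) F → ℂ) 1 = (Fintype.card F : ℂ)} = 1 ∧
      Nat.card {χ : Cfsg.IrrCharacter (Matrix.SpecialLinearGroup (Fin 2) F) // (χ : Matrix.SpecialLinearGroup (Fin 2) F → ℂ) 1 = (Fintype.card F : ℂ) + 1} = (Fintype.card F - 2) / 2 ∧
      Nat.card {χ : Cfsg.IrrCharacter (Matrix.SpecialLinearGroup (Fin 2) F) // (χ : Matrix.SpecialLinearGroup (Fin 2) F → ℂ) 1 = (Fintype.card F : ℂ) - 1} = Fintype.card F / 2) := by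
  classical
  have h2 : (2 : F) = 0 := CharTwo.two_eq_zero
  refine ⟨fun χ hχ => ?_, fun hq => ?_⟩
  · obtain ⟨d, hd, k⟩ := Cfsg.Agent.KnownA.GL2.kinds hχ
    rw [hd]
    rcases k with ⟨-, -, -, -, -, -, e⟩ | ⟨-, -, -, -, -, -, e⟩ | ⟨-, -, -, -, -, -, e⟩ |
      ⟨-, -, -, c, -, -, -⟩ | ⟨-, -, -, -, -, -, e⟩ | ⟨-, -, -, -, -, c, -⟩
    · left; simp [e]
    · right; right; left; simp [e]
    · right; right; right; simp [e]
    · exact absurd h2 (Cfsg.Agent.KnownA.GL2.two_ne_zero_of_odd (Cfsg.Agent.KnownA.GL2.odd_of_half c))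
    · right; left; rw [← e]; simp
    · exact absurd h2 (Cfsg.Agent.KnownA.GL2.two_ne_zero_of_odd c.odd)
  · obtain ⟨hP, hB⟩ := Cfsg.Agent.KnownA.GL2.counts_even h2
    refine ⟨?_, ?_, ?_, ?_⟩
    · rw [Cfsg.Agent.KnownA.GL2.card_degree_eq (P := Cfsg.Agent.KnownA.GL2.KT) fun χ => ⟨fun h => ?_, fun h => ?_⟩, Cfsg.Agent.KnownA.GL2.nK_T]
      · obtain ⟨d, hd, k⟩ := Cfsg.Agent.KnownA.GL2.kinds χ.2
        have : d = 1 := by exact_mod_cast hd.symm.trans h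
        rcases k with ⟨c, -, -, -, -, -, e⟩ | ⟨c, -, -, -, -, -, e⟩ | ⟨c, -, -, -, -, -, e⟩ |
          ⟨c, -, -, -, -, -, e⟩ | ⟨c, -, -, -, -, -, e⟩ | ⟨c, -, -, -, -, -, e⟩ <;>
          first | exact c | omega
      · exact congrFun h 1
    · rw [Cfsg.Agent.KnownA.GL2.card_degree_eq (P := Cfsg.Agent.KnownA.GL2.KS) fun χ => ⟨Cfsg.Agent.KnownA.GL2.kind_of_q χ.2, fun h => ?_⟩, Cfsg.Agent.KnownA.GL2.nK_S]
      rw [show (χ : Matrix.SpecialLinearGroup (Fin 2) F → ℂ) = Cfsg.Agent.KnownA.GL2.stS from h, Cfsg.Agent.KnownA.GL2.stS_one]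
    · rw [Cfsg.Agent.KnownA.GL2.card_degree_eq (P := Cfsg.Agent.KnownA.GL2.KP) fun χ => ⟨Cfsg.Agent.KnownA.GL2.kind_of_q_add_one χ.2, fun h => ?_⟩]
      · omega
      · obtain ⟨α, -, e⟩ := h
        rw [e, Cfsg.Agent.KnownA.GL2.RS_one_apply]
    · rw [Cfsg.Agent.KnownA.GL2.card_degree_eq (P := Cfsg.Agent.KnownA.GL2.KB) fun χ => ⟨Cfsg.Agent.KnownA.GL2.kind_of_q_sub_one hq χ.2, fun h => ?_⟩]
      · omega
      · obtain ⟨d, hd⟩ := Cfsg.Agent.Chars.exists_apply_one_eq (Cfsg.Agent.Chars.irr_isCharacter χ)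
        rw [hd, ← Cfsg.Agent.KnownA.GL2.degB h hd]
        simp

end Cfsg.Agent.S2300
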