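import Cfsg.Statements.S2301
import Cfsg.Agent.KnownA.GL2.Centralizers
-- import your own Cfsg.Agent.* helpers here

set_option autoImplicit false
open Cfsg

namespace Cfsg.Agent.S2301

/-- Over a finite field with q elements of odd characteristic p, the elements of order p of SL₂ (the non-identity unipotent elements) fall into exactly two conjugacy classes, each of size (q² − 1)/2; two upper unitriangular matrices with non-zero off-diagonal entries b and b′ are conjugate exactly when bb′ is a square. -/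
theorem result {F : Type*} [Field F] [Fintype F] (p : ℕ) [Fact p.Prime] [CharP F p] (hp : p ≠ 2) :
    Nat.card {C : ConjClasses (Matrix.SpecialLinearGroup (Fin 2) F) // ∃ g : Matrix.SpecialLinearGroup (Fin 2) F, orderOf g = p ∧ ConjClasses.mk g = C} = 2 ∧
    (∀ g : Matrix.SpecialLinearGroup (Fin 2) F, orderOf g = p → Nat.card (ConjClasses.mk g).carrier = (Fintype.card F ^ 2 - 1) / 2) ∧
    ∀ g h : Matrix.SpecialLinearGroup (Fin 2) F, (g : Matrix (Fin 2) (Fin 2) F) 0 0 = 1 → (g : Matrix (Fin 2) (Fin 2) F) 1 1 = 1 → (g : Matrix (Fin 2) (Fin 2) F) 1 0 = 0 → (g : Matrix (Fin 2) (Fin 2) F) 0 1 ≠ 0 →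
      (h : Matrix (Fin 2) (Fin 2) F) 0 0 = 1 → (h : Matrix (Fin 2) (Fin 2) F) 1 1 = 1 → (h : Matrix (Fin 2) (Fin 2) F) 1 0 = 0 → (h : Matrix (Fin 2) (Fin 2) F) 0 1 ≠ 0 →
      (IsConj g h ↔ IsSquare ((g : Matrix (Fin 2) (Fin 2) F) 0 1 * (h : Matrix (Fin 2) (Fin 2) F) 0 1)) := by
  classical
  have hodd : Odd (Fintype.card F) := by
    rw [Nat.odd_iff, ← Nat.mod_two_ne_zero]
    intro h
    exact hp ((CharP.eq F inferInstance (ringChar.charP F)).trans
      (FiniteField.even_card_iff_char_two.2 h))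
  have h2 := KnownA.GL2.two_ne_zero_of_odd (F := F) hodd
  refine ⟨KnownA.GL2.unipotent_classes hodd p, fun g hg => ?_,
    fun g h g00 g11 g10 g01 h00 h11 h10 h01 =>
      KnownA.GL2.isConj_triangular_iff h2 g00 g11 g10 g01 h00 h11 h10 h01⟩
  obtain ⟨ht, hs⟩ := KnownA.GL2.trace_of_orderOf_SL hg
  exact KnownA.GL2.class_size_unip h2 hs ht

end Cfsg.Agent.S2301
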