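import Cfsg.Statements.S2309
import Cfsg.Agent.KnownA.GL2.GLTable
-- import your own Cfsg.Agent.* helpers here

set_option autoImplicit false
open Cfsg

namespace Cfsg.Agent.S2309

/-- Over a finite field F with q elements: every irreducible complex character of GL₂ of degree q − 1 vanishes at every diagonal matrix with two distinct entries, and every irreducible complex character of degree q + 1 vanishes at every element with no eigenvector in F². -/
theorem result {F : Type*} [Field F] [Fintype F] (χ : Matrix.GeneralLinearGroup (Fin 2) F → ℂ) (hχ : Cfsg.IsIrrCharacter (Matrix.GeneralLinearGroup (Fin 2) F) χ) (g : Matrix.GeneralLinearGroup (Fin 2) F) :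
    (χ 1 = (Fintype.card F : ℂ) - 1 → (g : Matrix (Fin 2) (Fin 2) F) 0 1 = 0 → (g : Matrix (Fin 2) (Fin 2) F) 1 0 = 0 → (g : Matrix (Fin 2) (Fin 2) F) 0 0 ≠ (g : Matrix (Fin 2) (Fin 2) F) 1 1 → χ g = 0) ∧
    (χ 1 = (Fintype.card F : ℂ) + 1 → (∀ (c : F) (v : Fin 2 → F), v ≠ 0 → (g : Matrix (Fin 2) (Fin 2) F).mulVec v ≠ c • v) → χ g = 0) := by
  classical
  refine ⟨fun h h01 h10 hne => ?_, fun h hg => ?_⟩
  · obtain ⟨a, d, c, rfl, ha, hd⟩ := Cfsg.Agent.KnownA.GL2.eq_bG_of_diag h10
    have hne' : a ≠ d := fun e => hne (by rw [← ha, ← hd, e])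
    rcases le_or_gt 3 (Fintype.card F) with hq | hq
    · exact (Cfsg.Agent.KnownA.GL2.isCusp_of_degree hq hχ h).split hne' c
    · exfalso
      have : Fintype.card Fˣ ≤ 1 := by rw [Fintype.card_units]; omega
      exact hne' (Fintype.card_le_one_iff.1 this a d)
  · obtain ⟨α, β, -, rfl⟩ := Cfsg.Agent.KnownA.GL2.eq_RG_of_degree hχ h
    rw [Cfsg.Agent.KnownA.GL2.RG_eq, Cfsg.Agent.KnownA.GL2.Rval_elliptic _ hg]

end Cfsg.Agent.S2309
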