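import Cfsg.Statements.S2310
import Cfsg.Agent.KnownA.GL2.GLTable
-- import your own Cfsg.Agent.* helpers here

set_option autoImplicit false
open Cfsg

namespace Cfsg.Agent.S2310

/-- Over a finite field F with q ≥ 3 elements, let u be the upper unitriangular matrix of GL₂ with off-diagonal entry 1. An irreducible complex character χ of GL₂ takes at u the value 1 if χ has degree 1 or q + 1, the value −1 if χ has degree q − 1, and the value 0 if χ has degree q. -/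
theorem result {F : Type*} [Field F] [Fintype F] (hq : 3 ≤ Fintype.card F) (χ : Matrix.GeneralLinearGroup (Fin 2) F → ℂ) (hχ : Cfsg.IsIrrCharacter (Matrix.GeneralLinearGroup (Fin 2) F) χ)
    (u : Matrix.GeneralLinearGroup (Fin 2) F) (hu : (u : Matrix (Fin 2) (Fin 2) F) = !![1, 1; 0, 1]) :
    (χ 1 = 1 → χ u = 1) ∧ (χ 1 = (Fintype.card F : ℂ) + 1 → χ u = 1) ∧
    (χ 1 = (Fintype.card F : ℂ) - 1 → χ u = -1) ∧ (χ 1 = (Fintype.card F : ℂ) → χ u = 0) := by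
  classical
  have hu' : u = Cfsg.Agent.KnownA.GL2.bG 1 1 1 := by
    apply Units.ext
    rw [hu, Cfsg.Agent.KnownA.GL2.bG_val]
    simp
  subst hu'
  have h10 : ((Cfsg.Agent.KnownA.GL2.bG (1 : Fˣ) 1 (1 : F) : Matrix.GeneralLinearGroup (Fin 2) F) :
      Matrix (Fin 2) (Fin 2) F) 1 0 = 0 := by rw [hu]; simp
  have hR : ∀ α β, Cfsg.Agent.KnownA.GL2.RG α β (Cfsg.Agent.KnownA.GL2.bG (1 : Fˣ) 1 (1 : F)) = 1 := by
    intro α β
    rw [Cfsg.Agent.KnownA.GL2.RG_eq, Cfsg.Agent.KnownA.GL2.Rval_unip _ h10 (by rw [hu]; simp)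
      (by rw [hu]; simp)]
    simp [hu]
  refine ⟨fun h => ?_, fun h => ?_, fun h => ?_, fun h => ?_⟩
  · obtain ⟨α, rfl⟩ := Cfsg.Agent.KnownA.GL2.eq_linG_of_degree hq hχ h
    simp [Cfsg.Agent.KnownA.GL2.linG, hu]
  · obtain ⟨α, β, -, rfl⟩ := Cfsg.Agent.KnownA.GL2.eq_RG_of_degree hχ h
    exact hR α β
  · exact (Cfsg.Agent.KnownA.GL2.isCusp_of_degree hq hχ h).apply_unip one_ne_zero
  · obtain ⟨α, rfl⟩ := Cfsg.Agent.KnownA.GL2.eq_stG_of_degree hχ h
    rw [Cfsg.Agent.KnownA.GL2.stG, Pi.sub_apply, hR]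
    simp [Cfsg.Agent.KnownA.GL2.linG, hu]

end Cfsg.Agent.S2310
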