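import Cfsg.Statements.S2315
import Cfsg.Agent.Forms.NilpotentCount

set_option autoImplicit false
open Cfsg

namespace Cfsg.Agent.S2315

open Cfsg.Agent.Forms

/-- Steinberg's count of unipotent elements for the general linear group: over a finite field with q elements of characteristic p, the number of elements of GL_n of p-power order (the unipotent matrices) is q^(n(n−1)). -/
theorem result {F : Type*} [Field F] [Fintype F] (p : ℕ) [Fact p.Prime] [CharP F p] (n : ℕ) :
    Nat.card {g : Matrix.GeneralLinearGroup (Fin n) F // ∃ k : ℕ, orderOf g = p ^ k} = Fintype.card F ^ (n * (n - 1)) := by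
  classical
  have hp : p.Prime := Fact.out
  rw [← card_nilpotent_end]
  rcases Nat.eq_zero_or_pos n with rfl | hn
  · haveI : Nonempty {g : Matrix.GeneralLinearGroup (Fin 0) F // ∃ k : ℕ, orderOf g = p ^ k} :=
      ⟨⟨1, 0, by simp⟩⟩
    haveI : Nonempty {T : Module.End F (Fin 0 → F) // IsNilpotent T} := ⟨⟨0, IsNilpotent.zero⟩⟩
    haveI : Subsingleton (Matrix.GeneralLinearGroup (Fin 0) F) :=
      ⟨fun a b => Units.ext (Subsingleton.elim _ _)⟩
    rw [Nat.card_eq_one_iff_unique.2 ⟨inferInstance, inferInstance⟩,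
      Nat.card_eq_one_iff_unique.2 ⟨inferInstance, inferInstance⟩]
  haveI : Nonempty (Fin n) := ⟨⟨0, hn⟩⟩
  have hiff : ∀ g : Matrix.GeneralLinearGroup (Fin n) F,
      (∃ k : ℕ, orderOf g = p ^ k) ↔ IsNilpotent ((g : Matrix (Fin n) (Fin n) F) - 1) := by
    intro g
    have hpow : ∀ k, ((g : Matrix (Fin n) (Fin n) F) - 1) ^ p ^ k = 0 ↔ g ^ p ^ k = 1 := by
      intro k
      rw [sub_pow_char_pow_of_commute p k (Commute.one_right _), one_pow, sub_eq_zero,
        ← Units.val_pow_eq_pow_val, ← Units.val_one, Units.val_inj]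
    constructor
    · rintro ⟨k, hk⟩
      exact ⟨p ^ k, (hpow k).2 (by rw [← hk, pow_orderOf_eq_one])⟩
    · rintro ⟨N, hN⟩
      have h1 := pow_eq_zero_of_le (Nat.lt_pow_self hp.one_lt : N < p ^ N).le hN
      obtain ⟨k, -, hk⟩ := (Nat.dvd_prime_pow hp).1 (orderOf_dvd_of_pow_eq_one ((hpow N).1 h1))
      exact ⟨k, hk⟩
  let e : Matrix (Fin n) (Fin n) F ≃ₐ[F] Module.End F (Fin n → F) := Matrix.toLinAlgEquiv'
  refine Nat.card_eq_of_bijective
    (fun g : {g : Matrix.GeneralLinearGroup (Fin n) F // ∃ k : ℕ, orderOf g = p ^ k} =>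
      (⟨e ((g.1 : Matrix (Fin n) (Fin n) F) - 1), ((hiff g.1).1 g.2).map e⟩ :
        {T : Module.End F (Fin n → F) // IsNilpotent T})) ⟨fun a b h => ?_, fun T => ?_⟩
  · exact Subtype.ext (Units.ext (sub_left_injective (e.injective (congrArg Subtype.val h))))
  · have hT : IsNilpotent (e.symm T.1) := T.2.map e.symm
    have hu : IsUnit (1 + e.symm T.1) := hT.isUnit_one_add
    refine ⟨⟨hu.unit, (hiff _).2 ?_⟩, Subtype.ext ?_⟩
    · rw [hu.unit_spec, add_sub_cancel_left]; exact hT
    · simp [hu.unit_spec]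

end Cfsg.Agent.S2315
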