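import Cfsg.Statements.S2316
import Cfsg.Agent.Dickson.SpUnipMain
import Cfsg.Agent.Forms.Models
-- import your own Cfsg.Agent.* helpers here

set_option autoImplicit false
open Cfsg

namespace Cfsg.Agent.S2316

/-- Steinberg's count of unipotent elements for the symplectic group: over a finite field with q elements of characteristic p, the number of elements of Sp_{2m} of p-power order is q^(2m²). -/
theorem result {F : Type*} [Field F] [Fintype F] (p : ℕ) [Fact p.Prime] [CharP F p] (m : ℕ) :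
    Nat.card {g : ↥(Matrix.symplecticGroup (Fin m) F) // ∃ k : ℕ, orderOf g = p ^ k} = Fintype.card F ^ (2 * m ^ 2) := by
  classical
  have hp : p.Prime := Fact.out
  have hfin : Module.finrank F (Fin m ⊕ Fin m → F) = 2 * m := by simp [two_mul]
  have hcard := Cfsg.Agent.Dickson.SpUnip.card_unip (F := F) (B := Cfsg.Agent.Forms.sympB m F)
    Cfsg.Agent.Forms.sympB_isAlt Cfsg.Agent.Forms.sympB_nondegenerate hfin
  rw [Nat.card_eq_fintype_card (α := F)] at hcard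
  rw [← hcard]
  refine Nat.card_congr ((Equiv.subtypeEquiv (Cfsg.Agent.Forms.spEquiv m F).toEquiv
    (q := fun e : ↥(Cfsg.Agent.Forms.isomGroup (Cfsg.Agent.Forms.sympB m F) (fun _ => 0)) =>
      IsNilpotent (((e : (Fin m ⊕ Fin m → F) ≃ₗ[F] (Fin m ⊕ Fin m → F)) :
        Module.End F (Fin m ⊕ Fin m → F)) - 1)) fun g => ?_).trans ?_)
  swap
  · refine (Equiv.subtypeSubtypeEquivSubtypeInter
      (fun e : (Fin m ⊕ Fin m → F) ≃ₗ[F] (Fin m ⊕ Fin m → F) =>
        e ∈ Cfsg.Agent.Forms.isomGroup (Cfsg.Agent.Forms.sympB m F) (fun _ => 0))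
      (fun e => IsNilpotent ((e : Module.End F (Fin m ⊕ Fin m → F)) - 1))).trans
        (Equiv.subtypeEquivRight fun e => ?_)
    rw [Cfsg.Agent.Forms.mem_isomGroup_symp_iff]
    exact and_congr_left' (forall₂_congr fun u v => by
      rw [Cfsg.Agent.Forms.sympB_apply, Cfsg.Agent.Forms.sympB_apply])
  let M : Matrix (Fin m ⊕ Fin m) (Fin m ⊕ Fin m) F := g
  have hE : ((↑((Cfsg.Agent.Forms.spEquiv m F) g) : (Fin m ⊕ Fin m → F) ≃ₗ[F] (Fin m ⊕ Fin m → F)).toLinearMap) =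
      Matrix.toLinAlgEquiv' M :=
    LinearMap.ext fun v => by
      rw [LinearEquiv.coe_coe, Cfsg.Agent.Forms.spEquiv_apply, Matrix.toLinAlgEquiv'_apply]
  show (∃ k : ℕ, orderOf g = p ^ k) ↔ _
  rw [MulEquiv.toEquiv_eq_coe, EquivLike.coe_coe, hE,
    ← map_one (Matrix.toLinAlgEquiv' (R := F) (n := Fin m ⊕ Fin m)), ← map_sub,
    IsNilpotent.map_iff (Matrix.toLinAlgEquiv' (R := F) (n := Fin m ⊕ Fin m)).injective]
  rcases Nat.eq_zero_or_pos m with rfl | hm
  · haveI : Subsingleton (Matrix (Fin 0 ⊕ Fin 0) (Fin 0 ⊕ Fin 0) F) := inferInstance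
    refine ⟨fun _ => ⟨1, Subsingleton.elim _ _⟩, fun _ => ⟨0, ?_⟩⟩
    rw [pow_zero, orderOf_eq_one_iff]
    exact Subtype.ext (Subsingleton.elim _ _)
  haveI : Nonempty (Fin m ⊕ Fin m) := ⟨.inl ⟨0, hm⟩⟩
  have key : ∀ k, g ^ (p ^ k) = 1 ↔ (M - 1) ^ (p ^ k) = 0 := by
    intro k
    rw [sub_pow_char_pow_of_commute p k (Commute.one_right M), one_pow, sub_eq_zero, Subtype.ext_iff,
      SubmonoidClass.coe_pow, OneMemClass.coe_one]
  constructor
  · rintro ⟨k, hk⟩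
    exact ⟨p ^ k, (key k).1 (by rw [← hk, pow_orderOf_eq_one])⟩
  · rintro ⟨n, hn⟩
    have h1 : g ^ (p ^ n) = 1 := (key n).2 (pow_eq_zero_of_le (Nat.lt_pow_self hp.one_lt).le hn)
    obtain ⟨k, -, hk⟩ := (Nat.dvd_prime_pow hp).1 (orderOf_dvd_of_pow_eq_one h1)
    exact ⟨k, hk⟩

end Cfsg.Agent.S2316
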