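import Cfsg.Statements.S2321
import Cfsg.Agent.KnownA.GL2.SLValues
-- import your own Cfsg.Agent.* helpers here

set_option autoImplicit false
open Cfsg

namespace Cfsg.Agent.S2321

/-- Over a finite field F with q elements, an irreducible complex character of SL₂ of degree q (the Steinberg character) takes the value 1 at every diagonal matrix whose diagonal entry a has a² ≠ 1, the value −1 at every element with no eigenvector in F², and the value 0 at every upper triangular matrix with equal diagonal entries and non-zero upper right entry. -/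
theorem result {F : Type*} [Field F] [Fintype F] (χ : Matrix.SpecialLinearGroup (Fin 2) F → ℂ) (hχ : Cfsg.IsIrrCharacter (Matrix.SpecialLinearGroup (Fin 2) F) χ) (hdeg : χ 1 = (Fintype.card F : ℂ)) (g : Matrix.SpecialLinearGroup (Fin 2) F) :
    ((g : Matrix (Fin 2) (Fin 2) F) 0 1 = 0 → (g : Matrix (Fin 2) (Fin 2) F) 1 0 = 0 → (g : Matrix (Fin 2) (Fin 2) F) 0 0 ^ 2 ≠ 1 → χ g = 1) ∧
    ((∀ (c : F) (v : Fin 2 → F), v ≠ 0 → (g : Matrix (Fin 2) (Fin 2) F).mulVec v ≠ c • v) → χ g = -1) ∧
    ((g : Matrix (Fin 2) (Fin 2) F) 1 0 = 0 → (g : Matrix (Fin 2) (Fin 2) F) 0 0 = (g : Matrix (Fin 2) (Fin 2) F) 1 1 → (g : Matrix (Fin 2) (Fin 2) F) 0 1 ≠ 0 → χ g = 0) := by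
  classical
  obtain rfl := Cfsg.Agent.KnownA.GL2.kind_of_q hχ hdeg
  refine ⟨fun h01 h10 h => ?_, fun h => ?_, fun h10 h h01 => Cfsg.Agent.KnownA.GL2.stS_values_unip h10 h h01⟩
  · have hd := g.2
    rw [Matrix.det_fin_two, h01, zero_mul, sub_zero] at hd
    have h11 : g.1 0 0 ≠ g.1 1 1 := fun e => h (by rw [sq]; conv_lhs => arg 2; rw [e]
                                                   exact hd)
    rw [Cfsg.Agent.KnownA.GL2.stS, Pi.sub_apply, Cfsg.Agent.KnownA.GL2.RS_eq, Cfsg.Agent.KnownA.GL2.Rval_split _ h10 h11,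
      MulChar.one_apply (left_ne_zero_of_mul (hd.trans_ne one_ne_zero)).isUnit,
      MulChar.one_apply (right_ne_zero_of_mul (hd.trans_ne one_ne_zero)).isUnit]
    norm_num
  · rw [Cfsg.Agent.KnownA.GL2.stS, Pi.sub_apply, Cfsg.Agent.KnownA.GL2.RS_elliptic _ h, zero_sub]

end Cfsg.Agent.S2321
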