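import Cfsg.Statements.S2322
import Cfsg.Agent.KnownA.GL2.SLValues
-- import your own Cfsg.Agent.* helpers here

set_option autoImplicit false
open Cfsg

namespace Cfsg.Agent.S2322

/-- Over a finite field F with q elements, q odd: every irreducible complex character of SL₂ of degree q − 1 or (q − 1)/2 vanishes at every diagonal matrix whose diagonal entry a has a² ≠ 1, and every irreducible complex character of degree q + 1 or (q + 1)/2 vanishes at every element with no eigenvector in F². -/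
theorem result {F : Type*} [Field F] [Fintype F] (hodd : Odd (Fintype.card F)) (χ : Matrix.SpecialLinearGroup (Fin 2) F → ℂ) (hχ : Cfsg.IsIrrCharacter (Matrix.SpecialLinearGroup (Fin 2) F) χ) (g : Matrix.SpecialLinearGroup (Fin 2) F) :
    ((χ 1 = (Fintype.card F : ℂ) - 1 ∨ χ 1 = (((Fintype.card F - 1) / 2 : ℕ) : ℂ)) →
      (g : Matrix (Fin 2) (Fin 2) F) 0 1 = 0 → (g : Matrix (Fin 2) (Fin 2) F) 1 0 = 0 → (g : Matrix (Fin 2) (Fin 2) F) 0 0 ^ 2 ≠ 1 → χ g = 0) ∧
    ((χ 1 = (Fintype.card F : ℂ) + 1 ∨ χ 1 = (((Fintype.card F + 1) / 2 : ℕ) : ℂ)) →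
      (∀ (c : F) (v : Fin 2 → F), v ≠ 0 → (g : Matrix (Fin 2) (Fin 2) F).mulVec v ≠ c • v) → χ g = 0) := by
  classical
  refine ⟨fun h h01 h10 ha => ?_, fun h he => ?_⟩
  · have hq5 : 5 ≤ Fintype.card F := by
      by_contra hc
      have hq : 1 < Fintype.card F := Fintype.one_lt_card
      have h3 : Fintype.card F - 1 = 2 := by rw [Nat.odd_iff] at hodd; omega
      have h00 := (Cfsg.Agent.KnownA.GL2.diag_ne_zero (g.2.trans_ne one_ne_zero) h10).1
      have := FiniteField.pow_card_sub_one_eq_one _ h00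
      rw [h3] at this
      exact ha this
    obtain ⟨a, hg, hv⟩ := Cfsg.Agent.KnownA.GL2.exists_eq_bS h10
    rw [← hv] at ha
    rw [hg]
    rcases h with h | h
    · exact (Cfsg.Agent.KnownA.GL2.kind_of_q_sub_one (by omega) hχ h).1.split ha _
    · exact (Cfsg.Agent.KnownA.GL2.kind_of_half_down hodd hq5 hχ h).1.split ha _
  · rcases h with h | h
    · obtain ⟨α, -, rfl⟩ := Cfsg.Agent.KnownA.GL2.kind_of_q_add_one hχ h
      exact Cfsg.Agent.KnownA.GL2.RS_elliptic α he
    · rcases Cfsg.Agent.KnownA.GL2.kind_of_half_up hodd hχ h with h' | ⟨h3, h'⟩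
      · exact h'.elliptic he
      · exact h'.elliptic_three h3 he

end Cfsg.Agent.S2322
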