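import Cfsg.Statements.S2324
import Cfsg.Agent.KnownA.GL2.SLValues
-- import your own Cfsg.Agent.* helpers here

set_option autoImplicit false
open Cfsg

namespace Cfsg.Agent.S2324

/-- Over a finite field F with q elements, q odd and q ≥ 5, let u be the upper unitriangular matrix of SL₂ with off-diagonal entry 1 and let δ = (−1)^((q−1)/2). Every irreducible complex character χ of SL₂ of degree (q + 1)/2 satisfies (2χ(u) − 1)² = δq, and every irreducible complex character χ of degree (q − 1)/2 satisfies (2χ(u) + 1)² = δq; that is, χ(u) = (1 ± √(δq))/2 in the first case and χ(u) = (−1 ± √(δq))/2 in the second. Moreover two different irreducible characters of degree (q + 1)/2 take the two different values (their values at u add up to 1), and likewise for degree (q − 1)/2 (values adding up to −1). -/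
theorem result {F : Type*} [Field F] [Fintype F] (hodd : Odd (Fintype.card F)) (hq : 5 ≤ Fintype.card F)
    (u : Matrix.SpecialLinearGroup (Fin 2) F) (hu : (u : Matrix (Fin 2) (Fin 2) F) = !![1, 1; 0, 1]) :
    (∀ χ : Matrix.SpecialLinearGroup (Fin 2) F → ℂ, Cfsg.IsIrrCharacter (Matrix.SpecialLinearGroup (Fin 2) F) χ → χ 1 = (((Fintype.card F + 1) / 2 : ℕ) : ℂ) → (2 * χ u - 1) ^ 2 = (-1 : ℂ) ^ ((Fintype.card F - 1) / 2) * (Fintype.card F : ℂ)) ∧
    (∀ χ : Matrix.SpecialLinearGroup (Fin 2) F → ℂ, Cfsg.IsIrrCharacter (Matrix.SpecialLinearGroup (Fin 2) F) χ → χ 1 = (((Fintype.card F - 1) / 2 : ℕ) : ℂ) → (2 * χ u + 1) ^ 2 = (-1 : ℂ) ^ ((Fintype.card F - 1) / 2) * (Fintype.card F : ℂ)) ∧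
    (∀ χ₁ χ₂ : Matrix.SpecialLinearGroup (Fin 2) F → ℂ, Cfsg.IsIrrCharacter (Matrix.SpecialLinearGroup (Fin 2) F) χ₁ → Cfsg.IsIrrCharacter (Matrix.SpecialLinearGroup (Fin 2) F) χ₂ → χ₁ ≠ χ₂ →
      χ₁ 1 = (((Fintype.card F + 1) / 2 : ℕ) : ℂ) → χ₂ 1 = (((Fintype.card F + 1) / 2 : ℕ) : ℂ) → χ₁ u + χ₂ u = 1) ∧
    (∀ χ₁ χ₂ : Matrix.SpecialLinearGroup (Fin 2) F → ℂ, Cfsg.IsIrrCharacter (Matrix.SpecialLinearGroup (Fin 2) F) χ₁ → Cfsg.IsIrrCharacter (Matrix.SpecialLinearGroup (Fin 2) F) χ₂ → χ₁ ≠ χ₂ →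
      χ₁ 1 = (((Fintype.card F - 1) / 2 : ℕ) : ℂ) → χ₂ 1 = (((Fintype.card F - 1) / 2 : ℕ) : ℂ) → χ₁ u + χ₂ u = -1) := by
  classical
  have hu' : u = Cfsg.Agent.KnownA.GL2.bS 1 1 := by
    apply Subtype.ext
    rw [hu, Cfsg.Agent.KnownA.GL2.bS_val]
    simp
  subst hu'
  have hv := fun (χ : Matrix.SpecialLinearGroup (Fin 2) F → ℂ)
      (h : Cfsg.IsIrrCharacter (Matrix.SpecialLinearGroup (Fin 2) F) χ) =>
    Cfsg.Agent.KnownA.GL2.value_bS (Cfsg.Agent.Chars.isClassFunction_of_isCharacter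
      (Cfsg.Agent.Chars.isCharacter_of_isIrr h)) (1 : F)
  have hup := fun (χ : Matrix.SpecialLinearGroup (Fin 2) F → ℂ)
      (h : Cfsg.IsIrrCharacter (Matrix.SpecialLinearGroup (Fin 2) F) χ)
      (hd : χ 1 = (((Fintype.card F + 1) / 2 : ℕ) : ℂ)) =>
    (Cfsg.Agent.KnownA.GL2.kind_of_half_up hodd h hd).resolve_right (fun e => by omega)
  refine ⟨fun χ h hd => ?_, fun χ h hd => ?_, fun χ χ' h h' hne hd hd' => ?_,
    fun χ χ' h h' hne hd hd' => ?_⟩
  · have hh := hup χ h hd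
    rw [hv χ h, hh.mS_zero, if_neg one_ne_zero, ← Cfsg.Agent.KnownA.GL2.gq_sq hodd]
    rcases hh.types with ⟨a, b⟩ | ⟨a, b⟩ <;> rw [a, b] <;> ring
  · have hc := Cfsg.Agent.KnownA.GL2.kind_of_half_down hodd hq h hd
    rw [hv χ h, hc.1.mS_zero, if_neg one_ne_zero, ← Cfsg.Agent.KnownA.GL2.gq_sq hodd]
    rcases hc.1.types with ⟨a, b⟩ | ⟨a, b⟩ | ⟨a, b⟩
    · exact absurd (a.trans b.symm) hc.2
    · rw [a, b]; ring
    · rw [a, b]; ring
  · have hh := hup χ h hd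
    obtain ⟨χ'', -, -, -, hall⟩ := hh.exists_partner
    have e : χ' = Cfsg.Agent.KnownA.GL2.tw χ := by
      rw [(hall _ hh.tw).resolve_left hh.tw_ne]
      exact (hall _ (hup χ' h' hd')).resolve_left hne.symm
    have := congrFun hh.sum_eq (Cfsg.Agent.KnownA.GL2.bS 1 1)
    rw [Cfsg.Agent.KnownA.GL2.RS_uS _ one_ne_zero, Pi.add_apply, ← e] at this
    exact this.symm
  · have hc := Cfsg.Agent.KnownA.GL2.kind_of_half_down hodd hq h hd
    have e : χ' = Cfsg.Agent.KnownA.GL2.tw χ :=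
      (hc.eq_or hodd (Cfsg.Agent.KnownA.GL2.kind_of_half_down hodd hq h' hd')).resolve_left hne.symm
    rw [hv χ h, hv χ' h', e, Cfsg.Agent.KnownA.GL2.mS_tw_one (Cfsg.Agent.Chars.isClassFunction_of_isCharacter
      (Cfsg.Agent.Chars.isCharacter_of_isIrr h)), Cfsg.Agent.KnownA.GL2.mS_tw_nu, hc.tw.1.mS_zero, hc.1.mS_zero,
      if_neg one_ne_zero]
    rcases hc.1.types with ⟨a, b⟩ | ⟨a, b⟩ | ⟨a, b⟩
    · exact absurd (a.trans b.symm) hc.2
    · rw [a, b]; ring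
    · rw [a, b]; ring

end Cfsg.Agent.S2324
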