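import Cfsg.Statements.S2328
import Cfsg.Agent.KnownA.Steinberg.Chev
import Cfsg.Agent.S0165
-- import your own Cfsg.Agent.* helpers here

set_option autoImplicit false
open Cfsg

namespace Cfsg.Agent.S2328

/-- In a Chevalley group of type G₂, B₂, D₄, F₄, E₆, E₇ or E₈ over a finite field of characteristic p, the Steinberg character vanishes at every element whose order is divisible by p (every element that is not semisimple). -/
theorem result {F : Type*} [Field F] [Fintype F] (p : ℕ) [Fact p.Prime] [CharP F p] (D : Cfsg.Lie.ChevalleyDatum) (hD : D ∈ [Cfsg.Lie.chevG2, Cfsg.Lie.chevB2, Cfsg.Lie.chevD4, Cfsg.Lie.chevF4, Cfsg.Lie.chevE6, Cfsg.Lie.chevE7, Cfsg.Lie.chevE8]) (g : ↥(D.group F)) (hg : p ∣ orderOf g) :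
    D.steinbergCharacter F g = 0 := by
  obtain ⟨C⟩ := Cfsg.Agent.Chev.nonempty_cert hD
  obtain ⟨M, hM⟩ := Cfsg.Agent.Chev.exists_cox hD
  classical
  obtain ⟨P, hP⟩ := Cfsg.Agent.KnownA.Steinberg.exists_sylow (F := F) C hM p
  obtain ⟨n, ρ, hρ, hch⟩ := Cfsg.Agent.KnownA.Steinberg.steinberg_irr (F := F) C hM
  rw [← hch]
  haveI := hρ
  have hU : D.posUnipotent F ≤ D.group F := C.pos_le_borel.trans C.borel_le_group
  have hcard : Fintype.card F ^ (D.nroots / 2) = p ^ (Nat.card ↥(D.group F)).factorization p := by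
    rw [← P.card_eq_multiplicity, hP, Nat.card_congr (Subgroup.subgroupOfEquivOfLe hU).toEquiv,
      C.natCard_posUnipotent]
  have hdim : (Module.finrank ℂ (Fin n → ℂ) : ℂ) = ((Fintype.card F ^ (D.nroots / 2) : ℕ) : ℂ) := by
    rw [← Representation.char_one ρ, hch, Cfsg.Agent.KnownA.Steinberg.steinberg_one C hM, Nat.cast_pow]
  refine Cfsg.Agent.S0165.result ρ p ((Nat.card ↥(D.group F)).factorization p) Fact.out
    (Nat.ordProj_dvd _ _) (Nat.pow_succ_factorization_not_dvd Nat.card_pos.ne' Fact.out) ?_ g hg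
  rw [Nat.cast_inj.mp hdim, hcard]

end Cfsg.Agent.S2328
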