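import Cfsg.Statements.S2362
import Cfsg.Agent.Forms.OddSpinorSpectrum

set_option autoImplicit false
open Cfsg

namespace Cfsg.Agent.S2362

/-- Let F be a finite field of odd order and n ≥ 3. The simple orthogonal group PΩ(2n+1, F) (type B_n) and the projective symplectic group PSp(2n, F) (type C_n), which have the same order, do not have the same set of element orders. -/
theorem result {F : Type*} [Field F] [Fintype F] (hodd : Odd (Fintype.card F)) (n : ℕ) (hn : 3 ≤ n) :
    Set.range (orderOf : Cfsg.POmega F (Cfsg.quadFormOdd n F) → ℕ) ≠ Set.range (orderOf : Cfsg.PSp n F → ℕ) := by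
  classical
  obtain ⟨p, hp⟩ := CharP.exists F
  haveI : Fact p.Prime := ⟨CharP.char_is_prime F p⟩
  have h2 : (2 : F) ≠ 0 := fun h => by
    have h' := (Cfsg.Agent.Forms.card_field_parity (F := F)).1 h
    rw [Nat.odd_iff] at hodd
    omega
  obtain ⟨x, hx⟩ := Cfsg.Agent.Forms.psp_exists_mixed_order (p := p) rfl h2 hn
  intro hEq
  obtain ⟨y, hy⟩ : orderOf x ∈ Set.range (orderOf : Cfsg.POmega F (Cfsg.quadFormOdd n F) → ℕ) :=
    hEq ▸ Set.mem_range_self x
  exact Cfsg.Agent.Forms.pomega_odd_no_mixed_order (p := p) rfl h2 hn y (hy ▸ hx)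

end Cfsg.Agent.S2362
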