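import Cfsg.Statements.S2365
import Cfsg.Agent.Forms.ParabolicOrder
import Cfsg.Agent.Forms.UnitaryInvolTwo
import Cfsg.Agent.Forms.UnitaryPoints

set_option autoImplicit false
open Cfsg

namespace Cfsg.Agent.S2365

open Module Matrix
open Cfsg.Agent.KnownA (act act_mul_apply act_ub su_ext)

section

variable {F : Type*} [Field F] [Fintype F] {m q : ℕ} (hF : Fintype.card F = q ^ 2)
include hF

/-- A prime divisor of the product formula of degree `m - 2` divides the order of `SU_{m-2}`. -/
theorem dvd_su (hm : 4 ≤ m) {r : ℕ} (hr : r.Prime)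
    (h : r ∣ q ∨ r ∣ ∏ i ∈ Finset.range (m - 2), (if Even i then q ^ (i + 1) + 1 else q ^ (i + 1) - 1)) :
    r ∣ Nat.card ↥(Cfsg.SU (m - 2) F q) := by
  have hq := Forms.two_le_q hF
  obtain ⟨d, hd⟩ := Nat.exists_eq_add_of_le hm
  have hn : m - 2 = d + 2 := by omega
  have hexp : 0 < (m - 2) * (m - 2 - 1) / 2 := by
    have : 2 ≤ (m - 2) * (m - 2 - 1) := Nat.mul_le_mul (show 2 ≤ m - 2 by omega) (show 1 ≤ m - 2 - 1 by omega)
    omega
  have hsu := Forms.card_SU hF (n := m - 2) (by omega)
  obtain ⟨R, hR⟩ : ∃ R, ∏ i ∈ Finset.range (m - 2),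
      (if Even i then q ^ (i + 1) + 1 else q ^ (i + 1) - 1) = (q + 1) * ((q ^ 2 - 1) * R) := by
    rw [hn, Finset.prod_range_succ', Finset.prod_range_succ']
    refine ⟨∏ i ∈ Finset.range d,
      (if Even (i + 1 + 1) then q ^ (i + 1 + 1 + 1) + 1 else q ^ (i + 1 + 1 + 1) - 1), ?_⟩
    rw [if_neg (by norm_num : ¬ Even (0 + 1)), if_pos (Even.zero)]
    ring
  rw [hR] at hsu h
  have hcard : Nat.card ↥(Cfsg.SU (m - 2) F q) =
      q ^ ((m - 2) * (m - 2 - 1) / 2) * ((q ^ 2 - 1) * R) :=
    Nat.eq_of_mul_eq_mul_left (by omega : 0 < q + 1) (hsu.trans (by ring))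
  rw [hcard]
  rcases h with h | h
  · exact (h.trans (dvd_pow_self q hexp.ne')).mul_right _
  · rcases hr.dvd_mul.1 h with h1 | h1
    · refine dvd_mul_of_dvd_right (dvd_mul_of_dvd_left (h1.trans ⟨q - 1, ?_⟩) _) _
      rw [← Nat.sq_sub_sq, one_pow]
    · exact dvd_mul_of_dvd_right h1 _

set_option maxHeartbeats 1000000 in
/-- An element of prime order commuting with a non-trivial element of order `p`. -/
theorem main {p : ℕ} [Fact p.Prime] [CharP F p] (hm : 4 ≤ m) (g c : Cfsg.SU m F q) (hg : g ^ p = 1)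
    (hg1 : g ≠ 1) (hcg : c * g = g * c) {r : ℕ} (hr : r.Prime) (hc : orderOf c = r) :
    r ∣ Nat.card ↥(Cfsg.SU (m - 2) F q) := by
  classical
  refine dvd_su hF hm hr ?_
  have hp := (Fact.out : p.Prime)
  let T : Module.End F (Fin m → F) := act g
  let N : Module.End F (Fin m → F) := T - 1
  have hpow : ∀ n : ℕ, T ^ n = act (g ^ n) := fun n => by
    induction n with
    | zero => rw [pow_zero, pow_zero, KnownA.act_one]
    | succ n ih => rw [pow_succ', pow_succ', KnownA.act_mul, ← ih]
  haveI : Nonempty (Fin m) := ⟨⟨0, by omega⟩⟩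
  haveI : Nontrivial (Module.End F (Fin m → F)) := inferInstance
  haveI : CharP (Module.End F (Fin m → F)) p :=
    charP_of_injective_algebraMap (R := F) (algebraMap F (Module.End F (Fin m → F))).injective p
  have hNp : N ^ p = 0 := by
    show (T - 1) ^ p = 0
    rw [sub_pow_char_of_commute p (Commute.one_right T), one_pow, hpow, hg, KnownA.act_one, sub_self]
  have hN : N ≠ 0 := by
    intro h0
    refine hg1 (su_ext fun x => ?_)
    have h1 := LinearMap.congr_fun h0 x
    rw [KnownA.act_one]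
    exact sub_eq_zero.1 h1
  -- the last non-zero power
  have hex : ∃ k, N ^ (k + 1) = 0 := ⟨p - 1, by rw [Nat.sub_add_cancel hp.one_le, hNp]⟩
  set k := Nat.find hex with hkdef
  have hk1 : N ^ (k + 1) = 0 := Nat.find_spec hex
  have hk : 1 ≤ k := by
    by_contra h0
    have : k = 0 := by omega
    rw [this, zero_add, pow_one] at hk1
    exact hN hk1
  have hk0 : N ^ k ≠ 0 := by
    have h1 : ¬ N ^ (k - 1 + 1) = 0 := Nat.find_min hex (by omega)
    rwa [Nat.sub_add_cancel hk] at h1
  set σ := Forms.frobQ hF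
  set B := Forms.hermB m hF
  have hB : Forms.IsHerm q σ B := Forms.isHerm_std hF
  have hiso : ∀ (x : Cfsg.SU m F q) u v, B (act x u) (act x v) = B u v := fun x u v => act_ub hF x u v
  -- the adjoint of `N ^ k`
  have hfix : ∀ v, T ((N ^ k) v) = (N ^ k) v := fun v => by
    have h1 := LinearMap.congr_fun hk1 v
    rw [pow_succ', Module.End.mul_apply] at h1
    exact sub_eq_zero.1 h1
  have hTN : Commute T N := (Commute.refl T).sub_right (Commute.one_right T)
  have hadjN : ∀ u v, B (N u) (T v) = -B u (N v) := fun u v => by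
    show B (T u - u) (T v) = -B u (T v - v)
    rw [map_sub, LinearMap.sub_apply, hiso, map_sub]
    ring
  have hadjk : ∀ j : ℕ, ∀ u v, B ((N ^ j) u) ((T ^ j) v) = (-1 : F) ^ j * B u ((N ^ j) v) := by
    intro j
    induction j with
    | zero => intro u v; simp
    | succ j ih =>
      intro u v
      rw [pow_succ' N, pow_succ' T, Module.End.mul_apply, Module.End.mul_apply, hadjN]
      have e : N ((T ^ j) v) = (T ^ j) (N v) :=
        (LinearMap.congr_fun (hTN.pow_left j).eq v).symm
      rw [e, ih, ← pow_succ' N, pow_succ N j, Module.End.mul_apply, pow_succ]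
      ring
  have hadj : ∀ u v, B ((N ^ k) u) v = (-1 : F) ^ k * B u ((N ^ k) v) := by
    intro u v
    have hTk : ∀ j : ℕ, ∀ w, (T ^ j) ((N ^ k) w) = (N ^ k) w := fun j w => by
      induction j with
      | zero => rfl
      | succ j ih => rw [pow_succ', Module.End.mul_apply, ih, hfix]
    have hTi : ∀ w, ∀ j : ℕ, B ((N ^ k) u) ((T ^ j) w) = B ((N ^ k) u) w := fun w j => by
      conv_lhs => rw [← hTk j u]
      rw [hpow]
      exact hiso _ _ _
    rw [← hTi v k, hadjk]
  -- a scalar making it self-adjoint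
  obtain ⟨ζ, hζ0, hζ⟩ : ∃ ζ : F, ζ ≠ 0 ∧ σ ζ * (-1 : F) ^ k = ζ := by
    rcases neg_one_pow_eq_or F k with h | h
    · exact ⟨1, one_ne_zero, by rw [h, map_one, mul_one]⟩
    · have hne := hB.ne_id
      obtain ⟨t, ht⟩ : ∃ t, σ t ≠ t := by
        by_contra! hcon
        exact hne (RingHom.ext hcon)
      refine ⟨t - σ t, sub_ne_zero.2 ht.symm, ?_⟩
      rw [h, map_sub, hB.form.sigma_sigma]
      ring
  let n : (Fin m → F) →ₗ[F] (Fin m → F) := ζ • (N ^ k)
  have hn : Forms.IsHermNil B n := by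
    refine ⟨fun v => ?_, fun u v => ?_⟩
    · simp only [n, LinearMap.smul_apply, map_smul]
      rw [← Module.End.mul_apply, ← pow_add, show k + k = k + 1 + (k - 1) by omega, pow_add, hk1,
        zero_mul, LinearMap.zero_apply, smul_zero, smul_zero]
    · simp only [n, LinearMap.smul_apply, LinearMap.map_smulₛₗ, map_smul, smul_eq_mul]
      rw [hadj, ← mul_assoc, hζ]
  obtain ⟨d, w, hw1, hd⟩ : ∃ (d : ℕ) (w : Fin d → Fin m → F),
      (∀ i j, B (w i) (n (w j)) = if i = j then 1 else 0) ∧ d = finrank F (LinearMap.range n) := by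
    obtain ⟨w, hw1, -, -⟩ := Forms.exists_hermFam hB hF hn
    exact ⟨_, w, hw1, rfl⟩
  have hd1 : 1 ≤ d := by
    rw [hd, Nat.one_le_iff_ne_zero, ne_eq, Submodule.finrank_eq_zero, LinearMap.range_eq_bot]
    exact smul_ne_zero hζ0 hk0
  have hrk : LinearMap.range n ≤ Forms.perp B (LinearMap.range n) := by
    rintro _ ⟨u, rfl⟩ _ ⟨v, rfl⟩
    rw [hn.adj, hn.sq, map_zero]
  have hd2 : 2 * d ≤ m := by
    have := hB.form.finrank_le_of_le_perp hrk
    rwa [Module.finrank_fin_fun, ← hd] at this
  -- the basis of the image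
  have hli : LinearIndependent F fun i => n (w i) := by
    rw [Fintype.linearIndependent_iff]
    intro a ha i
    have h1 := congrArg (B (w i)) ha
    simpa [map_sum, hw1] using h1
  have hspan : Submodule.span F (Set.range fun i => n (w i)) = LinearMap.range n := by
    refine Submodule.eq_of_le_of_finrank_eq (Submodule.span_le.2 ?_) ?_
    · rintro _ ⟨i, rfl⟩; exact ⟨w i, rfl⟩
    · rw [finrank_span_eq_card hli, Fintype.card_fin]; exact hd
  have hrep : ∀ x ∈ LinearMap.range n, x = ∑ i, B (w i) x • n (w i) := by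
    intro x hx
    rw [← hspan, Submodule.mem_span_range_iff_exists_fun] at hx
    obtain ⟨a, rfl⟩ := hx
    refine Finset.sum_congr rfl fun i _ => ?_
    simp [map_sum, hw1]
  -- the centralizer
  let C := Subgroup.centralizer ({g} : Set (Cfsg.SU m F q))
  have hcn : ∀ x : C, ∀ v, act (x : Cfsg.SU m F q) (n v) = n (act (x : Cfsg.SU m F q) v) := by
    intro x v
    have h1 : Commute (act (x : Cfsg.SU m F q)) T := by
      show act (x : Cfsg.SU m F q) * act g = act g * act (x : Cfsg.SU m F q)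
      rw [← KnownA.act_mul, ← KnownA.act_mul, Subgroup.mem_centralizer_singleton_iff.1 x.2]
    have h2 := LinearMap.congr_fun ((h1.sub_right (Commute.one_right _)).pow_right k).eq v
    simp only [n, LinearMap.smul_apply, map_smul]
    exact congrArg (ζ • ·) h2
  let ψ : C →* Matrix (Fin d) (Fin d) F :=
    { toFun := fun x => Matrix.of fun i j => B (w i) (act (x : Cfsg.SU m F q) (n (w j)))
      map_one' := by
        ext i j
        simp [KnownA.act_one, hw1, Matrix.one_apply]
      map_mul' := fun x y => by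
        ext i j
        rw [Matrix.of_apply, Matrix.mul_apply, Subgroup.coe_mul, act_mul_apply]
        conv_lhs => rw [hrep _ ⟨_, (hcn y (w j)).symm⟩]
        rw [map_sum, map_sum]
        refine Finset.sum_congr rfl fun l _ => ?_
        rw [Matrix.of_apply, Matrix.of_apply, map_smul, map_smul, smul_eq_mul, mul_comm] }
  let φ : C →* Cfsg.GU d F q := ψ.toHomUnits.codRestrict _ fun x => by
    intro u v
    show Cfsg.hermForm d F q (ψ x *ᵥ u) (ψ x *ᵥ v) = Cfsg.hermForm d F q u v
    let Φ : (Fin d → F) → (Fin m → F) := fun u => ∑ i, u i • w i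
    have key : ∀ u v, B (Φ v) (n (Φ u)) = Cfsg.hermForm d F q u v := by
      intro u v
      simp only [Φ, map_sum, map_smul, LinearMap.coe_sum, Finset.sum_apply, LinearMap.map_smulₛₗ,
        LinearMap.smul_apply, smul_eq_mul, hw1, mul_ite, mul_one, mul_zero]
      simp [Cfsg.hermForm, σ, Forms.frobQ_apply, mul_comm, eq_comm]
    have himg : ∀ u, act (x : Cfsg.SU m F q) (n (Φ u)) = ∑ i, (ψ x *ᵥ u) i • n (w i) := by
      intro u
      rw [hrep (act (x : Cfsg.SU m F q) (n (Φ u))) ⟨_, (hcn x (Φ u)).symm⟩]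
      refine Finset.sum_congr rfl fun i _ => ?_
      congr 1
      simp [Φ, ψ, Matrix.mulVec, dotProduct, map_sum, mul_comm]
    rw [← key, ← key, ← hiso (x : Cfsg.SU m F q) (Φ v) (n (Φ u)), himg]
    have h2 : ∀ i, B (act (x : Cfsg.SU m F q) (Φ v)) (n (w i)) = σ ((ψ x *ᵥ v) i) := by
      intro i
      rw [← hn.adj, ← hcn, himg, map_sum, LinearMap.sum_apply]
      simp [hn.adj, hw1]
      rfl
    rw [key, map_sum]
    simp only [map_smul, h2, smul_eq_mul]
    rfl
  let c' : C := ⟨c, Subgroup.mem_centralizer_singleton_iff.2 hcg⟩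
  have hc' : orderOf c' = r := by rw [← hc]; exact (Subgroup.orderOf_coe c').symm
  by_cases hφ : φ c' = 1
  · -- a fixed isotropic vector
    have hψ : ψ c' = 1 := congrArg (fun a : Cfsg.GU d F q =>
      ((a : GL (Fin d) F) : Matrix (Fin d) (Fin d) F)) hφ
    let i0 : Fin d := ⟨0, hd1⟩
    set u := n (w i0) with hu
    have hcu : act c u = u := by
      have h1 := hrep (act c u) ⟨_, (hcn c' (w i0)).symm⟩
      rw [h1]
      have h2 : ∀ i, B (w i) (act c u) = if i = i0 then 1 else 0 := fun i => by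
        have := congrFun (congrFun hψ i) i0
        simp only [ψ, MonoidHom.coe_mk, OneHom.coe_mk, Matrix.of_apply, Matrix.one_apply] at this
        exact this
      simp only [h2]
      simp [hu]
    set W := Submodule.span F {u}
    have hu0 : u ≠ 0 := hli.ne_zero i0
    have hW : ∀ x ∈ W, ∀ y ∈ W, Cfsg.hermForm m F q x y = 0 := by
      intro x hx y hy
      obtain ⟨a, rfl⟩ := Submodule.mem_span_singleton.1 hx
      obtain ⟨b, rfl⟩ := Submodule.mem_span_singleton.1 hy
      rw [← Forms.hermB_apply hF]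
      have h0 : B u u = 0 := by rw [hu, hn.adj, hn.sq, map_zero]
      simp [LinearMap.map_smulₛₗ, B] at h0 ⊢
      simp [h0]
    have hpar := Forms.card_parabolic_SU hF m 1 (by omega) (by omega) W
      (finrank_span_singleton hu0) hW
    have hmem : c ∈ (Cfsg.stabilizing (Cfsg.slToMat m F) (W : Set (Fin m → F))).subgroupOf
        (Cfsg.SU m F q) := by
      have hcW : ∀ x : Cfsg.SU m F q, act x u = u → ∀ v ∈ W, act x v ∈ W := by
        intro x hx v hv
        obtain ⟨a, rfl⟩ := Submodule.mem_span_singleton.1 hv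
        rw [map_smul, hx]
        exact Submodule.smul_mem _ _ (Submodule.mem_span_singleton_self u)
      intro v
      refine ⟨hcW c hcu v, fun hv => ?_⟩
      have hci : act c⁻¹ u = u := by
        conv_lhs => rw [← hcu, ← act_mul_apply, inv_mul_cancel, KnownA.act_one]
        rfl
      have := hcW c⁻¹ hci _ hv
      change act c⁻¹ (act c v) ∈ W at this
      rwa [← act_mul_apply, inv_mul_cancel, KnownA.act_one] at this
    have hdvd : r ∣ q ^ (1 * (2 * m - 3 * 1)) * (∏ i : Fin 1, ((q ^ 2) ^ 1 - (q ^ 2) ^ (i : ℕ))) *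
        (q ^ ((m - 2 * 1) * ((m - 2 * 1) - 1) / 2) *
          ∏ i ∈ Finset.range (m - 2 * 1), (if Even i then q ^ (i + 1) + 1 else q ^ (i + 1) - 1)) := by
      rw [← hpar]
      have h1 : orderOf (⟨c, hmem⟩ : ↥((Cfsg.stabilizing (Cfsg.slToMat m F)
          (W : Set (Fin m → F))).subgroupOf (Cfsg.SU m F q))) = r := by
        rw [← hc]; exact (Subgroup.orderOf_coe _).symm
      exact dvd_mul_of_dvd_right (h1 ▸ orderOf_dvd_natCard _) _
    simp only [Fin.prod_univ_one, Fin.val_zero, pow_one, pow_zero, mul_one] at hdvd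
    have hf1 : q ^ 2 - 1 ∣ ∏ i ∈ Finset.range (m - 2),
        (if Even i then q ^ (i + 1) + 1 else q ^ (i + 1) - 1) := by
      have := Finset.dvd_prod_of_mem (fun i => if Even i then q ^ (i + 1) + 1 else q ^ (i + 1) - 1)
        (Finset.mem_range.2 (show 1 < m - 2 by omega))
      simpa using this
    rcases hr.dvd_mul.1 hdvd with h | h
    · rcases hr.dvd_mul.1 h with h | h
      · exact Or.inl (hr.dvd_of_dvd_pow h)
      · exact Or.inr (h.trans hf1)
    · rcases hr.dvd_mul.1 h with h | h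
      · exact Or.inl (hr.dvd_of_dvd_pow h)
      · exact Or.inr h
  · -- the group of the form on the image
    have h1 : orderOf (φ c') = r := by
      rcases (Nat.dvd_prime hr).1 (hc' ▸ orderOf_map_dvd φ c') with h | h
      · exact absurd (orderOf_eq_one_iff.1 h) hφ
      · exact h
    have h2 := orderOf_dvd_natCard (φ c')
    rw [h1, Forms.card_GU hF d] at h2
    rcases hr.dvd_mul.1 h2 with h | h
    · exact Or.inl (hr.dvd_of_dvd_pow h)
    · exact Or.inr (h.trans (Finset.prod_dvd_prod_of_subset _ _ _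
        (Finset.range_subset_range.2 (by omega))))

end

/-- Let q be a power of the prime p, F the field with q² elements, m ≥ 4, and let a, b be commuting elements of PSU(m, q) with a of order p. Then every prime divisor of the order of b divides the order of SU(m − 2, q). -/
theorem result {F : Type*} [Field F] [Fintype F] (p : ℕ) [Fact p.Prime] [CharP F p] (m q : ℕ) (hm : 4 ≤ m) (hF : Fintype.card F = q ^ 2)
    (a b : Cfsg.PSU m F q) (ha : orderOf a = p) (hab : Commute a b) :
    (orderOf b).primeFactors ⊆ (Nat.card ↥(Cfsg.SU (m - 2) F q)).primeFactors := by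
  classical
  have hp := (Fact.out : p.Prime)
  have hq := Forms.two_le_q hF
  set Z := Subgroup.center (Cfsg.SU m F q)
  obtain ⟨a₀, rfl⟩ := QuotientGroup.mk'_surjective Z a
  obtain ⟨b₀, rfl⟩ := QuotientGroup.mk'_surjective Z b
  set z := Nat.card Z with hzdef
  have hz : ∀ x ∈ Z, x ^ z = 1 := fun x hx =>
    congrArg Subtype.val (pow_card_eq_one' (x := (⟨x, hx⟩ : Z)))
  have hpz : ¬ p ∣ z := by
    rw [hzdef, Forms.card_center_SU hF (n := m) (by omega)]
    intro hd
    have h1 : p ∣ q + 1 := hd.trans (Nat.gcd_dvd_right _ _)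
    have h2 : p ∣ q ^ 2 := by
      rw [← hF]
      exact (CharP.cast_eq_zero_iff F p _).1 (Nat.cast_card_eq_zero F)
    have h4 : p ∣ 1 := (Nat.dvd_add_right (hp.dvd_of_dvd_pow h2)).1 h1
    exact hp.one_lt.ne' (Nat.dvd_one.1 h4)
  set g := a₀ ^ z with hgdef
  have hap : a₀ ^ p ∈ Z := (QuotientGroup.eq_one_iff _).1 (by
    show QuotientGroup.mk' Z (a₀ ^ p) = 1
    rw [map_pow, ← ha, pow_orderOf_eq_one])
  have hgp : g ^ p = 1 := by rw [hgdef, ← pow_mul, mul_comm, pow_mul, hz _ hap]
  have hg1 : g ≠ 1 := by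
    intro h1
    have h2 : (QuotientGroup.mk' Z a₀) ^ z = 1 := by rw [← map_pow, ← hgdef, h1, map_one]
    exact hpz (ha ▸ orderOf_dvd_of_pow_eq_one h2)
  have hbg : b₀ * g = g * b₀ := by
    have hw : b₀ * g * b₀⁻¹ * g⁻¹ ∈ Z := (QuotientGroup.eq_one_iff _).1 (by
      show QuotientGroup.mk' Z (b₀ * g * b₀⁻¹ * g⁻¹) = 1
      rw [hgdef, map_mul, map_mul, map_mul, map_inv, map_inv, map_pow,
        ((hab.pow_left z).symm).eq, mul_inv_cancel_right, mul_inv_cancel])
    set w := b₀ * g * b₀⁻¹ * g⁻¹ with hwdef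
    have e : b₀ * g * b₀⁻¹ = w * g := by rw [hwdef]; group
    have hwp : w ^ p = 1 := by
      have h1 := congrArg (fun t => t ^ p) e
      simp only [conj_pow, hgp, mul_one, mul_inv_cancel] at h1
      rw [(show Commute w g from (Subgroup.mem_center_iff.1 hw g).symm).mul_pow, hgp, mul_one] at h1
      exact h1.symm
    have hw1 : w = 1 := orderOf_eq_one_iff.1 (Nat.dvd_one.1 (by
      have hco : Nat.gcd p z = 1 := (Nat.Prime.coprime_iff_not_dvd hp).2 hpz
      rw [← hco]
      exact Nat.dvd_gcd (orderOf_dvd_of_pow_eq_one hwp) (orderOf_dvd_of_pow_eq_one (hz w hw))))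
    rw [hw1, one_mul] at e
    exact mul_inv_eq_iff_eq_mul.1 e
  intro r hr
  rw [Nat.mem_primeFactors] at hr
  have hr0 : r ∣ orderOf b₀ := hr.2.1.trans (orderOf_map_dvd (QuotientGroup.mk' Z) b₀)
  refine Nat.mem_primeFactors.2 ⟨hr.1, ?_, Nat.card_pos.ne'⟩
  exact main hF hm g (b₀ ^ (orderOf b₀ / r)) hgp hg1
    ((show Commute b₀ g from hbg).pow_left _).eq hr.1
    (orderOf_pow_orderOf_div (orderOf_pos b₀).ne' hr0)

end Cfsg.Agent.S2365
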