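import Cfsg.Statements.S2366
import Cfsg.Agent.Forms.UnitaryThreeSpectrum

set_option autoImplicit false
open Cfsg

namespace Cfsg.Agent.S2366

/-- The set of element orders of PSU(3, q) for an odd prime power q = p^n: writing d = gcd(3, q + 1), a positive integer is the order of some element exactly when it divides one of q + 1, p(q + 1)/d, (q² − 1)/d, (q² − q + 1)/d. -/
theorem result {F : Type*} [Field F] [Fintype F] (p : ℕ) [Fact p.Prime] [CharP F p] (hp : p ≠ 2) (q : ℕ) (hF : Fintype.card F = q ^ 2) :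
    Set.range (orderOf : Cfsg.PSU 3 F q → ℕ) =
      {s : ℕ | s ∣ q + 1} ∪ {s : ℕ | s ∣ p * (q + 1) / Nat.gcd 3 (q + 1)} ∪
        {s : ℕ | s ∣ (q ^ 2 - 1) / Nat.gcd 3 (q + 1)} ∪ {s : ℕ | s ∣ (q ^ 2 - q + 1) / Nat.gcd 3 (q + 1)} := by
  have hdq : Nat.gcd 3 (q + 1) ∣ q + 1 := Nat.gcd_dvd_right _ _
  obtain ⟨⟨g₁, h₁⟩, ⟨g₂, h₂⟩, ⟨g₃, h₃⟩, g₄, h₄⟩ :=
    Cfsg.Agent.Forms.psu_three_exists_orders hF (p := p) hp
  rw [← Nat.mul_div_assoc p hdq] at h₂
  ext s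
  simp only [Set.mem_range, Set.mem_union, Set.mem_ofPred_eq]
  constructor
  · rintro ⟨x, rfl⟩
    obtain ⟨g, rfl⟩ := QuotientGroup.mk_surjective x
    rcases Cfsg.Agent.Forms.psu_three_orderOf_dvd hF (p := p) hp g with h | h | h | h
    · exact Or.inl (Or.inl (Or.inl h))
    · exact Or.inl (Or.inl (Or.inr (by rwa [Nat.mul_div_assoc p hdq])))
    · exact Or.inl (Or.inr h)
    · exact Or.inr h
  · have hex : ∀ (x : Cfsg.PSU 3 F q) (N : ℕ), N ∣ orderOf x → s ∣ N → ∃ y : Cfsg.PSU 3 F q, orderOf y = s :=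
      fun x N hN hs => ⟨x ^ (orderOf x / s),
        orderOf_pow_orderOf_div (orderOf_pos x).ne' (hs.trans hN)⟩
    rintro (((h | h) | h) | h)
    exacts [hex _ _ h₁ h, hex _ _ h₂ h, hex _ _ h₃ h, hex _ _ h₄ h]

end Cfsg.Agent.S2366
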