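import Cfsg.Statements.S2367


set_option autoImplicit false
open Cfsg

namespace Cfsg.Agent.S2367

/-- The orders of the sporadic groups. -/
def sporOrders : List ℕ := [7920, 95040, 443520, 10200960, 244823040, 175560, 604800, 50232960,
  86775571046077562880, 4157776806543360000, 42305421312000, 495766656000, 64561751654400,
  4089470473293004800, 1255205709190661721292800, 44352000, 898128000, 4030387200, 145926144000,
  448345497600, 460815505920, 273030912000000, 51765179004000000, 90745943887872000,
  4154781481226426191177580544000000, 808017424794512875886459904961710757005754368000000000]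

/-- The primes dividing some sporadic order. -/
def sporPrimes : List ℕ := [2, 3, 5, 7, 11, 13, 17, 19, 23, 29, 31, 37, 41, 43, 47, 59, 67, 71]

theorem spor_support : ∀ N ∈ sporOrders, N ∣ sporPrimes.prod ^ 50 ∧ N ≠ 0 := by decide +kernel

theorem spor_check : ∀ N ∈ sporOrders, ∀ p ∈ sporPrimes, p ≠ 2 → p ^ 3 ∣ N → ¬ p ^ 4 ∣ N →
    ∃ k ∈ List.range 64, 2 ^ k ∣ N ∧ p ^ 3 < 2 ^ k := by decide +kernel

theorem spor_case (N : ℕ) (hN : N ∈ sporOrders) (p : ℕ) (hp : p.Prime) (hodd : p ≠ 2) (h3 : N.factorization p = 3) :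
    p ^ 3 < 2 ^ N.factorization 2 := by
  obtain ⟨hd, h0⟩ := spor_support N hN
  have hp3 : p ^ 3 ∣ N := (hp.pow_dvd_iff_le_factorization h0).mpr h3.ge
  have hp4 : ¬ p ^ 4 ∣ N := fun h => by
    have := (hp.pow_dvd_iff_le_factorization h0).mp h; omega
  have hmem : p ∈ sporPrimes := by
    obtain ⟨q, hq, hpq⟩ := (hp.prime.dvd_prod_iff).mp
      (hp.dvd_of_dvd_pow ((dvd_trans (dvd_pow_self p (by norm_num)) hp3).trans hd))
    have hqp : q.Prime := by revert q; simp [sporPrimes]; norm_num
    rwa [(Nat.prime_dvd_prime_iff_eq hp hqp).mp hpq]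
  obtain ⟨k, -, hk, hlt⟩ := spor_check N hN p hmem hodd hp3 hp4
  exact hlt.trans_le (Nat.pow_le_pow_right (by norm_num) ((Nat.prime_two.pow_dvd_iff_le_factorization h0).mp hk))

theorem cube_lt (p : ℕ) (hp : 5 ≤ p) : p ^ 3 < 2 ^ (2 * p - 1) := by
  induction p, hp using Nat.le_induction with
  | base => norm_num
  | succ p hp ih =>
    have h1 : (p + 1) ^ 3 ≤ 4 * p ^ 3 := by nlinarith [Nat.mul_le_mul_left (p * p) hp, Nat.mul_le_mul_left p hp]
    have h2 : 2 ^ (2 * (p + 1) - 1) = 4 * 2 ^ (2 * p - 1) := by
      rw [show 2 * (p + 1) - 1 = (2 * p - 1) + 2 by omega, pow_add]; ring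
    omega

theorem alt_case (n : ℕ) (hn : 5 ≤ n) (p : ℕ) (hp : p.Prime) (hodd : p ≠ 2)
    (h3 : (Nat.card (alternatingGroup (Fin n))).factorization p = 3) :
    p ^ 3 < 2 ^ (Nat.card (alternatingGroup (Fin n))).factorization 2 := by
  haveI : Nontrivial (Fin n) := Fin.nontrivial_iff_two_le.mpr (by omega)
  have h0 : Nat.card (alternatingGroup (Fin n)) ≠ 0 := Nat.card_pos.ne'
  have hcard : 2 * Nat.card (alternatingGroup (Fin n)) = n.factorial := by
    rw [Nat.card_eq_fintype_card, two_mul_card_alternatingGroup, Fintype.card_perm, Fintype.card_fin]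
  have hfac : ∀ q, n.factorial.factorization q = (Nat.factorization 2) q +
      (Nat.card (alternatingGroup (Fin n))).factorization q := fun q => by
    rw [← hcard, Nat.factorization_mul two_ne_zero h0, Finsupp.add_apply]
  have hp2 := hfac p
  rw [Nat.prime_two.factorization, Finsupp.single_apply, if_neg (Ne.symm hodd), zero_add, h3] at hp2
  have h22 := hfac 2
  rw [Nat.prime_two.factorization, Finsupp.single_apply, if_pos rfl] at h22
  have hp5 : 5 ≤ p := by
    rcases Nat.lt_or_ge p 5 with h | h
    · exfalso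
      have : p = 3 := by have := hp.two_le; interval_cases p <;> first | rfl | omega | norm_num at hp
      subst this
      rcases Nat.lt_or_ge n 9 with h9 | h9
      · have hnd : ¬ 3 ^ 3 ∣ n.factorial := by interval_cases n <;> decide
        exact hnd ((hp.pow_dvd_iff_le_factorization (Nat.factorial_ne_zero n)).mpr hp2.ge)
      · have : 3 ^ 4 ∣ n.factorial := dvd_trans (by decide) (Nat.factorial_dvd_factorial h9)
        have := (hp.pow_dvd_iff_le_factorization (Nat.factorial_ne_zero n)).mp this
        omega
    · exact h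
  haveI := Fact.mk hp
  have hn3 : 3 * p ≤ n := by
    by_contra hc
    push Not at hc
    have hlog : Nat.log p n < 2 := Nat.log_lt_of_lt_pow (by omega) (by nlinarith)
    have := Nat.factorization_factorial hp hlog
    rw [hp2] at this
    simp at this
    have h2 : n / p < 3 := (Nat.div_lt_iff_lt_mul hp.pos).mpr hc
    omega
  have hv2 : n / 2 + n / 4 ≤ n.factorial.factorization 2 := by
    rw [Nat.factorization_factorial Nat.prime_two (b := n + 3)
      (lt_of_le_of_lt (Nat.log_le_self 2 n) (by omega))]
    have hsub : ({1, 2} : Finset ℕ) ⊆ Finset.Ico 1 (n + 3) := by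
      intro x hx; simp at hx ⊢; omega
    calc n / 2 + n / 4 = ∑ i ∈ ({1, 2} : Finset ℕ), n / 2 ^ i := by simp
      _ ≤ _ := Finset.sum_le_sum_of_subset hsub
  calc p ^ 3 < 2 ^ (2 * p - 1) := cube_lt p hp5
    _ ≤ _ := Nat.pow_le_pow_right (by norm_num) (by omega)

/-- Let G be an alternating group of degree at least 5 or a simple group with the order of one of the 26 sporadic groups, and let p be an odd prime such that p³ is the exact power of p dividing the order of G. Then p³ is less than the 2-part of the order of G. -/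
theorem result {G : Type*} [Group G] [Finite G] (hG : Cfsg.IsAlternating G ∨ Cfsg.IsSporadic G)
    (p : ℕ) (hp : p.Prime) (hodd : p ≠ 2) (h3 : (Nat.card G).factorization p = 3) :
    p ^ 3 < 2 ^ (Nat.card G).factorization 2 := by
  rcases hG with ⟨n, hn, ⟨e⟩⟩ | hS
  · rw [Nat.card_congr e.toEquiv] at h3 ⊢
    exact alt_case n hn p hp hodd h3
  · have hN : (Nat.card G) ∈ sporOrders := by
      rcases hS with h | h | h | h | h | h | h | h | h | h | h | h | h | h | h | h | h | h | h | h | h | h | h | h | h | h <;>
        simp [sporOrders, h.2]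
    exact spor_case _ hN p hp hodd h3

end Cfsg.Agent.S2367
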