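import Cfsg.Statements.S2369
import Cfsg.Agent.KnownA.ReeCent.Main
-- import your own Cfsg.Agent.* helpers here

set_option autoImplicit false
open Cfsg

namespace Cfsg.Agent.S2369

/-- Let q = 2^(2m+1) with m ≥ 1 and let a, b be commuting elements of the large Ree group ²F₄(q) with a an involution. Then every prime divisor of the order of b divides q(q⁴ − 1). -/
theorem result {K : Type*} [Field K] [Fintype K] (m : ℕ) (hm : 1 ≤ m) (hK : Fintype.card K = 2 ^ (2 * m + 1))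
    (a b : ↥(Cfsg.Lie.twistedF4 K (2 ^ m))) (ha : orderOf a = 2) (hab : Commute a b) :
    (orderOf b).primeFactors ⊆ (2 ^ (2 * m + 1) * ((2 ^ (2 * m + 1)) ^ 4 - 1)).primeFactors := by
  intro r hr
  have h := Cfsg.Agent.Chev.Ree4.ctx_of hK
  rw [Nat.mem_primeFactors] at hr
  obtain ⟨hp, hrb, -⟩ := hr
  set q := 2 ^ (2 * m + 1) with hq
  have hq2 : 2 ≤ q := by
    rw [hq]; calc 2 = 2 ^ 1 := rfl
      _ ≤ _ := Nat.pow_le_pow_right (by norm_num) (by omega)
  have hA : orderOf (a : GL Cfsg.Lie.chevF4.Idx K) = 2 := by rw [Subgroup.orderOf_coe]; exact ha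
  have hd := Cfsg.Agent.KnownA.ReeCent.centralizer_orderOf_dvd h _ _ a.2 b.2 hA
    (hab.map (Cfsg.Lie.twistedF4 K (2 ^ m)).subtype)
  rw [Subgroup.orderOf_coe, hK] at hd
  have hdiag := Cfsg.Agent.Chev.card_diagonalF4 (F := K)
  rw [one_mul, hK] at hdiag
  rw [hdiag] at hd
  have h4 : q ^ 4 - 1 = (q - 1) * (q + 1) * (1 + q ^ 2) := by
    obtain ⟨n, hn⟩ : ∃ n, q = n + 1 := ⟨q - 1, by omega⟩
    rw [hn, Nat.add_sub_cancel]
    have e : (n + 1) ^ 4 = n * (n + 1 + 1) * (1 + (n + 1) ^ 2) + 1 := by ring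
    omega
  have hr' : r ∣ q * (q ^ 4 - 1) := by
    have h5 := hrb.trans hd
    rcases hp.dvd_mul.mp h5 with h6 | h6
    · rcases hp.dvd_mul.mp h6 with h7 | h7
      · rcases hp.dvd_mul.mp h7 with h8 | h8
        · exact dvd_mul_of_dvd_left (hp.dvd_of_dvd_pow h8) _
        · rw [h4]; exact dvd_mul_of_dvd_right (dvd_mul_of_dvd_left (dvd_mul_of_dvd_left (hp.dvd_of_dvd_pow h8) _) _) _
      · rw [h4]
        refine dvd_mul_of_dvd_right (dvd_mul_of_dvd_left (dvd_mul_of_dvd_right ?_ _) _) _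
        rw [add_comm]; exact hp.dvd_of_dvd_pow h7
    · rw [h4]; exact dvd_mul_of_dvd_right (dvd_mul_of_dvd_right h6 _) _
  refine Nat.mem_primeFactors.mpr ⟨hp, hr', ?_⟩
  have : 2 ≤ q ^ 4 := le_trans hq2 (Nat.le_self_pow (by norm_num) q)
  exact mul_ne_zero (by omega) (by omega)

end Cfsg.Agent.S2369
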