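import Cfsg.Statements.S2374
import Cfsg.Agent.Chars2.SingerTorus.E7Main

set_option autoImplicit false
open Cfsg

namespace Cfsg.Agent.S2374

/-- The group E₇(q) (the simple Chevalley group of type E₇) contains a cyclic subgroup of order (q⁴ − q² + 1)(q³ + 1)/gcd(2, q − 1) which is its own centralizer. -/
theorem result {F : Type*} [Field F] [Fintype F] (q : ℕ) (hF : Fintype.card F = q) :
    ∃ H : Subgroup ↥(Cfsg.Lie.chevE7.group F), IsCyclic ↥H ∧ Nat.card ↥H = (q ^ 4 - q ^ 2 + 1) * (q ^ 3 + 1) / Nat.gcd 2 (q - 1) ∧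
      Subgroup.centralizer (H : Set ↥(Cfsg.Lie.chevE7.group F)) = H := by
  subst hF
  exact Cfsg.Agent.Chars2.SingerTorus.selfCentralizingE7

end Cfsg.Agent.S2374
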