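import Cfsg.Statements.S2375
import Cfsg.Agent.Chars2.SingerTorus.Exceptional

set_option autoImplicit false
open Cfsg

namespace Cfsg.Agent.S2375

/-- The group E₈(q) contains a cyclic subgroup of order q⁸ + q⁷ − q⁵ − q⁴ − q³ + q + 1 which is its own centralizer. -/
theorem result {F : Type*} [Field F] [Fintype F] (q : ℕ) (hF : Fintype.card F = q) :
    ∃ H : Subgroup ↥(Cfsg.Lie.chevE8.group F), IsCyclic ↥H ∧ Nat.card ↥H = q ^ 8 + q ^ 7 - q ^ 5 - q ^ 4 - q ^ 3 + q + 1 ∧
      Subgroup.centralizer (H : Set ↥(Cfsg.Lie.chevE8.group F)) = H := by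
  subst hF
  exact Cfsg.Agent.Chars2.SingerTorus.selfCentralizingE8

end Cfsg.Agent.S2375
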