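import Cfsg.Statements.S2380
import Cfsg.Agent.FGS2.GLCrossSylow
-- import your own Cfsg.Agent.* helpers here

set_option autoImplicit false
open scoped MatrixGroups
open Cfsg

namespace Cfsg.Agent.S2380

open Cfsg.Agent

universe u

theorem cyclo_val {r q : ℕ} [hr : Fact r.Prime] (hrq : ¬ r ∣ q) (hq1 : 1 < q) :
    padicValNat r (q ^ orderOf (q : ZMod r) - 1) =
      padicValNat r ((Polynomial.cyclotomic (orderOf (q : ZMod r)) ℤ).eval (q : ℤ)).natAbs := by
  set d := orderOf (q : ZMod r) with hd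
  have hd0 : d ≠ 0 := FGS2.GLCross.orderOf_ne_zero hrq
  have h := congrArg (fun f : Polynomial ℤ => (f.eval (q : ℤ)).natAbs)
    (Polynomial.prod_cyclotomic_eq_X_pow_sub_one (Nat.pos_of_ne_zero hd0) ℤ)
  simp only [Polynomial.eval_prod, Polynomial.eval_sub, Polynomial.eval_pow, Polynomial.eval_X,
    Polynomial.eval_one] at h
  have hr' : ((q : ℤ) ^ d - 1).natAbs = q ^ d - 1 := by
    rw [show ((q : ℤ) ^ d - 1) = ((q ^ d - 1 : ℕ) : ℤ) by
      rw [Nat.cast_sub (Nat.one_le_pow _ _ (by omega))]; push_cast; ring, Int.natAbs_natCast]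
  rw [hr', ← Finset.mul_prod_erase _ _ (Nat.mem_divisors_self d hd0), Int.natAbs_mul] at h
  have hne : q ^ d - 1 ≠ 0 := by have := Nat.one_lt_pow hd0 hq1; omega
  rw [← h] at hne ⊢
  rw [padicValNat.mul (left_ne_zero_of_mul hne) (right_ne_zero_of_mul hne),
    padicValNat.eq_zero_of_not_dvd (p := r) (n := (∏ x ∈ d.divisors.erase d, _ : ℤ).natAbs), add_zero]
  intro hdvd
  rw [← Int.natCast_dvd, Prime.dvd_finsetProd_iff (Nat.prime_iff_prime_int.mp hr.out)] at hdvd
  obtain ⟨i, hi, hdi⟩ := hdvd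
  obtain ⟨hne', hid⟩ := Finset.mem_erase.mp hi
  have hi0 : 0 < i := Nat.pos_of_mem_divisors hid
  have h2 : (r : ℤ) ∣ (q : ℤ) ^ i - 1 := by
    refine hdi.trans ?_
    have h3 := congrArg (fun f : Polynomial ℤ => f.eval (q : ℤ))
      (Polynomial.prod_cyclotomic_eq_X_pow_sub_one hi0 ℤ)
    simp only [Polynomial.eval_prod, Polynomial.eval_sub, Polynomial.eval_pow, Polynomial.eval_X,
      Polynomial.eval_one] at h3
    exact h3 ▸ Finset.dvd_prod_of_mem _ (Nat.mem_divisors_self i hi0.ne')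
  have h4 : (q : ZMod r) ^ i = 1 := by
    have := (ZMod.intCast_zmod_eq_zero_iff_dvd ((q : ℤ) ^ i - 1) r).mpr h2
    push_cast at this
    exact sub_eq_zero.mp this
  have h5 : d ∣ i := orderOf_dvd_of_pow_eq_one h4
  exact hne' (Nat.dvd_antisymm (Nat.dvd_of_mem_divisors hid) h5)

theorem two_case {F : Type u} [Field F] [Fintype F] {q : ℕ} (hq : Fintype.card F = q) (n : ℕ)
    (hn : n < 2) (hrq : ¬ 2 ∣ q) [Fact (Nat.Prime 2)] (P : Sylow 2 (GL (Fin n) F)) :
    Nonempty (↥P.toSubgroup ≃*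
      (Fin (n / orderOf (q : ZMod 2)) →
        Multiplicative (ZMod (2 ^ padicValNat 2 ((Polynomial.cyclotomic (orderOf (q : ZMod 2)) ℤ).eval (q : ℤ)).natAbs)))) := by
  have he : orderOf (q : ZMod 2) = 1 := by
    rw [orderOf_eq_one_iff]
    exact Fin.eq_one_of_ne_zero _ (by rwa [← ZMod.natCast_eq_zero_iff] at hrq)
  have hq1 : 1 < q := hq ▸ Fintype.one_lt_card
  rw [← cyclo_val hrq hq1, he, Nat.div_one, pow_one]
  interval_cases n
  · haveI : Subsingleton P.toSubgroup := inferInstance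
    haveI : Unique P.toSubgroup := uniqueOfSubsingleton 1
    exact ⟨MulEquiv.ofUnique⟩
  · obtain ⟨e⟩ : Nonempty (GL (Fin 1) F ≃* Fˣ) :=
      ⟨Units.mapEquiv (Matrix.uniqueRingEquiv (m := Fin 1) (A := F)).toMulEquiv⟩
    haveI : IsCyclic (GL (Fin 1) F) := isCyclic_of_surjective e.symm.toMonoidHom e.symm.surjective
    have hc : Nat.card P.toSubgroup = 2 ^ padicValNat 2 (q - 1) := by
      rw [P.card_eq_multiplicity, Nat.factorization_def _ Nat.prime_two, Nat.card_congr e.toEquiv,
        Nat.card_units, Nat.card_eq_fintype_card, hq]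
    exact ⟨(mulEquivOfCyclicCardEq (G' := Multiplicative (ZMod (2 ^ padicValNat 2 (q - 1))))
      (by rw [hc]; exact (Nat.card_zmod _).symm)).trans
      (MulEquiv.funUnique (Fin 1) _).symm⟩

/-- Sylow subgroups of `GL_n(q)` for large primes. Let `F` be a field with `q` elements and `r` a prime with `r > n` and `r ∤ q`. Let `d` be the multiplicative order of `q` modulo `r` and `m` the `r`-part of the value at `q` of the `d`-th cyclotomic polynomial. Then every Sylow `r`-subgroup of `GL_n(q)` is a direct product of `⌊n/d⌋` cyclic groups of order `m` (the degrees of the Weyl group being `1, …, n`). -/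
theorem result {F : Type*} [Field F] [Fintype F] {q : ℕ} (hq : Fintype.card F = q) (n : ℕ)
    (r : ℕ) [Fact r.Prime] (hrn : n < r) (hrq : ¬ r ∣ q) (P : Sylow r (GL (Fin n) F)) :
    Nonempty (↥(P : Subgroup (GL (Fin n) F)) ≃*
      (Fin (n / orderOf (q : ZMod r)) →
        Multiplicative (ZMod (r ^ padicValNat r ((Polynomial.cyclotomic (orderOf (q : ZMod r)) ℤ).eval (q : ℤ)).natAbs)))) := by
  classical
  have hr := (Fact.out : r.Prime)
  by_cases hr2 : r = 2
  · -- here `n ≤ 1`
    subst hr2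
    exact two_case hq n hrn hrq P
  set d := orderOf (q : ZMod r) with hd
  obtain ⟨K, _, _, hK, h⟩ := FGS2.GLCross.exists_sylow_equiv (F := F) hr2 hq hrq n
  have hd0 : d ≠ 0 := FGS2.GLCross.orderOf_ne_zero hrq
  have hq1 : 1 < q := hq ▸ Fintype.one_lt_card
  set m := padicValNat r ((Polynomial.cyclotomic d ℤ).eval (q : ℤ)).natAbs with hm
  have hval : padicValNat r (q ^ d - 1) = m := cyclo_val hrq hq1
  obtain ⟨C⟩ : Nonempty (Sylow r Kˣ) := inferInstance
  have hC : Nat.card C.toSubgroup = r ^ m := by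
    rw [C.card_eq_multiplicity, Nat.factorization_def _ hr, Nat.card_units, hK, hval]
  haveI : IsCyclic C.toSubgroup := inferInstance
  let e₁ : Multiplicative (ZMod (r ^ m)) ≃* C.toSubgroup :=
    mulEquivOfCyclicCardEq (by rw [hC]; exact Nat.card_zmod _)
  let ψ : (Fin (n / d) → Multiplicative (ZMod (r ^ m))) →* FGS2.GLCross.Mon Kˣ (Fin (n / d)) :=
    SemidirectProduct.inl.comp
      { toFun := fun f x => (e₁ (f x) : Kˣ)
        map_one' := funext fun x => by simp
        map_mul' := fun a b => funext fun x => by simp }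
  have hψ : Function.Injective ψ := SemidirectProduct.inl_injective.comp fun a b hab =>
    funext fun x => e₁.injective (Subtype.ext (congrFun hab x))
  have hw : ¬ r ∣ (n / d).factorial := fun hdvd =>
    (not_le.mpr hrn) ((hr.dvd_factorial.mp hdvd).trans (Nat.div_le_self n d))
  let S : Sylow r (FGS2.GLCross.Mon Kˣ (Fin (n / d))) := Sylow.ofCard ψ.range (by
    rw [← Nat.card_congr (MonoidHom.ofInjective hψ).toEquiv, Nat.card_fun, Nat.card_fin,
      FGS2.GLCross.card_mon, Nat.card_fin, Nat.card_units, hK, Nat.factorization_def _ hr]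
    have hE : q ^ d - 1 ≠ 0 := by have := Nat.one_lt_pow hd0 hq1; omega
    rw [padicValNat.mul (pow_ne_zero _ hE) (Nat.factorial_ne_zero _), padicValNat.pow,
      padicValNat.eq_zero_of_not_dvd hw, add_zero, hval, pow_mul']
    congr 1
    exact Nat.card_zmod _)
  obtain ⟨e⟩ := h P S
  exact ⟨e.trans (MonoidHom.ofInjective hψ).symm⟩

end Cfsg.Agent.S2380
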