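import Cfsg.Statements.S2388
import Cfsg.Agent.Forms.SemisimpleConj

set_option autoImplicit false
open Cfsg

namespace Cfsg.Agent.S2388

open Cfsg.Agent.Forms

/-- In `SL_n(q)`, `q` a power of the prime `p`, two elements of order prime to `p` with the same characteristic polynomial are conjugate in `SL_n(q)` (not merely in `GL_n`). -/
theorem result {F : Type*} [Field F] [Fintype F] (p : ℕ) [Fact p.Prime] [CharP F p] (n : ℕ)
    (g h : Matrix.SpecialLinearGroup (Fin n) F) (hg : (orderOf g).Coprime p) (hh : (orderOf h).Coprime p)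
    (hc : (g : Matrix (Fin n) (Fin n) F).charpoly = (h : Matrix (Fin n) (Fin n) F).charpoly) : IsConj g h := by
  have hp : p.Prime := Fact.out
  have hm : ((orderOf g * orderOf h : ℕ) : F) ≠ 0 := by
    rw [Ne, CharP.cast_eq_zero_iff F p, hp.dvd_mul]
    rintro (h1 | h1)
    · exact hp.one_lt.ne' (Nat.Coprime.eq_one_of_dvd hg.symm h1)
    · exact hp.one_lt.ne' (Nat.Coprime.eq_one_of_dvd hh.symm h1)
  have hpow : ∀ k : Matrix.SpecialLinearGroup (Fin n) F, k ^ (orderOf g * orderOf h) = 1 →
      (Matrix.toLin' (k : Matrix (Fin n) (Fin n) F)) ^ (orderOf g * orderOf h) = 1 := by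
    intro k hk
    rw [← Matrix.toLin'_pow, ← Matrix.SpecialLinearGroup.coe_pow, hk,
      Matrix.SpecialLinearGroup.coe_one, Matrix.toLin'_one]
    rfl
  obtain ⟨e, hdet, he⟩ := exists_conj_of_charpoly_eq hm n
    (Matrix.toLin' (g : Matrix (Fin n) (Fin n) F)) (Matrix.toLin' (h : Matrix (Fin n) (Fin n) F))
    (hpow g (by rw [pow_mul, pow_orderOf_eq_one, one_pow]))
    (hpow h (by rw [mul_comm, pow_mul, pow_orderOf_eq_one, one_pow]))
    (by rw [Matrix.charpoly_toLin', Matrix.charpoly_toLin', hc])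
  have hdet' : (LinearMap.toMatrix' (e : Module.End F (Fin n → F))).det = 1 := by
    rw [LinearMap.det_toMatrix', hdet]
  refine isConj_iff.2 ⟨⟨_, hdet'⟩, mul_inv_eq_iff_eq_mul.2 (Subtype.ext ?_)⟩
  apply Matrix.toLin'.injective
  change Matrix.toLin' (LinearMap.toMatrix' (e : Module.End F (Fin n → F)) * _) =
    Matrix.toLin' (_ * LinearMap.toMatrix' (e : Module.End F (Fin n → F)))
  rw [Matrix.toLin'_mul, Matrix.toLin'_mul, Matrix.toLin'_toMatrix']
  exact LinearMap.ext fun x => he x

end Cfsg.Agent.S2388
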