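import Cfsg.Statements.S2384
import Cfsg.Agent.Forms.SemisimpleExists
import Cfsg.Agent.S2388

set_option autoImplicit false
open Cfsg

namespace Cfsg.Agent.S2384

open Cfsg.Agent.Forms

/-- In `SL_n(q)`, `q` a power of the prime `p`, the number of conjugacy classes of elements of order prime to `p` (the semisimple classes) is `q^(n-1)`. -/
theorem result {F : Type*} [Field F] [Fintype F] {q : ℕ} (hq : Fintype.card F = q) (p : ℕ) [Fact p.Prime] [CharP F p] (n : ℕ) (hn : 1 ≤ n) :
    Nat.card {c : ConjClasses (Matrix.SpecialLinearGroup (Fin n) F) //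
      ∃ g : Matrix.SpecialLinearGroup (Fin n) F, ConjClasses.mk g = c ∧ (orderOf g).Coprime p} = q ^ (n - 1) := by
  classical
  have hp : p.Prime := Fact.out
  subst hq
  obtain ⟨k, rfl⟩ := Nat.exists_eq_add_of_le' hn
  rw [Nat.add_sub_cancel]
  let P : (Fin k → F) → Polynomial F := fun c =>
    Polynomial.X ^ (k + 1) + ((∑ i : Fin k, Polynomial.C (c i) * Polynomial.X ^ (i.1 + 1)) +
      Polynomial.C ((-1) ^ (k + 1)))
  have hlow : ∀ c : Fin k → F, ((∑ i : Fin k, Polynomial.C (c i) * Polynomial.X ^ (i.1 + 1)) +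
      Polynomial.C ((-1) ^ (k + 1))).degree < ((k + 1 : ℕ) : WithBot ℕ) := by
    intro c
    refine lt_of_le_of_lt (Polynomial.degree_add_le _ _) (max_lt ?_ ?_)
    · refine lt_of_le_of_lt (Polynomial.degree_sum_le _ _) ((Finset.sup_lt_iff (WithBot.bot_lt_coe _)).2 ?_)
      intro i _
      exact lt_of_le_of_lt (Polynomial.degree_C_mul_X_pow_le _ _) (Nat.cast_lt.2 (by omega))
    · exact lt_of_le_of_lt Polynomial.degree_C_le (by exact_mod_cast k.succ_pos)
  have hmon : ∀ c, (P c).Monic := fun c => Polynomial.monic_X_pow_add (hlow c)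
  have hdeg : ∀ c, (P c).natDegree = k + 1 := by
    intro c
    refine Polynomial.natDegree_eq_of_degree_eq_some ?_
    simp only [P]
    rw [Polynomial.degree_add_eq_left_of_degree_lt (by rw [Polynomial.degree_X_pow]; exact hlow c),
      Polynomial.degree_X_pow]
  have hcoef : ∀ c (i : Fin k), (P c).coeff (i.1 + 1) = c i := by
    intro c i
    simp only [P, Polynomial.coeff_add, Polynomial.finsetSum_coeff, Polynomial.coeff_C_mul,
      Polynomial.coeff_X_pow, Polynomial.coeff_C, Nat.succ_ne_zero, if_false, add_zero]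
    rw [if_neg (by omega), zero_add, Finset.sum_eq_single i]
    · simp
    · intro j _ hj
      rw [if_neg (fun h => hj (Fin.ext (by omega))), mul_zero]
    · simp
  have hcoef0 : ∀ c, (P c).coeff 0 = (-1) ^ (k + 1) := by
    intro c
    simp only [P, Polynomial.coeff_add, Polynomial.finsetSum_coeff, Polynomial.coeff_C_mul,
      Polynomial.coeff_X_pow, Polynomial.coeff_C_zero]
    rw [if_neg (by omega), zero_add, Finset.sum_eq_zero (fun i _ => by rw [if_neg (by omega), mul_zero]),
      zero_add]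
  have hsurj : ∀ c, ∃ g : Matrix.SpecialLinearGroup (Fin (k + 1)) F,
      (orderOf g).Coprime p ∧ (g : Matrix (Fin (k + 1)) (Fin (k + 1)) F).charpoly = P c := by
    intro c
    obtain ⟨a, m, hm, ha, hca⟩ := exists_semisimple_charpoly (k + 1) (P c) (hmon c) (hdeg c)
      (by rw [hcoef0]; exact pow_ne_zero _ (neg_ne_zero.2 one_ne_zero))
    have hch : (LinearMap.toMatrix' a).charpoly = P c := by
      rw [← hca, ← Matrix.charpoly_toLin', Matrix.toLin'_toMatrix']
    have hdet : (LinearMap.toMatrix' a).det = 1 := by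
      rw [Matrix.det_eq_sign_charpoly_coeff, hch, hcoef0, Fintype.card_fin, ← mul_pow]
      simp
    let gg : Matrix.SpecialLinearGroup (Fin (k + 1)) F := ⟨_, hdet⟩
    refine ⟨gg, ?_, hch⟩
    have h1 : gg ^ m = 1 := by
      refine Subtype.ext ?_
      rw [Matrix.SpecialLinearGroup.coe_pow, Matrix.SpecialLinearGroup.coe_one]
      apply Matrix.toLin'.injective
      rw [Matrix.toLin'_pow, show (gg : Matrix (Fin (k + 1)) (Fin (k + 1)) F) = LinearMap.toMatrix' a from rfl,
        Matrix.toLin'_toMatrix', ha, Matrix.toLin'_one]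
      rfl
    refine (Nat.Coprime.coprime_dvd_left (orderOf_dvd_of_pow_eq_one h1) ?_)
    exact (hp.coprime_iff_not_dvd.2 fun h => hm ((CharP.cast_eq_zero_iff F p m).2 h)).symm
  choose g hg hgP using hsurj
  have hcard : Nat.card (Fin k → F) = Fintype.card F ^ k := by
    rw [Nat.card_fun, Nat.card_eq_fintype_card, Nat.card_fin]
  rw [← hcard]
  symm
  refine Nat.card_eq_of_bijective (fun c : Fin k → F =>
    (⟨ConjClasses.mk (g c), g c, rfl, hg c⟩ :
      {C : ConjClasses (Matrix.SpecialLinearGroup (Fin (k + 1)) F) //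
        ∃ h : Matrix.SpecialLinearGroup (Fin (k + 1)) F, ConjClasses.mk h = C ∧ (orderOf h).Coprime p}))
    ⟨fun c d hcd => ?_, ?_⟩
  · obtain ⟨u, hu⟩ := isConj_iff.1 (ConjClasses.mk_eq_mk_iff_isConj.1 (congrArg Subtype.val hcd))
    have hPP : P c = P d := by
      rw [← hgP c, ← hgP d, ← hu, Matrix.SpecialLinearGroup.coe_mul, Matrix.charpoly_mul_comm,
        ← Matrix.SpecialLinearGroup.coe_mul, inv_mul_cancel_left]
    funext i
    rw [← hcoef c i, ← hcoef d i, hPP]
  · rintro ⟨C, h, rfl, hh⟩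
    refine ⟨fun i => (h : Matrix (Fin (k + 1)) (Fin (k + 1)) F).charpoly.coeff (i.1 + 1),
      Subtype.ext (ConjClasses.mk_eq_mk_iff_isConj.2 ?_)⟩
    refine Cfsg.Agent.S2388.result p (k + 1) _ _ (hg _) hh ?_
    rw [hgP]
    ext i
    rcases lt_trichotomy i (k + 1) with hlt | rfl | hgt
    · cases i with
      | zero =>
        have hd := Matrix.det_eq_sign_charpoly_coeff (h : Matrix (Fin (k + 1)) (Fin (k + 1)) F)
        rw [h.2, Fintype.card_fin] at hd
        rw [hcoef0]
        calc ((-1 : F)) ^ (k + 1) = (-1) ^ (k + 1) *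
              ((-1) ^ (k + 1) * (h : Matrix (Fin (k + 1)) (Fin (k + 1)) F).charpoly.coeff 0) := by
              rw [← hd, mul_one]
          _ = _ := by rw [← mul_assoc, ← mul_pow]; simp
      | succ i => exact hcoef _ ⟨i, by omega⟩
    · have A := (hmon fun i => (h : Matrix (Fin (k + 1)) (Fin (k + 1)) F).charpoly.coeff (i.1 + 1)).coeff_natDegree
      rw [hdeg] at A
      have B := (Matrix.charpoly_monic (h : Matrix (Fin (k + 1)) (Fin (k + 1)) F)).coeff_natDegree
      rw [Matrix.charpoly_natDegree_eq_dim, Fintype.card_fin] at B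
      exact A.trans B.symm
    · rw [Polynomial.coeff_eq_zero_of_natDegree_lt (by rw [hdeg]; exact hgt),
        Polynomial.coeff_eq_zero_of_natDegree_lt
          (by rw [Matrix.charpoly_natDegree_eq_dim, Fintype.card_fin]; exact hgt)]

end Cfsg.Agent.S2384
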