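import Cfsg.Statements.S2385
import Cfsg.Agent.Forms.SympExists
import Cfsg.Agent.Forms.Models
import Cfsg.Agent.S2389

set_option autoImplicit false
open Cfsg

namespace Cfsg.Agent.S2385

open Cfsg.Agent.Forms

/-- The characteristic polynomial of a symplectic matrix is self-reciprocal. -/
theorem charpoly_reverse_of_symplectic {F : Type*} [Field F] {n : ℕ}
    {A : Matrix (Fin n ⊕ Fin n) (Fin n ⊕ Fin n) F} (hA : A ∈ Matrix.symplecticGroup (Fin n) F) :
    A.charpoly.reverse = A.charpoly := by
  have hdet : A.det = 1 := SymplecticGroup.det_eq_one hA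
  have hu : IsUnit A := (Matrix.isUnit_iff_isUnit_det A).2 (by rw [hdet]; exact isUnit_one)
  have h1 : A⁻¹ = -Matrix.J (Fin n) F * A.transpose * Matrix.J (Fin n) F := by
    rw [← SymplecticGroup.coe_inv' ⟨A, hA⟩, SymplecticGroup.coe_inv]
  have h2 : (A⁻¹).charpoly = A.charpoly := by
    rw [h1, Matrix.charpoly_mul_comm, ← Matrix.mul_assoc, Matrix.mul_neg, Matrix.J_squared, neg_neg,
      Matrix.one_mul, Matrix.charpoly_transpose]
  rw [Matrix.charpoly_inv A hu, hdet, Ring.inverse_one, map_one, mul_one,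
    show Fintype.card (Fin n ⊕ Fin n) = 2 * n by simp [two_mul], pow_mul, neg_one_sq, one_pow, one_mul,
    ← Matrix.reverse_charpoly] at h2
  exact h2

/-- In the symplectic group `Sp_{2n}(q)`, `q` a power of the prime `p`, the number of conjugacy classes of elements of order prime to `p` is `q^n`. -/
theorem result {F : Type*} [Field F] [Fintype F] {q : ℕ} (hq : Fintype.card F = q) (p : ℕ) [Fact p.Prime] [CharP F p] (n : ℕ) :
    Nat.card {c : ConjClasses ↥(Matrix.symplecticGroup (Fin n) F) //
      ∃ g : ↥(Matrix.symplecticGroup (Fin n) F), ConjClasses.mk g = c ∧ (orderOf g).Coprime p} = q ^ n := by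
  classical
  have hp : p.Prime := Fact.out
  subst hq
  let co : (Fin n → F) → ℕ → F := fun c j =>
    if j = 0 then 1 else if h : j ≤ n ∧ 1 ≤ j then c ⟨j - 1, by omega⟩
      else if h' : n + n - j ≤ n ∧ 1 ≤ n + n - j then c ⟨n + n - j - 1, by omega⟩ else 1
  let P : (Fin n → F) → Polynomial F := fun c =>
    Polynomial.X ^ (n + n) + ∑ j ∈ Finset.range (n + n), Polynomial.C (co c j) * Polynomial.X ^ j
  have hlow : ∀ c : Fin n → F,
      (∑ j ∈ Finset.range (n + n), Polynomial.C (co c j) * Polynomial.X ^ j).degree <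
        ((n + n : ℕ) : WithBot ℕ) := by
    intro c
    refine lt_of_le_of_lt (Polynomial.degree_sum_le _ _) ((Finset.sup_lt_iff (WithBot.bot_lt_coe _)).2 ?_)
    intro i hi
    exact lt_of_le_of_lt (Polynomial.degree_C_mul_X_pow_le _ _) (Nat.cast_lt.2 (Finset.mem_range.1 hi))
  have hmon : ∀ c, (P c).Monic := fun c => Polynomial.monic_X_pow_add (hlow c)
  have hdeg : ∀ c, (P c).natDegree = n + n := by
    intro c
    refine Polynomial.natDegree_eq_of_degree_eq_some ?_
    simp only [P]
    rw [Polynomial.degree_add_eq_left_of_degree_lt (by rw [Polynomial.degree_X_pow]; exact hlow c),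
      Polynomial.degree_X_pow]
  have hcoef : ∀ c j, j < n + n → (P c).coeff j = co c j := by
    intro c j hj
    simp only [P, Polynomial.coeff_add, Polynomial.finsetSum_coeff, Polynomial.coeff_C_mul_X_pow,
      Polynomial.coeff_X_pow]
    rw [if_neg (by omega), zero_add, Finset.sum_ite_eq, if_pos (Finset.mem_range.2 hj)]
  have hcoi : ∀ c (i : Fin n), co c (i.1 + 1) = c i := by
    intro c i
    simp only [co]
    rw [if_neg (by omega), dif_pos ⟨by omega, by omega⟩]
    congr 1
  have hcosymm : ∀ c j, 1 ≤ j → j < n + n → co c (n + n - j) = co c j := by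
    intro c j hj1 hj
    simp only [co]
    rw [if_neg (by omega), if_neg (by omega)]
    by_cases h1 : j ≤ n
    · rw [dif_pos (show j ≤ n ∧ 1 ≤ j from ⟨h1, hj1⟩)]
      by_cases h2 : n + n - j ≤ n
      · rw [dif_pos ⟨h2, by omega⟩]
        congr 1; exact Fin.ext (by simp only; omega)
      · rw [dif_neg (fun h => h2 h.1), dif_pos ⟨by omega, by omega⟩]
        congr 1; exact Fin.ext (by simp only; omega)
    · rw [dif_pos (show n + n - j ≤ n ∧ 1 ≤ n + n - j by omega), dif_neg (fun h => h1 h.1),
        dif_pos (show n + n - j ≤ n ∧ 1 ≤ n + n - j by omega)]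
  have hrevP : ∀ c, (P c).reverse = P c := by
    intro c
    ext j
    rw [Polynomial.coeff_reverse, hdeg]
    by_cases hj : j ≤ n + n
    · rw [Polynomial.revAt_le hj]
      have htop : (P c).coeff (n + n) = 1 := by
        have := (hmon c).coeff_natDegree; rwa [hdeg] at this
      rcases Nat.eq_zero_or_pos n with rfl | hn
      · simp [show j = 0 by omega]
      rcases Nat.eq_zero_or_pos j with rfl | hj0
      · rw [Nat.sub_zero, htop, hcoef c 0 (by omega)]; simp [co]
      rcases eq_or_lt_of_le hj with rfl | hlt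
      · rw [Nat.sub_self, htop, hcoef c 0 (by omega)]; simp [co]
      rw [hcoef c _ (by omega), hcoef c _ hlt, hcosymm c j hj0 hlt]
    · rw [show Polynomial.revAt (n + n) j = j from
        (if_neg hj : (if j ≤ n + n then n + n - j else j) = j)]
  let ι : (Fin (n + n) → F) ≃ₗ[F] (Fin n ⊕ Fin n → F) := LinearEquiv.funCongrLeft F F finSumFinEquiv
  let B₀ : LinearMap.BilinForm F (Fin (n + n) → F) := (sympB n F).compl₁₂ ι.toLinearMap ι.toLinearMap
  have hA₀ : B₀.IsAlt := fun x => sympB_isAlt (ι x)
  have hB₀ : B₀.Nondegenerate := by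
    refine ⟨fun x hx => ι.injective ?_, fun y hy => ι.injective ?_⟩ <;> rw [map_zero]
    · refine sympB_nondegenerate.1 _ fun v => ?_
      obtain ⟨w, rfl⟩ := ι.surjective v
      exact hx w
    · refine sympB_nondegenerate.2 _ fun v => ?_
      obtain ⟨w, rfl⟩ := ι.surjective v
      exact hy w
  have hsurj : ∀ c, ∃ g : Matrix.symplecticGroup (Fin n) F, (orderOf g).Coprime p ∧
      (g : Matrix (Fin n ⊕ Fin n) (Fin n ⊕ Fin n) F).charpoly = P c := by
    intro c
    obtain ⟨B, a, m, hA, hB, ha, hm, ham, hca⟩ :=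
      exists_symp_semisimple (n + n) (P c) ⟨n, rfl⟩ (hmon c) (hdeg c) (hrevP c)
    obtain ⟨e, -, he⟩ := exists_isometry_conj (m := 1) (by simp) (n + n) B B₀ hA hB hA₀ hB₀
      (LinearEquiv.refl F _) (LinearEquiv.refl F _) (fun x y => rfl) (fun x y => rfl) (pow_one _)
      (pow_one _) rfl
    let t := e.trans ι
    let b := (t.symm.trans a).trans t
    have hb : b ∈ isomGroup (sympB n F) (fun _ => 0) := by
      rw [mem_isomGroup_symp_iff]
      intro u v
      obtain ⟨x, rfl⟩ := t.surjective u
      obtain ⟨y, rfl⟩ := t.surjective v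
      rw [← sympB_apply, ← sympB_apply]
      simp only [b, LinearEquiv.trans_apply, LinearEquiv.symm_apply_apply]
      change B₀ (e (a x)) (e (a y)) = B₀ (e x) (e y)
      rw [he, he, ha]
    refine ⟨(spEquiv n F).symm ⟨b, hb⟩, ?_, ?_⟩
    · have hbm : (⟨b, hb⟩ : isomGroup (sympB n F) (fun _ => 0)) ^ m = 1 := by
        refine Subtype.ext (LinearEquiv.ext fun v => ?_)
        have h1 : ∀ (k : ℕ), (b ^ k) v = t (((a : Module.End F (Fin (n + n) → F)) ^ k) (t.symm v)) := by
          intro k
          induction k with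
          | zero => simp
          | succ k ih =>
            rw [pow_succ', LinearEquiv.mul_apply, ih, pow_succ', Module.End.mul_apply]
            simp [b]
        rw [SubmonoidClass.coe_pow, h1, ham]
        simp
      refine Nat.Coprime.coprime_dvd_left (orderOf_dvd_of_pow_eq_one
        (show ((spEquiv n F).symm ⟨b, hb⟩) ^ m = 1 by rw [← map_pow, hbm, map_one])) ?_
      exact (hp.coprime_iff_not_dvd.2 fun h => hm ((CharP.cast_eq_zero_iff F p m).2 h)).symm
    · rw [← hca, ← Matrix.charpoly_toLin', ← t.charpoly_conj (a : Module.End F (Fin (n + n) → F))]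
      congr 1
      refine LinearMap.ext fun v => ?_
      rw [Matrix.toLin'_apply, spEquiv_symm_apply, LinearEquiv.conj_apply_apply]
      rfl
  choose g hg hgP using hsurj
  rw [show Fintype.card F ^ n = Nat.card (Fin n → F) by
    rw [Nat.card_fun, Nat.card_eq_fintype_card (α := F), Nat.card_fin]]
  symm
  refine Nat.card_eq_of_bijective (fun c : Fin n → F =>
    (⟨ConjClasses.mk (g c), g c, rfl, hg c⟩ :
      {C : ConjClasses (Matrix.symplecticGroup (Fin n) F) //
        ∃ h : Matrix.symplecticGroup (Fin n) F, ConjClasses.mk h = C ∧ (orderOf h).Coprime p}))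
    ⟨fun c d hcd => ?_, ?_⟩
  · obtain ⟨u, hu⟩ := isConj_iff.1 (ConjClasses.mk_eq_mk_iff_isConj.1 (congrArg Subtype.val hcd))
    have hPP : P c = P d := by
      rw [← hgP c, ← hgP d, ← hu, Submonoid.coe_mul, Matrix.charpoly_mul_comm,
        ← Submonoid.coe_mul, inv_mul_cancel_left]
    funext i
    rw [← hcoi c i, ← hcoi d i, ← hcoef c _ (by omega), ← hcoef d _ (by omega), hPP]
  · rintro ⟨C, h, rfl, hh⟩
    set Q := (h : Matrix (Fin n ⊕ Fin n) (Fin n ⊕ Fin n) F).charpoly with hQ
    let c₀ : Fin n → F := fun i => Q.coeff (i.1 + 1)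
    refine ⟨c₀, Subtype.ext (ConjClasses.mk_eq_mk_iff_isConj.2 ?_)⟩
    refine Cfsg.Agent.S2389.result p n _ _ (hg _) hh ?_
    rw [hgP, ← hQ]
    have hQrev : Q.reverse = Q := charpoly_reverse_of_symplectic h.2
    have hQd : Q.natDegree = n + n := by
      rw [hQ, Matrix.charpoly_natDegree_eq_dim, Fintype.card_sum, Fintype.card_fin]
    have hQtop : Q.coeff (n + n) = 1 := by
      have := (Matrix.charpoly_monic (h : Matrix (Fin n ⊕ Fin n) (Fin n ⊕ Fin n) F)).coeff_natDegree
      rw [← hQ, hQd] at this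
      exact this
    have hQsym : ∀ j ≤ n + n, Q.coeff (n + n - j) = Q.coeff j := by
      intro j hj
      have := congrArg (fun R => Polynomial.coeff R j) hQrev
      simp only [Polynomial.coeff_reverse, hQd, Polynomial.revAt_le hj] at this
      exact this
    ext j
    by_cases hj : j < n + n
    · rw [hcoef _ _ hj]
      simp only [co, c₀]
      by_cases hj0 : j = 0
      · subst hj0
        rw [if_pos rfl, ← hQsym 0 (by omega), Nat.sub_zero, hQtop]
      rw [if_neg hj0]
      by_cases h1 : j ≤ n
      · rw [dif_pos ⟨h1, by omega⟩, Nat.sub_add_cancel (by omega)]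
      · rw [dif_neg (fun h => h1 h.1), dif_pos ⟨by omega, by omega⟩, Nat.sub_add_cancel (by omega),
          hQsym _ hj.le]
    · rcases eq_or_lt_of_le (not_lt.1 hj) with rfl | hgt
      · have hA := (hmon c₀).coeff_natDegree
        rw [hdeg] at hA
        rw [hA, hQtop]
      · rw [Polynomial.coeff_eq_zero_of_natDegree_lt (by rw [hdeg]; exact hgt),
          Polynomial.coeff_eq_zero_of_natDegree_lt (by rw [hQd]; exact hgt)]

end Cfsg.Agent.S2385
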