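import Cfsg.Statements.S2390
import Cfsg.Agent.Forms.HermSemisimple
import Cfsg.Agent.Forms.UnitaryOrder

set_option autoImplicit false
open Cfsg
open scoped Matrix

namespace Cfsg.Agent.S2390

open Cfsg.Agent.Forms

/-- In the special unitary group `SU_n(q)` (inside `SL_n` over the field with `q²` elements), `q` a power of the prime `p`, two elements of order prime to `p` with the same characteristic polynomial are conjugate in `SU_n(q)`. -/
theorem result {F : Type*} [Field F] [Fintype F] {q : ℕ} (hF : Fintype.card F = q ^ 2) (p : ℕ) [Fact p.Prime] [CharP F p] (n : ℕ)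
    (g h : ↥(Cfsg.SU n F q)) (hg : (orderOf g).Coprime p) (hh : (orderOf h).Coprime p)
    (hc : ((g : Matrix.SpecialLinearGroup (Fin n) F) : Matrix (Fin n) (Fin n) F).charpoly =
      ((h : Matrix.SpecialLinearGroup (Fin n) F) : Matrix (Fin n) (Fin n) F).charpoly) : IsConj g h := by
  have hp : p.Prime := Fact.out
  rcases Nat.eq_zero_or_pos n with rfl | hn
  · haveI : Subsingleton (Matrix.SpecialLinearGroup (Fin 0) F) :=
      ⟨fun a b => Subtype.ext (Subsingleton.elim _ _)⟩
    rw [Subsingleton.elim g h]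
  set σ := frobQ hF with hσ
  have hσ2 : ∀ c, σ (σ c) = c := frobQ_frobQ hF
  let B : (Fin n → F) →ₗ[F] (Fin n → F) →ₛₗ[σ] F := (hermB n hF).flip
  have hBapp : ∀ u v, B u v = Cfsg.hermForm n F q u v := fun u v => rfl
  have hB : NondegHerm σ B := ⟨fun x y => (hermB_isSymm hF).eq y x,
    fun x hx => (hermB_nondegenerate (n := n) hF).2 x fun y => hx y⟩
  set M := orderOf g * orderOf h with hM
  have hm : (M : F) ≠ 0 := by
    rw [Ne, CharP.cast_eq_zero_iff F p, hp.dvd_mul]
    rintro (h1 | h1)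
    · exact hp.one_lt.ne' (Nat.Coprime.eq_one_of_dvd hg.symm h1)
    · exact hp.one_lt.ne' (Nat.Coprime.eq_one_of_dvd hh.symm h1)
  let T : Cfsg.SU n F q → ((Fin n → F) ≃ₗ[F] (Fin n → F)) := fun k =>
    glEquiv (Fin n) F (Matrix.SpecialLinearGroup.toGL (k : Matrix.SpecialLinearGroup (Fin n) F))
  have hT : ∀ k x, T k x =
      ((k : Matrix.SpecialLinearGroup (Fin n) F) : Matrix (Fin n) (Fin n) F) *ᵥ x := fun k x => rfl
  have hTiso : ∀ k x y, B (T k x) (T k y) = B x y := by
    intro k x y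
    rw [hBapp, hBapp, hT, hT]
    exact k.2 x y
  have hTlin : ∀ k, (T k : Module.End F (Fin n → F)) =
      Matrix.toLin' ((k : Matrix.SpecialLinearGroup (Fin n) F) : Matrix (Fin n) (Fin n) F) := fun k => rfl
  have hTpow : ∀ k : Cfsg.SU n F q, k ^ M = 1 → (T k : Module.End F (Fin n → F)) ^ M = 1 := by
    intro k hk
    rw [hTlin, ← Matrix.toLin'_pow, ← Matrix.SpecialLinearGroup.coe_pow, ← SubmonoidClass.coe_pow, hk,
      OneMemClass.coe_one, Matrix.SpecialLinearGroup.coe_one, Matrix.toLin'_one]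
    rfl
  obtain ⟨⟨e, he, hiso⟩, hz⟩ := exists_herm_conj hσ2 (frobQ_ne_id hF) hm n B B hB hB (T g) (T h)
    (hTiso g) (hTiso h) (hTpow g (by rw [hM, pow_mul, pow_orderOf_eq_one, one_pow]))
    (hTpow h (by rw [hM, mul_comm, pow_mul, pow_orderOf_eq_one, one_pow]))
    (by rw [hTlin, hTlin, Matrix.charpoly_toLin', Matrix.charpoly_toLin', hc])
  set d := LinearMap.det (e : Module.End F (Fin n → F)) with hd
  have hdd : d * σ d = 1 := by
    refine det_norm_one hF (e : Module.End F (Fin n → F)) fun x y => ?_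
    exact hiso y x
  have hd0 : d ≠ 0 := fun h0 => by rw [h0, zero_mul] at hdd; exact zero_ne_one hdd
  obtain ⟨c, hc0, hcd⟩ := exists_div_sigma hσ2 (frobQ_ne_id hF) (x := d⁻¹)
    (by rw [map_inv₀, ← mul_inv, hdd, inv_one])
  obtain ⟨z, hzb, hziso, hzd⟩ := hz hn c hc0
  let E := e.trans z
  have hEdet : (LinearMap.toMatrix' (E : Module.End F (Fin n → F))).det = 1 := by
    rw [LinearMap.det_toMatrix', LinearEquiv.coe_trans, LinearMap.det_comp, hzd, hcd, ← hd,
      inv_mul_cancel₀ hd0]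
  have hEmem : (⟨_, hEdet⟩ : Matrix.SpecialLinearGroup (Fin n) F) ∈ Cfsg.SU n F q := by
    intro u v
    change Cfsg.hermForm n F q (LinearMap.toMatrix' (E : Module.End F (Fin n → F)) *ᵥ u)
      (LinearMap.toMatrix' (E : Module.End F (Fin n → F)) *ᵥ v) = _
    rw [LinearMap.toMatrix'_mulVec, LinearMap.toMatrix'_mulVec, ← hBapp, ← hBapp]
    change B (z (e u)) (z (e v)) = B u v
    rw [hziso, hiso]
  refine isConj_iff.2 ⟨⟨_, hEmem⟩, mul_inv_eq_iff_eq_mul.2 (Subtype.ext (Subtype.ext ?_))⟩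
  apply Matrix.toLin'.injective
  change Matrix.toLin' (LinearMap.toMatrix' (E : Module.End F (Fin n → F)) * _) =
    Matrix.toLin' (_ * LinearMap.toMatrix' (E : Module.End F (Fin n → F)))
  rw [Matrix.toLin'_mul, Matrix.toLin'_mul, Matrix.toLin'_toMatrix', ← hTlin, ← hTlin]
  refine LinearMap.ext fun x => ?_
  change z (e (T g x)) = T h (z (e x))
  rw [he, hzb]

end Cfsg.Agent.S2390
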