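import Cfsg.Statements.S2386
import Cfsg.Agent.Screen.HermExists
import Cfsg.Agent.Forms.UnitaryElements
import Cfsg.Agent.S2390

set_option autoImplicit false
open Cfsg
open scoped Matrix

namespace Cfsg.Agent.S2386

open Cfsg.Agent.Forms Cfsg.Agent.Screen Polynomial

/-- The fixed points of a semilinear involution form half of the space. -/
theorem card_fixed {F W : Type*} [Field F] [AddCommGroup W] [Module F W] {σ : F →+* F}
    (hσ : σ ≠ RingHom.id F) (hσ2 : ∀ c, σ (σ c) = c)
    (τ : W →ₛₗ[σ] W) (hτ : ∀ w, τ (τ w) = w) :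
    Nat.card {w // τ w = w} ^ 2 = Nat.card W := by
  obtain ⟨d, hd⟩ : ∃ d, σ d ≠ d := by
    by_contra hall
    push Not at hall
    exact hσ (RingHom.ext hall)
  have hd' : d - σ d ≠ 0 := sub_ne_zero.2 (Ne.symm hd)
  rw [sq, ← Nat.card_prod]
  refine Nat.card_eq_of_bijective (fun p : {w // τ w = w} × {w // τ w = w} => p.1.1 + d • p.2.1)
    ⟨?_, fun w => ?_⟩
  · rintro ⟨⟨u, hu⟩, ⟨v, hv⟩⟩ ⟨⟨u', hu'⟩, ⟨v', hv'⟩⟩ h
    simp only at h
    have h2 := congrArg τ h
    simp only [map_add, LinearMap.map_smulₛₗ, hu, hv, hu', hv'] at h2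
    have h3 : (d - σ d) • (v - v') = 0 := by
      simp only [smul_sub, sub_smul]
      linear_combination (norm := abel) h - h2
    have hvv : v = v' := sub_eq_zero.1 ((smul_eq_zero.1 h3).resolve_left hd')
    subst hvv
    have huu : u = u' := add_right_cancel h
    subst huu
    rfl
  · set v := (d - σ d)⁻¹ • (w - τ w) with hvdef
    have hv : τ v = v := by
      rw [hvdef, LinearMap.map_smulₛₗ, map_sub, hτ, map_inv₀, map_sub, hσ2, ← neg_sub d (σ d),
        inv_neg, neg_smul, ← smul_neg, neg_sub]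
    have hu : τ (w - d • v) = w - d • v := by
      rw [map_sub, LinearMap.map_smulₛₗ, hv]
      have h1 : d • v - σ d • v = w - τ w := by
        rw [← sub_smul, hvdef, smul_smul, mul_inv_cancel₀ hd', one_smul]
      linear_combination (norm := abel) h1
    exact ⟨(⟨_, hu⟩, ⟨v, hv⟩), sub_add_cancel w (d • v)⟩

theorem charpoly_conjRecip {F : Type*} [Field F] [Fintype F] {q n : ℕ} (hF : Fintype.card F = q ^ 2)
    (g : Cfsg.SU n F q) :
    let Q := ((g : Matrix.SpecialLinearGroup (Fin n) F) : Matrix (Fin n) (Fin n) F).charpoly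
    ConjRecip (frobQ hF) Q ∧ Q.coeff 0 = (-1) ^ n := by
  set A := ((g : Matrix.SpecialLinearGroup (Fin n) F) : Matrix (Fin n) (Fin n) F) with hA
  have hdet : A.det = 1 := (g : Matrix.SpecialLinearGroup (Fin n) F).2
  have hQ0 : A.charpoly.coeff 0 = (-1) ^ n := by
    have h := Matrix.det_eq_sign_charpoly_coeff A
    rw [hdet, Fintype.card_fin] at h
    calc A.charpoly.coeff 0 = ((-1 : F) ^ n * (-1) ^ n) * A.charpoly.coeff 0 := by
          rw [← mul_pow, neg_mul_neg, one_mul, one_pow, one_mul]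
      _ = (-1) ^ n := by rw [mul_assoc, ← h, mul_one]
  refine ⟨?_, hQ0⟩
  have hmul : Aᵀ * A.map (frobQ hF) = 1 := by
    ext i j
    have h : Cfsg.hermForm n F q (A *ᵥ Pi.single i 1) (A *ᵥ Pi.single j 1) =
        Cfsg.hermForm n F q (Pi.single i 1) (Pi.single j 1) := g.2 _ _
    simp only [Cfsg.hermForm, Matrix.mulVec_single_one, Matrix.col_apply] at h
    rw [Matrix.mul_apply]
    simp only [Matrix.transpose_apply, Matrix.map_apply, frobQ_apply]
    rw [h, Finset.sum_eq_single i]
    · have hq : q ≠ 0 := by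
        rintro rfl
        simp at hF
      by_cases hij : i = j
      · subst hij; simp
      · simp [Matrix.one_apply_ne hij, Pi.single_eq_of_ne hij, zero_pow hq]
    · intro b _ hb; simp [Pi.single_eq_of_ne hb]
    · intro h'; exact absurd (Finset.mem_univ i) h'
  have hBdet : (A.map (frobQ hF)).det = 1 := by
    rw [← RingHom.mapMatrix_apply, ← RingHom.map_det, hdet, map_one]
  have hB : IsUnit (A.map (frobQ hF)) :=
    (Matrix.isUnit_iff_isUnit_det _).2 (by rw [hBdet]; exact isUnit_one)
  have h2 := Matrix.charpoly_inv _ hB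
  rw [Matrix.inv_eq_left_inv hmul, Matrix.charpoly_transpose, hBdet, Ring.inverse_one, map_one,
    mul_one, Fintype.card_fin, ← Matrix.reverse_charpoly, Matrix.charpoly_map] at h2
  unfold ConjRecip
  rw [hQ0, map_pow, map_neg, map_one, C.map_pow]
  simp only [map_neg, map_one]
  conv_rhs => rw [h2]
  rw [← mul_assoc, ← mul_pow, neg_mul_neg, one_mul, one_pow, one_mul]

/-- In the special unitary group `SU_n(q)` (matrices of determinant one over the field with `q²` elements preserving the standard Hermitian form), `q` a power of the prime `p`, the number of conjugacy classes of elements of order prime to `p` is `q^(n-1)`. -/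
theorem result {F : Type*} [Field F] [Fintype F] {q : ℕ} (hF : Fintype.card F = q ^ 2) (p : ℕ) [Fact p.Prime] [CharP F p] (n : ℕ) (hn : 1 ≤ n) :
    Nat.card {c : ConjClasses ↥(Cfsg.SU n F q) // ∃ g : ↥(Cfsg.SU n F q), ConjClasses.mk g = c ∧ (orderOf g).Coprime p} = q ^ (n - 1) := by
  classical
  have hp : p.Prime := Fact.out
  set σ := frobQ hF with hσdef
  have hσ2 : ∀ c, σ (σ c) = c := frobQ_frobQ hF
  have hσne : σ ≠ RingHom.id F := frobQ_ne_id hF
  set ε : F := (-1) ^ n with hε
  have hεε : ε * ε = 1 := by rw [hε, ← mul_pow, neg_mul_neg, one_mul, one_pow]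
  have hσε : σ ε = ε := by rw [hε, map_pow, map_neg, map_one]
  let τ : (Fin (n - 1) → F) →ₛₗ[σ] (Fin (n - 1) → F) :=
    { toFun := fun c i => ε * σ (c i.rev)
      map_add' := fun c c' => funext fun i => by simp [mul_add]
      map_smul' := fun k c => funext fun i => by simp [mul_left_comm] }
  have hτ : ∀ c i, τ c i = ε * σ (c i.rev) := fun _ _ => rfl
  have hττ : ∀ c, τ (τ c) = c := fun c => funext fun i => by
    rw [hτ, hτ, Fin.rev_rev, map_mul, hσε, hσ2, ← mul_assoc, hεε, one_mul]
  have hcount : Nat.card {c // τ c = c} = q ^ (n - 1) := by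
    refine Nat.pow_left_injective two_ne_zero ?_
    simp only
    rw [card_fixed hσne hσ2 τ hττ, Nat.card_fun, Nat.card_eq_fintype_card (α := F), hF, Nat.card_fin,
      ← pow_mul, ← pow_mul, mul_comm]
  let co : (Fin (n - 1) → F) → ℕ → F := fun c j =>
    if j = 0 then ε else if h : j - 1 < n - 1 then c ⟨j - 1, h⟩ else 0
  let P : (Fin (n - 1) → F) → F[X] := fun c =>
    X ^ n + ∑ j ∈ Finset.range n, C (co c j) * X ^ j
  have hlow : ∀ c, (∑ j ∈ Finset.range n, C (co c j) * X ^ j).degree < (n : WithBot ℕ) := by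
    intro c
    refine lt_of_le_of_lt (degree_sum_le _ _) ((Finset.sup_lt_iff (WithBot.bot_lt_coe _)).2 ?_)
    intro i hi
    exact lt_of_le_of_lt (degree_C_mul_X_pow_le _ _) (Nat.cast_lt.2 (Finset.mem_range.1 hi))
  have hmon : ∀ c, (P c).Monic := fun c => monic_X_pow_add (hlow c)
  have hdeg : ∀ c, (P c).natDegree = n := by
    intro c
    refine natDegree_eq_of_degree_eq_some ?_
    simp only [P]
    rw [degree_add_eq_left_of_degree_lt (by rw [degree_X_pow]; exact hlow c), degree_X_pow]
  have htop : ∀ c, (P c).coeff n = 1 := by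
    intro c
    have := (hmon c).coeff_natDegree; rwa [hdeg] at this
  have hcoef : ∀ c j, j < n → (P c).coeff j = co c j := by
    intro c j hj
    simp only [P, coeff_add, finsetSum_coeff, coeff_C_mul_X_pow, coeff_X_pow]
    rw [if_neg (by omega), zero_add, Finset.sum_ite_eq, if_pos (Finset.mem_range.2 hj)]
  have hcoi : ∀ c (i : Fin (n - 1)), co c (i.1 + 1) = c i := by
    intro c i
    simp only [co]
    rw [if_neg (by omega), dif_pos (by omega)]
    congr 1
  have hP0 : ∀ c, (P c).coeff 0 = ε := fun c => by rw [hcoef c 0 (by omega)]; simp [co]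
  have hrecP : ∀ c : {c // τ c = c}, ConjRecip σ (P c.1) := by
    rintro ⟨c, hc⟩
    unfold ConjRecip
    rw [hP0, hσε]
    ext j
    rw [coeff_reverse, natDegree_map_eq_of_injective σ.injective, hdeg, coeff_C_mul, coeff_map]
    by_cases hj : j ≤ n
    · rw [revAt_le hj]
      rcases Nat.eq_zero_or_pos j with rfl | hj0
      · rw [Nat.sub_zero, htop, hP0, map_one, hεε]
      rcases eq_or_lt_of_le hj with rfl | hlt
      · rw [Nat.sub_self, htop, hP0, hσε, mul_one]
      obtain ⟨i, rfl⟩ : ∃ i : Fin (n - 1), j = i.1 + 1 :=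
        ⟨⟨j - 1, by omega⟩, by simp only; omega⟩
      rw [show n - (i.1 + 1) = i.rev.1 + 1 by rw [Fin.val_rev]; omega,
        hcoef _ _ (by have := i.rev.isLt; omega), hcoef _ _ hlt, hcoi, hcoi]
      have e := congrFun hc i
      rw [hτ] at e
      change σ (c i.rev) = ε * c i
      rw [← e, ← mul_assoc, hεε, one_mul]
    · rw [show revAt n j = j from (if_neg hj : (if j ≤ n then n - j else j) = j),
        coeff_eq_zero_of_natDegree_lt (by rw [hdeg]; omega), map_zero, mul_zero]
  let B : (Fin n → F) →ₗ[F] (Fin n → F) →ₛₗ[σ] F := (hermB n hF).flip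
  have hBapp : ∀ u v, B u v = Cfsg.hermForm n F q u v := fun u v => rfl
  have hB : NondegHerm σ B := ⟨fun x y => (hermB_isSymm hF).eq y x,
    fun x hx => (hermB_nondegenerate (n := n) hF).2 x fun y => hx y⟩
  have hsurj : ∀ c : {c // τ c = c}, ∃ g : Cfsg.SU n F q, (orderOf g).Coprime p ∧
      ((g : Matrix.SpecialLinearGroup (Fin n) F) : Matrix (Fin n) (Fin n) F).charpoly = P c.1 := by
    intro c
    obtain ⟨B', a, m, hB', ha, hm, ham, hca⟩ := exists_herm_semisimple hσ2 hσne n (P c.1) (hmon _)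
      (hdeg _) (by rw [hP0]; exact left_ne_zero_of_mul_eq_one hεε) (hrecP c)
    obtain ⟨e, he⟩ := exists_herm_isometryEquiv hσ2 hσne (Module.finrank_fin_fun F) B' hB' B hB
    let b : Module.End F (Fin n → F) := e.conj (a : Module.End F (Fin n → F))
    have hbc : b.charpoly = P c.1 := by rw [LinearEquiv.charpoly_conj, hca]
    have hbdet : (LinearMap.toMatrix' b).det = 1 := by
      rw [LinearMap.det_toMatrix', LinearMap.det_eq_sign_charpoly_coeff, hbc, hP0,
        Module.finrank_fin_fun, hε, ← mul_pow, neg_mul_neg, one_mul, one_pow]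
    have hbmem : (⟨_, hbdet⟩ : Matrix.SpecialLinearGroup (Fin n) F) ∈ Cfsg.SU n F q := by
      intro u v
      change Cfsg.hermForm n F q (LinearMap.toMatrix' b *ᵥ u) (LinearMap.toMatrix' b *ᵥ v) = _
      rw [LinearMap.toMatrix'_mulVec, LinearMap.toMatrix'_mulVec, ← hBapp, ← hBapp]
      obtain ⟨x, rfl⟩ := e.surjective u
      obtain ⟨y, rfl⟩ := e.surjective v
      simp only [b, LinearEquiv.conj_apply_apply, LinearEquiv.symm_apply_apply, LinearEquiv.coe_coe]
      rw [he, he, ha]
    refine ⟨⟨_, hbmem⟩, ?_, ?_⟩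
    · have hbm : b ^ m = 1 := by
        have hconj : ∀ k, b ^ k = e.conj ((a : Module.End F (Fin n → F)) ^ k) := by
          intro k
          induction k with
          | zero => simp [Module.End.one_eq_id]
          | succ k ih =>
            rw [pow_succ, pow_succ, ih, Module.End.mul_eq_comp, Module.End.mul_eq_comp,
              LinearEquiv.conj_comp]
        rw [hconj, ham, Module.End.one_eq_id, LinearEquiv.conj_id]
      refine Nat.Coprime.coprime_dvd_left (orderOf_dvd_of_pow_eq_one (n := m) ?_) ?_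
      · refine Subtype.ext (Subtype.ext ?_)
        rw [SubmonoidClass.coe_pow, Matrix.SpecialLinearGroup.coe_pow]
        apply Matrix.toLin'.injective
        rw [Matrix.toLin'_pow, Matrix.toLin'_toMatrix', hbm]
        exact (Matrix.toLin'_one).symm
      · exact (hp.coprime_iff_not_dvd.2 fun h => hm ((CharP.cast_eq_zero_iff F p m).2 h)).symm
    · change (LinearMap.toMatrix' b).charpoly = _
      rw [← hbc, ← Matrix.charpoly_toLin', Matrix.toLin'_toMatrix']
  choose g hg hgP using hsurj
  rw [← hcount]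
  symm
  refine Nat.card_eq_of_bijective (fun c : {c // τ c = c} =>
    (⟨ConjClasses.mk (g c), g c, rfl, hg c⟩ :
      {C : ConjClasses (Cfsg.SU n F q) //
        ∃ h : Cfsg.SU n F q, ConjClasses.mk h = C ∧ (orderOf h).Coprime p}))
    ⟨fun c d hcd => ?_, ?_⟩
  · obtain ⟨u, hu⟩ := isConj_iff.1 (ConjClasses.mk_eq_mk_iff_isConj.1 (congrArg Subtype.val hcd))
    have hPP : P c.1 = P d.1 := by
      rw [← hgP c, ← hgP d, ← hu, Subgroup.coe_mul, Matrix.SpecialLinearGroup.coe_mul,
        Matrix.charpoly_mul_comm, ← Matrix.SpecialLinearGroup.coe_mul, ← Subgroup.coe_mul,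
        inv_mul_cancel_left]
    refine Subtype.ext (funext fun i => ?_)
    rw [← hcoi c.1 i, ← hcoi d.1 i, ← hcoef c.1 _ (by omega), ← hcoef d.1 _ (by omega), hPP]
  · rintro ⟨K, h, rfl, hh⟩
    obtain ⟨hQ, hQ0⟩ := charpoly_conjRecip hF h
    rw [← hσdef] at hQ
    set Q := ((h : Matrix.SpecialLinearGroup (Fin n) F) : Matrix (Fin n) (Fin n) F).charpoly with hQdef
    have hQd : Q.natDegree = n := by
      rw [hQdef, Matrix.charpoly_natDegree_eq_dim, Fintype.card_fin]
    let c₀ : Fin (n - 1) → F := fun i => Q.coeff (i.1 + 1)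
    have hc₀ : τ c₀ = c₀ := by
      funext i
      have hh' := congrArg (fun R => Polynomial.coeff R (i.1 + 1)) hQ
      simp only [coeff_reverse, natDegree_map_eq_of_injective σ.injective, hQd, coeff_map,
        coeff_C_mul, hQ0, revAt_le (show i.1 + 1 ≤ n by omega)] at hh'
      rw [hτ]
      simp only [c₀]
      rw [show i.rev.1 + 1 = n - (i.1 + 1) by rw [Fin.val_rev]; omega, hh', hσε, ← mul_assoc, hεε,
        one_mul]
    refine ⟨⟨c₀, hc₀⟩, Subtype.ext (ConjClasses.mk_eq_mk_iff_isConj.2 ?_)⟩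
    refine Cfsg.Agent.S2390.result hF p n _ _ (hg _) hh ?_
    rw [hgP, ← hQdef]
    ext j
    rcases lt_trichotomy j n with hj | rfl | hj
    · rw [hcoef _ _ hj]
      simp only [co, c₀]
      by_cases hj0 : j = 0
      · subst hj0; rw [if_pos rfl, hQ0]
      rw [if_neg hj0, dif_pos (by omega), Nat.sub_add_cancel (by omega)]
    · have hA := (Matrix.charpoly_monic
        ((h : Matrix.SpecialLinearGroup (Fin j) F) : Matrix (Fin j) (Fin j) F)).coeff_natDegree
      rw [← hQdef, hQd] at hA
      rw [htop, hA]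
    · rw [coeff_eq_zero_of_natDegree_lt (by rw [hdeg]; exact hj),
        coeff_eq_zero_of_natDegree_lt (by rw [hQd]; exact hj)]

end Cfsg.Agent.S2386
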