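import Cfsg.Statements.S2387
import Cfsg.Agent.Forms.SemisimpleExists

set_option autoImplicit false
open scoped MatrixGroups
open Cfsg

namespace Cfsg.Agent.S2387

open Cfsg.Agent.Forms

/-- In `GL_n(q)` with `n ≥ 1`, `q` a power of the prime `p`, the number of conjugacy classes of elements of order prime to `p` (diagonalisable over the algebraic closure; determined by the characteristic polynomial) is `(q - 1) q^(n-1)`. -/
theorem result {F : Type*} [Field F] [Fintype F] {q : ℕ} (hq : Fintype.card F = q) (p : ℕ) [Fact p.Prime] [CharP F p] (n : ℕ) (hn : 1 ≤ n) :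
    Nat.card {c : ConjClasses (GL (Fin n) F) // ∃ g : GL (Fin n) F, ConjClasses.mk g = c ∧ (orderOf g).Coprime p} = (q - 1) * q ^ (n - 1) := by
  classical
  have hp : p.Prime := Fact.out
  subst hq
  obtain ⟨k, rfl⟩ := Nat.exists_eq_add_of_le' hn
  rw [Nat.add_sub_cancel]
  let P : Fˣ × (Fin k → F) → Polynomial F := fun c =>
    Polynomial.X ^ (k + 1) + ((∑ i : Fin k, Polynomial.C (c.2 i) * Polynomial.X ^ (i.1 + 1)) +
      Polynomial.C (c.1 : F))
  have hlow : ∀ c : Fˣ × (Fin k → F), ((∑ i : Fin k, Polynomial.C (c.2 i) * Polynomial.X ^ (i.1 + 1)) +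
      Polynomial.C (c.1 : F)).degree < ((k + 1 : ℕ) : WithBot ℕ) := by
    intro c
    refine lt_of_le_of_lt (Polynomial.degree_add_le _ _) (max_lt ?_ ?_)
    · refine lt_of_le_of_lt (Polynomial.degree_sum_le _ _) ((Finset.sup_lt_iff (WithBot.bot_lt_coe _)).2 ?_)
      intro i _
      exact lt_of_le_of_lt (Polynomial.degree_C_mul_X_pow_le _ _) (Nat.cast_lt.2 (by omega))
    · exact lt_of_le_of_lt Polynomial.degree_C_le (by exact_mod_cast k.succ_pos)
  have hmon : ∀ c, (P c).Monic := fun c => Polynomial.monic_X_pow_add (hlow c)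
  have hdeg : ∀ c, (P c).natDegree = k + 1 := by
    intro c
    refine Polynomial.natDegree_eq_of_degree_eq_some ?_
    simp only [P]
    rw [Polynomial.degree_add_eq_left_of_degree_lt (by rw [Polynomial.degree_X_pow]; exact hlow c),
      Polynomial.degree_X_pow]
  have hcoef : ∀ c (i : Fin k), (P c).coeff (i.1 + 1) = c.2 i := by
    intro c i
    simp only [P, Polynomial.coeff_add, Polynomial.finsetSum_coeff, Polynomial.coeff_C_mul,
      Polynomial.coeff_X_pow, Polynomial.coeff_C, Nat.succ_ne_zero, if_false, add_zero]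
    rw [if_neg (by omega), zero_add, Finset.sum_eq_single i]
    · simp
    · intro j _ hj
      rw [if_neg (fun h => hj (Fin.ext (by omega))), mul_zero]
    · simp
  have hcoef0 : ∀ c, (P c).coeff 0 = (c.1 : F) := by
    intro c
    simp only [P, Polynomial.coeff_add, Polynomial.finsetSum_coeff, Polynomial.coeff_C_mul,
      Polynomial.coeff_X_pow, Polynomial.coeff_C_zero]
    rw [if_neg (by omega), zero_add, Finset.sum_eq_zero (fun i _ => by rw [if_neg (by omega), mul_zero]),
      zero_add]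
  have hsurj : ∀ c, ∃ g : GL (Fin (k + 1)) F,
      (orderOf g).Coprime p ∧ (g : Matrix (Fin (k + 1)) (Fin (k + 1)) F).charpoly = P c := by
    intro c
    obtain ⟨a, m, hm, ha, hca⟩ := exists_semisimple_charpoly (k + 1) (P c) (hmon c) (hdeg c)
      (by rw [hcoef0]; exact c.1.ne_zero)
    have hch : (LinearMap.toMatrix' a).charpoly = P c := by
      rw [← hca, ← Matrix.charpoly_toLin', Matrix.toLin'_toMatrix']
    have hdet : (LinearMap.toMatrix' a).det ≠ 0 := by
      rw [Matrix.det_eq_sign_charpoly_coeff, hch, hcoef0]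
      exact mul_ne_zero (pow_ne_zero _ (neg_ne_zero.2 one_ne_zero)) c.1.ne_zero
    let gg : GL (Fin (k + 1)) F := Matrix.GeneralLinearGroup.mkOfDetNeZero _ hdet
    refine ⟨gg, ?_, hch⟩
    have h1 : gg ^ m = 1 := by
      refine Units.ext ?_
      rw [Units.val_pow_eq_pow_val, Units.val_one]
      apply Matrix.toLin'.injective
      rw [Matrix.toLin'_pow, show (gg : Matrix (Fin (k + 1)) (Fin (k + 1)) F) = LinearMap.toMatrix' a from rfl,
        Matrix.toLin'_toMatrix', ha, Matrix.toLin'_one]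
      rfl
    refine (Nat.Coprime.coprime_dvd_left (orderOf_dvd_of_pow_eq_one h1) ?_)
    exact (hp.coprime_iff_not_dvd.2 fun h => hm ((CharP.cast_eq_zero_iff F p m).2 h)).symm
  choose g hg hgP using hsurj
  have hcard : Nat.card (Fˣ × (Fin k → F)) = (Fintype.card F - 1) * Fintype.card F ^ k := by
    rw [Nat.card_prod, Nat.card_units, Nat.card_fun, Nat.card_eq_fintype_card (α := F), Nat.card_fin]
  rw [← hcard]
  symm
  refine Nat.card_eq_of_bijective (fun c : Fˣ × (Fin k → F) =>
    (⟨ConjClasses.mk (g c), g c, rfl, hg c⟩ :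
      {C : ConjClasses (GL (Fin (k + 1)) F) //
        ∃ h : GL (Fin (k + 1)) F, ConjClasses.mk h = C ∧ (orderOf h).Coprime p}))
    ⟨fun c d hcd => ?_, ?_⟩
  · obtain ⟨u, hu⟩ := isConj_iff.1 (ConjClasses.mk_eq_mk_iff_isConj.1 (congrArg Subtype.val hcd))
    have hPP : P c = P d := by
      rw [← hgP c, ← hgP d, ← hu, Units.val_mul, Matrix.charpoly_mul_comm,
        ← Units.val_mul, inv_mul_cancel_left]
    refine Prod.ext (Units.ext ?_) (funext fun i => ?_)
    · rw [← hcoef0 c, ← hcoef0 d, hPP]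
    · rw [← hcoef c i, ← hcoef d i, hPP]
  · rintro ⟨C, h, rfl, hh⟩
    set Q := (h : Matrix (Fin (k + 1)) (Fin (k + 1)) F).charpoly with hQ
    have hQ0 : Q.coeff 0 ≠ 0 := by
      intro h0
      have hd := Matrix.det_eq_sign_charpoly_coeff (h : Matrix (Fin (k + 1)) (Fin (k + 1)) F)
      rw [← hQ, h0, mul_zero] at hd
      exact ((Matrix.isUnit_iff_isUnit_det _).1 ⟨h, rfl⟩).ne_zero hd
    let c₀ : Fˣ × (Fin k → F) := (Units.mk0 _ hQ0, fun i => Q.coeff (i.1 + 1))
    refine ⟨c₀, Subtype.ext (ConjClasses.mk_eq_mk_iff_isConj.2 ?_)⟩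
    have hm : ((orderOf (g c₀) * orderOf h : ℕ) : F) ≠ 0 := by
      rw [Ne, CharP.cast_eq_zero_iff F p, hp.dvd_mul]
      rintro (h1 | h1)
      · exact hp.one_lt.ne' (Nat.Coprime.eq_one_of_dvd (hg c₀).symm h1)
      · exact hp.one_lt.ne' (Nat.Coprime.eq_one_of_dvd hh.symm h1)
    have hpow : ∀ u : GL (Fin (k + 1)) F, u ^ (orderOf (g c₀) * orderOf h) = 1 →
        (Matrix.toLin' (u : Matrix (Fin (k + 1)) (Fin (k + 1)) F)) ^ (orderOf (g c₀) * orderOf h) = 1 := by
      intro u hu
      rw [← Matrix.toLin'_pow, ← Units.val_pow_eq_pow_val, hu, Units.val_one, Matrix.toLin'_one]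
      rfl
    have hPQ : P c₀ = Q := by
      ext i
      rcases lt_trichotomy i (k + 1) with hlt | rfl | hgt
      · cases i with
        | zero => exact hcoef0 c₀
        | succ i => exact hcoef c₀ ⟨i, by omega⟩
      · have A := (hmon c₀).coeff_natDegree
        rw [hdeg] at A
        have B := (Matrix.charpoly_monic (h : Matrix (Fin (k + 1)) (Fin (k + 1)) F)).coeff_natDegree
        rw [Matrix.charpoly_natDegree_eq_dim, Fintype.card_fin] at B
        exact A.trans B.symm
      · rw [Polynomial.coeff_eq_zero_of_natDegree_lt (by rw [hdeg]; exact hgt),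
          Polynomial.coeff_eq_zero_of_natDegree_lt
            (by rw [hQ, Matrix.charpoly_natDegree_eq_dim, Fintype.card_fin]; exact hgt)]
    obtain ⟨e, hdet, he⟩ := exists_conj_of_charpoly_eq hm (k + 1)
      (Matrix.toLin' ((g c₀ : GL (Fin (k + 1)) F) : Matrix (Fin (k + 1)) (Fin (k + 1)) F))
      (Matrix.toLin' (h : Matrix (Fin (k + 1)) (Fin (k + 1)) F))
      (hpow _ (by rw [pow_mul, pow_orderOf_eq_one, one_pow]))
      (hpow _ (by rw [mul_comm, pow_mul, pow_orderOf_eq_one, one_pow]))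
      (by rw [Matrix.charpoly_toLin', Matrix.charpoly_toLin', hgP, hPQ])
    have hdet' : (LinearMap.toMatrix' (e : Module.End F (Fin (k + 1) → F))).det ≠ 0 := by
      rw [LinearMap.det_toMatrix', hdet]; exact one_ne_zero
    refine isConj_iff.2 ⟨Matrix.GeneralLinearGroup.mkOfDetNeZero _ hdet',
      mul_inv_eq_iff_eq_mul.2 (Units.ext ?_)⟩
    apply Matrix.toLin'.injective
    change Matrix.toLin' (LinearMap.toMatrix' (e : Module.End F (Fin (k + 1) → F)) * _) =
      Matrix.toLin' (_ * LinearMap.toMatrix' (e : Module.End F (Fin (k + 1) → F)))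
    rw [Matrix.toLin'_mul, Matrix.toLin'_mul, Matrix.toLin'_toMatrix']
    exact LinearMap.ext fun x => he x

end Cfsg.Agent.S2387
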