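import Cfsg.Statements.S2392
import Cfsg.Agent.KnownA.SLCrossChar

set_option autoImplicit false
open scoped MatrixGroups
open Cfsg

namespace Cfsg.Agent.S2392

/-- A lower bound for representations in cross characteristic: for `n ≥ 3` and a field `F` with `q` elements, every homomorphism from `SL_n(F)` to `GL_d(K)`, `K` a field of characteristic different from that of `F`, whose kernel is central has `d ≥ q^(n-1) - 1`. -/
theorem result {F : Type*} [Field F] [Fintype F] {q : ℕ} (hq : Fintype.card F = q) (n : ℕ) (hn : 3 ≤ n)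
    {K : Type*} [Field K] (hK : ringChar K ≠ ringChar F) {d : ℕ}
    (ρ : Matrix.SpecialLinearGroup (Fin n) F →* GL (Fin d) K) (hker : ρ.ker ≤ Subgroup.center (Matrix.SpecialLinearGroup (Fin n) F)) :
    q ^ (n - 1) - 1 ≤ d := by
  obtain ⟨N, rfl⟩ : ∃ N, n = 1 + N := ⟨n - 1, by omega⟩
  subst hq
  rw [Nat.add_sub_cancel_left]
  let f : Matrix.SpecialLinearGroup (Fin 1 ⊕ Fin N) F →* Matrix.SpecialLinearGroup (Fin (1 + N)) F :=
    { toFun := fun g => ⟨g.1.reindex finSumFinEquiv finSumFinEquiv, by rw [Matrix.det_reindex_self, g.2]⟩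
      map_one' := by apply Subtype.ext; simp
      map_mul' := fun a b => by
        apply Subtype.ext
        show (a.1 * b.1).submatrix finSumFinEquiv.symm finSumFinEquiv.symm =
          a.1.submatrix _ _ * b.1.submatrix _ _
        rw [Matrix.submatrix_mul_equiv] }
  have hf : Function.Bijective f := by
    refine ⟨fun a b e => Subtype.ext ((Matrix.reindex finSumFinEquiv finSumFinEquiv).injective
      (congrArg Subtype.val e)), fun g => ⟨⟨g.1.reindex finSumFinEquiv.symm finSumFinEquiv.symm, by
        rw [Matrix.det_reindex_self, g.2]⟩, ?_⟩⟩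
    apply Subtype.ext
    ext i j
    show g.1 (finSumFinEquiv (finSumFinEquiv.symm i)) (finSumFinEquiv (finSumFinEquiv.symm j)) = g.1 i j
    rw [Equiv.apply_symm_apply, Equiv.apply_symm_apply]
  refine KnownA.exists_ext_rep hK (ρ.comp f) (fun m θ hθ hq0 σ hσ =>
    KnownA.sl_crossChar_bound (by omega) θ hθ hq0 σ (fun g hg => ?_))
  have h1 := Subgroup.mem_center_iff.mp (hker (MonoidHom.mem_ker.mpr ((hσ g).mp hg)))
  exact Subgroup.mem_center_iff.mpr fun x => hf.1 (by rw [map_mul, map_mul, h1 (f x)])

end Cfsg.Agent.S2392
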