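import Cfsg.Statements.S2393
import Cfsg.Agent.KnownA.SpCrossChar

set_option autoImplicit false
open scoped MatrixGroups
open Cfsg

namespace Cfsg.Agent.S2393

/-- A lower bound for representations in cross characteristic: for `n ≥ 2` and a field `F` with `q` elements, `q` odd, every homomorphism from the symplectic group `Sp_{2n}(F)` to `GL_d(K)`, `K` a field of characteristic different from that of `F`, whose kernel is central has `d ≥ q^(n-1)(q-1)/2`. -/
theorem result {F : Type*} [Field F] [Fintype F] {q : ℕ} (hq : Fintype.card F = q) (hodd : Odd q) (n : ℕ) (hn : 2 ≤ n)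
    {K : Type*} [Field K] (hK : ringChar K ≠ ringChar F) {d : ℕ}
    (ρ : ↥(Matrix.symplecticGroup (Fin n) F) →* GL (Fin d) K) (hker : ρ.ker ≤ Subgroup.center ↥(Matrix.symplecticGroup (Fin n) F)) :
    q ^ (n - 1) * (q - 1) / 2 ≤ d := by
  subst hq
  have h2 : (2 : F) ≠ 0 := by
    intro e
    have h := (FiniteField.even_card_iff_char_two (F := F)).mp
      (CharP.ringChar_of_prime_eq_zero Nat.prime_two (by exact_mod_cast e))
    exact (Nat.not_even_iff_odd.mpr hodd) (Nat.even_iff.mpr h)
  refine KnownA.exists_ext_rep hK ρ (fun m θ hθ hq0 σ hσ =>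
    KnownA.sp_crossChar_bound h2 (by omega) θ hθ hq0 σ (fun g hg => hker (MonoidHom.mem_ker.mpr ((hσ g).mp hg))))

end Cfsg.Agent.S2393
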