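import Cfsg.Statements.S2394
-- import your own Cfsg.Agent.* helpers here

set_option autoImplicit false
open scoped MatrixGroups
open Cfsg

namespace Cfsg.Agent.S2394

open Matrix

section Linear

variable {K V : Type*} [Field K] [AddCommGroup V] [Module K V] [FiniteDimensional K V] {ι : Type*}

/-- Inverted commuting semisimple operators need two dimensions each. -/
theorem two_mul_card_le_finrank [IsAlgClosed K] [DecidableEq ι] (t w : ι → Module.End K V)
    (hss : ∀ i, (t i).IsSemisimple)
    (htt : ∀ i j, Commute (t i) (t j)) (hwt : ∀ i j, i ≠ j → Commute (w i) (t j))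
    (hwinj : ∀ i, Function.Injective (w i))
    (hflip : ∀ i, t i * w i * t i = w i) :
    ∀ (S : Finset ι) (U : Submodule K V),
      (∀ i ∈ S, ∀ x ∈ U, t i x ∈ U ∧ w i x ∈ U) → (∀ i ∈ S, ∃ x ∈ U, t i (t i x) ≠ x) →
      2 * S.card ≤ Module.finrank K U := by
  intro S
  induction S using Finset.strongInduction with
  | _ S ih =>
  intro U hinv hne
  rcases S.eq_empty_or_nonempty with rfl | ⟨i, hi⟩
  · simp
  set E : K → Submodule K V := fun ν => U ⊓ (t i).eigenspace ν with hE
  have hsup : U = ⨆ ν, E ν := by
    have h := Submodule.inf_iSup_genEigenspace (f := t i) (p := U) (fun x hx => (hinv i hi x hx).1) 1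
    have htop : ⨆ ν, (t i).genEigenspace ν (1 : ℕ∞) = ⊤ := (hss i).iSup_eigenspace_eq_top
    rw [htop, inf_top_eq] at h
    exact h
  have hind : iSupIndep E := (t i).eigenspaces_iSupIndep.mono fun ν => inf_le_right
  have hmemE : ∀ {ν : K} {x : V}, x ∈ E ν ↔ x ∈ U ∧ t i x = ν • x := by
    intro ν x; simp [hE, Module.End.mem_eigenspace_iff]
  -- an eigenvalue whose square is not one
  obtain ⟨l, hl, hlne⟩ : ∃ l : K, l * l ≠ 1 ∧ E l ≠ ⊥ := by
    by_contra hc
    push Not at hc
    obtain ⟨x, hx, hxne⟩ := hne i hi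
    refine hxne ?_
    have hle : U ≤ LinearMap.eqLocus ((t i) * (t i)) 1 := by
      rw [hsup]
      refine iSup_le fun ν y hy => ?_
      obtain ⟨-, e⟩ := hmemE.1 hy
      by_cases hν : ν * ν = 1
      · show t i (t i y) = y
        rw [e, map_smul, e, smul_smul, hν, one_smul]
      · rw [hc ν hν, Submodule.mem_bot] at hy
        simp [hy]
    exact hle hx
  obtain ⟨x₀, hx₀, hx₀0⟩ := Submodule.exists_mem_ne_zero_of_ne_bot hlne
  have hl0 : l ≠ 0 := by
    intro h
    obtain ⟨-, e⟩ := hmemE.1 hx₀
    rw [h, zero_smul] at e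
    have := congrArg (fun f : Module.End K V => f x₀) (hflip i)
    simp only [Module.End.mul_apply, e, map_zero] at this
    exact hx₀0 (hwinj i (by rw [← this, map_zero]))
  have hflipE : ∀ {ν : K}, ν ≠ 0 → ∀ x ∈ E ν, w i x ∈ E ν⁻¹ := by
    intro ν hν x hx
    obtain ⟨hxU, e⟩ := hmemE.1 hx
    refine hmemE.2 ⟨(hinv i hi x hxU).2, ?_⟩
    have h := congrArg (fun f : Module.End K V => f x) (hflip i)
    simp only [Module.End.mul_apply, e, map_smul] at h
    exact (eq_inv_smul_iff₀ hν).2 h
  set P := E l
  set P' := E l⁻¹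
  set Q := ⨆ ν ∈ ({l, l⁻¹} : Set K)ᶜ, E ν with hQ
  have hne' : l ≠ l⁻¹ := fun h => hl (by nth_rewrite 1 [h]; exact inv_mul_cancel₀ hl0)
  have hd1 : Disjoint P P' := hind.pairwiseDisjoint hne'
  have hd2 : Disjoint (P ⊔ P') Q := by
    have h := hind.disjoint_biSup_biSup (t := ({l, l⁻¹} : Set K)) (s := ({l, l⁻¹} : Set K)ᶜ)
      disjoint_compl_left
    rw [iSup_pair] at h
    exact h.symm
  have hle : P ⊔ P' ⊔ Q ≤ U := by
    refine sup_le (sup_le inf_le_left inf_le_left) (iSup₂_le fun ν _ => inf_le_left)
  have hdim : Module.finrank K P + Module.finrank K P' + Module.finrank K Q ≤ Module.finrank K U := by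
    rw [← Submodule.finrank_sup_add_finrank_inf_eq P P', disjoint_iff.1 hd1, finrank_bot, add_zero,
      ← Submodule.finrank_sup_add_finrank_inf_eq (P ⊔ P') Q, disjoint_iff.1 hd2, finrank_bot, add_zero]
    exact Submodule.finrank_mono hle
  have hPP : Module.finrank K P ≤ Module.finrank K P' := by
    refine LinearMap.finrank_le_finrank_of_injective
      (f := LinearMap.restrict (w i) (p := P) (q := P') (hflipE hl0)) ?_
    intro a b hab
    exact Subtype.ext (hwinj i (congrArg Subtype.val hab))
  have hP1 : 1 ≤ Module.finrank K P := Submodule.one_le_finrank_iff.2 hlne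
  -- invariance of the eigenspaces
  have hinvE : ∀ j ∈ S.erase i, ∀ ν, ∀ x ∈ E ν, t j x ∈ E ν ∧ w j x ∈ E ν := by
    intro j hj ν x hx
    obtain ⟨hxU, e⟩ := hmemE.1 hx
    have hjS := Finset.mem_of_mem_erase hj
    have hji := Finset.ne_of_mem_erase hj
    refine ⟨hmemE.2 ⟨(hinv j hjS x hxU).1, ?_⟩, hmemE.2 ⟨(hinv j hjS x hxU).2, ?_⟩⟩
    · rw [← Module.End.mul_apply, htt i j, Module.End.mul_apply, e, map_smul]
    · rw [← Module.End.mul_apply, ← hwt j i hji, Module.End.mul_apply, e, map_smul]
  classical
  set A := (S.erase i).filter fun j => ∃ x ∈ P, t j (t j x) ≠ x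
  set B := (S.erase i).filter fun j => ∃ x ∈ Q, t j (t j x) ≠ x
  have hcover : S.erase i ⊆ A ∪ B := by
    intro j hj
    by_contra hc
    simp only [A, B, Finset.mem_union, Finset.mem_filter, hj, true_and, not_or, not_exists, not_and,
      not_not] at hc
    obtain ⟨hcP, hcQ⟩ := hc
    have hji := Finset.ne_of_mem_erase hj
    have hfix : ∀ ν, ∀ x ∈ E ν, t j (t j x) = x := by
      intro ν x hx
      by_cases h1 : ν = l
      · rw [h1] at hx; exact hcP x hx
      by_cases h2 : ν = l⁻¹
      · subst h2
        have h' := hflipE (inv_ne_zero hl0) x hx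
        rw [inv_inv] at h'
        have h3 := hcP _ h'
        rw [← Module.End.mul_apply (t j) (w i), ← hwt i j (Ne.symm hji), Module.End.mul_apply,
          ← Module.End.mul_apply (t j) (w i), ← hwt i j (Ne.symm hji), Module.End.mul_apply] at h3
        exact hwinj i h3
      · refine hcQ x ?_
        exact le_iSup₂ (f := fun ν (_ : ν ∈ ({l, l⁻¹} : Set K)ᶜ) => E ν) ν (by simp [h1, h2]) hx
    obtain ⟨x, hx, hxne⟩ := hne j (Finset.mem_of_mem_erase hj)
    refine hxne ?_
    have : U ≤ LinearMap.eqLocus ((t j) * (t j)) 1 := by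
      rw [hsup]
      exact iSup_le fun ν y hy => hfix ν y hy
    exact this hx
  have hss' : ∀ T : Finset ι, T ⊆ S.erase i → T ⊂ S := fun T hT =>
    lt_of_le_of_lt hT (Finset.erase_ssubset hi)
  have hA := ih A (hss' A (Finset.filter_subset _ _)) P
    (fun j hj => hinvE j (Finset.filter_subset _ _ hj) l) (fun j hj => (Finset.mem_filter.1 hj).2)
  have hB := ih B (hss' B (Finset.filter_subset _ _)) Q (fun j hj x hx => by
      have hj' := Finset.filter_subset _ _ hj
      constructor
      · refine (show Q ≤ Q.comap (t j) from iSup₂_le fun ν hν y hy => ?_) hx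
        exact le_iSup₂ (f := fun ν (_ : ν ∈ ({l, l⁻¹} : Set K)ᶜ) => E ν) ν hν (hinvE j hj' ν y hy).1
      · refine (show Q ≤ Q.comap (w j) from iSup₂_le fun ν hν y hy => ?_) hx
        exact le_iSup₂ (f := fun ν (_ : ν ∈ ({l, l⁻¹} : Set K)ᶜ) => E ν) ν hν (hinvE j hj' ν y hy).2)
    (fun j hj => (Finset.mem_filter.1 hj).2)
  have hc := Finset.card_le_card hcover
  have hu := Finset.card_union_le A B
  have he := Finset.card_erase_add_one hi
  rcases Nat.eq_zero_or_pos A.card with h0 | h0 <;> omega

end Linear

section SL2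

variable {F : Type*} [Field F] [Fintype F] [DecidableEq F]

/-- An element of order 3 or 4 of `SL₂` together with an element inverting it. -/
theorem exists_torus_pair : ∃ (m : ℕ) (T W : Matrix (Fin 2) (Fin 2) F),
    ((m : F) ≠ 0) ∧ T.det = 1 ∧ W.det = 1 ∧ T ^ m = 1 ∧ T * T ≠ 1 ∧ T * W * T = W := by
  by_cases h2 : (2 : F) = 0
  · refine ⟨3, !![0, 1; 1, 1], !![0, 1; 1, 0], ?_, ?_, ?_, ?_, ?_, ?_⟩
    · intro h
      push_cast at h
      exact one_ne_zero (by linear_combination h - h2 : (1 : F) = 0)
    · simp [Matrix.det_fin_two]; linear_combination -h2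
    · simp [Matrix.det_fin_two]; linear_combination -h2
    · ext i j
      fin_cases i <;> fin_cases j <;> simp [pow_succ, Matrix.mul_apply, Fin.sum_univ_two] <;>
        linear_combination h2
    · intro h
      have := congrFun (congrFun h 0) 1
      simp [Matrix.mul_apply, Fin.sum_univ_two] at this
    · ext i j
      fin_cases i <;> fin_cases j <;> simp [Matrix.mul_apply, Fin.sum_univ_two] <;>
        linear_combination h2
  · obtain ⟨a, b, hab⟩ : ∃ a b : F, a ^ 2 + b ^ 2 = -1 := by
      have hodd : Fintype.card F % 2 = 1 := FiniteField.odd_card_of_char_ne_two fun hc => h2 (by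
        have := CharP.cast_eq_zero F (ringChar F)
        rw [hc] at this
        exact_mod_cast this)
      obtain ⟨a, b, h⟩ := FiniteField.exists_root_sum_quadratic
        (f := (Polynomial.X ^ 2 : Polynomial F)) (g := Polynomial.X ^ 2 + Polynomial.C 1)
        (Polynomial.degree_X_pow 2) (Polynomial.degree_X_pow_add_C (by norm_num) 1) hodd
      refine ⟨a, b, ?_⟩
      simp at h
      linear_combination h
    refine ⟨4, !![0, 1; -1, 0], !![a, b; b, -a], ?_, ?_, ?_, ?_, ?_, ?_⟩
    · intro h
      push_cast at h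
      exact h2 ((mul_self_eq_zero).1 (by linear_combination h))
    · simp [Matrix.det_fin_two]
    · simp [Matrix.det_fin_two]; linear_combination -hab
    · ext i j
      fin_cases i <;> fin_cases j <;> simp [pow_succ, Matrix.mul_apply, Fin.sum_univ_two]
    · intro h
      have := congrFun (congrFun h 0) 0
      simp [Matrix.mul_apply, Fin.sum_univ_two] at this
      exact h2 (by linear_combination -this)
    · ext i j
      fin_cases i <;> fin_cases j <;> simp [Matrix.mul_apply, Fin.sum_univ_two] <;> ring

end SL2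

section Embed

variable {F : Type*} [Field F] {l : Type*} [Fintype l] [DecidableEq l]

/-- The block-diagonal embedding of a product of copies of `2 × 2` matrices. -/
def blk : (l → Matrix (Fin 2) (Fin 2) F) →* Matrix (l ⊕ l) (l ⊕ l) F where
  toFun M := fromBlocks (diagonal fun i => M i 0 0) (diagonal fun i => M i 0 1)
    (diagonal fun i => M i 1 0) (diagonal fun i => M i 1 1)
  map_one' := by simp [fromBlocks_one]
  map_mul' M N := by
    simp only [fromBlocks_multiply, diagonal_mul_diagonal, diagonal_add, Pi.mul_apply,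
      Matrix.mul_apply, Fin.sum_univ_two]

theorem blk_injective : Function.Injective (blk (F := F) (l := l)) := by
  intro M N h
  simp only [blk, MonoidHom.coe_mk, OneHom.coe_mk, fromBlocks_inj, diagonal_eq_diagonal_iff] at h
  ext i x y
  fin_cases x <;> fin_cases y
  · exact h.1 i
  · exact h.2.1 i
  · exact h.2.2.1 i
  · exact h.2.2.2 i

theorem blk_mem {M : l → Matrix (Fin 2) (Fin 2) F} (h : ∀ i, (M i).det = 1) :
    blk M ∈ Matrix.symplecticGroup l F := by
  rw [SymplecticGroup.mem_iff]
  simp only [blk, MonoidHom.coe_mk, OneHom.coe_mk, Matrix.J, fromBlocks_transpose, diagonal_transpose,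
    fromBlocks_multiply, ← diagonal_one, ← diagonal_zero, diagonal_neg, diagonal_mul_diagonal,
    diagonal_add]
  simp only [fromBlocks_inj, diagonal_eq_diagonal_iff]
  have hd : ∀ i, M i 0 0 * M i 1 1 - M i 0 1 * M i 1 0 = 1 := fun i => by
    rw [← Matrix.det_fin_two]; exact h i
  refine ⟨fun i => ?_, fun i => ?_, fun i => ?_, fun i => ?_⟩
  · ring
  · linear_combination -(hd i)
  · linear_combination hd i
  · ring

end Embed

/-- The smallest degree of a faithful representation of the symplectic group `Sp_{2n}(q)` over its own field `F_q` is `2n`: every injective homomorphism from `Sp_{2n}(F)` to `GL_d(F)`, `F` the field with `q` elements, has `d ≥ 2n`. -/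
theorem result {F : Type*} [Field F] [Fintype F] (n : ℕ) {d : ℕ}
    (ρ : ↥(Matrix.symplecticGroup (Fin n) F) →* GL (Fin d) F) (hρ : Function.Injective ρ) : 2 * n ≤ d := by
  classical
  obtain ⟨m, T, W, hm, hT, hW, hTm, hT2, hflip⟩ := exists_torus_pair (F := F)
  let el : (X : Matrix (Fin 2) (Fin 2) F) → X.det = 1 → Fin n → ↥(Matrix.symplecticGroup (Fin n) F) :=
    fun X hX i => ⟨blk (Pi.mulSingle i X), blk_mem fun j => by
      rcases eq_or_ne j i with rfl | hj
      · simpa using hX
      · simp [Pi.mulSingle_eq_of_ne hj]⟩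
  let K := AlgebraicClosure F
  let π : ↥(Matrix.symplecticGroup (Fin n) F) →* Module.End K (Fin d → K) :=
    ((Matrix.toLinAlgEquiv' (R := K) (n := Fin d)).toAlgHom.toRingHom.toMonoidHom.comp
      (RingHom.mapMatrix (m := Fin d) (algebraMap F K)).toMonoidHom).comp
        ((Units.coeHom _).comp ρ)
  have hπ : Function.Injective π := by
    intro x y h
    exact hρ (Units.ext (Matrix.map_injective (algebraMap F K).injective
      ((Matrix.toLinAlgEquiv' (R := K) (n := Fin d)).injective h)))
  have hmulSingle : ∀ (X Y : Matrix (Fin 2) (Fin 2) F) (i j : Fin n), (i = j → Commute X Y) →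
      Commute (Pi.mulSingle i X : Fin n → Matrix (Fin 2) (Fin 2) F) (Pi.mulSingle j Y) := by
    intro X Y i j h
    rcases eq_or_ne i j with rfl | hij
    · exact (h rfl).map (MonoidHom.mulSingle (fun _ : Fin n => Matrix (Fin 2) (Fin 2) F) i)
    · exact Pi.mulSingle_commute (f := fun _ : Fin n => Matrix (Fin 2) (Fin 2) F) hij X Y
  have key := two_mul_card_le_finrank (K := K) (V := Fin d → K)
    (fun i => π (el T hT i)) (fun i => π (el W hW i)) ?_ ?_ ?_ ?_ ?_ Finset.univ ⊤
    (fun i _ x _ => ⟨trivial, trivial⟩) ?_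
  · simpa using key
  · intro i
    have hp : el T hT i ^ m = 1 := Subtype.ext (by
      show blk (Pi.mulSingle i T) ^ m = 1
      rw [← map_pow, ← Pi.mulSingle_pow, hTm, Pi.mulSingle_one, map_one])
    refine Module.End.isSemisimple_of_squarefree_aeval_eq_zero
      (p := Polynomial.X ^ m - 1) ?_ ?_
    · refine Polynomial.Separable.squarefree ?_
      have : ((m : ℕ) : K) ≠ 0 := by
        rw [← map_natCast (algebraMap F K)]
        exact fun h => hm ((algebraMap F K).injective (by rw [h, map_zero]))
      exact Polynomial.separable_X_pow_sub_C (1 : K) this one_ne_zero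
    · rw [map_sub, map_pow, Polynomial.aeval_X, map_one, ← map_pow, hp, map_one, sub_self]
  · intro i j
    refine Commute.map ?_ π
    exact Subtype.ext (((hmulSingle T T i j fun _ => Commute.refl _).map blk).eq)
  · intro i j hij
    refine Commute.map ?_ π
    exact Subtype.ext (((hmulSingle W T i j fun h => absurd h hij).map blk).eq)
  · intro i
    have : Function.Injective (π (el W hW i)) := by
      intro a b h
      have e : π (el W hW i)⁻¹ * π (el W hW i) = 1 := by rw [← map_mul, inv_mul_cancel, map_one]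
      have h' := congrArg (π (el W hW i)⁻¹) h
      rw [← Module.End.mul_apply, ← Module.End.mul_apply, e] at h'
      exact h'
    exact this
  · intro i
    rw [← map_mul, ← map_mul]
    congr 1
    refine Subtype.ext ?_
    show blk (Pi.mulSingle i T) * blk (Pi.mulSingle i W) * blk (Pi.mulSingle i T) = _
    rw [← map_mul, ← map_mul, ← Pi.mulSingle_mul, ← Pi.mulSingle_mul, hflip]
  · intro i _
    by_contra hc
    push Not at hc
    have h1 : el T hT i * el T hT i = 1 := hπ (by
      rw [map_mul, map_one]
      exact LinearMap.ext fun x => hc x trivial)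
    have h2 : blk (Pi.mulSingle i (T * T)) = blk 1 := by
      rw [Pi.mulSingle_mul, map_mul, map_one]
      exact congrArg Subtype.val h1
    have h3 := congrFun (blk_injective h2) i
    rw [Pi.mulSingle_eq_same] at h3
    exact hT2 h3

end Cfsg.Agent.S2394
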