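import Cfsg.Statements.S2398
import Cfsg.Agent.Suzuki.StLiftUniversal
import Cfsg.Agent.Suzuki.StLiftCasesG2F4
import Cfsg.Agent.Suzuki.StLiftCasesB2D4
import Cfsg.Agent.Suzuki.StLiftCasesE6
import Cfsg.Agent.Suzuki.StLiftCasesE7
import Cfsg.Agent.Suzuki.StLiftCasesE8
-- import your own Cfsg.Agent.* helpers here

set_option autoImplicit false
open Cfsg

namespace Cfsg.Agent.S2398

/-- Universality of the group Δ presented by Steinberg's generators with relators (R1), (R2), over a field with more than four elements (types G₂, B₂, D₄, F₄, E₆, E₇, E₈): for every central extension `π₁ : E → G₁` (surjective, central kernel) and every homomorphism `σ : Δ → G₁` there is exactly one homomorphism `τ : Δ → E` with `π₁ ∘ τ = σ`. In particular every central extension of Δ splits; together with the fact that Δ maps onto the Chevalley group with central kernel, this makes Δ the universal central extension of the Chevalley group. -/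
theorem result {K : Type*} [Field K] (hK5 : ∃ s : Finset K, 4 < s.card) (D : Cfsg.Lie.ChevalleyDatum) (hD : D ∈ [Cfsg.Lie.chevG2, Cfsg.Lie.chevB2, Cfsg.Lie.chevD4, Cfsg.Lie.chevF4, Cfsg.Lie.chevE6, Cfsg.Lie.chevE7, Cfsg.Lie.chevE8])
    {G₁ E : Type*} [Group G₁] [Group E] (π₁ : E →* G₁) (hπ : Function.Surjective π₁) (hc : π₁.ker ≤ Subgroup.center E)
    (σ : D.SteinbergCover K →* G₁) : ∃! τ : D.SteinbergCover K →* E, π₁.comp τ = σ := by
  have hperf : commutator (D.SteinbergCover K) = ⊤ := Cfsg.Agent.KnownA.CoverPerfect.cover_perfect hD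
    (fun _ => Cfsg.Agent.Suzuki.StLift.exists_ne_zero_one (hK5.imp fun s hs => by omega))
  refine Cfsg.Agent.Suzuki.StLift.exists_unique_lift ?_ hperf π₁ hπ hc σ
  simp only [List.mem_cons, List.not_mem_nil, or_false] at hD
  rcases hD with rfl | rfl | rfl | rfl | rfl | rfl | rfl
  · exact Cfsg.Agent.Suzuki.StLift.splits_g2' hK5
  · exact Cfsg.Agent.Suzuki.StLift.splits_b2_big hK5
  · exact Cfsg.Agent.Suzuki.StLift.splits_d4_big (hK5.imp fun s hs => by omega)
  · exact Cfsg.Agent.Suzuki.StLift.splits_f4_big (hK5.imp fun s hs => by omega)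
  · exact Cfsg.Agent.Suzuki.StLift.splits_e6
  · exact Cfsg.Agent.Suzuki.StLift.splits_e7
  · exact Cfsg.Agent.Suzuki.StLift.splits_e8

end Cfsg.Agent.S2398
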