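import Cfsg.Statements.S2399
import Cfsg.Agent.Suzuki.StLiftProjective
import Cfsg.Agent.S2398
-- import your own Cfsg.Agent.* helpers here

set_option autoImplicit false
open scoped MatrixGroups
open Cfsg

namespace Cfsg.Agent.S2399

/-- Projective representations in the natural characteristic lift: for each of the types G₂, B₂, D₄, F₄, E₆, E₇, E₈ over any field `K` (for types B₂ and G₂ the field must have more than two elements — the cases where the Chevalley group is not simple are set aside), every homomorphism from the Chevalley group to `PGL_n(L) = GL_n(L)/Z`, `L` a field of the same characteristic as `K`, lifts uniquely to a homomorphism from the group Δ presented by (R1), (R2) to `GL_n(L)`, compatibly with the projection Δ → Chevalley group sending x̄_r(t) to x_r(t). -/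
theorem result {K : Type*} [Field K] (D : Cfsg.Lie.ChevalleyDatum) (hD : D ∈ [Cfsg.Lie.chevG2, Cfsg.Lie.chevB2, Cfsg.Lie.chevD4, Cfsg.Lie.chevF4, Cfsg.Lie.chevE6, Cfsg.Lie.chevE7, Cfsg.Lie.chevE8]) (hK : D ∈ [Cfsg.Lie.chevB2, Cfsg.Lie.chevG2] → ∃ x : K, x ≠ 0 ∧ x ≠ 1)
    (θ : D.SteinbergCover K →* ↥(D.group K))
    (hθ : ∀ (r : ℕ) (t : K), r < D.nroots → ((θ (D.scGen K r t) : GL D.Idx K) : Matrix D.Idx D.Idx K) = D.x K r t)
    {L : Type*} [Field L] (hL : ringChar L = ringChar K) {n : ℕ}
    (φ : ↥(D.group K) →* GL (Fin n) L ⧸ Subgroup.center (GL (Fin n) L)) :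
    ∃! ψ : D.SteinbergCover K →* GL (Fin n) L, (QuotientGroup.mk' (Subgroup.center (GL (Fin n) L))).comp ψ = φ.comp θ := by
  classical
  have hperf : commutator (D.SteinbergCover K) = ⊤ := Cfsg.Agent.KnownA.CoverPerfect.cover_perfect hD hK
  have hex : ∃ ψ : D.SteinbergCover K →* GL (Fin n) L, ∀ x,
      QuotientGroup.mk' (Subgroup.center (GL (Fin n) L)) (ψ x) = φ (θ x) := by
    by_cases h5 : ∃ s : Finset K, 4 < s.card
    · obtain ⟨ψ, hψ, -⟩ := Cfsg.Agent.S2398.result h5 D hD (QuotientGroup.mk' (Subgroup.center (GL (Fin n) L)))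
        (QuotientGroup.mk'_surjective _) (QuotientGroup.ker_mk' _).le (φ.comp θ)
      exact ⟨ψ, fun x => DFunLike.congr_fun hψ x⟩
    · push Not at h5
      exact Cfsg.Agent.Suzuki.StLift.lift_projective hD hperf h5 hL (φ.comp θ)
  obtain ⟨ψ, hψ⟩ := hex
  refine ⟨ψ, MonoidHom.ext hψ, fun ψ' hψ' => Cfsg.Agent.Suzuki.StLift.central_hom_ext hperf ψ ψ' fun x => ?_⟩
  refine QuotientGroup.eq.1 ?_
  exact (hψ x).trans (DFunLike.congr_fun hψ' x).symm

end Cfsg.Agent.S2399
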