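import Cfsg.Statements.S2400
import Cfsg.Agent.Suzuki.StLiftSteinberg
import Cfsg.Agent.Suzuki.StLiftCasesG2F4
import Cfsg.Agent.Suzuki.StLiftCasesB2D4
import Cfsg.Agent.Suzuki.StLiftCasesB2Three
import Cfsg.Agent.Suzuki.StLiftCasesB2Four
import Cfsg.Agent.Suzuki.StLiftCasesD4Three
import Cfsg.Agent.Suzuki.StLiftCasesE6
import Cfsg.Agent.Suzuki.StLiftCasesE7
-- import your own Cfsg.Agent.* helpers here

set_option autoImplicit false
open Cfsg

namespace Cfsg.Agent.S2400

/-- Over a finite field `K`, the group presented by Steinberg's relators (R1)–(R3) (the universal Chevalley group) of type E₆ or E₇, or of type B₂ or D₄ with `K` of more than two elements, has trivial Schur multiplier: every finite stem extension of it is an isomorphism (Schur multiplier described through stem extensions as in the definitions). Types G₂, F₄ and E₈ are not covered here. -/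
theorem result {K : Type*} [Field K] [Fintype K] (e : Cfsg.Lie.ChevalleyDatum × ℕ)
    (he : e ∈ [(Cfsg.Lie.chevE6, 0), (Cfsg.Lie.chevE7, 0), (Cfsg.Lie.chevB2, 2), (Cfsg.Lie.chevD4, 2)]) (hK : Fintype.card K ≠ e.2) :
    Cfsg.HasCyclicSchurMultiplier (e.1.SteinbergGroup K) 1 := by
  classical
  have hne : e.2 = 2 ∨ e.2 = 0 := by
    simp only [List.mem_cons, List.not_mem_nil, or_false] at he
    rcases he with rfl | rfl | rfl | rfl <;> simp
  have h1 := Fintype.one_lt_card (α := K)
  have hD : e.1 ∈ [Cfsg.Lie.chevG2, Cfsg.Lie.chevB2, Cfsg.Lie.chevD4, Cfsg.Lie.chevF4, Cfsg.Lie.chevE6, Cfsg.Lie.chevE7, Cfsg.Lie.chevE8] := by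
    simp only [List.mem_cons, List.not_mem_nil, or_false] at he
    rcases he with rfl | rfl | rfl | rfl <;> simp
  have hx : e.1 ∈ [Cfsg.Lie.chevB2, Cfsg.Lie.chevG2] → ∃ x : K, x ≠ 0 ∧ x ≠ 1 := by
    intro h
    have h2 : e.2 = 2 := by
      simp only [List.mem_cons, List.not_mem_nil, or_false] at he h
      rcases he with rfl | rfl | rfl | rfl
      · rcases h with h | h <;> exact absurd (congrArg Cfsg.Lie.ChevalleyDatum.rank h) (by decide +kernel)
      · rcases h with h | h <;> exact absurd (congrArg Cfsg.Lie.ChevalleyDatum.rank h) (by decide +kernel)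
      · rfl
      · rfl
    exact Cfsg.Agent.Suzuki.StLift.exists_ne_zero_one
      (Cfsg.Agent.Suzuki.StLift.big_of_card (n := 2) (by omega))
  obtain ⟨f, -⟩ := Cfsg.Agent.S2397.result (K := K) e.1 hD hx
  refine Cfsg.Agent.Suzuki.StLift.hasCyclic_steinberg hD hx f ?_
  simp only [List.mem_cons, List.not_mem_nil, or_false] at he
  rcases he with rfl | rfl | rfl | rfl
  · exact Cfsg.Agent.Suzuki.StLift.splits_e6
  · exact Cfsg.Agent.Suzuki.StLift.splits_e7
  · rcases (show Fintype.card K = 3 ∨ Fintype.card K = 4 ∨ 4 < Fintype.card K by simp only at hK; omega) with h | h | h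
    · exact Cfsg.Agent.Suzuki.StLift.splits_b2_three (Cfsg.Agent.Suzuki.StLift.three_of_card h)
    · exact Cfsg.Agent.Suzuki.StLift.splits_b2_four h
    · exact Cfsg.Agent.Suzuki.StLift.splits_b2_big (Cfsg.Agent.Suzuki.StLift.big_of_card h)
  · rcases (show Fintype.card K = 3 ∨ 3 < Fintype.card K by simp only at hK; omega) with h | h
    · exact Cfsg.Agent.Suzuki.StLift.splits_d4_three (Cfsg.Agent.Suzuki.StLift.three_of_card h)
    · exact Cfsg.Agent.Suzuki.StLift.splits_d4_big (Cfsg.Agent.Suzuki.StLift.big_of_card h)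

end Cfsg.Agent.S2400
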