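import Cfsg.Statements.S2412
import Cfsg.Agent.Forms.SUThreeRegCases
import Cfsg.Agent.Screen.TwoGen.Unitary.Big
import Cfsg.Agent.Screen.TwoGen.Unitary.Two

set_option autoImplicit false
open Cfsg

namespace Cfsg.Agent.S2412

/-- The projective special unitary group `PSU_n(q)` with `n ≥ 3`, realised over the field with `q²` elements, `(n, q) ≠ (3, 2)`, is generated by two of its elements. -/
theorem result {F : Type*} [Field F] [Fintype F] {q : ℕ} (hq : IsPrimePow q) (hF : Fintype.card F = q ^ 2) (n : ℕ) (hn : 3 ≤ n) (h32 : n = 3 → q ≠ 2) :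
    ∃ a b : Cfsg.PSU n F q, Subgroup.closure ({a, b} : Set (Cfsg.PSU n F q)) = ⊤ := by
  have h : ∃ a b : Cfsg.SU n F q, Subgroup.closure ({a, b} : Set (Cfsg.SU n F q)) = ⊤ := by
    rcases eq_or_ne n 3 with rfl | hn3
    · have hq3 : 3 ≤ q := by
        have := Forms.two_le_q hF
        have := h32 rfl
        omega
      obtain ⟨e, f, z, hfr⟩ := Forms.SUThree.exists_frame hF
      by_cases h5 : q = 5
      · obtain ⟨u, g, -, hgen⟩ := Forms.SUThree.gen_five hF hfr h5
        exact ⟨u, g * u * g⁻¹, hgen⟩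
      by_cases h8 : q = 8
      · obtain ⟨u, g, -, hgen⟩ := Forms.SUThree.gen_eight hF hfr h8
        exact ⟨u, g * u * g⁻¹, hgen⟩
      obtain ⟨u, g, -, hgen⟩ := Forms.SUThree.gen_generic hF hfr hq3 h5 h8
      exact ⟨u, g * u * g⁻¹, hgen⟩
    · rcases eq_or_ne q 2 with hq2 | hq2
      · exact Screen.TwoGen.Unitary.exists_two_small hF hq2 (by omega)
      · exact Screen.TwoGen.Unitary.exists_two_big hF (by have := Forms.two_le_q hF; omega) (by omega)
  obtain ⟨a, b, hab⟩ := h
  let π := QuotientGroup.mk' (Subgroup.center (Cfsg.SU n F q))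
  refine ⟨π a, π b, ?_⟩
  rw [← Set.image_pair, ← MonoidHom.map_closure, hab,
    Subgroup.map_top_of_surjective π (QuotientGroup.mk'_surjective _)]

end Cfsg.Agent.S2412
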