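import Cfsg.Statements.S2413
import Cfsg.Agent.Screen.TwoGen.Orth.Models
import Cfsg.Agent.Forms.OmegaFiveAny
import Cfsg.Agent.S2411

set_option autoImplicit false
open Cfsg

namespace Cfsg.Agent.S2413

/-- The simple orthogonal group `PΩ_{2m+1}(q)` (commutator subgroup of the orthogonal group of `x₀² + Σ x_i y_i` modulo its centre) with `m ≥ 2` and `q` odd is generated by two of its elements. -/
theorem result {F : Type*} [Field F] [Fintype F] (hodd : Odd (Fintype.card F)) (m : ℕ) (hm : 2 ≤ m) :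
    ∃ a b : Cfsg.POmega F (Cfsg.quadFormOdd m F), Subgroup.closure ({a, b} : Set (Cfsg.POmega F (Cfsg.quadFormOdd m F))) = ⊤ := by
  have h2 : (2 : F) ≠ 0 := by
    intro h2
    haveI : CharP F 2 := CharTwo.of_one_ne_zero_of_two_eq_zero one_ne_zero h2
    obtain ⟨n, -, hc⟩ := FiniteField.card F 2
    rw [hc] at hodd
    exact (Nat.not_even_iff_odd.2 hodd) ((Nat.even_pow).2 ⟨even_two, n.ne_zero⟩)
  rcases (by omega : m = 2 ∨ 3 ≤ m) with rfl | hm3
  · have hc : 3 ≤ Fintype.card F := by
      obtain ⟨k, hk⟩ := hodd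
      have := Fintype.one_lt_card (α := F)
      omega
    obtain ⟨a, b, hab⟩ := Cfsg.Agent.S2411.result (F := F) 2 le_rfl (fun _ => by omega)
    obtain ⟨E⟩ := Cfsg.Agent.Forms.pomega_five_any (F := F)
      ⟨-1, neg_ne_zero.2 one_ne_zero, fun h => h2 (by linear_combination -h)⟩
    refine ⟨E a, E b, ?_⟩
    rw [← Set.image_pair]
    change Subgroup.closure (E.toMonoidHom '' {a, b}) = ⊤
    rw [← MonoidHom.map_closure, hab]
    exact Subgroup.map_top_of_surjective _ E.surjective
  · have h := Screen.TwoGen.Orth.pomega_two _ (Screen.TwoGen.Orth.exists_two_odd h2 m hm3)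
    rwa [Forms.coe_qOdd] at h

end Cfsg.Agent.S2413
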