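import Cfsg.Statements.S2416
import Cfsg.Agent.KnownA.RootGeneration
-- import your own Cfsg.Agent.* helpers here

set_option autoImplicit false
open scoped MatrixGroups
open Cfsg

namespace Cfsg.Agent.S2416

/-- A Chevalley group of type G₂, B₂, D₄, F₄, E₆, E₇ or E₈ over a finite field lies in (indeed equals) the subgroup generated by its monomial subgroup `N` and a single fundamental root subgroup `X_p`, where `p` is a short fundamental root if there are two root lengths (any fundamental root otherwise), provided the characteristic is not 2 for types B₂, F₄ and not 3 for type G₂ (and the field has more than two elements for B₂, G₂). -/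
theorem result {K : Type*} [Field K] [Finite K] (D : Cfsg.Lie.ChevalleyDatum) (hD : D ∈ [Cfsg.Lie.chevG2, Cfsg.Lie.chevB2, Cfsg.Lie.chevD4, Cfsg.Lie.chevF4, Cfsg.Lie.chevE6, Cfsg.Lie.chevE7, Cfsg.Lie.chevE8])
    (hK : D ∈ [Cfsg.Lie.chevB2, Cfsg.Lie.chevG2] → ∃ x : K, x ≠ 0 ∧ x ≠ 1)
    (h2 : D ∈ [Cfsg.Lie.chevB2, Cfsg.Lie.chevF4] → ringChar K ≠ 2) (h3 : D = Cfsg.Lie.chevG2 → ringChar K ≠ 3)
    (i : ℕ) (hi : i < D.rank) (hshort : D.isLong (D.simple i) = false) :
    D.group K ≤ D.monomialSubgroup K ⊔ D.rootSubgroup K (D.simple i) := by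
  obtain ⟨C⟩ := Cfsg.Agent.Chev.nonempty_cert hD
  set T := D.monomialSubgroup K ⊔ D.rootSubgroup K (D.simple i) with hT
  have hN : D.monomialSubgroup K ≤ T := le_sup_left
  have hL : ∀ x ∈ [i], x < D.rank ∧ D.rootSubgroup K (D.simple x) ≤ T := by
    intro x hx
    rw [List.mem_singleton] at hx
    subst hx
    exact ⟨hi, le_sup_right⟩
  have hne : ∀ q : ℕ, q.Prime → ringChar K ≠ q → ((q : ℤ) : K) ≠ 0 := by
    intro q hq hne h
    rw [Int.cast_natCast, ringChar.spec] at h
    exact hne ((Nat.dvd_prime hq).1 h |>.resolve_left (CharP.ringChar_ne_one))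
  simp only [List.mem_cons, List.not_mem_nil, or_false] at hD h2
  rcases hD with rfl | rfl | rfl | rfl | rfl | rfl | rfl
  · refine KnownA.RootGeneration.group_le_of_reach C hN (fun a j ha hj h he => ?_) [i] hL
      (KnownA.RootGeneration.reach_short.2.2 i hi hshort)
    rcases Bool.or_eq_true _ _ ▸ he with he | he
    · exact KnownA.RootGeneration.swap_step C hN ha hj h he
    · exact KnownA.RootGeneration.sum_step C hN (hne 3 Nat.prime_three (h3 rfl)) ha hj h he
  · refine KnownA.RootGeneration.group_le_of_reach C hN (fun a j ha hj h he => ?_) [i] hL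
      (KnownA.RootGeneration.reach_short.1 i hi hshort)
    rcases Bool.or_eq_true _ _ ▸ he with he | he
    · exact KnownA.RootGeneration.swap_step C hN ha hj h he
    · exact KnownA.RootGeneration.sum_step C hN (hne 2 Nat.prime_two (h2 (Or.inl rfl))) ha hj h he
  · exact KnownA.RootGeneration.group_le_of_reach C hN (fun a j => KnownA.RootGeneration.swap_step C hN)
      [i] hL (KnownA.RootGeneration.reach_one (by simp) i hi)
  · refine KnownA.RootGeneration.group_le_of_reach C hN (fun a j ha hj h he => ?_) [i] hL
      (KnownA.RootGeneration.reach_short.2.1 i hi hshort)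
    rcases Bool.or_eq_true _ _ ▸ he with he | he
    · exact KnownA.RootGeneration.swap_step C hN ha hj h he
    · exact KnownA.RootGeneration.sum_step C hN (hne 2 Nat.prime_two (h2 (Or.inr rfl))) ha hj h he
  all_goals
    exact KnownA.RootGeneration.group_le_of_reach C hN
      (fun a j => KnownA.RootGeneration.swap_step C hN) [i] hL (KnownA.RootGeneration.reach_one (by simp) i hi)

end Cfsg.Agent.S2416
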