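import Cfsg.Statements.S2425
import Cfsg.Agent.Screen.SteinbergValue.Cosets
import Cfsg.Agent.Screen.SteinbergValue.Mobius
import Cfsg.Agent.Linear.Unipotent.Chars

set_option autoImplicit false
open scoped MatrixGroups
open Cfsg

namespace Cfsg.Agent.S2425

open Cfsg.Agent.Screen.SteinbergValue Module Polynomial

/-- Values of the Steinberg character of `GL_n(q)` (the partition-indexed character for `ν = (1,…,1)`, of degree `q^(n(n−1)/2)`) at elements of order prime to the characteristic: if the characteristic polynomial of such an element is `∏ f^(m_f)` over distinct monic irreducible `f`, the value is `∏_f (−1)^((deg f − 1) m_f) q^(deg f · m_f (m_f − 1)/2)`. (At elements of order divisible by the characteristic the value is 0; that is not part of this statement.) -/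
theorem result {F : Type*} [Field F] [Fintype F] [DecidableEq F] {q : ℕ} (hq : Fintype.card F = q) (p : ℕ) [Fact p.Prime] [CharP F p]
    {n : ℕ} (x : GL (Fin n) F) (hx : (orderOf x).Coprime p) :
    Cfsg.unipotentCharacterGL n F (fun _ => 1) x =
      ∏ f ∈ (UniqueFactorizationMonoid.normalizedFactors (x : Matrix (Fin n) (Fin n) F).charpoly).toFinset,
        (-1 : ℂ) ^ ((f.natDegree - 1) * (UniqueFactorizationMonoid.normalizedFactors (x : Matrix (Fin n) (Fin n) F).charpoly).count f) *
          (q : ℂ) ^ (f.natDegree * (UniqueFactorizationMonoid.normalizedFactors (x : Matrix (Fin n) (Fin n) F).charpoly).count f *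
            ((UniqueFactorizationMonoid.normalizedFactors (x : Matrix (Fin n) (Fin n) F).charpoly).count f - 1) / 2) := by
  classical
  subst hq
  set T : Module.End F (Fin n → F) := (glMap x : (Fin n → F) →ₗ[F] (Fin n → F)) with hT
  have hTmat : T = Matrix.toLin' (x : Matrix (Fin n) (Fin n) F) := rfl
  -- the value is the alternating sum of flag counts
  have hval : Cfsg.unipotentCharacterGL n F (fun _ => 1) x =
      ((altSum n 0 fun l => flagCount T l ⊥ : ℤ) : ℂ) := by
    simp only [Cfsg.unipotentCharacterGL, altSum, Int.cast_sum]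
    refine Finset.sum_congr rfl fun κ _ => ?_
    by_cases h : ∀ i : Fin n, (κ i).val ≤ i.val + 1
    · rw [if_pos (fun i => by have := h i; omega), if_pos h]
      have hμ : ∑ i : Fin n, (1 + i.val - (κ i).val) = n :=
        Cfsg.Agent.Linear.Unipotent.sum_shift (ν := fun _ => 1) (by simp) (fun i => by have := h i; omega)
      rw [fixedPointCharacter, card_fixed_eq_chain hμ x, Int.cast_mul, flagCount_eq_card]
      simp only [Int.cast_natCast]
      congr 4
      funext i
      simp [add_comm]
    · rw [if_neg (fun h' => h fun i => by have := h' i; omega), if_neg h, Int.cast_zero]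
  -- semisimplicity
  have hN : x ^ orderOf x = 1 := pow_orderOf_eq_one x
  have hTN : T ^ orderOf x = 1 := by
    rw [hTmat, ← Matrix.toLin'_pow, ← Units.val_pow_eq_pow_val, hN, Units.val_one, Matrix.toLin'_one]
    rfl
  have hNF : ((orderOf x : ℕ) : F) ≠ 0 := by
    rw [Ne, CharP.cast_eq_zero_iff F p]
    exact fun h => (Fact.out : p.Prime).one_lt.ne' (Nat.Coprime.eq_one_of_dvd hx.symm h)
  haveI hss : IsSemisimpleModule F[X] (Module.AEval' T) := by
    have h : Module.End.IsSemisimple T := Module.End.isSemisimple_of_squarefree_aeval_eq_zero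
      (p := X ^ orderOf x - C 1) ((Polynomial.separable_X_pow_sub_C 1 hNF one_ne_zero).squarefree)
      (by simp [hTN])
    exact h
  haveI : Finite (Module.AEval' T) := Finite.of_equiv _ (Module.AEval'.of T).toEquiv
  obtain ⟨s, hs, hcp, hmu, -⟩ := exists_factor_data (F := F) _ (Module.AEval' T) le_rfl
  have hchar : (x : Matrix (Fin n) (Fin n) F).charpoly = s.prod := by
    rw [← hcp, ← Matrix.charpoly_toLin', ← hTmat, ← (Module.AEval'.of T).charpoly_conj T]
    congr 1
    refine LinearMap.ext fun m => ?_
    obtain ⟨m, rfl⟩ := (Module.AEval'.of T).surjective m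
    rw [LinearEquiv.conj_apply_apply, LinearEquiv.symm_apply_apply]
    exact (Module.AEval'.X_smul_of T m).symm
  have hnf : UniqueFactorizationMonoid.normalizedFactors (x : Matrix (Fin n) (Fin n) F).charpoly = s := by
    rw [hchar, UniqueFactorizationMonoid.normalizedFactors_prod_eq s fun f hf => (hs f hf).2]
    exact (Multiset.map_congr rfl fun f hf => (hs f hf).1.normalize_eq_self).trans (Multiset.map_id' s)
  have hn : n = ∑ f ∈ s.toFinset, f.natDegree * s.count f := by
    have h := congrArg Polynomial.natDegree hchar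
    rw [Matrix.charpoly_natDegree_eq_dim, Fintype.card_fin,
      Polynomial.natDegree_multiset_prod_of_monic _ fun f hf => (hs f hf).1,
      Finset.sum_multiset_map_count] at h
    rw [h]
    simp [mul_comm]
  -- the lattices agree
  let U₀ : Inv T := ⟨⊥, bot_le⟩
  let E₁ : Inv T ≃o T.invtSubmodule :=
    { toFun := fun W => ⟨W.1, (Module.End.mem_invtSubmodule T).2 W.2⟩
      invFun := fun W => ⟨W.1, (Module.End.mem_invtSubmodule T).1 W.2⟩
      left_inv := fun W => rfl
      right_inv := fun W => rfl
      map_rel_iff' := Iff.rfl }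
  let E : Inv T ≃o Submodule F[X] (Module.AEval' T) :=
    E₁.trans (Module.AEval.mapSubmodule F (Fin n → F) T)
  have hpsi : psi U₀ = moebius F[X] (Module.AEval' T) := by
    rw [← psi_orderIso E U₀]
    congr 1
    refine eq_bot_iff.2 ?_
    rw [← E.apply_symm_apply ⊥]
    exact E.monotone (bot_le (α := Submodule F (Fin n → F)))
  have halt : altSum n 0 (fun l => flagCount T l ⊥) = (-1) ^ n * psi U₀ := by
    rw [altSum_flagCount T n 0 U₀ (by simp [U₀, Module.finrank_fin_fun])]
    by_cases h0 : n = 0
    · subst h0; simp
    · simp [h0]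
  rw [hval, halt, hpsi, hmu, hnf]
  nth_rw 1 [hn]
  rw [← Finset.prod_pow_eq_pow_sum, ← Finset.prod_mul_distrib, Int.cast_prod]
  refine Finset.prod_congr rfl fun f hf => ?_
  have hd : 0 < f.natDegree := (hs f (Multiset.mem_toFinset.1 hf)).2.natDegree_pos
  push_cast
  rw [← mul_assoc, ← pow_add, Nat.choose_two_right, ← Nat.mul_div_assoc _ (Nat.even_mul_pred_self _).two_dvd,
    ← mul_assoc f.natDegree]
  congr 1
  rw [show f.natDegree * s.count f + s.count f = (f.natDegree - 1) * s.count f + 2 * s.count f by
    conv_lhs => rw [← Nat.sub_add_cancel hd]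
    ring, pow_add, pow_mul (-1 : ℂ) 2, neg_one_sq, one_pow, mul_one]

end Cfsg.Agent.S2425
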