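import Cfsg.Statements.S2426
import Cfsg.Agent.KnownA.RankOne.SLTwo
-- import your own Cfsg.Agent.* helpers here

set_option autoImplicit false
open Cfsg

namespace Cfsg.Agent.S2426

/-- The rank-one Steinberg presentation of `SL₂` over a finite field `K`: generators `x(t)`, `y(t)` (`t ∈ K`; the two opposite root subgroups) subject to additivity `x(t)x(u) = x(t+u)`, `y(t)y(u) = y(t+u)` and, with `w(t) = x(t) y(−t⁻¹) x(t)` and `w'(t) = y(t) x(−t⁻¹) y(t)` for `t ≠ 0`, the relations `w(t) x(u) w(t)⁻¹ = y(−t⁻² u)` and `w'(t) y(u) w'(t)⁻¹ = x(−t⁻² u)`, present `SL₂(K)`, with `x(t) ↦ (1 t; 0 1)` and `y(t) ↦ (1 0; t 1)`. -/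
theorem result {K : Type*} [Field K] [Finite K] :
    ∃ e : PresentedGroup
        ({g : FreeGroup (Bool × K) | ∃ (b : Bool) (t u : K), g = FreeGroup.of (b, t) * FreeGroup.of (b, u) * (FreeGroup.of (b, t + u))⁻¹} ∪
          {g | ∃ (b : Bool) (t u : K), t ≠ 0 ∧
            g = (FreeGroup.of (b, t) * FreeGroup.of (!b, -t⁻¹) * FreeGroup.of (b, t)) * FreeGroup.of (b, u) *
                  (FreeGroup.of (b, t) * FreeGroup.of (!b, -t⁻¹) * FreeGroup.of (b, t))⁻¹ * (FreeGroup.of (!b, -(t⁻¹ ^ 2 * u)))⁻¹})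
        ≃* Matrix.SpecialLinearGroup (Fin 2) K,
      (∀ t : K, ((e (PresentedGroup.of (true, t)) : Matrix (Fin 2) (Fin 2) K)) = !![1, t; 0, 1]) ∧
      (∀ t : K, ((e (PresentedGroup.of (false, t)) : Matrix (Fin 2) (Fin 2) K)) = !![1, 0; t, 1]) := by
  classical
  set rels := ({g : FreeGroup (Bool × K) | ∃ (b : Bool) (t u : K), g = FreeGroup.of (b, t) * FreeGroup.of (b, u) * (FreeGroup.of (b, t + u))⁻¹} ∪
          {g | ∃ (b : Bool) (t u : K), t ≠ 0 ∧
            g = (FreeGroup.of (b, t) * FreeGroup.of (!b, -t⁻¹) * FreeGroup.of (b, t)) * FreeGroup.of (b, u) *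
                  (FreeGroup.of (b, t) * FreeGroup.of (!b, -t⁻¹) * FreeGroup.of (b, t))⁻¹ * (FreeGroup.of (!b, -(t⁻¹ ^ 2 * u)))⁻¹}) with hrels
  let R : KnownA.RankOne.Data (PresentedGroup rels) K :=
    { x := fun t => PresentedGroup.of (true, t)
      y := fun t => PresentedGroup.of (false, t)
      x_add := fun a b => by
        have h := PresentedGroup.one_of_mem (rels := rels) (Or.inl ⟨true, a, b, rfl⟩)
        rwa [map_mul, map_inv, map_mul, mul_inv_eq_one] at h
      y_add := fun a b => by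
        have h := PresentedGroup.one_of_mem (rels := rels) (Or.inl ⟨false, a, b, rfl⟩)
        rwa [map_mul, map_inv, map_mul, mul_inv_eq_one] at h
      w_x := fun t v ht => by
        have h := PresentedGroup.one_of_mem (rels := rels) (Or.inr ⟨true, t, v, ht, rfl⟩)
        rw [map_mul, map_inv, mul_inv_eq_one] at h
        simp only [map_mul, map_inv] at h
        exact h }
  let f : Bool × K → Matrix.SpecialLinearGroup (Fin 2) K := fun p =>
    bif p.1 then KnownA.RankOne.upT p.2 else KnownA.RankOne.loT p.2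
  have hf : ∀ g ∈ rels, FreeGroup.lift f g = 1 := by
    rintro g (⟨b, t, u, rfl⟩ | ⟨b, t, u, ht, rfl⟩) <;> cases b <;>
      simp only [map_mul, map_inv, FreeGroup.lift_apply_of, f, cond_true, cond_false, Bool.not_true,
        Bool.not_false, mul_inv_eq_one]
    · exact KnownA.RankOne.loT_add t u
    · exact KnownA.RankOne.upT_add t u
    · exact KnownA.RankOne.sl_conj_lo ht u
    · exact KnownA.RankOne.sl_conj_up ht u
  let φ := PresentedGroup.toGroup hf
  have hx : ∀ t, φ (R.x t) = KnownA.RankOne.upT t := fun t => PresentedGroup.toGroup.of hf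
  have hy : ∀ t, φ (R.y t) = KnownA.RankOne.loT t := fun t => PresentedGroup.toGroup.of hf
  have hgen : Subgroup.closure (Set.range R.x ∪ Set.range R.y) = ⊤ := by
    rw [eq_top_iff, ← PresentedGroup.closure_range_of rels, Subgroup.closure_le]
    rintro _ ⟨⟨_ | _, t⟩, rfl⟩
    · exact Subgroup.subset_closure (Or.inr ⟨t, rfl⟩)
    · exact Subgroup.subset_closure (Or.inl ⟨t, rfl⟩)
  have hsurj := KnownA.RankOne.surjective_of_range φ (fun t => ⟨_, hx t⟩) (fun t => ⟨_, hy t⟩)
  refine ⟨MulEquiv.ofBijective φ ⟨R.injective φ hgen hx hy, hsurj⟩, fun t => ?_, fun t => ?_⟩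
  · exact congrArg Subtype.val (hx t)
  · exact congrArg Subtype.val (hy t)

end Cfsg.Agent.S2426
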