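import Cfsg.Statements.S2427
-- import your own Cfsg.Agent.* helpers here

set_option autoImplicit false
open Cfsg

namespace Cfsg.Agent.S2427

/-- The group SL₂ over the field with 3 elements has order 24 and centre of order 2; its commutator subgroup has order 8, is isomorphic to the quaternion group of order 8 and is complemented by every Sylow 3-subgroup (so the group is a semidirect product of a quaternion group of order 8 by a cyclic group of order 3); and its only normal subgroups besides the trivial subgroup and the whole group are the centre and the commutator subgroup. -/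
abbrev SL := Matrix.SpecialLinearGroup (Fin 2) (ZMod 3)

def A : SL := ⟨!![0, 1; 2, 0], by decide⟩

def X : SL := ⟨!![1, 1; 1, 2], by decide⟩

def f : QuaternionGroup 2 → SL
  | .a i => A ^ i.val
  | .xa i => X * A ^ i.val

theorem card_eq : Fintype.card SL = 24 := by decide +kernel

theorem quot_facts :
    (∀ a b : SL, (a * b * a⁻¹ * b⁻¹) ^ 4 = 1) ∧
    (∀ g : SL, g ^ 4 = 1 → ∃ a b : SL, g = a * b * a⁻¹ * b⁻¹) ∧
    (∀ x y : QuaternionGroup 2, f (x * y) = f x * f y) ∧
    (∀ x : QuaternionGroup 2, f x ^ 4 = 1) ∧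
    (∀ g : SL, g ^ 4 = 1 → ∃ x, f x = g) ∧
    (∀ x y : QuaternionGroup 2, f x = f y → x = y) ∧
    (∀ g : SL, g ^ 4 = 1 → (∀ h, h * g = g * h) ∨
      ∀ x : SL, x ^ 4 = 1 → ∃ a b : SL, x = a * g * a⁻¹ * (b * g * b⁻¹)) ∧
    (∀ g : SL, g ^ 4 ≠ 1 → ∃ a : SL, (a * g * a⁻¹ * g⁻¹) ^ 4 = 1 ∧ ∃ h, h * (a * g * a⁻¹ * g⁻¹) ≠ (a * g * a⁻¹ * g⁻¹) * h) ∧
    (Finset.univ.filter fun g : SL => ∀ h, h * g = g * h).card = 2 ∧
    (Finset.univ.filter fun g : SL => g ^ 4 = 1).card = 8 := by
  refine ⟨?_, ?_, ?_, ?_, ?_, ?_, ?_, ?_, ?_, ?_⟩ <;> decide +kernel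

theorem result :
    Nat.card (Matrix.SpecialLinearGroup (Fin 2) (ZMod 3)) = 24 ∧
    Nat.card (Subgroup.center (Matrix.SpecialLinearGroup (Fin 2) (ZMod 3))) = 2 ∧
    Nat.card (commutator (Matrix.SpecialLinearGroup (Fin 2) (ZMod 3))) = 8 ∧
    Nonempty (commutator (Matrix.SpecialLinearGroup (Fin 2) (ZMod 3)) ≃* QuaternionGroup 2) ∧
    (∀ P : Sylow 3 (Matrix.SpecialLinearGroup (Fin 2) (ZMod 3)),
      Subgroup.IsComplement' (commutator (Matrix.SpecialLinearGroup (Fin 2) (ZMod 3)))
        (P : Subgroup (Matrix.SpecialLinearGroup (Fin 2) (ZMod 3)))) ∧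
    ∀ N : Subgroup (Matrix.SpecialLinearGroup (Fin 2) (ZMod 3)), N.Normal →
      N = ⊥ ∨ N = ⊤ ∨ N = Subgroup.center (Matrix.SpecialLinearGroup (Fin 2) (ZMod 3)) ∨
        N = commutator (Matrix.SpecialLinearGroup (Fin 2) (ZMod 3)) := by
  obtain ⟨h1, h2, h3, h4, h5, h6, h7, h8, h9, h10⟩ := quot_facts
  classical
  have hC : ∀ g : SL, g ∈ commutator SL ↔ g ^ 4 = 1 := by
    intro g
    constructor
    · intro hg
      let Q : Subgroup SL :=
        { carrier := {g | g ^ 4 = 1}
          one_mem' := one_pow 4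
          mul_mem' := fun {a b} ha hb => by
            obtain ⟨x, rfl⟩ := h5 a ha
            obtain ⟨y, rfl⟩ := h5 b hb
            show _ ^ 4 = 1
            rw [← h3]; exact h4 _
          inv_mem' := fun {a} ha => by
            show a⁻¹ ^ 4 = 1
            rw [inv_pow, ha, inv_one] }
      have : commutator SL ≤ Q := by
        rw [commutator_def, Subgroup.commutator_le]
        exact fun a _ b _ => h1 a b
      exact this hg
    · intro hg
      obtain ⟨a, b, rfl⟩ := h2 g hg
      exact Subgroup.commutator_mem_commutator (Subgroup.mem_top a) (Subgroup.mem_top b)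
  have hZ : ∀ g : SL, g ∈ Subgroup.center SL ↔ ∀ h, h * g = g * h := fun g => Subgroup.mem_center_iff
  have hcardG : Nat.card SL = 24 := by rw [Nat.card_eq_fintype_card]; exact card_eq
  have hcardZ : Nat.card (Subgroup.center SL) = 2 := by
    rw [Nat.card_eq_fintype_card, Fintype.card_subtype]
    simp only [hZ]; convert h9
  have hcardC : Nat.card (commutator SL) = 8 := by
    rw [Nat.card_eq_fintype_card, Fintype.card_subtype]
    simp only [hC]; convert h10
  refine ⟨hcardG, hcardZ, hcardC, ?_, ?_, ?_⟩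
  · let φ : QuaternionGroup 2 →* commutator SL :=
      MonoidHom.mk' (fun x => ⟨f x, (hC _).2 (h4 x)⟩) fun x y => Subtype.ext (h3 x y)
    refine ⟨(MulEquiv.ofBijective φ ⟨fun x y e => h6 x y (congrArg Subtype.val e), ?_⟩).symm⟩
    rintro ⟨g, hg⟩
    obtain ⟨x, hx⟩ := h5 g ((hC g).1 hg)
    exact ⟨x, Subtype.ext hx⟩
  · intro P
    have : Fact (Nat.Prime 3) := ⟨Nat.prime_three⟩
    have hP : Nat.card P = 3 := by
      rw [P.card_eq_multiplicity, hcardG, show (24 : ℕ) = 3 ^ 1 * 8 by norm_num,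
        Nat.factorization_mul (by norm_num) (by norm_num), Finsupp.add_apply,
        Nat.prime_three.factorization_pow, Nat.factorization_eq_zero_of_not_dvd (show ¬ 3 ∣ 8 by norm_num)]
      simp
    exact Subgroup.isComplement'_of_coprime (by rw [hcardC, hP, hcardG]) (by rw [hcardC, hP]; decide)
  · intro N hN
    by_cases hNZ : N ≤ Subgroup.center SL
    · have hd := Subgroup.card_dvd_of_le hNZ
      rw [hcardZ] at hd
      rcases (Nat.dvd_prime Nat.prime_two).1 hd with e | e
      · exact Or.inl (Subgroup.card_eq_one.1 e)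
      · exact Or.inr (Or.inr (Or.inl (Subgroup.eq_of_le_of_card_ge hNZ (by rw [hcardZ, e]))))
    obtain ⟨g, hg, hgZ⟩ := SetLike.not_le_iff_exists.1 hNZ
    rw [hZ] at hgZ
    have key : ∀ y ∈ N, y ^ 4 = 1 → (¬ ∀ h, h * y = y * h) → commutator SL ≤ N := by
      intro y hy hy4 hyZ x hx
      obtain ⟨a, b, rfl⟩ := (h7 y hy4).resolve_left hyZ x ((hC x).1 hx)
      exact N.mul_mem (hN.conj_mem y hy a) (hN.conj_mem y hy b)
    by_cases h4g : g ^ 4 = 1
    · have hle := key g hg h4g hgZ
      have hd := Subgroup.card_dvd_of_le hle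
      have hd' := Subgroup.card_subgroup_dvd_card N
      rw [hcardC] at hd
      rw [hcardG] at hd'
      obtain ⟨j, hj⟩ := hd
      have hj' : j ∣ 3 := Nat.dvd_of_mul_dvd_mul_left (show 0 < 8 by norm_num) (hj ▸ hd')
      rcases (Nat.dvd_prime Nat.prime_three).1 hj' with rfl | rfl
      · exact Or.inr (Or.inr (Or.inr (Subgroup.eq_of_le_of_card_ge hle (by rw [hcardC, hj])).symm))
      · exact Or.inr (Or.inl (Subgroup.eq_top_of_card_eq N (by rw [hj, hcardG])))
    · obtain ⟨a, ha, h, hh⟩ := h8 g h4g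
      have hm : a * g * a⁻¹ * g⁻¹ ∈ N := N.mul_mem (hN.conj_mem g hg a) (N.inv_mem hg)
      have hle := key _ hm ha fun e => hh (e h)
      have hd := Subgroup.card_dvd_of_le hle
      have hd' := Subgroup.card_subgroup_dvd_card N
      rw [hcardC] at hd
      rw [hcardG] at hd'
      obtain ⟨j, hj⟩ := hd
      have hj' : j ∣ 3 := Nat.dvd_of_mul_dvd_mul_left (show 0 < 8 by norm_num) (hj ▸ hd')
      rcases (Nat.dvd_prime Nat.prime_three).1 hj' with rfl | rfl
      · exact absurd ((hC g).1 ((Subgroup.eq_of_le_of_card_ge hle (by rw [hcardC, hj])).symm ▸ hg)) h4g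
      · exact Or.inr (Or.inl (Subgroup.eq_top_of_card_eq N (by rw [hj, hcardG])))

end Cfsg.Agent.S2427
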