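import Cfsg.Statements.S2430
import Cfsg.Agent.KnownA.GL2.TorusNorm
-- import your own Cfsg.Agent.* helpers here

set_option autoImplicit false
open Cfsg

namespace Cfsg.Agent.S2430

/-- Let F be a finite field with q elements, q odd, ℓ an odd prime, and P a Sylow ℓ-subgroup of SL₂ over F. If ℓ divides q − 1, the centraliser of P is cyclic of order q − 1 (a split torus) and the normaliser of P has order 2(q − 1); if ℓ divides q + 1, the centraliser of P is cyclic of order q + 1 (a non-split torus) and the normaliser of P has order 2(q + 1). -/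
theorem result {F : Type*} [Field F] [Fintype F] (hodd : Odd (Fintype.card F)) (ℓ : ℕ) [Fact ℓ.Prime] (hℓ : ℓ ≠ 2)
    (P : Sylow ℓ (Matrix.SpecialLinearGroup (Fin 2) F)) :
    (ℓ ∣ Fintype.card F - 1 →
      Nat.card (Subgroup.centralizer ((P : Subgroup (Matrix.SpecialLinearGroup (Fin 2) F)) : Set (Matrix.SpecialLinearGroup (Fin 2) F))) = Fintype.card F - 1 ∧
      IsCyclic (Subgroup.centralizer ((P : Subgroup (Matrix.SpecialLinearGroup (Fin 2) F)) : Set (Matrix.SpecialLinearGroup (Fin 2) F))) ∧
      Nat.card (Subgroup.normalizer ((P : Subgroup (Matrix.SpecialLinearGroup (Fin 2) F)) : Set (Matrix.SpecialLinearGroup (Fin 2) F))) = 2 * (Fintype.card F - 1)) ∧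
    (ℓ ∣ Fintype.card F + 1 →
      Nat.card (Subgroup.centralizer ((P : Subgroup (Matrix.SpecialLinearGroup (Fin 2) F)) : Set (Matrix.SpecialLinearGroup (Fin 2) F))) = Fintype.card F + 1 ∧
      IsCyclic (Subgroup.centralizer ((P : Subgroup (Matrix.SpecialLinearGroup (Fin 2) F)) : Set (Matrix.SpecialLinearGroup (Fin 2) F))) ∧
      Nat.card (Subgroup.normalizer ((P : Subgroup (Matrix.SpecialLinearGroup (Fin 2) F)) : Set (Matrix.SpecialLinearGroup (Fin 2) F))) = 2 * (Fintype.card F + 1)) := by
  classical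
  have hℓp : ℓ.Prime := Fact.out
  have hq : 1 < Fintype.card F := Fintype.one_lt_card
  have hq2 : Fintype.card F ^ 2 - 1 = (Fintype.card F + 1) * (Fintype.card F - 1) := Nat.sq_sub_sq _ 1
  have hne : ∀ n : ℕ, ℓ ∣ n → ℓ ∣ n + 1 → False := fun n a b =>
    hℓp.one_lt.ne' (Nat.dvd_one.1 (by simpa using Nat.dvd_sub b a))
  have hboth : ℓ ∣ Fintype.card F - 1 → ℓ ∣ Fintype.card F + 1 → False := fun a b => hℓ
    ((Nat.prime_dvd_prime_iff_eq hℓp Nat.prime_two).1 (by
      have h2 := Nat.dvd_sub b a
      rwa [show Fintype.card F + 1 - (Fintype.card F - 1) = 2 by omega] at h2))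
  have hfac : (Nat.card (Matrix.SpecialLinearGroup (Fin 2) F)).factorization ℓ =
      (Fintype.card F).factorization ℓ +
        ((Fintype.card F + 1).factorization ℓ + (Fintype.card F - 1).factorization ℓ) := by
    rw [Cfsg.Agent.Linear.card_SL_two, hq2,
      Nat.factorization_mul (by omega) (Nat.mul_ne_zero (by omega) (by omega)),
      Nat.factorization_mul (by omega) (by omega), Finsupp.add_apply, Finsupp.add_apply]
  refine ⟨fun h => ?_, fun h => ?_⟩
  · have hnq : ¬ ℓ ∣ Fintype.card F := fun h' => hne _ h (by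
      rwa [show Fintype.card F - 1 + 1 = Fintype.card F by omega])
    have := Cfsg.Agent.KnownA.GL2.IsTor.sylow_facts (T := (Cfsg.Agent.Linear.splitTorus (F := F)).range) Cfsg.Agent.KnownA.GL2.isTor_split
      hodd hℓ (by rw [Cfsg.Agent.KnownA.GL2.card_splitTorus]; exact h)
      (by rw [Cfsg.Agent.KnownA.GL2.card_splitTorus, hfac, Nat.factorization_eq_zero_of_not_dvd hnq,
            Nat.factorization_eq_zero_of_not_dvd (fun h' => hboth h h'), zero_add, zero_add]) P
    rwa [Cfsg.Agent.KnownA.GL2.card_splitTorus] at this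
  · obtain ⟨C, hC, hcard⟩ := Cfsg.Agent.Linear.exists_cyclic_SL2 (F := F) true
    simp only [if_true] at hcard
    have hnq : ¬ ℓ ∣ Fintype.card F := fun h' => hne _ h' h
    have := Cfsg.Agent.KnownA.GL2.IsTor.sylow_facts (Cfsg.Agent.KnownA.GL2.isTor_nonsplit hodd hC hcard) hodd hℓ (by rw [hcard]; exact h)
      (by rw [hcard, hfac, Nat.factorization_eq_zero_of_not_dvd hnq,
            Nat.factorization_eq_zero_of_not_dvd (fun h' => hboth h' h), zero_add, add_zero]) P
    rwa [hcard] at this

end Cfsg.Agent.S2430
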