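import Cfsg.Statements.S2431
import Cfsg.Agent.KnownA.GL2.TorusNorm
import Cfsg.Agent.Linear.SylowSL2
import Cfsg.Agent.Linear.PSL2KleinFour
-- import your own Cfsg.Agent.* helpers here

set_option autoImplicit false
open Cfsg

namespace Cfsg.Agent.S2431

open Cfsg.Agent Matrix

variable {F : Type*} [Field F] [Fintype F]

theorem two_part (t : ℕ) {q : ℕ} (hq2 : 2 ≤ q) (hq : q = 4 * t + 1 ∨ q = 4 * t + 3) :
    (q * (q ^ 2 - 1)).factorization 2 =
      (if q = 4 * t + 1 then (q - 1).factorization 2 else (q + 1).factorization 2) + 1 := by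
  have h1 : q ^ 2 - 1 = (q + 1) * (q - 1) := Nat.sq_sub_sq _ 1
  rw [h1, Nat.factorization_mul (by omega) (Nat.mul_ne_zero (by omega) (by omega)),
    Nat.factorization_mul (by omega) (by omega), Finsupp.add_apply, Finsupp.add_apply,
    Nat.factorization_eq_zero_of_not_dvd (show ¬ 2 ∣ q by omega), zero_add]
  have hone : ∀ m, ¬ 2 ∣ m → (2 * m).factorization 2 = 1 := fun m hm => by
    rw [Nat.factorization_mul two_ne_zero (by omega), Finsupp.add_apply,
      Nat.prime_two.factorization_self, Nat.factorization_eq_zero_of_not_dvd hm]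
  split_ifs with h'
  · rw [show q + 1 = 2 * (2 * t + 1) by omega, hone _ (by omega), add_comm]
  · rw [show q - 1 = 2 * (2 * t + 1) by omega, hone _ (by omega)]

theorem centralizer_sylow [DecidableEq F] (hodd : Odd (Fintype.card F))
    (S : Sylow 2 (SpecialLinearGroup (Fin 2) F)) :
    Subgroup.centralizer ((S : Subgroup (SpecialLinearGroup (Fin 2) F)) :
      Set (SpecialLinearGroup (Fin 2) F)) = Subgroup.center (SpecialLinearGroup (Fin 2) F) := by
  obtain ⟨p, hch⟩ := CharP.exists F
  haveI := hch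
  haveI : Fact p.Prime := ⟨(CharP.char_is_prime_or_zero F p).resolve_right (CharP.char_ne_zero_of_finite F p)⟩
  have hp : p ≠ 2 := fun e => KnownA.GL2.two_ne_zero_of_odd hodd (by subst e; exact CharTwo.two_eq_zero)
  obtain ⟨k, hk, ⟨e⟩⟩ := Linear.sylow_two_SL2 p hp S
  haveI : Fact (1 < 2 * 2 ^ k) := ⟨by have := Nat.one_le_two_pow (n := k); omega⟩
  set x := e.symm (QuaternionGroup.a 1) with hx
  set y := e.symm (QuaternionGroup.xa 0) with hy
  have hxy : (x : SpecialLinearGroup (Fin 2) F) * y ≠ y * x := by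
    intro h
    have h' : x * y = y * x := Subtype.ext h
    rw [hx, hy, ← map_mul, ← map_mul, e.symm.injective.eq_iff, QuaternionGroup.a_mul_xa,
      QuaternionGroup.xa_mul_a] at h'
    have h'' : (0 : ZMod (2 * 2 ^ k)) - 1 = 0 + 1 := QuaternionGroup.xa.inj h'
    have h2 : ((2 : ℕ) : ZMod (2 * 2 ^ k)) = 0 := by push_cast; linear_combination -h''
    rw [ZMod.natCast_eq_zero_iff] at h2
    have h3 := Nat.le_of_dvd two_pos h2
    have : 2 ≤ 2 ^ k := Nat.le_self_pow (by omega) 2
    omega
  refine le_antisymm (fun g hg => ?_) (Subgroup.center_le_centralizer _)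
  rw [KnownA.GL2.mem_center_iff_scalar]
  by_contra hns
  rw [Subgroup.mem_centralizer_iff] at hg
  have hgx : (x : SpecialLinearGroup (Fin 2) F).1 * g.1 = g.1 * (x : SpecialLinearGroup (Fin 2) F).1 :=
    congrArg Subtype.val (hg _ x.2)
  have hgy : (y : SpecialLinearGroup (Fin 2) F).1 * g.1 = g.1 * (y : SpecialLinearGroup (Fin 2) F).1 :=
    congrArg Subtype.val (hg _ y.2)
  obtain ⟨a, b, hab⟩ := KnownA.GL2.exists_commutant_coeffs hns hgx
  obtain ⟨c, d, hcd⟩ := KnownA.GL2.exists_commutant_coeffs hns hgy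
  refine hxy (Subtype.ext ?_)
  show (x : SpecialLinearGroup (Fin 2) F).1 * (y : SpecialLinearGroup (Fin 2) F).1 =
    (y : SpecialLinearGroup (Fin 2) F).1 * (x : SpecialLinearGroup (Fin 2) F).1
  rw [hab, hcd]
  simp only [add_mul, mul_add, smul_mul_assoc, mul_smul_comm, one_mul, mul_one, smul_smul]
  module

theorem normalizer_sylow_eight [DecidableEq F] (hodd : Odd (Fintype.card F))
    (h8 : Fintype.card F % 8 = 1 ∨ Fintype.card F % 8 = 7)
    (S : Sylow 2 (SpecialLinearGroup (Fin 2) F)) :
    Subgroup.normalizer ((S : Subgroup (SpecialLinearGroup (Fin 2) F)) :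
      Set (SpecialLinearGroup (Fin 2) F)) = (S : Subgroup (SpecialLinearGroup (Fin 2) F)) := by
  classical
  have hq : 1 < Fintype.card F := Fintype.one_lt_card
  obtain ⟨T, hT, hdvd, hfac⟩ : ∃ T : Subgroup (SpecialLinearGroup (Fin 2) F), KnownA.GL2.IsTor T ∧
      8 ∣ Nat.card T ∧ (2 * Nat.card T).factorization 2 =
        (Nat.card (SpecialLinearGroup (Fin 2) F)).factorization 2 := by
    have key : ∀ n, 0 < n → (2 * n).factorization 2 = n.factorization 2 + 1 := fun n hn => by
      rw [Nat.factorization_mul two_ne_zero hn.ne', Finsupp.add_apply,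
        Nat.prime_two.factorization_self, add_comm]
    rw [Linear.card_SL_two]
    obtain ⟨t, ht⟩ : ∃ t, Fintype.card F = 4 * t + 1 ∨ Fintype.card F = 4 * t + 3 :=
      ⟨Fintype.card F / 4, by omega⟩
    rcases h8 with h | h
    · refine ⟨_, KnownA.GL2.isTor_split, by rw [KnownA.GL2.card_splitTorus]; omega, ?_⟩
      rw [KnownA.GL2.card_splitTorus, key _ (by omega), two_part t (by omega) ht, if_pos (by omega)]
    · obtain ⟨C, hC, hcard⟩ := Linear.exists_cyclic_SL2 (F := F) true
      simp only [if_true] at hcard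
      refine ⟨C, KnownA.GL2.isTor_nonsplit hodd hC hcard, by rw [hcard]; omega, ?_⟩
      rw [hcard, key _ (by omega), two_part t (by omega) ht, if_neg (by omega)]
  have h4 := KnownA.GL2.exists_nonscalar (T := T)
    (by have := Nat.le_of_dvd Nat.card_pos hdvd; omega)
  set N := Subgroup.normalizer (T : Set (SpecialLinearGroup (Fin 2) F))
  have hNc : Nat.card N = 2 * Nat.card T := hT.card_normalizer hodd h4
  obtain ⟨Q⟩ : Nonempty (Sylow 2 N) := inferInstance
  let R : Sylow 2 (SpecialLinearGroup (Fin 2) F) := Sylow.ofCard ((Q : Subgroup N).map N.subtype) (by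
    rw [Subgroup.card_map_of_injective N.subtype_injective, Q.card_eq_multiplicity, hNc, hfac])
  suffices hR : Subgroup.normalizer ((R : Subgroup (SpecialLinearGroup (Fin 2) F)) :
      Set (SpecialLinearGroup (Fin 2) F)) = (R : Subgroup (SpecialLinearGroup (Fin 2) F)) by
    obtain ⟨g, rfl⟩ := MulAction.exists_smul_eq (SpecialLinearGroup (Fin 2) F) R S
    show Subgroup.normalizer (((R : Subgroup (SpecialLinearGroup (Fin 2) F)).map
      (MulAut.conj g).toMonoidHom : Subgroup (SpecialLinearGroup (Fin 2) F)) :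
        Set (SpecialLinearGroup (Fin 2) F)) =
      (R : Subgroup (SpecialLinearGroup (Fin 2) F)).map (MulAut.conj g).toMonoidHom
    conv_rhs => rw [← hR]
    exact (Subgroup.map_equiv_normalizer_eq _ (MulAut.conj g)).symm
  have hRN : (R : Subgroup (SpecialLinearGroup (Fin 2) F)) ≤ N := Subgroup.map_subtype_le _
  have hRcard : Nat.card R = 2 ^ (2 * Nat.card T).factorization 2 := by
    rw [R.card_eq_multiplicity, hfac]
  have hR16 : 16 ≤ Nat.card R := by
    have h16 : 2 ^ 4 ∣ 2 * Nat.card T := by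
      obtain ⟨m, hm⟩ := hdvd; exact ⟨m, by omega⟩
    rw [hRcard, show (16 : ℕ) = 2 ^ 4 from rfl]
    exact Nat.pow_le_pow_right two_pos
      ((Nat.prime_two.pow_dvd_iff_le_factorization (Nat.mul_ne_zero two_ne_zero Nat.card_pos.ne')).1 h16)
  obtain ⟨c, hcR, hcT, hc4⟩ : ∃ c ∈ (R : Subgroup (SpecialLinearGroup (Fin 2) F)), c ∈ T ∧ c ^ 4 ≠ 1 := by
    by_contra hc
    push Not at hc
    letI : CommGroup T := hT.cyc.commGroup
    haveI := hT.cyc
    have hle : Nat.card ((R : Subgroup (SpecialLinearGroup (Fin 2) F)).subgroupOf T) ≤ 4 := by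
      refine le_trans (Nat.le_of_dvd (by norm_num) ?_) le_rfl
      haveI : IsCyclic ((R : Subgroup (SpecialLinearGroup (Fin 2) F)).subgroupOf T) :=
        Subgroup.isCyclic _
      rw [← IsCyclic.exponent_eq_card]
      refine Monoid.exponent_dvd_of_forall_pow_eq_one fun x => Subtype.ext (Subtype.ext ?_)
      exact hc _ (Subgroup.mem_subgroupOf.1 x.2) x.1.2
    have hidx : Nat.card R ≤ 2 * Nat.card ((R : Subgroup (SpecialLinearGroup (Fin 2) F)).subgroupOf T) := by
      obtain ⟨s, hs⟩ | hall := em (∃ s ∈ (R : Subgroup (SpecialLinearGroup (Fin 2) F)), s ∉ T) <;>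
        [skip; push Not at hall]
      · obtain ⟨hsR, hsT⟩ := hs
        let f : ↥(R : Subgroup (SpecialLinearGroup (Fin 2) F)) →
            Bool × ((R : Subgroup (SpecialLinearGroup (Fin 2) F)).subgroupOf T) := fun r =>
          if h : (r : SpecialLinearGroup (Fin 2) F) ∈ T then (true, ⟨⟨r, h⟩, r.2⟩)
          else (false, ⟨⟨s * r, by
            obtain ⟨d, hd, hns⟩ := h4
            rw [← hT.cent d hd hns, Subgroup.mem_centralizer_singleton_iff]
            have i1 := hT.inverts (hRN r.2) h hd
            have i2 := hT.inverts (hRN hsR) hsT (T.inv_mem hd)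
            rw [inv_inv] at i2
            calc s * r * d = s * (r * d * (r : SpecialLinearGroup (Fin 2) F)⁻¹) * r := by group
              _ = s * d⁻¹ * r := by rw [i1]
              _ = s * d⁻¹ * s⁻¹ * (s * r) := by group
              _ = d * (s * r) := by rw [i2]⟩, Subgroup.mul_mem _ hsR r.2⟩)
        have hf : Function.Injective f := by
          intro r r' e
          simp only [f] at e
          by_cases h : (r : SpecialLinearGroup (Fin 2) F) ∈ T <;>
            by_cases h' : (r' : SpecialLinearGroup (Fin 2) F) ∈ T <;> simp [h, h'] at e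
          · exact Subtype.ext (congrArg (fun z : ((R : Subgroup (SpecialLinearGroup (Fin 2) F)).subgroupOf T) =>
              ((z : T) : SpecialLinearGroup (Fin 2) F)) e)
          · exact Subtype.ext (mul_left_cancel (congrArg (fun z : ((R : Subgroup (SpecialLinearGroup (Fin 2) F)).subgroupOf T) =>
              ((z : T) : SpecialLinearGroup (Fin 2) F)) e))
        refine (Nat.card_le_card_of_injective f hf).trans ?_
        rw [Nat.card_prod, Nat.card_eq_fintype_card (α := Bool), Fintype.card_bool]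
      · refine le_trans (le_of_eq (Nat.card_congr (Subgroup.subgroupOfEquivOfLe hall).toEquiv).symm) ?_
        omega
    omega
  have hns : ¬ KnownA.GL2.IsScalar c.1 := fun h => hc4 (by
    rcases KnownA.GL2.scalar_SL_cases h with e | e <;> rw [e]
    · exact one_pow 4
    · rw [pow_succ, pow_succ, pow_succ, pow_one]; simp)
  refine le_antisymm (fun g hg => ?_) Subgroup.le_normalizer
  have hgc : g * c * g⁻¹ ∈ (R : Subgroup (SpecialLinearGroup (Fin 2) F)) :=
    (Subgroup.mem_normalizer_iff.1 hg c).1 hcR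
  have hgcT : g * c * g⁻¹ ∈ T := by
    by_contra h
    have h2 := hT.sq_eq_neg_one hodd h4 (hRN hgc) h
    have h3 : (g * c * g⁻¹) ^ 4 = 1 := by
      rw [pow_succ, pow_succ, pow_succ, pow_one, h2, mul_assoc, h2]
      simp
    rw [conj_pow] at h3
    exact hc4 (mul_eq_left.1 (mul_inv_eq_one.1 h3))
  have hns' : ¬ KnownA.GL2.IsScalar (g * c * g⁻¹).1 := fun h => hns (by
    rw [KnownA.GL2.isConj_SL_scalar (h := c) (isConj_iff.2 ⟨g⁻¹, by group⟩) h]; exact h)
  have hgN : g ∈ N := by
    rw [Subgroup.mem_normalizer_iff]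
    intro t
    conv_lhs => rw [← hT.cent c hcT hns]
    conv_rhs => rw [← hT.cent _ hgcT hns']
    rw [Subgroup.mem_centralizer_singleton_iff, Subgroup.mem_centralizer_singleton_iff]
    constructor
    · intro e
      calc g * t * g⁻¹ * (g * c * g⁻¹) = g * (t * c) * g⁻¹ := by group
        _ = g * (c * t) * g⁻¹ := by rw [e]
        _ = g * c * g⁻¹ * (g * t * g⁻¹) := by group
    · intro e
      have : g * (t * c) * g⁻¹ = g * (c * t) * g⁻¹ := by
        calc g * (t * c) * g⁻¹ = g * t * g⁻¹ * (g * c * g⁻¹) := by group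
          _ = g * c * g⁻¹ * (g * t * g⁻¹) := e
          _ = g * (c * t) * g⁻¹ := by group
      exact mul_left_cancel (mul_right_cancel this)
  obtain ⟨s, hsR, hsT⟩ : ∃ s ∈ (R : Subgroup (SpecialLinearGroup (Fin 2) F)), s ∉ T := by
    by_contra hc
    push Not at hc
    have h := Subgroup.card_dvd_of_le (show (R : Subgroup (SpecialLinearGroup (Fin 2) F)) ≤ T from hc)
    rw [hRcard] at h
    have := (Nat.prime_two.pow_dvd_iff_le_factorization Nat.card_pos.ne').1 h
    rw [Nat.factorization_mul two_ne_zero Nat.card_pos.ne', Finsupp.add_apply,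
      Nat.prime_two.factorization_self] at this
    omega
  have two_elt : ∀ x ∈ T, x ∈ Subgroup.normalizer ((R : Subgroup (SpecialLinearGroup (Fin 2) F)) :
      Set (SpecialLinearGroup (Fin 2) F)) → x ∈ (R : Subgroup (SpecialLinearGroup (Fin 2) F)) := by
    intro x hxT hxN
    have hx2 : x * x ∈ (R : Subgroup (SpecialLinearGroup (Fin 2) F)) := by
      have h := Subgroup.mul_mem _ ((Subgroup.mem_normalizer_iff.1 hxN s).1 hsR)
        (Subgroup.inv_mem _ hsR)
      rwa [show x * s * x⁻¹ * s⁻¹ = x * (s * x⁻¹ * s⁻¹) by group,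
        hT.inverts (hRN hsR) hsT (T.inv_mem hxT), inv_inv] at h
    obtain ⟨j, hj⟩ := R.isPGroup' ⟨x * x, hx2⟩
    have hp : IsPGroup 2 (Subgroup.zpowers x) := by
      rintro ⟨_, i, rfl⟩
      refine ⟨j + 1, Subtype.ext ?_⟩
      show (x ^ i) ^ 2 ^ (j + 1) = 1
      have h1 : x ^ 2 ^ (j + 1) = 1 := by
        rw [pow_succ', pow_mul, sq]
        exact congrArg Subtype.val hj
      rw [← zpow_natCast, ← _root_.zpow_mul, mul_comm, _root_.zpow_mul, zpow_natCast, h1, _root_.one_zpow]
    have := hp.inf_normalizer_sylow R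
    have hx : x ∈ Subgroup.zpowers x ⊓ (R : Subgroup (SpecialLinearGroup (Fin 2) F)) :=
      this ▸ ⟨Subgroup.mem_zpowers x, hxN⟩
    exact hx.2
  by_cases hgT : g ∈ T
  · exact two_elt g hgT hg
  · have hgs : g * s ∈ T := by
      obtain ⟨d, hd, hnd⟩ := h4
      rw [← hT.cent d hd hnd, Subgroup.mem_centralizer_singleton_iff]
      have i1 := hT.inverts (hRN hsR) hsT hd
      have i2 := hT.inverts hgN hgT (T.inv_mem hd)
      rw [inv_inv] at i2
      calc g * s * d = g * (s * d * s⁻¹) * s := by group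
        _ = g * d⁻¹ * s := by rw [i1]
        _ = g * d⁻¹ * g⁻¹ * (g * s) := by group
        _ = d * (g * s) := by rw [i2]
    have h := two_elt _ hgs (Subgroup.mul_mem _ hg (Subgroup.le_normalizer hsR))
    simpa using Subgroup.mul_mem _ h (Subgroup.inv_mem _ hsR)

theorem normalizer_sylow_three [DecidableEq F] (hodd : Odd (Fintype.card F))
    (h8 : Fintype.card F % 8 = 3 ∨ Fintype.card F % 8 = 5)
    (S : Sylow 2 (SpecialLinearGroup (Fin 2) F)) :
    Nat.card (Subgroup.normalizer ((S : Subgroup (SpecialLinearGroup (Fin 2) F)) :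
      Set (SpecialLinearGroup (Fin 2) F))) = 3 * Nat.card S := by
  classical
  have h2 : (2 : F) ≠ 0 := KnownA.GL2.two_ne_zero_of_odd hodd
  obtain ⟨p, hch⟩ := CharP.exists F
  haveI := hch
  haveI : Fact p.Prime := ⟨(CharP.char_is_prime_or_zero F p).resolve_right (CharP.char_ne_zero_of_finite F p)⟩
  have hp : p ≠ 2 := fun e => h2 (by subst e; exact CharTwo.two_eq_zero)
  set Z := Subgroup.center (SpecialLinearGroup (Fin 2) F) with hZ
  let π : SpecialLinearGroup (Fin 2) F →* ProjectiveSpecialLinearGroup (Fin 2) F := QuotientGroup.mk' Z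
  have hπ : Function.Surjective π := QuotientGroup.mk'_surjective Z
  let P := S.mapSurjective hπ
  have hkl : ∀ V : Sylow 2 (ProjectiveSpecialLinearGroup (Fin 2) F),
      IsKleinFour (V : Subgroup (ProjectiveSpecialLinearGroup (Fin 2) F)) :=
    fun V => Linear.sylow_two_PSL2_four p hp h8 V
  have hker : π.ker ≤ (S : Subgroup (SpecialLinearGroup (Fin 2) F)) := by
    rw [QuotientGroup.ker_mk']
    have hpg : IsPGroup 2 Z := IsPGroup.of_card (n := 1) (by
      rw [hZ, Linear.card_center_SL, pow_one]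
      have := Nat.odd_iff.1 hodd
      exact Nat.gcd_eq_left (by omega))
    have hN : Z ≤ Subgroup.normalizer ((S : Subgroup (SpecialLinearGroup (Fin 2) F)) :
        Set (SpecialLinearGroup (Fin 2) F)) := fun z hz => by
      rw [Subgroup.mem_normalizer_iff]
      intro x
      rw [← Subgroup.mem_center_iff.1 hz x, mul_inv_cancel_right]
    intro z hz
    have hz' : z ∈ Z ⊓ (S : Subgroup (SpecialLinearGroup (Fin 2) F)) :=
      hpg.inf_normalizer_sylow S ▸ ⟨hz, hN hz⟩
    exact hz'.2
  have hcm : ((S : Subgroup (SpecialLinearGroup (Fin 2) F)).map π).comap π =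
      (S : Subgroup (SpecialLinearGroup (Fin 2) F)) := Subgroup.comap_map_eq_self hker
  have hN : Subgroup.normalizer ((S : Subgroup (SpecialLinearGroup (Fin 2) F)) :
      Set (SpecialLinearGroup (Fin 2) F)) =
      (Subgroup.normalizer (((P : Subgroup (ProjectiveSpecialLinearGroup (Fin 2) F))) :
        Set (ProjectiveSpecialLinearGroup (Fin 2) F))).comap π := by
    conv_lhs => rw [← hcm]
    rw [Sylow.coe_mapSurjective]
    exact (Subgroup.comap_normalizer_eq_of_surjective _ hπ).symm
  have hcount : Nat.card (Sylow 2 (ProjectiveSpecialLinearGroup (Fin 2) F)) =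
      Nat.card {V : Subgroup (ProjectiveSpecialLinearGroup (Fin 2) F) // IsKleinFour V} := by
    refine Nat.card_congr (Equiv.ofBijective (fun V => ⟨V, hkl V⟩) ⟨?_, ?_⟩)
    · intro V W e
      exact Sylow.ext (congrArg Subtype.val e)
    · rintro ⟨V, hV⟩
      refine ⟨Sylow.ofCard V ?_, rfl⟩
      rw [hV.card_four, ← P.card_eq_multiplicity, (hkl P).card_four]
  have h12 := Linear.twelve_mul_card_kleinFour (F := F) h2
  rw [← hcount, P.card_eq_index_normalizer,
    ← Subgroup.card_mul_index (Subgroup.normalizer (((P : Subgroup (ProjectiveSpecialLinearGroup (Fin 2) F))) :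
      Set (ProjectiveSpecialLinearGroup (Fin 2) F)))] at h12
  have hNP := Nat.eq_of_mul_eq_mul_right
    (Nat.pos_of_ne_zero (Subgroup.index_ne_zero_of_finite)) h12
  have hlift : ∀ V : Subgroup (ProjectiveSpecialLinearGroup (Fin 2) F),
      Nat.card (V.comap π) = 2 * Nat.card V := by
    intro V
    have hidx := Subgroup.index_comap_of_surjective V hπ
    have e1 := (V.comap π).card_mul_index
    have e2 := V.card_mul_index
    have e3 := Linear.card_PSL_mul_center (F := F) 2
    rw [Nat.gcd_eq_left (by have := Nat.odd_iff.1 hodd; omega)] at e3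
    rw [hidx, ← e3, ← e2, ← mul_assoc] at e1
    exact Nat.eq_of_mul_eq_mul_right (Nat.pos_of_ne_zero Subgroup.index_ne_zero_of_finite) e1
  have hS : Nat.card (S : Subgroup (SpecialLinearGroup (Fin 2) F)) = 8 := by
    rw [← hcm, hlift]
    rw [show Nat.card ((S : Subgroup (SpecialLinearGroup (Fin 2) F)).map π) = 4 from (hkl P).card_four]
  rw [hN, hlift, ← hNP, hS]

/-- Let F be a finite field with q elements, q odd, and S a Sylow 2-subgroup of SL₂ over F. The centraliser of S is the centre of SL₂ (of order 2); S is its own normaliser when q ≡ ±1 mod 8, and has index 3 in its normaliser when q ≡ ±3 mod 8. -/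
theorem result {F : Type*} [Field F] [Fintype F] (hodd : Odd (Fintype.card F)) (S : Sylow 2 (Matrix.SpecialLinearGroup (Fin 2) F)) :
    Subgroup.centralizer ((S : Subgroup (Matrix.SpecialLinearGroup (Fin 2) F)) : Set (Matrix.SpecialLinearGroup (Fin 2) F)) = Subgroup.center (Matrix.SpecialLinearGroup (Fin 2) F) ∧
    ((Fintype.card F % 8 = 1 ∨ Fintype.card F % 8 = 7) →
      Subgroup.normalizer ((S : Subgroup (Matrix.SpecialLinearGroup (Fin 2) F)) : Set (Matrix.SpecialLinearGroup (Fin 2) F)) = (S : Subgroup (Matrix.SpecialLinearGroup (Fin 2) F))) ∧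
    ((Fintype.card F % 8 = 3 ∨ Fintype.card F % 8 = 5) →
      Nat.card (Subgroup.normalizer ((S : Subgroup (Matrix.SpecialLinearGroup (Fin 2) F)) : Set (Matrix.SpecialLinearGroup (Fin 2) F))) = 3 * Nat.card S) := by
  classical
  exact ⟨centralizer_sylow hodd S, fun h => normalizer_sylow_eight hodd h S,
    fun h => normalizer_sylow_three hodd h S⟩

end Cfsg.Agent.S2431
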