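import Cfsg.Statements.S2435
import Cfsg.Agent.KnownA.GL2.SLTorusChars
import Cfsg.Agent.Linear.Torus
-- import your own Cfsg.Agent.* helpers here

set_option autoImplicit false
open Cfsg

namespace Cfsg.Agent.S2435

/-- Let F be a finite field with q elements, q odd and q ≥ 5, and χ an irreducible complex character of SL₂ over F. If χ has degree (q + 1)/2, then at a diagonal element with entry a, a² ≠ 1, χ takes the value 1 when a is a square in F and −1 otherwise. If χ has degree (q − 1)/2, then at an element g with no eigenvector in F² (so g has order dividing q + 1), χ takes the value −1 when g raised to the power (q + 1)/2 is the identity and the value 1 otherwise. -/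
theorem result {F : Type*} [Field F] [Fintype F] (hodd : Odd (Fintype.card F)) (hq : 5 ≤ Fintype.card F)
    (χ : Matrix.SpecialLinearGroup (Fin 2) F → ℂ) (hχ : Cfsg.IsIrrCharacter (Matrix.SpecialLinearGroup (Fin 2) F) χ) (g : Matrix.SpecialLinearGroup (Fin 2) F) :
    (χ 1 = (((Fintype.card F + 1) / 2 : ℕ) : ℂ) → (g : Matrix (Fin 2) (Fin 2) F) 0 1 = 0 → (g : Matrix (Fin 2) (Fin 2) F) 1 0 = 0 → (g : Matrix (Fin 2) (Fin 2) F) 0 0 ^ 2 ≠ 1 →
      (IsSquare ((g : Matrix (Fin 2) (Fin 2) F) 0 0) → χ g = 1) ∧ (¬ IsSquare ((g : Matrix (Fin 2) (Fin 2) F) 0 0) → χ g = -1)) ∧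
    (χ 1 = (((Fintype.card F - 1) / 2 : ℕ) : ℂ) → (∀ (c : F) (v : Fin 2 → F), v ≠ 0 → (g : Matrix (Fin 2) (Fin 2) F).mulVec v ≠ c • v) →
      (((g ^ ((Fintype.card F + 1) / 2)) : Matrix (Fin 2) (Fin 2) F) = 1 → χ g = -1) ∧ (((g ^ ((Fintype.card F + 1) / 2)) : Matrix (Fin 2) (Fin 2) F) ≠ 1 → χ g = 1)) := by
  classical
  refine ⟨fun hd h01 h10 ha => ?_, fun hd he => ?_⟩
  · have hh := (Cfsg.Agent.KnownA.GL2.kind_of_half_up hodd hχ hd).resolve_right fun e => by omega
    obtain ⟨a, hg, hv⟩ := Cfsg.Agent.KnownA.GL2.exists_eq_bS h10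
    rw [← hv] at ha ⊢
    have e : χ g = Cfsg.Agent.KnownA.GL2.qc F a := by rw [hg]; exact hh.split ha _
    exact ⟨fun hs => e.trans (Cfsg.Agent.KnownA.GL2.qc_of_isSquare a.ne_zero hs),
      fun hs => e.trans (Cfsg.Agent.KnownA.GL2.qc_of_not_isSquare hs)⟩
  · have hc := Cfsg.Agent.KnownA.GL2.kind_of_half_down hodd hq hχ hd
    obtain ⟨C, hC, hcard⟩ := Cfsg.Agent.Linear.exists_cyclic_SL2 (F := F) true
    simp only [if_true] at hcard
    letI : CommGroup C := hC.commGroup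
    haveI : IsMulCommutative C := ⟨⟨mul_comm⟩⟩
    obtain ⟨θ, h2, h1, hv⟩ := Cfsg.Agent.KnownA.GL2.KC.torus hC hcard hc
    obtain ⟨c, hcC, hns, hconj⟩ := Cfsg.Agent.KnownA.GL2.exists_conj_mem hodd hcard he
    obtain ⟨y, hy⟩ := isConj_iff.1 hconj.symm
    have hg : χ g = -((θ ⟨c, hcC⟩ : ℂˣ) : ℂ) := by
      rw [← hy, Cfsg.Agent.Chars.isClassFunction_of_isCharacter
        (Cfsg.Agent.Chars.isCharacter_of_isIrr hχ) c y]
      exact hv ⟨c, hcC⟩ hns
    obtain ⟨x, hx⟩ := IsCyclic.exists_generator (α := C)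
    have hord : orderOf x = Fintype.card F + 1 := by
      rw [orderOf_eq_card_of_forall_mem_zpowers hx, hcard]
    obtain ⟨k, hk⟩ := (mem_powers_iff_mem_zpowers).2 (hx ⟨c, hcC⟩)
    have hx1 : ((θ x : ℂˣ) : ℂ) = -1 := by
      have hm : ((θ x : ℂˣ) : ℂ) * ((θ x : ℂˣ) : ℂ) = 1 := by
        rw [← Units.val_mul, ← sq, ← MonoidHom.pow_apply, h2, MonoidHom.one_apply, Units.val_one]
      refine (mul_self_eq_one_iff.1 hm).resolve_left fun e => h1 (MonoidHom.ext fun b => ?_)
      obtain ⟨n, rfl⟩ := Subgroup.mem_zpowers_iff.1 (hx b)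
      rw [map_zpow, show θ x = 1 from Units.ext e, _root_.one_zpow, MonoidHom.one_apply]
    have hθc : ((θ ⟨c, hcC⟩ : ℂˣ) : ℂ) = (-1) ^ k := by
      rw [← hk, map_pow, Units.val_pow_eq_pow_val, hx1]
    have hpow : (((g ^ ((Fintype.card F + 1) / 2)) : Matrix.SpecialLinearGroup (Fin 2) F) :
        Matrix (Fin 2) (Fin 2) F) = 1 ↔ Even k := by
      rw [← hy, conj_pow, Nat.odd_iff] at *
      constructor
      · intro h
        have h' : y * c ^ ((Fintype.card F + 1) / 2) * y⁻¹ = 1 := Subtype.ext h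
        rw [mul_inv_eq_one, mul_eq_left] at h'
        have h'' : (⟨c, hcC⟩ : C) ^ ((Fintype.card F + 1) / 2) = 1 := Subtype.ext h'
        rw [← hk, ← pow_mul, ← orderOf_dvd_iff_pow_eq_one, hord] at h''
        rw [even_iff_two_dvd]
        have e : Fintype.card F + 1 = 2 * ((Fintype.card F + 1) / 2) := by omega
        refine Nat.dvd_of_mul_dvd_mul_right (k := (Fintype.card F + 1) / 2) (by omega) ?_
        rwa [← e]
      · rintro ⟨j, hj⟩
        have h'' : (⟨c, hcC⟩ : C) ^ ((Fintype.card F + 1) / 2) = 1 := by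
          rw [← hk, ← pow_mul, ← orderOf_dvd_iff_pow_eq_one, hord]
          refine ⟨j, ?_⟩
          rw [hj, ← two_mul, mul_comm 2 j, mul_assoc, show 2 * ((Fintype.card F + 1) / 2) =
            Fintype.card F + 1 by omega, mul_comm]
        have h3 : c ^ ((Fintype.card F + 1) / 2) = 1 := congrArg Subtype.val h''
        rw [h3, mul_one, mul_inv_cancel]
        rfl
    refine ⟨fun h => ?_, fun h => ?_⟩
    · rw [hg, hθc, (hpow.1 h).neg_one_pow]
    · rw [hg, hθc, (Nat.not_even_iff_odd.1 fun e => h (hpow.2 e)).neg_one_pow, neg_neg]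

end Cfsg.Agent.S2435
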