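import Cfsg.Statements.S2437
import Cfsg.Agent.KnownA.GL2.TorusNorm
-- import your own Cfsg.Agent.* helpers here

set_option autoImplicit false
open Cfsg

namespace Cfsg.Agent.S2437

/-- Over a finite field F with q elements, q odd, the upper triangular subgroup of SL₂ (a Borel subgroup, of order q(q − 1)) has exactly q + 3 conjugacy classes. -/
theorem result {F : Type*} [Field F] [Fintype F] (hodd : Odd (Fintype.card F)) :
    Nat.card (ConjClasses ((Cfsg.upperTriangularGL 2 F).comap Matrix.SpecialLinearGroup.toGL)) = Fintype.card F + 3 := by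
  classical
  set B := (Cfsg.upperTriangularGL 2 F).comap (Matrix.SpecialLinearGroup.toGL (n := Fin 2) (R := F))
  set e := Cfsg.Agent.KnownA.GL2.borelEquivS (F := F)
  have h2 : (2 : F) ≠ 0 := Cfsg.Agent.KnownA.GL2.two_ne_zero_of_odd hodd
  have hcomm : ∀ x y : Fˣ × F, Commute (e x) (e y) ↔
      y.2 * ((x.1 : F) - ((x.1⁻¹ : Fˣ) : F)) = x.2 * ((y.1 : F) - ((y.1⁻¹ : Fˣ) : F)) := by
    rintro ⟨a, c⟩ ⟨b, d⟩
    have hv : ∀ p : Fˣ × F, ((e p : B) : Matrix.SpecialLinearGroup (Fin 2) F) = Cfsg.Agent.KnownA.GL2.bS p.1 p.2 :=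
      fun _ => rfl
    constructor
    · intro h
      have h1 := congrArg Subtype.val h.eq
      rw [Subgroup.coe_mul, Subgroup.coe_mul, hv, hv, Cfsg.Agent.KnownA.GL2.bS_mul, Cfsg.Agent.KnownA.GL2.bS_mul] at h1
      have h01 := congrArg (fun g : Matrix.SpecialLinearGroup (Fin 2) F => g.1 0 1) h1
      simp only [Cfsg.Agent.KnownA.GL2.bS_val] at h01
      simp at h01 ⊢
      linear_combination h01
    · intro h
      refine Subtype.ext ?_
      rw [Subgroup.coe_mul, Subgroup.coe_mul, hv, hv, Cfsg.Agent.KnownA.GL2.bS_mul, Cfsg.Agent.KnownA.GL2.bS_mul]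
      simp at h ⊢
      rw [mul_comm a b]
      congr 1
      linear_combination h
  have hsq : ∀ a : Fˣ, (a : F) - ((a⁻¹ : Fˣ) : F) = 0 ↔ a ∈ ({1, -1} : Finset Fˣ) := by
    intro a
    rw [sub_eq_zero, Units.val_inj, ← mul_eq_one_iff_eq_inv, Finset.mem_insert, Finset.mem_singleton,
      ← Units.val_eq_one, Units.val_mul, mul_self_eq_one_iff]
    simp only [← Units.val_inj, Units.val_one, Units.val_neg]
  have hS : ({1, -1} : Finset Fˣ).card = 2 := Finset.card_pair fun h => by
    have h' := congrArg Units.val h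
    simp at h'
    exact h2 (by linear_combination h')
  set q := Fintype.card F with hq
  have hrow : ∀ x : Fˣ × F, (Finset.univ.filter fun y => Commute (e x) (e y)).card =
      if x.1 ∈ ({1, -1} : Finset Fˣ) then (if x.2 = 0 then (q - 1) * q else 2 * q) else q - 1 := by
    rintro ⟨a, c⟩
    simp only [hcomm]
    by_cases ha : a ∈ ({1, -1} : Finset Fˣ)
    · rw [if_pos ha, (hsq a).2 ha]
      by_cases hc : c = 0
      · rw [if_pos hc, hc]
        simp [Finset.card_univ, Fintype.card_prod, Fintype.card_units, hq]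
      · rw [if_neg hc, show (Finset.univ.filter fun y : Fˣ × F =>
          y.2 * 0 = c * ((y.1 : F) - ((y.1⁻¹ : Fˣ) : F))) = ({1, -1} : Finset Fˣ) ×ˢ Finset.univ from ?_,
          Finset.card_product, hS, Finset.card_univ]
        ext ⟨b, d⟩
        simp only [Finset.mem_filter, Finset.mem_univ, true_and, mul_zero, Finset.mem_product, and_true]
        rw [eq_comm, mul_eq_zero, or_iff_right hc, hsq]
    · rw [if_neg ha, show q - 1 = Fintype.card Fˣ by rw [Fintype.card_units], ← Finset.card_univ]
      have hne : (a : F) - ((a⁻¹ : Fˣ) : F) ≠ 0 := fun h => ha ((hsq a).1 h)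
      refine Finset.card_bij (fun y _ => y.1) (fun _ _ => Finset.mem_univ _) ?_ ?_
      · rintro ⟨b, d⟩ hy ⟨b', d'⟩ hy' rfl
        simp only [Finset.mem_filter, Finset.mem_univ, true_and] at hy hy'
        rw [Prod.mk.injEq]
        exact ⟨rfl, mul_right_cancel₀ hne (hy.trans hy'.symm)⟩
      · intro b _
        refine ⟨(b, c * ((b : F) - ((b⁻¹ : Fˣ) : F)) / ((a : F) - ((a⁻¹ : Fˣ) : F))), ?_, rfl⟩
        simp only [Finset.mem_filter, Finset.mem_univ, true_and]
        exact div_mul_cancel₀ _ hne
  have hpair : Nat.card {p : B × B // Commute p.1 p.2} =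
      ∑ x : Fˣ × F, (Finset.univ.filter fun y => Commute (e x) (e y)).card := by
    have E : {p : B × B // Commute p.1 p.2} ≃ Σ x : Fˣ × F, {y : Fˣ × F // Commute (e x) (e y)} :=
      { toFun := fun p => ⟨e.symm p.1.1, e.symm p.1.2, by simpa using p.2⟩
        invFun := fun s => ⟨(e s.1, e s.2.1), s.2.2⟩
        left_inv := fun p => by ext <;> simp
        right_inv := fun s => by
          obtain ⟨x, y, h⟩ := s
          refine Sigma.subtype_ext (e.symm_apply_apply x) (e.symm_apply_apply y) }
    rw [Nat.card_congr E, Nat.card_eq_fintype_card, Fintype.card_sigma]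
    exact Finset.sum_congr rfl fun x _ => Fintype.card_subtype _
  have hone : ∀ a : Fˣ, ∑ c : F, (if a ∈ ({1, -1} : Finset Fˣ) then
      (if c = 0 then (q - 1) * q else 2 * q) else q - 1) =
      if a ∈ ({1, -1} : Finset Fˣ) then (q - 1) * q + (q - 1) * (2 * q) else q * (q - 1) := by
    intro a
    split_ifs with ha
    · rw [← Finset.add_sum_erase _ _ (Finset.mem_univ (0 : F)), if_pos rfl,
        Finset.sum_congr rfl (g := fun _ => 2 * q) fun c hc => if_neg (Finset.ne_of_mem_erase hc),
        Finset.sum_const, Finset.card_erase_of_mem (Finset.mem_univ _), Finset.card_univ, smul_eq_mul]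
    · rw [Finset.sum_const, Finset.card_univ, smul_eq_mul]
  have hc := card_comm_eq_card_conjClasses_mul_card B
  rw [hpair, Finset.sum_congr rfl fun x _ => hrow x, Fintype.sum_prod_type,
    Finset.sum_congr rfl fun a _ => hone a, Finset.sum_ite, Finset.sum_const, Finset.sum_const,
    smul_eq_mul, smul_eq_mul, Finset.filter_mem_eq_inter, Finset.univ_inter, hS,
    ← Nat.card_congr e, Nat.card_eq_fintype_card (α := Fˣ × F), Fintype.card_prod,
    Fintype.card_units] at hc
  have hnot : (Finset.univ.filter fun a : Fˣ => ¬ a ∈ ({1, -1} : Finset Fˣ)).card = q - 3 := by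
    have h := Finset.card_filter_add_card_filter_not (s := (Finset.univ : Finset Fˣ))
      (fun a => a ∈ ({1, -1} : Finset Fˣ))
    rw [Finset.filter_mem_eq_inter, Finset.univ_inter, hS, Finset.card_univ, Fintype.card_units] at h
    omega
  rw [hnot] at hc
  have hq3 : 3 ≤ q := by
    have : 1 < q := Fintype.one_lt_card
    have := Nat.odd_iff.1 hodd
    omega
  obtain ⟨r, hr⟩ : ∃ r, q = r + 3 := ⟨q - 3, by omega⟩
  rw [hr] at hc ⊢
  simp only [Nat.add_sub_cancel, show r + 3 - 1 = r + 2 by omega, ← hq, hr] at hc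
  refine (Nat.eq_of_mul_eq_mul_right (show 0 < (r + 2) * (r + 3) by positivity) ?_)
  linarith

end Cfsg.Agent.S2437
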