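import Cfsg.Statements.S2436
import Cfsg.Agent.TwoGroups.McKaySL2.Global
import Cfsg.Agent.TwoGroups.McKaySL2.Local

set_option autoImplicit false
open Cfsg

namespace Cfsg.Agent.S2436

/-- Let F be a finite field with q elements, q odd, ℓ any prime and S a Sylow ℓ-subgroup of SL₂ over F with normaliser N. Then SL₂ and N have the same number of irreducible complex characters of degree not divisible by ℓ (the McKay equality holds for SL₂ over F at every prime). -/
theorem result {F : Type*} [Field F] [Fintype F] (hodd : Odd (Fintype.card F)) (ℓ : ℕ) [Fact ℓ.Prime] (S : Sylow ℓ (Matrix.SpecialLinearGroup (Fin 2) F)) :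
    Nat.card {χ : Cfsg.IrrCharacter (Matrix.SpecialLinearGroup (Fin 2) F) // ¬ ℓ ∣ Cfsg.charDegree (χ : Matrix.SpecialLinearGroup (Fin 2) F → ℂ)} =
      Nat.card {ψ : Cfsg.IrrCharacter (Subgroup.normalizer ((S : Subgroup (Matrix.SpecialLinearGroup (Fin 2) F)) : Set (Matrix.SpecialLinearGroup (Fin 2) F))) //
        ¬ ℓ ∣ Cfsg.charDegree (ψ : Subgroup.normalizer ((S : Subgroup (Matrix.SpecialLinearGroup (Fin 2) F)) : Set (Matrix.SpecialLinearGroup (Fin 2) F)) → ℂ)} := by
    classical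
    have hℓp : ℓ.Prime := Fact.out
    show Cfsg.Agent.TwoGroups.McKaySL2.cnt ℓ _ = Cfsg.Agent.TwoGroups.McKaySL2.cnt ℓ _
    have hq : 1 < Fintype.card F := Fintype.one_lt_card
    have h2 := Nat.odd_iff.1 hodd
    by_cases hd : ℓ ∣ Nat.card (Matrix.SpecialLinearGroup (Fin 2) F)
    swap
    · rw [Cfsg.Agent.TwoGroups.McKaySL2.cnt_top hd S]
    by_cases hℓ : ℓ = 2
    · subst hℓ
      rw [Cfsg.Agent.TwoGroups.McKaySL2.cnt_two hodd S, Cfsg.Agent.TwoGroups.McKaySL2.cnt_SL_two hodd]
    have hne : ∀ n : ℕ, ℓ ∣ n → ℓ ∣ n + 1 → False := fun n a b =>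
      hℓp.one_lt.ne' (Nat.dvd_one.1 (by simpa using Nat.dvd_sub b a))
    have hboth : ℓ ∣ Fintype.card F - 1 → ℓ ∣ Fintype.card F + 1 → False := fun a b => hℓ
      ((Nat.prime_dvd_prime_iff_eq hℓp Nat.prime_two).1 (by
        have h2 := Nat.dvd_sub b a
        rwa [show Fintype.card F + 1 - (Fintype.card F - 1) = 2 by omega] at h2))
    rcases Cfsg.Agent.TwoGroups.McKaySL2.dvd_cases hℓp hd with h | h | h
    · rw [Cfsg.Agent.TwoGroups.McKaySL2.cnt_char hodd h S, Cfsg.Agent.TwoGroups.McKaySL2.cnt_SL_char hodd hℓp h]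
    · obtain ⟨C, hC, hcard⟩ := Cfsg.Agent.Linear.exists_cyclic_SL2 (F := F) true
      simp only [if_true] at hcard
      have hnq : ¬ ℓ ∣ Fintype.card F := fun h' => hne _ h' h
      have := Cfsg.Agent.TwoGroups.McKaySL2.cnt_torus hodd hℓ (Cfsg.Agent.KnownA.GL2.isTor_nonsplit hodd hC hcard)
        (by rw [hcard]; exact h) (by
          rw [hcard, Cfsg.Agent.TwoGroups.McKaySL2.fac_group, Nat.factorization_eq_zero_of_not_dvd hnq,
            Nat.factorization_eq_zero_of_not_dvd (fun h' => hboth h' h), zero_add, add_zero]) S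
      rw [hcard] at this
      rw [Cfsg.Agent.TwoGroups.McKaySL2.cnt_SL_add hodd hℓp hℓ h]
      omega
    · have hnq : ¬ ℓ ∣ Fintype.card F := fun h' => hne _ h (by
        rwa [show Fintype.card F - 1 + 1 = Fintype.card F by omega])
      have := Cfsg.Agent.TwoGroups.McKaySL2.cnt_torus hodd hℓ Cfsg.Agent.KnownA.GL2.isTor_split
        (by rw [Cfsg.Agent.KnownA.GL2.card_splitTorus]; exact h) (by
          rw [Cfsg.Agent.KnownA.GL2.card_splitTorus, Cfsg.Agent.TwoGroups.McKaySL2.fac_group,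
            Nat.factorization_eq_zero_of_not_dvd hnq,
            Nat.factorization_eq_zero_of_not_dvd (fun h' => hboth h h'), zero_add, zero_add]) S
      rw [Cfsg.Agent.KnownA.GL2.card_splitTorus] at this
      rw [Cfsg.Agent.TwoGroups.McKaySL2.cnt_SL_sub hodd hℓp hℓ h]
      omega

end Cfsg.Agent.S2436
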