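import Cfsg.Statements.S2438
import Cfsg.Agent.KnownA.GL2.SLValues
-- import your own Cfsg.Agent.* helpers here

set_option autoImplicit false
open Cfsg

namespace Cfsg.Agent.S2438

/-- Let F be a finite field with q elements, q odd, q ≥ 5, U the upper unitriangular subgroup of SL₂ over F, and χ an irreducible complex character. The sum of the values of χ over U equals 2q, q, 0, q, 0 according as the degree of χ is q + 1, q, q − 1, (q + 1)/2, (q − 1)/2; so among these five degrees the sum vanishes exactly for the degrees q − 1 and (q − 1)/2, i.e. the irreducible characters of those two degrees are the ones whose restriction to U does not contain the trivial character (the cuspidal characters), while those of degree q + 1, q and (q + 1)/2 are not cuspidal. -/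
theorem result {F : Type*} [Field F] [Fintype F] [DecidableEq F] (hodd : Odd (Fintype.card F)) (hq : 5 ≤ Fintype.card F)
    (χ : Matrix.SpecialLinearGroup (Fin 2) F → ℂ) (hχ : Cfsg.IsIrrCharacter (Matrix.SpecialLinearGroup (Fin 2) F) χ) :
    (χ 1 = (Fintype.card F : ℂ) + 1 →
      (∑ g : Matrix.SpecialLinearGroup (Fin 2) F, if (g : Matrix (Fin 2) (Fin 2) F) 1 0 = 0 ∧ (g : Matrix (Fin 2) (Fin 2) F) 0 0 = 1 ∧ (g : Matrix (Fin 2) (Fin 2) F) 1 1 = 1 then χ g else 0) = 2 * (Fintype.card F : ℂ)) ∧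
    (χ 1 = (Fintype.card F : ℂ) →
      (∑ g : Matrix.SpecialLinearGroup (Fin 2) F, if (g : Matrix (Fin 2) (Fin 2) F) 1 0 = 0 ∧ (g : Matrix (Fin 2) (Fin 2) F) 0 0 = 1 ∧ (g : Matrix (Fin 2) (Fin 2) F) 1 1 = 1 then χ g else 0) = (Fintype.card F : ℂ)) ∧
    (χ 1 = (Fintype.card F : ℂ) - 1 →
      (∑ g : Matrix.SpecialLinearGroup (Fin 2) F, if (g : Matrix (Fin 2) (Fin 2) F) 1 0 = 0 ∧ (g : Matrix (Fin 2) (Fin 2) F) 0 0 = 1 ∧ (g : Matrix (Fin 2) (Fin 2) F) 1 1 = 1 then χ g else 0) = 0) ∧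
    (χ 1 = (((Fintype.card F + 1) / 2 : ℕ) : ℂ) →
      (∑ g : Matrix.SpecialLinearGroup (Fin 2) F, if (g : Matrix (Fin 2) (Fin 2) F) 1 0 = 0 ∧ (g : Matrix (Fin 2) (Fin 2) F) 0 0 = 1 ∧ (g : Matrix (Fin 2) (Fin 2) F) 1 1 = 1 then χ g else 0) = (Fintype.card F : ℂ)) ∧
    (χ 1 = (((Fintype.card F - 1) / 2 : ℕ) : ℂ) →
      (∑ g : Matrix.SpecialLinearGroup (Fin 2) F, if (g : Matrix (Fin 2) (Fin 2) F) 1 0 = 0 ∧ (g : Matrix (Fin 2) (Fin 2) F) 0 0 = 1 ∧ (g : Matrix (Fin 2) (Fin 2) F) 1 1 = 1 then χ g else 0) = 0) := by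
  rw [Cfsg.Agent.KnownA.GL2.sum_unipotent]
  refine ⟨fun h => ?_, fun h => ?_, fun h => ?_, fun h => ?_, fun h => ?_⟩
  · obtain ⟨α, -, rfl⟩ := Cfsg.Agent.KnownA.GL2.kind_of_q_add_one hχ h
    rw [Cfsg.Agent.KnownA.GL2.jS_RS, Units.val_one, map_one, map_one]
    ring
  · obtain rfl := Cfsg.Agent.KnownA.GL2.kind_of_q hχ h
    have e := congrArg (fun f => Cfsg.Agent.KnownA.GL2.jS f 1) (Cfsg.Agent.KnownA.GL2.RS_one_eq (F := F))
    simp only [Cfsg.Agent.KnownA.GL2.jS_RS, Cfsg.Agent.KnownA.GL2.jS_add, Units.val_one, map_one] at e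
    rw [show Cfsg.Agent.KnownA.GL2.jS (fun _ : Matrix.SpecialLinearGroup (Fin 2) F => (1 : ℂ)) 1 = Fintype.card F by
      simp [Cfsg.Agent.KnownA.GL2.jS]] at e
    linear_combination -e
  · exact (Cfsg.Agent.KnownA.GL2.kind_of_q_sub_one (by omega) hχ h).1.jS_eq_zero 1
  · rw [((Cfsg.Agent.KnownA.GL2.kind_of_half_up hodd hχ h).resolve_right (fun e => by omega)).jS_eq, Units.val_one,
      map_one, mul_one]
  · exact (Cfsg.Agent.KnownA.GL2.kind_of_half_down hodd hq hχ h).1.jS_eq_zero 1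

end Cfsg.Agent.S2438
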