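import Cfsg.Statements.S2532


set_option autoImplicit false
open Cfsg

namespace Cfsg.Agent.S2532
theorem exists_orbits {m : ℕ} (r : ℕ) (H : Subgroup ↥(alternatingGroup (Fin m)))
    (hm : 2 ^ Nat.card H * (r * Nat.card H + 1) + 1 ≤ m) :
    ∃ (x : Fin r → Fin m) (S : Subgroup H), (∀ i, MulAction.stabilizer H (x i) = S) ∧
      ∀ i j (h : H), h • x i = x j → i = j := by
  classical
  haveI : Fintype H := Fintype.ofFinite H
  haveI : Fintype (Subgroup H) := Fintype.ofFinite _
  set N := Nat.card H with hN
  have hsub : Fintype.card (Subgroup H) ≤ 2 ^ N := by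
    have := Fintype.card_le_of_injective (fun S : Subgroup H => (S : Set H)) SetLike.coe_injective
    rwa [Fintype.card_set, ← Nat.card_eq_fintype_card (α := H)] at this
  obtain ⟨S, hS⟩ : ∃ S : Subgroup H,
      r * N < (Finset.univ.filter fun a : Fin m => MulAction.stabilizer H a = S).card := by
    by_contra hcon
    push Not at hcon
    have h1 : m ≤ Fintype.card (Subgroup H) * (r * N) := by
      calc m = (Finset.univ : Finset (Fin m)).card := by simp
        _ ≤ (r * N) * (Finset.univ : Finset (Subgroup H)).card :=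
          Finset.card_le_mul_card_image_of_maps_to (f := fun a : Fin m => MulAction.stabilizer H a)
            (fun _ _ => Finset.mem_univ _) _ fun b _ => hcon b
        _ = _ := by rw [Finset.card_univ, mul_comm]
    have h2 := h1.trans (Nat.mul_le_mul_right _ hsub)
    rw [Nat.mul_add] at hm
    omega
  suffices key : ∀ k ≤ r, ∃ x : Fin k → Fin m, (∀ i, MulAction.stabilizer H (x i) = S) ∧
      ∀ i j (h : H), h • x i = x j → i = j by
    obtain ⟨x, h1, h2⟩ := key r le_rfl
    exact ⟨x, S, h1, h2⟩
  intro k hk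
  induction k with
  | zero => exact ⟨Fin.elim0, fun i => i.elim0, fun i => i.elim0⟩
  | succ k ih =>
    obtain ⟨x, h1, h2⟩ := ih (by omega)
    obtain ⟨y, hy, hy2⟩ : ∃ y, MulAction.stabilizer H y = S ∧ ∀ i (h : H), h • x i ≠ y := by
      by_contra hcon
      push Not at hcon
      have hsub' : (Finset.univ.filter fun a : Fin m => MulAction.stabilizer H a = S) ⊆
          Finset.univ.image fun z : Fin k × H => z.2 • x z.1 := by
        intro a ha
        obtain ⟨i, h, hih⟩ := hcon a (Finset.mem_filter.mp ha).2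
        exact Finset.mem_image.mpr ⟨(i, h), Finset.mem_univ _, hih⟩
      have h3 := (Finset.card_le_card hsub').trans Finset.card_image_le
      rw [Finset.card_univ, Fintype.card_prod, Fintype.card_fin, ← Nat.card_eq_fintype_card,
        ← hN] at h3
      have := Nat.mul_le_mul_right N (show k ≤ r by omega)
      omega
    refine ⟨Fin.snoc x y, fun i => ?_, fun i j h => ?_⟩
    · refine Fin.lastCases ?_ (fun i => ?_) i
      · simpa using hy
      · simpa using h1 i
    · refine Fin.lastCases ?_ (fun i => ?_) i <;> refine Fin.lastCases ?_ (fun j => ?_) j <;>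
        intro hh
      · rfl
      · simp only [Fin.snoc_last, Fin.snoc_castSucc] at hh
        exact absurd (by rw [← hh, inv_smul_smul]) (hy2 j h⁻¹)
      · simp only [Fin.snoc_last, Fin.snoc_castSucc] at hh
        exact absurd hh (hy2 i h)
      · simp only [Fin.snoc_castSucc] at hh
        rw [h2 i j h hh]


/-- There is a function `f` of two natural-number arguments such that, whenever `m ≥ f(n, r)`, every subgroup of order `n` of the alternating group of degree `m` centralizes some subgroup of that alternating group isomorphic to the alternating group of degree `r`. -/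
theorem result :
    ∃ f : ℕ → ℕ → ℕ, ∀ (m r : ℕ) (H : Subgroup ↥(alternatingGroup (Fin m))), f (Nat.card H) r ≤ m →
      ∃ K : Subgroup ↥(alternatingGroup (Fin m)), Nonempty (↥K ≃* ↥(alternatingGroup (Fin r))) ∧
        K ≤ Subgroup.centralizer (H : Set ↥(alternatingGroup (Fin m))) := by
  classical
  refine ⟨fun h r => 2 ^ h * (r * h + 1) + 1, fun m r H hm => ?_⟩
  obtain ⟨x, S, hx, horb⟩ := exists_orbits r H hm
  have hlift : ∀ (h : H) (a : Fin m) (h' : H) (k : H), h • (h' • a) = k • a ↔ (k⁻¹ * (h * h')) • a = a := by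
    intro h a h' k
    rw [mul_smul, inv_smul_eq_iff, mul_smul]
  let ι : Fin r × (↥H ⧸ S) → Fin m := fun z =>
    Quotient.liftOn' z.2 (fun h => h • x z.1) fun a b hab => by
      rw [QuotientGroup.leftRel_apply] at hab
      have : a⁻¹ * b ∈ MulAction.stabilizer H (x z.1) := by rw [hx]; exact hab
      rw [MulAction.mem_stabilizer_iff, mul_smul, inv_smul_eq_iff] at this
      exact this.symm
  have hι : ∀ i (h : H), ι (i, (h : ↥H ⧸ S)) = h • x i := fun i h => rfl
  have hinj : Function.Injective ι := by
    rintro ⟨i, a⟩ ⟨j, b⟩ hab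
    induction a using QuotientGroup.induction_on with | _ a => ?_
    induction b using QuotientGroup.induction_on with | _ b => ?_
    rw [hι, hι] at hab
    have hij : i = j := horb i j (b⁻¹ * a) (by rw [mul_smul, hab, inv_smul_smul])
    subst hij
    refine Prod.ext rfl (QuotientGroup.eq.mpr ?_)
    rw [← hx i, MulAction.mem_stabilizer_iff, mul_smul, inv_smul_eq_iff]
    exact hab.symm
  let e : Fin r × (↥H ⧸ S) ≃ {z : Fin m // z ∈ Set.range ι} := Equiv.ofInjective ι hinj
  let P : Equiv.Perm (Fin r) →* Equiv.Perm (Fin m) :=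
    (Equiv.Perm.extendDomainHom e).comp (MonoidHom.mk' (fun π => π.prodCongr (Equiv.refl _))
      fun π π' => Equiv.ext fun z => rfl)
  have hP1 : ∀ π z, P π (ι z) = ι (π z.1, z.2) := fun π z =>
    Equiv.Perm.extendDomain_apply_image _ e z
  have hP2 : ∀ π, ∀ a ∉ Set.range ι, P π a = a := fun π a ha =>
    Equiv.Perm.extendDomain_apply_not_subtype _ e ha
  have hPinj : Function.Injective P := by
    intro π π' h
    ext i
    have := (hP1 π (i, ((1 : H) : ↥H ⧸ S))).symm.trans
      ((congrArg (fun σ : Equiv.Perm (Fin m) => σ (ι (i, ((1 : H) : ↥H ⧸ S)))) h).trans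
        (hP1 π' (i, ((1 : H) : ↥H ⧸ S))))
    exact congrArg Fin.val (congrArg Prod.fst (hinj this))
  have hsign : ∀ π : alternatingGroup (Fin r), Equiv.Perm.sign (P π) = 1 := by
    intro π
    by_cases hs : Function.Surjective ((Equiv.Perm.sign : Equiv.Perm (Fin m) →* ℤˣ).comp P)
    · have h := Equiv.Perm.eq_sign_of_surjective_hom hs
      have h2 := DFunLike.congr_fun h (π : Equiv.Perm (Fin r))
      rw [MonoidHom.comp_apply] at h2
      rw [h2]
      exact Equiv.Perm.mem_alternatingGroup.mp π.2
    · by_contra hne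
      apply hs
      intro u
      rcases Int.units_eq_one_or u with rfl | rfl
      · exact ⟨1, map_one _⟩
      · exact ⟨π, (Int.units_eq_one_or _).resolve_left hne⟩
  let Q : alternatingGroup (Fin r) →* alternatingGroup (Fin m) :=
    (P.comp (alternatingGroup (Fin r)).subtype).codRestrict _ fun π =>
      Equiv.Perm.mem_alternatingGroup.mpr (hsign π)
  have hQinj : Function.Injective Q := fun a b hab =>
    Subtype.ext (hPinj (congrArg Subtype.val hab))
  refine ⟨Q.range, ⟨(MonoidHom.ofInjective hQinj).symm⟩, ?_⟩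
  rintro _ ⟨π, rfl⟩
  rw [Subgroup.mem_centralizer_iff]
  intro g hg
  apply Subtype.ext
  apply Equiv.ext
  intro a
  show (⟨g, hg⟩ : H) • (P π a) = P π ((⟨g, hg⟩ : H) • a)
  set h : H := ⟨g, hg⟩
  by_cases ha : a ∈ Set.range ι
  · obtain ⟨⟨i, b⟩, rfl⟩ := ha
    induction b using QuotientGroup.induction_on with | _ b => ?_
    rw [hP1, hι, hι, ← mul_smul, ← mul_smul, ← hι, ← hι, hP1]
  · rw [hP2 _ a ha, hP2]
    rintro ⟨⟨i, b⟩, hb⟩
    induction b using QuotientGroup.induction_on with | _ b => ?_
    apply ha
    refine ⟨(i, ((h⁻¹ * b : H) : ↥H ⧸ S)), ?_⟩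
    rw [hι] at hb ⊢
    rw [mul_smul, hb, inv_smul_smul]

end Cfsg.Agent.S2532
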