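import Cfsg.Statements.S2534
import Cfsg.Agent.Screen.HallWitness

set_option autoImplicit false
open Cfsg
open Cfsg.Agent.Screen.HallSym

namespace Cfsg.Agent.S2534

/-- For `n ≥ 5` and a set of primes `π`, the alternating group of degree `n` satisfies the full Sylow analogue for `π` (its maximal `π`-subgroups are pairwise conjugate; for a finite group this says Hall `π`-subgroups exist, are all conjugate, and contain every `π`-subgroup up to conjugacy) if and only if either at most one prime of `π` divides its order or every prime dividing its order lies in `π`. -/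
theorem result (n : ℕ) (hn : 5 ≤ n) (π : Set ℕ) :
    Cfsg.IsDPiGroup π ↥(alternatingGroup (Fin n)) ↔
      ((∀ r s : ℕ, r.Prime → s.Prime → r ∈ π → s ∈ π → r ∣ Nat.card ↥(alternatingGroup (Fin n)) → s ∣ Nat.card ↥(alternatingGroup (Fin n)) → r = s) ∨
        ∀ r : ℕ, r.Prime → r ∣ Nat.card ↥(alternatingGroup (Fin n)) → r ∈ π) := by
  classical
  set A := alternatingGroup (Fin n) with hA
  haveI : Nontrivial (Fin n) := Fin.nontrivial_iff_two_le.2 (by omega)
  have hdvd : ∀ r : ℕ, r.Prime → (r ∣ Nat.card A ↔ r ≤ n) := by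
    intro r hr
    refine ⟨fun h => ?_, fun h => ?_⟩
    · have := h.trans (Subgroup.card_subgroup_dvd_card A)
      rw [card_perm_eq, Fintype.card_fin] at this
      exact hr.dvd_factorial.1 this
    · have hm := A.card_mul_index
      rw [hA, alternatingGroup.index_eq_two, card_perm_eq, Fintype.card_fin] at hm
      rcases eq_or_ne r 2 with rfl | h2
      · have h4 : 4 ∣ n.factorial := dvd_trans (by decide) (Nat.factorial_dvd_factorial (show 4 ≤ n by omega))
        rw [← hA] at hm
        omega
      · have h' : r ∣ n.factorial := hr.dvd_factorial.2 h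
        rw [← hA] at hm
        rw [← hm, hr.dvd_mul, Nat.prime_dvd_prime_iff_eq hr Nat.prime_two] at h'
        exact h'.resolve_right h2
  constructor
  · intro hD
    by_contra hcon
    push Not at hcon
    obtain ⟨⟨r, s, hr, hs, hrπ, hsπ, hrd, hsd, hrs⟩, t, ht, htd, htπ⟩ := hcon
    rw [hdvd r hr] at hrd
    rw [hdvd s hs] at hsd
    rw [hdvd t ht] at htd
    obtain ⟨M, hM, -⟩ : ∃ M : Subgroup A, Cfsg.IsPiHall π M ∧ True := by
      obtain ⟨M, hM⟩ : Cfsg.IsEPiGroup π A := by
        have hbot : Cfsg.IsPiSubgroup π (⊥ : Subgroup A) := fun p hp hd => by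
          rw [Subgroup.card_bot, Nat.dvd_one] at hd
          exact absurd hd hp.ne_one
        obtain ⟨M, -, hM⟩ := (Set.toFinite {K : Subgroup A | Cfsg.IsPiSubgroup π K}).exists_le_maximal hbot
        refine ⟨M, hM.prop, fun p hp hpπ hd => ?_⟩
        haveI := Fact.mk hp
        let P : Sylow p A := default
        have hP : Cfsg.IsPiSubgroup π (P : Subgroup A) := fun s hs hsd => by
          obtain ⟨k, hk⟩ := IsPGroup.iff_card.1 P.isPGroup'
          rw [hk] at hsd
          rwa [(Nat.prime_dvd_prime_iff_eq hs hp).1 (hs.dvd_of_dvd_pow hsd)]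
        obtain ⟨K, hPK, hK⟩ := (Set.toFinite {K : Subgroup A | Cfsg.IsPiSubgroup π K}).exists_le_maximal
          (show (P : Subgroup A) ∈ {K : Subgroup A | Cfsg.IsPiSubgroup π K} from hP)
        obtain ⟨g, hg⟩ := hD M K hM hK
        refine P.not_dvd_index (hd.trans ?_)
        have : M.index = K.index := by
          rw [hg]; exact (M.index_map_equiv (MulAut.conj g)).symm
        rw [this]
        exact Subgroup.index_dvd_of_le hPK
      exact ⟨M, hM, trivial⟩
    obtain ⟨M0, h0, hMe⟩ := (alt_iff M).1 hM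
    rcases perm_cases h0 with h | h | ⟨S, hS, rfl⟩
    · rw [Fintype.card_fin] at h
      exact hrs (h r s hr hs hrπ hsπ hrd hsd)
    · rw [AllIn, Fintype.card_fin] at h
      exact htπ (h t ht htd)
    · rw [Fintype.card_fin] at hS
      obtain ⟨X, hXA, hXπ, hX⟩ : ∃ X : Subgroup (Equiv.Perm (Fin n)), X ≤ A ∧
          (∀ p : ℕ, p.Prime → p ∣ Nat.card X → p ∈ π) ∧
          ∀ T : Finset (Fin n), T.card = S.card → ¬ X ≤ setW T := by
        rcases hS with ⟨-, h5, hπ, hk⟩ | ⟨rfl, hk, hπ⟩ | ⟨rfl, hk, hπ⟩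
        · obtain ⟨X, h1, h2, h3⟩ := witness_prime h5 fun r hr hrn => (hπ r hr hrn.le).2 hrn
          exact ⟨X, h1, h2, hk.symm ▸ h3⟩
        · obtain ⟨X, h1, h2, h3⟩ := witness7 ((hπ 2 Nat.prime_two (by norm_num)).2 (Or.inl rfl))
            ((hπ 3 Nat.prime_three (by norm_num)).2 (Or.inr rfl))
          exact ⟨X, h1, h2, hk.symm ▸ h3⟩
        · obtain ⟨X, h1, h2, h3⟩ := witness8 ((hπ 2 Nat.prime_two (by norm_num)).2 (Or.inl rfl))
            ((hπ 3 Nat.prime_three (by norm_num)).2 (Or.inr rfl))
          exact ⟨X, h1, h2, hk.symm ▸ h3⟩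
      have hX' : Cfsg.IsPiSubgroup π (X.subgroupOf A) := fun p hp hd => hXπ p hp (by
        rwa [Nat.card_congr (Subgroup.subgroupOfEquivOfLe hXA).toEquiv] at hd)
      obtain ⟨K, hXK, hK⟩ := (Set.toFinite {K : Subgroup A | Cfsg.IsPiSubgroup π K}).exists_le_maximal
        (show X.subgroupOf A ∈ {K : Subgroup A | Cfsg.IsPiSubgroup π K} from hX')
      have hMmax : Maximal (Cfsg.IsPiSubgroup π) M := by
        refine ⟨hM.1, fun L hL hle => ?_⟩
        obtain ⟨L', hle', hL'⟩ := (Set.toFinite {K : Subgroup A | Cfsg.IsPiSubgroup π K}).exists_le_maximal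
          (show L ∈ {K : Subgroup A | Cfsg.IsPiSubgroup π K} from hL)
        have h1 : M.relIndex L' = 1 := by
          by_contra hne
          obtain ⟨p, hp, hpd⟩ := Nat.exists_prime_and_dvd hne
          exact hM.2 p hp (hL'.prop p hp (hpd.trans (Subgroup.relIndex_dvd_card _ _)))
            (hpd.trans (Subgroup.relIndex_dvd_index_of_le (hle.trans hle')))
        exact hle'.trans (Subgroup.relIndex_eq_one.1 h1)
      obtain ⟨g, hg⟩ := hD M K hMmax hK
      refine hX (S.image (g : Equiv.Perm (Fin n))) (Finset.card_image_of_injective _ (Equiv.injective _))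
        fun x hx => ?_
      obtain ⟨y, hy, hyx⟩ := hg ▸ hXK (show (⟨x, hXA hx⟩ : A) ∈ X.subgroupOf A from hx)
      rw [hMe] at hy
      refine setW_conj_le _ ⟨(y : Equiv.Perm (Fin n)), hy, ?_⟩
      simpa using congrArg Subtype.val hyx
  · rintro (h | h)
    · intro H K hH hK
      have hconv : ∀ L : Subgroup A, Maximal (Cfsg.IsPiSubgroup π) L → Cfsg.IsPiHall π L := by
        intro L hL
        refine ⟨hL.prop, fun p hp hpπ hd => ?_⟩
        haveI := Fact.mk hp
        have hpg : IsPGroup p L := IsPGroup.of_card (Nat.eq_prime_pow_of_unique_prime_dvd Nat.card_pos.ne'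
          fun {d} hd' hdd => h d p hd' hp (hL.prop d hd' hdd) hpπ
            (hdd.trans (Subgroup.card_subgroup_dvd_card L)) (hd.trans L.index_dvd_card))
        obtain ⟨P, hP⟩ := hpg.exists_le_sylow
        have hPπ : Cfsg.IsPiSubgroup π (P : Subgroup A) := fun s hs hsd => by
          obtain ⟨k, hk⟩ := IsPGroup.iff_card.1 P.isPGroup'
          rw [hk] at hsd
          rwa [(Nat.prime_dvd_prime_iff_eq hs hp).1 (hs.dvd_of_dvd_pow hsd)]
        exact P.not_dvd_index (hd.trans (Subgroup.index_dvd_of_le (hL.le_of_ge hPπ hP)))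
      exact (hall_conj_single fun p q hp hq h1 h2 h3 h4 => h p q hp hq h1 h2 h3 h4).2 H K (hconv H hH) (hconv K hK)
    · intro H K hH hK
      have key : ∀ L : Subgroup A, Maximal (Cfsg.IsPiSubgroup π) L → L = ⊤ := fun L hL =>
        top_unique (hL.le_of_ge (show Cfsg.IsPiSubgroup π (⊤ : Subgroup A) from fun p hp hd =>
          h p hp (Subgroup.card_top (G := A) ▸ hd)) le_top)
      exact ⟨1, by rw [key H hH, key K hK, Subgroup.map_top_of_surjective _ (MulAut.conj (1 : A)).surjective]⟩

end Cfsg.Agent.S2534
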