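import Cfsg.Statements.S2536
import Cfsg.Agent.Screen.HallMain

set_option autoImplicit false
open Cfsg
open Cfsg.Agent.Screen.HallSym

namespace Cfsg.Agent.S2536

/-- Let `π` be a set of primes and `n` a natural number such that at least two primes of `π` divide `n!` but not every prime dividing `n!` lies in `π`. Then the symmetric group of degree `n` has a Hall `π`-subgroup if and only if either `n` is prime and the primes of `π` dividing `n!` are exactly the primes smaller than `n` (a point stabilizer is then such a subgroup), or `n ∈ {7, 8}` and the primes of `π` dividing `n!` are exactly 2 and 3. -/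
theorem result (n : ℕ) (π : Set ℕ)
    (h2 : ∃ r s : ℕ, r.Prime ∧ s.Prime ∧ r ≠ s ∧ r ∈ π ∧ s ∈ π ∧ r ≤ n ∧ s ≤ n)
    (hns : ∃ r : ℕ, r.Prime ∧ r ≤ n ∧ r ∉ π) :
    Cfsg.IsEPiGroup π (Equiv.Perm (Fin n)) ↔
      ((n.Prime ∧ ∀ r : ℕ, r.Prime → r ≤ n → (r ∈ π ↔ r < n)) ∨
       ((n = 7 ∨ n = 8) ∧ ∀ r : ℕ, r.Prime → r ≤ n → (r ∈ π ↔ (r = 2 ∨ r = 3)))) := by
  obtain ⟨r, s, hr, hs, hrs, hrπ, hsπ, hrn, hsn⟩ := h2
  obtain ⟨t, ht, htn, htπ⟩ := hns
  constructor
  · rintro ⟨H, hH⟩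
    rcases perm_cases hH with h | h | ⟨S, hS, -⟩
    · rw [Fintype.card_fin] at h
      exact absurd (h r s hr hs hrπ hsπ hrn hsn) hrs
    · rw [AllIn, Fintype.card_fin] at h
      exact absurd (h t ht htn) htπ
    · rw [Fintype.card_fin] at hS
      rcases hS with ⟨h, -, hπ, -⟩ | ⟨h, -, hπ⟩ | ⟨h, -, hπ⟩
      · exact Or.inl ⟨h, hπ⟩
      · exact Or.inr ⟨Or.inl h, hπ⟩
      · exact Or.inr ⟨Or.inr h, hπ⟩
  · intro h
    obtain ⟨k, hk, hS⟩ : ∃ k, k ≤ n ∧ Shape π n k := by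
      rcases h with ⟨hn, hπ⟩ | ⟨hn | hn, hπ⟩
      · refine ⟨n - 1, by omega, Or.inl ⟨hn, ?_, hπ, rfl⟩⟩
        have h1 := (hπ r hr hrn).1 hrπ
        have h2 := (hπ s hs hsn).1 hsπ
        have := hr.two_le
        have := hs.two_le
        by_contra h5
        have hn4 : n = 4 := by omega
        subst hn4
        norm_num at hn
      · exact ⟨4, by omega, Or.inr (Or.inl ⟨hn, rfl, hπ⟩)⟩
      · exact ⟨4, by omega, Or.inr (Or.inr ⟨hn, rfl, hπ⟩)⟩
    obtain ⟨S, -, hSc⟩ := Finset.exists_subset_card_eq (show k ≤ (Finset.univ : Finset (Fin n)).card by simpa using hk)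
    exact ⟨setW S, setW_hall (by rwa [Fintype.card_fin, hSc])⟩

end Cfsg.Agent.S2536
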