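import Cfsg.Statements.S2537
import Cfsg.Agent.Linear.PSL2MaxExist
-- import your own Cfsg.Agent.* helpers here

set_option autoImplicit false
open Cfsg

namespace Cfsg.Agent.S2537

open Cfsg.Agent.Dickson Cfsg.Agent.Linear.PSL2Borel Cfsg.Agent.Linear.PSL2Dickson Cfsg.Agent.Linear.PSL2Ext
  Cfsg.Agent.Linear.PSL2Max

/-- The `{2,3}`-part. -/
def part (m : ℕ) : ℕ := 2 ^ m.factorization 2 * 3 ^ m.factorization 3

theorem part_dvd {m : ℕ} : part m ∣ m :=
  Nat.Coprime.mul_dvd_of_dvd_of_dvd (Nat.Coprime.pow _ _ (by norm_num)) (Nat.ordProj_dvd m 2) (Nat.ordProj_dvd m 3)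

theorem part_mul {a b : ℕ} (ha : a ≠ 0) (hb : b ≠ 0) : part (a * b) = part a * part b := by
  simp only [part, Nat.factorization_mul ha hb, Finsupp.add_apply, pow_add]
  ring

theorem part_of_not_dvd {m : ℕ} (h2 : ¬ 2 ∣ m) (h3 : ¬ 3 ∣ m) : part m = 1 := by
  simp [part, Nat.factorization_eq_zero_of_not_dvd h2, Nat.factorization_eq_zero_of_not_dvd h3]

theorem part_eq_self {m : ℕ} (hm : m ≠ 0) (h : ∀ r, r.Prime → r ∣ m → r = 2 ∨ r = 3) : part m = m := by
  obtain ⟨c, hc⟩ := part_dvd (m := m)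
  suffices c = 1 by rw [this, mul_one] at hc; exact hc.symm
  by_contra hne
  obtain ⟨r, hr, hrc⟩ := Nat.exists_prime_and_dvd hne
  obtain ⟨d, rfl⟩ := hrc
  have key : ∀ s, s.Prime → s ^ (m.factorization s + 1) ∣ m → False :=
    fun s hs h' => Nat.pow_succ_factorization_not_dvd hm hs h'
  rcases h r hr ⟨part m * d, hc.trans (mul_left_comm _ _ _)⟩ with rfl | rfl
  · exact key 2 hr ⟨3 ^ m.factorization 3 * d, by rw [pow_succ]; nth_rewrite 1 [hc]; rw [part]; ring⟩
  · exact key 3 hr ⟨2 ^ m.factorization 2 * d, by rw [pow_succ]; nth_rewrite 1 [hc]; rw [part]; ring⟩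

theorem exists_subgroup_dihedral {n m : ℕ} (hn : 0 < n) (hm : 2 ≤ m) (h : m ∣ n) :
    ∃ K : Subgroup (DihedralGroup n), Nat.card K = 2 * m := by
  haveI : NeZero n := ⟨hn.ne'⟩
  obtain ⟨c, rfl⟩ := h
  have hc : 0 < c := Nat.pos_of_mul_pos_left hn
  set u : DihedralGroup (m * c) := DihedralGroup.sr 0
  set v : DihedralGroup (m * c) := DihedralGroup.sr (c : ZMod (m * c))
  have huv : orderOf (u * v) = m := by
    rw [show u * v = DihedralGroup.r (c : ZMod (m * c)) by simp [u, v], DihedralGroup.orderOf_r,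
      ZMod.val_natCast, Nat.mod_eq_of_lt (lt_mul_of_one_lt_left hc (by omega)),
      Nat.gcd_eq_right (dvd_mul_left c m), Nat.mul_div_cancel _ hc]
  have hne : u ≠ v := fun e => by
    rw [e, show v * v = 1 by simp [v], orderOf_one] at huv
    omega
  obtain ⟨e⟩ := Cfsg.Agent.S0206.result u v (DihedralGroup.orderOf_sr _) (DihedralGroup.orderOf_sr _) hne
  exact ⟨_, (Nat.card_congr e.toEquiv).trans (by rw [DihedralGroup.nat_card, huv])⟩

/-- Let `F` be a finite field with `q` elements of characteristic `p ≥ 5`, and `ε = 1` if `q ≡ 1 (mod 4)`, `ε = -1` otherwise. Then `PSL(2, F)` has a Hall `{2, 3}`-subgroup if and only if `3` divides `q − ε`, or the `{2,3}`-part of `q² − 1` is 24, or the `{2,3}`-part of `q² − 1` is 48 (the `{2,3}`-part of `m` being the largest divisor of `m` with no prime factor other than 2 and 3). -/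
theorem result {F : Type*} [Field F] [Fintype F] {p : ℕ} [Fact p.Prime] [CharP F p]
    (hp : 5 ≤ p) (q : ℕ) (hq : Fintype.card F = q) :
    (∃ H : Subgroup (Matrix.ProjectiveSpecialLinearGroup (Fin 2) F), Cfsg.IsPiHall ({2, 3} : Set ℕ) H) ↔
      (3 ∣ q - 1 ∧ q % 4 = 1) ∨ (3 ∣ q + 1 ∧ q % 4 = 3) ∨
        2 ^ (q ^ 2 - 1).factorization 2 * 3 ^ (q ^ 2 - 1).factorization 3 = 24 ∨
        2 ^ (q ^ 2 - 1).factorization 2 * 3 ^ (q ^ 2 - 1).factorization 3 = 48 := by
  classical
  subst hq
  set q := Fintype.card F with hqdef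
  change _ ↔ _ ∨ _ ∨ part (q ^ 2 - 1) = 24 ∨ part (q ^ 2 - 1) = 48
  obtain ⟨f, hpp, hf⟩ := FiniteField.card F p
  rw [← hqdef] at hf
  have hndvd : ∀ r, r.Prime → r < p → ¬ r ∣ q := by
    intro r hr hrp h
    rw [hf] at h
    exact hrp.ne ((Nat.prime_dvd_prime_iff_eq hr hpp).1 (hr.dvd_of_dvd_pow h))
  have hq5 : 5 ≤ q := hf ▸ le_trans hp (Nat.le_self_pow f.pos.ne' p)
  have hq2 : q % 2 = 1 := by
    have := hndvd 2 Nat.prime_two (by omega); omega
  have hq3 : q % 3 ≠ 0 := by
    have := hndvd 3 Nat.prime_three (by omega); omega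
  have hG := Cfsg.Agent.Linear.card_PSL_two (F := F)
  rw [← hqdef, show Nat.gcd 2 (q - 1) = 2 by
    rw [Nat.gcd_eq_left_iff_dvd]; omega] at hG
  have hs := Cfsg.Agent.Linear.PSL2ClassSizes.sq_sub_one_eq q
  set N := part (q ^ 2 - 1) with hN
  have hpos : q ^ 2 - 1 ≠ 0 := by
    have := Nat.pow_le_pow_left hq5 2; omega
  -- the order of a Hall subgroup
  have hcard : ∀ H : Subgroup (Matrix.ProjectiveSpecialLinearGroup (Fin 2) F),
      Cfsg.IsPiHall ({2, 3} : Set ℕ) H → 2 * Nat.card H = N := by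
    intro H hH
    have hi : part H.index = 1 := part_of_not_dvd (hH.2 2 Nat.prime_two (by simp)) (hH.2 3 Nat.prime_three (by simp))
    have hH0 : Nat.card H ≠ 0 := Nat.card_pos.ne'
    have hi0 : H.index ≠ 0 := Subgroup.index_ne_zero_of_finite
    have e : part (2 * Nat.card H * H.index) = part (q * (q ^ 2 - 1)) := by
      rw [← hG, mul_assoc, H.card_mul_index]
    rw [part_mul (by omega) hi0, hi, mul_one, part_mul (by omega) hpos,
      part_of_not_dvd (m := q) (hndvd 2 Nat.prime_two (by omega)) (hndvd 3 Nat.prime_three (by omega)), one_mul,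
      part_eq_self (by omega) ?_] at e
    · exact e
    intro r hr hd
    rcases hr.dvd_mul.1 hd with h | h
    · exact Or.inl ((Nat.prime_dvd_prime_iff_eq hr Nat.prime_two).1 h)
    · simpa using hH.1 r hr h
  have hhall : ∀ H : Subgroup (Matrix.ProjectiveSpecialLinearGroup (Fin 2) F),
      2 * Nat.card H = N → Cfsg.IsPiHall ({2, 3} : Set ℕ) H := by
    intro H hH
    refine ⟨fun r hr hd => ?_, fun r hr hr' hd => ?_⟩
    · have : r ∣ N := hH ▸ dvd_mul_of_dvd_right hd 2
      rcases hr.dvd_mul.1 this with h | h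
      · simpa using Or.inl ((Nat.prime_dvd_prime_iff_eq hr Nat.prime_two).1 (hr.dvd_of_dvd_pow h))
      · simpa using Or.inr ((Nat.prime_dvd_prime_iff_eq hr Nat.prime_three).1 (hr.dvd_of_dvd_pow h))
    · have e : N * H.index = q * (q ^ 2 - 1) := by rw [← hH, mul_assoc, H.card_mul_index, hG]
      have h0 : q * (q ^ 2 - 1) ≠ 0 := Nat.mul_ne_zero (by omega) hpos
      have h1 : part (N * H.index) = N := by
        rw [e, part_mul (by omega) hpos,
          part_of_not_dvd (m := q) (hndvd 2 Nat.prime_two (by omega)) (hndvd 3 Nat.prime_three (by omega)), one_mul]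
      have hN0 : N ≠ 0 := by rw [hN, part]; positivity
      have h2 : part H.index = 1 := by
        rw [part_mul hN0 Subgroup.index_ne_zero_of_finite, part_eq_self hN0 ?_] at h1
        · exact Nat.eq_of_mul_eq_mul_left (Nat.pos_of_ne_zero hN0) (by rw [h1, mul_one])
        intro s hs hd
        rcases hs.dvd_mul.1 hd with h | h
        · exact Or.inl ((Nat.prime_dvd_prime_iff_eq hs Nat.prime_two).1 (hs.dvd_of_dvd_pow h))
        · exact Or.inr ((Nat.prime_dvd_prime_iff_eq hs Nat.prime_three).1 (hs.dvd_of_dvd_pow h))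
      have hi0 : H.index ≠ 0 := Subgroup.index_ne_zero_of_finite
      have hv : 1 ≤ H.index.factorization r := hr.factorization_pos_of_dvd hi0 hd
      have hle : r ^ H.index.factorization r ∣ part H.index := by
        rcases (show r = 2 ∨ r = 3 by simpa using hr') with rfl | rfl
        · exact dvd_mul_right _ _
        · exact dvd_mul_left _ _
      rw [h2, Nat.dvd_one] at hle
      exact absurd hle (Nat.one_lt_pow (by omega) hr.one_lt).ne'
  have hN24 : 24 ∣ N := by
    have h8 : 2 ^ 3 ∣ q ^ 2 - 1 := by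
      obtain ⟨a, ha⟩ : ∃ a, q = 2 * a + 1 := ⟨q / 2, by omega⟩
      rw [ha]
      obtain ⟨b, hb⟩ := Nat.even_mul_succ_self a
      refine ⟨b, ?_⟩
      have : (2 * a + 1) ^ 2 = 4 * (a * (a + 1)) + 1 := by ring
      omega
    have h3 : 3 ^ 1 ∣ q ^ 2 - 1 := by
      rw [hs, pow_one]
      rcases (show q % 3 = 1 ∨ q % 3 = 2 by omega) with h | h
      · exact dvd_mul_of_dvd_right (by omega) _
      · exact dvd_mul_of_dvd_left (by omega) _
    have a := (Nat.Prime.pow_dvd_iff_le_factorization Nat.prime_two hpos).1 h8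
    have b := (Nat.Prime.pow_dvd_iff_le_factorization Nat.prime_three hpos).1 h3
    exact Nat.mul_dvd_mul (pow_dvd_pow 2 a) (pow_dvd_pow 3 b)
  constructor
  · rintro ⟨H, hH⟩
    have hc := hcard H hH
    have h12 : 12 ∣ Nat.card H := by omega
    have hp' : ¬ p ∣ Nat.card H := fun h => by
      have := hH.1 p hpp h
      simp at this; omega
    rcases dickson' p H with ⟨k, hk, hk'⟩ | ⟨g, hg⟩ | hexc | ⟨P, L, h⟩
    · have h6 : 6 ∣ k := by rcases hk' with ⟨-, e⟩ | ⟨-, e, -⟩ <;> omega
      rw [← hqdef, show Nat.gcd 2 (q - 1) = 2 by rw [Nat.gcd_eq_left_iff_dvd]; omega] at hk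
      rcases hk with h | h
      · have := h6.trans h; omega
      · have := h6.trans h; omega
    · left
      have hd : Nat.card H ∣ Nat.card (borelP F) := by
        rw [Nat.card_congr ((MulAut.conj g).subgroupMap H).toEquiv]
        exact Subgroup.card_dvd_of_le hg
      have hb := card_mul_of_index (index_borelP (F := F))
      rw [← hqdef, show Nat.gcd 2 (q - 1) = 2 by rw [Nat.gcd_eq_left_iff_dvd]; omega] at hb
      have hd2 : 24 ∣ q * (q - 1) := by
        rw [← hb]; exact Nat.mul_dvd_mul_left 2 (h12.trans hd)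
      have hco : Nat.Coprime 24 q := by
        rw [show (24 : ℕ) = 2 ^ 3 * 3 by norm_num]
        exact Nat.Coprime.mul_left (((Nat.Prime.coprime_iff_not_dvd Nat.prime_two).2 (by omega)).pow_left 3)
          ((Nat.Prime.coprime_iff_not_dvd Nat.prime_three).2 (by omega))
      have := hco.dvd_of_dvd_mul_left hd2
      omega
    · rcases hexc with ⟨-, ⟨⟨e⟩⟩ | ⟨⟨e⟩⟩ | ⟨⟨e⟩⟩⟩ | ⟨h3, -⟩
      · rw [Nat.card_congr e.toEquiv, card_four_five.1] at hc; omega
      · rw [Nat.card_congr e.toEquiv, card_four_five.2.1] at hc; omega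
      · have := hH.1 5 Nat.prime_five (by rw [Nat.card_congr e.toEquiv, card_four_five.2.2]; norm_num)
        simp at this
      · omega
    · exfalso
      refine hp' ?_
      have hu : Matrix.ProjectiveSpecialLinearGroup (Fin 2) F := Cfsg.Agent.Linear.toPSL (uel 1)
      have hmem : Cfsg.Agent.Linear.toPSL (uel (1 : F)) ∈ H.map (glAut P).toMonoidHom := by
        rcases h with ⟨e, -⟩ | ⟨e, -⟩ <;> rw [e]
        · exact Subgroup.mem_map_of_mem _ fun i j => by fin_cases i <;> fin_cases j <;> simp [L.one_mem, L.zero_mem]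
        · exact uel_mem_extP.2 L.one_mem
      have ho : orderOf (Cfsg.Agent.Linear.toPSL (uel (1 : F))) = p := by
        refine orderOf_eq_prime ?_ fun e => ?_
        · rw [← map_pow, uel_pow, CharP.cast_eq_zero F p, zero_mul, uel_zero, map_one]
        · rcases Cfsg.Agent.Linear.toPSL_eq_one_iff.1 e with h | h <;>
            simpa using congrArg (fun g : Matrix.SpecialLinearGroup (Fin 2) F => g.1 0 1) h
      have := orderOf_dvd_natCard (⟨_, hmem⟩ : H.map (glAut P).toMonoidHom)
      rw [Subgroup.orderOf_mk, ho] at this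
      exact this.trans (dvd_of_eq (Nat.card_congr ((glAut P).subgroupMap H).toEquiv).symm)
  · intro h
    have fromDihedral : ∀ plus : Bool, 12 ∣ (if plus then q + 1 else q - 1) →
        (if plus then q ∉ ({2, 7, 9} : Finset ℕ) else q ∉ ({2, 3, 5, 7, 9, 11} : Finset ℕ)) →
        ∃ H : Subgroup (Matrix.ProjectiveSpecialLinearGroup (Fin 2) F), Cfsg.IsPiHall ({2, 3} : Set ℕ) H := by
      intro plus hA hq'
      obtain ⟨D, -, ⟨e⟩⟩ := Cfsg.Agent.Linear.PSL2Dickson.exists_maximal_dihedral p plus (by rw [← hqdef]; exact hq')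
      rw [← hqdef, show Nat.gcd 2 (q - 1) = 2 by rw [Nat.gcd_eq_left_iff_dvd]; omega] at e
      set A := (if plus then q + 1 else q - 1) with hAdef
      set B := (if plus then q - 1 else q + 1) with hBdef
      have hAB : q ^ 2 - 1 = A * B := by rw [hs, hAdef, hBdef]; cases plus <;> simp [mul_comm]
      have hB : part B = 2 := by
        obtain ⟨b, hb, hb2, hb3⟩ : ∃ b, B = 2 * b ∧ ¬ 2 ∣ b ∧ ¬ 3 ∣ b := by
          refine ⟨B / 2, ?_⟩
          rw [hBdef]; cases plus <;> simp [hAdef] at hA ⊢ <;> omega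
        rw [hb, part_mul (by norm_num) (by intro h; apply hb2; rw [h]; norm_num), part_of_not_dvd hb2 hb3,
          part_eq_self (by norm_num) (fun r hr hd => Or.inl ((Nat.prime_dvd_prime_iff_eq hr Nat.prime_two).1 hd))]
      have hA0 : A ≠ 0 := by rw [hAdef]; cases plus <;> simp <;> omega
      have hB0 : B ≠ 0 := by rw [hBdef]; cases plus <;> simp <;> omega
      have hNA : N = part A * 2 := by rw [hN, hAB, part_mul hA0 hB0, hB]
      have hPA := part_dvd (m := A)
      have h12P : 12 ∣ part A := by omega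
      have hApos : 0 < part A := by rw [part]; positivity
      obtain ⟨K, hK⟩ := exists_subgroup_dihedral (n := A / 2) (m := part A / 2) (by omega) (by omega)
        (Nat.div_dvd_div (show 2 ∣ part A by omega) hPA)
      refine ⟨(K.comap e.toMonoidHom).map D.subtype, hhall _ ?_⟩
      rw [Subgroup.card_subtype, Nat.card_congr (e.subgroupMap (K.comap e.toMonoidHom)).toEquiv,
        show (K.comap e.toMonoidHom).map (e : D →* DihedralGroup (A / 2)) = K from
          Subgroup.map_comap_eq_self_of_surjective e.surjective K, hK, hNA]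
      omega
    rcases h with h | h | h | h
    · exact fromDihedral false (by simp; omega) (by simp; omega)
    · exact fromDihedral true (by simp; omega) (by simp; omega)
    · obtain ⟨H, ⟨e⟩⟩ := Cfsg.Agent.Linear.exists_A4 (F := F) (two_ne p (by omega))
      exact ⟨H, hhall H (by rw [Nat.card_congr e.toEquiv, card_four_five.1, h])⟩
    · have h16 : 16 ∣ q ^ 2 - 1 := ((show 16 ∣ 48 by norm_num).trans (dvd_of_eq h.symm)).trans part_dvd
      obtain ⟨H, ⟨e⟩⟩ := (Cfsg.Agent.S0803.result hqdef.symm).2 (by omega)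
      exact ⟨H, hhall H (by rw [Nat.card_congr e.toEquiv, card_four_five.2.1, h])⟩

end Cfsg.Agent.S2537
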