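import Cfsg.Statements.S2541


set_option autoImplicit false
open Cfsg

namespace Cfsg.Agent.S2541


/-- Let F be a field with 9 elements. The symmetric group S_6 is not isomorphic to PGL_2(F) (although both have index-2 subgroups isomorphic to A_6). -/
theorem result {F : Type*} [Field F] [Fintype F] (hF : Fintype.card F = 9) : ¬ Nonempty (Equiv.Perm (Fin 6) ≃* Matrix.ProjGenLinGroup (Fin 2) F) := by
  classical
  rintro ⟨e⟩
  obtain ⟨ω, hω⟩ := IsCyclic.exists_ofOrder_eq_natCard (α := Fˣ)
  rw [Nat.card_eq_fintype_card, Fintype.card_units, hF] at hω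
  norm_num at hω
  let d : Fˣ → GL (Fin 2) F := fun a =>
    ⟨Matrix.diagonal ![(a : F), 1], Matrix.diagonal ![((a⁻¹ : Fˣ) : F), 1],
      by rw [Matrix.diagonal_mul_diagonal, ← Matrix.diagonal_one]; congr 1; funext i; fin_cases i <;> simp,
      by rw [Matrix.diagonal_mul_diagonal, ← Matrix.diagonal_one]; congr 1; funext i; fin_cases i <;> simp⟩
  let x : Matrix.ProjGenLinGroup (Fin 2) F := QuotientGroup.mk (d ω)
  have hpow : ∀ k : ℕ, ((d ω ^ k : GL (Fin 2) F) : Matrix (Fin 2) (Fin 2) F) =
      Matrix.diagonal ![((ω ^ k : Fˣ) : F), 1] := by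
    intro k
    rw [Units.val_pow_eq_pow_val]
    show Matrix.diagonal _ ^ k = _
    rw [Matrix.diagonal_pow]
    congr 1
    funext i
    fin_cases i <;> simp
  have hx : orderOf x = 8 := by
    rw [← hω]
    apply Nat.dvd_antisymm
    · rw [orderOf_dvd_iff_pow_eq_one]
      show (QuotientGroup.mk (d ω ^ orderOf ω) : Matrix.ProjGenLinGroup (Fin 2) F) = 1
      have : d ω ^ orderOf ω = 1 := by
        apply Units.ext
        rw [hpow, pow_orderOf_eq_one]
        ext i j
        fin_cases i <;> fin_cases j <;> simp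
      rw [this]; rfl
    · rw [orderOf_dvd_iff_pow_eq_one]
      have h1 : (QuotientGroup.mk (d ω ^ orderOf x) : Matrix.ProjGenLinGroup (Fin 2) F) = 1 := by
        rw [QuotientGroup.mk_pow]; exact pow_orderOf_eq_one x
      rw [QuotientGroup.eq_one_iff, Matrix.GeneralLinearGroup.center_eq_range_scalar] at h1
      obtain ⟨r, hr⟩ := h1
      have h2 := congrArg (fun g : GL (Fin 2) F => (g : Matrix (Fin 2) (Fin 2) F)) hr
      simp only [hpow] at h2
      have h00 := congrArg (fun M : Matrix (Fin 2) (Fin 2) F => M 0 0) h2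
      have h11 := congrArg (fun M : Matrix (Fin 2) (Fin 2) F => M 1 1) h2
      simp at h00 h11
      refine Units.ext ?_
      simp only [Units.val_pow_eq_pow_val, Units.val_one]
      exact h00.symm.trans (by simpa using h11)
  have h8 : orderOf (e.symm x) = 8 := (MulEquiv.orderOf_eq e.symm x).trans hx
  have h60 : orderOf (e.symm x) ∣ 60 := by
    rw [← Equiv.Perm.lcm_cycleType, Multiset.lcm_dvd]
    intro a ha
    have h2 := Equiv.Perm.two_le_of_mem_cycleType ha
    have h6 : a ≤ 6 := by
      have h := Multiset.le_sum_of_mem ha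
      rw [Equiv.Perm.sum_cycleType] at h
      exact h.trans ((Finset.card_le_univ _).trans (by simp))
    interval_cases a <;> norm_num
  rw [h8] at h60
  norm_num at h60

end Cfsg.Agent.S2541
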