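import Cfsg.Statements.S2542
import Cfsg.Agent.Linear.PSL2Eleven
import Cfsg.Agent.S0675
-- import your own Cfsg.Agent.* helpers here

set_option autoImplicit false
open Cfsg

namespace Cfsg.Agent.S2542

/-- Let F be a field with 11 elements. PSL_2(F) has a subgroup H of index 11 isomorphic to the alternating group A_5, and the action of PSL_2(F) on the cosets of H is 2-transitive (of degree 11). -/
theorem result {F : Type*} [Field F] [Fintype F] (hF : Fintype.card F = 11) : ∃ H : Subgroup (Matrix.ProjectiveSpecialLinearGroup (Fin 2) F), H.index = 11 ∧ Nonempty (H ≃* alternatingGroup (Fin 5)) ∧ MulAction.IsMultiplyPretransitive (Matrix.ProjectiveSpecialLinearGroup (Fin 2) F) ((Matrix.ProjectiveSpecialLinearGroup (Fin 2) F) ⧸ H) 2 := by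
  classical
  obtain ⟨H, ⟨e⟩⟩ := (Cfsg.Agent.S0804.result (F := F) rfl).2 (by rw [hF]; norm_num)
  have hPSL : Nat.card (Matrix.ProjectiveSpecialLinearGroup (Fin 2) F) = 660 := by
    have h2 := Cfsg.Agent.Linear.card_PSL_two (F := F)
    rw [hF] at h2
    simp only [show Nat.gcd 2 (11 - 1) = 2 by decide, show 11 * (11 ^ 2 - 1) = 1320 by norm_num] at h2
    omega
  have hidx : H.index = 11 := by
    have h := H.index_mul_card
    rw [hPSL, Nat.card_congr e.toEquiv, Cfsg.Agent.Linear.PSL2Dickson.card_four_five.2.2] at h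
    omega
  refine ⟨H, hidx, ⟨e⟩, ?_⟩
  haveI : IsSimpleGroup (Matrix.ProjectiveSpecialLinearGroup (Fin 2) F) :=
    Matrix.ProjectiveSpecialLinearGroup.rank_two_simple (by rw [Nat.card_eq_fintype_card, hF]; norm_num)
  let X := Matrix.ProjectiveSpecialLinearGroup (Fin 2) F ⧸ H
  haveI : Fintype X := Fintype.ofFinite X
  have hX : Fintype.card X = 11 := by rw [← Nat.card_eq_fintype_card, ← Subgroup.index_eq_card, hidx]
  let φ := MulAction.toPermHom (Matrix.ProjectiveSpecialLinearGroup (Fin 2) F) X
  have htr : ∀ x y : X, ∃ g : Matrix.ProjectiveSpecialLinearGroup (Fin 2) F, φ g x = y := fun x y =>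
    MulAction.exists_smul_eq (Matrix.ProjectiveSpecialLinearGroup (Fin 2) F) x y
  have hinj : Function.Injective φ := by
    rw [← MonoidHom.ker_eq_bot_iff]
    refine (IsSimpleGroup.eq_bot_or_eq_top_of_normal φ.ker (MonoidHom.normal_ker φ)).resolve_right fun htop => ?_
    have hsub : Subsingleton X := ⟨fun x y => by
      obtain ⟨g, hg⟩ := htr x y
      have : φ g = 1 := MonoidHom.mem_ker.1 (htop ▸ Subgroup.mem_top g)
      rwa [this, Equiv.Perm.one_apply] at hg⟩
    have := Fintype.card_le_one_iff_subsingleton.2 hsub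
    omega
  haveI : MulAction.IsPretransitive φ.range X := ⟨fun x y => by
    obtain ⟨g, hg⟩ := htr x y
    exact ⟨⟨φ g, g, rfl⟩, hg⟩⟩
  rcases Cfsg.Agent.S0675.result (by rw [hX]; norm_num) φ.range with hs | h2t
  · exfalso
    haveI := hs
    haveI : Group.IsSolvable (Matrix.ProjectiveSpecialLinearGroup (Fin 2) F) :=
      Group.isSolvable_of_isSolvable_injective (f := φ.rangeRestrict) fun x y h => hinj (congrArg Subtype.val h)
    haveI : Group.IsSolvable H := inferInstance
    exact Cfsg.Agent.Linear.PSL2Dickson.not_solvable_alt_five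
      (Group.isSolvable_of_surjective (f := e.toMonoidHom) e.surjective)
  · rw [MulAction.is_two_pretransitive_iff] at h2t ⊢
    intro a b c d hab hcd
    obtain ⟨⟨_, g, rfl⟩, h1, h2⟩ := h2t hab hcd
    exact ⟨g, h1, h2⟩

end Cfsg.Agent.S2542
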