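import Cfsg.Statements.S2543
import Cfsg.Agent.Linear.PSL2Eleven
-- import your own Cfsg.Agent.* helpers here

set_option autoImplicit false
open scoped Pointwise
open Cfsg

namespace Cfsg.Agent.S2543

/-- Let F be a field with 11 elements. PSL_2(F) has exactly 22 subgroups isomorphic to the alternating group A_5, and they form two conjugacy classes: there are two such subgroups that are not conjugate, and every such subgroup is conjugate to one of these two. -/
theorem result {F : Type*} [Field F] [Fintype F] (hF : Fintype.card F = 11) : Nat.card {H : Subgroup (Matrix.ProjectiveSpecialLinearGroup (Fin 2) F) // Nonempty (H ≃* alternatingGroup (Fin 5))} = 22 ∧ ∃ H K : Subgroup (Matrix.ProjectiveSpecialLinearGroup (Fin 2) F), Nonempty (H ≃* alternatingGroup (Fin 5)) ∧ Nonempty (K ≃* alternatingGroup (Fin 5)) ∧ (∀ g : Matrix.ProjectiveSpecialLinearGroup (Fin 2) F, MulAut.conj g • H ≠ K) ∧ ∀ L : Subgroup (Matrix.ProjectiveSpecialLinearGroup (Fin 2) F), Nonempty (L ≃* alternatingGroup (Fin 5)) → ∃ g : Matrix.ProjectiveSpecialLinearGroup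 (Fin 2) F, MulAut.conj g • L = H ∨ MulAut.conj g • L = K := by
  classical
  have h11 : (11 : F) = 0 := by
    have := FiniteField.cast_card_eq_zero F
    rw [hF] at this
    exact_mod_cast this
  have h2 : (2 : F) ≠ 0 := fun h => one_ne_zero (α := F) (by linear_combination h11 - 5 * h)
  have h5 : (5 : F) ≠ 0 := fun h => one_ne_zero (α := F) (by linear_combination h11 - 2 * h)
  obtain ⟨H, ⟨e⟩⟩ := (Cfsg.Agent.S0804.result (F := F) rfl).2 (by rw [hF]; norm_num)
  refine ⟨?_, ?_⟩
  · have h := Cfsg.Agent.Linear.PSL2Eleven.count h2 h5 e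
    rw [Cfsg.Agent.Linear.card_PGL_two, hF] at h
    norm_num at h ⊢
    omega
  · obtain ⟨K, hK, hne, hall⟩ := Cfsg.Agent.Linear.PSL2Eleven.two_classes (by rw [hF]) h5 e
    exact ⟨H, K, ⟨e⟩, hK, hne, hall⟩

end Cfsg.Agent.S2543
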