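import Cfsg.Statements.S2550
import Cfsg.Agent.Linear.IsoA8
import Cfsg.Agent.Forms.SLTransv
-- import your own Cfsg.Agent.* helpers here

set_option autoImplicit false
open Cfsg

namespace Cfsg.Agent.S2550

/-- Let F be a field with 2 elements and K a field with 4 elements. PSL_4(F) and PSL_3(K) have the same order (20160) but are not isomorphic. -/
theorem result {F K : Type*} [Field F] [Fintype F] [Field K] [Fintype K] (hF : Fintype.card F = 2) (hK : Fintype.card K = 4) : Nat.card (Matrix.ProjectiveSpecialLinearGroup (Fin 4) F) = Nat.card (Matrix.ProjectiveSpecialLinearGroup (Fin 3) K) ∧ ¬ Nonempty (Matrix.ProjectiveSpecialLinearGroup (Fin 4) F ≃* Matrix.ProjectiveSpecialLinearGroup (Fin 3) K) := by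
  classical
  refine ⟨?_, ?_⟩
  · have h1 := Cfsg.Agent.Linear.card_PSL (F := F) 4
    have h2 := Cfsg.Agent.Linear.card_PSL (F := K) 3
    rw [hF] at h1
    rw [hK] at h2
    rw [show Nat.gcd 4 (2 - 1) = 1 by decide, Fin.prod_univ_four] at h1
    rw [show Nat.gcd 3 (4 - 1) = 3 by decide, Fin.prod_univ_three] at h2
    norm_num at h1 h2
    rw [Nat.card_eq_fintype_card, Nat.card_eq_fintype_card]
    omega
  · rintro ⟨e⟩
    obtain ⟨i⟩ := Cfsg.Agent.Linear.PSL4_two_iso hF
    let f := e.symm.trans i
    let a : alternatingGroup (Fin 8) :=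
      ⟨Equiv.swap 0 1 * Equiv.swap 2 3, Equiv.Perm.mem_alternatingGroup.2 (by decide)⟩
    let b : alternatingGroup (Fin 8) :=
      ⟨Equiv.swap 0 1 * Equiv.swap 2 3 * (Equiv.swap 4 5 * Equiv.swap 6 7), Equiv.Perm.mem_alternatingGroup.2 (by decide)⟩
    haveI := Fact.mk Nat.prime_two
    have ha : orderOf (f.symm a) = 2 := by
      rw [f.symm.orderOf_eq]; exact orderOf_eq_prime (by decide) (by decide)
    have hb : orderOf (f.symm b) = 2 := by
      rw [f.symm.orderOf_eq]; exact orderOf_eq_prime (by decide) (by decide)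
    obtain ⟨s, hs, hsa⟩ := Cfsg.Agent.Forms.exists_transvection_of_orderOf_two hK _ ha
    obtain ⟨t, ht, htb⟩ := Cfsg.Agent.Forms.exists_transvection_of_orderOf_two hK _ hb
    have hconj := (QuotientGroup.mk' (Subgroup.center (Matrix.SpecialLinearGroup (Fin 3) K))).map_isConj
      ((Cfsg.Agent.Forms.isConj_transvection_three s hs).symm.trans (Cfsg.Agent.Forms.isConj_transvection_three t ht))
    rw [QuotientGroup.mk'_apply, QuotientGroup.mk'_apply, hsa, htb] at hconj
    have h := ((alternatingGroup (Fin 8)).subtype.comp f.toMonoidHom).map_isConj hconj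
    simp only [MonoidHom.coe_comp, MulEquiv.coe_toMonoidHom, Function.comp_apply, MulEquiv.apply_symm_apply,
      Subgroup.coe_subtype] at h
    rw [Equiv.Perm.isConj_iff_cycleType_eq] at h
    have hsupp := congrArg Multiset.sum h
    rw [Equiv.Perm.sum_cycleType, Equiv.Perm.sum_cycleType] at hsupp
    exact absurd hsupp (by decide)

end Cfsg.Agent.S2550
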