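import Cfsg.Statements.S2552


set_option autoImplicit false
open Cfsg

namespace Cfsg.Agent.S2552


/-- Let F be a finite field and n ≥ 1. For every k, the special linear group SL_n(F) acts transitively on the set of k-dimensional subspaces of F^n: any two subspaces of the same dimension are carried onto each other by some matrix of determinant 1. -/
theorem result {F : Type*} [Field F] [Fintype F] (n : ℕ) (hn : 1 ≤ n) (U₁ U₂ : Submodule F (Fin n → F)) (h : Module.finrank F U₁ = Module.finrank F U₂) : ∃ g : Matrix.SpecialLinearGroup (Fin n) F, U₁.map ((Matrix.SpecialLinearGroup.toLin' g : (Fin n → F) ≃ₗ[F] (Fin n → F)) : (Fin n → F) →ₗ[F] (Fin n → F)) = U₂ := by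
  classical
  obtain ⟨C₁, hC₁⟩ := U₁.exists_isCompl
  obtain ⟨C₂, hC₂⟩ := U₂.exists_isCompl
  have hC : Module.finrank F C₁ = Module.finrank F C₂ := by
    have h1 := Submodule.finrank_add_eq_of_isCompl hC₁
    have h2 := Submodule.finrank_add_eq_of_isCompl hC₂
    omega
  let e : U₁ ≃ₗ[F] U₂ := LinearEquiv.ofFinrankEq _ _ h
  let f : C₁ ≃ₗ[F] C₂ := LinearEquiv.ofFinrankEq _ _ hC
  let g₀ : (Fin n → F) ≃ₗ[F] (Fin n → F) :=
    (Submodule.prodEquivOfIsCompl _ _ hC₁).symm ≪≫ₗ (e.prodCongr f) ≪≫ₗ
      Submodule.prodEquivOfIsCompl _ _ hC₂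
  have hg₀ : ∀ u : U₁, g₀ (u : Fin n → F) = (e u : Fin n → F) := by
    intro u
    simp [g₀, Submodule.prodEquivOfIsCompl_symm_apply_left]
  let b := ((Module.finBasis F U₁).prod (Module.finBasis F C₁)).map
    (Submodule.prodEquivOfIsCompl _ _ hC₁)
  haveI : Nonempty (Fin (Module.finrank F U₁) ⊕ Fin (Module.finrank F C₁)) := by
    rw [← not_isEmpty_iff]
    intro hE
    have h1 := Submodule.finrank_add_eq_of_isCompl hC₁
    have h2 : Fintype.card (Fin (Module.finrank F U₁) ⊕ Fin (Module.finrank F C₁)) = 0 :=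
      Fintype.card_eq_zero
    rw [Fintype.card_sum, Fintype.card_fin, Fintype.card_fin] at h2
    rw [Module.finrank_fin_fun] at h1
    omega
  obtain ⟨i₀⟩ := (inferInstance : Nonempty (Fin (Module.finrank F U₁) ⊕ Fin (Module.finrank F C₁)))
  let c : F := (LinearMap.det (g₀ : (Fin n → F) →ₗ[F] (Fin n → F)))⁻¹
  let w : Fin (Module.finrank F U₁) ⊕ Fin (Module.finrank F C₁) → F := Function.update 1 i₀ c
  let D : (Fin n → F) →ₗ[F] (Fin n → F) := Matrix.toLin b b (Matrix.diagonal w)
  let gl : (Fin n → F) →ₗ[F] (Fin n → F) := (g₀ : (Fin n → F) →ₗ[F] _) ∘ₗ D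
  have hdetD : LinearMap.det D = c := by
    rw [LinearMap.det_toLin, Matrix.det_diagonal]
    simp [w, Finset.prod_update_of_mem]
  have hdet : LinearMap.det gl = 1 := by
    rw [LinearMap.det_comp, hdetD]
    exact mul_inv_cancel₀ g₀.isUnit_det'.ne_zero
  let g : Matrix.SpecialLinearGroup (Fin n) F :=
    ⟨LinearMap.toMatrix' gl, by rw [LinearMap.det_toMatrix', hdet]⟩
  refine ⟨g, ?_⟩
  have hgl : ((Matrix.SpecialLinearGroup.toLin' g : (Fin n → F) ≃ₗ[F] (Fin n → F)) :
      (Fin n → F) →ₗ[F] (Fin n → F)) = gl := by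
    apply LinearMap.ext
    intro v
    show Matrix.toLin' (LinearMap.toMatrix' gl) v = gl v
    rw [Matrix.toLin'_toMatrix']
  rw [hgl]
  apply Submodule.eq_of_le_of_finrank_eq
  · rintro _ ⟨u, hu, rfl⟩
    have hDu : D u ∈ U₁ := by
      have hu' : u ∈ Submodule.span F (Set.range fun i => ((Module.finBasis F U₁ i : U₁) : Fin n → F)) := by
        have h1 := congrArg (Submodule.map U₁.subtype) (Module.finBasis F U₁).span_eq
        rw [Submodule.map_span, Submodule.map_top, Submodule.range_subtype, ← Set.range_comp] at h1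
        exact h1.symm ▸ hu
      clear hu
      induction hu' using Submodule.span_induction with
      | mem x hx =>
        obtain ⟨i, rfl⟩ := hx
        have hb : ((Module.finBasis F U₁ i : U₁) : Fin n → F) = b (Sum.inl i) := by simp [b]
        show D ((Module.finBasis F U₁ i : U₁) : Fin n → F) ∈ U₁
        rw [hb, Matrix.toLin_self, Finset.sum_eq_single (Sum.inl i)]
        · rw [← hb]; exact U₁.smul_mem _ (Module.finBasis F U₁ i).2
        · intro j _ hj; simp [Matrix.diagonal_apply_ne _ hj]
        · simp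
      | zero => simp
      | add x y _ _ hx hy => rw [map_add]; exact U₁.add_mem hx hy
      | smul a x _ hx => rw [map_smul]; exact U₁.smul_mem a hx
    show g₀ (D u) ∈ U₂
    rw [hg₀ ⟨D u, hDu⟩]
    exact Subtype.coe_prop _
  · rw [← h]
    have hinj : Function.Injective gl := by
      have hu : IsUnit (LinearMap.det gl) := by rw [hdet]; exact isUnit_one
      exact (LinearMap.equivOfDetNeZero gl hu.ne_zero).injective
    exact (Submodule.equivMapOfInjective gl hinj U₁).finrank_eq.symm

end Cfsg.Agent.S2552
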