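import Cfsg.Statements.S2562
import Cfsg.Agent.KnownB.WittBasis

set_option autoImplicit false
open Cfsg

namespace Cfsg.Agent.S2562
open Cfsg.Agent


/-- Witt indices over the field of two elements, m ≥ 1: for the plus-type form Σ xᵢyᵢ in dimension 2m some m-dimensional subspace is totally singular and no totally singular subspace has larger dimension; for the minus-type form Σ xᵢyᵢ + (z₁² + z₁z₂ + z₂²) in dimension 2m the maximal dimension of a totally singular subspace is m − 1. -/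
theorem result (m : ℕ) (hm : 1 ≤ m) :
    (∃ U : Submodule (ZMod 2) (Fin m ⊕ Fin m → ZMod 2), (∀ u ∈ U, Cfsg.quadFormPlus m (ZMod 2) u = 0) ∧ Module.finrank (ZMod 2) ↥U = m) ∧
    (∀ U : Submodule (ZMod 2) (Fin m ⊕ Fin m → ZMod 2), (∀ u ∈ U, Cfsg.quadFormPlus m (ZMod 2) u = 0) → Module.finrank (ZMod 2) ↥U ≤ m) ∧
    (∃ U : Submodule (ZMod 2) ((Fin (m - 1) ⊕ Fin (m - 1)) ⊕ Fin 2 → ZMod 2), (∀ u ∈ U, Cfsg.quadFormMinus (m - 1) (ZMod 2) 1 1 u = 0) ∧ Module.finrank (ZMod 2) ↥U = m - 1) ∧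
    (∀ U : Submodule (ZMod 2) ((Fin (m - 1) ⊕ Fin (m - 1)) ⊕ Fin 2 → ZMod 2), (∀ u ∈ U, Cfsg.quadFormMinus (m - 1) (ZMod 2) 1 1 u = 0) → Module.finrank (ZMod 2) ↥U ≤ m - 1) := by
  have hz : ∀ z₁ z₂ : ZMod 2, z₁ ^ 2 + 1 * z₁ * z₂ + 1 * z₂ ^ 2 = 0 → z₁ = 0 ∧ z₂ = 0 := by
    decide
  have d1 : Module.finrank (ZMod 2) (Forms.coreSub (ZMod 2) (Sum.inl :
      Fin m → Fin m ⊕ Fin m)) = m :=
    (Forms.finrank_comap_equiv _ Sum.inl_injective).trans (Fintype.card_fin m)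
  have d2 : Module.finrank (ZMod 2) (Forms.coreSub (ZMod 2) (Sum.inl ∘ Sum.inl :
      Fin (m - 1) → (Fin (m - 1) ⊕ Fin (m - 1)) ⊕ Fin 2)) = m - 1 :=
    (Forms.finrank_comap_equiv _ (Sum.inl_injective.comp Sum.inl_injective)).trans
      (Fintype.card_fin (m - 1))
  have h1 := Forms.qPlus_core (F := ZMod 2) m
  have h2 := Forms.qMinus_core (F := ZMod 2) (m - 1) 1 1 hz
  refine ⟨⟨_, fun u hu => ?_, d1⟩, fun U hU => ?_, ⟨_, fun u hu => ?_, d2⟩, fun U hU => ?_⟩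
  · rw [← Forms.coe_qPlus]; exact h1.zero u hu
  · exact (KnownB.finrank_le_of_core h1 fun u hu => by rw [Forms.coe_qPlus]; exact hU u hu).trans_eq d1
  · rw [← Forms.coe_qMinus]; exact h2.zero u hu
  · exact (KnownB.finrank_le_of_core h2 fun u hu => by rw [Forms.coe_qMinus]; exact hU u hu).trans_eq d2

end Cfsg.Agent.S2562
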