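import Cfsg.Statements.S2563
import Cfsg.Agent.KnownB.BinaryForms

set_option autoImplicit false
open Cfsg

namespace Cfsg.Agent.S2563
open Finset Module Cfsg.Agent


/-- The weight of a vector. -/
def wt {n : ℕ} (v : Fin n → ZMod 2) : ℕ := ∑ i, (v i).val

theorem wt_cast {n : ℕ} (v : Fin n → ZMod 2) : (wt v : ZMod 2) = ∑ i, v i := by
  simp [wt, Nat.cast_sum]

theorem even_wt {n : ℕ} {v : Fin n → ZMod 2} (h : ∑ i, v i = 0) : 2 ∣ wt v := by
  rw [← wt_cast] at h
  exact (ZMod.natCast_eq_zero_iff _ 2).mp h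

theorem wt_add {n : ℕ} (u v : Fin n → ZMod 2) :
    wt (u + v) + 2 * ∑ i, (u i * v i).val = wt u + wt v := by
  simp only [wt, Finset.mul_sum, ← Finset.sum_add_distrib]
  refine Finset.sum_congr rfl fun i _ => ?_
  have : ∀ a b : ZMod 2, (a + b).val + 2 * (a * b).val = a.val + b.val := by decide
  exact this _ _

theorem wt_comp_perm {n : ℕ} (σ : Equiv.Perm (Fin n)) (v : Fin n → ZMod 2) :
    wt (v ∘ σ) = wt v := Equiv.sum_comp σ fun i => (v i).val

/-- Half of the weight, modulo two. -/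
def qf {n : ℕ} (v : Fin n → ZMod 2) : ZMod 2 := ((wt v / 2 : ℕ) : ZMod 2)

theorem qf_add {n : ℕ} {u v : Fin n → ZMod 2} (hu : ∑ i, u i = 0) (hv : ∑ i, v i = 0) :
    qf (u + v) = qf u + qf v + ∑ i, u i * v i := by
  have h := wt_add u v
  have h1 := even_wt hu
  have h2 := even_wt hv
  have h3 : wt (u + v) / 2 + ∑ i, (u i * v i).val = wt u / 2 + wt v / 2 := by omega
  have h4 := congrArg (Nat.cast : ℕ → ZMod 2) h3
  push_cast at h4
  simp only [ZMod.natCast_val, ZMod.cast_id', id_eq] at h4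
  have h2' : ∀ x : ZMod 2, x + x = 0 := by decide
  unfold qf
  linear_combination h4 - h2' (∑ i, u i * v i)

variable (k : ℕ)

/-- The even vectors vanishing at the last point. -/
def W : Submodule (ZMod 2) (Fin (4 * k + 4) → ZMod 2) :=
  LinearMap.ker (∑ i, LinearMap.proj i) ⊓ LinearMap.ker (LinearMap.proj (Fin.last _))

theorem mem_W {v : Fin (4 * k + 4) → ZMod 2} : v ∈ W k ↔ ∑ i, v i = 0 ∧ v (Fin.last _) = 0 := by
  simp [W]

theorem smul_cases (a : ZMod 2) : a = 0 ∨ a = 1 := by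
  revert a; decide

/-- The form on `W`. -/
def Qw : QuadraticForm (ZMod 2) (W k) :=
  QuadraticMap.ofPolar (fun v => qf (v : Fin (4 * k + 4) → ZMod 2))
    (fun a v => by
      rcases smul_cases a with rfl | rfl
      · simp [qf, wt]
      · simp)
    (fun u v w => by
      simp only [QuadraticMap.polar, Submodule.coe_add]
      have huv : ∑ i, ((u : Fin (4 * k + 4) → ZMod 2) + (v : Fin (4 * k + 4) → ZMod 2)) i = 0 :=
        ((mem_W k).mp (u + v).2).1
      rw [qf_add huv ((mem_W k).mp w.2).1,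
        qf_add ((mem_W k).mp u.2).1 ((mem_W k).mp w.2).1,
        qf_add ((mem_W k).mp v.2).1 ((mem_W k).mp w.2).1]
      simp only [Pi.add_apply, add_mul, Finset.sum_add_distrib]
      ring)
    (fun a u v => by
      rcases smul_cases a with rfl | rfl
      · simp [QuadraticMap.polar, qf, wt]
      · simp)

theorem Qw_apply (v : W k) : Qw k v = qf (v : Fin (4 * k + 4) → ZMod 2) := rfl

theorem Qw_polar (u v : W k) : QuadraticMap.polar ⇑(Qw k) u v =
    ∑ i, (u : Fin (4 * k + 4) → ZMod 2) i * (v : Fin (4 * k + 4) → ZMod 2) i := by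
  simp only [QuadraticMap.polar, Qw_apply, Submodule.coe_add]
  rw [qf_add ((mem_W k).mp u.2).1 ((mem_W k).mp v.2).1]
  ring

theorem pair_mem {a b : Fin (4 * k + 4)} (hab : a ≠ b) (ha : a ≠ Fin.last _) (hb : b ≠ Fin.last _) :
    (Pi.single a 1 + Pi.single b 1 : Fin (4 * k + 4) → ZMod 2) ∈ W k := by
  rw [mem_W]
  refine ⟨?_, by simp [ha.symm, hb.symm]⟩
  simp [Finset.sum_add_distrib]
  decide

theorem Qw_nondeg : (QuadraticMap.polarBilin (Qw k)).Nondegenerate := by
  classical
  have h : ∀ v : W k, (∀ u, QuadraticMap.polar ⇑(Qw k) v u = 0) → v = 0 := by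
    intro v hv
    have h0 : (0 : Fin (4 * k + 4)) ≠ Fin.last _ := by simp [Fin.ext_iff]
    have hc : ∀ i, i ≠ Fin.last _ → (v : Fin (4 * k + 4) → ZMod 2) i = (v : Fin (4 * k + 4) → ZMod 2) 0 := by
      intro i hi
      by_cases hi0 : i = 0
      · rw [hi0]
      have h2 := hv ⟨_, pair_mem k hi0 hi h0⟩
      rw [Qw_polar] at h2
      simp only [Pi.add_apply, mul_add, Finset.sum_add_distrib, Pi.single_apply, mul_ite, mul_one,
        mul_zero, Finset.sum_ite_eq', Finset.mem_univ, if_true] at h2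
      have : ∀ a b : ZMod 2, a + b = 0 → a = b := by decide
      exact this _ _ h2
    obtain ⟨hs, hl⟩ := (mem_W k).mp v.2
    rw [Fin.sum_univ_castSucc, hl, add_zero,
      Finset.sum_congr rfl fun i _ => hc _ (Fin.castSucc_lt_last i).ne] at hs
    have hodd : ((4 * k + 3 : ℕ) : ZMod 2) = 1 := by
      rw [← Nat.cast_one, ZMod.natCast_eq_natCast_iff']
      omega
    simp only [Finset.sum_const, Finset.card_univ, Fintype.card_fin, nsmul_eq_mul, hodd,
      one_mul] at hs
    refine Subtype.ext (funext fun i => ?_)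
    by_cases hi : i = Fin.last _
    · rw [hi, hl]; rfl
    · rw [hc i hi, hs]; rfl
  exact ⟨fun v hv => h v hv, fun v hv => h v fun u => by
    rw [QuadraticMap.polar_comm]; exact hv u⟩

theorem finrank_W : finrank (ZMod 2) (W k) = 4 * k + 2 := by
  classical
  let f : (Fin (4 * k + 4) → ZMod 2) →ₗ[ZMod 2] ZMod 2 × ZMod 2 :=
    (∑ i, LinearMap.proj i).prod (LinearMap.proj (Fin.last _))
  have hW : LinearMap.ker f = W k := LinearMap.ker_prod _ _
  have hsurj : Function.Surjective f := by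
    rintro ⟨a, b⟩
    refine ⟨Pi.single 0 (a - b) + Pi.single (Fin.last _) b, ?_⟩
    have h0 : (Fin.last (4 * k + 3)) ≠ 0 := by simp [Fin.ext_iff]
    refine Prod.ext ?_ ?_
    · simp [f, LinearMap.sum_apply, Finset.sum_add_distrib]
    · simp [f, h0]
  have h := LinearMap.finrank_range_add_finrank_ker f
  rw [hW, LinearMap.range_eq_top.mpr hsurj, finrank_top, Module.finrank_prod, Module.finrank_self,
    Module.finrank_fin_fun] at h
  omega

theorem gauss_pointwise (m : ℕ) : (4 * (if m % 4 = 0 then 1 else 0) : ℤ) =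
    1 + (-1) ^ m + 2 * ((⟨0, 1⟩ : GaussianInt) ^ m).re := by
  have h4 : ((⟨0, 1⟩ : GaussianInt) ^ 4) = 1 := by decide
  conv_rhs => rw [← Nat.div_add_mod m 4, pow_add, pow_add, pow_mul, pow_mul, h4,
    show ((-1 : ℤ) ^ 4) = 1 by norm_num, one_pow, one_pow, one_mul, one_mul]
  have h := Nat.mod_lt m (show 4 > 0 by norm_num)
  interval_cases m % 4 <;> decide

theorem four_mul_card (T : Finset (Fin (4 * k + 4))) (hT : T.card = 4 * k + 3) :
    (4 * (T.powerset.filter fun S => S.card % 4 = 0).card : ℤ) =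
      2 ^ (4 * k + 3) - 4 * (-4) ^ k := by
  have e : ∀ (R : Type) [CommRing R] (x : R),
      ∑ S ∈ T.powerset, x ^ S.card = (x + 1) ^ T.card := by
    intro R _ x
    rw [← Finset.sum_pow_mul_eq_add_pow]
    simp
  let re : GaussianInt →+ ℤ := AddMonoidHom.mk' (fun z => z.re) fun a b => Zsqrtd.re_add a b
  rw [Finset.natCast_card_filter, Finset.mul_sum]
  simp only [gauss_pointwise, Finset.sum_add_distrib, ← Finset.mul_sum]
  have h1 : ∑ S ∈ T.powerset, (1 : ℤ) = 2 ^ (4 * k + 3) := by simp [hT]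
  have h2 : ∑ S ∈ T.powerset, (-1 : ℤ) ^ S.card = 0 := by rw [e, hT]; simp
  have h3 : ∑ S ∈ T.powerset, ((⟨0, 1⟩ : GaussianInt) ^ S.card).re = -2 * (-4) ^ k := by
    show ∑ S ∈ T.powerset, re ((⟨0, 1⟩ : GaussianInt) ^ S.card) = _
    rw [← map_sum, e, hT, pow_add, pow_mul,
      show ((⟨0, 1⟩ : GaussianInt) + 1) ^ 4 = ((-4 : ℤ) : GaussianInt) by decide,
      show ((⟨0, 1⟩ : GaussianInt) + 1) ^ 3 = ⟨-2, 2⟩ by decide, ← Int.cast_pow]
    show ((((-4 : ℤ) ^ k : ℤ) : GaussianInt) * ⟨-2, 2⟩).re = _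
    rw [Zsqrtd.re_mul, Zsqrtd.re_intCast, Zsqrtd.im_intCast]; ring
  rw [h1, h2, h3]
  ring

theorem zeros_W : (4 * Nat.card {v : W k // Qw k v = 0} : ℤ) = 2 ^ (4 * k + 3) - 4 * (-4) ^ k := by
  classical
  set T : Finset (Fin (4 * k + 4)) := Finset.univ.erase (Fin.last _) with hT
  have hTc : T.card = 4 * k + 3 := by simp [hT]
  rw [← four_mul_card k T hTc]
  congr 2
  have hval : ∀ (v : Fin (4 * k + 4) → ZMod 2), wt v = (Finset.univ.filter fun i => v i = 1).card := by
    intro v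
    rw [wt, Finset.card_filter]
    refine Finset.sum_congr rfl fun i _ => ?_
    rcases smul_cases (v i) with h | h <;> rw [h] <;> decide
  rw [← Fintype.card_coe, ← Nat.card_eq_fintype_card]
  refine Nat.card_congr
    { toFun := fun v => ⟨Finset.univ.filter fun i => (v.1 : Fin (4 * k + 4) → ZMod 2) i = 1, ?_⟩
      invFun := fun S => ⟨⟨fun i => if i ∈ S.1 then 1 else 0, ?_⟩, ?_⟩
      left_inv := ?_
      right_inv := ?_ }
  · obtain ⟨hs, hl⟩ := (mem_W k).mp v.1.2
    rw [Finset.mem_filter, Finset.mem_powerset, ← hval]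
    refine ⟨fun i hi => ?_, ?_⟩
    · simp only [Finset.mem_filter] at hi
      simp only [hT, Finset.mem_erase, Finset.mem_univ, and_true]
      rintro rfl
      rw [hl] at hi
      exact zero_ne_one hi.2
    · have h2 := even_wt hs
      have h3 := v.2
      rw [Qw_apply, qf, ZMod.natCast_eq_zero_iff] at h3
      omega
  · obtain ⟨hS, hc⟩ := Finset.mem_filter.mp S.2
    rw [Finset.mem_powerset] at hS
    have hl : (Fin.last _ : Fin (4 * k + 4)) ∉ S.1 := fun h => by simpa [hT] using hS h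
    rw [mem_W]
    refine ⟨?_, by simp [hl]⟩
    simp only [Finset.sum_ite_mem, Finset.univ_inter, Finset.sum_const, nsmul_one,
      ZMod.natCast_eq_zero_iff]
    omega
  · have hc := (Finset.mem_filter.mp S.2).2
    rw [Qw_apply, qf, hval]
    simp only [ite_eq_left_iff, zero_ne_one, imp_false, not_not, Finset.filter_univ_mem,
      ZMod.natCast_eq_zero_iff]
    omega
  · intro v
    refine Subtype.ext (Subtype.ext (funext fun i => ?_))
    rcases smul_cases ((v.1 : Fin (4 * k + 4) → ZMod 2) i) with h | h <;> simp [h]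
  · intro S
    refine Subtype.ext ?_
    simp

/-- The projection to `W` along the all-one vector. -/
def proj : LinearMap.ker (∑ i, LinearMap.proj i : (Fin (4 * k + 4) → ZMod 2) →ₗ[ZMod 2] ZMod 2) →ₗ[ZMod 2]
    W k where
  toFun v := ⟨fun i => v.1 i + v.1 (Fin.last _), by
    have hv : ∑ i, v.1 i = 0 := by
      have h := LinearMap.mem_ker.mp v.2
      simp only [LinearMap.coe_sum, Finset.sum_apply, LinearMap.coe_proj, Function.eval] at h
      exact h
    rw [mem_W, Finset.sum_add_distrib, hv]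
    have h0 : ((4 * k + 4 : ℕ) : ZMod 2) = 0 := (ZMod.natCast_eq_zero_iff _ 2).mpr (by omega)
    refine ⟨by simp [h0], ?_⟩
    have : ∀ x : ZMod 2, x + x = 0 := by decide
    exact this _⟩
  map_add' u v := Subtype.ext (funext fun i => by simp; ring)
  map_smul' a v := Subtype.ext (funext fun i => by simp [mul_add])

theorem qf_proj (v) : Qw k (proj k v) = qf v.1 := by
  have hv : ∑ i, v.1 i = 0 := by
    have h := LinearMap.mem_ker.mp v.2
    simp only [LinearMap.coe_sum, Finset.sum_apply, LinearMap.coe_proj, Function.eval] at h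
    exact h
  have h0 : ((4 * k + 4 : ℕ) : ZMod 2) = 0 := (ZMod.natCast_eq_zero_iff _ 2).mpr (by omega)
  rw [Qw_apply]
  change qf (v.1 + fun _ => v.1 (Fin.last _)) = _
  rw [qf_add hv (by simp [h0])]
  rcases smul_cases (v.1 (Fin.last _)) with h | h
  · simp [h, qf, wt]
  · have h1 : qf (fun _ : Fin (4 * k + 4) => (1 : ZMod 2)) = 0 := by
      rw [qf, ZMod.natCast_eq_zero_iff, wt]
      simp [ZMod.val_one]
      omega
    simp [h, h1, hv]

theorem incl_mem (v : W k) : (v : Fin (4 * k + 4) → ZMod 2) ∈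
    LinearMap.ker (∑ i, LinearMap.proj i : (Fin (4 * k + 4) → ZMod 2) →ₗ[ZMod 2] ZMod 2) := by
  simpa [LinearMap.mem_ker] using ((mem_W k).mp v.2).1

/-- The action of a permutation. -/
def act (σ : Equiv.Perm (Fin (4 * k + 4))) : W k →ₗ[ZMod 2] W k :=
  (proj k).comp (LinearMap.codRestrict _
    ((LinearMap.funLeft (ZMod 2) (ZMod 2) (⇑σ⁻¹)).comp (W k).subtype) fun v => by
      have h := ((mem_W k).mp v.2).1
      simp only [LinearMap.mem_ker, LinearMap.coe_comp, Function.comp_apply, LinearMap.coe_sum,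
        Finset.sum_apply, LinearMap.coe_proj, Function.eval, LinearMap.funLeft_apply,
        Submodule.coe_subtype]
      exact (Equiv.sum_comp σ⁻¹ fun i => (v : Fin (4 * k + 4) → ZMod 2) i).trans h)

theorem act_apply (σ : Equiv.Perm (Fin (4 * k + 4))) (v : W k) (i : Fin (4 * k + 4)) :
    (act k σ v : Fin (4 * k + 4) → ZMod 2) i = (v : Fin (4 * k + 4) → ZMod 2) (σ⁻¹ i) +
      (v : Fin (4 * k + 4) → ZMod 2) (σ⁻¹ (Fin.last _)) := rfl

theorem act_one (v : W k) : act k 1 v = v := Subtype.ext (funext fun i => by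
  rw [act_apply]; simp [((mem_W k).mp v.2).2])

theorem act_mul (σ τ : Equiv.Perm (Fin (4 * k + 4))) (v : W k) :
    act k (σ * τ) v = act k σ (act k τ v) := Subtype.ext (funext fun i => by
  simp only [act_apply, mul_inv_rev, Equiv.Perm.mul_apply]
  have : ∀ x y z : ZMod 2, x + y = x + z + (y + z) := by decide
  exact this _ _ _)

/-- The action as automorphisms. -/
noncomputable def rho : Equiv.Perm (Fin (4 * k + 4)) →* (W k ≃ₗ[ZMod 2] W k) where
  toFun σ := LinearEquiv.ofLinear (act k σ) (act k σ⁻¹)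
    (LinearMap.ext fun v => by simp [← act_mul, act_one])
    (LinearMap.ext fun v => by simp [← act_mul, act_one])
  map_one' := LinearEquiv.ext fun v => act_one k v
  map_mul' σ τ := LinearEquiv.ext fun v => act_mul k σ τ v

theorem Qw_rho (σ : Equiv.Perm (Fin (4 * k + 4))) (v : W k) : Qw k (rho k σ v) = Qw k v := by
  change Qw k (proj k _) = _
  rw [qf_proj, Qw_apply, qf, qf]
  congr 2
  exact wt_comp_perm σ⁻¹ _

theorem rho_injective (hk : 1 ≤ k) : Function.Injective (rho k) := by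
  classical
  rw [injective_iff_map_eq_one]
  intro σ hσ
  have hv : ∀ (v : W k) i, (v : Fin (4 * k + 4) → ZMod 2) (σ⁻¹ i) +
      (v : Fin (4 * k + 4) → ZMod 2) (σ⁻¹ (Fin.last _)) = (v : Fin (4 * k + 4) → ZMod 2) i := by
    intro v i
    rw [← act_apply]
    exact congrFun (congrArg Subtype.val (LinearEquiv.congr_fun hσ v)) i
  have h2 : ∀ x : ZMod 2, x + x = 0 := by decide
  have hlast : σ⁻¹ (Fin.last _) = Fin.last _ := by
    by_contra hne
    -- a pair through `σ⁻¹ last` and a far point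
    have hcard : ({Fin.last _, σ⁻¹ (Fin.last _)} : Finset (Fin (4 * k + 4))).card ≤ 2 := Finset.card_le_two
    obtain ⟨b, hb⟩ : ∃ b, b ∉ ({Fin.last _, σ⁻¹ (Fin.last _)} : Finset (Fin (4 * k + 4))) := by
      by_contra h
      push Not at h
      have hle := Finset.card_le_card (s := Finset.univ) fun x _ => h x
      rw [Finset.card_univ, Fintype.card_fin] at hle
      omega
    simp only [Finset.mem_insert, Finset.mem_singleton, not_or] at hb
    set a := σ⁻¹ (Fin.last _)
    obtain ⟨c, hc⟩ : ∃ c, c ∉ ({Fin.last _, a, b, σ a, σ b} : Finset (Fin (4 * k + 4))) := by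
      by_contra h
      push Not at h
      have hle := Finset.card_le_card (s := Finset.univ) fun x _ => h x
      have h5 := Finset.card_le_five (a := Fin.last (4*k+3)) (b := a) (c := b) (d := σ a) (e := σ b)
      rw [Finset.card_univ, Fintype.card_fin] at hle
      omega
    simp only [Finset.mem_insert, Finset.mem_singleton, not_or] at hc
    have := hv ⟨_, pair_mem k (Ne.symm hb.2) hne hb.1⟩ c
    simp only [Pi.add_apply, Pi.single_apply] at this
    have ha' : σ⁻¹ c ≠ a := fun h => hc.2.2.2.1 (by rw [← h]; simp)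
    have hb' : σ⁻¹ c ≠ b := fun h => hc.2.2.2.2 (by rw [← h]; simp)
    rw [if_neg ha', if_neg hb', if_pos trivial, if_neg (Ne.symm hb.2), if_neg hc.2.1, if_neg hc.2.2.1] at this
    simp at this
  have key : ∀ (v : W k) i, (v : Fin (4 * k + 4) → ZMod 2) (σ⁻¹ i) = (v : Fin (4 * k + 4) → ZMod 2) i := by
    intro v i
    have := hv v i
    rwa [hlast, ((mem_W k).mp v.2).2, add_zero] at this
  refine inv_injective (Equiv.ext fun i => ?_)
  rw [inv_one, Equiv.Perm.one_apply]
  by_contra hne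
  have hi : i ≠ Fin.last _ := fun h => hne (h ▸ hlast)
  have hi' : σ⁻¹ i ≠ Fin.last _ := fun h => hi (σ⁻¹.injective (h.trans hlast.symm))
  obtain ⟨b, hb⟩ : ∃ b, b ∉ ({Fin.last _, i, σ⁻¹ i} : Finset (Fin (4 * k + 4))) := by
    by_contra h
    push Not at h
    have hle := Finset.card_le_card (s := Finset.univ) fun x _ => h x
    have h3 := Finset.card_le_three (a := Fin.last (4*k+3)) (b := i) (c := σ⁻¹ i)
    rw [Finset.card_univ, Fintype.card_fin] at hle
    omega
  simp only [Finset.mem_insert, Finset.mem_singleton, not_or] at hb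
  have := key ⟨_, pair_mem k (Ne.symm hb.2.1) hi hb.1⟩ i
  simp only [Pi.add_apply, Pi.single_apply] at this
  rw [if_neg hne, if_neg (Ne.symm hb.2.2), if_pos trivial, if_neg (Ne.symm hb.2.1)] at this
  simp at this

theorem transfer (hk : 1 ≤ k) {ι : Type} [Fintype ι] [DecidableEq ι] (f : (ι → ZMod 2) → ZMod 2)
    (g : W k ≃ₗ[ZMod 2] (ι → ZMod 2)) (hg : ∀ v, Qw k v = f (g v)) :
    ∃ φ : Equiv.Perm (Fin (4 * k + 4)) →* ↥(Cfsg.isometryGroup (ZMod 2) f), Function.Injective φ := by
  let c : (W k ≃ₗ[ZMod 2] W k) →* ((ι → ZMod 2) ≃ₗ[ZMod 2] (ι → ZMod 2)) :=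
    { toFun := fun e => g.symm.trans (e.trans g)
      map_one' := LinearEquiv.ext fun v => g.apply_symm_apply v
      map_mul' := fun a b => LinearEquiv.ext fun v => by simp }
  have hc : Function.Injective c := fun a b h => LinearEquiv.ext fun v => by
    have h' := LinearEquiv.congr_fun h (g v)
    simp [c] at h'
    exact h'
  refine ⟨((Forms.glEquiv ι (ZMod 2)).symm.toMonoidHom.comp (c.comp (rho k))).codRestrict _
    fun σ => ?_, ?_⟩
  · rw [Forms.mem_isometryGroup_iff]
    intro v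
    simp only [MonoidHom.coe_comp, MulEquiv.coe_toMonoidHom, Function.comp_apply,
      Forms.glEquiv_symm_mulVec]
    show f (g (rho k σ (g.symm v))) = f v
    rw [← hg, Qw_rho, hg, g.apply_symm_apply]
  · intro a b h
    exact rho_injective k hk (hc ((Forms.glEquiv ι (ZMod 2)).symm.injective (congrArg Subtype.val h)))

theorem classify : (∃ g : W k ≃ₗ[ZMod 2] (Fin (2 * k + 1) ⊕ Fin (2 * k + 1) → ZMod 2),
      ∀ v, Qw k v = Cfsg.quadFormPlus (2 * k + 1) (ZMod 2) (g v)) ∧ ¬ Even k ∨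
    (∃ g : W k ≃ₗ[ZMod 2] ((Fin (2 * k) ⊕ Fin (2 * k)) ⊕ Fin 2 → ZMod 2),
      ∀ v, Qw k v = Cfsg.quadFormMinus (2 * k) (ZMod 2) 1 1 (g v)) ∧ Even k := by
  obtain ⟨j, d, b, hd, hb⟩ := KnownB.exists_isWitt (Qw k) (Qw_nondeg k)
  have hdim : j + j + d = 4 * k + 2 := by
    simpa [finrank_W] using (finrank_eq_card_basis b).symm
  have hz := zeros_W k
  have hpow : ((-4 : ℤ)) ^ k = (-1) ^ k * 2 ^ (2 * k) := by
    rw [pow_mul, ← mul_pow]; norm_num
  have hpos : (0 : ℤ) < 2 ^ (2 * k) := by positivity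
  have e3 : (2 : ℤ) ^ (4 * k + 3) = 2 * 2 ^ (2 * (2 * k + 1)) := by ring
  have e1 : (2 : ℤ) ^ (2 * k + 1) = 2 * 2 ^ (2 * k) := by ring
  rw [hpow, e3] at hz
  obtain rfl | rfl : d = 0 ∨ d = 2 := by omega
  · obtain rfl : j = 2 * k + 1 := by omega
    obtain ⟨g, hg⟩ := KnownB.equiv_plus_of_isWitt b hb
    refine Or.inl ⟨⟨g, hg⟩, fun hev => ?_⟩
    have hcard : Nat.card {v : W k // Qw k v = 0} = KnownB.zPlus (2 * k + 1) :=
      Nat.card_congr (g.toEquiv.subtypeEquiv fun v => by rw [hg v]; rfl)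
    have h2 := KnownB.two_mul_zPlus (m := 2 * k + 1)
    zify at h2
    rw [hev.neg_one_pow, hcard] at hz
    linarith
  · obtain rfl : j = 2 * k := by omega
    obtain ⟨b', ζ, hb', hζ, e0, e01, e11⟩ := KnownB.exists_plane_normal (Qw k) (Qw_nondeg k) b hb
    obtain rfl : ζ = 1 := by
      rcases smul_cases ζ with rfl | rfl
      · exact absurd (by simp) (hζ 0)
      · rfl
    obtain ⟨g, hg⟩ := KnownB.equiv_minus_of_isWitt b' hb' e0 e01 e11
    refine Or.inr ⟨⟨g, hg⟩, ?_⟩
    by_contra hev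
    have hcard : Nat.card {v : W k // Qw k v = 0} = Nat.card {v : (Fin (2 * k + 1 - 1) ⊕ Fin (2 * k + 1 - 1)) ⊕ Fin 2 → ZMod 2 //
        Cfsg.quadFormMinus (2 * k + 1 - 1) (ZMod 2) 1 1 v = 0} :=
      Nat.card_congr (g.toEquiv.subtypeEquiv fun v => by rw [hg v]; rfl)
    have h2 := KnownB.two_mul_zMinus (m := 2 * k + 1) (by omega)
    zify at h2
    rw [(Nat.not_even_iff_odd.mp hev).neg_one_pow, hcard] at hz
    linarith


/-- For k ≥ 1 the symmetric group of degree 4k + 4 embeds in a full orthogonal group in dimension 4k + 2 over the field of two elements: in the isometry group of the plus-type form Σ xᵢyᵢ when k is odd, and in that of the minus-type form Σ xᵢyᵢ + (z₁² + z₁z₂ + z₂²) when k is even (through its action on even partitions of a (4k+4)-set, with the form 'half the size of a part, modulo 2'). -/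
theorem result (k : ℕ) (hk : 1 ≤ k) :
    (Odd k → ∃ φ : Equiv.Perm (Fin (4 * k + 4)) →* ↥(Cfsg.isometryGroup (ZMod 2) (Cfsg.quadFormPlus (2 * k + 1) (ZMod 2))), Function.Injective φ) ∧
    (Even k → ∃ φ : Equiv.Perm (Fin (4 * k + 4)) →* ↥(Cfsg.isometryGroup (ZMod 2) (Cfsg.quadFormMinus (2 * k) (ZMod 2) 1 1)), Function.Injective φ) := by
  rcases classify k with ⟨⟨g, hg⟩, h⟩ | ⟨⟨g, hg⟩, h⟩
  · exact ⟨fun _ => transfer k hk _ g hg, fun he => absurd he h⟩
  · exact ⟨fun ho => absurd h (Nat.not_even_iff_odd.mpr ho), fun _ => transfer k hk _ g hg⟩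

end Cfsg.Agent.S2563
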