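import Cfsg.Statements.S2564
import Cfsg.Agent.KnownB.BinaryForms

set_option autoImplicit false
open Cfsg

namespace Cfsg.Agent.S2564


/-- On the 2m-dimensional space over the field of two elements (m ≥ 1) let f be the alternating form obtained by polarizing the plus-type form Σ xᵢyᵢ, and let q be any quadratic form polarizing to f. For a vector w, the function q + f(·, w) again polarizes to f, and it is equivalent to q under an invertible linear map (that is, has the same type) if and only if q(w) = 0. -/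
theorem result (m : ℕ) (hm : 1 ≤ m) (q : (Fin m ⊕ Fin m → ZMod 2) → ZMod 2) (hq : (∀ u v : (Fin m ⊕ Fin m → ZMod 2), q (u + v) = q u + q v + (Cfsg.quadFormPlus m (ZMod 2) (u + v) - Cfsg.quadFormPlus m (ZMod 2) u - Cfsg.quadFormPlus m (ZMod 2) v))) (w : (Fin m ⊕ Fin m → ZMod 2)) :
    (∀ u v : (Fin m ⊕ Fin m → ZMod 2), (q (u + v) + (Cfsg.quadFormPlus m (ZMod 2) (u + v + w) - Cfsg.quadFormPlus m (ZMod 2) (u + v) - Cfsg.quadFormPlus m (ZMod 2) w)) =
        (q u + (Cfsg.quadFormPlus m (ZMod 2) (u + w) - Cfsg.quadFormPlus m (ZMod 2) u - Cfsg.quadFormPlus m (ZMod 2) w)) + (q v + (Cfsg.quadFormPlus m (ZMod 2) (v + w) - Cfsg.quadFormPlus m (ZMod 2) v - Cfsg.quadFormPlus m (ZMod 2) w)) +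
        (Cfsg.quadFormPlus m (ZMod 2) (u + v) - Cfsg.quadFormPlus m (ZMod 2) u - Cfsg.quadFormPlus m (ZMod 2) v)) ∧
    ((∃ g : (Fin m ⊕ Fin m → ZMod 2) ≃ₗ[ZMod 2] (Fin m ⊕ Fin m → ZMod 2), ∀ v, q v + (Cfsg.quadFormPlus m (ZMod 2) (v + w) - Cfsg.quadFormPlus m (ZMod 2) v - Cfsg.quadFormPlus m (ZMod 2) w) = q (g v)) ↔ q w = 0) := by
  obtain ⟨a, rfl⟩ := Cfsg.Agent.KnownB.exists_binForm hq
  have key : ∀ v, Cfsg.Agent.KnownB.binForm m a v + (Cfsg.quadFormPlus m (ZMod 2) (v + w) -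
      Cfsg.quadFormPlus m (ZMod 2) v - Cfsg.quadFormPlus m (ZMod 2) w) =
      Cfsg.Agent.KnownB.binForm m (a + w) v := by
    intro v
    simp only [Cfsg.Agent.KnownB.binForm, Cfsg.Agent.KnownB.polar_eq, map_add]
    rw [← add_assoc, ← Cfsg.Agent.KnownB.polar_eq v w]
    rfl
  refine ⟨fun u v => ?_, ?_⟩
  · simp only [key]
    exact Cfsg.Agent.KnownB.isBinForm_binForm (a + w) u v
  · simp only [key]
    rw [Cfsg.Agent.KnownB.binForm_equiv_iff hm, Cfsg.Agent.KnownB.binForm,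
      QuadraticMap.polar_comm, QuadraticMap.polar]
    constructor
    · intro h; linear_combination h
    · intro h; linear_combination h

end Cfsg.Agent.S2564
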