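import Cfsg.Statements.S2565
import Cfsg.Agent.Linear.POmega6Plus
import Cfsg.Agent.Linear.IsoA8
import Cfsg.Agent.Forms.OrthGen
import Cfsg.Agent.Forms.QuadOrder
-- import your own Cfsg.Agent.* helpers here

set_option autoImplicit false
open Cfsg

namespace Cfsg.Agent.S2565

/-- The commutator subgroup of the full orthogonal group of the plus-type form Σ xᵢyᵢ in dimension 6 over the field of two elements (the group Ω⁺₆(2), of index 2) is isomorphic to the alternating group of degree 8. -/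
theorem result :
    (Cfsg.Omega (ZMod 2) (Cfsg.quadFormPlus 3 (ZMod 2))).index = 2 ∧
    Nonempty (↥(Cfsg.Omega (ZMod 2) (Cfsg.quadFormPlus 3 (ZMod 2))) ≃* alternatingGroup (Fin 8)) := by
  classical
  have hQ := Cfsg.Agent.Forms.qPlus_nondegenerate (m := 3) (F := ZMod 2)
  have hcoe := Cfsg.Agent.Forms.coe_qPlus 3 (ZMod 2)
  have hd : Module.finrank (ZMod 2) (Fin 3 ⊕ Fin 3 → ZMod 2) = 6 := by simp
  have hidx : (Cfsg.Omega (ZMod 2) (Cfsg.quadFormPlus 3 (ZMod 2))).index = 2 := by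
    rw [← hcoe, Cfsg.Agent.Forms.omega_index]
    exact (Cfsg.Agent.Forms.commutator_index_two (by decide) hQ (Or.inr (by omega)) (by omega)).1
  refine ⟨hidx, ?_⟩
  obtain ⟨i⟩ := Cfsg.Agent.Linear.pomega_six_plus (F := ZMod 2)
  obtain ⟨j⟩ := Cfsg.Agent.Linear.PSL4_two_iso (F := ZMod 2) (ZMod.card 2)
  set O := Cfsg.Omega (ZMod 2) (Cfsg.quadFormPlus 3 (ZMod 2)) with hO
  have hcard : Nat.card (↥O ⧸ Subgroup.center ↥O) = 20160 := by
    rw [Nat.card_congr (i.trans j).toEquiv, nat_card_alternatingGroup]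
    simp [Nat.factorial]
  have hI : Nat.card ↥(Cfsg.isometryGroup (ZMod 2) (Cfsg.quadFormPlus 3 (ZMod 2))) = 40320 := by
    rw [Cfsg.Agent.Forms.card_isometryGroup_plus 3 (ZMod.card 2) (by norm_num)]
    decide
  have h1 := O.index_mul_card
  rw [hidx, hI, Subgroup.card_eq_card_quotient_mul_card_subgroup (Subgroup.center ↥O), hcard] at h1
  have hbot : Subgroup.center ↥O = ⊥ := Subgroup.eq_bot_of_card_eq _ (by omega)
  exact ⟨((QuotientGroup.quotientMulEquivOfEq hbot).trans QuotientGroup.quotientBot).symm.trans (i.trans j)⟩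

end Cfsg.Agent.S2565
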