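import Cfsg.Statements.S2566
import Cfsg.Agent.Forms.Models
import Cfsg.Agent.Forms.QuadOrder

set_option autoImplicit false
open Cfsg

namespace Cfsg.Agent.S2566
open Matrix Cfsg.Agent

abbrev S3 := Equiv.Perm (Fin 3)

/-- The two-dimensional representation. -/
def m2 (σ : S3) : Matrix (Fin 2) (Fin 2) (ZMod 2) :=
  fun i j => (if σ j.castSucc = i.castSucc then 1 else 0) + (if σ 2 = i.castSucc then 1 else 0)

/-- The coordinates as positions in a two-by-two matrix. -/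
def pos : Fin 2 ⊕ Fin 2 → Fin 2 × Fin 2
  | Sum.inl 0 => (0, 0)
  | Sum.inl 1 => (0, 1)
  | Sum.inr 0 => (1, 1)
  | Sum.inr 1 => (1, 0)

/-- Left multiplication. -/
def lM (σ : S3) : Matrix (Fin 2 ⊕ Fin 2) (Fin 2 ⊕ Fin 2) (ZMod 2) :=
  fun i j => if (pos i).2 = (pos j).2 then m2 σ (pos i).1 (pos j).1 else 0

/-- Right multiplication. -/
def rM (σ : S3) : Matrix (Fin 2 ⊕ Fin 2) (Fin 2 ⊕ Fin 2) (ZMod 2) :=
  fun i j => if (pos i).1 = (pos j).1 then m2 σ (pos i).2 (pos j).2 else 0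

/-- Transposition. -/
def tM : Matrix (Fin 2 ⊕ Fin 2) (Fin 2 ⊕ Fin 2) (ZMod 2) :=
  fun i j => if pos i = ((pos j).2, (pos j).1) then 1 else 0

set_option maxRecDepth 100000
set_option maxHeartbeats 4000000

theorem lM_one : lM 1 = 1 := by decide +kernel
theorem rM_one : rM 1 = 1 := by decide +kernel
theorem lM_mul : ∀ σ τ, lM (σ * τ) = lM σ * lM τ := by decide +kernel
theorem rM_mul : ∀ σ τ, rM (σ * τ) = rM σ * rM τ := by decide +kernel
theorem lM_rM : ∀ σ τ, lM σ * rM τ = rM τ * lM σ := by decide +kernel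
theorem lM_eq_rM : ∀ σ τ, lM σ = rM τ → σ = 1 ∧ τ = 1 := by decide +kernel
theorem lM_inj : ∀ σ, lM σ = 1 → σ = 1 := by decide +kernel
theorem rM_inj : ∀ σ, rM σ = 1 → σ = 1 := by decide +kernel
theorem tM_sq : tM * tM = 1 := by decide +kernel
theorem tM_conj : ∀ σ, tM * lM σ * tM = rM σ := by decide +kernel
theorem lM_iso : ∀ σ v, Cfsg.quadFormPlus 2 (ZMod 2) (lM σ *ᵥ v) =
    Cfsg.quadFormPlus 2 (ZMod 2) v := by decide +kernel
theorem rM_iso : ∀ σ v, Cfsg.quadFormPlus 2 (ZMod 2) (rM σ *ᵥ v) =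
    Cfsg.quadFormPlus 2 (ZMod 2) v := by decide +kernel
theorem tM_iso : ∀ v, Cfsg.quadFormPlus 2 (ZMod 2) (tM *ᵥ v) =
    Cfsg.quadFormPlus 2 (ZMod 2) v := by decide +kernel

abbrev O4 := ↥(Cfsg.isometryGroup (ZMod 2) (Cfsg.quadFormPlus 2 (ZMod 2)))

/-- A matrix representation as a hom into the orthogonal group. -/
def toO4 (f : S3 → Matrix (Fin 2 ⊕ Fin 2) (Fin 2 ⊕ Fin 2) (ZMod 2)) (h1 : f 1 = 1)
    (hm : ∀ σ τ, f (σ * τ) = f σ * f τ)
    (hi : ∀ σ v, Cfsg.quadFormPlus 2 (ZMod 2) (f σ *ᵥ v) = Cfsg.quadFormPlus 2 (ZMod 2) v) :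
    S3 →* O4 :=
  (MonoidHom.toHomUnits { toFun := f, map_one' := h1, map_mul' := hm }).codRestrict _
    fun σ => by
      rw [Forms.mem_isometryGroup_iff]
      exact hi σ

@[simp] theorem toO4_val (f h1 hm hi) (σ : S3) :
    ((toO4 f h1 hm hi σ : O4).1 : Matrix (Fin 2 ⊕ Fin 2) (Fin 2 ⊕ Fin 2) (ZMod 2)) = f σ := rfl

theorem o4_ext {a b : O4}
    (h : (a.1 : Matrix (Fin 2 ⊕ Fin 2) (Fin 2 ⊕ Fin 2) (ZMod 2)) = b.1) : a = b :=
  Subtype.ext (Units.ext h)

theorem o4_val {a b : O4} (h : a = b) :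
    (a.1 : Matrix (Fin 2 ⊕ Fin 2) (Fin 2 ⊕ Fin 2) (ZMod 2)) = b.1 := h ▸ rfl

/-- Transposition as an element. -/
def tEl : O4 :=
  ⟨⟨tM, tM, tM_sq, tM_sq⟩, by rw [Forms.mem_isometryGroup_iff]; exact tM_iso⟩

theorem main : Nat.card O4 = 72 ∧
    ∃ (A B : Subgroup O4),
      Nonempty (↥A ≃* S3) ∧ Nonempty (↥B ≃* S3) ∧ A ⊓ B = ⊥ ∧ (∀ a ∈ A, ∀ b ∈ B, a * b = b * a) ∧
      (A ⊔ B).index = 2 ∧ ∃ g : O4, A.map (MulAut.conj g).toMonoidHom = B := by
  have hG : Nat.card O4 = 72 := by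
    rw [Forms.card_isometryGroup_plus 2 (ZMod.card 2) (by norm_num)]
    decide
  set L := toO4 lM lM_one lM_mul lM_iso
  set R := toO4 rM rM_one rM_mul rM_iso
  have hL : Function.Injective L := (injective_iff_map_eq_one L).2 fun σ h =>
    lM_inj σ (o4_val h)
  have hR : Function.Injective R := (injective_iff_map_eq_one R).2 fun σ h =>
    rM_inj σ (o4_val h)
  have hcomm : ∀ σ τ, Commute (L σ) (R τ) := fun σ τ => o4_ext (lM_rM σ τ)
  have hdis : L.range ⊓ R.range = ⊥ := by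
    rw [eq_bot_iff]
    rintro _ ⟨⟨σ, rfl⟩, τ, hτ⟩
    have h := lM_eq_rM σ τ (o4_val hτ).symm
    rw [h.1, map_one]; exact one_mem _
  refine ⟨hG, L.range, R.range, ⟨(MonoidHom.ofInjective hL).symm⟩,
    ⟨(MonoidHom.ofInjective hR).symm⟩, hdis, ?_, ?_, tEl, ?_⟩
  · rintro _ ⟨σ, rfl⟩ _ ⟨τ, rfl⟩
    exact hcomm σ τ
  · have hP : Function.Injective (L.noncommCoprod R hcomm) :=
      (L.noncommCoprod_injective R hcomm).2 ⟨hL, hR, disjoint_iff.mpr hdis⟩
    have h := (L.range ⊔ R.range).card_mul_index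
    rw [← MonoidHom.noncommCoprod_range (comm := hcomm), hG,
      Nat.card_congr (MonoidHom.ofInjective hP).toEquiv.symm, Nat.card_prod,
      Nat.card_perm, Nat.card_fin] at h
    rw [← MonoidHom.noncommCoprod_range (comm := hcomm)]
    norm_num [Nat.factorial] at h
    omega
  · rw [MonoidHom.map_range]
    refine congrArg MonoidHom.range (MonoidHom.ext fun σ => o4_ext ?_)
    exact tM_conj σ


/-- The full orthogonal group of the plus-type form x₁y₁ + x₂y₂ in dimension 4 over the field of two elements has order 72 and is isomorphic to the wreath product of the symmetric group of degree 3 by a group of order 2: it has a normal subgroup isomorphic to the direct product of two symmetric groups of degree 3, of index 2, whose two direct factors are interchanged by conjugation by some element. -/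
theorem result :
    Nat.card ↥(Cfsg.isometryGroup (ZMod 2) (Cfsg.quadFormPlus 2 (ZMod 2))) = 72 ∧
    ∃ (A B : Subgroup ↥(Cfsg.isometryGroup (ZMod 2) (Cfsg.quadFormPlus 2 (ZMod 2)))),
      Nonempty (↥A ≃* Equiv.Perm (Fin 3)) ∧ Nonempty (↥B ≃* Equiv.Perm (Fin 3)) ∧ A ⊓ B = ⊥ ∧ (∀ a ∈ A, ∀ b ∈ B, a * b = b * a) ∧
      (A ⊔ B).index = 2 ∧ ∃ g : ↥(Cfsg.isometryGroup (ZMod 2) (Cfsg.quadFormPlus 2 (ZMod 2))), A.map (MulAut.conj g).toMonoidHom = B := by
  exact main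

end Cfsg.Agent.S2566
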