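import Cfsg.Statements.S2567


set_option autoImplicit false
open Cfsg

namespace Cfsg.Agent.S2567
theorem inv_mul_rev_aux {G : Type*} [Group G] (g v : G) : (g * v)⁻¹ * g = v⁻¹ := by group


/-- Lifting elements of prime order from PGL to GL: let F be a finite field with q elements, r a prime not dividing q − 1, and x an element of order r in GL_n(F) modulo its centre (the scalar matrices). Then x has exactly one preimage in GL_n(F) of order r. -/
theorem result {F : Type*} [Field F] [Fintype F] {q n r : ℕ} (hF : Fintype.card F = q) (hr : r.Prime) (hdiv : ¬ r ∣ q - 1) (x : GL (Fin n) F ⧸ Subgroup.center (GL (Fin n) F)) (hx : orderOf x = r) : ∃! g : GL (Fin n) F, (QuotientGroup.mk g : GL (Fin n) F ⧸ Subgroup.center (GL (Fin n) F)) = x ∧ orderOf g = r := by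
  classical
  have hn : 0 < n := by
    by_contra h0
    have : n = 0 := by omega
    subst this
    haveI : Subsingleton (GL (Fin 0) F) := ⟨fun a b => Units.ext (Subsingleton.elim _ _)⟩
    obtain ⟨g, rfl⟩ := QuotientGroup.mk_surjective x
    rw [Subsingleton.elim g 1, QuotientGroup.mk_one, orderOf_one] at hx
    exact hr.one_lt.ne hx
  haveI : Nonempty (Fin n) := ⟨⟨0, hn⟩⟩
  have hcop : (Nat.card Fˣ).Coprime r := by
    rw [Nat.card_units, Nat.card_eq_fintype_card, hF]
    exact Nat.Coprime.symm (hr.coprime_iff_not_dvd.mpr hdiv)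
  obtain ⟨g, rfl⟩ := QuotientGroup.mk_surjective x
  have hc : g ^ r ∈ Subgroup.center (GL (Fin n) F) := by
    rw [← QuotientGroup.eq_one_iff, QuotientGroup.mk_pow, ← hx, pow_orderOf_eq_one]
  rw [Matrix.GeneralLinearGroup.center_eq_range_scalar] at hc
  obtain ⟨c, hc⟩ := hc
  obtain ⟨u, hu⟩ := (powCoprime hcop).surjective c⁻¹
  simp only [powCoprime_apply] at hu
  have hcen : ∀ v : Fˣ, Matrix.GeneralLinearGroup.scalar (Fin n) v ∈
      Subgroup.center (GL (Fin n) F) := fun v => by
    rw [Matrix.GeneralLinearGroup.center_eq_range_scalar]; exact ⟨v, rfl⟩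
  have hord : ∀ h : GL (Fin n) F, h ^ r = 1 →
      (QuotientGroup.mk h : GL (Fin n) F ⧸ Subgroup.center (GL (Fin n) F)) = QuotientGroup.mk g →
      orderOf h = r := by
    intro h h1 h2
    haveI := Fact.mk hr
    refine orderOf_eq_prime h1 fun h3 => hr.one_lt.ne ?_
    rw [← h2, h3, QuotientGroup.mk_one, orderOf_one] at hx
    exact hx
  have hmk : ∀ v : Fˣ, (QuotientGroup.mk (g * Matrix.GeneralLinearGroup.scalar (Fin n) v) :
      GL (Fin n) F ⧸ Subgroup.center (GL (Fin n) F)) = QuotientGroup.mk g := fun v => by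
    rw [QuotientGroup.eq, inv_mul_rev_aux]
    exact Subgroup.inv_mem _ (hcen v)
  have hpow : ∀ v : Fˣ, (g * Matrix.GeneralLinearGroup.scalar (Fin n) v) ^ r =
      Matrix.GeneralLinearGroup.scalar (Fin n) (c * v ^ r) := fun v => by
    rw [(show Commute g (Matrix.GeneralLinearGroup.scalar (Fin n) v) from
      Subgroup.mem_center_iff.mp (hcen v) g).mul_pow, ← hc, map_mul, map_pow]
  refine ⟨g * Matrix.GeneralLinearGroup.scalar (Fin n) u, ⟨hmk u, hord _ ?_ (hmk u)⟩, ?_⟩
  · rw [hpow, hu, mul_inv_cancel, map_one]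
  rintro h ⟨h1, h2⟩
  have h3 := (QuotientGroup.eq.mp h1.symm)
  rw [Matrix.GeneralLinearGroup.center_eq_range_scalar] at h3
  obtain ⟨v, hv⟩ := h3
  have h4 : h = g * Matrix.GeneralLinearGroup.scalar (Fin n) v := by
    rw [hv, mul_inv_cancel_left]
  have h5 : Matrix.GeneralLinearGroup.scalar (Fin n) (c * v ^ r) = 1 := by
    rw [← hpow, ← h4, ← h2, pow_orderOf_eq_one]
  have h6 : c * v ^ r = 1 := by
    obtain ⟨i⟩ := ‹Nonempty (Fin n)›
    have := congrArg (fun M : GL (Fin n) F => M.val i i) h5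
    exact Units.ext (by simpa [Matrix.GeneralLinearGroup.coe_scalar, Matrix.diagonal_pow] using this)
  rw [h4, (powCoprime hcop).injective (a₁ := v) (a₂ := u)]
  simp only [powCoprime_apply, hu]
  exact eq_inv_of_mul_eq_one_right h6

end Cfsg.Agent.S2567
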