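import Cfsg.Statements.S2569
import Cfsg.Agent.KnownB.LinMod2

set_option autoImplicit false
open Cfsg

namespace Cfsg.Agent.S2569


/-- In GL_n over a finite field of characteristic p, the conjugacy class of a semisimple element (an element of order prime to p) under the special linear group is its whole GL-conjugacy class: for every such x and every invertible g there is h of determinant one with h x h⁻¹ = g x g⁻¹. -/
theorem result {F : Type*} [Field F] [Fintype F] {p : ℕ} [Fact p.Prime] [CharP F p] {n : ℕ} (x g : GL (Fin n) F) (hx : (orderOf x).Coprime p) : ∃ h : GL (Fin n) F, (h : Matrix (Fin n) (Fin n) F).det = 1 ∧ h * x * h⁻¹ = g * x * g⁻¹ := by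
  classical
  rcases Nat.eq_zero_or_pos n with rfl | hn
  · exact ⟨g, Matrix.det_isEmpty, rfl⟩
  have : NeZero n := ⟨hn.ne'⟩
  set A : Matrix (Fin n) (Fin n) F := (x : Matrix (Fin n) (Fin n) F) with hA
  have hN : A ^ orderOf x = 1 := by
    rw [hA, ← Units.val_pow_eq_pow_val, pow_orderOf_eq_one]; rfl
  have hco : ((orderOf x : ℕ) : F) ≠ 0 := by
    intro h
    rw [CharP.cast_eq_zero_iff F p] at h
    exact (Fact.out : p.Prime).one_lt.ne' (Nat.eq_one_of_dvd_coprimes hx h dvd_rfl)
  have hsq : Squarefree ((Polynomial.X : Polynomial F) ^ orderOf x - Polynomial.C 1) :=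
    (Polynomial.separable_X_pow_sub_C 1 hco one_ne_zero).squarefree
  have hss : Module.End.IsSemisimple (Matrix.toLinAlgEquiv' A) := by
    refine Module.End.isSemisimple_of_squarefree_aeval_eq_zero hsq ?_
    rw [Polynomial.aeval_algHom_apply, map_sub, map_pow, Polynomial.aeval_X, hN, map_one]
    simp
  obtain ⟨C, hC, hCA⟩ := Cfsg.Agent.KnownB.exists_det_commute (Matrix.toLinAlgEquiv' A) hss
    (a := (g : Matrix (Fin n) (Fin n) F).det⁻¹) (inv_ne_zero (Matrix.GeneralLinearGroup.det_ne_zero g))
  have hdC : (LinearMap.toMatrix' C).det ≠ 0 := by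
    rw [LinearMap.det_toMatrix', hC]
    exact inv_ne_zero (Matrix.GeneralLinearGroup.det_ne_zero g)
  let c : GL (Fin n) F := Matrix.GeneralLinearGroup.mkOfDetNeZero (LinearMap.toMatrix' C) hdC
  have hcx : c * x = x * c := by
    refine Units.ext ?_
    have h := congrArg LinearMap.toMatrix' hCA
    rwa [LinearMap.toMatrix'_mul, LinearMap.toMatrix'_mul,
      show LinearMap.toMatrix' (Matrix.toLinAlgEquiv' A) = A from LinearMap.toMatrix'_toLin' A] at h
  refine ⟨g * c, ?_, ?_⟩
  · show ((g : Matrix (Fin n) (Fin n) F) * LinearMap.toMatrix' C).det = 1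
    rw [Matrix.det_mul, LinearMap.det_toMatrix', hC,
      mul_inv_cancel₀ (Matrix.GeneralLinearGroup.det_ne_zero g)]
  · rw [mul_inv_rev, mul_assoc g c x, hcx]
    group

end Cfsg.Agent.S2569
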