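import Cfsg.Statements.S2571
import Cfsg.Agent.KnownB.NilChain

set_option autoImplicit false
open Cfsg

namespace Cfsg.Agent.S2571
open Cfsg.Agent


/-- Centraliser of a regular unipotent element in GL_n(q): if u is an invertible n × n matrix over the field with q elements, n ≥ 1, with (u − 1)^n = 0 and rank(u − 1) = n − 1 (a single unipotent Jordan block), then its centraliser in GL_n(q) has order (q − 1) q^(n−1). -/
theorem result {F : Type*} [Field F] [Fintype F] {q n : ℕ} (hF : Fintype.card F = q) (hn : 1 ≤ n) (u : GL (Fin n) F) (hnil : ((u : Matrix (Fin n) (Fin n) F) - 1) ^ n = 0) (hreg : ((u : Matrix (Fin n) (Fin n) F) - 1).rank = n - 1) : Nat.card ↥(Subgroup.centralizer ({u} : Set (GL (Fin n) F))) = (q - 1) * q ^ (n - 1) := by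
  classical
  let E : Matrix (Fin n) (Fin n) F ≃ₐ[F] Module.End F (Fin n → F) := Matrix.toLinAlgEquiv'
  set N : Module.End F (Fin n → F) := E ((u : Matrix (Fin n) (Fin n) F) - 1) with hN
  have hfin : Module.finrank F (Fin n → F) = n := Module.finrank_fin_fun F
  have hnil' : N ^ n = 0 := by rw [hN, ← map_pow, hnil, map_zero]
  have h1 : Module.finrank F (LinearMap.ker N) ≤ 1 := by
    have h := LinearMap.finrank_range_add_finrank_ker
      (Matrix.mulVecLin ((u : Matrix (Fin n) (Fin n) F) - 1))
    rw [show Module.finrank F (LinearMap.range (Matrix.mulVecLin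
      ((u : Matrix (Fin n) (Fin n) F) - 1))) = n - 1 from hreg, hfin] at h
    have h2 : Module.finrank F (LinearMap.ker N) = Module.finrank F (LinearMap.ker
      (Matrix.mulVecLin ((u : Matrix (Fin n) (Fin n) F) - 1))) := rfl
    omega
  have hker := KnownB.finrank_ker_pow N hfin hnil' h1 (show n - 1 ≤ n by omega)
  obtain ⟨v, hv⟩ : ∃ v, (N ^ (n - 1)) v ≠ 0 := by
    by_contra h
    push Not at h
    have : LinearMap.ker (N ^ (n - 1)) = ⊤ := LinearMap.ker_eq_top.mpr (LinearMap.ext h)
    rw [this, finrank_top, hfin] at hker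
    omega
  obtain ⟨b, hb⟩ := KnownB.exists_pow_basis N hfin hnil' hv
  set C := Subgroup.centralizer ({u} : Set (GL (Fin n) F))
  have hCN : ∀ g : C, Commute (E (g.1 : Matrix (Fin n) (Fin n) F)) N := by
    intro g
    have h2 := congrArg Units.val (Subgroup.mem_centralizer_singleton_iff.mp g.2)
    exact (Commute.sub_right (show Commute (g.1 : Matrix (Fin n) (Fin n) F)
      (u : Matrix (Fin n) (Fin n) F) from h2) (Commute.one_right _)).map E
  have happ : ∀ (g : C) (k : ℕ) (x : Fin n → F),
      E (g.1 : Matrix (Fin n) (Fin n) F) ((N ^ k) x) =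
        (N ^ k) (E (g.1 : Matrix (Fin n) (Fin n) F) x) := fun g k x =>
    LinearMap.congr_fun ((hCN g).pow_right k).eq x
  let Φ : C → {w : Fin n → F // (N ^ (n - 1)) w ≠ 0} := fun g =>
    ⟨E (g.1 : Matrix (Fin n) (Fin n) F) v, fun h => by
      rw [← happ] at h
      apply hv
      have h2 := congrArg (E ((g.1⁻¹ : GL (Fin n) F) : Matrix (Fin n) (Fin n) F)) h
      rwa [map_zero, ← Module.End.mul_apply, ← map_mul, ← Units.val_mul, inv_mul_cancel,
        Units.val_one, map_one, Module.End.one_apply] at h2⟩
  have hΦ : Function.Bijective Φ := by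
    constructor
    · intro g g' h
      have h2 : E (g.1 : Matrix (Fin n) (Fin n) F) v = E (g'.1 : Matrix (Fin n) (Fin n) F) v :=
        congrArg Subtype.val h
      apply Subtype.ext
      apply Units.ext
      apply E.injective
      exact b.ext fun i => by rw [hb, happ, happ, h2]
    · rintro ⟨w, hw⟩
      obtain ⟨b', hb'⟩ := KnownB.exists_pow_basis N hfin hnil' hw
      let e := b.equiv b' (Equiv.refl _)
      have he : Commute e.toLinearMap N := by
        refine b.ext fun i => ?_
        rw [Module.End.mul_apply, Module.End.mul_apply, hb]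
        show e (N ((N ^ (i : ℕ)) v)) = N (e ((N ^ (i : ℕ)) v))
        rw [← hb, show e (b i) = b' i from b.equiv_apply i b' (Equiv.refl _), hb, hb',
          ← Module.End.mul_apply, ← pow_succ', ← Module.End.mul_apply, ← pow_succ']
        by_cases hi : (i : ℕ) + 1 < n
        · rw [← hb' ⟨(i : ℕ) + 1, hi⟩, ← hb ⟨(i : ℕ) + 1, hi⟩]
          exact b.equiv_apply _ b' (Equiv.refl _)
        · have := i.2
          rw [show (i : ℕ) + 1 = n by omega, hnil', LinearMap.zero_apply, map_zero,
            LinearMap.zero_apply]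
      let P : GL (Fin n) F :=
        ⟨E.symm e.toLinearMap, E.symm e.symm.toLinearMap,
          by rw [← map_mul, ← map_one E.symm]; congr 1; exact LinearMap.ext fun x => by simp,
          by rw [← map_mul, ← map_one E.symm]; congr 1; exact LinearMap.ext fun x => by simp⟩
      have hP : P ∈ C := by
        rw [Subgroup.mem_centralizer_singleton_iff]
        apply Units.ext
        apply E.injective
        show E (E.symm e.toLinearMap * _) = E (_ * E.symm e.toLinearMap)
        rw [map_mul, map_mul, AlgEquiv.apply_symm_apply]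
        have hu : E (u : Matrix (Fin n) (Fin n) F) = N + 1 := by rw [hN, map_sub, map_one, sub_add_cancel]
        rw [hu]
        exact (he.add_right (Commute.one_right _)).eq
      refine ⟨⟨P, hP⟩, Subtype.ext ?_⟩
      show E (E.symm e.toLinearMap) v = w
      rw [AlgEquiv.apply_symm_apply]
      have h0 := b.equiv_apply ⟨0, by omega⟩ b' (Equiv.refl _)
      rw [hb] at h0
      simpa [hb'] using h0
  rw [Nat.card_congr (Equiv.ofBijective Φ hΦ)]
  have hsub : Nat.card {w : Fin n → F // (N ^ (n - 1)) w ≠ 0} =
      Nat.card (Fin n → F) - Nat.card (LinearMap.ker (N ^ (n - 1))) := by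
    rw [Nat.card_eq_fintype_card, Fintype.card_subtype_compl, Nat.card_eq_fintype_card,
      Nat.card_eq_fintype_card]
    congr 1
    exact Fintype.card_congr (Equiv.refl _)
  rw [hsub, Nat.card_eq_fintype_card, Fintype.card_fun, Fintype.card_fin, hF,
    Nat.card_eq_fintype_card, Module.card_eq_pow_finrank (K := F), hker, hF]
  obtain ⟨k, rfl⟩ : ∃ k, n = k + 1 := ⟨n - 1, by omega⟩
  rw [Nat.sub_one_mul, pow_succ', Nat.add_sub_cancel]

end Cfsg.Agent.S2571
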