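import Cfsg.Statements.S2573
import Cfsg.Agent.KnownB.NilChain

set_option autoImplicit false
open Cfsg

namespace Cfsg.Agent.S2573
open Cfsg.Agent


/-- The invariant subspaces of a regular unipotent matrix form a chain: over a finite field, if u is an n × n matrix with (u − 1)^n = 0 and rank(u − 1) = n − 1, then every subspace W of F^n with u W ⊆ W is the kernel of (u − 1)^(dim W); so u has at most one invariant subspace of each dimension. -/
theorem result {F : Type*} [Field F] [Finite F] {n : ℕ} (u : Matrix (Fin n) (Fin n) F) (hnil : (u - 1) ^ n = 0) (hreg : (u - 1).rank = n - 1) (W : Submodule F (Fin n → F)) (hW : ∀ v ∈ W, u.mulVec v ∈ W) : W = LinearMap.ker (Matrix.mulVecLin ((u - 1) ^ Module.finrank F W)) := by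
  have hN : Matrix.toLinAlgEquiv' (u - 1) = Matrix.mulVecLin (u - 1) := rfl
  have hpow : ∀ k, Matrix.mulVecLin ((u - 1) ^ k) = (Matrix.toLinAlgEquiv' (u - 1)) ^ k := by
    intro k
    rw [← map_pow]; rfl
  rw [hpow]
  refine KnownB.eq_ker_pow _ (Module.finrank_fin_fun F) (by rw [← map_pow, hnil, map_zero]) ?_ W
    fun v hv => ?_
  · have h := LinearMap.finrank_range_add_finrank_ker (Matrix.mulVecLin (u - 1))
    rw [show Module.finrank F (LinearMap.range (Matrix.mulVecLin (u - 1))) = n - 1 from hreg,
      Module.finrank_fin_fun] at h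
    rw [hN]
    omega
  · show (u - 1).mulVec v ∈ W
    rw [Matrix.sub_mulVec, Matrix.one_mulVec]
    exact sub_mem (hW v hv) hv

end Cfsg.Agent.S2573
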