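import Cfsg.Statements.S2574
import Cfsg.Agent.KnownB.NilChain
import Cfsg.Agent.Forms.Models

set_option autoImplicit false
open Cfsg

namespace Cfsg.Agent.S2574
open Cfsg.Agent


/-- A regular unipotent element of the symplectic group has totally isotropic small invariant subspaces: over a finite field, if u ∈ Sp_2m(F) satisfies (u − 1)^(2m) = 0 and rank(u − 1) = 2m − 1, and W is a u-invariant subspace with 2 dim W ≤ 2m, then the alternating form vanishes identically on W. -/
theorem result {F : Type*} [Field F] [Finite F] {m : ℕ} (u : Matrix.symplecticGroup (Fin m) F) (hnil : ((u : Matrix (Fin m ⊕ Fin m) (Fin m ⊕ Fin m) F) - 1) ^ (2 * m) = 0) (hreg : ((u : Matrix (Fin m ⊕ Fin m) (Fin m ⊕ Fin m) F) - 1).rank = 2 * m - 1) (W : Submodule F (Fin m ⊕ Fin m → F)) (hW : ∀ v ∈ W, (u : Matrix (Fin m ⊕ Fin m) (Fin m ⊕ Fin m) F).mulVec v ∈ W) (hdim : 2 * Module.finrank F W ≤ 2 * m) : ∀ v ∈ W, ∀ w ∈ W, Cfsg.sympForm m F v w = 0 := by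
  set U : Matrix (Fin m ⊕ Fin m) (Fin m ⊕ Fin m) F := (u : Matrix (Fin m ⊕ Fin m) (Fin m ⊕ Fin m) F) with hU
  set N := Matrix.toLinAlgEquiv' (U - 1) with hNdef
  have hn : Module.finrank F (Fin m ⊕ Fin m → F) = 2 * m := by
    rw [Module.finrank_pi, Fintype.card_sum, Fintype.card_fin]; ring
  have hnil' : N ^ (2 * m) = 0 := by rw [hNdef, ← map_pow, hnil, map_zero]
  have h1 : Module.finrank F (LinearMap.ker N) ≤ 1 := by
    have h := LinearMap.finrank_range_add_finrank_ker (Matrix.mulVecLin (U - 1))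
    rw [show Module.finrank F (LinearMap.range (Matrix.mulVecLin (U - 1))) = 2 * m - 1 from hreg,
      hn] at h
    have h2 : Module.finrank F (LinearMap.ker N) = Module.finrank F (LinearMap.ker
      (Matrix.mulVecLin (U - 1))) := rfl
    omega
  have hNv : ∀ v, N v = U.mulVec v - v := fun v => by
    show (U - 1).mulVec v = _
    rw [Matrix.sub_mulVec, Matrix.one_mulVec]
  set d := Module.finrank F W with hd
  have hWk := KnownB.eq_ker_pow N hn hnil' h1 W fun v hv => by rw [hNv]; exact sub_mem (hW v hv) hv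
  have hB : ∀ x y, Forms.sympB m F (U.mulVec x) (U.mulVec y) = Forms.sympB m F x y :=
    fun x y => by
      have h := Forms.mem_symplectic_iff.mp u.2 x y
      simpa [Forms.sympForm_eq] using h
  let Ui : Matrix (Fin m ⊕ Fin m) (Fin m ⊕ Fin m) F :=
    ((u⁻¹ : Matrix.symplecticGroup (Fin m) F) : Matrix (Fin m ⊕ Fin m) (Fin m ⊕ Fin m) F)
  have hUi : ∀ y, U.mulVec (Ui.mulVec y) = y := fun y => by
    rw [Matrix.mulVec_mulVec,
      show U * Ui = ((u * u⁻¹ : Matrix.symplecticGroup (Fin m) F) :
        Matrix (Fin m ⊕ Fin m) (Fin m ⊕ Fin m) F) from rfl, mul_inv_cancel]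
    exact Matrix.one_mulVec y
  have hinjU : ∀ a b, U.mulVec a = U.mulVec b → a = b := by
    intro a b h
    have h' := congrArg Ui.mulVec h
    rw [Matrix.mulVec_mulVec, Matrix.mulVec_mulVec,
      show Ui * U = ((u⁻¹ * u : Matrix.symplecticGroup (Fin m) F) :
        Matrix (Fin m ⊕ Fin m) (Fin m ⊕ Fin m) F) from rfl, inv_mul_cancel] at h'
    simpa using h'
  have key : ∀ j, ∀ x y, (N ^ j) y = 0 → Forms.sympB m F ((N ^ j) x) y = 0 := by
    intro j
    induction j with
    | zero => intro x y hy; rw [pow_zero, Module.End.one_apply] at hy; rw [hy, map_zero]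
    | succ j ih =>
      intro x y hy
      rw [pow_succ', Module.End.mul_apply, hNv, map_sub, LinearMap.sub_apply]
      have e : Forms.sympB m F (U.mulVec ((N ^ j) x)) y =
          Forms.sympB m F ((N ^ j) x) (Ui.mulVec y) := by
        conv_lhs => rw [← hUi y]
        exact hB _ _
      rw [e, ← map_sub]
      refine ih x _ ?_
      apply hinjU
      have hcomm : ∀ z, U.mulVec ((N ^ j) z) = (N ^ j) (U.mulVec z) := by
        intro z
        show Matrix.toLinAlgEquiv' U ((N ^ j) z) = (N ^ j) (Matrix.toLinAlgEquiv' U z)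
        rw [← Module.End.mul_apply, ← Module.End.mul_apply]
        congr 1
        exact ((((Commute.refl U).sub_right (Commute.one_right U)).map
          (Matrix.toLinAlgEquiv' (R := F))).pow_right j).eq
      rw [hcomm, Matrix.mulVec_sub, hUi, Matrix.mulVec_zero,
        show y - U.mulVec y = -(N y) by rw [hNv]; abel, map_neg, ← Module.End.mul_apply, ← pow_succ,
        hy, neg_zero]
  intro v hv w hw
  rw [hWk] at hv hw
  have hsub : LinearMap.ker (N ^ d) ≤ LinearMap.range (N ^ d) := by
    rw [KnownB.range_pow_eq_ker_pow N hn hnil' h1 (by omega : d ≤ 2 * m)]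
    intro x hx
    rw [LinearMap.mem_ker] at hx ⊢
    rw [show 2 * m - d = (2 * m - d - d) + d by omega, pow_add, Module.End.mul_apply, hx, map_zero]
  obtain ⟨x, rfl⟩ := hsub hv
  have := key d x w hw
  simpa [Forms.sympForm_eq] using this

end Cfsg.Agent.S2574
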