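import Cfsg.Statements.S2575


set_option autoImplicit false
open Cfsg

namespace Cfsg.Agent.S2575
theorem val_lt_val {F : Type*} [Field F] (h2 : (2 : F) ≠ 0) {x : F} {m t : ℕ} (hm : m ≠ 0)
    (hx : x ^ m = 1) (hxt : x ^ t = -1) : padicValNat 2 t < padicValNat 2 m := by
  by_contra hle
  push Not at hle
  set b := m / 2 ^ m.factorization 2
  have hb : 2 ^ m.factorization 2 * b = m := Nat.ordProj_mul_ordCompl_eq_self m 2
  have hbodd : Odd b := Nat.coprime_two_left.mp (Nat.coprime_ordCompl Nat.prime_two hm)
  have h2t : 2 ^ m.factorization 2 ∣ t := by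
    rw [Nat.factorization_def m Nat.prime_two]
    exact (pow_dvd_pow 2 hle).trans pow_padicValNat_dvd
  have h1 : m ∣ t * b := hb ▸ mul_dvd_mul_right h2t b
  obtain ⟨c, hc⟩ := h1
  have h3 : x ^ (t * b) = -1 := by rw [pow_mul, hxt, hbodd.neg_one_pow]
  rw [hc, pow_mul, hx, one_pow] at h3
  exact h2 (by linear_combination h3)

theorem two_ne_zero' {F : Type*} [Field F] [Fintype F] (hq : Odd (Fintype.card F)) : (2 : F) ≠ 0 := by
  intro h
  obtain ⟨k, hk⟩ := hq
  have h1 := Nat.cast_card_eq_zero F
  rw [hk] at h1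
  push_cast at h1
  rw [h, zero_mul, zero_add] at h1
  exact one_ne_zero h1


/-- Which diagonal involutions of PGL_n(q) lie in PSL_n(q), q odd: for the diagonal matrix t with i entries −1 and n − i entries 1, some non-zero scalar multiple of t has determinant one if and only if i is even or the 2-part of q − 1 exceeds the 2-part of n (that is, −1 is an n-th power in the field exactly in the latter case). -/
theorem result {F : Type*} [Field F] [Fintype F] {q : ℕ} (hF : Fintype.card F = q) (hq : Odd q) {n : ℕ} (hn : 1 ≤ n) (i : ℕ) (hi : i ≤ n) : (∃ c : F, c ≠ 0 ∧ (c • Matrix.diagonal (fun j : Fin n => if (j : ℕ) < i then (-1 : F) else 1)).det = 1) ↔ (Even i ∨ padicValNat 2 n < padicValNat 2 (q - 1)) := by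
  classical
  subst hF
  have h2 := two_ne_zero' hq
  have hq1 : Fintype.card F - 1 ≠ 0 := by have := Fintype.one_lt_card (α := F); omega
  have hdet : ∀ c : F, (c • Matrix.diagonal (fun j : Fin n => if (j : ℕ) < i then (-1 : F) else 1)).det
      = c ^ n * (-1) ^ i := by
    intro c
    rw [Matrix.det_smul, Fintype.card_fin, Matrix.det_diagonal, Finset.prod_ite,
      Finset.prod_const_one, mul_one, Finset.prod_const, Fin.card_filter_val_lt, min_eq_right hi]
  simp only [hdet]
  rcases Nat.even_or_odd i with he | ho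
  · simp only [he, true_or, iff_true, he.neg_one_pow, mul_one]
    exact ⟨1, one_ne_zero, one_pow n⟩
  · simp only [ho.neg_one_pow, Nat.not_even_iff_odd.mpr ho, false_or]
    constructor
    · rintro ⟨c, hc, hcn⟩
      exact val_lt_val h2 hq1 (FiniteField.pow_card_sub_one_eq_one c hc)
        (by linear_combination -hcn)
    · intro hlt
      obtain ⟨w, hw⟩ := IsCyclic.exists_ofOrder_eq_natCard (α := Fˣ)
      rw [Nat.card_eq_fintype_card, Fintype.card_units] at hw
      set a := padicValNat 2 n
      obtain ⟨k, hk⟩ : 2 ^ (a + 1) ∣ Fintype.card F - 1 :=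
        (pow_dvd_pow 2 hlt).trans pow_padicValNat_dvd
      have hord : orderOf (w ^ k) = 2 ^ (a + 1) := by
        have hk0 : k ≠ 0 := fun h => hq1 (by rw [hk, h, mul_zero])
        rw [orderOf_pow_of_dvd hk0 (hw ▸ hk ▸ dvd_mul_left k _), hw, hk,
          Nat.mul_div_cancel _ (Nat.pos_of_ne_zero hk0)]
      set c : F := ((w ^ k : Fˣ) : F)
      have hc2 : c ^ (2 ^ a) = -1 := by
        have h1 : (c ^ (2 ^ a)) ^ 2 = 1 := by
          rw [← pow_mul, ← pow_succ, ← hord, ← orderOf_units, pow_orderOf_eq_one]
        rcases sq_eq_one_iff.mp h1 with h | h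
        · exfalso
          have h3 := orderOf_dvd_of_pow_eq_one h
          rw [orderOf_units, hord, Nat.pow_dvd_pow_iff_le_right (by norm_num)] at h3
          omega
        · exact h
      have hn2 : 2 ^ n.factorization 2 * (n / 2 ^ n.factorization 2) = n :=
        Nat.ordProj_mul_ordCompl_eq_self n 2
      have hodd : Odd (n / 2 ^ n.factorization 2) :=
        Nat.coprime_two_left.mp (Nat.coprime_ordCompl Nat.prime_two (by omega))
      refine ⟨c, Units.ne_zero _, ?_⟩
      rw [← hn2, Nat.factorization_def n Nat.prime_two, pow_mul, hc2,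
        ← Nat.factorization_def n Nat.prime_two, hodd.neg_one_pow]
      ring

end Cfsg.Agent.S2575
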