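import Cfsg.Statements.S2576


set_option autoImplicit false
open Cfsg

namespace Cfsg.Agent.S2576
theorem val_lt_val {F : Type*} [Field F] (h2 : (2 : F) ≠ 0) {x : F} {m t : ℕ} (hm : m ≠ 0)
    (hx : x ^ m = 1) (hxt : x ^ t = -1) : padicValNat 2 t < padicValNat 2 m := by
  by_contra hle
  push Not at hle
  set b := m / 2 ^ m.factorization 2
  have hb : 2 ^ m.factorization 2 * b = m := Nat.ordProj_mul_ordCompl_eq_self m 2
  have hbodd : Odd b := Nat.coprime_two_left.mp (Nat.coprime_ordCompl Nat.prime_two hm)
  have h2t : 2 ^ m.factorization 2 ∣ t := by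
    rw [Nat.factorization_def m Nat.prime_two]
    exact (pow_dvd_pow 2 hle).trans pow_padicValNat_dvd
  have h1 : m ∣ t * b := hb ▸ mul_dvd_mul_right h2t b
  obtain ⟨c, hc⟩ := h1
  have h3 : x ^ (t * b) = -1 := by rw [pow_mul, hxt, hbodd.neg_one_pow]
  rw [hc, pow_mul, hx, one_pow] at h3
  exact h2 (by linear_combination h3)

theorem two_ne_zero' {F : Type*} [Field F] [Fintype F] (hq : Odd (Fintype.card F)) : (2 : F) ≠ 0 := by
  intro h
  obtain ⟨k, hk⟩ := hq
  have h1 := Nat.cast_card_eq_zero F
  rw [hk] at h1
  push_cast at h1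
  rw [h, zero_mul, zero_add] at h1
  exact one_ne_zero h1


/-- Which involutions of PGL_2m(q) coming from a scalar of the quadratic extension field lie in PSL_2m(q), q odd: let μ generate the Sylow 2-subgroup of the multiplicative group of the field with q elements (μ has order the 2-part of q − 1) and let t be the block-diagonal matrix with m diagonal blocks [[0, 1], [μ, 0]] (so t² is the scalar μ and t is an involution modulo scalars). Then some non-zero scalar multiple of t has determinant one if and only if q ≡ 3 (mod 4) or the 2-part of q − 1 is less than the 2-part of 2m. -/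
theorem result {F : Type*} [Field F] [Fintype F] {q : ℕ} (hF : Fintype.card F = q) (hq : Odd q) {m : ℕ} (hm : 1 ≤ m) (μ : F) (hμ : orderOf μ = 2 ^ padicValNat 2 (q - 1)) : (∃ c : F, c ≠ 0 ∧ (c • Matrix.blockDiagonal (fun _ : Fin m => !![(0 : F), 1; μ, 0])).det = 1) ↔ (q % 4 = 3 ∨ padicValNat 2 (q - 1) < padicValNat 2 (2 * m)) := by
  classical
  subst hF
  have h2 := two_ne_zero' hq
  have hm0 : m ≠ 0 := by omega
  have hq3 : 3 ≤ Fintype.card F := by
    have := Fintype.one_lt_card (α := F)
    obtain ⟨k, hk⟩ := hq; omega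
  have hdet : ∀ c : F,
      (c • Matrix.blockDiagonal (fun _ : Fin m => !![(0 : F), 1; μ, 0])).det = (-(c ^ 2 * μ)) ^ m := by
    intro c
    rw [Matrix.det_smul, Matrix.det_blockDiagonal, Fintype.card_prod, Fintype.card_fin,
      Fintype.card_fin, Finset.prod_const, Finset.card_univ, Fintype.card_fin,
      Matrix.det_fin_two_of, pow_mul, ← mul_pow]
    ring
  simp only [hdet]
  have h2m : padicValNat 2 (2 * m) = padicValNat 2 m + 1 := by
    rw [padicValNat.mul two_ne_zero hm0]; simp; ring
  set t := (Fintype.card F - 1) / 2 with ht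
  have htq : Fintype.card F - 1 = 2 * t := by obtain ⟨k, hk⟩ := hq; omega
  have hvt : padicValNat 2 (Fintype.card F - 1) = padicValNat 2 t + 1 := by
    rw [htq, padicValNat.mul two_ne_zero (by omega)]; simp; ring
  rw [hvt] at hμ
  rw [h2m, hvt]
  set a := padicValNat 2 t
  constructor
  · rintro ⟨c, hc, hcm⟩
    by_cases h4 : Fintype.card F % 4 = 3
    · exact Or.inl h4
    refine Or.inr ?_
    have hte : Even t := by
      rw [Nat.even_iff]; obtain ⟨k, hk⟩ := hq; omega
    have hμt : μ ^ t = -1 := by
      have h1 : (μ ^ 2 ^ a) ^ 2 = 1 := by rw [← pow_mul, ← pow_succ, ← hμ, pow_orderOf_eq_one]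
      have h3 : μ ^ 2 ^ a = -1 := by
        rcases sq_eq_one_iff.mp h1 with h | h
        · exfalso
          have h5 := orderOf_dvd_of_pow_eq_one h
          rw [hμ, Nat.pow_dvd_pow_iff_le_right (by norm_num)] at h5
          omega
        · exact h
      have ht2 : 2 ^ t.factorization 2 * (t / 2 ^ t.factorization 2) = t :=
        Nat.ordProj_mul_ordCompl_eq_self t 2
      have hodd : Odd (t / 2 ^ t.factorization 2) :=
        Nat.coprime_two_left.mp (Nat.coprime_ordCompl Nat.prime_two (by omega))
      rw [← ht2, Nat.factorization_def t Nat.prime_two, pow_mul, h3,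
        ← Nat.factorization_def t Nat.prime_two, hodd.neg_one_pow]
    have hxt : (-(c ^ 2 * μ)) ^ t = -1 := by
      rw [hte.neg_pow, mul_pow, hμt, ← pow_mul, ← htq, FiniteField.pow_card_sub_one_eq_one c hc]
      ring
    have := val_lt_val h2 hm0 hcm hxt
    omega
  · intro h
    refine ⟨1, one_ne_zero, ?_⟩
    rw [one_pow, one_mul]
    rcases h with h | h
    · have ha : a = 0 := by
        apply padicValNat.eq_zero_of_not_dvd
        omega
      have hμ1 : μ = -1 := by
        have h1 : μ ^ 2 = 1 := by
          have := pow_orderOf_eq_one μ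
          rwa [hμ, ha] at this
        rcases sq_eq_one_iff.mp h1 with h' | h'
        · rw [h', orderOf_one, ha] at hμ
          norm_num at hμ
        · exact h'
      rw [hμ1, neg_neg, one_pow]
    · have h1 : 2 ^ (a + 1) ∣ m := (pow_dvd_pow 2 (by omega)).trans pow_padicValNat_dvd
      have hme : Even m := even_iff_two_dvd.mpr ((dvd_pow_self 2 (by omega)).trans h1)
      rw [hme.neg_pow]
      exact orderOf_dvd_iff_pow_eq_one.mp (hμ ▸ h1)

end Cfsg.Agent.S2576
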