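import Cfsg.Statements.S2585


set_option autoImplicit false
open Cfsg

namespace Cfsg.Agent.S2585
open Matrix


/-- Over a finite field of characteristic two every element of the symplectic group is orthogonal for a suitable quadratic form: for each A in Sp_2m(F) there is a quadratic form Q on F^(2m) whose polar form is the alternating form defining Sp_2m(F) (so Q is non-degenerate) and which A preserves. Equivalently, for m ≥ 1, Sp_2m(F) is the union of the conjugates of its two orthogonal subgroups O⁺_2m(F) and O⁻_2m(F). -/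
theorem result {F : Type*} [Field F] [Fintype F] [CharP F 2] {m : ℕ} (A : Matrix.symplecticGroup (Fin m) F) : ∃ Q : QuadraticForm F (Fin m ⊕ Fin m → F), (∀ u v : Fin m ⊕ Fin m → F, QuadraticMap.polar ⇑Q u v = Cfsg.sympForm m F u v) ∧ ∀ v : Fin m ⊕ Fin m → F, Q ((A : Matrix (Fin m ⊕ Fin m) (Fin m ⊕ Fin m) F).mulVec v) = Q v := by
  classical
  let L : Fin m → (Fin m ⊕ Fin m → F) →ₗ[F] F := fun i => LinearMap.proj (Sum.inl i)
  let R : Fin m → (Fin m ⊕ Fin m → F) →ₗ[F] F := fun i => LinearMap.proj (Sum.inr i)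
  let Q₀ : QuadraticForm F (Fin m ⊕ Fin m → F) := ∑ i, QuadraticMap.linMulLin (L i) (R i)
  have hQ₀ : ∀ u v, QuadraticMap.polar ⇑Q₀ u v = Cfsg.sympForm m F u v := by
    intro u v
    simp only [QuadraticMap.polar, Q₀, QuadraticMap.sum_apply, QuadraticMap.linMulLin_apply, L, R,
      LinearMap.proj_apply, Cfsg.sympForm, Matrix.J, dotProduct, Fintype.sum_sum_type,
      Matrix.mulVec, Matrix.fromBlocks_apply₁₁, Matrix.fromBlocks_apply₁₂,
      Matrix.fromBlocks_apply₂₁, Matrix.fromBlocks_apply₂₂, Pi.add_apply]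
    simp only [CharTwo.neg_eq, Matrix.zero_apply, Matrix.one_apply, zero_mul, ite_mul, one_mul,
      Finset.sum_const_zero, zero_add, add_zero, Finset.sum_ite_eq, Finset.mem_univ, if_true,
      CharTwo.sub_eq_add, ← Finset.sum_add_distrib]
    refine Finset.sum_congr rfl fun i _ => ?_
    ring_nf
    simp [Matrix.one_apply, CharTwo.neg_eq, CharTwo.two_eq_zero, mul_comm]
  have hA : ∀ u v, Cfsg.sympForm m F ((A : Matrix _ _ F) *ᵥ u) ((A : Matrix _ _ F) *ᵥ v) =
      Cfsg.sympForm m F u v := by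
    intro u v
    have h := SymplecticGroup.mem_iff'.mp A.2
    simp only [Cfsg.sympForm]
    rw [Matrix.mulVec_mulVec, Matrix.dotProduct_mulVec, Matrix.vecMul_mulVec,
      ← Matrix.mul_assoc, h, ← Matrix.dotProduct_mulVec]
  set T : (Fin m ⊕ Fin m → F) →ₗ[F] (Fin m ⊕ Fin m → F) := (A : Matrix _ _ F).mulVecLin with hT
  have hadd : ∀ u v, Q₀ (T (u + v)) + Q₀ (u + v) =
      (Q₀ (T u) + Q₀ u) + (Q₀ (T v) + Q₀ v) := by
    intro u v
    rw [map_add, QuadraticMap.map_add (⇑Q₀) (T u), QuadraticMap.map_add (⇑Q₀) u, hQ₀, hQ₀]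
    simp only [hT, Matrix.mulVecLin_apply, hA]
    ring_nf
    simp [CharTwo.two_eq_zero]
  let d : (Fin m ⊕ Fin m → F) → F := fun v => (frobeniusEquiv F 2).symm (Q₀ (T v) + Q₀ v)
  have hd : ∀ v, d v ^ 2 = Q₀ (T v) + Q₀ v := fun v => by
    have := (frobeniusEquiv F 2).apply_symm_apply (Q₀ (T v) + Q₀ v)
    simpa [d, frobenius_def] using this
  let s : (Fin m ⊕ Fin m → F) →ₗ[F] F :=
    { toFun := d
      map_add' := fun u v => by
        simp only [d]; rw [hadd, map_add]
      map_smul' := fun a v => by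
        apply CharTwo.sq_injective
        show d (a • v) ^ 2 = (a • d v) ^ 2
        rw [hd, map_smul, QuadraticMap.map_smul, QuadraticMap.map_smul, smul_eq_mul, smul_eq_mul,
          smul_eq_mul, mul_pow, hd]
        ring }
  have hker : LinearMap.ker (T - LinearMap.id) ≤ LinearMap.ker s := by
    intro v hv
    rw [LinearMap.mem_ker, LinearMap.sub_apply, LinearMap.id_apply, sub_eq_zero] at hv
    rw [LinearMap.mem_ker]
    apply CharTwo.sq_injective
    show d v ^ 2 = (0 : F) ^ 2
    rw [hd, hv, CharTwo.add_self_eq_zero, zero_pow two_ne_zero]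
  obtain ⟨μ, hμ⟩ : ∃ μ : (Fin m ⊕ Fin m → F) →ₗ[F] F, μ.comp (T - LinearMap.id) = s := by
    have : s ∈ LinearMap.range (T - LinearMap.id).dualMap := by
      rw [LinearMap.range_dualMap_eq_dualAnnihilator_ker, Submodule.mem_dualAnnihilator]
      exact fun v hv => hker hv
    obtain ⟨μ, hμ⟩ := this
    exact ⟨μ, hμ⟩
  refine ⟨Q₀ + QuadraticMap.linMulLin μ μ, fun u v => ?_, fun v => ?_⟩
  · rw [← hQ₀]
    simp only [QuadraticMap.polar, QuadraticMap.add_apply, QuadraticMap.linMulLin_apply, map_add]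
    ring_nf
    simp [CharTwo.two_eq_zero]
  · have h1 : μ (T v) = μ v + d v := by
      have : μ ((T - LinearMap.id : (Fin m ⊕ Fin m → F) →ₗ[F] _) v) = d v := LinearMap.congr_fun hμ v
      rw [LinearMap.sub_apply, map_sub, LinearMap.id_apply, sub_eq_iff_eq_add] at this
      rw [this, add_comm]
    simp only [QuadraticMap.add_apply, QuadraticMap.linMulLin_apply]
    show Q₀ (T v) + μ (T v) * μ (T v) = _
    rw [h1]
    ring_nf
    simp only [CharTwo.two_eq_zero, mul_zero, add_zero, hd]
    ring_nf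
    simp [CharTwo.two_eq_zero]
    

end Cfsg.Agent.S2585
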