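import Cfsg.Statements.S2589
import Cfsg.Agent.S2389
-- import your own Cfsg.Agent.* helpers here

set_option autoImplicit false
open Cfsg

namespace Cfsg.Agent.S2589

/-- Two semisimple elements of the finite symplectic group Sp_2m(F) (elements of order prime to the characteristic) are conjugate in Sp_2m(F) if and only if they are conjugate in GL_2m(F). -/
theorem result {F : Type*} [Field F] [Fintype F] {p : ℕ} [Fact p.Prime] [CharP F p] {m : ℕ} (A B : Matrix.symplecticGroup (Fin m) F) (hA : (orderOf A).Coprime p) : IsConj A B ↔ IsConj (A : Matrix (Fin m ⊕ Fin m) (Fin m ⊕ Fin m) F) (B : Matrix (Fin m ⊕ Fin m) (Fin m ⊕ Fin m) F) := by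
  refine ⟨fun h => (Matrix.symplecticGroup (Fin m) F).subtype.map_isConj h, fun h => ?_⟩
  obtain ⟨c, hc⟩ := h
  have hc' : (c : Matrix (Fin m ⊕ Fin m) (Fin m ⊕ Fin m) F) * A * (c⁻¹ : (Matrix (Fin m ⊕ Fin m) (Fin m ⊕ Fin m) F)ˣ) = B := by
    rw [hc.eq, mul_assoc, Units.mul_inv, mul_one]
  have hord : orderOf B = orderOf A := by
    have h1 : ∀ k : ℕ, A ^ k = 1 ↔ B ^ k = 1 := by
      intro k
      have hk := (hc.pow_right k).eq
      rw [← Subtype.coe_inj, ← Subtype.coe_inj, SubmonoidClass.coe_pow, SubmonoidClass.coe_pow, OneMemClass.coe_one]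
      constructor
      · intro e
        rw [e, mul_one] at hk
        exact c.mul_left_inj.1 (hk.symm.trans (one_mul _).symm)
      · intro e
        rw [e, one_mul] at hk
        exact c.mul_right_inj.1 (hk.trans (mul_one _).symm)
    exact Nat.dvd_antisymm (orderOf_dvd_of_pow_eq_one ((h1 _).1 (pow_orderOf_eq_one A)))
      (orderOf_dvd_of_pow_eq_one ((h1 _).2 (pow_orderOf_eq_one B)))
  exact Cfsg.Agent.S2389.result p m A B hA (hord ▸ hA) (by rw [← hc', Matrix.coe_units_inv]; exact (Matrix.charpoly_units_conj c _).symm)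

end Cfsg.Agent.S2589
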