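import Cfsg.Statements.S2594
import Cfsg.Agent.S2680
import Cfsg.Agent.Linear.ThreeTransp
-- import your own Cfsg.Agent.* helpers here

set_option autoImplicit false
open Cfsg

namespace Cfsg.Agent.S2594

/-- Over a finite field with q elements, q even, an element t of Sp_2m(F) with rank(t − 1) = 1 (a symplectic transvection) has centraliser in Sp_2m(F) of order q^(2m−1) · |Sp_(2m−2)(q)| = q^(2m−1) · q^((m−1)²) · Π_(i=1)^(m−1) (q^(2i) − 1). -/
theorem result {F : Type*} [Field F] [Fintype F] [CharP F 2] {q : ℕ} (hF : Fintype.card F = q) {m : ℕ} (hm : 1 ≤ m) (t : Matrix.symplecticGroup (Fin m) F) (ht : ((t : Matrix (Fin m ⊕ Fin m) (Fin m ⊕ Fin m) F) - 1).rank = 1) : Nat.card ↥(Subgroup.centralizer ({t} : Set ↥(Matrix.symplecticGroup (Fin m) F))) = q ^ (2 * m - 1) * (q ^ ((m - 1) ^ 2) * ∏ i : Fin (m - 1), (q ^ (2 * ((i : ℕ) + 1)) - 1)) := by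
  classical
  obtain ⟨a, φ, ha, hφ, hg⟩ := (Cfsg.Agent.Linear.ThreeTransp.rank_sub_one_iff _).1 ht
  have hA := Cfsg.Agent.Forms.sympB_isAlt (m := m) (F := F)
  have hB := Cfsg.Agent.Forms.sympB_nondegenerate (m := m) (F := F)
  have hinv : ∀ x y, Cfsg.Agent.Forms.sympB m F (x + φ x • a) (y + φ y • a) = Cfsg.Agent.Forms.sympB m F x y :=
    fun x y => by rw [← hg, ← hg]; exact (Cfsg.Agent.Forms.spEquiv m F t).2.1 x y
  obtain ⟨x, hx⟩ : ∃ x, Cfsg.Agent.Forms.sympB m F x a ≠ 0 := by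
    by_contra! h
    exact ha (hB.2 a h)
  have hφa : φ a = 0 := by
    have h := hinv x a
    simp only [map_add, map_smul, LinearMap.add_apply, LinearMap.smul_apply, smul_eq_mul, hA a] at h
    have h' : φ a * Cfsg.Agent.Forms.sympB m F x a = 0 := by linear_combination h
    exact (mul_eq_zero.1 h').resolve_right hx
  have hsq : t ^ 2 = 1 := by
    refine Subtype.ext (Cfsg.Agent.Forms.matrix_ext_mulVec fun x => ?_)
    rw [pow_two, Submonoid.coe_mul, OneMemClass.coe_one, ← Matrix.mulVec_mulVec, Matrix.one_mulVec, hg, hg, map_add,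
      map_smul, hφa, smul_eq_mul, mul_zero, add_zero, add_assoc, ← add_smul, CharTwo.add_self_eq_zero, zero_smul,
      add_zero]
  rw [Cfsg.Agent.S2680.result hF t hsq ht odd_one]
  simp

end Cfsg.Agent.S2594
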