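import Cfsg.Statements.S2597
import Cfsg.Agent.Forms.InvolTwoOrthClass

set_option autoImplicit false
open Cfsg

namespace Cfsg.Agent.S2597

/-- Number of conjugacy classes of involutions in Ω⁺_2m(F) (the commutator subgroup of the orthogonal group of Σ x_i y_i) over a finite field F of characteristic two, m ≥ 1, excluding the case m = 2 over the field of two elements: the involutions of Ω are those with s = rank(t − 1) even, giving two O-classes for each even s with 2 ≤ s ≤ m, each of which is a single Ω-class except that for m even the class with s = m and v ↦ f(v, tv) identically zero splits in two; in all 2⌊m/2⌋ + 1 classes if m is even and 2⌊m/2⌋ if m is odd. -/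
theorem result {F : Type*} [Field F] [Fintype F] [CharP F 2] {m : ℕ} (hm : 1 ≤ m) (h : Fintype.card F ≠ 2 ∨ m ≠ 2) : Nat.card {C : ConjClasses ↥(Cfsg.Omega F (Cfsg.quadFormPlus m F)) // ∃ g : ↥(Cfsg.Omega F (Cfsg.quadFormPlus m F)), ConjClasses.mk g = C ∧ orderOf g = 2} = 2 * (m / 2) + (if Even m then 1 else 0) := by
  have h1 : Module.finrank F (Fin m ⊕ Fin m → F) = 2 * m := by simp [two_mul]
  have hgen := Cfsg.Agent.Forms.closure_reflectionSet_char_two
    (Q := Cfsg.Agent.Forms.qPlus m F) Cfsg.Agent.Forms.qPlus_nondegenerate (by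
      rw [Nat.card_eq_fintype_card]
      rcases h with h | h
      · exact Or.inl h
      · exact Or.inr (Or.inl (by omega)))
  refine (Cfsg.Agent.Forms.card_classes_Omega (Cfsg.Agent.Forms.coe_qPlus m F)
    Cfsg.Agent.Forms.qPlus_nondegenerate hgen (by omega) (Cfsg.Agent.Forms.hasFamilies_plus m)
    (a' := m / 2) (by omega) (by omega) fun U hU => ?_).trans ?_
  · have := Cfsg.Agent.Forms.finrank_singular_plus hU
    omega
  · rw [h1]
    split_ifs with he
    · rw [Nat.even_iff] at he
      have : Unique {j : Fin (m / 2) // 4 * ((j : ℕ) + 1) = 2 * m} :=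
        { default := ⟨⟨m / 2 - 1, by omega⟩, show 4 * (m / 2 - 1 + 1) = 2 * m by omega⟩
          uniq := fun j => Subtype.ext (Fin.ext (by
            have := j.2
            change (j.1 : ℕ) = m / 2 - 1
            omega)) }
      rw [Nat.card_unique]
      omega
    · rw [Nat.even_iff] at he
      have : IsEmpty {j : Fin (m / 2) // 4 * ((j : ℕ) + 1) = 2 * m} :=
        ⟨fun j => by have := j.2; omega⟩
      rw [Nat.card_of_isEmpty]
      omega

end Cfsg.Agent.S2597
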