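import Cfsg.Statements.S2598
import Cfsg.Agent.Forms.InvolTwoOrthClass

set_option autoImplicit false
open Cfsg

namespace Cfsg.Agent.S2598

/-- Number of conjugacy classes of involutions in Ω⁻_2m(F) (the commutator subgroup of the orthogonal group of an elliptic quadratic form, Σ_(i<m−1) x_i y_i plus an anisotropic binary form) over a finite field F of characteristic two, m ≥ 1: the involutions of Ω are those with s = rank(t − 1) even, one O-class for each even s with 2 ≤ s ≤ m on which v ↦ f(v, tv) is not identically zero and one for each even s with 2 ≤ s < m on which it is zero (f the polar form; in characteristic 2, f(v, tv) = Q(v + tv)), none of which splits in Ω; in all ⌊m/2⌋ + ⌊(m − 1)/2⌋. -/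
theorem result {F : Type*} [Field F] [Fintype F] [CharP F 2] {m : ℕ} (hm : 1 ≤ m) (a b : F) (hab : ∀ z₁ z₂ : F, z₁ ^ 2 + a * z₁ * z₂ + b * z₂ ^ 2 = 0 → z₁ = 0 ∧ z₂ = 0) : Nat.card {C : ConjClasses ↥(Cfsg.Omega F (Cfsg.quadFormMinus (m - 1) F a b)) // ∃ g : ↥(Cfsg.Omega F (Cfsg.quadFormMinus (m - 1) F a b)), ConjClasses.mk g = C ∧ orderOf g = 2} = m / 2 + (m - 1) / 2 := by
  obtain ⟨k, rfl⟩ : ∃ k, m = k + 1 := ⟨m - 1, by omega⟩
  simp only [Nat.add_sub_cancel]
  have h1 : Module.finrank F ((Fin k ⊕ Fin k) ⊕ Fin 2 → F) = 2 * k + 2 := by simp [two_mul]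
  have hQ := Cfsg.Agent.Forms.qMinus_nondegenerate (m := k) a b (Cfsg.Agent.Forms.disc_ne_zero hab)
  have hgen := Cfsg.Agent.Forms.closure_reflectionSet_char_two hQ (by
    rcases eq_or_ne k 1 with rfl | hk
    · exact Or.inr (Or.inr fun W hW => Cfsg.Agent.Forms.finrank_singular_minus hab hW)
    · exact Or.inr (Or.inl (by omega)))
  refine (Cfsg.Agent.Forms.card_classes_Omega (Cfsg.Agent.Forms.coe_qMinus k F a b)
    hQ hgen (by omega) (Cfsg.Agent.Forms.hasFamilies_minus k a b)
    (a' := (k + 1) / 2) (by omega) (by omega) fun U hU => ?_).trans ?_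
  · have := Cfsg.Agent.Forms.finrank_singular_minus hab hU
    omega
  · rw [h1]
    have : IsEmpty {j : Fin (k / 2) // 4 * ((j : ℕ) + 1) = 2 * k + 2} :=
      ⟨fun j => by have := j.2; have := j.1.2; omega⟩
    rw [Nat.card_of_isEmpty, add_zero]

end Cfsg.Agent.S2598
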