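import Cfsg.Statements.S2599
-- import your own Cfsg.Agent.* helpers here

set_option autoImplicit false
open Cfsg

namespace Cfsg.Agent.S2599

/-- An irreducible invariant subspace of a semisimple isometry is non-degenerate or totally singular: let Q be a quadratic form on F^n (F finite of characteristic p) with non-degenerate polar form f, x an isometry of Q of order prime to p, and U a non-zero x-invariant subspace containing no x-invariant subspace other than 0 and U. Then U meets its f-orthogonal trivially, or Q vanishes on U, or p = 2, U is a line spanned by a non-singular vector and x fixes U pointwise. -/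
theorem result {F : Type*} [Field F] [Fintype F] {p : ℕ} [Fact p.Prime] [CharP F p] {n : ℕ} (Q : QuadraticForm F (Fin n → F)) (hQ : (QuadraticMap.polarBilin Q).Nondegenerate) (x : ↥(Cfsg.isometryGroup F ⇑Q)) (hx : (orderOf x).Coprime p) (U : Submodule F (Fin n → F)) (hU0 : U ≠ ⊥) (hUx : ∀ u ∈ U, ((x : Matrix.GeneralLinearGroup (Fin n) F) : Matrix (Fin n) (Fin n) F).mulVec u ∈ U) (hirr : ∀ W : Submodule F (Fin n → F), W ≤ U → (∀ w ∈ W, ((x : Matrix.GeneralLinearGroup (Fin n) F) : Matrix (Fin n) (Fin n) F).mulVec w ∈ W) → W = ⊥ ∨ W = U) : U ⊓ LinearMap.BilinForm.orthogonal (QuadraticMap.polarBilin Q) U = ⊥ ∨ (∀ u ∈ U, Q u = 0) ∨ (p = 2 ∧ Module.finrank F U = 1 ∧ (∃ u ∈ U, Q u ≠ 0) ∧ ∀ u ∈ U, ((x : Matrix.GeneralLinearGroup (Fin n) F) : Matrix (Fin n) (Fin n) F).mulVec u = u) := by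
  set M := ((x : Matrix.GeneralLinearGroup (Fin n) F) : Matrix (Fin n) (Fin n) F) with hM
  have hQx : ∀ v, Q (M.mulVec v) = Q v := fun v => x.2 v v
  have hfx : ∀ u v, QuadraticMap.polar (⇑Q) (M.mulVec u) (M.mulVec v) = QuadraticMap.polar (⇑Q) u v := by
    intro u v
    simp only [QuadraticMap.polar, ← Matrix.mulVec_add, hQx]
  have hinj : Function.Injective M.mulVec := by
    intro a b hab
    have := congrArg ((((x : Matrix.GeneralLinearGroup (Fin n) F))⁻¹ : Matrix.GeneralLinearGroup (Fin n) F) : Matrix (Fin n) (Fin n) F).mulVec hab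
    simpa [Matrix.mulVec_mulVec, hM] using this
  -- the radical of U is invariant
  have hWx : ∀ w ∈ U ⊓ LinearMap.BilinForm.orthogonal (QuadraticMap.polarBilin Q) U,
      M.mulVec w ∈ U ⊓ LinearMap.BilinForm.orthogonal (QuadraticMap.polarBilin Q) U := by
    intro w hw
    refine ⟨hUx w hw.1, fun u hu => ?_⟩
    let T : ↥U →ₗ[F] ↥U := M.mulVecLin.restrict hUx
    have hT : Function.Injective T := fun a b h => Subtype.ext (hinj (congrArg Subtype.val h))
    obtain ⟨⟨a, ha⟩, hau⟩ := (LinearMap.injective_iff_surjective.1 hT) ⟨u, hu⟩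
    have hau' : M.mulVec a = u := congrArg Subtype.val hau
    change QuadraticMap.polar (⇑Q) u (M.mulVec w) = 0
    rw [← hau', hfx]
    exact hw.2 a ha
  rcases hirr _ inf_le_left hWx with h | h
  · exact Or.inl h
  right
  have hf0 : ∀ u ∈ U, ∀ v ∈ U, QuadraticMap.polar (⇑Q) u v = 0 := by
    intro u hu v hv
    rw [← h] at hv
    exact hv.2 u hu
  rcases eq_or_ne p 2 with hp | hp
  · subst hp
    let K : Submodule F (Fin n → F) :=
      { carrier := {u | u ∈ U ∧ Q u = 0}
        zero_mem' := ⟨U.zero_mem, QuadraticMap.map_zero Q⟩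
        add_mem' := fun {a b} ha hb => ⟨U.add_mem ha.1 hb.1, by
          rw [QuadraticMap.map_add (⇑Q), ha.2, hb.2, hf0 a ha.1 b hb.1]; simp⟩
        smul_mem' := fun c a ha => ⟨U.smul_mem c ha.1, by
          rw [QuadraticMap.map_smul, ha.2, smul_zero]⟩ }
    rcases hirr K (fun u hu => hu.1) (fun w hw => ⟨hUx w hw.1, by rw [hQx]; exact hw.2⟩) with hK | hK
    · right
      haveI : CharP F 2 := inferInstance
      have hfix : ∀ u ∈ U, M.mulVec u = u := by
        intro u hu
        have hm : M.mulVec u - u ∈ K := by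
          refine ⟨U.sub_mem (hUx u hu) hu, ?_⟩
          rw [sub_eq_add_neg, QuadraticMap.map_add (⇑Q), QuadraticMap.map_neg, hQx,
            QuadraticMap.polar_neg_right, hf0 _ (hUx u hu) _ hu,
            neg_zero, add_zero, CharTwo.add_self_eq_zero]
        rw [hK, Submodule.mem_bot, sub_eq_zero] at hm
        exact hm
      obtain ⟨u, hu, hu0⟩ := Submodule.exists_mem_ne_zero_of_ne_bot hU0
      have hspan : Submodule.span F {u} = U := by
        have hle : Submodule.span F {u} ≤ U := (Submodule.span_singleton_le_iff_mem _ _).2 hu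
        refine (hirr _ hle fun w hw => ?_).resolve_left ?_
        · rw [hfix w (hle hw)]; exact hw
        · rw [Submodule.span_singleton_eq_bot]; exact hu0
      refine ⟨rfl, ?_, ⟨u, hu, fun hQu => hu0 ?_⟩, hfix⟩
      · rw [← hspan]; exact finrank_span_singleton hu0
      · have : u ∈ K := ⟨hu, hQu⟩
        rwa [hK, Submodule.mem_bot] at this
    · left
      intro u hu
      have : u ∈ K := hK.symm ▸ hu
      exact this.2
  · left
    intro u hu
    have h2 : (2 : F) ≠ 0 := Ring.two_ne_zero (by rw [ringChar.eq F p]; exact hp)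
    have := hf0 u hu u hu
    rw [QuadraticMap.polar_self, nsmul_eq_mul, Nat.cast_ofNat] at this
    exact (mul_eq_zero.1 this).resolve_left h2

end Cfsg.Agent.S2599
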