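import Cfsg.Statements.S2600
import Cfsg.Agent.Forms.SpAutCount

set_option autoImplicit false
open Cfsg

namespace Cfsg.Agent.S2600

/-- Outer automorphism group of PSp_4(q) for q = 2^f even: it is cyclic of order 2f, generated by the class of the exceptional (graph-field) automorphism whose square is the Frobenius field automorphism. -/
theorem result {F : Type*} [Field F] [Fintype F] {f : ℕ} (hf : 1 ≤ f) (hF : Fintype.card F = 2 ^ f) : IsCyclic (Cfsg.Out (Cfsg.PSp 2 F)) ∧ Nat.card (Cfsg.Out (Cfsg.PSp 2 F)) = 2 * f := by
  haveI : CharP F 2 := by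
    haveI := Fact.mk Nat.prime_two
    exact (CharP.charP_iff_prime_eq_zero Nat.prime_two).mpr (by
      have h := Nat.cast_card_eq_zero F
      rw [hF, Nat.cast_pow] at h
      exact eq_zero_of_pow_eq_zero h)
  exact Forms.out_psp_four hF

end Cfsg.Agent.S2600
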