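import Cfsg.Statements.S2601
import Cfsg.Agent.KnownB.AutPSL.Facts

set_option autoImplicit false
open Cfsg

namespace Cfsg.Agent.S2601
open Cfsg.Agent.KnownB Cfsg.Agent.KnownB.AutPSL


/-- Structure of the outer automorphism group of PSL_n(q), n ≥ 3, q = p^f: it has a normal cyclic subgroup of order gcd(n, q − 1) (the diagonal automorphisms) whose quotient is the direct product of a cyclic group of order f (field automorphisms) and a group of order 2 (the inverse-transpose graph automorphism). -/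
theorem result {F : Type*} [Field F] [Fintype F] {p f n : ℕ} [Fact p.Prime] (hf : 1 ≤ f) (hF : Fintype.card F = p ^ f) (hn : 3 ≤ n) : ∃ φ : Cfsg.Out (Matrix.ProjectiveSpecialLinearGroup (Fin n) F) →* Multiplicative (ZMod f × ZMod 2), Function.Surjective φ ∧ IsCyclic φ.ker ∧ Nat.card φ.ker = Nat.gcd n (p ^ f - 1) := by
  classical
  rw [← Nat.card_eq_fintype_card] at hF
  obtain ⟨e⟩ := exists_ringAut_equiv hF hf
  obtain ⟨π, hs, hk, -⟩ := exists_proj3 (F := F) hn
  let T : (F ≃+* F) × Multiplicative (ZMod 2) →* Multiplicative (ZMod f × ZMod 2) := ((MulEquiv.prodCongr e (MulEquiv.refl _)).trans (MulEquiv.prodMultiplicative (ZMod f) (ZMod 2)).symm).toMonoidHom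
  let φ := QuotientGroup.lift (Cfsg.Inn (Matrix.ProjectiveSpecialLinearGroup (Fin n) F)) (T.comp π)
    (fun β hβ => by
      have h1 : π β = 1 := by
        rw [← MonoidHom.mem_ker, hk]; exact Inn_le_range hβ
      rw [MonoidHom.mem_ker, MonoidHom.comp_apply, h1, map_one])
  have hT : Function.Bijective T := MulEquiv.bijective _
  have hker : φ.ker = (A n F).range.map
      (QuotientGroup.mk' (Cfsg.Inn (Matrix.ProjectiveSpecialLinearGroup (Fin n) F))) := by
    rw [QuotientGroup.ker_lift, ← MonoidHom.comap_ker, (MonoidHom.ker_eq_bot_iff T).mpr hT.1,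
      MonoidHom.comap_bot, hk]
  obtain ⟨hcyc, hcard⟩ := exists_diag_quotient (F := F) (show 2 ≤ n by omega)
    (QuotientGroup.mk' (Cfsg.Inn (Matrix.ProjectiveSpecialLinearGroup (Fin n) F)))
    (QuotientGroup.ker_mk' _)
  refine ⟨φ, ?_, ?_, ?_⟩
  · intro x
    obtain ⟨y, rfl⟩ := hT.2 x
    obtain ⟨β, rfl⟩ := hs y
    exact ⟨QuotientGroup.mk β, rfl⟩
  · rw [hker]; exact hcyc
  · rw [hker, hcard, ← Nat.card_eq_fintype_card, hF]

end Cfsg.Agent.S2601
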