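import Cfsg.Statements.S2602
import Cfsg.Agent.KnownB.AutPSL.Facts

set_option autoImplicit false
open Cfsg

namespace Cfsg.Agent.S2602
open Cfsg.Agent.KnownB Cfsg.Agent.KnownB.AutPSL


/-- Structure of the outer automorphism group of PSL_2(q), q = p^f ≥ 4: it has a normal cyclic subgroup of order gcd(2, q − 1) (diagonal automorphisms) with cyclic quotient of order f (field automorphisms); there is no graph automorphism in dimension 2. -/
theorem result {F : Type*} [Field F] [Fintype F] {p f : ℕ} [Fact p.Prime] (hf : 1 ≤ f) (hF : Fintype.card F = p ^ f) (h4 : 4 ≤ p ^ f) : ∃ φ : Cfsg.Out (Matrix.ProjectiveSpecialLinearGroup (Fin 2) F) →* Multiplicative (ZMod f), Function.Surjective φ ∧ IsCyclic φ.ker ∧ Nat.card φ.ker = Nat.gcd 2 (p ^ f - 1) := by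
  classical
  rw [← Nat.card_eq_fintype_card] at hF
  obtain ⟨e⟩ := exists_ringAut_equiv hF hf
  obtain ⟨π, hs, hk, -⟩ := exists_proj2 (F := F)
  let T : (F ≃+* F) →* Multiplicative (ZMod f) := e.toMonoidHom
  let φ := QuotientGroup.lift (Cfsg.Inn (Matrix.ProjectiveSpecialLinearGroup (Fin 2) F)) (T.comp π)
    (fun β hβ => by
      have h1 : π β = 1 := by
        rw [← MonoidHom.mem_ker, hk]; exact Inn_le_range hβ
      rw [MonoidHom.mem_ker, MonoidHom.comp_apply, h1, map_one])
  have hT : Function.Bijective T := e.bijective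
  have hker : φ.ker = (A 2 F).range.map
      (QuotientGroup.mk' (Cfsg.Inn (Matrix.ProjectiveSpecialLinearGroup (Fin 2) F))) := by
    rw [QuotientGroup.ker_lift, ← MonoidHom.comap_ker, (MonoidHom.ker_eq_bot_iff T).mpr hT.1,
      MonoidHom.comap_bot, hk]
  obtain ⟨hcyc, hcard⟩ := exists_diag_quotient (F := F) le_rfl
    (QuotientGroup.mk' (Cfsg.Inn (Matrix.ProjectiveSpecialLinearGroup (Fin 2) F)))
    (QuotientGroup.ker_mk' _)
  refine ⟨φ, ?_, ?_, ?_⟩
  · intro x
    obtain ⟨y, rfl⟩ := hT.2 x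
    obtain ⟨β, rfl⟩ := hs y
    exact ⟨QuotientGroup.mk β, rfl⟩
  · rw [hker]; exact hcyc
  · rw [hker, hcard, ← Nat.card_eq_fintype_card, hF]

end Cfsg.Agent.S2602
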