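import Cfsg.Statements.S2603
import Cfsg.Agent.KnownB.Proj.Unit.Out

set_option autoImplicit false
open Cfsg

namespace Cfsg.Agent.S2603
open Cfsg.Agent.KnownB Cfsg.Agent.KnownB.Proj.Unit

/-- Structure of the outer automorphism group of PSU_n(q), n ≥ 3, (n, q) ≠ (3, 2), q = p^f, realised over the field with q² elements: it has a normal cyclic subgroup of order gcd(n, q + 1) (diagonal automorphisms) with cyclic quotient of order 2f (generated by the Frobenius field automorphism of the field with q² elements, whose f-th power is the graph automorphism). -/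
theorem result {K : Type*} [Field K] [Fintype K] {p f q n : ℕ} [Fact p.Prime] (hf : 1 ≤ f) (hq : q = p ^ f) (hK : Fintype.card K = q ^ 2) (hn : 3 ≤ n) (h32 : ¬ (n = 3 ∧ q = 2)) : ∃ φ : Cfsg.Out (Cfsg.PSU n K q) →* Multiplicative (ZMod (2 * f)), Function.Surjective φ ∧ IsCyclic φ.ker ∧ Nat.card φ.ker = Nat.gcd n (q + 1) := by
  classical
  subst hq
  have hK' : Nat.card K = p ^ (2 * f) := by
    rw [Nat.card_eq_fintype_card, hK, ← pow_mul, mul_comm]
  obtain ⟨e⟩ := AutPSL.exists_ringAut_equiv (F := K) hK' (by omega)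
  obtain ⟨π, hs, hk, -⟩ := exists_proj hK hn h32
  let φ := QuotientGroup.lift (Cfsg.Inn (Cfsg.PSU n K (p ^ f))) (e.toMonoidHom.comp π)
    (fun β hβ => by
      have h1 : π β = 1 := by
        rw [← MonoidHom.mem_ker, hk]
        obtain ⟨s, rfl⟩ := (mem_inn_psu_iff β).mp hβ
        exact ⟨_, rfl⟩
      rw [MonoidHom.mem_ker, MonoidHom.comp_apply, h1, map_one])
  have hker : φ.ker = (A n (p ^ f) K).range.map
      (QuotientGroup.mk' (Cfsg.Inn (Cfsg.PSU n K (p ^ f)))) := by
    rw [QuotientGroup.ker_lift, ← MonoidHom.comap_ker,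
      (MonoidHom.ker_eq_bot_iff e.toMonoidHom).mpr e.injective, MonoidHom.comap_bot, hk]
  obtain ⟨hcyc, hcard⟩ := exists_diag_quotient hK hn
    (QuotientGroup.mk' (Cfsg.Inn (Cfsg.PSU n K (p ^ f)))) (QuotientGroup.ker_mk' _)
  refine ⟨φ, fun x => ?_, ?_, ?_⟩
  · obtain ⟨β, hβ⟩ := hs (e.symm x)
    exact ⟨QuotientGroup.mk β, by
      show e (π β) = x
      rw [hβ, e.apply_symm_apply]⟩
  · rw [hker]; exact hcyc
  · rw [hker, hcard]

end Cfsg.Agent.S2603
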