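import Cfsg.Statements.S2604
import Cfsg.Agent.KnownB.Proj.Orth.OddOut

set_option autoImplicit false
open Cfsg

namespace Cfsg.Agent.S2604
open Cfsg.Agent.KnownB Cfsg.Agent.KnownB.Proj.Orth

/-- Outer automorphism group of the simple orthogonal group Ω_(2m+1)(q), m ≥ 3, q = p^f odd: it is the direct product of a group of order 2 (diagonal automorphisms, from SO) and a cyclic group of order f (field automorphisms). -/
theorem result {F : Type*} [Field F] [Fintype F] {p f m : ℕ} [Fact p.Prime] (hf : 1 ≤ f) (hF : Fintype.card F = p ^ f) (hp : p ≠ 2) (hm : 3 ≤ m) : Nonempty (Cfsg.Out (Cfsg.POmega F (Cfsg.quadFormOdd m F)) ≃* Multiplicative (ZMod 2 × ZMod f)) := by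
  classical
  have h2 : (2 : F) ≠ 0 := two_ne_zero_of_odd (by
    rw [hF]; exact ((Nat.Prime.eq_two_or_odd' Fact.out).resolve_left hp).pow)
  have hFn : Nat.card F = p ^ f := by rw [Nat.card_eq_fintype_card, hF]
  obtain ⟨e⟩ := AutPSL.exists_ringAut_equiv (F := F) hFn hf
  obtain ⟨D, hD, ⟨Ψ⟩⟩ := exists_out_odd (F := F) hm h2
  rw [← Forms.coe_qOdd m F]
  have e2 : D ≃* Multiplicative (ZMod 2) := mulEquivOfPrimeCardEq (p := 2) hD (by simp)
  exact ⟨Ψ.symm.trans ((MulEquiv.prodCongr e2 (((MulEquiv.subgroupCongr fieldSub_qOdd).trans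
    Subgroup.topEquiv).trans e)).trans (MulEquiv.prodMultiplicative (ZMod 2) (ZMod f)).symm)⟩

end Cfsg.Agent.S2604
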