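import Cfsg.Statements.S2605
import Cfsg.Agent.KnownB.Proj.Orth.Binary
import Cfsg.Agent.KnownB.Proj.Orth.OddApps
import Cfsg.Agent.S0818

set_option autoImplicit false
set_option maxHeartbeats 1000000
open Cfsg

namespace Cfsg.Agent.S2605
open Matrix Cfsg.Agent.KnownB.Proj.Orth

variable {F : Type*} [Field F] {n : ℕ}

/-- Frobenius twisted by the binary part. -/
def step (a b : F) (v : (Fin n ⊕ Fin n) ⊕ Fin 2 → F) : (Fin n ⊕ Fin n) ⊕ Fin 2 → F :=
  Sum.elim (fun i => v (Sum.inl i) ^ 2)
    ![v (Sum.inr 0) ^ 2 + b * v (Sum.inr 1) ^ 2, a * v (Sum.inr 1) ^ 2]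

/-- `step` as an additive map. -/
def stepHom (a b : F) (h2 : (2 : F) = 0) :
    ((Fin n ⊕ Fin n) ⊕ Fin 2 → F) →+ ((Fin n ⊕ Fin n) ⊕ Fin 2 → F) :=
  AddMonoidHom.mk' (step a b) fun u v => by
    funext j
    rcases j with i | j
    · simp [step]; linear_combination u (Sum.inl i) * v (Sum.inl i) * h2
    · fin_cases j <;> simp [step]
      · linear_combination (u (Sum.inr 0) * v (Sum.inr 0) + b * u (Sum.inr 1) * v (Sum.inr 1)) * h2
      · linear_combination a * u (Sum.inr 1) * v (Sum.inr 1) * h2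

/-- Partial traces. -/
def trSum (ζ : F) (k : ℕ) : F := ∑ i ∈ Finset.range k, ζ ^ 2 ^ i

theorem trSum_succ (ζ : F) [CharP F 2] (k : ℕ) : trSum ζ (k + 1) = trSum ζ k ^ 2 + ζ := by
  haveI : Fact (Nat.Prime 2) := ⟨Nat.prime_two⟩
  rw [trSum, Finset.sum_range_succ', trSum, sum_pow_char, pow_zero, pow_one]
  congr 1
  refine Finset.sum_congr rfl fun i _ => ?_
  rw [← pow_mul, ← pow_succ]

theorem trSum_eq_one [Fintype F] {f : ℕ} (hf : 1 ≤ f) (hF : Fintype.card F = 2 ^ f) (h2 : (2 : F) = 0)
    {ζ : F} (hζ : ∀ t : F, t ^ 2 + t + ζ ≠ 0) : trSum ζ f = 1 := by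
  classical
  haveI : Fact (Nat.Prime 2) := ⟨Nat.prime_two⟩
  haveI : CharP F 2 := (CharP.charP_iff_prime_eq_zero Nat.prime_two).2 (by exact_mod_cast h2)
  have hq : ∀ x : F, x ^ 2 ^ f = x := fun x => by rw [← hF]; exact FiniteField.pow_card x
  let W : F →+ F := AddMonoidHom.mk' (fun x => trSum x f) fun x y => by
    simp only [trSum, add_pow_char_pow, Finset.sum_add_distrib]
  have hsq : ∀ x : F, trSum x f ^ 2 = trSum x f := fun x => by
    have h1 := trSum_succ x f
    rw [trSum, Finset.sum_range_succ, hq] at h1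
    exact (add_right_cancel h1).symm
  let AS : F →+ F := AddMonoidHom.mk' (fun u => u ^ 2 + u) fun u v => by
    linear_combination u * v * h2
  have hAS : ∀ u : F, trSum (u ^ 2 + u) f = 0 := fun u => by
    show W (u ^ 2 + u) = 0
    have : W (u ^ 2) = W u ^ 2 := by
      show trSum (u ^ 2) f = trSum u f ^ 2
      rw [trSum, trSum, sum_pow_char]
      exact Finset.sum_congr rfl fun i _ => by rw [← pow_mul, ← pow_mul, mul_comm]
    rw [map_add, this, show W u ^ 2 = W u from hsq u]
    linear_combination W u * h2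
  have hker : (AS.ker : Set F) = {0, 1} := by
    ext u
    simp only [SetLike.mem_coe, AddMonoidHom.mem_ker, Set.mem_insert_iff, Set.mem_singleton_iff]
    show u ^ 2 + u = 0 ↔ _
    constructor
    · intro h
      rcases mul_eq_zero.mp (show u * (u + 1) = 0 by linear_combination h) with h | h
      · exact Or.inl h
      · exact Or.inr (by linear_combination h - h2)
    · rintro (rfl | rfl)
      · ring
      · linear_combination h2
  have hidx : AS.range.index = 2 := by
    have h1 : Nat.card AS.ker = 2 := by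
      rw [show Nat.card AS.ker = Nat.card (AS.ker : Set F) from rfl, Nat.card_coe_set_eq, hker,
        Set.ncard_pair zero_ne_one]
    have h3 := AddSubgroup.card_mul_index AS.range
    have h4 := AddSubgroup.card_mul_index AS.ker
    rw [AddSubgroup.index_ker, h1] at h4
    exact Nat.eq_of_mul_eq_mul_left Nat.card_pos (by rw [h3, ← h4, mul_comm])
  rcases mul_eq_zero.mp (show trSum ζ f * (trSum ζ f - 1) = 0 by linear_combination hsq ζ) with h | h
  · exfalso
    have hne : ζ ∉ AS.range := by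
      rintro ⟨u, hu⟩
      change u ^ 2 + u = ζ at hu
      exact hζ u (by rw [← hu]; linear_combination (u ^ 2 + u) * h2)
    have hall : ∀ x, W x = 0 := by
      intro x
      by_cases hx : x ∈ AS.range
      · obtain ⟨u, rfl⟩ := hx; exact hAS u
      · obtain ⟨u, hu⟩ := (AddSubgroup.add_mem_iff_of_index_two hidx).mpr (iff_of_false hx hne)
        have h0 : W (x + ζ) = 0 := hu ▸ hAS u
        rw [map_add, show W ζ = 0 from h, add_zero] at h0
        exact h0
    set P : Polynomial F := ∑ i ∈ Finset.range f, Polynomial.X ^ 2 ^ i with hP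
    have hdeg : P.natDegree ≤ 2 ^ (f - 1) := Polynomial.natDegree_sum_le_of_forall_le _ _ fun i hi => by
      rw [Polynomial.natDegree_X_pow]
      exact Nat.pow_le_pow_right two_pos (by have := Finset.mem_range.mp hi; omega)
    have hcoeff : P.coeff 1 = 1 := by
      rw [hP, Polynomial.finsetSum_coeff, Finset.sum_eq_single 0]
      · simp
      · intro i _ hi
        rw [Polynomial.coeff_X_pow, if_neg]
        exact fun h => hi (Nat.pow_eq_one.mp h.symm |>.resolve_left (by norm_num))
      · intro h; simp at h; omega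
    have hP0 : P = 0 := Polynomial.eq_zero_of_natDegree_lt_card_of_eval_eq_zero P
      (f := fun x : F => x) Function.injective_id (fun x => by
        rw [hP, Polynomial.eval_finsetSum]
        simp only [Polynomial.eval_pow, Polynomial.eval_X]
        exact hall x) (lt_of_le_of_lt hdeg (by
          rw [hF]; exact Nat.pow_lt_pow_right one_lt_two (by omega)))
    rw [hP0, Polynomial.coeff_zero] at hcoeff
    exact zero_ne_one hcoeff
  · exact sub_eq_zero.mp h

theorem iter_step (a b : F) (ha : a ≠ 0) (h2 : (2 : F) = 0) (k : ℕ)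
    (v : (Fin n ⊕ Fin n) ⊕ Fin 2 → F) :
    (step a b)^[k] v = Sum.elim (fun i => v (Sum.inl i) ^ 2 ^ k)
      ![v (Sum.inr 0) ^ 2 ^ k + a ^ 2 ^ k * trSum (b / a ^ 2) k * v (Sum.inr 1) ^ 2 ^ k,
        a ^ 2 ^ k / a * v (Sum.inr 1) ^ 2 ^ k] := by
  haveI : CharP F 2 := (CharP.charP_iff_prime_eq_zero Nat.prime_two).2 (by exact_mod_cast h2)
  induction k with
  | zero =>
    funext j
    rcases j with i | j
    · simp
    · fin_cases j <;> simp [trSum, ha]
  | succ k ih =>
    have hp : ∀ x : F, x ^ 2 ^ (k + 1) = (x ^ 2 ^ k) ^ 2 := fun x => by rw [← pow_mul, ← pow_succ]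
    rw [Function.iterate_succ_apply', ih, trSum_succ]
    funext j
    rcases j with i | j
    · simp [step, hp]
    · fin_cases j <;> simp [step, hp] <;> field_simp
      linear_combination (v (Sum.inr 0) ^ 2 ^ k * a ^ 2 ^ k * trSum (b / a ^ 2) k *
        v (Sum.inr 1) ^ 2 ^ k) * a ^ 2 * h2

theorem frob_dvd [Fintype F] [CharP F 2] {f k : ℕ} (hF : Fintype.card F = 2 ^ f)
    (h : (frobeniusEquiv F 2) ^ k = 1) : f ∣ k := by
  haveI : Fact (Nat.Prime 2) := ⟨Nat.prime_two⟩
  have hp : ∀ (j : ℕ) (x : F), ((frobeniusEquiv F 2) ^ j) x = x ^ 2 ^ j := by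
    intro j
    induction j with
    | zero => intro x; simp
    | succ j ih =>
      intro x
      rw [pow_succ', RingAut.mul_apply, ih, frobeniusEquiv_apply, frobenius_def, ← pow_mul, ← pow_succ]
  have hk : ∀ x : F, x ^ 2 ^ k = x := fun x => by rw [← hp, h]; rfl
  obtain ⟨g, hg⟩ := IsCyclic.exists_ofOrder_eq_natCard (α := Fˣ)
  have hu : g ^ (2 ^ k - 1) = 1 := Units.ext (mul_right_cancel₀ g.ne_zero (by
    rw [Units.val_pow_eq_pow_val, ← pow_succ, Nat.sub_add_cancel Nat.one_le_two_pow, hk,
      Units.val_one, one_mul]))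
  have hd := orderOf_dvd_of_pow_eq_one hu
  rw [hg, Nat.card_units, Nat.card_eq_fintype_card, hF] at hd
  have h1 := Nat.pow_sub_one_mod_pow_sub_one 2 f k
  rw [Nat.mod_eq_zero_of_dvd hd] at h1
  refine Nat.dvd_of_mod_eq_zero ?_
  by_contra hne
  have : 2 ≤ 2 ^ (k % f) := Nat.le_self_pow hne 2
  omega


/-- Outer automorphism group of PΩ⁻_2m(q), m ≥ 4, q = 2^f: cyclic of order 2f, generated by a semilinear map inducing the Frobenius automorphism of the field (its f-th power is a graph automorphism, an orthogonal transvection). -/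
theorem result {F : Type*} [Field F] [Fintype F] {f m : ℕ} (hf : 1 ≤ f) (hF : Fintype.card F = 2 ^ f) (hm : 4 ≤ m) (a b : F) (hab : ∀ z₁ z₂ : F, z₁ ^ 2 + a * z₁ * z₂ + b * z₂ ^ 2 = 0 → z₁ = 0 ∧ z₂ = 0) : IsCyclic (Cfsg.Out (Cfsg.POmega F (Cfsg.quadFormMinus (m - 1) F a b))) ∧ Nat.card (Cfsg.Out (Cfsg.POmega F (Cfsg.quadFormMinus (m - 1) F a b))) = 2 * f := by
  classical
  obtain ⟨n, rfl⟩ : ∃ n, m = n + 1 := ⟨m - 1, by omega⟩
  change IsCyclic (Cfsg.Out (Cfsg.POmega F (Cfsg.quadFormMinus n F a b))) ∧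
    Nat.card (Cfsg.Out (Cfsg.POmega F (Cfsg.quadFormMinus n F a b))) = 2 * f
  haveI : Fact (Nat.Prime 2) := ⟨Nat.prime_two⟩
  have h2 : (2 : F) = 0 := Forms.card_field_parity.2 (by
    rw [hF]; exact Nat.even_iff.mp (even_two.pow_of_ne_zero (by omega)))
  haveI : CharP F 2 := (CharP.charP_iff_prime_eq_zero Nat.prime_two).2 (by exact_mod_cast h2)
  have ha : a ≠ 0 := fun h0 => by
    obtain ⟨s, hs⟩ := Forms.exists_sq_of_two_eq_zero h2 b
    refine one_ne_zero (hab s 1 ?_).2
    rw [h0, hs]
    linear_combination b * h2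
  have hG := good_qMinus (F := F) n (by omega) hab
  have hQnd := hG.nd
  have hFn : Nat.card F = 2 ^ f := by rw [Nat.card_eq_fintype_card, hF]
  -- the order
  have hcard : Nat.card (Cfsg.Out (Cfsg.POmega F ⇑(Forms.qMinus n F a b))) = 2 * f := by
    have h : Nat.card (MulAut (Cfsg.POmega F ⇑(Forms.qMinus n F a b))) =
        2 * f * Nat.card (Cfsg.POmega F ⇑(Forms.qMinus n F a b)) := by
      rw [Forms.coe_qMinus]
      have := S0818.result 2 f hf hF (n + 1) hm a b hab
      simp only [if_true] at this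
      exact this
    have hI : Nat.card (Cfsg.Inn (Cfsg.POmega F ⇑(Forms.qMinus n F a b))) =
        Nat.card (Cfsg.POmega F ⇑(Forms.qMinus n F a b)) :=
      (Nat.card_congr (MonoidHom.ofInjective (conj_injective hG)).toEquiv).symm
    rw [← Subgroup.card_mul_index (Cfsg.Inn (Cfsg.POmega F ⇑(Forms.qMinus n F a b))), hI,
      Subgroup.index_eq_card, mul_comm (2 * f)] at h
    exact Nat.eq_of_mul_eq_mul_left Nat.card_pos h
  rw [← Forms.coe_qMinus]
  refine ⟨?_, hcard⟩
  -- the semilinear map
  let σ : F ≃+* F := frobeniusEquiv F 2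
  obtain ⟨S, hSσ, hSL⟩ : ∃ S : SSim (Forms.qMinus n F a b), S.σ = σ ∧ ∀ v, S.L v = step a b v := by
    have hinj : Function.Injective (stepHom (n := n) a b h2) := by
      rw [injective_iff_map_eq_zero]
      intro v hv
      have h1 : v (Sum.inr 1) = 0 := by
        have := congrFun hv (Sum.inr 1)
        simpa [stepHom, step, ha] using this
      funext j
      rcases j with i | j
      · have := congrFun hv (Sum.inl i)
        simpa [stepHom, step] using this
      · fin_cases j
        · have := congrFun hv (Sum.inr 0)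
          simpa [stepHom, step, h1] using this
        · exact h1
    refine ⟨⟨AddEquiv.ofBijective _ hinj.bijective_of_finite, σ, 1, one_ne_zero, fun c v => ?_,
      fun v => ?_⟩, rfl, fun v => rfl⟩
    · show step a b (c • v) = (frobeniusEquiv F 2) c • step a b v
      rw [frobeniusEquiv_apply, frobenius_def]
      funext j
      rcases j with i | j
      · simp [step, mul_pow]
      · fin_cases j <;> simp [step] <;> ring
    · show Forms.qMinus n F a b (step a b v) = 1 * (frobeniusEquiv F 2) (Forms.qMinus n F a b v)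
      rw [frobeniusEquiv_apply, one_mul, Forms.coe_qMinus]
      simp only [Cfsg.quadFormMinus, map_add, map_sum, map_mul, frobenius_def, step,
        Sum.elim_inl, Sum.elim_inr, Matrix.cons_val_zero, Matrix.cons_val_one, mul_pow]
      linear_combination ((v (Sum.inr 0)) ^ 2 * b * (v (Sum.inr 1)) ^ 2 +
        a ^ 2 * b * (v (Sum.inr 1)) ^ 4) * h2
  set e := MulAut.congr (pomEquiv (Forms.qMinus n F a b))
  set β := e.symm S.A with hβ
  have hiter : ∀ k, ∃ T : SSim (Forms.qMinus n F a b), T.A = S.A ^ k ∧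
      ∀ v, T.L v = (step a b)^[k] v := by
    intro k
    induction k with
    | zero =>
      refine ⟨SSim.ofOm 1, by rw [SSim.A_ofOm, pow_zero, QuotientGroup.mk_one, map_one],
        fun v => rfl⟩
    | succ k ih =>
      obtain ⟨T, hT, hL⟩ := ih
      refine ⟨T.trans S, by rw [SSim.A_trans, hT, pow_succ'], fun v => ?_⟩
      rw [Function.iterate_succ_apply', ← hL, ← hSL]
      rfl
  -- the reflection
  set u : (Fin n ⊕ Fin n) ⊕ Fin 2 → F := Sum.elim 0 ![1, 0] with hu
  have hQu : Forms.qMinus n F a b u = 1 := by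
    rw [Forms.coe_qMinus]; simp [hu, Cfsg.quadFormMinus]
  set r := (Forms.isometryEquiv (Forms.qMinus n F a b)).symm
    (Forms.reflection (Forms.qMinus n F a b) u) with hr
  have hrv : ∀ v : (Fin n ⊕ Fin n) ⊕ Fin 2 → F,
      (step a b)^[f] v = (((r : GL ((Fin n ⊕ Fin n) ⊕ Fin 2) F)) : Matrix _ _ F) *ᵥ v := by
    intro v
    have hq : ∀ x : F, x ^ 2 ^ f = x := fun x => by rw [← hF]; exact FiniteField.pow_card x
    rw [← Forms.isometryEquiv_apply, hr, MulEquiv.apply_symm_apply, Forms.reflection_apply, hQu,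
      inv_one, one_mul, iter_step a b ha h2 f v, trSum_eq_one hf hF h2 (fun t => ?_), hq, mul_one]
    · funext j
      rw [Forms.polar_qMinus]
      rcases j with i | j
      · simp [hu, hq]
      · fin_cases j <;> simp [hu, hq, ha]
        linear_combination (a * v (Sum.inr 1) + v (Sum.inr 0)) * h2
    · intro h
      refine one_ne_zero (hab (a * t) 1 ?_).2
      field_simp at h
      linear_combination h
  have hβf : β ^ f = A _ (isoInc _ r) := by
    obtain ⟨T, hT, hL⟩ := hiter f
    have hQ1 : ∀ v : (Fin n ⊕ Fin n) ⊕ Fin 2 → F, Forms.qMinus n F a b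
        (((isoInc _ r).1 : Matrix _ _ F) *ᵥ (⇑(1 : F ≃+* F) ∘ v)) =
          1 * (1 : F ≃+* F) (Forms.qMinus n F a b v) := fun v => by
      rw [one_mul]
      exact Forms.mem_isometryGroup_iff.mp r.2 v
    have h1 := (isInduced_iff one_ne_zero hQ1 _).mp
      ((isInduced_iff' (g := isoInc _ r) (1 : fieldSub _) _).mpr (by rw [map_one, mul_one]))
    refine e.injective ?_
    rw [map_pow, hβ, MulEquiv.apply_symm_apply, ← hT]
    refine Eq.trans ?_ h1.symm
    refine SSim.eq_A _ fun k k' hk => T.A_spec fun v => ?_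
    rw [hL, hrv, hL, hrv]
    exact hk v
  let q := QuotientGroup.mk' (Cfsg.Inn (Cfsg.POmega F ⇑(Forms.qMinus n F a b)))
  have hnot : q β ^ f ≠ 1 := by
    rw [← map_pow, hβf]
    intro h
    have h' := (QuotientGroup.eq_one_iff _).mp h
    rw [Inn_eq_map] at h'
    obtain ⟨_, ⟨w, hw, rfl⟩, he⟩ := h'
    have h3 : A _ (isoInc (Forms.qMinus n F a b) (r⁻¹ * w)) = 1 := by
      rw [map_mul, map_mul, map_inv, map_inv, he, inv_mul_cancel]
    obtain ⟨c, hc⟩ := (A_eq_one_iff hG _).mp h3
    have hc1 : c * c = 1 := by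
      rw [← mult_sc hG, hc, ← MonoidHom.mem_ker, mult_ker hG]
      exact ⟨_, rfl⟩
    have hc2 : c = 1 := Units.ext (by
      have hc' : (c : F) * c = 1 := by simpa using congrArg Units.val hc1
      refine sub_eq_zero.mp (mul_self_eq_zero.mp ?_)
      rw [Units.val_one]
      linear_combination hc' - ((c : F) - 1) * h2)
    rw [hc2, map_one] at hc
    have hrw : r = w := inv_mul_eq_one.mp (Subtype.ext (congrArg (fun g : GO _ => g.1) hc.symm))
    rw [← hrw, SetLike.mem_coe, Forms.mem_omega_iff, hr, MulEquiv.apply_symm_apply] at hw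
    have := ((Forms.commutator_index_two h2 hQnd (Or.inr (by simp; omega)) (by simp)).2 _).mp hw
    rw [Forms.dickson_reflection hQnd (by rw [hQu]; exact one_ne_zero)] at this
    exact one_ne_zero this
  obtain ⟨π, -, hk, hπ⟩ := exists_projAut hG (exists_ssim_minus hab)
  have hdvd : f ∣ orderOf (q β) := by
    have h1 : β ^ orderOf (q β) ∈ Cfsg.Inn (Cfsg.POmega F ⇑(Forms.qMinus n F a b)) := by
      have := pow_orderOf_eq_one (q β)
      rw [← map_pow] at this
      exact (QuotientGroup.eq_one_iff _).mp this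
    have h3 : π (β ^ orderOf (q β)) = 1 := by
      rw [← MonoidHom.mem_ker, hk]
      obtain ⟨g, -, hg⟩ := (Inn_eq_map (Forms.qMinus n F a b)).le h1
      exact ⟨g, hg⟩
    rw [map_pow, hπ β S (MulEquiv.apply_symm_apply _ _), hSσ] at h3
    exact frob_dvd hF h3
  have hle : orderOf (q β) ∣ 2 * f := by
    rw [← hcard]
    exact orderOf_dvd_natCard (q β)
  have horder : orderOf (q β) = 2 * f := by
    obtain ⟨k, hk'⟩ := hdvd
    rw [hk', mul_comm 2 f] at hle
    rcases (Nat.dvd_prime Nat.prime_two).mp (Nat.dvd_of_mul_dvd_mul_left (by omega) hle) with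
      rfl | rfl
    · exfalso
      rw [mul_one] at hk'
      exact hnot (hk' ▸ pow_orderOf_eq_one (q β))
    · rw [hk', mul_comm]
  exact isCyclic_of_orderOf_eq_card (q β) (horder.trans hcard.symm)

end Cfsg.Agent.S2605
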