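import Cfsg.Statements.S2606
import Cfsg.Agent.KnownB.Proj.Orth.MinusFrob
import Cfsg.Agent.KnownB.Proj.OutGroups
import Cfsg.Agent.S2727
-- import your own Cfsg.Agent.* helpers here

set_option autoImplicit false
open Cfsg

namespace Cfsg.Agent.S2606
open Cfsg.Agent.KnownB.Proj Cfsg.Agent.KnownB.Proj.Orth

/-- Outer automorphism group of PΩ⁻_2m(q), m ≥ 4, q = p^f odd: it is dihedral of order 8 times cyclic of order f when q ≡ 3 (mod 4) and m is odd, and otherwise the direct product of a group of order 2 with a cyclic group of order 2f. -/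
theorem result {F : Type*} [Field F] [Fintype F] {p f m : ℕ} [Fact p.Prime] (hf : 1 ≤ f) (hF : Fintype.card F = p ^ f) (hp : p ≠ 2) (hm : 4 ≤ m) (a b : F) (hab : ∀ z₁ z₂ : F, z₁ ^ 2 + a * z₁ * z₂ + b * z₂ ^ 2 = 0 → z₁ = 0 ∧ z₂ = 0) : if p ^ f % 4 = 3 ∧ Odd m then Nonempty (Cfsg.Out (Cfsg.POmega F (Cfsg.quadFormMinus (m - 1) F a b)) ≃* DihedralGroup 4 × Multiplicative (ZMod f)) else Nonempty (Cfsg.Out (Cfsg.POmega F (Cfsg.quadFormMinus (m - 1) F a b)) ≃* Multiplicative (ZMod 2 × ZMod (2 * f))) := by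
  classical
  obtain ⟨n, rfl⟩ : ∃ n, m = n + 1 := ⟨m - 1, by omega⟩
  show if p ^ f % 4 = 3 ∧ Odd (n + 1) then
      Nonempty (Cfsg.Out (Cfsg.POmega F (Cfsg.quadFormMinus n F a b)) ≃*
        DihedralGroup 4 × Multiplicative (ZMod f))
    else Nonempty (Cfsg.Out (Cfsg.POmega F (Cfsg.quadFormMinus n F a b)) ≃*
        Multiplicative (ZMod 2 × ZMod (2 * f)))
  have hprime := (Fact.out : p.Prime)
  haveI : CharP F p := charP_of_card_eq_prime_pow hF
  have hodd : Odd (Fintype.card F) := hF ▸ (hprime.odd_of_ne_two hp).pow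
  have hn : 3 ≤ n := by omega
  rw [← Forms.coe_qMinus]
  set Q := Forms.qMinus n F a b with hQ
  have hG := good_qMinus (F := F) n hn hab
  obtain ⟨π, -, hπk, hπ⟩ := exists_projAut hG (exists_ssim_minus hab)
  obtain ⟨β, w, hw, hβπ, hβf⟩ := exists_frob_lift hn hF hp hab hπ
  set φ₀ := frobeniusEquiv F p
  -- the field group
  obtain ⟨e₁⟩ := Cfsg.Agent.KnownB.AutPSL.exists_ringAut_equiv (F := F)
    (by rw [Nat.card_eq_fintype_card, hF]) hf
  haveI : NeZero f := ⟨by omega⟩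
  haveI : Finite (F ≃+* F) := Finite.of_equiv _ e₁.toEquiv.symm
  have hcard : Nat.card (F ≃+* F) = f := by
    rw [Nat.card_congr e₁.toEquiv, Nat.card_congr Multiplicative.toAdd, Nat.card_zmod]
  have hord : orderOf φ₀ = f :=
    Nat.dvd_antisymm (hcard ▸ orderOf_dvd_natCard φ₀)
      (frobenius_dvd hF (pow_orderOf_eq_one φ₀))
  have hgen : ∀ σ : F ≃+* F, σ ∈ Subgroup.zpowers φ₀ := fun σ => by
    rw [show Subgroup.zpowers φ₀ = ⊤ from Subgroup.eq_top_of_card_eq _ (by
      rw [Nat.card_zpowers, hord, hcard])]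
    exact Subgroup.mem_top σ
  let e : Multiplicative (ZMod f) ≃* (F ≃+* F) := zmodMulEquivOfGenerator hgen hcard
  have he : e.symm φ₀ = Multiplicative.ofAdd 1 := by
    rw [MulEquiv.symm_apply_eq]; simp [e]
  set I := Cfsg.Inn (Cfsg.POmega F ⇑Q) with hI
  have hIk : I ≤ ((e.symm.toMonoidHom).comp π).ker := fun x hx => by
    rw [MonoidHom.mem_ker, MonoidHom.comp_apply]
    rw [hI, Inn_eq_map] at hx
    obtain ⟨g, -, hg⟩ := hx
    rw [show π x = 1 from MonoidHom.mem_ker.mp (by rw [hπk]; exact ⟨g, hg⟩), map_one]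
  let πo : Cfsg.Out (Cfsg.POmega F ⇑Q) →* Multiplicative (ZMod f) := QuotientGroup.lift I _ hIk
  have hπo : ∀ x, πo (QuotientGroup.mk x) = e.symm (π x) := fun x => rfl
  let ψ : ↥(Cfsg.pgoAut F ⇑Q) →* Cfsg.Out (Cfsg.POmega F ⇑Q) :=
    (QuotientGroup.mk' I).comp (Cfsg.pgoAut F ⇑Q).subtype
  have hψk : ψ.ker = I.subgroupOf (Cfsg.pgoAut F ⇑Q) := by
    rw [← MonoidHom.comap_ker, QuotientGroup.ker_mk']; rfl
  have hker : πo.ker = ψ.range := by
    ext o
    obtain ⟨x, rfl⟩ := QuotientGroup.mk_surjective o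
    rw [MonoidHom.mem_ker, hπo, map_eq_one_iff _ e.symm.injective, ← MonoidHom.mem_ker, hπk,
      MonoidHom.mem_range]
    constructor
    · intro h; exact ⟨⟨x, by rw [pgoAut_eq]; exact h⟩, rfl⟩
    · rintro ⟨⟨y, hy⟩, hyx⟩
      rw [pgoAut_eq] at hy
      have h1 : y⁻¹ * x ∈ I := QuotientGroup.eq.mp hyx
      rw [hI, Inn_eq_map] at h1
      obtain ⟨g, -, hg⟩ := h1
      rw [← mul_inv_cancel_left y x, ← hg]
      exact mul_mem hy ⟨g, rfl⟩
  obtain ⟨h1, h2⟩ := minus_results hodd hn hab (⇑Q) rfl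
  rw [hF] at h1 h2
  split_ifs with hc
  · have hc' : Even n ∧ p ^ f % 4 = 3 := ⟨by
      rcases hc.2 with ⟨t, ht⟩; exact ⟨t, by omega⟩, hc.1⟩
    obtain ⟨-, φ, hφs, hφk⟩ := h1 hc'
    have hfo : Odd f := by
      rcases Nat.even_or_odd f with ⟨t, rfl⟩ | h
      · exfalso
        obtain ⟨s, hs⟩ := (hprime.odd_of_ne_two hp).pow (n := t)
        have := hc.1
        rw [pow_add, hs, show (2 * s + 1) * (2 * s + 1) = 4 * (s * s + s) + 1 by ring] at this
        omega
      · exact h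
    refine out_dihedral hfo πo (fun z => ?_) ((MulEquiv.subgroupCongr hker).trans
      ((QuotientGroup.quotientKerEquivRange ψ).symm.trans
        ((QuotientGroup.quotientMulEquivOfEq (hψk.trans hφk.symm)).trans
          (QuotientGroup.quotientKerEquivOfSurjective φ hφs))))
    obtain ⟨j, rfl⟩ := zmod_gen_zpow z
    exact ⟨QuotientGroup.mk β ^ j, by rw [map_zpow, hπo, hβπ, he]⟩
  · have hc' : ¬ (Even n ∧ p ^ f % 4 = 3) := fun h => hc ⟨h.2, h.1.add_one⟩
    set D := Cfsg.autSubgroupOf fun x : MulAut (Cfsg.POmega F ⇑Q) =>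
      ∃ g : GL ((Fin n ⊕ Fin n) ⊕ Fin 2) F, g ∈ Cfsg.Geo.quadSimilarityGroup (F := F) ⇑Q ∧
        Cfsg.PreservesSingularClassesMinus n a b (g : Matrix _ _ F) ∧
        Cfsg.IsInducedBySemilinearPOmega ⇑Q g (RingEquiv.refl F) x
    obtain ⟨⟨φD, hDs, hDk⟩, φ, hφs, hφk⟩ := h2 hc'
    obtain ⟨ε, hε, hεp⟩ := exists_par_minus (F := F) (m := n) (by omega) hab
    have hD := inndiag_minus_ker hεp
    haveI hDn : (ε.ker.map (A Q)).Normal := minus_normal hn hab hε
    have hD' : D = ε.ker.map (A Q) := hD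
    obtain ⟨⟨dd, hdd⟩, hd1⟩ := hDs (Multiplicative.ofAdd 1)
    have hall : ∀ z : Multiplicative (ZMod 2), z = 1 ∨ z = Multiplicative.ofAdd 1 := by decide
    have hcase : ∀ x : D, (x : MulAut _) ∈ I ∨ φD x = Multiplicative.ofAdd 1 := fun x => by
      rcases hall (φD x) with h | h
      · exact Or.inl (by have : x ∈ φD.ker := h; rw [hDk] at this; exact this)
      · exact Or.inr h
    have hdI : dd ∉ I := fun h => by
      have h' : (⟨dd, hdd⟩ : D) ∈ φD.ker := by rw [hDk]; exact h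
      rw [MonoidHom.mem_ker, hd1] at h'
      exact absurd h' (by decide)
    have hsame : ∀ x : D, (x : MulAut _) ∉ I →
        (QuotientGroup.mk (x : MulAut _) : Cfsg.Out (Cfsg.POmega F ⇑Q)) = QuotientGroup.mk dd := by
      intro x hx
      rw [QuotientGroup.eq]
      have h' : x⁻¹ * ⟨dd, hdd⟩ ∈ φD.ker := by
        rw [MonoidHom.mem_ker, map_mul, map_inv, (hcase x).resolve_left hx, hd1, inv_mul_cancel]
      rw [hDk] at h'
      exact h'
    set δ : Cfsg.Out (Cfsg.POmega F ⇑Q) := QuotientGroup.mk dd with hδ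
    set γ : Cfsg.Out (Cfsg.POmega F ⇑Q) := QuotientGroup.mk (β ^ f) with hγ
    have hrnot : β ^ f ∉ D := by
      rw [hβf, hD']
      rintro ⟨g, hg, hgr⟩
      have h3 : A Q (g⁻¹ * reflGO Q w) = 1 := by rw [map_mul, map_inv, hgr, inv_mul_cancel]
      obtain ⟨u, hu⟩ := (A_eq_one_iff hG _).mp h3
      have h4 := hε.refl w hw
      rw [show reflGO Q w = g * sc Q u by rw [hu, mul_inv_cancel_left], map_mul, hε.scal,
        show ε g = 1 from hg, one_mul] at h4
      exact absurd h4 (by decide)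
    have hID : I ≤ D := fun x hx => by
      rw [hD']
      rw [hI, Inn_eq_map] at hx
      obtain ⟨_, ⟨s, hs, rfl⟩, rfl⟩ := hx
      have hhom : (ε.comp (isoInc Q)) s = 1 := Abelianization.commutator_subset_ker _ hs
      exact ⟨isoInc Q s, hhom, rfl⟩
    refine out_klein hf πo ?_ δ (QuotientGroup.mk β) (by rw [hπo, hβπ, he]) ?_ ?_ ?_ ?_ ?_ ?_ ?_
    · rw [hker, ← Nat.card_congr ((QuotientGroup.quotientKerEquivRange ψ)).toEquiv, hψk, ← hφk,
        Nat.card_congr (QuotientGroup.quotientKerEquivOfSurjective φ hφs).toEquiv,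
        Nat.card_congr Multiplicative.toAdd, Nat.card_prod, Nat.card_zmod]
    · rw [hδ, hπo]
      rw [hD'] at hdd
      obtain ⟨g, -, hg⟩ := hdd
      rw [show π dd = 1 from MonoidHom.mem_ker.mp (by rw [hπk]; exact ⟨g, hg⟩), map_one]
    · rw [hδ, ← QuotientGroup.mk_pow, QuotientGroup.eq_one_iff]
      have h' : (⟨dd, hdd⟩ : D) ^ 2 ∈ φD.ker := by
        rw [MonoidHom.mem_ker, map_pow, hd1]; decide
      rw [hDk] at h'
      exact h'
    · rw [hδ, Ne, QuotientGroup.eq_one_iff]; exact hdI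
    · rw [mul_comm, pow_mul, ← QuotientGroup.mk_pow, ← QuotientGroup.mk_pow, QuotientGroup.eq_one_iff,
        hβf, ← map_pow, sq]
      have hrr : reflGO Q w * reflGO Q w = 1 := by
        show isoInc Q _ * isoInc Q _ = 1
        rw [← map_mul, ← map_mul, Forms.reflection_mul_self, map_one, map_one]
      rw [hrr, map_one]
      exact one_mem _
    · rw [← QuotientGroup.mk_pow, Ne, QuotientGroup.eq_one_iff]
      exact fun h => hrnot (hID h)
    · rw [← QuotientGroup.mk_pow, hδ, Ne, QuotientGroup.eq]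
      intro h
      exact hrnot (by simpa using mul_mem hdd (hID h))
    · have hmem : β * dd * β⁻¹ ∈ D := by
        rw [hD'] at hdd ⊢; exact hDn.conj_mem dd hdd β
      have hIn : I.Normal := inferInstance
      have hnot : β * dd * β⁻¹ ∉ I := fun h => hdI (by simpa [mul_assoc] using hIn.conj_mem _ h β⁻¹)
      have h3 := hsame ⟨_, hmem⟩ hnot
      rw [QuotientGroup.mk_mul, QuotientGroup.mk_mul, QuotientGroup.mk_inv, mul_inv_eq_iff_eq_mul]
        at h3
      exact h3.symm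

end Cfsg.Agent.S2606
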