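import Cfsg.Statements.S2608
import Cfsg.Agent.KnownB.Proj.Orth.PlusOutOdd
import Cfsg.Agent.KnownB.D4.Transport
-- import your own Cfsg.Agent.* helpers here

set_option autoImplicit false
open Cfsg

namespace Cfsg.Agent.S2608
open Cfsg.Agent.KnownB

/-- Outer automorphism group of PΩ⁺_2m(q), q = p^f odd: for m = 4 it is S_4 × C_f (triality); for m ≥ 5 it is C_2 × C_2 × C_f when q ≡ 3 (mod 4) and m is odd, and D_8 × C_f otherwise. -/
theorem result {F : Type*} [Field F] [Fintype F] {p f m : ℕ} [Fact p.Prime] (hf : 1 ≤ f) (hF : Fintype.card F = p ^ f) (hp : p ≠ 2) (hm : 4 ≤ m) : if m = 4 then Nonempty (Cfsg.Out (Cfsg.POmega F (Cfsg.quadFormPlus m F)) ≃* Equiv.Perm (Fin 4) × Multiplicative (ZMod f)) else if p ^ f % 4 = 3 ∧ Odd m then Nonempty (Cfsg.Out (Cfsg.POmega F (Cfsg.quadFormPlus m F)) ≃* Multiplicative (ZMod 2 × ZMod 2 × ZMod f)) else Nonempty (Cfsg.Out (Cfsg.POmega F (Cfsg.quadFormPlus m F)) ≃* DihedralGroup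 4 × Multiplicative (ZMod f)) := by
  have hodd : Odd (Fintype.card F) := hF ▸ ((Fact.out : p.Prime).odd_of_ne_two hp).pow
  split_ifs with h4 hc
  · subst h4
    exact D4.out_pomega_odd hF hf hodd
  all_goals obtain ⟨n, rfl⟩ : ∃ n, m = n + 1 := ⟨m - 1, by omega⟩
  · rw [← Forms.coe_qPlus]
    obtain ⟨-, h1, -⟩ := Proj.Orth.plus_results hodd (m := n + 1) (by omega)
      (⇑(Forms.qPlus (n + 1) F)) rfl
    obtain ⟨φ, hφ, hφk⟩ := h1 ⟨hc.2, by rw [hF]; exact hc.1⟩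
    obtain ⟨e⟩ := Proj.Orth.out_plus_odd (F := F) (n := n) (by omega) hF hf hodd
      (Proj.Orth.range_equiv_of_pgo φ hφ hφk)
      (Or.inl (by rw [Nat.card_congr Multiplicative.toAdd, Nat.card_prod, Nat.card_zmod]))
    exact ⟨(e.trans (MulEquiv.prodMultiplicative _ _).symm).trans
      (AddEquiv.prodAssoc (M := ZMod 2) (N := ZMod 2) (P := ZMod f)).toMultiplicative⟩
  · rw [← Forms.coe_qPlus]
    obtain ⟨-, -, h1⟩ := Proj.Orth.plus_results hodd (m := n + 1) (by omega)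
      (⇑(Forms.qPlus (n + 1) F)) rfl
    obtain ⟨φ, hφ, hφk⟩ := h1 fun h => hc ⟨by rw [← hF]; exact h.2, h.1⟩
    exact Proj.Orth.out_plus_odd (F := F) (n := n) (by omega) hF hf hodd
      (Proj.Orth.range_equiv_of_pgo φ hφ hφk)
      (Or.inr ⟨by rw [DihedralGroup.nat_card], DihedralGroup.r 1, DihedralGroup.sr 0, by
        unfold Commute SemiconjBy; decide⟩)

end Cfsg.Agent.S2608
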