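import Cfsg.Statements.S2614
import Cfsg.Agent.Linear.SpinorList
import Cfsg.Agent.Forms.Models
-- import your own Cfsg.Agent.* helpers here

set_option autoImplicit false
open Cfsg

namespace Cfsg.Agent.S2614

/-- For the form x_0² + Σ x_j y_j on F^(2m+1), F finite with q elements, q odd, and 1 ≤ i ≤ m: the involution of determinant one negating the first i hyperbolic pairs (and fixing x_0 and the other pairs) lies in Ω_(2m+1)(q) (commutator subgroup of the orthogonal group) if and only if q^i ≡ 1 (mod 4); its (−1)-eigenspace is a hyperbolic 2i-space. -/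
theorem result {F : Type*} [Field F] [Fintype F] {q : ℕ} (hF : Fintype.card F = q) (hq : Odd q) {m : ℕ} (i : ℕ) (hi : 1 ≤ i) (him : i ≤ m) : (∃ g : ↥(Cfsg.isometryGroup F (Cfsg.quadFormOdd m F)), g ∈ Cfsg.Omega F (Cfsg.quadFormOdd m F) ∧ ((g : Matrix.GeneralLinearGroup (Unit ⊕ (Fin m ⊕ Fin m)) F) : Matrix (Unit ⊕ (Fin m ⊕ Fin m)) (Unit ⊕ (Fin m ⊕ Fin m)) F) = Matrix.diagonal (fun k : Unit ⊕ (Fin m ⊕ Fin m) => if (Sum.elim (fun _ : Unit => i) (Sum.elim (fun j : Fin m => (j : ℕ)) (fun j : Fin m => (j : ℕ))) k) < i then (-1 : F) else 1)) ↔ q ^ i % 4 = 1 := by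
  have h2F : (2 : F) ≠ 0 := by
    intro h
    haveI : CharP F 2 := CharTwo.of_one_ne_zero_of_two_eq_zero one_ne_zero h
    obtain ⟨n, -, hn⟩ := FiniteField.card F 2
    rw [hF] at hn
    rw [hn, Nat.odd_iff, Nat.pow_mod] at hq
    norm_num at hq
  refine Cfsg.Agent.Linear.SpinorList.pairs_iff (Cfsg.Agent.Forms.qOdd m F) _ (Cfsg.Agent.Forms.coe_qOdd m F) hF hq
    (Cfsg.Agent.Forms.qOdd_nondegenerate h2F) hi (fun j : Fin i => Sum.inr (Sum.inl (Fin.castLE him j)))
    (fun j => Sum.inr (Sum.inr (Fin.castLE him j))) (fun a b h => Fin.castLE_injective him (Sum.inl.inj (Sum.inr.inj h)))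
    (fun a b h => Fin.castLE_injective him (Sum.inr.inj (Sum.inr.inj h))) (fun a b h => by simp at h)
    (fun j x => ?_) (fun j x => ?_) (fun j => ?_) (fun j => ?_) _ (fun j => by simp) (fun j => by simp) (fun k h1 h2 => ?_)
  · simp [QuadraticMap.polar, Cfsg.quadFormOdd, Pi.single_apply, add_mul, mul_add, Finset.sum_add_distrib]
  · simp [QuadraticMap.polar, Cfsg.quadFormOdd, Pi.single_apply, add_mul, mul_add, Finset.sum_add_distrib]
  · simp [Cfsg.quadFormOdd, Pi.single_apply]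
  · simp [Cfsg.quadFormOdd, Pi.single_apply]
  · rcases k with u | j | j
    · simp
    · rw [if_neg]; exact fun h => h1 ⟨j, h⟩ (by simp [Fin.ext_iff])
    · rw [if_neg]; exact fun h => h2 ⟨j, h⟩ (by simp [Fin.ext_iff])

end Cfsg.Agent.S2614
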