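import Cfsg.Statements.S2617
import Cfsg.Agent.KnownB.WittBasis

set_option autoImplicit false
open Cfsg

namespace Cfsg.Agent.S2617
open Cfsg.Agent

theorem aniso_of_no_root {F : Type*} [Field F] {ζ : F} (hζ : ∀ t : F, t ^ 2 + t + ζ ≠ 0) :
    ∀ z₁ z₂ : F, z₁ ^ 2 + 1 * z₁ * z₂ + ζ * z₂ ^ 2 = 0 → z₁ = 0 ∧ z₂ = 0 := by
  intro a b h
  by_cases hb : b = 0
  · subst hb; simp at h; exact ⟨h, rfl⟩
  · refine absurd ?_ (hζ (a / b))
    field_simp
    linear_combination h


/-- The two standard quadratic forms of even dimension 2m over a finite field are not isometric: there is no linear isomorphism carrying the elliptic form Σ_(i<m−1) x_i y_i + z₁² + z₁z₂ + ζ z₂² (t² + t + ζ without roots) to the hyperbolic form Σ_(i<m) x_i y_i (they have different Witt index). -/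
theorem result {F : Type*} [Field F] [Finite F] {m : ℕ} (hm : 1 ≤ m) (ζ : F) (hζ : ∀ t : F, t ^ 2 + t + ζ ≠ 0) (g : (Fin m ⊕ Fin m → F) ≃ₗ[F] ((Fin (m - 1) ⊕ Fin (m - 1)) ⊕ Fin 2 → F)) : ¬ (∀ v : Fin m ⊕ Fin m → F, Cfsg.quadFormMinus (m - 1) F 1 ζ (g v) = Cfsg.quadFormPlus m F v) := by
  intro hg
  have hz := aniso_of_no_root hζ
  have hU : ∀ u ∈ (Forms.coreSub F (Sum.inl : Fin m → Fin m ⊕ Fin m)).map g.toLinearMap,
      Forms.qMinus (m - 1) F 1 ζ u = 0 := by
    rintro _ ⟨v, hv, rfl⟩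
    rw [Forms.coe_qMinus]
    show Cfsg.quadFormMinus (m - 1) F 1 ζ (g v) = 0
    rw [hg v, ← Forms.coe_qPlus]
    exact Forms.qPlus_core m |>.zero v hv
  have h := KnownB.finrank_le_of_core (Forms.qMinus_core (m - 1) 1 ζ hz) hU
  rw [LinearEquiv.finrank_map_eq, show Module.finrank F (Forms.coreSub F (Sum.inl :
      Fin m → Fin m ⊕ Fin m)) = Fintype.card (Fin m) from
      Forms.finrank_comap_equiv _ Sum.inl_injective,
    show Module.finrank F (Forms.coreSub F (Sum.inl ∘ Sum.inl :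
      Fin (m - 1) → (Fin (m - 1) ⊕ Fin (m - 1)) ⊕ Fin 2)) = Fintype.card (Fin (m - 1)) from
      Forms.finrank_comap_equiv _ (Sum.inl_injective.comp Sum.inl_injective),
    Fintype.card_fin, Fintype.card_fin] at h
  omega

end Cfsg.Agent.S2617
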