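import Cfsg.Statements.S2619


set_option autoImplicit false
open Cfsg

namespace Cfsg.Agent.S2619


/-- Over a finite field of characteristic two, given an alternating bilinear form B on a finite-dimensional space, a basis (v_i) and scalars (λ_i), there is exactly one quadratic form whose polar form is B and whose value at each v_i is λ_i. -/
theorem result {F V ι : Type*} [Field F] [Finite F] [CharP F 2] [AddCommGroup V] [Module F V] [Fintype ι] (b : Module.Basis ι F V) (B : LinearMap.BilinForm F V) (hB : B.IsAlt) (c : ι → F) : ∃! Q : QuadraticForm F V, QuadraticMap.polarBilin Q = B ∧ ∀ i, Q (b i) = c i := by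
  classical
  letI : LinearOrder ι := LinearOrder.lift' (Fintype.equivFin ι) (Fintype.equivFin ι).injective
  let B' : LinearMap.BilinForm F V := b.constr F fun i => b.constr F fun j =>
    if i < j then B (b i) (b j) else if i = j then c i else 0
  have hB' : ∀ i j, B' (b i) (b j) = if i < j then B (b i) (b j) else if i = j then c i else 0 := by
    intro i j; simp only [B', Module.Basis.constr_basis]
  have hsum : ∀ x y, B' x y + B' y x = B x y := by
    intro x y
    have h : B' + B'.flip = B := by
      refine LinearMap.BilinForm.ext_basis b fun i j => ?_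
      show B' (b i) (b j) + B' (b j) (b i) = _
      rw [hB', hB']
      rcases lt_trichotomy i j with h | h | h
      · rw [if_pos h, if_neg h.not_gt, if_neg h.ne', add_zero]
      · subst h
        rw [if_neg (lt_irrefl i), if_pos rfl, CharTwo.add_self_eq_zero, hB (b i)]
      · rw [if_neg h.not_gt, if_neg h.ne', if_pos h, zero_add]
        have := LinearMap.IsAlt.neg hB (b i) (b j)
        rw [← this, CharTwo.neg_eq]
    exact LinearMap.congr_fun₂ h x y
  refine ⟨LinearMap.BilinMap.toQuadraticMap B', ⟨?_, fun i => ?_⟩, ?_⟩
  · apply LinearMap.ext₂
    intro x y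
    simp only [QuadraticMap.polarBilin_apply_apply, QuadraticMap.polar,
      LinearMap.BilinMap.toQuadraticMap_apply, map_add, LinearMap.add_apply, ← hsum x y]
    ring
  · simp [hB']
  · rintro Q' ⟨hp, hv⟩
    ext x
    have hx : x ∈ Submodule.span F (Set.range b) := b.span_eq.symm ▸ Submodule.mem_top
    induction hx using Submodule.span_induction with
    | mem y hy => obtain ⟨i, rfl⟩ := hy; simp [hv, hB']
    | zero => simp
    | add y z _ _ hy hz =>
      have h1 : QuadraticMap.polar ⇑Q' y z = B y z := LinearMap.congr_fun₂ hp y z
      rw [QuadraticMap.map_add (⇑Q') y z, hy, hz, h1, ← hsum y z]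
      simp only [LinearMap.BilinMap.toQuadraticMap_apply, map_add, LinearMap.add_apply]
      ring
    | smul a y _ hy => simp only [QuadraticMap.map_smul, hy]

end Cfsg.Agent.S2619
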