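import Cfsg.Statements.S2622
import Cfsg.Agent.Forms.SymmFormTwo

set_option autoImplicit false
open Cfsg

namespace Cfsg.Agent.S2622

open Module Cfsg.Agent.Forms

theorem exists_orthonormal {F V : Type*} [Field F] [CharP F 2] [AddCommGroup V] [Module F V]
    {B : LinearMap.BilinForm F V} (hS : B.IsSymm) :
    ∀ (k r : ℕ) (b : (Fin k ⊕ Fin k) ⊕ Fin (r + 1) → V), IsTwoBasis B b →
      ∃ e : Fin (2 * k + (r + 1)) → V, IsOrthonormalTwo B e := by
  intro k
  induction k with
  | zero =>
    intro r b hb
    refine ⟨fun i => b (Sum.inr (Fin.cast (by omega) i)), fun i j => ?_⟩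
    simpa using hb.orth (Fin.cast (by omega) i) (Fin.cast (by omega) j)
  | succ k ih =>
    intro r b hb
    set e := b (Sum.inl (Sum.inl (Fin.last k))) with he
    set f := b (Sum.inl (Sum.inr (Fin.last k))) with hf
    set z := b (Sum.inr 0) with hz
    have hee : B e e = 0 := hb.symp.ll _ _
    have hff : B f f = 0 := hb.symp.rr _ _
    have hef : B e f = 1 := by simpa using hb.symp.lr (Fin.last k) (Fin.last k)
    have hfe : B f e = 1 := by rw [hS.eq]; exact hef
    have hzz : B z z = 1 := by simpa using hb.orth 0 0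
    have hez : B e z = 0 := hb.cross _ _
    have hfz : B f z = 0 := hb.cross _ _
    have hze : B z e = 0 := by rw [hS.eq]; exact hez
    have hzf : B z f = 0 := by rw [hS.eq]; exact hfz
    have hrest : ∀ i : Fin r, B z (b (Sum.inr i.succ)) = 0 ∧ B e (b (Sum.inr i.succ)) = 0 ∧
        B f (b (Sum.inr i.succ)) = 0 := fun i => ⟨by
      simpa [(Fin.succ_ne_zero i).symm] using hb.orth 0 i.succ, hb.cross _ _, hb.cross _ _⟩
    let p : Fin 3 → V := ![z + e, z + f, z + e + f]
    have hp : ∀ i j, B (p i) (p j) = if i = j then 1 else 0 := fun i j => by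
      fin_cases i <;> fin_cases j <;>
        simp [p, hee, hff, hef, hfe, hzz, hez, hfz, hze, hzf, CharTwo.add_self_eq_zero]
    have hpr : ∀ i (l : Fin r), B (p i) (b (Sum.inr l.succ)) = 0 := fun i l => by
      fin_cases i <;> simp [p, (hrest l).1, (hrest l).2.1, (hrest l).2.2]
    let o' : Fin 3 ⊕ Fin r → V := Sum.elim p fun l => b (Sum.inr l.succ)
    have ho' : ∀ i j, B (o' i) (o' j) = if i = j then 1 else 0 := by
      rintro (i | i) (j | j)
      · simp [o', hp]
      · simp [o', hpr]
      · rw [hS.eq]; simp [o', hpr]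
      · simpa [o'] using hb.orth i.succ j.succ
    let ε : Fin (r + 2 + 1) ≃ Fin 3 ⊕ Fin r := (finCongr (by omega)).trans finSumFinEquiv.symm
    have hb' : IsTwoBasis B (Sum.elim (fun x => b (Sum.inl (Sum.map Fin.castSucc Fin.castSucc x)))
        fun i => o' (ε i)) := by
      refine ⟨⟨fun i j => ?_, fun i j => hb.symp.ll _ _, fun i j => hb.symp.rr _ _⟩,
        fun i j => by simpa using ho' (ε i) (ε j), fun x i => ?_⟩
      · simpa using hb.symp.lr i.castSucc j.castSucc
      · have hx : B (b (Sum.inl (Sum.map Fin.castSucc Fin.castSucc x))) e = 0 ∧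
            B (b (Sum.inl (Sum.map Fin.castSucc Fin.castSucc x))) f = 0 := by
          rcases x with x | x
          · refine ⟨hb.symp.ll _ _, ?_⟩
            simpa [hf, (Fin.castSucc_lt_last x).ne] using hb.symp.lr x.castSucc (Fin.last k)
          · refine ⟨?_, hb.symp.rr _ _⟩
            rw [hS.eq]
            simpa [he, (Fin.castSucc_lt_last x).ne'] using hb.symp.lr (Fin.last k) x.castSucc
        have hxz := hb.cross (Sum.map Fin.castSucc Fin.castSucc x) 0
        change B (b (Sum.inl (Sum.map Fin.castSucc Fin.castSucc x))) (o' (ε i)) = 0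
        rcases ε i with l | l
        · fin_cases l <;> simp [o', p, hx.1, hx.2, hz, hxz]
        · exact hb.cross _ _
    obtain ⟨e', he'⟩ := ih (r + 2)
      (Sum.elim (fun x => b (Sum.inl (Sum.map Fin.castSucc Fin.castSucc x))) fun i => o' (ε i)) hb'
    have hc : 2 * (k + 1) + (r + 1) = 2 * k + (r + 2 + 1) := by omega
    refine ⟨fun i => e' (Fin.cast hc i), fun i j => ?_⟩
    rw [he' (Fin.cast hc i) (Fin.cast hc j)]
    exact if_congr (Fin.cast_injective hc).eq_iff rfl rfl

/-- Over a finite field of characteristic two, a non-degenerate symmetric bilinear form that is not alternating (some vector v has B(v, v) ≠ 0) admits an orthonormal basis. -/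
theorem result {F V : Type*} [Field F] [Finite F] [CharP F 2] [AddCommGroup V] [Module F V] [FiniteDimensional F V] {n : ℕ} (hV : Module.finrank F V = n) (B : LinearMap.BilinForm F V) (hS : B.IsSymm) (hB : B.Nondegenerate) (hna : ∃ v : V, B v v ≠ 0) : ∃ b : Module.Basis (Fin n) F V, ∀ i j, B (b i) (b j) = if i = j then 1 else 0 := by
  obtain ⟨k, r, hd, ⟨b, hb⟩, hc⟩ := exists_twoBasis hS hB
  obtain ⟨r, rfl⟩ : ∃ r', r = r' + 1 := by
    rcases hc with ⟨-, halt⟩ | ⟨h, -⟩
    · obtain ⟨v, hv⟩ := hna
      exact absurd (halt v) hv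
    · exact ⟨r - 1, by omega⟩
  obtain ⟨e, he⟩ := exists_orthonormal hS k r b hb
  have hn : n = 2 * k + (r + 1) := by omega
  subst hn
  have hli : LinearIndependent F e := by
    rw [Fintype.linearIndependent_iff]
    intro c hc i
    have := congrArg (fun u => B u (e i)) hc
    simpa [map_sum, fun j => he j i] using this
  exact ⟨basisOfLinearIndependentOfCardEqFinrank hli (by simp [hd]), fun i j => by
    simpa using he i j⟩

end Cfsg.Agent.S2622
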