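import Cfsg.Statements.S2623
import Cfsg.Agent.Forms.DiscrModels

set_option autoImplicit false
open Cfsg

namespace Cfsg.Agent.S2623

/-- Over a finite field of odd order, two quadratic forms on F^n with non-degenerate polar forms are isometric (related by an invertible linear change of variables) if and only if their discriminants (determinants of the Gram matrices of their polar forms) lie in the same square class. -/
theorem result {F : Type*} [Field F] [Fintype F] (h2 : (2 : F) ≠ 0) {n : ℕ} (Q₁ Q₂ : QuadraticForm F (Fin n → F)) (h₁ : (QuadraticMap.polarBilin Q₁).Nondegenerate) (h₂ : (QuadraticMap.polarBilin Q₂).Nondegenerate) : (∃ g : (Fin n → F) ≃ₗ[F] (Fin n → F), ∀ v, Q₂ (g v) = Q₁ v) ↔ IsSquare ((Matrix.of (fun i j : Fin n => QuadraticMap.polar ⇑Q₁ (Pi.single i 1) (Pi.single j 1))).det * (Matrix.of (fun i j : Fin n => QuadraticMap.polar ⇑Q₂ (Pi.single i 1) (Pi.single j 1))).det) := by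
  have hh : ∀ Q : QuadraticForm F (Fin n → F),
      Matrix.of (fun i j : Fin n => QuadraticMap.polar ⇑Q (Pi.single i 1) (Pi.single j 1)) =
        LinearMap.BilinForm.toMatrix (Pi.basisFun F (Fin n)) (QuadraticMap.polarBilin Q) := fun Q => by
    ext i j; simp [LinearMap.BilinForm.toMatrix_apply]
  rw [hh, hh]
  set c := Pi.basisFun F (Fin n)
  constructor
  · rintro ⟨g, hg⟩
    obtain ⟨t, ht, htd⟩ := Cfsg.Agent.Forms.det_toMatrix_sq (QuadraticMap.polarBilin Q₂) (c.map g) c
    have e : LinearMap.BilinForm.toMatrix (c.map g) (QuadraticMap.polarBilin Q₂) =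
        LinearMap.BilinForm.toMatrix c (QuadraticMap.polarBilin Q₁) := by
      ext i j
      simp [LinearMap.BilinForm.toMatrix_apply, QuadraticMap.polar, ← map_add, hg]
    rw [htd, e]
    exact ⟨t * (LinearMap.BilinForm.toMatrix c (QuadraticMap.polarBilin Q₁)).det, by ring⟩
  · intro h
    rcases n with _ | k
    · exact ⟨LinearEquiv.refl F _, fun v => by
        rw [Subsingleton.elim v 0, map_zero, map_zero, map_zero]⟩
    have hsymm : ∀ Q : QuadraticForm F (Fin (k + 1) → F),
        LinearMap.BilinForm.IsSymm (QuadraticMap.polarBilin Q) := fun Q =>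
      ⟨fun x y => QuadraticMap.polar_comm (⇑Q) x y⟩
    obtain ⟨e, he⟩ := Cfsg.Agent.Forms.exists_isometry_of_det h2 (hsymm Q₁) h₁ (hsymm Q₂) h₂
      (n := k) (by simp) (by simp) c c h
    refine ⟨e, fun v => ?_⟩
    have h1 := he v v
    simp only [QuadraticMap.polarBilin_apply_apply, QuadraticMap.polar_self, nsmul_eq_mul,
      Nat.cast_ofNat] at h1
    exact mul_left_cancel₀ h2 h1

end Cfsg.Agent.S2623
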