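import Cfsg.Statements.S2624
import Cfsg.Agent.KnownB.WittBasis

set_option autoImplicit false
open Cfsg

namespace Cfsg.Agent.S2624
open Cfsg.Agent


/-- For a quadratic form Q on F^n with non-degenerate polar form, F finite and n ≥ 2 even, every non-zero scalar c is the multiplier of some similarity: there is an invertible linear map g with Q(g v) = c·Q(v) for all v. -/
theorem result {F : Type*} [Field F] [Fintype F] {n : ℕ} (hn : 2 ≤ n) (he : Even n) (Q : QuadraticForm F (Fin n → F)) (hQ : (QuadraticMap.polarBilin Q).Nondegenerate) (c : F) (hc : c ≠ 0) : ∃ g : (Fin n → F) ≃ₗ[F] (Fin n → F), ∀ v, Q (g v) = c * Q v := by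
  classical
  obtain ⟨k, d, b, hd, hb⟩ := KnownB.exists_isWitt Q hQ
  have hcard := Module.finrank_eq_card_basis b
  simp only [Fintype.card_sum, Fintype.card_fin, Module.finrank_fin_fun] at hcard
  have finish : ∀ {ι : Type} [Fintype ι] [DecidableEq ι] (b : Module.Basis ι F (Fin n → F))
      (w : ι → (Fin n → F)), (∀ i, Q (w i) = c * Q (b i)) →
      (∀ i j, QuadraticMap.polar ⇑Q (w i) (w j) = c * QuadraticMap.polar ⇑Q (b i) (b j)) →
      ∃ g : (Fin n → F) ≃ₗ[F] (Fin n → F), ∀ v, Q (g v) = c * Q v := by
    intro ι _ _ b w hq hp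
    let g := b.constr F w
    have hsim : ∀ v, Q (g v) = c * Q v := by
      intro v
      let Q' : QuadraticForm F (ι → F) := (c • Q).comp b.equivFun.symm.toLinearMap
      have hb1 : ∀ i, b.equivFun.symm (Pi.single i 1) = b i := fun i => by
        simp [Module.Basis.equivFun_symm_apply, Pi.single_apply]
      have h := KnownB.map_eq_of_basis (Q.comp g) b Q'
        (fun i => by simp [Q', g, hb1, hq])
        (fun i j => by
          have hi := hb1 i
          have hj := hb1 j
          simp [QuadraticMap.polar, Q', g, hi, hj, map_add] at hp ⊢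
          rw [hp i j]; ring) v
      simpa [Q'] using h
    have hinj : Function.Injective g := by
      rw [injective_iff_map_eq_zero]
      intro v hv
      refine hQ.1 v fun y => ?_
      have h1 := hsim (v + y)
      rw [map_add, hv, zero_add, hsim, QuadraticMap.map_add Q] at h1
      have h2 : c * Q v = 0 := by rw [← hsim, hv, map_zero]
      rw [QuadraticMap.polarBilin_apply_apply]
      refine (mul_eq_zero.mp (?_ : c * QuadraticMap.polar ⇑Q v y = 0)).resolve_left hc
      linear_combination -h1 - h2
    exact ⟨LinearEquiv.ofInjectiveEndo g hinj, hsim⟩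
  obtain rfl | rfl : d = 0 ∨ d = 2 := by
    rcases he with ⟨r, hr⟩
    omega
  · refine finish b (Sum.elim (Sum.elim (fun i => c • b (Sum.inl (Sum.inl i)))
      (fun i => b (Sum.inl (Sum.inr i)))) Fin.elim0) ?_ ?_
    · rintro ((i | i) | r)
      · simp [hb.sing, QuadraticMap.map_smul]
      · simp [hb.sing]
      · exact r.elim0
    · rintro ((i | i) | r) ((j | j) | r')
      all_goals first
        | exact r.elim0
        | exact r'.elim0
        | simp [QuadraticMap.polar_smul_left, QuadraticMap.polar_smul_right, hb.ef, hb.ee, hb.ff,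
            QuadraticMap.polar_comm ⇑Q (b (Sum.inl (Sum.inr i))) (b (Sum.inl (Sum.inl j)))]
  · obtain ⟨b', ζ, hb', hζ, h0, h01, h1⟩ := KnownB.exists_plane_normal Q hQ b hb
    set x := b' (Sum.inr 0) with hx
    set y := b' (Sum.inr 1) with hy
    obtain ⟨α, β, hαβ⟩ : ∃ α β : F, α ^ 2 + α * β + ζ * β ^ 2 = c := by
      by_cases h2 : (2 : F) = 0
      · obtain ⟨s, hs⟩ := Forms.exists_sq_of_two_eq_zero h2 c
        exact ⟨s, 0, by rw [← hs]; ring⟩
      · have h4 : (4 : F) ≠ 0 := by
          rw [show (4 : F) = 2 * 2 by ring]; exact mul_ne_zero h2 h2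
        have hd : ζ - 1 / 4 ≠ 0 := by
          intro h
          refine hζ (-1 / 2) ?_
          linear_combination (norm := (field_simp; ring)) h
        obtain ⟨s, t, hst⟩ := Forms.exists_sq_add_sq_eq one_ne_zero hd c
        refine ⟨s - t / 2, t, ?_⟩
        rw [← hst]
        field_simp
        ring
    have hex : ∀ u v : F, Q (u • x + v • y) = u ^ 2 + u * v + ζ * v ^ 2 := fun u v => by
      rw [Forms.map_smul_add_smul, h0, h01, h1]; ring
    have hpol : ∀ u v u' v' : F, QuadraticMap.polar ⇑Q (u • x + v • y) (u' • x + v' • y) =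
        2 * u * u' + (u * v' + v * u') + 2 * ζ * v * v' := by
      intro u v u' v'
      rw [QuadraticMap.polar, show u • x + v • y + (u' • x + v' • y) = (u + u') • x + (v + v') • y by
        module, hex, hex, hex]
      ring
    have hperp : ∀ i (u v : F), QuadraticMap.polar ⇑Q (b' (Sum.inl i)) (u • x + v • y) = 0 := by
      intro i u v
      simp [hx, hy, QuadraticMap.polar_add_right, QuadraticMap.polar_smul_right, hb'.perp]
    have hperp' : ∀ i (u v : F), QuadraticMap.polar ⇑Q (u • x + v • y) (b' (Sum.inl i)) = 0 :=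
      fun i u v => by rw [QuadraticMap.polar_comm]; exact hperp i u v
    have hperp2 : ∀ i (r : Fin 2), QuadraticMap.polar ⇑Q (b' (Sum.inr r)) (b' (Sum.inl i)) = 0 :=
      fun i r => by rw [QuadraticMap.polar_comm]; exact hb'.perp i r
    have hpx : ∀ i, QuadraticMap.polar ⇑Q (b' (Sum.inl i)) x = 0 := fun i => hb'.perp i 0
    have hpy : ∀ i, QuadraticMap.polar ⇑Q (b' (Sum.inl i)) y = 0 := fun i => hb'.perp i 1
    have hpx' : ∀ i, QuadraticMap.polar ⇑Q x (b' (Sum.inl i)) = 0 := fun i => hperp2 i 0
    have hpy' : ∀ i, QuadraticMap.polar ⇑Q y (b' (Sum.inl i)) = 0 := fun i => hperp2 i 1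
    obtain ⟨γ, hγ⟩ : ∃ γ : F, γ = -(ζ * β) := ⟨_, rfl⟩
    refine finish b' (Sum.elim (Sum.elim (fun i => c • b' (Sum.inl (Sum.inl i)))
      (fun i => b' (Sum.inl (Sum.inr i))))
      ![α • x + β • y, γ • x + (α + β) • y]) ?_ ?_
    · rintro ((i | i) | r)
      · simp [hb'.sing, QuadraticMap.map_smul]
      · simp [hb'.sing]
      · fin_cases r
        · simp [hex, ← hx, h0, hαβ]
        · simp [hex, ← hy, h1]
          subst hγ
          linear_combination ζ * hαβ
    · have hxx : QuadraticMap.polar ⇑Q x x = 2 := by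
        rw [QuadraticMap.polar_self, h0, nsmul_one]; norm_num
      have hyy : QuadraticMap.polar ⇑Q y y = 2 * ζ := by
        rw [QuadraticMap.polar_self, h1, nsmul_eq_mul]; norm_num
      rintro ((i | i) | r) ((j | j) | r')
      all_goals (try fin_cases r) <;> (try fin_cases r')
      all_goals simp [QuadraticMap.polar_smul_left, QuadraticMap.polar_smul_right, hb'.ef, hb'.ee,
        hb'.ff, hperp, hperp', hpx, hpy, hpx', hpy', ← hx, ← hy, hpol, hxx, hyy, h01,
        QuadraticMap.polar_comm ⇑Q (b' (Sum.inl (Sum.inr _))) (b' (Sum.inl (Sum.inl _))),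
        QuadraticMap.polar_comm ⇑Q y x]
      all_goals subst hγ
      all_goals first
        | linear_combination 2 * hαβ
        | linear_combination hαβ
        | linear_combination 2 * ζ * hαβ

end Cfsg.Agent.S2624
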