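import Cfsg.Statements.S2625


set_option autoImplicit false
open Cfsg

namespace Cfsg.Agent.S2625


/-- For a quadratic form Q on F^n with non-degenerate polar form, F finite and n odd (so |F| is odd), the multiplier of any similarity is a square: if g is an invertible linear map with Q(g v) = c·Q(v) for all v then c is a square. -/
theorem result {F : Type*} [Field F] [Fintype F] {n : ℕ} (hn : Odd n) (Q : QuadraticForm F (Fin n → F)) (hQ : (QuadraticMap.polarBilin Q).Nondegenerate) (g : (Fin n → F) ≃ₗ[F] (Fin n → F)) (c : F) (hg : ∀ v, Q (g v) = c * Q v) : IsSquare c := by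
  classical
  obtain ⟨k, hk⟩ := hn
  set M := LinearMap.BilinForm.toMatrix' (QuadraticMap.polarBilin Q) with hM
  have hdet : M.det ≠ 0 :=
    Matrix.nondegenerate_iff_det_ne_zero.mp (LinearMap.BilinForm.nondegenerate_toMatrix'_iff.mpr hQ)
  set G := LinearMap.toMatrix' (g : (Fin n → F) →ₗ[F] (Fin n → F)) with hG
  have hcomp : LinearMap.BilinForm.comp (QuadraticMap.polarBilin Q) (g : (Fin n → F) →ₗ[F] _)
      (g : (Fin n → F) →ₗ[F] _) = c • QuadraticMap.polarBilin Q := by
    apply LinearMap.ext₂
    intro u v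
    show QuadraticMap.polar ⇑Q (g u) (g v) = c * QuadraticMap.polar ⇑Q u v
    simp only [QuadraticMap.polar, ← map_add, hg]
    ring
  have h1 := congrArg LinearMap.BilinForm.toMatrix' hcomp
  rw [LinearMap.BilinForm.toMatrix'_comp, map_smul, ← hM, ← hG] at h1
  have h2 := congrArg Matrix.det h1
  rw [Matrix.det_mul, Matrix.det_mul, Matrix.det_transpose, Matrix.det_smul, Fintype.card_fin] at h2
  have h3 : G.det ^ 2 = c ^ n := by
    apply mul_right_cancel₀ hdet
    rw [← h2]; ring
  rcases eq_or_ne c 0 with rfl | hc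
  · exact IsSquare.zero
  refine ⟨G.det / c ^ k, ?_⟩
  field_simp
  rw [h3, hk]
  ring

end Cfsg.Agent.S2625
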