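import Cfsg.Statements.S2626

set_option autoImplicit false
open Cfsg

namespace Cfsg.Agent.S2626

variable {F : Type*} [Field F] {k l : ℕ}

/-- Block diagonal matrices as a monoid hom. -/
def blockHom : Matrix (Fin k) (Fin k) F × Matrix (Fin l) (Fin l) F →*
    Matrix (Fin k ⊕ Fin l) (Fin k ⊕ Fin l) F where
  toFun p := Matrix.fromBlocks p.1 0 0 p.2
  map_one' := by simp [Matrix.fromBlocks_one]
  map_mul' a b := by simp [Matrix.fromBlocks_multiply]

/-- Block diagonal isometries. -/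
def blockIsom (Q₁ : QuadraticForm F (Fin k → F)) (Q₂ : QuadraticForm F (Fin l → F)) :
    ↥(Cfsg.isometryGroup F ⇑Q₁) × ↥(Cfsg.isometryGroup F ⇑Q₂) →*
    ↥(Cfsg.isometryGroup F (fun v : Fin k ⊕ Fin l → F => Q₁ (v ∘ Sum.inl) + Q₂ (v ∘ Sum.inr))) :=
  MonoidHom.codRestrict
    (((Units.map (blockHom (F := F) (k := k) (l := l))).comp MulEquiv.prodUnits.symm.toMonoidHom).comp
      ((Cfsg.isometryGroup F ⇑Q₁).subtype.prodMap (Cfsg.isometryGroup F ⇑Q₂).subtype))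
    _ (fun p => by
      intro u v
      have h1 := p.1.2 (u ∘ Sum.inl) (u ∘ Sum.inl)
      have h2 := p.2.2 (u ∘ Sum.inr) (u ∘ Sum.inr)
      simp only [Units.coeHom_apply, MonoidHom.coe_comp, Function.comp_apply, Units.coe_map,
        MonoidHom.coe_prodMap, Prod.map_fst, Prod.map_snd, MulEquiv.coe_toMonoidHom,
        MulEquiv.prodUnits, Subgroup.coe_subtype] at h1 h2 ⊢
      simp only [blockHom, MonoidHom.coe_mk, OneHom.coe_mk, Matrix.fromBlocks_mulVec,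
        Matrix.zero_mulVec, add_zero, zero_add, Sum.elim_comp_inl, Sum.elim_comp_inr]
      exact congrArg₂ (· + ·) h1 h2)

/-- Ω of an orthogonal direct sum contains the product of the Ω's: for quadratic forms Q₁ on F^k and Q₂ on F^l with non-degenerate polar forms (F finite) and Q = Q₁ ⊕ Q₂ on F^(k+l), if g₁ lies in Ω(Q₁) and g₂ in Ω(Q₂) (commutator subgroups of the orthogonal groups) then the block-diagonal isometry diag(g₁, g₂) lies in Ω(Q). -/
theorem result {F : Type*} [Field F] [Fintype F] {k l : ℕ} (Q₁ : QuadraticForm F (Fin k → F)) (Q₂ : QuadraticForm F (Fin l → F)) (h₁ : (QuadraticMap.polarBilin Q₁).Nondegenerate) (h₂ : (QuadraticMap.polarBilin Q₂).Nondegenerate) (g₁ : ↥(Cfsg.isometryGroup F ⇑Q₁)) (g₂ : ↥(Cfsg.isometryGroup F ⇑Q₂)) (hg₁ : g₁ ∈ Cfsg.Omega F ⇑Q₁) (hg₂ : g₂ ∈ Cfsg.Omega F ⇑Q₂) : ∃ g : ↥(Cfsg.isometryGroup F (fun v : Fin k ⊕ Fin l → F => Q₁ (v ∘ Sum.inl) + Q₂ (v ∘ Sum.inr))),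 g ∈ Cfsg.Omega F (fun v : Fin k ⊕ Fin l → F => Q₁ (v ∘ Sum.inl) + Q₂ (v ∘ Sum.inr)) ∧ ((g : Matrix.GeneralLinearGroup (Fin k ⊕ Fin l) F) : Matrix (Fin k ⊕ Fin l) (Fin k ⊕ Fin l) F) = Matrix.fromBlocks ((g₁ : Matrix.GeneralLinearGroup (Fin k) F) : Matrix (Fin k) (Fin k) F) 0 0 ((g₂ : Matrix.GeneralLinearGroup (Fin l) F) : Matrix (Fin l) (Fin l) F) := by
  refine ⟨blockIsom Q₁ Q₂ (g₁, g₂), ?_, rfl⟩
  have hc : ∀ {G H : Type _} [Group G] [Group H] (f : G →* H) (x : G),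
      x ∈ commutator G → f x ∈ commutator H := fun f x hx => by
    have := Subgroup.mem_map_of_mem f hx
    rw [commutator_def, Subgroup.map_commutator] at this
    exact Subgroup.commutator_mono le_top le_top this
  have e : (g₁, g₂) = ((g₁, 1) : ↥(Cfsg.isometryGroup F ⇑Q₁) × ↥(Cfsg.isometryGroup F ⇑Q₂)) * (1, g₂) := by
    simp
  rw [e, map_mul]
  exact mul_mem (hc ((blockIsom Q₁ Q₂).comp (MonoidHom.inl _ _)) g₁ hg₁)
    (hc ((blockIsom Q₁ Q₂).comp (MonoidHom.inr _ _)) g₂ hg₂)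

end Cfsg.Agent.S2626
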