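import Cfsg.Statements.S2627
import Cfsg.Agent.Linear.OmegaSum
-- import your own Cfsg.Agent.* helpers here

set_option autoImplicit false
open Cfsg

namespace Cfsg.Agent.S2627

/-- For an orthogonal direct sum Q = Q₁ ⊕ Q₂ of quadratic forms with non-degenerate polar forms over a finite field, an isometry g₁ of Q₁ extended by the identity on the second summand lies in Ω(Q) (the commutator subgroup of the orthogonal group of Q) if and only if g₁ lies in Ω(Q₁). (Excluded: the field of two elements when the first summand or the whole space has dimension 4, where the commutator subgroup of O⁺₄(2) is smaller than the group usually called Ω.) -/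
theorem result {F : Type*} [Field F] [Fintype F] {k l : ℕ} (h : Fintype.card F ≠ 2 ∨ (k ≠ 4 ∧ k + l ≠ 4)) (Q₁ : QuadraticForm F (Fin k → F)) (Q₂ : QuadraticForm F (Fin l → F)) (h₁ : (QuadraticMap.polarBilin Q₁).Nondegenerate) (h₂ : (QuadraticMap.polarBilin Q₂).Nondegenerate) (g₁ : ↥(Cfsg.isometryGroup F ⇑Q₁)) : (∃ g : ↥(Cfsg.isometryGroup F (fun v : Fin k ⊕ Fin l → F => Q₁ (v ∘ Sum.inl) + Q₂ (v ∘ Sum.inr))), g ∈ Cfsg.Omega F (fun v : Fin k ⊕ Fin l → F => Q₁ (v ∘ Sum.inl) + Q₂ (v ∘ Sum.inr)) ∧ ((g : Matrix.GeneralLinearGroup (Fin k ⊕ Fin l) F) : Matrix (Fin k ⊕ Fin l) (Fin k ⊕ Fin l) F) = Matrix.fromBlocks ((g₁ : Matrix.GeneralLinearGroup (Fin k) F) : Matrix (Fin k) (Fin k) F) 0 0 1) ↔ g₁ ∈ Cfsg.Omega F ⇑Q₁ := by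
  classical
  show (∃ g : ↥(Cfsg.isometryGroup F ⇑(Cfsg.Agent.Linear.OmegaSum.sumForm Q₁ Q₂)),
    g ∈ Cfsg.Omega F ⇑(Cfsg.Agent.Linear.OmegaSum.sumForm Q₁ Q₂) ∧ _) ↔ _
  have hgen : Subgroup.closure (Cfsg.Agent.Forms.reflectionSet Q₁) = ⊤ :=
    Cfsg.Agent.Forms.closure_reflectionSet Q₁ h₁ (by
      rw [Nat.card_eq_fintype_card, Module.finrank_pi, Fintype.card_fin]
      exact Or.inr (h.imp_right And.left))
  have hgen' : Subgroup.closure (Cfsg.Agent.Forms.reflectionSet (Cfsg.Agent.Linear.OmegaSum.sumForm Q₁ Q₂)) = ⊤ :=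
    Cfsg.Agent.Forms.closure_reflectionSet _ (Cfsg.Agent.Linear.OmegaSum.sumForm_nondeg h₁ h₂) (by
      rw [Nat.card_eq_fintype_card, Module.finrank_pi, Fintype.card_sum, Fintype.card_fin, Fintype.card_fin]
      exact Or.inr (h.imp_right And.right))
  set x := (Cfsg.Agent.Forms.isometryEquiv (Cfsg.Agent.Linear.OmegaSum.sumForm Q₁ Q₂)).symm
    (Cfsg.Agent.Linear.OmegaSum.emb (Cfsg.Agent.Forms.isometryEquiv Q₁ g₁, Cfsg.Agent.Forms.isometryEquiv Q₂ 1)) with hx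
  have hmem : x ∈ Cfsg.Omega F ⇑(Cfsg.Agent.Linear.OmegaSum.sumForm Q₁ Q₂) ↔ g₁ ∈ Cfsg.Omega F ⇑Q₁ := by
    rw [Cfsg.Agent.Forms.mem_omega_iff, Cfsg.Agent.Forms.mem_omega_iff, hx, MulEquiv.apply_symm_apply, map_one,
      Cfsg.Agent.Linear.OmegaSum.emb_left_mem_iff h₁ h₂ hgen hgen']
  have hM := Cfsg.Agent.Linear.OmegaSum.emb_matrix g₁ (1 : ↥(Cfsg.isometryGroup F ⇑Q₂))
  rw [← hmem]
  refine ⟨?_, fun hm => ⟨x, hm, hM⟩⟩
  rintro ⟨g, hg, hgM⟩
  rwa [show x = g from Subtype.ext (Units.ext (hM.trans hgM.symm))]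

end Cfsg.Agent.S2627
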