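import Cfsg.Statements.S2628
import Cfsg.Agent.Linear.OmegaSum
-- import your own Cfsg.Agent.* helpers here

set_option autoImplicit false
open Cfsg

namespace Cfsg.Agent.S2628

/-- For the orthogonal direct sum Q ⊕ Q of two copies of a quadratic form Q with non-degenerate polar form on F^k (F finite), every isometry g of Q acting diagonally, diag(g, g), lies in Ω(Q ⊕ Q), the commutator subgroup of the orthogonal group of Q ⊕ Q. (Excluded: k = 2 over the field of two elements, where Q ⊕ Q is the hyperbolic 4-space whose orthogonal group's commutator subgroup is smaller than the group usually called Ω.) -/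
theorem result {F : Type*} [Field F] [Fintype F] {k : ℕ} (h : Fintype.card F ≠ 2 ∨ k ≠ 2) (Q : QuadraticForm F (Fin k → F)) (hQ : (QuadraticMap.polarBilin Q).Nondegenerate) (g : ↥(Cfsg.isometryGroup F ⇑Q)) : ∃ x : ↥(Cfsg.isometryGroup F (fun v : Fin k ⊕ Fin k → F => Q (v ∘ Sum.inl) + Q (v ∘ Sum.inr))), x ∈ Cfsg.Omega F (fun v : Fin k ⊕ Fin k → F => Q (v ∘ Sum.inl) + Q (v ∘ Sum.inr)) ∧ ((x : Matrix.GeneralLinearGroup (Fin k ⊕ Fin k) F) : Matrix (Fin k ⊕ Fin k) (Fin k ⊕ Fin k) F) = Matrix.fromBlocks ((g : Matrix.GeneralLinearGroup (Fin k) F) : Matrix (Fin k) (Fin k) F) 0 0 ((g : Matrix.GeneralLinearGroup (Fin k) F) : Matrix (Fin k) (Fin k) F) := by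
  classical
  show ∃ x : ↥(Cfsg.isometryGroup F ⇑(Cfsg.Agent.Linear.OmegaSum.sumForm Q Q)),
    x ∈ Cfsg.Omega F ⇑(Cfsg.Agent.Linear.OmegaSum.sumForm Q Q) ∧ _
  refine ⟨_, ?_, Cfsg.Agent.Linear.OmegaSum.emb_matrix g g⟩
  rw [Cfsg.Agent.Forms.mem_omega_iff, MulEquiv.apply_symm_apply]
  refine Cfsg.Agent.Linear.OmegaSum.emb_diag_mem hQ (Cfsg.Agent.Forms.closure_reflectionSet _
    (Cfsg.Agent.Linear.OmegaSum.sumForm_nondeg hQ hQ) ?_) _
  rw [Nat.card_eq_fintype_card, Module.finrank_pi, Fintype.card_sum, Fintype.card_fin]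
  exact h.elim (fun h => Or.inr (Or.inl h)) (fun h => Or.inr (Or.inr (by omega)))

end Cfsg.Agent.S2628
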