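import Cfsg.Statements.S2636
import Cfsg.Agent.KnownB.AutPSL.Lang
import Mathlib.LinearAlgebra.Matrix.GeneralLinearGroup.Card

set_option autoImplicit false
open Cfsg

namespace Cfsg.Agent.S2636
open Cfsg.Agent.KnownB Cfsg.Agent.KnownB.AutPSL

theorem scalar_comm {n : ℕ} {F : Type*} [Field F] (u : Fˣ) (x : GL (Fin n) F) :
    Commute (Matrix.GeneralLinearGroup.scalar (Fin n) u) x := by
  have h : Matrix.GeneralLinearGroup.scalar (Fin n) u ∈ Subgroup.center (GL (Fin n) F) := by
    rw [Matrix.GeneralLinearGroup.center_eq_range_scalar]; exact ⟨u, rfl⟩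
  exact ((Subgroup.mem_center_iff.mp h) x).symm


/-- Centraliser of a field automorphism in PGL_n: let F be the field with q = q₀^r elements, σ a field automorphism of F of prime order r (so its fixed field has q₀ elements) and n ≥ 1. The invertible matrices g whose entrywise image under σ is a scalar multiple of g — those whose coset modulo scalars is fixed by σ — number (q − 1)/(q₀ − 1) · |GL_n(q₀)|; equivalently the centraliser in PGL_n(q) of the induced automorphism has the order of PGL_n(q₀). -/
theorem result {F : Type*} [Field F] [Fintype F] {q₀ r n : ℕ} (hr : r.Prime) (hn : 1 ≤ n) (hF : Fintype.card F = q₀ ^ r) (σ : F ≃+* F) (hσ : orderOf σ = r) : Nat.card {g : GL (Fin n) F // ∃ c : F, c ≠ 0 ∧ (g : Matrix (Fin n) (Fin n) F).map σ = c • (g : Matrix (Fin n) (Fin n) F)} = (q₀ ^ r - 1) / (q₀ - 1) * ∏ i : Fin n, (q₀ ^ n - q₀ ^ (i : ℕ)) := by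
  classical
  haveI : Finite (F ≃+* F) := Finite.of_injective (fun e => (e : F → F)) DFunLike.coe_injective
  haveI : NeZero n := ⟨by omega⟩
  let G := Subgroup.zpowers σ
  haveI : Fintype G := Fintype.ofFinite G
  haveI : FaithfulSMul G F := ⟨fun {a b} h => Subtype.ext (RingEquiv.ext h)⟩
  let K := FixedPoints.subfield G F
  haveI : Fintype K := Fintype.ofFinite K
  have hK : ∀ x, σ x = x ↔ x ∈ K := by
    intro x
    constructor
    · intro hx g
      obtain ⟨k, hk⟩ := g.2
      show (g : F ≃+* F) x = x
      rw [← hk]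
      have : σ ∈ MulAction.stabilizer (F ≃+* F) x := hx
      exact (zpow_mem this k : σ ^ k ∈ MulAction.stabilizer (F ≃+* F) x)
    · intro hx
      exact hx ⟨σ, Subgroup.mem_zpowers σ⟩
  have hq : Fintype.card K = q₀ := by
    refine Nat.pow_left_injective hr.ne_zero ?_
    show Fintype.card K ^ r = q₀ ^ r
    rw [← hF, Module.card_eq_pow_finrank (K := K) (V := F), FixedPoints.finrank_eq_card G F,
      ← Nat.card_eq_fintype_card (α := G), Nat.card_zpowers, hσ]
  let j : GL (Fin n) K →* GL (Fin n) F := Matrix.GeneralLinearGroup.map K.subtype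
  let Ψ : Fˣ × GL (Fin n) K →* GL (Fin n) F :=
    MonoidHom.noncommCoprod (Matrix.GeneralLinearGroup.scalar (Fin n)) j fun u h => scalar_comm u _
  have hval : ∀ u h, (Ψ (u, h)).val = (u : F) • h.val.map K.subtype := by
    intro u h
    show (Matrix.GeneralLinearGroup.scalar (Fin n) u).val * h.val.map K.subtype = _
    rw [Matrix.GeneralLinearGroup.coe_scalar, Matrix.scalar_apply]
    ext a b
    rw [Matrix.diagonal_mul]
    rfl
  have hset : {g : GL (Fin n) F | ∃ c : F, c ≠ 0 ∧
      (g : Matrix (Fin n) (Fin n) F).map σ = c • (g : Matrix (Fin n) (Fin n) F)} = Set.range Ψ := by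
    ext g
    constructor
    · rintro ⟨c, hc, he⟩
      have he' : mapGL σ g = g * Matrix.GeneralLinearGroup.scalar (Fin n) (Units.mk0 c hc) := by
        apply Units.ext
        rw [mapGL_val, he, Units.val_mul, Matrix.GeneralLinearGroup.coe_scalar, Matrix.scalar_apply]
        ext a b
        rw [Matrix.mul_diagonal]
        simp [mul_comm]
      have hiter : ∀ k, (mapGL σ)^[k] g = g * Matrix.GeneralLinearGroup.scalar (Fin n)
          (nrm (Units.map (σ : F →* F)) k (Units.mk0 c hc)) := by
        intro k
        induction k with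
        | zero => simp [nrm]
        | succ k ih =>
          rw [Function.iterate_succ_apply', ih, map_mul, mapGL_scalar, he', mul_assoc, ← map_mul]
          rfl
      have h1 := hiter r
      rw [mapGL_iter, ← hσ, pow_orderOf_eq_one, hσ,
        show mapGL (1 : F ≃+* F) g = g from Units.ext rfl, eq_comm, mul_eq_left] at h1
      have h2 : nrm (Units.map (σ : F →* F)) r (Units.mk0 c hc) = 1 := by
        have := congrArg (fun M : GL (Fin n) F => M.val ⟨0, hn⟩ ⟨0, hn⟩) h1
        exact Units.ext (by simpa [Matrix.GeneralLinearGroup.coe_scalar, Matrix.scalar_apply] using this)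
      obtain ⟨v, hv⟩ : ∃ v, Units.mk0 c hc = v * (Units.map (σ : F →* F) v)⁻¹ := by
        obtain ⟨h, hh⟩ := lang_field (n := 1) hr.pos hσ
          (Matrix.GeneralLinearGroup.scalar (Fin 1) (Units.mk0 c hc))
          (by rw [nrm_comp (mapGL σ) (Units.map (σ : F →* F)) _ (mapGL_scalar σ), h2, map_one])
        refine ⟨Matrix.GeneralLinearGroup.det h, ?_⟩
        have := congrArg (fun x => Matrix.GeneralLinearGroup.det x) hh
        simpa only [det_scalar, pow_one, map_mul, map_inv, det_mapGL] using this
      set g' := g * Matrix.GeneralLinearGroup.scalar (Fin n) v with hg'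
      have hfix : mapGL σ g' = g' := by
        rw [hg', map_mul, mapGL_scalar, he', mul_assoc, ← map_mul, hv, inv_mul_cancel_right]
      have hmem : ∀ a b, g'.val a b ∈ K := fun a b =>
        (hK _).mp (congrArg (fun M : GL (Fin n) F => M.val a b) hfix)
      have hm : (Matrix.of fun a b => (⟨g'.val a b, hmem a b⟩ : K)).map K.subtype = g'.val := rfl
      have hd : (Matrix.of fun a b => (⟨g'.val a b, hmem a b⟩ : K)).det ≠ 0 := fun h0 => by
        have h1 : g'.val.det ≠ 0 := (Matrix.GeneralLinearGroup.det g').ne_zero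
        rw [← hm, ← RingHom.mapMatrix_apply, ← RingHom.map_det, h0, map_zero] at h1
        exact h1 rfl
      refine ⟨(v⁻¹, Matrix.GeneralLinearGroup.mkOfDetNeZero _ hd), ?_⟩
      show Matrix.GeneralLinearGroup.scalar (Fin n) v⁻¹ *
        j (Matrix.GeneralLinearGroup.mkOfDetNeZero _ hd) = g
      rw [show j (Matrix.GeneralLinearGroup.mkOfDetNeZero _ hd) = g' from Units.ext hm, hg',
        ← mul_assoc, (scalar_comm v⁻¹ g).eq, mul_assoc, ← map_mul, inv_mul_cancel, map_one, mul_one]
    · rintro ⟨⟨u, h⟩, rfl⟩
      refine ⟨σ u / u, div_ne_zero (by simp) u.ne_zero, ?_⟩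
      rw [hval]
      ext a b
      simp only [Matrix.map_apply, Matrix.smul_apply, smul_eq_mul, map_mul]
      rw [show σ (K.subtype (h.val a b)) = K.subtype (h.val a b) from (hK _).mpr (h.val a b).2,
        ← mul_assoc, div_mul_cancel₀ _ u.ne_zero]
  have hker : Nat.card Ψ.ker = q₀ - 1 := by
    let e : Kˣ →* Ψ.ker := MonoidHom.mk' (fun w => ⟨((Units.map (K.subtype : K →* F) w)⁻¹,
        Matrix.GeneralLinearGroup.scalar (Fin n) w), by
        rw [MonoidHom.mem_ker]
        apply Units.ext
        rw [hval, Units.val_one, Matrix.GeneralLinearGroup.coe_scalar, Matrix.scalar_apply]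
        ext a b
        by_cases hab : a = b
        · subst hab; simp
        · simp [hab]⟩) fun a b => by
        apply Subtype.ext
        simp [_root_.mul_inv, mul_comm]
    have hb : Function.Bijective e := by
      constructor
      · intro a b hab
        have := congrArg (fun x : Ψ.ker => (x : Fˣ × GL (Fin n) K).1) hab
        exact Units.map_injective K.subtype_injective (inv_injective this)
      · rintro ⟨⟨u, h⟩, hk⟩
        have h1 : ∀ a b, (u : F) * (h.val a b : F) = if a = b then 1 else 0 := fun a b => by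
          have := congrArg (fun M : GL (Fin n) F => M.val a b) (MonoidHom.mem_ker.mp hk)
          simp only [hval] at this
          simpa [Matrix.one_apply] using this
        have h00 := h1 ⟨0, hn⟩ ⟨0, hn⟩
        rw [if_pos rfl] at h00
        have hne : h.val ⟨0, hn⟩ ⟨0, hn⟩ ≠ 0 := fun h0 => by
          have : ((h.val ⟨0, hn⟩ ⟨0, hn⟩ : K) : F) = 0 := by rw [h0]; rfl
          exact one_ne_zero (α := F) (h00.symm.trans ((congrArg (fun t => (u : F) * t) this).trans (mul_zero _)))
        refine ⟨Units.mk0 _ hne, Subtype.ext (Prod.ext ?_ ?_)⟩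
        · apply Units.ext
          show ((Units.map (K.subtype : K →* F) (Units.mk0 _ hne))⁻¹ : Fˣ).val = u
          rw [Units.val_inv_eq_inv_val]
          exact (eq_inv_of_mul_eq_one_left h00).symm
        · apply Units.ext
          show (Matrix.GeneralLinearGroup.scalar (Fin n) (Units.mk0 _ hne)).val = h.val
          rw [Matrix.GeneralLinearGroup.coe_scalar, Matrix.scalar_apply]
          ext a b
          by_cases hab : a = b
          · subst hab
            have := h1 a a
            rw [if_pos rfl, ← h00] at this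
            rw [Matrix.diagonal_apply_eq]
            exact (congrArg Subtype.val (Units.val_mk0 hne)).trans
              (mul_left_cancel₀ u.ne_zero this).symm
          · have := h1 a b
            rw [if_neg hab, mul_eq_zero] at this
            rw [Matrix.diagonal_apply_ne _ hab]
            exact (this.resolve_left u.ne_zero).symm
    rw [← Nat.card_congr (Equiv.ofBijective e hb), Nat.card_units, Nat.card_eq_fintype_card, hq]
  have hmul : Nat.card Ψ.ker * Nat.card Ψ.range = Nat.card (Fˣ × GL (Fin n) K) := by
    rw [← Subgroup.index_ker, Subgroup.card_mul_index]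
  rw [hker, Nat.card_prod, Nat.card_units, Nat.card_eq_fintype_card (α := F), hF, Matrix.card_GL_field,
    hq] at hmul
  show Nat.card ↥{g : GL (Fin n) F | ∃ c : F, c ≠ 0 ∧
      (g : Matrix (Fin n) (Fin n) F).map σ = c • (g : Matrix (Fin n) (Fin n) F)} = _
  rw [hset]
  change Nat.card Ψ.range = _
  have hq1 : 2 ≤ q₀ := hq ▸ Fintype.one_lt_card
  obtain ⟨t, ht⟩ : q₀ - 1 ∣ q₀ ^ r - 1 := by simpa using Nat.sub_dvd_pow_sub_pow q₀ 1 r
  rw [ht, Nat.mul_div_cancel_left _ (by omega)]
  rw [ht, mul_assoc] at hmul
  exact Nat.eq_of_mul_eq_mul_left (by omega) hmul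

end Cfsg.Agent.S2636
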