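import Cfsg.Statements.S2638
import Cfsg.Agent.KnownB.LinMod2
import Cfsg.Agent.KnownB.LinearOrders

set_option autoImplicit false
open Cfsg

namespace Cfsg.Agent.S2638


/-- If an element x of GL_n(q), n ≥ 1, has prime order r and the multiplicative order of q modulo r is n (r is a primitive prime divisor of q^n − 1, so x acts irreducibly), then the centraliser of x in GL_n(q) is cyclic of order q^n − 1 (the multiplicative group of the field with q^n elements, a Singer cycle). -/
theorem result {F : Type*} [Field F] [Fintype F] {p q : ℕ} [Fact p.Prime] [CharP F p] (hF : Fintype.card F = q) {n r : ℕ} (hn : 1 ≤ n) (hr : r.Prime) (hrp : r ≠ p) (hi : orderOf (q : ZMod r) = n) (x : GL (Fin n) F) (hx : orderOf x = r) : IsCyclic ↥(Subgroup.centralizer ({x} : Set (GL (Fin n) F))) ∧ Nat.card ↥(Subgroup.centralizer ({x} : Set (GL (Fin n) F))) = q ^ n - 1 := by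
  classical
  set M : Matrix (Fin n) (Fin n) F := (x : Matrix (Fin n) (Fin n) F) with hM
  have hN : M ^ r = 1 := by
    rw [hM, ← hx, ← Units.val_pow_eq_pow_val, pow_orderOf_eq_one]; rfl
  have hco : ((r : ℕ) : F) ≠ 0 := by
    intro h
    rw [CharP.cast_eq_zero_iff F p] at h
    exact hrp ((Nat.prime_dvd_prime_iff_eq Fact.out hr).mp h).symm
  have hint : IsIntegral F M := Matrix.isIntegral M
  have hdiv : minpoly F M ∣ (Polynomial.X : Polynomial F) ^ r - Polynomial.C 1 := by
    apply minpoly.dvd
    simp [hN]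
  have hsq : Squarefree (minpoly F M) :=
    ((Polynomial.separable_X_pow_sub_C 1 hco one_ne_zero).of_dvd hdiv).squarefree
  obtain ⟨f₀, hf₀, hf₀d, hf₀1⟩ : ∃ f, Prime f ∧ f ∣ minpoly F M ∧ ¬ f ∣ (Polynomial.X : Polynomial F) - 1 := by
    by_contra h
    push Not at h
    have hd := Cfsg.Agent.KnownB.dvd_of_squarefree hsq h
    have h0 : Polynomial.aeval M ((Polynomial.X : Polynomial F) - 1) = 0 := by
      obtain ⟨c, hc⟩ := hd
      rw [hc, map_mul, minpoly.aeval, zero_mul]
    rw [map_sub, Polynomial.aeval_X, map_one, sub_eq_zero] at h0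
    have : x = 1 := Units.ext h0
    rw [this, orderOf_one] at hx
    exact hr.one_lt.ne hx
  set f := normalize f₀ with hfdef
  have hfm : f.Monic := Polynomial.monic_normalize hf₀.ne_zero
  have hassoc : Associated f f₀ := normalize_associated f₀
  have hfi : Irreducible f := hassoc.irreducible_iff.mpr hf₀.irreducible
  have hfd : f ∣ minpoly F M := hassoc.dvd.trans hf₀d
  have : Fact (Irreducible f) := ⟨hfi⟩
  have : Module.Finite F (AdjoinRoot f) := (AdjoinRoot.powerBasis hfi.ne_zero).finite
  have : Finite (AdjoinRoot f) := Module.finite_of_finite F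
  have hcard : Nat.card (AdjoinRoot f) = q ^ f.natDegree := by
    rw [Module.natCard_eq_pow_finrank (K := F) (V := AdjoinRoot f), Nat.card_eq_fintype_card, hF,
      (AdjoinRoot.powerBasis hfi.ne_zero).finrank, AdjoinRoot.powerBasis_dim]
  have hα : (AdjoinRoot.root f) ^ r = 1 := by
    have h : AdjoinRoot.mk f ((Polynomial.X : Polynomial F) ^ r - Polynomial.C 1) = 0 :=
      AdjoinRoot.mk_eq_zero.mpr (hfd.trans hdiv)
    rwa [map_sub, map_pow, AdjoinRoot.mk_X, map_one, map_one, sub_eq_zero] at h
  have hα1 : AdjoinRoot.root f ≠ 1 := by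
    intro h
    refine hf₀1 (hassoc.symm.dvd.trans (AdjoinRoot.mk_eq_zero.mp ?_))
    rw [map_sub, AdjoinRoot.mk_X, map_one, h, sub_self]
  have hord : orderOf (AdjoinRoot.root f) = r := by
    haveI := Fact.mk hr
    exact orderOf_eq_prime hα hα1
  have hnd : n ∣ f.natDegree := by
    have := Fintype.ofFinite (AdjoinRoot f)
    have h1 : r ∣ q ^ f.natDegree - 1 := by
      rw [← hord, ← hcard, Nat.card_eq_fintype_card]
      exact orderOf_dvd_of_pow_eq_one (FiniteField.pow_card_sub_one_eq_one _
        (fun h => by rw [h, zero_pow hr.ne_zero] at hα; exact zero_ne_one hα))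
    rw [← hi]
    refine orderOf_dvd_of_pow_eq_one ?_
    have hq : 1 ≤ q ^ f.natDegree := Nat.one_le_pow _ _ (hF ▸ Fintype.card_pos)
    have h2 := (ZMod.natCast_eq_zero_iff _ r).mpr h1
    rw [Nat.cast_sub hq, Nat.cast_pow, Nat.cast_one, sub_eq_zero] at h2
    exact h2
  have hdeg : f.natDegree = n := by
    refine le_antisymm ?_ (Nat.le_of_dvd hfi.natDegree_pos hnd)
    calc f.natDegree ≤ (minpoly F M).natDegree :=
          Polynomial.natDegree_le_of_dvd hfd (minpoly.ne_zero hint)
      _ ≤ M.charpoly.natDegree := Polynomial.natDegree_le_of_dvd (Matrix.minpoly_dvd_charpoly M)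
            M.charpoly_monic.ne_zero
      _ = n := by simp
  obtain ⟨φ, hinj, hroot, hcomm⟩ := Cfsg.Agent.KnownB.commutant_eq M hfi hdeg hfd hfm
  let ψ : (AdjoinRoot f)ˣ →* GL (Fin n) F := Units.map φ.toRingHom.toMonoidHom
  have hψ : Function.Injective ψ := fun a b h => Units.ext (hinj (congrArg Units.val h))
  have hrange : ψ.range = Subgroup.centralizer ({x} : Set (GL (Fin n) F)) := by
    ext C
    rw [Subgroup.mem_centralizer_singleton_iff]
    constructor
    · rintro ⟨a, rfl⟩
      refine Units.ext ?_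
      show φ a * M = M * φ a
      rw [← hroot, ← map_mul, ← map_mul, mul_comm]
    · intro h
      obtain ⟨a, ha⟩ := hcomm C (congrArg Units.val h)
      have hne : NeZero n := ⟨by omega⟩
      have ha0 : a ≠ 0 := fun h0 => by
        rw [h0, map_zero] at ha
        exact C.ne_zero ha.symm
      exact ⟨Units.mk0 a ha0, Units.ext ha⟩
  rw [← hrange]
  exact ⟨(MonoidHom.ofInjective hψ).isCyclic.mp inferInstance, by
    rw [Nat.card_congr (MonoidHom.ofInjective hψ).toEquiv.symm, Nat.card_units, hcard, hdeg]⟩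

end Cfsg.Agent.S2638
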