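import Cfsg.Statements.S2639
import Cfsg.Agent.Forms.FieldReduction

set_option autoImplicit false
open Cfsg

namespace Cfsg.Agent.S2639

/-- The unitary group embeds in the symplectic group of twice the dimension over the subfield: for a field K with q² elements and a field F with q elements (isomorphic to the subfield of K of order q), there is an injective homomorphism GU_m(q) → Sp_2m(F). -/
theorem result {K F : Type*} [Field K] [Fintype K] [Field F] [Fintype F] {q : ℕ} (hK : Fintype.card K = q ^ 2) (hF : Fintype.card F = q) (m : ℕ) : ∃ φ : ↥(Cfsg.GU m K q) →* ↥(Matrix.symplecticGroup (Fin m) F), Function.Injective φ := by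
  obtain ⟨i⟩ := Cfsg.Agent.Forms.exists_emb hK hF
  letI : Algebra F K := i.toAlgebra
  obtain ⟨L, hL, hLs⟩ := Cfsg.Agent.Forms.exists_trace (F := F) hK hF
  obtain ⟨x, hx⟩ : ∃ x : K, x ^ q ≠ x := by
    by_contra h
    push Not at h
    exact Cfsg.Agent.Forms.frobQ_ne_id hK (RingHom.ext h)
  have hσ : ∀ y : K, Cfsg.Agent.Forms.frobQ hK y = y ^ q := fun y => rfl
  have hδ : (x - x ^ q) ^ q = -(x - x ^ q) := by
    rw [← hσ (x - x ^ q), map_sub, ← hσ x, Cfsg.Agent.Forms.frobQ_frobQ]
    abel
  refine Cfsg.Agent.Forms.exists_symp_hom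
    (Cfsg.Agent.Forms.reducedForm_nondeg hK hF hLs (sub_ne_zero.2 hx.symm) m) (fun v => ?_)
    (k := m) (by rw [Cfsg.Agent.Forms.finrank_pi_quadratic hK hF, Fintype.card_fin])
    ((Cfsg.Agent.Forms.reducedAction F).comp (Subgroup.subtype _))
    ((Cfsg.Agent.Forms.reducedAction_injective F).comp Subtype.val_injective) fun g u v => ?_
  · refine (algebraMap F K).injective ?_
    rw [Cfsg.Agent.Forms.reducedForm_apply, hL, mul_pow, ← Cfsg.Agent.Forms.hermForm_swap hK, hδ,
      map_zero]
    ring
  · simp only [Cfsg.Agent.Forms.reducedForm_apply, MonoidHom.coe_comp, Function.comp_apply,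
      Subgroup.coe_subtype, Cfsg.Agent.Forms.reducedAction_apply]
    exact congrArg _ (congrArg _ (g.2 u v))

end Cfsg.Agent.S2639
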