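import Cfsg.Statements.S2653
import Cfsg.Agent.Components.AltSection.Reduce

set_option autoImplicit false
open scoped MatrixGroups
open Cfsg

namespace Cfsg.Agent.S2653

/-- Alternating sections of finite linear groups. Let `F` be a finite field of characteristic `p` and `n` a natural number, and suppose some subgroup `H` of GL_n(F) has a normal subgroup `K` with `H ⧸ K` isomorphic to the alternating group of degree `r ≥ 9`. Then `n ≥ r - 2` when `p` divides `r`, and `n ≥ r - 1` otherwise (the smallest degree of a nontrivial projective representation of that alternating group in characteristic `p`). The same bound follows for every classical group with natural module of dimension `n` over `F`, since each is a section of a subgroup of GL_n(F). -/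
theorem result {F : Type*} [Field F] [Fintype F] (p : ℕ) [Fact p.Prime] [CharP F p]
    (n : ℕ) (r : ℕ) (H : Subgroup (GL (Fin n) F)) (K : Subgroup ↥H) [K.Normal]
    (h : Nonempty (↥H ⧸ K ≃* ↥(alternatingGroup (Fin r)))) (hr : 9 ≤ r) :
    r - 1 - (if p ∣ r then 1 else 0) ≤ n := by
  obtain ⟨iso⟩ := h
  let k := AlgebraicClosure F
  let π : H →* Equiv.Perm (Fin r) :=
    ((alternatingGroup (Fin r)).subtype.comp iso.toMonoidHom).comp (QuotientGroup.mk' K)
  have hπ : π.range = alternatingGroup (Fin r) := by
    refine le_antisymm ?_ fun σ hσ => ?_
    · rintro _ ⟨x, rfl⟩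
      exact (iso x).2
    · obtain ⟨x, hx⟩ := QuotientGroup.mk'_surjective K (iso.symm ⟨σ, hσ⟩)
      refine ⟨x, ?_⟩
      show ((iso (QuotientGroup.mk' K x)) : Equiv.Perm (Fin r)) = σ
      rw [hx, MulEquiv.apply_symm_apply]
  let ρ : Representation k H (Fin n → k) :=
    ((Matrix.toLinAlgEquiv' (R := k)).toAlgHom.toRingHom.toMonoidHom.comp
      ((algebraMap F k).mapMatrix).toMonoidHom).comp ((Units.coeHom _).comp H.subtype)
  have hker : ∀ x, ρ x = 1 → π x = 1 := by
    intro x hx
    have h1 : (algebraMap F k).mapMatrix ((x : GL (Fin n) F) : Matrix (Fin n) (Fin n) F) = 1 :=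
      (Matrix.toLinAlgEquiv' (R := k)).injective (hx.trans (map_one _).symm)
    have h2 : x = 1 := Subtype.ext (Units.ext (Matrix.map_injective (algebraMap F k).injective
      (h1.trans (map_one (algebraMap F k).mapMatrix).symm)))
    rw [h2, map_one]
  haveI : Finite ↥H := inferInstance
  have key := Cfsg.Agent.Components.AltSection.target_le_finrank hr k (Fin n → k) ↥H ρ π hπ hker
  rw [Module.finrank_fin_fun] at key
  haveI : CharP k p := charP_of_injective_algebraMap (algebraMap F k).injective p
  unfold Cfsg.Agent.Components.AltSection.target at key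
  simp only [CharP.cast_eq_zero_iff k p] at key
  convert key

end Cfsg.Agent.S2653
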