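import Cfsg.Statements.S2663
import Cfsg.Agent.LeadWork.ChevFieldAut
import Cfsg.Agent.Chev.Certs
-- import your own Cfsg.Agent.* helpers here

set_option autoImplicit false
open scoped MatrixGroups
open Cfsg

namespace Cfsg.Agent.S2663

/-- Centralizers of field automorphisms of prime order, type F₄. Let `F` be a finite field and `G` the Chevalley group of type F₄ over `F` (for this type the group generated by the root elements is the whole group of rational points, with trivial centre). Let `φ` be a field automorphism of `G` (it sends each root element `x_s(t)` to `x_s(σ t)` for a fixed automorphism `σ` of `F`) whose order is a prime `r`. Then `F` has `q₀ ^ r` elements for some prime power `q₀`, and the subgroup of elements fixed by `φ` is isomorphic to the Chevalley group of type F₄ over a field with `q₀` elements. -/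
theorem result {F : Type*} [Field F] [Fintype F]
    (φ : MulAut ↥(Cfsg.Lie.chevF4.group F)) (hφ : Cfsg.Lie.chevF4.IsFieldAut φ) (r : ℕ) (hr : r.Prime) (ho : orderOf φ = r) :
    ∃ (F₀ : Type) (_ : Field F₀) (_ : Fintype F₀), Fintype.card F = Fintype.card F₀ ^ r ∧
      Nonempty (↥((MulEquiv.toMonoidHom φ).eqLocus (MonoidHom.id ↥(Cfsg.Lie.chevF4.group F))) ≃* ↥(Cfsg.Lie.chevF4.group F₀)) := by
  obtain ⟨C⟩ := Cfsg.Agent.Chev.nonempty_cert (D := Cfsg.Lie.chevF4) (by simp)
  exact Cfsg.Agent.LeadWork.ChevField.fixed_points C Cfsg.Agent.Chev.coxF4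
    (B := (!![0, 0, 1, -2; 1, 0, 2, -4; 0, 0, 2, -3; 0, 1, 2, -2] * !![-1, 0, 0, 0; 1, 0, -1, 0; -2, -1, 0, 0; -2, -2, -2, -1] : Matrix _ _ ℤ))
    (by decide +kernel) (by decide +kernel) φ hφ r hr ho

end Cfsg.Agent.S2663
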