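import Cfsg.Statements.S2665
import Mathlib.FieldTheory.IsAlgClosed.Basic

set_option autoImplicit false
open scoped MatrixGroups
open Cfsg

namespace Cfsg.Agent.S2665
open Polynomial

/-- The chain of polynomials of the coefficients of a fixed vector. -/
noncomputable def chainPoly {K : Type*} [Field K] (q : ℕ) (a : ℕ → K) : ℕ → K[X]
  | 0 => C (a 0) * X ^ q
  | j + 1 => chainPoly q a j ^ q + C (a (j + 1)) * X ^ q

theorem chainPoly_deg {K : Type*} [Field K] {q : ℕ} (hq : 2 ≤ q) {a : ℕ → K} (ha : a 0 ≠ 0)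
    (j : ℕ) : (chainPoly q a j).natDegree = q ^ (j + 1) := by
  induction j with
  | zero => rw [chainPoly, natDegree_C_mul ha, natDegree_X_pow, pow_one]
  | succ j ih =>
    have h : q < q ^ (j + 1 + 1) :=
      calc q = q ^ 1 := (pow_one q).symm
        _ < q ^ (j + 1 + 1) := Nat.pow_lt_pow_right (by omega) (by omega)
    rw [chainPoly, natDegree_add_eq_left_of_natDegree_lt, natDegree_pow, ih, ← pow_succ']
    rw [natDegree_pow, ih, ← pow_succ']
    exact lt_of_le_of_lt ((natDegree_C_mul_le _ _).trans (natDegree_X_pow_le q)) h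

theorem chainPoly_coeff {K : Type*} [Field K] {q : ℕ} (hq : 2 ≤ q) (a : ℕ → K) (j : ℕ) :
    X ^ 2 ∣ chainPoly q a j := by
  induction j with
  | zero => exact Dvd.dvd.mul_left (pow_dvd_pow X hq) _
  | succ j ih => exact dvd_add (dvd_pow ih (by omega)) (Dvd.dvd.mul_left (pow_dvd_pow X hq) _)

theorem exists_fixed {K : Type*} [Field K] [IsAlgClosed K] (φ : K →+* K) (q : ℕ) (hq : 2 ≤ q)
    (hφ : ∀ x, φ x = x ^ q) {V : Type*} [AddCommGroup V] [Module K V] [FiniteDimensional K V]
    [Nontrivial V] (T : V →+ V) (hT : ∀ (c : K) v, T (c • v) = φ c • T v)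
    (hTinj : Function.Injective T) : ∃ v : V, v ≠ 0 ∧ T v = v := by
  classical
  obtain ⟨v, hv⟩ := exists_ne (0 : V)
  have hroot : ∀ c : K, ∃ d, φ d = c := fun c => by
    obtain ⟨d, hd⟩ := IsAlgClosed.exists_pow_nat_eq c (show 0 < q by omega)
    exact ⟨d, by rw [hφ, hd]⟩
  have hex : ∃ m, ¬ LinearIndependent K (fun i : Fin (m + 1) => T^[i] v) :=
    ⟨Module.finrank K V, fun h => by have := h.fintype_card_le_finrank; simp at this⟩
  set m := Nat.find hex with hm
  have hdep := Nat.find_spec hex
  rw [← hm] at hdep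
  have hLI : LinearIndependent K (fun i : Fin m => T^[i] v) := by
    rcases Nat.eq_zero_or_pos m with h0 | h0
    · haveI : IsEmpty (Fin m) := by rw [h0]; exact Fin.isEmpty
      exact linearIndependent_empty_type
    · obtain ⟨k, hk⟩ : ∃ k, m = k + 1 := ⟨m - 1, by omega⟩
      have := not_not.mp (Nat.find_min hex (show k < Nat.find hex by omega))
      rw [hk]; exact this
  have hmem : T^[m] v ∈ Submodule.span K (Set.range fun i : Fin m => T^[i] v) := by
    by_contra hc
    apply hdep
    rw [show (fun i : Fin (m + 1) => T^[i] v) = Fin.snoc (fun i : Fin m => T^[i] v) (T^[m] v) from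
      funext fun i => by refine Fin.lastCases ?_ (fun j => ?_) i <;> simp]
    exact hLI.finSnoc hc
  obtain ⟨b, hb⟩ := (Submodule.mem_span_range_iff_exists_fun K).mp hmem
  obtain ⟨k, hk⟩ : ∃ k, m = k + 1 := by
    refine ⟨m - 1, ?_⟩
    rcases Nat.eq_zero_or_pos m with h0 | h0
    · exfalso
      haveI : IsEmpty (Fin m) := by rw [h0]; exact Fin.isEmpty
      rw [Fintype.sum_empty] at hb
      rw [h0] at hb
      exact hv hb.symm
    · omega
  let a : ℕ → K := fun i => if h : i < m then b ⟨i, h⟩ else 0
  have hab : ∑ i ∈ Finset.range m, a i • T^[i] v = T^[m] v := by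
    rw [← hb, ← Fin.sum_univ_eq_sum_range (fun i => a i • T^[i] v) m]
    exact Finset.sum_congr rfl fun i _ => by simp [a, i.2]
  have hTi : ∀ i, T (T^[i] v) = T^[i + 1] v := fun i => (Function.iterate_succ_apply' T i v).symm
  have ha0 : a 0 ≠ 0 := by
    intro h0
    choose c hc using fun i => hroot (a (i + 1))
    have h1 : T^[k] v = ∑ i ∈ Finset.range k, c i • T^[i] v := by
      apply hTinj
      rw [hTi, ← hk, ← hab, hk, Finset.sum_range_succ' (fun i => a i • T^[i] v) k, h0, zero_smul,
        add_zero, map_sum]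
      exact Finset.sum_congr rfl fun i _ => by rw [hT, hc, hTi]
    rw [Fintype.linearIndependent_iff] at hLI
    let coef : Fin m → K := fun i => if (i : ℕ) = k then (1 : K) else -c i
    have h2 := hLI coef ?_ ⟨k, by omega⟩
    · simp [coef] at h2
    let cf : ℕ → K := fun i => if i = k then (1 : K) else -c i
    show ∑ i : Fin m, cf i • T^[(i : ℕ)] v = 0
    rw [Fin.sum_univ_eq_sum_range (fun i => cf i • T^[i] v) m, hk, Finset.sum_range_succ, h1,
      show cf k = 1 from if_pos rfl, one_smul, ← Finset.sum_add_distrib]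
    refine Finset.sum_eq_zero fun i hi => ?_
    rw [show cf i = -c i from if_neg (Finset.mem_range.mp hi).ne, neg_smul, neg_add_cancel]
  set R := (chainPoly q a k - X).divX with hR
  have hX : ∀ i, i < 2 → (chainPoly q a k).coeff i = 0 :=
    X_pow_dvd_iff.mp (chainPoly_coeff hq a k)
  have hsplit : chainPoly q a k - X = X * R := by
    conv_lhs => rw [← X_mul_divX_add (chainPoly q a k - X)]
    rw [coeff_sub, hX 0 (by omega), coeff_X_zero, sub_zero, map_zero, add_zero]
  have hR0 : R.coeff 0 = -1 := by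
    rw [hR, coeff_divX, coeff_sub, hX 1 (by omega), coeff_X_one, zero_sub]
  have hdeg : (chainPoly q a k - X).natDegree = q ^ (k + 1) := by
    rw [natDegree_sub_eq_left_of_natDegree_lt, chainPoly_deg hq ha0]
    rw [chainPoly_deg hq ha0, natDegree_X]
    exact Nat.one_lt_pow (by omega) hq
  have hRd : R.degree ≠ 0 := by
    intro h
    have h1 : R.natDegree = 0 := natDegree_eq_of_degree_eq_some h
    rw [hR, natDegree_divX_eq_natDegree_tsub_one, hdeg] at h1
    have := Nat.one_lt_pow (show k + 1 ≠ 0 by omega) hq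
    omega
  obtain ⟨z, hz⟩ := IsAlgClosed.exists_root R hRd
  have hz0 : z ≠ 0 := by
    rintro rfl
    rw [IsRoot, ← coeff_zero_eq_eval_zero, hR0] at hz
    exact neg_ne_zero.mpr one_ne_zero hz
  have hzk : (chainPoly q a k).eval z = z := by
    have := congrArg (eval z) hsplit
    rw [eval_mul, hz.eq_zero, mul_zero, eval_sub, eval_X, sub_eq_zero] at this
    exact this
  let x : ℕ → K := fun j => (chainPoly q a j).eval z
  refine ⟨∑ i ∈ Finset.range m, x i • T^[i] v, fun h0 => ?_, ?_⟩
  · rw [Fintype.linearIndependent_iff] at hLI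
    have := hLI (fun i => x i) (by rw [← h0, ← Fin.sum_univ_eq_sum_range (fun i => x i • T^[i] v)])
      ⟨k, by omega⟩
    exact hz0 (hzk.symm.trans this)
  · rw [map_sum]
    simp only [hT, hTi]
    rw [hk, Finset.sum_range_succ, ← hk, ← hab, hk,
      Finset.sum_range_succ' (fun i => a i • T^[i] v) k, smul_add, Finset.smul_sum, ← add_assoc,
      ← Finset.sum_add_distrib, Finset.sum_range_succ' (fun i => x i • T^[i] v) k]
    congr 1
    · refine Finset.sum_congr rfl fun i _ => ?_
      rw [smul_smul, ← add_smul]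
      congr 1
      simp only [x, hφ, chainPoly, eval_add, eval_pow, eval_mul, eval_C, eval_X, hzk]
      ring
    · rw [smul_smul]
      congr 1
      simp only [x, hφ, chainPoly, eval_mul, eval_C, eval_pow, eval_X, hzk]
      ring

theorem span_fixed {K : Type*} [Field K] [IsAlgClosed K] (φ : K →+* K) (q : ℕ) (hq : 2 ≤ q)
    (hφ : ∀ x, φ x = x ^ q) {V : Type*} [AddCommGroup V] [Module K V] [FiniteDimensional K V]
    (T : V →+ V) (hT : ∀ (c : K) v, T (c • v) = φ c • T v) (hTinj : Function.Injective T) :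
    Submodule.span K {v : V | T v = v} = ⊤ := by
  classical
  have hroot : ∀ c : K, ∃ d, φ d = c := fun c => by
    obtain ⟨d, hd⟩ := IsAlgClosed.exists_pow_nat_eq c (show 0 < q by omega)
    exact ⟨d, by rw [hφ, hd]⟩
  have hAS : ∀ c : K, ∃ d, φ d - d = c := fun c => by
    have hd : ((X : K[X]) ^ q - (X + C c)).natDegree = q := by
      rw [natDegree_sub_eq_left_of_natDegree_lt, natDegree_X_pow]
      rw [natDegree_X_pow, natDegree_X_add_C]
      omega
    obtain ⟨d, hd⟩ := IsAlgClosed.exists_root ((X : K[X]) ^ q - (X + C c)) fun h => by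
      have h' : ((X : K[X]) ^ q - (X + C c)).natDegree = 0 :=
        natDegree_eq_of_degree_eq_some (n := 0) (by rw [h]; rfl)
      omega
    refine ⟨d, ?_⟩
    rw [IsRoot, eval_sub, eval_pow, eval_add, eval_X, eval_C, sub_eq_zero] at hd
    rw [hφ, hd]; ring
  set W := Submodule.span K {v : V | T v = v} with hW
  have hW1 : ∀ w ∈ W, T w ∈ W ∧ (∃ u ∈ W, T u = w) ∧ ∃ u ∈ W, T u - u = w := by
    intro w hw
    obtain ⟨c, hsupp, rfl⟩ := Submodule.mem_span_set.mp hw
    simp only [Finsupp.sum]
    have hfix : ∀ v ∈ c.support, T v = v := fun v hv => hsupp hv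
    have hTsum : ∀ d : V → K, T (∑ v ∈ c.support, d v • v) = ∑ v ∈ c.support, φ (d v) • v :=
      fun d => by
        rw [map_sum]
        exact Finset.sum_congr rfl fun v hv => by rw [hT, hfix v hv]
    have hmem : ∀ d : V → K, ∑ v ∈ c.support, d v • v ∈ W := fun d =>
      Submodule.sum_mem _ fun v hv => Submodule.smul_mem _ _ (Submodule.subset_span (hsupp hv))
    choose d hd using fun v => hroot (c v)
    choose e he using fun v => hAS (c v)
    refine ⟨by rw [hTsum]; exact hmem _, ⟨_, hmem d, by simp only [hTsum, hd]⟩, _, hmem e, ?_⟩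
    rw [hTsum, ← Finset.sum_sub_distrib]
    exact Finset.sum_congr rfl fun v _ => by rw [← sub_smul, he]
  by_contra hne
  haveI : Nontrivial (V ⧸ W) := Submodule.Quotient.nontrivial_iff.mpr hne
  let T' : (V ⧸ W) →+ (V ⧸ W) :=
    QuotientAddGroup.map W.toAddSubgroup W.toAddSubgroup T fun w hw => (hW1 w hw).1
  have hT' : ∀ v, T' (Submodule.Quotient.mk v) = Submodule.Quotient.mk (T v) := fun v => rfl
  obtain ⟨v', hv0, hv⟩ := exists_fixed φ q hq hφ T'
    (fun c v => by
      obtain ⟨v, rfl⟩ := Submodule.Quotient.mk_surjective W v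
      rw [← Submodule.Quotient.mk_smul, hT', hT, Submodule.Quotient.mk_smul, hT'])
    (by
      rw [injective_iff_map_eq_zero]
      intro v hv
      obtain ⟨v, rfl⟩ := Submodule.Quotient.mk_surjective W v
      rw [hT', Submodule.Quotient.mk_eq_zero] at hv
      obtain ⟨u, hu, he⟩ := (hW1 _ hv).2.1
      rw [Submodule.Quotient.mk_eq_zero, ← hTinj he]
      exact hu)
  obtain ⟨v, rfl⟩ := Submodule.Quotient.mk_surjective W v'
  rw [hT', Submodule.Quotient.eq] at hv
  obtain ⟨u, hu, he⟩ := (hW1 _ hv).2.2
  apply hv0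
  rw [Submodule.Quotient.mk_eq_zero]
  have h1 : T (v - u) = v - u := by
    rw [map_sub, sub_eq_sub_iff_sub_eq_sub]
    exact he.symm
  have h2 : v - u ∈ W := Submodule.subset_span h1
  simpa using W.add_mem h2 hu


/-- The Lang–Steinberg Theorem for the general linear group. Let `K` be an algebraically closed field of prime characteristic `p`, let `q = p^f` with `f ≥ 1`, and let `σ` be the endomorphism of GL_n(K) raising every matrix entry to the `q`-th power. Then every element `g` of GL_n(K) can be written `g = x · σ(x)⁻¹` for some `x` in GL_n(K): the map `x ↦ x σ(x)⁻¹` is surjective. -/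
theorem result {K : Type*} [Field K] [IsAlgClosed K] (p : ℕ) [Fact p.Prime] [CharP K p]
    (f : ℕ) (hf : 1 ≤ f) (n : ℕ) (g : GL (Fin n) K) :
    ∃ x : GL (Fin n) K, g = x * (Matrix.GeneralLinearGroup.map (iterateFrobenius K p f) x)⁻¹ := by
  classical
  have hp : 1 < p := (Fact.out : p.Prime).one_lt
  have hq : 2 ≤ p ^ f := by
    calc 2 ≤ p := hp
      _ = p ^ 1 := (pow_one p).symm
      _ ≤ p ^ f := Nat.pow_le_pow_right (by omega) hf
  let φ : K →+* K := iterateFrobenius K p f
  have hφ : ∀ x, φ x = x ^ p ^ f := fun x => rfl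
  let T : (Fin n → K) →+ (Fin n → K) := AddMonoidHom.mk' (fun v => g.val.mulVec (⇑φ ∘ v))
    fun v w => by
      rw [← Matrix.mulVec_add]
      congr 1
      funext i
      exact map_add φ _ _
  have hT : ∀ (c : K) v, T (c • v) = φ c • T v := fun c v => by
    show g.val.mulVec _ = φ c • g.val.mulVec _
    rw [← Matrix.mulVec_smul]
    congr 1
    funext i
    exact map_mul φ _ _
  have hTinj : Function.Injective T := by
    intro v w h
    have h1 := congrArg (fun u => (g⁻¹).val.mulVec u) h
    simp only [T, AddMonoidHom.mk'_apply, Matrix.mulVec_mulVec, ← Units.val_mul, inv_mul_cancel,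
      Units.val_one, Matrix.one_mulVec] at h1
    funext i
    exact φ.injective (congrFun h1 i)
  have hspan := span_fixed φ (p ^ f) hq hφ T hT hTinj
  obtain ⟨b, hbS, hbspan, hbli⟩ := exists_linearIndependent K {v : Fin n → K | T v = v}
  rw [hspan] at hbspan
  let B := Module.Basis.mk hbli (by rw [Subtype.range_coe, hbspan])
  haveI : Fintype b := FiniteDimensional.fintypeBasisIndex B
  have hcard : Fintype.card b = n := by
    rw [← Module.finrank_eq_card_basis B, Module.finrank_pi, Fintype.card_fin]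
  let B' := B.reindex (Fintype.equivFinOfCardEq hcard)
  have hfix : ∀ i, T (B' i) = B' i := by
    intro i
    have : B' i ∈ {v : Fin n → K | T v = v} := by
      simp only [B', B, Module.Basis.reindex_apply, Module.Basis.mk_apply]
      exact hbS (Subtype.coe_prop _)
    exact this
  let P : Matrix (Fin n) (Fin n) K := (Pi.basisFun K (Fin n)).toMatrix B'
  haveI : Invertible P := (Pi.basisFun K (Fin n)).invertibleToMatrix B'
  refine ⟨unitOfInvertible P, eq_mul_inv_of_mul_eq ?_⟩
  apply Units.ext
  ext i j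
  have h1 := congrFun (hfix j) i
  show (g.val * P.map φ) i j = P i j
  rw [Matrix.mul_apply]
  simpa [T, P, Matrix.mulVec, dotProduct, Module.Basis.toMatrix_apply] using h1

end Cfsg.Agent.S2665
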