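import Cfsg.Statements.S2669
import Cfsg.Agent.KnownB.Shintani

set_option autoImplicit false
open Cfsg

namespace Cfsg.Agent.S2669


/-- Shintani descent preserves numbers of fixed points on coset spaces (abstract form). Let `σ` be an automorphism of a group `X` and `e ≥ 1`; write `G` for the fixed points of `σᵉ` and `H` for the fixed points of `σ`, and assume `G` is finite. Let `Y` be a `σ`-stable subgroup of `X` on which the maps `a ↦ a σ(a)⁻¹` and `a ↦ a σᵉ(a)⁻¹` are surjective (as for a closed connected `σ`-stable subgroup of an algebraic group). Let `g ∈ G`, let `a ∈ X` satisfy `g = a σ(a)⁻¹` and put `x = σᵉ(a)⁻¹ a` (the Shintani image, an element of `H`). The element `g σ` of the semidirect product acts on the cosets of `Y ∩ G` in `G` by `k (Y ∩ G) ↦ g σ(k) (Y ∩ G)`, fixing that coset exactly when `k⁻¹ g σ(k) ∈ Y`; and `x` fixes the coset `h (Y ∩ H)` of `H` exactly when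 `h⁻¹ x h ∈ Y`. Then the two numbers of fixed cosets agree; in cross-multiplied form, `#{k ∈ G : k⁻¹ g σ(k) ∈ Y} · |Y ∩ H| = #{h ∈ H : h⁻¹ x h ∈ Y} · |Y ∩ G|`. -/
theorem result {X : Type*} [Group X] (σ : MulAut X) (e : ℕ) (he : 1 ≤ e)
    [Finite ↥((MulEquiv.toMonoidHom (σ ^ e)).eqLocus (MonoidHom.id X))]
    (Y : Subgroup X) (hY : ∀ y : X, y ∈ Y ↔ σ y ∈ Y)
    (hYL : ∀ y ∈ Y, ∃ a ∈ Y, y = a * (σ a)⁻¹) (hYLe : ∀ y ∈ Y, ∃ a ∈ Y, y = a * ((σ ^ e) a)⁻¹)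
    (g : X) (hg : g ∈ (MulEquiv.toMonoidHom (σ ^ e)).eqLocus (MonoidHom.id X)) (a : X) (ha : g = a * (σ a)⁻¹) :
    Nat.card {k : ↥((MulEquiv.toMonoidHom (σ ^ e)).eqLocus (MonoidHom.id X)) // (k : X)⁻¹ * g * σ k ∈ Y} *
        Nat.card ↥(Y ⊓ (MulEquiv.toMonoidHom σ).eqLocus (MonoidHom.id X)) =
      Nat.card {h : ↥((MulEquiv.toMonoidHom σ).eqLocus (MonoidHom.id X)) // (h : X)⁻¹ * (((σ ^ e) a)⁻¹ * a) * h ∈ Y} *
        Nat.card ↥(Y ⊓ (MulEquiv.toMonoidHom (σ ^ e)).eqLocus (MonoidHom.id X)) := by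
  classical
  set Xe := (MulEquiv.toMonoidHom (σ ^ e)).eqLocus (MonoidHom.id X)
  set X1 := (MulEquiv.toMonoidHom σ).eqLocus (MonoidHom.id X)
  set x := ((σ ^ e) a)⁻¹ * a with hx
  have hg' : (σ ^ e) g = g := hg
  subst ha
  have hxfix : σ x = x := KnownB.descent_fixed σ hg'
  have hYe : ∀ (i : ℕ) (y : X), y ∈ Y → (σ ^ i) y ∈ Y := by
    intro i y hy
    induction i with
    | zero => exact hy
    | succ i ih => rw [pow_succ', MulAut.mul_apply]; exact (hY _).mp ih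
  -- common middle set
  let P := {p : ↥Xe × X // p.2 ∈ Y ∧ (p.1 : X)⁻¹ * (a * (σ a)⁻¹) * σ (p.1 : X) = p.2 * (σ p.2)⁻¹}
  let Q := {p : ↥X1 × X // p.2 ∈ Y ∧ (p.1 : X)⁻¹ * x * (p.1 : X) = ((σ ^ e) p.2)⁻¹ * p.2}
  have key : ∀ (k c : X), k⁻¹ * (a * (σ a)⁻¹) * σ k = c * (σ c)⁻¹ ↔
      σ (a⁻¹ * k * c) = a⁻¹ * k * c := by
    intro k c
    rw [map_mul, map_mul, map_inv]
    constructor
    · intro h
      have h1 := congrArg (fun y => a⁻¹ * k * y * σ c) h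
      simpa [mul_assoc] using h1
    · intro h
      have h1 := congrArg (fun y => k⁻¹ * a * y * (σ c)⁻¹) h
      simpa [mul_assoc] using h1
  have hP : ∀ p : P, σ (a⁻¹ * ((p.1.1 : X)) * p.1.2) = a⁻¹ * (p.1.1 : X) * p.1.2 :=
    fun p => (key _ _).mp p.2.2
  have hQ : ∀ p : Q, (σ ^ e) (a * (p.1.1 : X) * p.1.2⁻¹) = a * (p.1.1 : X) * p.1.2⁻¹ := by
    intro p
    have hh : σ (p.1.1 : X) = p.1.1 := p.1.1.2
    rw [map_mul, map_mul, map_inv, KnownB.pow_apply_fixed σ hh]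
    have h1 := congrArg (fun y => (σ ^ e) a * (p.1.1 : X) * y * p.1.2⁻¹) p.2.2
    simp only [hx] at h1
    simpa [mul_assoc] using h1.symm
  let ePQ : P ≃ Q :=
    { toFun := fun p => ⟨(⟨a⁻¹ * (p.1.1 : X) * p.1.2, hP p⟩, p.1.2), p.2.1, by
        have hpow := KnownB.pow_apply_fixed σ (hP p) e
        have hk : (σ ^ e) (p.1.1 : X) = p.1.1 := p.1.1.2
        rw [map_mul, map_mul, map_inv, hk] at hpow
        show (a⁻¹ * (p.1.1 : X) * p.1.2)⁻¹ * x * (a⁻¹ * (p.1.1 : X) * p.1.2) = _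
        conv_lhs => arg 1; arg 1; rw [← hpow]
        rw [hx]
        group⟩
      invFun := fun p => ⟨(⟨a * (p.1.1 : X) * p.1.2⁻¹, hQ p⟩, p.1.2), p.2.1, by
        have hh : σ (p.1.1 : X) = p.1.1 := p.1.1.2
        rw [key]
        show σ (a⁻¹ * (a * (p.1.1 : X) * p.1.2⁻¹) * p.1.2) = _
        simp [mul_assoc, hh]⟩
      left_inv := fun p => by
        apply Subtype.ext
        refine Prod.ext (Subtype.ext ?_) rfl
        simp [mul_assoc]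
      right_inv := fun p => by
        apply Subtype.ext
        refine Prod.ext (Subtype.ext ?_) rfl
        simp [mul_assoc] }
  have hcA : ∀ k : {k : ↥Xe // (k : X)⁻¹ * (a * (σ a)⁻¹) * σ k ∈ Y}, ∃ c ∈ Y,
      ((k.1 : ↥Xe) : X)⁻¹ * (a * (σ a)⁻¹) * σ (k.1 : X) = c * (σ c)⁻¹ := fun k => hYL _ k.2
  choose cA hcA1 hcA2 using hcA
  let eA : {k : ↥Xe // (k : X)⁻¹ * (a * (σ a)⁻¹) * σ k ∈ Y} × ↥(Y ⊓ X1) ≃ P := Equiv.ofBijective
    (fun z => ⟨(z.1.1, cA z.1 * z.2), Y.mul_mem (hcA1 _) z.2.2.1, by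
      have hz : σ (z.2 : X) = z.2 := z.2.2.2
      show _ = cA z.1 * (z.2 : X) * (σ (cA z.1 * (z.2 : X)))⁻¹
      rw [map_mul, hz, hcA2]
      group⟩)
    ⟨fun z w h => by
      have h1 := congrArg (fun p : P => p.1.1) h
      have h2 := congrArg (fun p : P => p.1.2) h
      have h3 : z.1 = w.1 := Subtype.ext h1
      refine Prod.ext h3 (Subtype.ext ?_)
      dsimp only at h2
      rw [h3] at h2
      exact mul_left_cancel h2,
    fun p => by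
      have hmem : (p.1.1 : X)⁻¹ * (a * (σ a)⁻¹) * σ (p.1.1 : X) ∈ Y := by
        rw [p.2.2]; exact Y.mul_mem p.2.1 (Y.inv_mem ((hY _).mp p.2.1))
      set k : {k : ↥Xe // (k : X)⁻¹ * (a * (σ a)⁻¹) * σ k ∈ Y} := ⟨p.1.1, hmem⟩
      have hs : (cA k)⁻¹ * p.1.2 ∈ Y ⊓ X1 := by
        refine ⟨Y.mul_mem (Y.inv_mem (hcA1 k)) p.2.1, ?_⟩
        show σ _ = _
        have h1 : cA k * (σ (cA k))⁻¹ = p.1.2 * (σ p.1.2)⁻¹ := (hcA2 k).symm.trans p.2.2
        have h2 := congrArg (fun y => (cA k)⁻¹ * y * σ p.1.2) h1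
        simpa [mul_assoc] using h2
      refine ⟨(k, ⟨_, hs⟩), Subtype.ext (Prod.ext rfl ?_)⟩
      show cA k * ((cA k)⁻¹ * p.1.2) = p.1.2
      group⟩
  have hcB : ∀ h : {h : ↥X1 // (h : X)⁻¹ * x * h ∈ Y}, ∃ c ∈ Y,
      ((h.1 : ↥X1) : X)⁻¹ * x * (h.1 : X) = ((σ ^ e) c)⁻¹ * c := by
    intro h
    obtain ⟨d, hd, hd'⟩ := hYLe _ (Y.inv_mem h.2)
    refine ⟨d⁻¹, Y.inv_mem hd, ?_⟩
    rw [← inv_inv ((h.1 : X)⁻¹ * x * (h.1 : X)), hd', map_inv]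
    group
  choose cB hcB1 hcB2 using hcB
  let eB : {h : ↥X1 // (h : X)⁻¹ * x * h ∈ Y} × ↥(Y ⊓ Xe) ≃ Q := Equiv.ofBijective
    (fun z => ⟨(z.1.1, (z.2 : X) * cB z.1), Y.mul_mem z.2.2.1 (hcB1 _), by
      have hz : (σ ^ e) (z.2 : X) = z.2 := z.2.2.2
      show _ = ((σ ^ e) ((z.2 : X) * cB z.1))⁻¹ * ((z.2 : X) * cB z.1)
      rw [map_mul, hz, hcB2]
      group⟩)
    ⟨fun z w h => by
      have h1 := congrArg (fun p : Q => p.1.1) h
      have h2 := congrArg (fun p : Q => p.1.2) h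
      have h3 : z.1 = w.1 := Subtype.ext h1
      refine Prod.ext h3 (Subtype.ext ?_)
      dsimp only at h2
      rw [h3] at h2
      exact mul_right_cancel h2,
    fun p => by
      have hmem : (p.1.1 : X)⁻¹ * x * (p.1.1 : X) ∈ Y := by
        rw [p.2.2]; exact Y.mul_mem (Y.inv_mem (hYe e _ p.2.1)) p.2.1
      set h : {h : ↥X1 // (h : X)⁻¹ * x * h ∈ Y} := ⟨p.1.1, hmem⟩
      have hs : p.1.2 * (cB h)⁻¹ ∈ Y ⊓ Xe := by
        refine ⟨Y.mul_mem p.2.1 (Y.inv_mem (hcB1 h)), ?_⟩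
        show (σ ^ e) _ = _
        have h1 : ((σ ^ e) (cB h))⁻¹ * cB h = ((σ ^ e) p.1.2)⁻¹ * p.1.2 :=
          (hcB2 h).symm.trans p.2.2
        have h2 := congrArg (fun y => (σ ^ e) p.1.2 * y * (cB h)⁻¹) h1
        simpa [mul_assoc] using h2
      refine ⟨(h, ⟨_, hs⟩), Subtype.ext (Prod.ext rfl ?_)⟩
      show p.1.2 * (cB h)⁻¹ * cB h = p.1.2
      group⟩
  rw [← Nat.card_prod, ← Nat.card_prod]
  exact Nat.card_congr ((eA.trans ePQ).trans eB.symm)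

end Cfsg.Agent.S2669
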