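import Cfsg.Statements.S2678
import Cfsg.Agent.Forms.FieldReduction

set_option autoImplicit false
open Cfsg

namespace Cfsg.Agent.S2678

/-- Field-extension embedding of symplectic groups: for a field K with q² elements and a field F with q elements there is an injective homomorphism Sp_2a(K) → Sp_4a(F). -/
theorem result {K F : Type*} [Field K] [Fintype K] [Field F] [Fintype F] {q : ℕ} (hK : Fintype.card K = q ^ 2) (hF : Fintype.card F = q) (a : ℕ) : ∃ φ : ↥(Matrix.symplecticGroup (Fin a) K) →* ↥(Matrix.symplecticGroup (Fin (2 * a)) F), Function.Injective φ := by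
  obtain ⟨i⟩ := Cfsg.Agent.Forms.exists_emb hK hF
  letI : Algebra F K := i.toAlgebra
  obtain ⟨L, hL, x₀, hx₀⟩ := Cfsg.Agent.Forms.exists_trace (F := F) hK hF
  let B : LinearMap.BilinForm F (Fin a ⊕ Fin a → K) :=
    LinearMap.mk₂ F (fun u v => L (Cfsg.Agent.Forms.sympB a K u v))
      (fun u u' v => by simp only [map_add, LinearMap.add_apply])
      (fun c u v => by
        rw [← map_smul]; congr 1
        rw [← algebraMap_smul K c u, map_smul, LinearMap.smul_apply, algebraMap_smul])
      (fun u v v' => by simp only [map_add])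
      (fun c u v => by
        rw [← map_smul]; congr 1
        rw [← algebraMap_smul K c v, map_smul, algebraMap_smul])
  have hB : B.Nondegenerate := by
    have h : ∀ u, (∀ v, B u v = 0) → u = 0 := fun u hu => by
      refine (Cfsg.Agent.Forms.sympB_nondegenerate (m := a) (F := K)).1 u fun v => ?_
      by_contra hne
      have h1 := hu ((x₀ / Cfsg.Agent.Forms.sympB a K u v) • v)
      simp only [B, LinearMap.mk₂_apply, map_smul, smul_eq_mul, div_mul_cancel₀ _ hne, hx₀] at h1
      exact one_ne_zero h1
    refine ⟨h, fun v hv => h v fun u => ?_⟩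
    have := hv u
    simp only [B, LinearMap.mk₂_apply] at this ⊢
    rw [← LinearMap.IsAlt.neg (Cfsg.Agent.Forms.sympB_isAlt (m := a) (F := K)) u v, map_neg, this, neg_zero]
  refine Cfsg.Agent.Forms.exists_symp_hom hB (fun v => ?_) (k := 2 * a)
    (by rw [Cfsg.Agent.Forms.finrank_pi_quadratic hK hF, Fintype.card_sum, Fintype.card_fin]; omega)
    ((Cfsg.Agent.Forms.reducedAction F).comp (Cfsg.Agent.Forms.spToGL a K))
    ((Cfsg.Agent.Forms.reducedAction_injective F).comp fun g h e => Subtype.ext (congrArg Units.val e))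
    fun g u v => ?_
  · simp only [B, LinearMap.mk₂_apply, Cfsg.Agent.Forms.sympB_isAlt v, map_zero]
  · simp only [B, LinearMap.mk₂_apply, MonoidHom.coe_comp, Function.comp_apply,
      Cfsg.Agent.Forms.reducedAction_apply, Cfsg.Agent.Forms.sympB_apply]
    exact congrArg _ (Cfsg.Agent.Forms.mem_symplectic_iff.1 g.2 u v)

end Cfsg.Agent.S2678
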