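import Cfsg.Statements.S2681
import Cfsg.Agent.Forms.InvolTwoSpCent

set_option autoImplicit false
open Cfsg

namespace Cfsg.Agent.S2681

/-- Centraliser order of an involution t of Sp_2m(q), q even, with s = rank(t − 1) even and f(v, tv) = 0 for every v, f the symplectic form (type a_s): |C(t)| = q^(2ms − (3s² − s)/2) · |Sp_s(q)| · |Sp_(2m−2s)(q)|. -/
theorem result {F : Type*} [Field F] [Fintype F] [CharP F 2] {q : ℕ} (hF : Fintype.card F = q) {m s : ℕ} (t : Matrix.symplecticGroup (Fin m) F) (ht : t ^ 2 = 1) (ht1 : t ≠ 1) (hs : ((t : Matrix (Fin m ⊕ Fin m) (Fin m ⊕ Fin m) F) - 1).rank = s) (heven : Even s) (halt : ∀ v : Fin m ⊕ Fin m → F, Cfsg.sympForm m F v ((t : Matrix (Fin m ⊕ Fin m) (Fin m ⊕ Fin m) F).mulVec v) = 0) : Nat.card ↥(Subgroup.centralizer ({t} : Set ↥(Matrix.symplecticGroup (Fin m) F))) = q ^ (2 * m * s - (3 * s ^ 2 - s) / 2) * ((q : ℕ) ^ ((s / 2) ^ 2) * ∏ i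 : Fin (s / 2), (q ^ (2 * ((i : ℕ) + 1)) - 1)) * ((q : ℕ) ^ ((m - s) ^ 2) * ∏ i : Fin (m - s), (q ^ (2 * ((i : ℕ) + 1)) - 1)) := by
  obtain ⟨k, r, l, hdim, rfl, hcase, E, hC, hE0, hE1, hE2⟩ :=
    Cfsg.Agent.Forms.card_centralizer_sp hF t ht
  rw [Cfsg.Agent.Forms.spNil_rank, hs] at hdim
  subst hdim
  obtain rfl : r = 0 := by
    rcases hcase with ⟨h, -⟩ | ⟨-, h⟩
    · exact h
    · exact absurd ((Cfsg.Agent.Forms.sp_alt_iff t).2 halt) h
  rw [hC, Cfsg.Agent.Forms.sympOrd_fin, Cfsg.Agent.Forms.sympOrd_fin,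
    show (2 * k + 0) / 2 = k by omega, show 2 * k + 0 + l - (2 * k + 0) = l by omega]
  congr 3
  rw [hE0 rfl]
  have h1 : 3 * (2 * k + 0) ^ 2 = 12 * (k * k) + 0 * k + 0 := by ring
  have h2 : 2 * (2 * k + 0 + l) * (2 * k + 0) = 8 * (k * k) + 4 * (k * l) + 0 * k + 0 * l + 0 := by
    ring
  have h3 : k ≤ k * k := Nat.le_mul_self k
  omega

end Cfsg.Agent.S2681
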