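import Cfsg.Statements.S2682
import Cfsg.Agent.Forms.InvolTwoSpCent

set_option autoImplicit false
open Cfsg

namespace Cfsg.Agent.S2682

/-- Centraliser order of an involution t of Sp_2m(q), q even, with s = rank(t − 1) even and f(v, tv) ≠ 0 for some v, f the symplectic form (type c_s): |C(t)| = q^(2ms − (3s² − 3s)/2 − 1) · |Sp_(s−2)(q)| · |Sp_(2m−2s)(q)|. -/
theorem result {F : Type*} [Field F] [Fintype F] [CharP F 2] {q : ℕ} (hF : Fintype.card F = q) {m s : ℕ} (t : Matrix.symplecticGroup (Fin m) F) (ht : t ^ 2 = 1) (hs : ((t : Matrix (Fin m ⊕ Fin m) (Fin m ⊕ Fin m) F) - 1).rank = s) (heven : Even s) (hna : ∃ v : Fin m ⊕ Fin m → F, Cfsg.sympForm m F v ((t : Matrix (Fin m ⊕ Fin m) (Fin m ⊕ Fin m) F).mulVec v) ≠ 0) : Nat.card ↥(Subgroup.centralizer ({t} : Set ↥(Matrix.symplecticGroup (Fin m) F))) = q ^ (2 * m * s - (3 * s ^ 2 - 3 * s) / 2 - 1) * ((q : ℕ) ^ (((s - 2) /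 2) ^ 2) * ∏ i : Fin ((s - 2) / 2), (q ^ (2 * ((i : ℕ) + 1)) - 1)) * ((q : ℕ) ^ ((m - s) ^ 2) * ∏ i : Fin (m - s), (q ^ (2 * ((i : ℕ) + 1)) - 1)) := by
  obtain ⟨k, r, l, hdim, rfl, hcase, E, hC, hE0, hE1, hE2⟩ :=
    Cfsg.Agent.Forms.card_centralizer_sp hF t ht
  rw [Cfsg.Agent.Forms.spNil_rank, hs] at hdim
  subst hdim
  rw [Nat.even_iff] at heven
  obtain rfl : r = 2 := by
    rcases hcase with ⟨-, h⟩ | ⟨h, -⟩
    · obtain ⟨v, hv⟩ := hna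
      exact absurd ((Cfsg.Agent.Forms.sp_alt_iff t).1 h v) hv
    · omega
  rw [hC, Cfsg.Agent.Forms.sympOrd_fin, Cfsg.Agent.Forms.sympOrd_fin,
    show (2 * k + 2 - 2) / 2 = k by omega, show 2 * k + 2 + l - (2 * k + 2) = l by omega]
  congr 3
  rw [hE2 rfl]
  have h1 : 3 * (2 * k + 2) ^ 2 = 12 * (k * k) + 24 * k + 12 := by ring
  have h2 : 2 * (2 * k + 2 + l) * (2 * k + 2) = 8 * (k * k) + 4 * (k * l) + 16 * k + 4 * l + 8 := by
    ring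
  have h3 : k ≤ k * k := Nat.le_mul_self k
  omega

end Cfsg.Agent.S2682
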