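import Cfsg.Statements.S2683
import Cfsg.Agent.Forms.InvolTwoOmegaCent

set_option autoImplicit false
open Cfsg

namespace Cfsg.Agent.S2683

/-- For the hyperbolic form Σ x_j y_j on F^(2m) over a finite field with q elements, q even (excluding m = 2 over the field of two elements), and an involution x of the orthogonal group with s = rank(x − 1) odd (type b_s; such x lie outside Ω): the elements of Ω (the commutator subgroup of the orthogonal group) commuting with x number q^(2m(s−1) − (3s² − 3s)/2) · |Sp_(s−1)(q)| · |Sp_(2m−2s)(q)|, where |Sp_2k(q)| = q^(k²) Π_(i=1)^k (q^(2i) − 1). -/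
theorem result {F : Type*} [Field F] [Fintype F] [CharP F 2] {q : ℕ} (hF : Fintype.card F = q) {m s : ℕ} (h : Fintype.card F ≠ 2 ∨ m ≠ 2) (x : ↥(Cfsg.isometryGroup F (Cfsg.quadFormPlus m F))) (hx : x ^ 2 = 1) (hs : (((x : Matrix.GeneralLinearGroup (Fin m ⊕ Fin m) F) : Matrix (Fin m ⊕ Fin m) (Fin m ⊕ Fin m) F) - 1).rank = s) (hodd : Odd s) : Nat.card {g : ↥(Cfsg.Omega F (Cfsg.quadFormPlus m F)) // (g : ↥(Cfsg.isometryGroup F (Cfsg.quadFormPlus m F))) * x = x * (g : ↥(Cfsg.isometryGroup F (Cfsg.quadFormPlus m F)))} = q ^ (2 * m * (s - 1) - (3 * s ^ 2 - 3 * s) / 2) * ((q : ℕ) ^ (((s - 1) / 2) ^ 2) * ∏ i : Fin ((s - 1) / 2), (q ^ (2 * ((i : ℕ) + 1)) - 1)) * ((q : ℕ) ^ ((m - s) ^ 2) * ∏ i : Fin (m - s), (q ^ (2 * ((i : ℕ) + 1)) - 1)) := by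
  have hm : 1 ≤ m := by
    by_contra hm
    obtain rfl : m = 0 := by omega
    have h3 := Matrix.rank_le_card_height (((x : Matrix.GeneralLinearGroup (Fin 0 ⊕ Fin 0) F) : Matrix (Fin 0 ⊕ Fin 0) (Fin 0 ⊕ Fin 0) F) - 1)
    rw [hs] at h3
    simp at h3
    subst h3
    simp at hodd
  obtain ⟨k, r, l, hrank, rfl, hcase, h0, h1, h2⟩ :=
    Cfsg.Agent.Forms.card_omega_centralizer_plus hF h hm (Cfsg.Agent.Forms.coe_qPlus m F) x hx
  obtain rfl : s = 2 * k + r := hs.symm.trans hrank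
  rw [Nat.odd_iff] at hodd
  obtain rfl : r = 1 := by
    rcases hcase with ⟨h, -⟩ | ⟨h, -⟩ <;> omega
  refine (h1 rfl).trans ?_
  rw [Cfsg.Agent.Forms.sympOrd_fin, Cfsg.Agent.Forms.sympOrd_fin,
    show (2 * k + 1 - 1) / 2 = k by omega, show 2 * k + 1 + l - (2 * k + 1) = l by omega,
    show 2 * k + 1 - 1 = 2 * k by omega]
  congr 3
  have e1 : 3 * (2 * k + 1) ^ 2 = 12 * (k * k) + 12 * k + 3 := by ring
  have e2 : 2 * (2 * k + 1 + l) * (2 * k) = 8 * (k * k) + 4 * (k * l) + 4 * k := by ring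
  have e3 : k ≤ k * k := Nat.le_mul_self k
  omega

end Cfsg.Agent.S2683
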