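import Cfsg.Statements.S2684
import Cfsg.Agent.Forms.InvolTwoOmegaCent

set_option autoImplicit false
open Cfsg

namespace Cfsg.Agent.S2684

/-- For the hyperbolic form Q = Σ x_j y_j on F^(2m) over a finite field with q elements, q even (excluding m = 2 over the field of two elements), and an involution x ≠ 1 of the orthogonal group with s = rank(x − 1) even and Q vanishing on the image of x − 1 (equivalently f(v, xv) = 0 for all v, where f(u, w) = Q(u + w) − Q(u) − Q(w) is the bilinear form of Q; type a_s, which lies in Ω): its centraliser in Ω (the commutator subgroup of the orthogonal group) has order q^(2ms − (3s² + s)/2) · |Sp_s(q)| · |Ω⁺_(2m−2s)(q)|, where |Ω⁺_2k(q)| = q^(k(k−1)) (q^k − 1) Π_(i=1)^(k−1) (q^(2i) − 1) for k ≥ 1 and the last factor is 1 when s = m. -/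
theorem result {F : Type*} [Field F] [Fintype F] [CharP F 2] {q : ℕ} (hF : Fintype.card F = q) {m s : ℕ} (h : Fintype.card F ≠ 2 ∨ m ≠ 2) (x : ↥(Cfsg.isometryGroup F (Cfsg.quadFormPlus m F))) (hx : x ^ 2 = 1) (hx1 : x ≠ 1) (hs : (((x : Matrix.GeneralLinearGroup (Fin m ⊕ Fin m) F) : Matrix (Fin m ⊕ Fin m) (Fin m ⊕ Fin m) F) - 1).rank = s) (heven : Even s) (halt : ∀ v : Fin m ⊕ Fin m → F, Cfsg.quadFormPlus m F ((((x : Matrix.GeneralLinearGroup (Fin m ⊕ Fin m) F) : Matrix (Fin m ⊕ Fin m) (Fin m ⊕ Fin m) F) - 1).mulVec v) = 0) : Nat.card {g : ↥(Cfsg.Omega F (Cfsg.quadFormPlus m F)) // (g : ↥(Cfsg.isometryGroup F (Cfsg.quadFormPlus m F))) * x = x * (g : ↥(Cfsg.isometryGroup F (Cfsg.quadFormPlus m F)))} = q ^ (2 * m * s - (3 * s ^ 2 + s) / 2) * ((q : ℕ) ^ ((s / 2) ^ 2) * ∏ i : Fin (s / 2), (q ^ (2 * ((i : ℕ) + 1)) - 1)) * (if s = m then 1 else q ^ ((m - s) * (m - s - 1)) * (q ^ (m - s) - 1) * ∏ i : Fin (m - s - 1), (q ^ (2 * ((i : ℕ) + 1))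 - 1)) := by
  have hm : 1 ≤ m := by
    by_contra hm
    obtain rfl : m = 0 := by omega
    apply hx1
    refine Subtype.ext (Units.ext ?_)
    exact Subsingleton.elim _ _
  obtain ⟨k, r, l, hrank, rfl, hcase, h0, h1, h2⟩ :=
    Cfsg.Agent.Forms.card_omega_centralizer_plus hF h hm (Cfsg.Agent.Forms.coe_qPlus m F) x hx
  obtain rfl : s = 2 * k + r := hs.symm.trans hrank
  obtain rfl : r = 0 := by
    rcases hcase with ⟨h, -⟩ | ⟨-, h⟩
    · exact h
    · exact absurd halt h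
  refine (h0 rfl).trans ?_
  rw [Cfsg.Agent.Forms.sympOrd_fin, Fin.prod_univ_eq_prod_range (fun i => q ^ (2 * (i + 1)) - 1),
    show (2 * k + 0) / 2 = k by omega, show 2 * k + 0 + l - (2 * k + 0) = l by omega]
  congr 1
  · congr 2
    have e1 : 3 * (2 * k + 0) ^ 2 = 12 * (k * k) := by ring
    have e2 : 2 * (2 * k + 0 + l) * (2 * k + 0) = 8 * (k * k) + 4 * (k * l) := by ring
    have e3 : k ≤ k * k := Nat.le_mul_self k
    omega
  · rcases Nat.eq_zero_or_pos l with rfl | hl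
    · simp
    · rw [if_neg (by omega), if_neg (by omega)]

end Cfsg.Agent.S2684
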