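import Cfsg.Statements.S2685
import Cfsg.Agent.Forms.InvolTwoOmegaCent

set_option autoImplicit false
open Cfsg

namespace Cfsg.Agent.S2685

/-- For the hyperbolic form Q = Σ x_j y_j on F^(2m) over a finite field with q elements, q even (excluding m = 2 over the field of two elements), and an involution x of the orthogonal group with s = rank(x − 1) even and Q not vanishing on the image of x − 1 (f(v, xv) ≠ 0 for some v, where f(u, w) = Q(u + w) − Q(u) − Q(w) is the bilinear form of Q; type c_s, which lies in Ω): its centraliser in Ω (the commutator subgroup of the orthogonal group) has order q^(2m(s−1) − (3s² − 5s)/2 − 1) · |Sp_(s−2)(q)| · |Sp_(2m−2s)(q)|. -/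
theorem result {F : Type*} [Field F] [Fintype F] [CharP F 2] {q : ℕ} (hF : Fintype.card F = q) {m s : ℕ} (h : Fintype.card F ≠ 2 ∨ m ≠ 2) (x : ↥(Cfsg.isometryGroup F (Cfsg.quadFormPlus m F))) (hx : x ^ 2 = 1) (hs : (((x : Matrix.GeneralLinearGroup (Fin m ⊕ Fin m) F) : Matrix (Fin m ⊕ Fin m) (Fin m ⊕ Fin m) F) - 1).rank = s) (heven : Even s) (hna : ∃ v : Fin m ⊕ Fin m → F, Cfsg.quadFormPlus m F ((((x : Matrix.GeneralLinearGroup (Fin m ⊕ Fin m) F) : Matrix (Fin m ⊕ Fin m) (Fin m ⊕ Fin m) F) - 1).mulVec v) ≠ 0) : Nat.card {g : ↥(Cfsg.Omega F (Cfsg.quadFormPlus m F)) // (g : ↥(Cfsg.isometryGroup F (Cfsg.quadFormPlus m F))) * x = x * (g : ↥(Cfsg.isometryGroup F (Cfsg.quadFormPlus m F)))} = q ^ (2 * m * (s - 1) - (3 * s ^ 2 - 5 * s) / 2 - 1) * ((q : ℕ) ^ (((s - 2) / 2) ^ 2) * ∏ i : Fin ((s - 2) / 2), (q ^ (2 * ((i : ℕ) + 1)) - 1)) * ((q : ℕ) ^ ((m - s) ^ 2) * ∏ i : Fin (m - s), (q ^ (2 * ((i : ℕ) + 1)) - 1)) := by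
  have hm : 1 ≤ m := by
    by_contra hm
    obtain rfl : m = 0 := by omega
    obtain ⟨v, hv⟩ := hna
    exact hv (by simp [Cfsg.quadFormPlus])
  obtain ⟨k, r, l, hrank, rfl, hcase, h0, h1, h2⟩ :=
    Cfsg.Agent.Forms.card_omega_centralizer_plus hF h hm (Cfsg.Agent.Forms.coe_qPlus m F) x hx
  obtain rfl : s = 2 * k + r := hs.symm.trans hrank
  rw [Nat.even_iff] at heven
  obtain rfl : r = 2 := by
    rcases hcase with ⟨-, h⟩ | ⟨h, -⟩
    · obtain ⟨v, hv⟩ := hna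
      exact absurd (h v) hv
    · omega
  refine (h2 rfl).trans ?_
  rw [Cfsg.Agent.Forms.sympOrd_fin, Cfsg.Agent.Forms.sympOrd_fin,
    show (2 * k + 2 - 2) / 2 = k by omega, show 2 * k + 2 + l - (2 * k + 2) = l by omega,
    show 2 * k + 2 - 1 = 2 * k + 1 by omega]
  congr 3
  have e1 : 3 * (2 * k + 2) ^ 2 = 12 * (k * k) + 24 * k + 12 := by ring
  have e2 : 2 * (2 * k + 2 + l) * (2 * k + 1) = 8 * (k * k) + 4 * (k * l) + 12 * k + 2 * l + 4 := by
    ring
  have e3 : k ≤ k * k := Nat.le_mul_self k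
  omega

end Cfsg.Agent.S2685
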