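import Cfsg.Statements.S2698
import Cfsg.Agent.KnownB.AutPSL.Classes

set_option autoImplicit false
open Cfsg

namespace Cfsg.Agent.S2698
open Cfsg.Agent.KnownB Cfsg.Agent.KnownB.AutPSL


/-- Let T = PSL_n(F) be simple over the field F with p^f elements (n ≥ 2; p^f ≥ 4 when n = 2), G = Inndiag(T) the image of PGL_n(F) in Aut(T), and x a field automorphism of T of prime order r. Then r divides f; the centralizer C_G(x) is isomorphic to PGL_n(F₀) for the subfield size |F₀| = p^(f/r); and the G-class of x is the union of exactly gcd(n, (p^f − 1)/(p^(f/r) − 1)) classes under conjugation by T (the inner automorphism group). -/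
theorem result {F : Type*} [Field F] [Fintype F] {p f : ℕ} [Fact p.Prime] (hF : Fintype.card F = p ^ f) (hf : 1 ≤ f) {n : ℕ} (hn : 2 ≤ n) (hs : n = 2 → 4 ≤ Fintype.card F) (x : MulAut (Matrix.ProjectiveSpecialLinearGroup (Fin n) F)) (hx : Cfsg.IsFieldAutClassPSL x) {r : ℕ} (hr : r.Prime) (hxr : orderOf x = r) (F₀ : Type*) [Field F₀] [Fintype F₀] (hF₀ : Fintype.card F₀ = p ^ (f / r)) :
    r ∣ f ∧ Nonempty (↥(Cfsg.inndiagPSL n F ⊓ Subgroup.centralizer {x}) ≃* Matrix.ProjGenLinGroup (Fin n) F₀) ∧ Cfsg.splitClassCount (Cfsg.inndiagPSL n F) (Cfsg.Inn (Matrix.ProjectiveSpecialLinearGroup (Fin n) F)) x = Nat.gcd n ((p ^ f - 1) / (p ^ (f / r) - 1)) := by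
  classical
  obtain ⟨σ, a, -, ha, ho⟩ := field_class hn hx
  have hσ : orderOf σ = r := ho.symm.trans hxr
  have hFn : Nat.card F = p ^ f := by rw [Nat.card_eq_fintype_card, hF]
  obtain ⟨e⟩ := exists_ringAut_equiv hFn hf
  haveI : NeZero f := ⟨by omega⟩
  have hrf : r ∣ f := by
    have h := orderOf_dvd_natCard (e σ)
    rwa [MulEquiv.orderOf_eq, hσ, Nat.card_congr Multiplicative.toAdd, Nat.card_zmod] at h
  have T := fieldTwist (n := n) hn hr.pos hσ
  have hmem : A n F a ∈ (A n F).range := ⟨a, rfl⟩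
  obtain ⟨ι, hι⟩ := exists_fixedField hF hσ hr.pos hrf F₀ hF₀
  obtain ⟨e1⟩ := centralizer_field_equiv hn ι hι
  obtain ⟨e2⟩ := centralizer_congr hmem ha
  refine ⟨hrf, ?_, ?_⟩
  · rw [inndiagPSL_eq]
    exact ⟨e2.trans ((MulEquiv.subgroupCongr T.centralizer_eq).trans e1)⟩
  rw [inndiagPSL_eq, splitClassCount_congr _ hmem ha, T.splitCount (det_fixSub_field hn σ)]
  congr 1
  have hcard : Nat.card (fixSub (Units.map (σ : F →* F))) = p ^ (f / r) - 1 := by
    have hr0 : (Units.map (ι : F₀ →* F)).range = fixSub (Units.map (σ : F →* F)) := by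
      ext u
      rw [mem_fixSub, MonoidHom.mem_range]
      constructor
      · rintro ⟨v, rfl⟩
        exact Units.ext ((hι _).mpr ⟨v, rfl⟩)
      · intro hu
        obtain ⟨v, hv⟩ := (hι _).mp (congrArg Units.val hu)
        have hv0 : v ≠ 0 := by rintro rfl; rw [map_zero] at hv; exact u.ne_zero hv.symm
        exact ⟨Units.mk0 v hv0, Units.ext hv⟩
    have hinj : Function.Injective (Units.map (ι : F₀ →* F)) :=
      Units.map_injective ι.injective
    rw [← hr0, ← Nat.card_congr (MonoidHom.ofInjective hinj).toEquiv, Nat.card_units,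
      Nat.card_eq_fintype_card, hF₀]
  have hmul := Subgroup.card_mul_index (fixSub (Units.map (σ : F →* F)))
  rw [hcard, Nat.card_units, Nat.card_eq_fintype_card, hF] at hmul
  have h2 : 2 ≤ p ^ (f / r) := hF₀ ▸ Fintype.one_lt_card
  exact (Nat.div_eq_of_eq_mul_right (by omega) hmul.symm).symm

end Cfsg.Agent.S2698
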