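import Cfsg.Statements.S2700
import Cfsg.Agent.KnownB.GraphInv.Common
import Cfsg.Agent.KnownB.GraphInv.PSL
-- import your own Cfsg.Agent.* helpers here

set_option autoImplicit false
open Cfsg

namespace Cfsg.Agent.S2700
open Cfsg.Agent Cfsg.Agent.KnownB Cfsg.Agent.KnownB.GraphInv

/-- Let T = PSL_n(F) over a finite field of odd order with n = 2m ≥ 4 even, and G = Inndiag(T) the image of PGL_n(F). The involutory graph automorphisms of T fall into exactly three G-classes, with representatives γ₁, γ₂, γ₃ whose centralizers in G are isomorphic respectively to the projective conformal symplectic group PGSp_n(F), the projective conformal orthogonal group of the plus-type form Σ xᵢ yᵢ, and that of a minus-type form Σ xᵢ yᵢ + z₁² + a z₁ z₂ + b z₂² (anisotropic binary part) in dimension n. -/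
theorem result {F : Type*} [Field F] [Fintype F] (hodd : Odd (Fintype.card F)) {n m : ℕ} (hm : 2 ≤ m) (hnm : n = 2 * m) :
    ∃ (γ₁ γ₂ γ₃ : MulAut (Matrix.ProjectiveSpecialLinearGroup (Fin n) F)) (a b : F), (∀ z₁ z₂ : F, z₁ ^ 2 + a * z₁ * z₂ + b * z₂ ^ 2 = 0 → z₁ = 0 ∧ z₂ = 0) ∧ Cfsg.IsGraphAutClassPSL γ₁ ∧ orderOf γ₁ = 2 ∧ Cfsg.IsGraphAutClassPSL γ₂ ∧ orderOf γ₂ = 2 ∧ Cfsg.IsGraphAutClassPSL γ₃ ∧ orderOf γ₃ = 2 ∧ ¬ Cfsg.IsConjUnder (Cfsg.inndiagPSL n F) γ₁ γ₂ ∧ ¬ Cfsg.IsConjUnder (Cfsg.inndiagPSL n F) γ₁ γ₃ ∧ ¬ Cfsg.IsConjUnder (Cfsg.inndiagPSL n F) γ₂ γ₃ ∧ (∀ γ : MulAut (Matrix.ProjectiveSpecialLinearGroup (Fin n) F), Cfsg.IsGraphAutClassPSL γ → orderOf γ = 2 → Cfsg.IsConjUnder (Cfsg.inndiagPSL n F) γ₁ γ ∨ Cfsg.IsConjUnder (Cfsg.inndiagPSL n F) γ₂ γ ∨ Cfsg.IsConjUnder (Cfsg.inndiagPSL n F) γ₃ γ) ∧ Nonempty (↥(Cfsg.inndiagPSL n F ⊓ Subgroup.centralizer {γ₁}) ≃* Cfsg.PGSp m F) ∧ Nonempty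 (↥(Cfsg.inndiagPSL n F ⊓ Subgroup.centralizer {γ₂}) ≃* Cfsg.PGO F (Cfsg.quadFormPlus m F)) ∧ Nonempty (↥(Cfsg.inndiagPSL n F ⊓ Subgroup.centralizer {γ₃}) ≃* Cfsg.PGO F (Cfsg.quadFormMinus (m - 1) F a b)) := by
  classical
  obtain ⟨k, rfl⟩ : ∃ k, m = k + 1 := ⟨m - 1, by omega⟩
  have hn3 : 3 ≤ n := by omega
  have hn2 : 2 ≤ n := by omega
  have h2 : (2 : F) ≠ 0 := two_ne_of_odd hodd
  haveI : Nonempty (Fin n) := ⟨⟨0, by omega⟩⟩
  obtain ⟨a, b, hab⟩ := exists_aniso (F := F)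
  obtain ⟨J₁, hC₁⟩ := exists_fin_model (Matrix.J (Fin (k + 1)) F)
    (Matrix.isUnit_det_J (Fin (k + 1)) F).ne_zero (n := n) (by simp; omega)
  obtain ⟨J₂, hC₂⟩ := exists_fin_model (plusGram (k + 1) F)
    (by rw [plusGram_det]; exact pow_ne_zero _ (by simp)) (n := n) (by simp; omega)
  obtain ⟨J₃, hC₃⟩ := exists_fin_model (minusGram k F a b) (minusGram_det_ne h2 k hab) (n := n)
    (by simp; omega)
  have hJ₁ : J₁.1.transpose = -J₁.1 := by
    have := hC₁.transpose_eq (c := -1) (by rw [neg_one_smul]; exact Matrix.J_transpose _ _)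
    rwa [neg_one_smul] at this
  have hJ₂ : J₂.1.transpose = J₂.1 := by
    have := hC₂.transpose_eq (c := 1) (by rw [one_smul]; exact plusGram_symm _)
    rwa [one_smul] at this
  have hJ₃ : J₃.1.transpose = J₃.1 := by
    have := hC₃.transpose_eq (c := 1) (by rw [one_smul]; exact minusGram_symm _ _ _)
    rwa [one_smul] at this
  have hdne : ∀ J : Matrix.GeneralLinearGroup (Fin n) F, J.1.det ≠ 0 := fun J =>
    (Matrix.GeneralLinearGroup.det J).ne_zero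
  have hcard : Fintype.card (Fin n) = 2 * (k + 1) := by simp; omega
  refine ⟨gam J₁, gam J₂, gam J₃, a, b, hab, gam_class hn3 _,
    (gam_order_iff hn3 _).2 (Or.inr hJ₁), gam_class hn3 _,
    (gam_order_iff hn3 _).2 (Or.inl hJ₂), gam_class hn3 _,
    (gam_order_iff hn3 _).2 (Or.inl hJ₃), ?_, ?_, ?_, ?_, ?_, ?_, ?_⟩
  · rw [conj_iff hn2]; exact not_cong_symm_skew h2 hJ₁ hJ₂ (hdne _)
  · rw [conj_iff hn2]; exact not_cong_symm_skew h2 hJ₁ hJ₃ (hdne _)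
  · rw [conj_iff hn2]
    exact fun h => not_cong_plus_minus h2 k hab ((hC₂.trans h).trans hC₃.symm)
  · intro γ hγ hγ2
    obtain ⟨J, rfl⟩ := exists_gam hγ
    simp only [conj_iff hn2]
    rcases (gam_order_iff hn3 J).1 hγ2 with h | h
    · by_cases hs : IsSquare (J.1.det * (-1) ^ (k + 1))
      · exact Or.inr (Or.inl
          (hC₂.symm.trans ((cong_plus_or_minus h2 h (hdne J) hcard hab).1 hs).symm))
      · exact Or.inr (Or.inr
          (hC₃.symm.trans ((cong_plus_or_minus h2 h (hdne J) hcard hab).2 hs).symm))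
    · exact Or.inl (hC₁.symm.trans (cong_alt (hdne J) (alt_of_skew h2 h) hcard).symm)
  · obtain ⟨e⟩ := centralizer_equiv hn2 J₁
    obtain ⟨e'⟩ := pgsp_equiv hC₁.symm
    exact ⟨e.trans e'⟩
  · obtain ⟨e⟩ := centralizer_equiv hn2 J₂
    obtain ⟨e'⟩ := pgo_plus_equiv h2 hC₂.symm
    exact ⟨e.trans e'⟩
  · obtain ⟨e⟩ := centralizer_equiv hn2 J₃
    obtain ⟨e'⟩ := pgo_minus_equiv h2 hC₃.symm
    exact ⟨e.trans e'⟩

end Cfsg.Agent.S2700
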