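import Cfsg.Statements.S2701
import Cfsg.Agent.KnownB.GraphInv.Common
import Cfsg.Agent.KnownB.GraphInv.PSL
-- import your own Cfsg.Agent.* helpers here

set_option autoImplicit false
open Cfsg

namespace Cfsg.Agent.S2701
open Cfsg.Agent Cfsg.Agent.KnownB Cfsg.Agent.KnownB.GraphInv

/-- Let T = PSL_n(F) over a finite field of characteristic 2 with n = 2m ≥ 4 even, and G = Inndiag(T) the image of PGL_n(F). The involutory graph automorphisms of T fall into exactly two G-classes, with representatives γ₁ and γ₃ whose centralizers in G are isomorphic respectively to the symplectic group Sp_n(F) and to the centralizer in Sp_n(F) of a symplectic transvection. -/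
theorem result {F : Type*} [Field F] [Fintype F] [CharP F 2] {n m : ℕ} (hm : 2 ≤ m) (hnm : n = 2 * m) :
    ∃ (γ₁ γ₃ : MulAut (Matrix.ProjectiveSpecialLinearGroup (Fin n) F)) (t : ↥(Matrix.symplecticGroup (Fin m) F)), Cfsg.IsTransvection (t : Matrix (Fin m ⊕ Fin m) (Fin m ⊕ Fin m) F) ∧ Cfsg.IsGraphAutClassPSL γ₁ ∧ orderOf γ₁ = 2 ∧ Cfsg.IsGraphAutClassPSL γ₃ ∧ orderOf γ₃ = 2 ∧ ¬ Cfsg.IsConjUnder (Cfsg.inndiagPSL n F) γ₁ γ₃ ∧ (∀ γ : MulAut (Matrix.ProjectiveSpecialLinearGroup (Fin n) F), Cfsg.IsGraphAutClassPSL γ → orderOf γ = 2 → Cfsg.IsConjUnder (Cfsg.inndiagPSL n F) γ₁ γ ∨ Cfsg.IsConjUnder (Cfsg.inndiagPSL n F) γ₃ γ) ∧ Nonempty (↥(Cfsg.inndiagPSL n F ⊓ Subgroup.centralizer {γ₁}) ≃* ↥(Matrix.symplecticGroup (Fin m) F)) ∧ Nonempty (↥(Cfsg.inndiagPSL n F ⊓ Subgroup.centralizer {γ₃}) ≃* ↥(Subgroup.centralizer ({t} : Set ↥(Matrix.symplecticGroup (Fin m) F)))) := by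
  classical
  have hn3 : 3 ≤ n := by omega
  have hn2 : 2 ≤ n := by omega
  have hm1 : 1 ≤ m := by omega
  let i : Fin m := ⟨0, hm1⟩
  obtain ⟨J₁, hC₁⟩ := exists_fin_model (Matrix.J (Fin m) F)
    (Matrix.isUnit_det_J (Fin m) F).ne_zero (n := n) (by simp; omega)
  have hdT : (transGram F i).det ≠ 0 := by
    rw [transGram_eq, Matrix.det_mul, SymplecticGroup.det_eq_one (tvMat_mem i), mul_one]
    exact (Matrix.isUnit_det_J (Fin m) F).ne_zero
  obtain ⟨J₃, hC₃⟩ := exists_fin_model (transGram F i) hdT (n := n) (by simp; omega)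
  have hdne : ∀ J : Matrix.GeneralLinearGroup (Fin n) F, J.1.det ≠ 0 := fun J =>
    (Matrix.GeneralLinearGroup.det J).ne_zero
  have hJs : (Matrix.J (Fin m) F).transpose = Matrix.J (Fin m) F := by
    rw [J_eq_plusGram]; exact plusGram_symm m
  have hTs : (transGram F i).transpose = transGram F i := by
    rw [transGram, Matrix.transpose_add, hJs, Matrix.transpose_single]
  have hJ₁ : J₁.1.transpose = J₁.1 := by
    have := hC₁.transpose_eq (c := 1) (by rw [one_smul]; exact hJs)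
    rwa [one_smul] at this
  have hJ₃ : J₃.1.transpose = J₃.1 := by
    have := hC₃.transpose_eq (c := 1) (by rw [one_smul]; exact hTs)
    rwa [one_smul] at this
  have halt₁ : ∀ v, v ⬝ᵥ (Matrix.mulVec J₁.1 v) = 0 := alt_of_cong hC₁ fun v => by
    have := Forms.sympB_isAlt (m := m) (F := F) v
    rwa [Forms.sympB_apply] at this
  have halt₃ : ¬ ∀ v, v ⬝ᵥ (Matrix.mulVec J₃.1 v) = 0 := fun h => by
    have := alt_of_cong hC₃.symm h (Pi.single (Sum.inr i) 1)
    rw [transGram_quad] at this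
    simp at this
  refine ⟨gam J₁, gam J₃, tv F i, tv_isTransvection i, gam_class hn3 _,
    (gam_order_iff hn3 _).2 (Or.inl hJ₁), gam_class hn3 _,
    (gam_order_iff hn3 _).2 (Or.inl hJ₃), ?_, ?_, ?_, ?_⟩
  · rw [conj_iff hn2]
    exact fun h => halt₃ (alt_of_cong h halt₁)
  · intro γ hγ hγ2
    obtain ⟨J, rfl⟩ := exists_gam hγ
    simp only [conj_iff hn2]
    have hJ := symm_of_two CharTwo.two_eq_zero ((gam_order_iff hn3 J).1 hγ2)
    by_cases ha : ∀ v, v ⬝ᵥ (Matrix.mulVec J.1 v) = 0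
    · exact Or.inl (cong_two hJ₁ hJ (hdne _) (hdne _) rfl (iff_of_true halt₁ ha))
    · exact Or.inr (cong_two hJ₃ hJ (hdne _) (hdne _) rfl (iff_of_false halt₃ ha))
  · obtain ⟨e⟩ := centralizer_equiv_of_cong hn2 J₁ hC₁.symm
    obtain ⟨e'⟩ := gsp_two (F := F) hm1
    exact ⟨e.trans e'.symm⟩
  · obtain ⟨e⟩ := centralizer_equiv_of_cong hn2 J₃ hC₃.symm
    obtain ⟨e'⟩ := trans_two (F := F) i
    exact ⟨e.trans e'.symm⟩

end Cfsg.Agent.S2701
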