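import Cfsg.Statements.S2702
import Cfsg.Agent.KnownB.GraphInv.Common
import Cfsg.Agent.KnownB.GraphInv.PSL
-- import your own Cfsg.Agent.* helpers here

set_option autoImplicit false
open Cfsg

namespace Cfsg.Agent.S2702
open Cfsg.Agent Cfsg.Agent.KnownB Cfsg.Agent.KnownB.GraphInv

/-- Let T = PSL_n(F) over the field with q = p^f elements, n ≥ 3, G = Inndiag(T) the image of PGL_n(F), and γ an involutory graph automorphism of T. The G-class of γ is the union of exactly c T-classes, where: if n is even and q is odd, c = gcd(n/2, q − 1) when C_G(γ) is isomorphic to the projective conformal symplectic group PGSp_n(F) (symplectic type) and c = gcd(n, q − 1)/2 otherwise; and c = gcd(n, q − 1) when n is odd or q is even. -/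
theorem result {F : Type*} [Field F] [Fintype F] {p f : ℕ} [Fact p.Prime] (hF : Fintype.card F = p ^ f) (hf : 1 ≤ f) {n : ℕ} (hn : 3 ≤ n) (γ : MulAut (Matrix.ProjectiveSpecialLinearGroup (Fin n) F)) (hγ : Cfsg.IsGraphAutClassPSL γ) (hγ2 : orderOf γ = 2) :
    ((Even n ∧ Odd p ∧ Nonempty (↥(Cfsg.inndiagPSL n F ⊓ Subgroup.centralizer {γ}) ≃* Cfsg.PGSp (n / 2) F)) → Cfsg.splitClassCount (Cfsg.inndiagPSL n F) (Cfsg.Inn (Matrix.ProjectiveSpecialLinearGroup (Fin n) F)) γ = Nat.gcd (n / 2) (p ^ f - 1)) ∧ ((Even n ∧ Odd p ∧ ¬ Nonempty (↥(Cfsg.inndiagPSL n F ⊓ Subgroup.centralizer {γ}) ≃* Cfsg.PGSp (n / 2) F)) → Cfsg.splitClassCount (Cfsg.inndiagPSL n F) (Cfsg.Inn (Matrix.ProjectiveSpecialLinearGroup (Fin n) F)) γ = Nat.gcd n (p ^ f - 1) / 2) ∧ (¬ (Even n ∧ Odd p) → Cfsg.splitClassCount (Cfsg.inndiagPSL n F) (Cfsg.Inn (Matrix.ProjectiveSpecialLinearGroup (Fin n) F)) γ = Nat.gcd n (p ^ f - 1)) := by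
  classical
  have hn2 : 2 ≤ n := by omega
  obtain ⟨J, rfl⟩ := exists_gam hγ
  have hd : J.1.det ≠ 0 := (Matrix.GeneralLinearGroup.det J).ne_zero
  have hN : Nat.card Fˣ = p ^ f - 1 := by
    rw [Nat.card_units, Nat.card_eq_fintype_card, hF]
  have hp2 : Odd p ↔ (2 : F) ≠ 0 := by
    constructor
    · intro hp; exact two_ne_of_odd (hF ▸ hp.pow)
    · intro h2
      by_contra hp
      have hp' : p = 2 := by
        rcases (Fact.out : p.Prime).eq_two_or_odd' with h | h
        · exact h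
        · exact absurd h hp
      have h0 : (Fintype.card F : F) = 0 := FiniteField.cast_card_eq_zero F
      rw [hF, hp', Nat.cast_pow, Nat.cast_ofNat] at h0
      exact h2 (pow_eq_zero_iff (by omega) |>.1 h0)
  rw [split_eq hn2]
  refine ⟨?_, ?_, ?_⟩
  · rintro ⟨hn', hp, ⟨e⟩⟩
    obtain ⟨m, rfl⟩ := hn'
    have hm : (m + m) / 2 = m := by omega
    rw [hm] at e ⊢
    have h2 := hp2.1 hp
    have hcard : Fintype.card (Fin (m + m)) = 2 * m := by simp; omega
    rcases (gam_order_iff hn J).1 hγ2 with h | h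
    · obtain ⟨e'⟩ := centralizer_equiv hn2 J
      exact absurd ⟨e'.symm.trans e⟩ (not_iso_PGSp h2 h hd (by omega) hcard)
    · rw [index_simDet_skew h2 h hd hcard, IsCyclic.index_powMonoidHom_range, hN, Nat.gcd_comm]
  · rintro ⟨hn', hp, hne⟩
    obtain ⟨m, rfl⟩ := hn'
    have hm : (m + m) / 2 = m := by omega
    rw [hm] at hne
    have h2 := hp2.1 hp
    have hcard : Fintype.card (Fin (m + m)) = 2 * m := by simp; omega
    rcases (gam_order_iff hn J).1 hγ2 with h | h
    · rw [simDet_symm h2 h hd (by omega) hcard, index_half (even_card_units h2), hN,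
        Nat.gcd_comm, two_mul]
    · obtain ⟨e'⟩ := centralizer_equiv hn2 J
      obtain ⟨e''⟩ := pgsp_equiv (cong_alt hd (alt_of_skew h2 h) hcard)
      exact absurd ⟨e'.trans e''⟩ hne
  · intro h
    rw [simDet_generic hd (by rw [← hp2, Fintype.card_fin]; exact h),
      IsCyclic.index_powMonoidHom_range, hN, Fintype.card_fin, Nat.gcd_comm]

end Cfsg.Agent.S2702
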