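import Cfsg.Statements.S2703
import Cfsg.Agent.KnownB.GraphInv.Common
import Cfsg.Agent.KnownB.GraphInv.PSL
-- import your own Cfsg.Agent.* helpers here

set_option autoImplicit false
open Cfsg

namespace Cfsg.Agent.S2703
open Cfsg.Agent Cfsg.Agent.KnownB Cfsg.Agent.KnownB.GraphInv

/-- Let T = PSL_n(F) over the field with q elements, q odd, n = 2m ≥ 4 even, and ι the inverse-transpose automorphism. Its centralizer in G = Inndiag(T) (the image of PGL_n(F)) is isomorphic to the projective conformal orthogonal group of the plus-type form Σ xᵢ yᵢ in dimension n when n(q − 1)/4 is even, and to that of a minus-type form (Σ xᵢ yᵢ + z₁² + a z₁ z₂ + b z₂² with anisotropic binary part) when n(q − 1)/4 is odd. -/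
theorem result {F : Type*} [Field F] [Fintype F] (hodd : Odd (Fintype.card F)) {n m : ℕ} (hm : 2 ≤ m) (hnm : n = 2 * m) (ι : MulAut (Matrix.ProjectiveSpecialLinearGroup (Fin n) F)) (hι : Cfsg.IsInverseTransposeAutPSL ι) :
    (Even (n * (Fintype.card F - 1) / 4) → Nonempty (↥(Cfsg.inndiagPSL n F ⊓ Subgroup.centralizer {ι}) ≃* Cfsg.PGO F (Cfsg.quadFormPlus m F))) ∧ (¬ Even (n * (Fintype.card F - 1) / 4) → ∃ a b : F, (∀ z₁ z₂ : F, z₁ ^ 2 + a * z₁ * z₂ + b * z₂ ^ 2 = 0 → z₁ = 0 ∧ z₂ = 0) ∧ Nonempty (↥(Cfsg.inndiagPSL n F ⊓ Subgroup.centralizer {ι}) ≃* Cfsg.PGO F (Cfsg.quadFormMinus (m - 1) F a b))) := by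
  classical
  obtain ⟨k, rfl⟩ : ∃ k, m = k + 1 := ⟨m - 1, by omega⟩
  have hn2 : 2 ≤ n := by omega
  have h2 : (2 : F) ≠ 0 := two_ne_of_odd hodd
  rw [AutPSL.isInverseTranspose_iff] at hι
  subst hι
  have hgam : AutPSL.It n F = gam 1 := by rw [gam, inv_one, map_one, one_mul]
  rw [hgam]
  have hcard : Fintype.card (Fin n) = 2 * (k + 1) := by simp; omega
  obtain ⟨a, b, hab⟩ := exists_aniso (F := F)
  obtain ⟨hp, hm'⟩ := cong_plus_or_minus h2 (M := ((1 : Matrix.GeneralLinearGroup (Fin n) F).1))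
    (by simp) (by simp) hcard hab
  have hiff : IsSquare ((1 : Matrix.GeneralLinearGroup (Fin n) F).1.det * (-1) ^ (k + 1)) ↔
      Even (n * (Fintype.card F - 1) / 4) := by
    rw [Units.val_one, Matrix.det_one, one_mul, Forms.isSquare_neg_one_pow_even_iff rfl hodd, hnm,
      mul_assoc, show (4 : ℕ) = 2 * 2 from rfl, Nat.mul_div_mul_left _ _ two_pos]
  obtain ⟨e⟩ := centralizer_equiv hn2 (1 : Matrix.GeneralLinearGroup (Fin n) F)
  refine ⟨fun h => ?_, fun h => ⟨a, b, hab, ?_⟩⟩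
  · obtain ⟨e'⟩ := pgo_plus_equiv h2 (hp (hiff.2 h))
    exact ⟨e.trans e'⟩
  · obtain ⟨e'⟩ := pgo_minus_equiv h2 (hm' (mt hiff.1 h))
    exact ⟨e.trans e'⟩

end Cfsg.Agent.S2703
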