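import Cfsg.Statements.S2704
import Cfsg.Agent.KnownB.AutPSL.Classes

set_option autoImplicit false
open Cfsg

namespace Cfsg.Agent.S2704
open Cfsg.Agent.KnownB Cfsg.Agent.KnownB.AutPSL
open Matrix in
theorem mem_GU_iff {n : ℕ} {F : Type*} [Field F] {σ : F ≃+* F} {q : ℕ} (hs : ∀ z, σ z = z ^ q)
    (g : GL (Fin n) F) :
    g ∈ Cfsg.GU n F q ↔ g ∈ fixSub ((mapGL σ).comp (itGLHom n F)) := by
  rw [mem_fixSub_graph]
  have hform : ∀ u v : Fin n → F,
      Cfsg.hermForm n F q (g.val *ᵥ u) (g.val *ᵥ v) =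
        (⇑σ ∘ v) ⬝ᵥ (((g.val.map σ).transpose * g.val) *ᵥ u) := by
    intro u v
    rw [← Matrix.mulVec_mulVec, Matrix.dotProduct_mulVec, Matrix.vecMul_transpose]
    simp only [Cfsg.hermForm, dotProduct, ← hs]
    refine Finset.sum_congr rfl fun i _ => ?_
    rw [mul_comm]
    congr 1
    simp [Matrix.mulVec, dotProduct, map_sum]
  constructor
  · intro h
    ext i j
    have h1 := h (Pi.single j 1) (Pi.single i 1)
    simp only [Units.coeHom_apply] at h1
    rw [hform] at h1
    have he : ∀ k, (⇑σ ∘ (Pi.single k (1 : F) : Fin n → F)) = Pi.single k 1 := fun k => by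
      funext l
      by_cases hl : l = k
      · subst hl; simp
      · simp [hl]
    rw [he, single_dotProduct, one_mul, Matrix.mulVec_single_one, Matrix.col_apply] at h1
    rw [h1]
    simp only [Cfsg.hermForm, ← hs, Matrix.one_apply]
    rw [Finset.sum_eq_single i]
    · by_cases hij : i = j
      · subst hij; simp
      · simp [hij]
    · intro k _ hk; simp [hk]
    · simp
  · intro h u v
    show Cfsg.hermForm n F q (g.val *ᵥ u) (g.val *ᵥ v) = _
    rw [hform, h, Matrix.one_mulVec]
    simp only [Cfsg.hermForm, dotProduct, Function.comp_apply, ← hs, mul_comm]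

open Matrix in
theorem det_fixSub_graph {n : ℕ} {F : Type*} [Field F] (hn : 2 ≤ n) (σ : F ≃+* F) :
    (fixSub ((mapGL σ).comp (itGLHom n F))).map
        (Matrix.GeneralLinearGroup.det : GL (Fin n) F →* Fˣ) =
      fixSub ((Units.map (σ : F →* F))⁻¹) := by
  apply le_antisymm
  · rintro _ ⟨g, hg, rfl⟩
    have h := congrArg Matrix.det ((mem_fixSub_graph σ g).mp hg)
    rw [Matrix.det_mul, Matrix.det_transpose, Matrix.det_one] at h
    rw [mem_fixSub, MonoidHom.inv_apply, inv_eq_iff_mul_eq_one]
    apply Units.ext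
    rw [Units.val_mul, Units.val_one]
    convert h using 2
    · exact congrArg Units.val (det_mapGL σ g).symm
    · rfl
  · intro c hc
    obtain ⟨D, hD, hdet⟩ := exists_det_eq hn c
    refine ⟨D, (mem_fixSub_graph σ D).mpr ?_, hdet⟩
    rw [mem_fixSub, MonoidHom.inv_apply, inv_eq_iff_mul_eq_one] at hc
    rw [hD, Matrix.diagonal_map (map_zero σ), Matrix.diagonal_transpose,
      Matrix.diagonal_mul_diagonal]
    rw [← Matrix.diagonal_one]
    congr 1
    funext i
    by_cases hi : i = ⟨0, by omega⟩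
    · subst hi
      simp only [Function.comp_apply, Function.update_self]
      exact congrArg Units.val hc
    · simp [hi]


/-- Let T = PSL_n(F) over the field F with p^f elements, n ≥ 3, and G = Inndiag(T) the image of PGL_n(F). If x is an involutory graph-field automorphism of T then f is even; x is G-conjugate to every other involutory graph-field automorphism; C_G(x) is isomorphic to the projective general unitary group PGU_n(q₀) with q₀² = p^f, realised over F itself through the Hermitian form Σ uᵢ vᵢ^{q₀}; and the G-class of x is the union of exactly gcd(n, q₀ − 1) T-classes. -/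
theorem result {F : Type*} [Field F] [Fintype F] {p f : ℕ} [Fact p.Prime] (hF : Fintype.card F = p ^ f) (hf : 1 ≤ f) {n : ℕ} (hn : 3 ≤ n) (x : MulAut (Matrix.ProjectiveSpecialLinearGroup (Fin n) F)) (hx : Cfsg.IsGraphFieldAutClassPSL x) (hx2 : orderOf x = 2) :
    Even f ∧ (∀ y : MulAut (Matrix.ProjectiveSpecialLinearGroup (Fin n) F), Cfsg.IsGraphFieldAutClassPSL y → orderOf y = 2 → Cfsg.IsConjUnder (Cfsg.inndiagPSL n F) x y) ∧ Nonempty (↥(Cfsg.inndiagPSL n F ⊓ Subgroup.centralizer {x}) ≃* Cfsg.PGU n F (p ^ (f / 2))) ∧ Cfsg.splitClassCount (Cfsg.inndiagPSL n F) (Cfsg.Inn (Matrix.ProjectiveSpecialLinearGroup (Fin n) F)) x = Nat.gcd n (p ^ (f / 2) - 1) := by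
  classical
  obtain ⟨-, -, σ, a, hσ1, hσ2, ha⟩ := graphField_class hx Nat.prime_two hx2
  have hσ : orderOf σ = 2 := orderOf_eq_prime (by rw [pow_two, hσ2]) hσ1
  have hFn : Nat.card F = p ^ f := by rw [Nat.card_eq_fintype_card, hF]
  obtain ⟨e⟩ := exists_ringAut_equiv hFn hf
  haveI : NeZero f := ⟨by omega⟩
  have hev : Even f := by
    have h := orderOf_dvd_natCard (e σ)
    rw [MulEquiv.orderOf_eq, hσ, Nat.card_congr Multiplicative.toAdd, Nat.card_zmod] at h
    exact even_iff_two_dvd.mpr h
  set q := p ^ (f / 2) with hq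
  have hq2 : Fintype.card F = q ^ 2 := by
    rw [hF, hq, ← pow_mul, Nat.div_mul_cancel (even_iff_two_dvd.mp hev)]
  have hs : ∀ z, σ z = z ^ q := by
    obtain ⟨q', hq', hs'⟩ := Cfsg.Agent.Forms.exists_q_of_involution (σ : F →+* F)
      (fun h => hσ1 (RingEquiv.ext fun z => RingHom.congr_fun h z))
      (fun z => RingEquiv.congr_fun hσ2 z)
    have : q' = q := Nat.pow_left_injective two_ne_zero (hq'.symm.trans hq2)
    subst this
    exact hs'
  have T := graphTwist (n := n) hn hσ1 hσ2
  have hmem : A n F a ∈ (A n F).range := ⟨a, rfl⟩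
  refine ⟨hev, ?_, ?_, ?_⟩
  · intro y hy hy2
    obtain ⟨-, -, σ', b, hσ1', hσ2', hb⟩ := graphField_class hy Nat.prime_two hy2
    have hs' : ∀ z, σ' z = z ^ q := by
      obtain ⟨q', hq', hs'⟩ := Cfsg.Agent.Forms.exists_q_of_involution (σ' : F →+* F)
        (fun h => hσ1' (RingEquiv.ext fun z => RingHom.congr_fun h z))
        (fun z => RingEquiv.congr_fun hσ2' z)
      have : q' = q := Nat.pow_left_injective two_ne_zero (hq'.symm.trans hq2)
      subst this
      exact hs'
    have : σ' = σ := RingEquiv.ext fun z => by rw [hs, hs']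
    subst this
    rw [inndiagPSL_eq]
    exact ⟨A n F b * (A n F a)⁻¹, mul_mem ⟨b, rfl⟩ (inv_mem hmem), by rw [hb, ha]; group⟩
  · rw [inndiagPSL_eq]
    obtain ⟨e2⟩ := centralizer_congr hmem ha
    let Φ : Cfsg.GU n F q →* MulAut (Matrix.ProjectiveSpecialLinearGroup (Fin n) F) :=
      (A n F).comp (Cfsg.GU n F q).subtype
    have hrange : Φ.range = (A n F).range ⊓ Subgroup.centralizer {Fd n F σ * It n F} := by
      rw [T.centralizer_eq, MonoidHom.range_comp, Subgroup.range_subtype]
      congr 1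
      ext g
      exact mem_GU_iff hs g
    have hker : Φ.ker = (Cfsg.Geo.scalars (Fin n) F).subgroupOf (Cfsg.GU n F q) := by
      ext g
      rw [MonoidHom.mem_ker, MonoidHom.comp_apply, A_eq_one_iff (by omega),
        Subgroup.mem_subgroupOf, Matrix.GeneralLinearGroup.center_eq_range_scalar]
      rfl
    exact ⟨e2.trans ((MulEquiv.subgroupCongr hrange.symm).trans
      ((QuotientGroup.quotientKerEquivRange Φ).symm.trans
        (QuotientGroup.quotientMulEquivOfEq hker)))⟩
  rw [inndiagPSL_eq, splitClassCount_congr _ hmem ha, T.splitCount (det_fixSub_graph (by omega) σ)]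
  congr 1
  rw [show fixSub ((Units.map (σ : F →* F))⁻¹) = (powMonoidHom (q + 1) : Fˣ →* Fˣ).ker from ?_]
  · rw [IsCyclic.index_powMonoidHom_ker, Nat.card_units, Nat.card_eq_fintype_card, hq2,
      show q ^ 2 - 1 = (q + 1) * (q - 1) by simpa using Nat.sq_sub_sq q 1,
      Nat.gcd_eq_right (dvd_mul_right _ _), Nat.mul_div_cancel_left _ (by omega)]
  ext u
  rw [mem_fixSub, MonoidHom.mem_ker, powMonoidHom_apply, MonoidHom.inv_apply,
    inv_eq_iff_mul_eq_one]
  rw [show Units.map (σ : F →* F) u = u ^ q from Units.ext (by simpa using hs (u : F)), ← pow_succ]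

end Cfsg.Agent.S2704
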