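import Cfsg.Statements.S2705
import Cfsg.Agent.KnownB.Proj.Unit.Lang

set_option autoImplicit false
open Cfsg

namespace Cfsg.Agent.S2705
open Cfsg.Agent.KnownB.Proj Cfsg.Agent.KnownB.Proj.Unit

/-- Let T = PSU_n(q) be simple (n ≥ 3, (n, q) ≠ (3, 2), q = p^f), realised over the field F with q² elements, G = Inndiag(T) the image of PGU_n(q) in Aut(T), and x a field automorphism of T (conjugate to a standard field automorphism of odd order) of odd prime order r. Then r divides f; C_G(x) is isomorphic to PGU_n(q₀) with q₀ = p^(f/r), realised over a field F₀ with q₀² elements; and the G-class of x is the union of exactly gcd(n, (q + 1)/(q₀ + 1)) T-classes. -/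
theorem result {F : Type*} [Field F] [Fintype F] {p f q : ℕ} [Fact p.Prime] (hq : q = p ^ f) (hf : 1 ≤ f) (hF : Fintype.card F = q ^ 2) {n : ℕ} (hn : 3 ≤ n) (hs : ¬ (n = 3 ∧ q = 2)) (x : MulAut (Cfsg.PSU n F q)) (hx : Cfsg.IsFieldAutClassPSU x) {r : ℕ} (hr : r.Prime) (hro : Odd r) (hxr : orderOf x = r) (F₀ : Type*) [Field F₀] [Fintype F₀] (hF₀ : Fintype.card F₀ = p ^ (2 * (f / r))) :
    r ∣ f ∧ Nonempty (↥(Cfsg.inndiagPSU n F q ⊓ Subgroup.centralizer {x}) ≃* Cfsg.PGU n F₀ (p ^ (f / r))) ∧ Cfsg.splitClassCount (Cfsg.inndiagPSU n F q) (Cfsg.Inn (Cfsg.PSU n F q)) x = Nat.gcd n ((q + 1) / (p ^ (f / r) + 1)) := by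
  classical
  obtain ⟨α, σ, -, -, h, ho⟩ := field_class hF hn hx
  have hσ : orderOf σ = r := ho.trans hxr
  have hFn : Nat.card F = p ^ (2 * f) := by
    rw [Nat.card_eq_fintype_card, hF, hq, ← pow_mul, mul_comm]
  obtain ⟨e⟩ := Cfsg.Agent.KnownB.AutPSL.exists_ringAut_equiv hFn (by omega)
  haveI : NeZero (2 * f) := ⟨by omega⟩
  have hr2 : r ∣ 2 * f := by
    have h' := orderOf_dvd_natCard (e σ)
    rwa [MulEquiv.orderOf_eq, hσ, Nat.card_congr Multiplicative.toAdd, Nat.card_zmod] at h'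
  have hrf : r ∣ f := by
    refine (hr.dvd_mul.mp hr2).resolve_left fun h2 => ?_
    rw [(Nat.prime_dvd_prime_iff_eq hr Nat.prime_two).mp h2] at hro
    exact Nat.not_odd_iff_even.mpr even_two hro
  have T := fieldTwist (n := n) hF hn hro hσ
  haveI := range_A_normal hF hn hs
  obtain ⟨ι, hι⟩ := Cfsg.Agent.KnownB.AutPSL.exists_fixedField (p := p) (f := 2 * f) (F := F)
    (by rw [← Nat.card_eq_fintype_card]; exact hFn) hσ hr.pos hr2 F₀
    (by rw [hF₀, Nat.mul_div_assoc 2 hrf])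
  have hF₀' : Fintype.card F₀ = (p ^ (f / r)) ^ 2 := by rw [hF₀, ← pow_mul, mul_comm]
  have hqq : q = (p ^ (f / r)) ^ r := by rw [hq, ← pow_mul, Nat.div_mul_cancel hrf]
  refine ⟨hrf, ?_, ?_⟩
  · obtain ⟨e1⟩ := centralizer_equiv hF hn hF₀' hro hqq ι hι
    obtain ⟨e2⟩ := centralizer_conj (A n q F).range α x
    rw [h] at e2
    rw [inndiagPSU_eq]
    exact ⟨e2.trans ((MulEquiv.subgroupCongr T.centralizer_eq).trans e1)⟩
  haveI : (Cfsg.Inn (Cfsg.PSU n F q)).Normal := by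
    refine ⟨?_⟩
    rintro _ ⟨x, rfl⟩ β
    refine ⟨β x, MulEquiv.ext fun y => ?_⟩
    show β x * y * (β x)⁻¹ = β (x * β⁻¹ y * x⁻¹)
    rw [map_mul, map_mul, map_inv, MulAut.apply_inv_self]
  have hInn : Cfsg.Inn (Cfsg.PSU n F q) =
      (Cfsg.Agent.Forms.guDet (n := n) hF).ker.map (A n q F) := by
    rw [← Cfsg.Agent.Forms.suToGU_range hF]
    ext β
    constructor
    · rintro ⟨y, rfl⟩
      induction y using QuotientGroup.induction_on with
      | _ s => exact ⟨_, ⟨s, rfl⟩, (conj_eq s).symm⟩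
    · rintro ⟨_, ⟨s, rfl⟩, rfl⟩
      exact ⟨QuotientGroup.mk s, conj_eq s⟩
  rw [inndiagPSU_eq, ← splitClassCount_conj (A n q F).range (Cfsg.Inn (Cfsg.PSU n F q)) α x, h,
    T.splitCount (Cfsg.Inn (Cfsg.PSU n F q)) (Cfsg.Agent.Forms.guDet hF)
      (Cfsg.Agent.Forms.guDet_surjective hF (by omega)) n (guDet_sc hF) hInn
      (det_fixSub hF (by omega) σ hσ),
    index_fix_normOne hF hF₀' hro hqq ι hι, Cfsg.Agent.Forms.card_normOne hF, Nat.gcd_assoc]
  congr 1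
  refine Nat.gcd_eq_right (Nat.div_dvd_of_dvd ?_)
  rw [hqq]
  simpa using hro.nat_add_dvd_pow_add_pow (p ^ (f / r)) 1

end Cfsg.Agent.S2705
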