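import Cfsg.Statements.S2706
import Cfsg.Agent.KnownB.GraphInv.PSUSplit
-- import your own Cfsg.Agent.* helpers here

set_option autoImplicit false
open Cfsg

namespace Cfsg.Agent.S2706
open Cfsg.Agent Cfsg.Agent.KnownB Cfsg.Agent.KnownB.GraphInv

/-- Let T = PSU_n(q) be simple with n = 2m + 1 ≥ 3 odd, realised over the field F with q² elements, and G = Inndiag(T) the image of PGU_n(q). Every involutory graph automorphism γ of T (an inner-diagonal automorphism times a standard field automorphism of even order, of order 2) has centralizer C_G(γ) isomorphic to the projective conformal orthogonal group of the form x₀² + Σ xᵢ yᵢ in dimension n over a field F₀ with q elements, and any two involutory graph automorphisms of T are G-conjugate. -/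
theorem result {F : Type*} [Field F] [Fintype F] {p f q : ℕ} [Fact p.Prime] (hq : q = p ^ f) (hf : 1 ≤ f) (hF : Fintype.card F = q ^ 2) {n : ℕ} (hn : 3 ≤ n) (hs : ¬ (n = 3 ∧ q = 2)) {m : ℕ} (hnm : n = 2 * m + 1) (F₀ : Type*) [Field F₀] [Fintype F₀] (hF₀ : Fintype.card F₀ = q) (γ γ' : MulAut (Cfsg.PSU n F q)) (hγ : Cfsg.IsGraphAutClassPSU γ) (hγ2 : orderOf γ = 2) (hγ' : Cfsg.IsGraphAutClassPSU γ') (hγ'2 : orderOf γ' = 2) :
    Nonempty (↥(Cfsg.inndiagPSU n F q ⊓ Subgroup.centralizer {γ}) ≃* Cfsg.PGO F₀ (Cfsg.quadFormOdd m F₀)) ∧ Cfsg.IsConjUnder (Cfsg.inndiagPSU n F q) γ γ' := by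
  classical
  subst hnm
  obtain ⟨C⟩ := exists_ctx hF₀ hF
  obtain ⟨M, hA⟩ := exists_att C hn hγ hγ2
  obtain ⟨M', hA'⟩ := exists_att C hn hγ' hγ'2
  have ho : Odd (Fintype.card (Fin (2 * m + 1))) := by simp
  have hM := symm_of_odd hA.1 ho hA.symm_or_skew
  have hM' := symm_of_odd hA'.1 ho hA'.symm_or_skew
  refine ⟨?_, (conj_iff_att hn hA hA').2 (cong_odd (m := m) hM hA.1 hM' hA'.1 (by simp) (by simp))⟩
  obtain ⟨e⟩ := centralizer_equiv_att hn hA
  obtain ⟨e'⟩ := pgo_odd_equiv (m := m) hM hA.1 (by simp)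
  exact ⟨e.trans e'⟩

end Cfsg.Agent.S2706
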