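import Cfsg.Statements.S2707
import Cfsg.Agent.KnownB.GraphInv.PSUSplit
-- import your own Cfsg.Agent.* helpers here

set_option autoImplicit false
open Cfsg

namespace Cfsg.Agent.S2707
open Cfsg.Agent Cfsg.Agent.KnownB Cfsg.Agent.KnownB.GraphInv

/-- Let T = PSU_n(q) with n = 2m ≥ 4 even and q odd, realised over the field F with q² elements, and G = Inndiag(T) the image of PGU_n(q). The involutory graph automorphisms of T fall into exactly three G-classes, with representatives whose centralizers in G are isomorphic respectively to the projective conformal symplectic group PGSp_n(F₀), the projective conformal orthogonal group of the plus-type form Σ xᵢ yᵢ, and that of a minus-type form Σ xᵢ yᵢ + z₁² + a z₁ z₂ + b z₂² (anisotropic binary part) in dimension n, all over a field F₀ with q elements. -/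
theorem result {F : Type*} [Field F] [Fintype F] {q : ℕ} (hodd : Odd q) (hF : Fintype.card F = q ^ 2) {n m : ℕ} (hm : 2 ≤ m) (hnm : n = 2 * m) (F₀ : Type*) [Field F₀] [Fintype F₀] (hF₀ : Fintype.card F₀ = q) :
    ∃ (γ₁ γ₂ γ₃ : MulAut (Cfsg.PSU n F q)) (a b : F₀), (∀ z₁ z₂ : F₀, z₁ ^ 2 + a * z₁ * z₂ + b * z₂ ^ 2 = 0 → z₁ = 0 ∧ z₂ = 0) ∧ Cfsg.IsGraphAutClassPSU γ₁ ∧ orderOf γ₁ = 2 ∧ Cfsg.IsGraphAutClassPSU γ₂ ∧ orderOf γ₂ = 2 ∧ Cfsg.IsGraphAutClassPSU γ₃ ∧ orderOf γ₃ = 2 ∧ ¬ Cfsg.IsConjUnder (Cfsg.inndiagPSU n F q) γ₁ γ₂ ∧ ¬ Cfsg.IsConjUnder (Cfsg.inndiagPSU n F q) γ₁ γ₃ ∧ ¬ Cfsg.IsConjUnder (Cfsg.inndiagPSU n F q) γ₂ γ₃ ∧ (∀ γ : MulAut (Cfsg.PSU n F q), Cfsg.IsGraphAutClassPSU γ → orderOf γ = 2 → Cfsg.IsConjUnder (Cfsg.inndiagPSU n F q) γ₁ γ ∨ Cfsg.IsConjUnder (Cfsg.inndiagPSU n F q) γ₂ γ ∨ Cfsg.IsConjUnder (Cfsg.inndiagPSU n F q) γ₃ γ) ∧ Nonempty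 (↥(Cfsg.inndiagPSU n F q ⊓ Subgroup.centralizer {γ₁}) ≃* Cfsg.PGSp m F₀) ∧ Nonempty (↥(Cfsg.inndiagPSU n F q ⊓ Subgroup.centralizer {γ₂}) ≃* Cfsg.PGO F₀ (Cfsg.quadFormPlus m F₀)) ∧ Nonempty (↥(Cfsg.inndiagPSU n F q ⊓ Subgroup.centralizer {γ₃}) ≃* Cfsg.PGO F₀ (Cfsg.quadFormMinus (m - 1) F₀ a b)) := by
  classical
  obtain ⟨k, rfl⟩ : ∃ k, m = k + 1 := ⟨m - 1, by omega⟩
  have hn3 : 3 ≤ n := by omega
  have h2 : (2 : F₀) ≠ 0 := two_ne_of_odd (hF₀.symm ▸ hodd)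
  obtain ⟨C⟩ := exists_ctx hF₀ hF
  obtain ⟨a, b, hab⟩ := exists_aniso (F := F₀)
  obtain ⟨γ₁, hc₁, ho₁, hA₁⟩ := exists_of_matrix C hn3 (Matrix.J (Fin (k + 1)) F₀)
    (Matrix.isUnit_det_J (Fin (k + 1)) F₀).ne_zero (by simp; omega)
    (Or.inr (Matrix.J_transpose _ _))
  obtain ⟨γ₂, hc₂, ho₂, hA₂⟩ := exists_of_matrix C hn3 (plusGram (k + 1) F₀)
    (by rw [plusGram_det]; exact pow_ne_zero _ (by simp)) (by simp; omega)
    (Or.inl (plusGram_symm _))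
  obtain ⟨γ₃, hc₃, ho₃, hA₃⟩ := exists_of_matrix C hn3 (minusGram k F₀ a b)
    (minusGram_det_ne h2 k hab) (by simp; omega) (Or.inl (minusGram_symm _ _ _))
  haveI : Nonempty (Fin (k + 1) ⊕ Fin (k + 1)) := ⟨Sum.inl 0⟩
  haveI : Nonempty ((Fin k ⊕ Fin k) ⊕ Fin 2) := ⟨Sum.inr 0⟩
  refine ⟨γ₁, γ₂, γ₃, a, b, hab, hc₁, ho₁, hc₂, ho₂, hc₃, ho₃, ?_, ?_, ?_, ?_, ?_, ?_, ?_⟩
  · rw [conj_iff_att hn3 hA₁ hA₂]
    exact not_cong_symm_skew h2 (Matrix.J_transpose _ _) (plusGram_symm _) hA₂.1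
  · rw [conj_iff_att hn3 hA₁ hA₃]
    exact not_cong_symm_skew h2 (Matrix.J_transpose _ _) (minusGram_symm _ _ _) hA₃.1
  · rw [conj_iff_att hn3 hA₂ hA₃]
    exact not_cong_plus_minus h2 k hab
  · intro γ hγ hγ2
    obtain ⟨M, hA⟩ := exists_att C hn3 hγ hγ2
    rw [conj_iff_att hn3 hA₁ hA, conj_iff_att hn3 hA₂ hA, conj_iff_att hn3 hA₃ hA]
    have hcard : Fintype.card (Fin n) = 2 * (k + 1) := by simp; omega
    rcases hA.symm_or_skew with h | h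
    · by_cases hs : IsSquare (M.det * (-1) ^ (k + 1))
      · exact Or.inr (Or.inl ((cong_plus_or_minus h2 h hA.1 hcard hab).1 hs).symm)
      · exact Or.inr (Or.inr ((cong_plus_or_minus h2 h hA.1 hcard hab).2 hs).symm)
    · exact Or.inl (cong_alt hA.1 (alt_of_skew h2 h) hcard).symm
  · obtain ⟨e⟩ := centralizer_equiv_att hn3 hA₁
    obtain ⟨e'⟩ := pgsp_equiv (Cong.refl (Matrix.J (Fin (k + 1)) F₀))
    exact ⟨e.trans e'⟩
  · obtain ⟨e⟩ := centralizer_equiv_att hn3 hA₂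
    obtain ⟨e'⟩ := pgo_plus_equiv h2 (Cong.refl (plusGram (k + 1) F₀))
    exact ⟨e.trans e'⟩
  · obtain ⟨e⟩ := centralizer_equiv_att hn3 hA₃
    obtain ⟨e'⟩ := pgo_minus_equiv h2 (Cong.refl (minusGram k F₀ a b))
    exact ⟨e.trans e'⟩

end Cfsg.Agent.S2707
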