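import Cfsg.Statements.S2708
import Cfsg.Agent.KnownB.GraphInv.PSUSplit
-- import your own Cfsg.Agent.* helpers here

set_option autoImplicit false
open Cfsg

namespace Cfsg.Agent.S2708
open Cfsg.Agent Cfsg.Agent.KnownB Cfsg.Agent.KnownB.GraphInv

/-- Let T = PSU_n(q) with n = 2m ≥ 4 even and q even, realised over the field F (of characteristic 2) with q² elements, and G = Inndiag(T) the image of PGU_n(q). The involutory graph automorphisms of T fall into exactly two G-classes, with representatives whose centralizers in G are isomorphic respectively to the symplectic group Sp_n(F₀) and to the centralizer in Sp_n(F₀) of a symplectic transvection, F₀ a field with q elements. -/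
theorem result {F : Type*} [Field F] [Fintype F] [CharP F 2] {q : ℕ} (hF : Fintype.card F = q ^ 2) {n m : ℕ} (hm : 2 ≤ m) (hnm : n = 2 * m) (F₀ : Type*) [Field F₀] [Fintype F₀] (hF₀ : Fintype.card F₀ = q) :
    ∃ (γ₁ γ₃ : MulAut (Cfsg.PSU n F q)) (t : ↥(Matrix.symplecticGroup (Fin m) F₀)), Cfsg.IsTransvection (t : Matrix (Fin m ⊕ Fin m) (Fin m ⊕ Fin m) F₀) ∧ Cfsg.IsGraphAutClassPSU γ₁ ∧ orderOf γ₁ = 2 ∧ Cfsg.IsGraphAutClassPSU γ₃ ∧ orderOf γ₃ = 2 ∧ ¬ Cfsg.IsConjUnder (Cfsg.inndiagPSU n F q) γ₁ γ₃ ∧ (∀ γ : MulAut (Cfsg.PSU n F q), Cfsg.IsGraphAutClassPSU γ → orderOf γ = 2 → Cfsg.IsConjUnder (Cfsg.inndiagPSU n F q) γ₁ γ ∨ Cfsg.IsConjUnder (Cfsg.inndiagPSU n F q) γ₃ γ) ∧ Nonempty (↥(Cfsg.inndiagPSU n F q ⊓ Subgroup.centralizer {γ₁}) ≃* ↥(Matrix.symplecticGroup (Fin m) F₀)) ∧ Nonempty (↥(Cfsg.inndiagPSU n F q ⊓ Subgroup.centralizer {γ₃}) ≃* ↥(Subgroup.centralizer ({t} : Set ↥(Matrix.symplecticGroup (Fin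 m) F₀)))) := by
  classical
  have hn3 : 3 ≤ n := by omega
  have hm1 : 1 ≤ m := by omega
  obtain ⟨C⟩ := exists_ctx hF₀ hF
  haveI : CharP F₀ 2 := charP_two_of (C.j.injective (by
    rw [map_ofNat, map_zero]; exact CharTwo.two_eq_zero))
  let i : Fin m := ⟨0, hm1⟩
  have hJs : (Matrix.J (Fin m) F₀).transpose = Matrix.J (Fin m) F₀ := by
    rw [J_eq_plusGram]; exact plusGram_symm m
  have hTs : (transGram F₀ i).transpose = transGram F₀ i := by
    rw [transGram, Matrix.transpose_add, hJs, Matrix.transpose_single]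
  have hdT : (transGram F₀ i).det ≠ 0 := by
    rw [transGram_eq, Matrix.det_mul, SymplecticGroup.det_eq_one (tvMat_mem i), mul_one]
    exact (Matrix.isUnit_det_J (Fin m) F₀).ne_zero
  obtain ⟨γ₁, hc₁, ho₁, hA₁⟩ := exists_of_matrix C hn3 (Matrix.J (Fin m) F₀)
    (Matrix.isUnit_det_J (Fin m) F₀).ne_zero (by simp; omega) (Or.inl hJs)
  obtain ⟨γ₃, hc₃, ho₃, hA₃⟩ := exists_of_matrix C hn3 (transGram F₀ i) hdT
    (by simp; omega) (Or.inl hTs)
  have halt₁ : ∀ v, v ⬝ᵥ (Matrix.mulVec (Matrix.J (Fin m) F₀) v) = 0 := fun v => by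
    have := Forms.sympB_isAlt (m := m) (F := F₀) v
    rwa [Forms.sympB_apply] at this
  have halt₃ : ¬ ∀ v, v ⬝ᵥ (Matrix.mulVec (transGram F₀ i) v) = 0 := fun h => by
    have := h (Pi.single (Sum.inr i) 1)
    rw [transGram_quad] at this
    simp at this
  refine ⟨γ₁, γ₃, tv F₀ i, tv_isTransvection i, hc₁, ho₁, hc₃, ho₃, ?_, ?_, ?_, ?_⟩
  · rw [conj_iff_att hn3 hA₁ hA₃]
    exact fun h => halt₃ (alt_of_cong h halt₁)
  · intro γ hγ hγ2
    obtain ⟨M, hA⟩ := exists_att C hn3 hγ hγ2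
    rw [conj_iff_att hn3 hA₁ hA, conj_iff_att hn3 hA₃ hA]
    have hM := symm_of_two CharTwo.two_eq_zero hA.symm_or_skew
    by_cases ha : ∀ v, v ⬝ᵥ (Matrix.mulVec M v) = 0
    · exact Or.inl (cong_two hJs hM hA₁.1 hA.1 (by simp; omega) (iff_of_true halt₁ ha))
    · exact Or.inr (cong_two hTs hM hA₃.1 hA.1 (by simp; omega) (iff_of_false halt₃ ha))
  · obtain ⟨e⟩ := centralizer_equiv_att hn3 hA₁
    obtain ⟨e'⟩ := gsp_two (F := F₀) hm1
    exact ⟨e.trans e'.symm⟩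
  · obtain ⟨e⟩ := centralizer_equiv_att hn3 hA₃
    obtain ⟨e'⟩ := trans_two (F := F₀) i
    exact ⟨e.trans e'.symm⟩

end Cfsg.Agent.S2708
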