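import Cfsg.Statements.S2709
import Cfsg.Agent.KnownB.GraphInv.PSUSplit
-- import your own Cfsg.Agent.* helpers here

set_option autoImplicit false
open Cfsg

namespace Cfsg.Agent.S2709
open Cfsg.Agent Cfsg.Agent.KnownB Cfsg.Agent.KnownB.GraphInv

/-- Let T = PSU_n(q) be simple (n ≥ 3, (n,q) ≠ (3,2), q = p^f), realised over the field F with q² elements, G = Inndiag(T) the image of PGU_n(q), and γ an involutory graph automorphism of T. The G-class of γ is the union of exactly c T-classes, where: if n is even and q is odd, c = gcd(n/2, q + 1) when C_G(γ) is isomorphic to PGSp_n(F₀) for a field F₀ with q elements (symplectic type) and c = gcd(n, q + 1)/2 otherwise; and c = gcd(n, q + 1) when n is odd or q is even. -/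
theorem result {F : Type*} [Field F] [Fintype F] {p f q : ℕ} [Fact p.Prime] (hq : q = p ^ f) (hf : 1 ≤ f) (hF : Fintype.card F = q ^ 2) {n : ℕ} (hn : 3 ≤ n) (hs : ¬ (n = 3 ∧ q = 2)) (F₀ : Type*) [Field F₀] [Fintype F₀] (hF₀ : Fintype.card F₀ = q) (γ : MulAut (Cfsg.PSU n F q)) (hγ : Cfsg.IsGraphAutClassPSU γ) (hγ2 : orderOf γ = 2) :
    ((Even n ∧ Odd q ∧ Nonempty (↥(Cfsg.inndiagPSU n F q ⊓ Subgroup.centralizer {γ}) ≃* Cfsg.PGSp (n / 2) F₀)) → Cfsg.splitClassCount (Cfsg.inndiagPSU n F q) (Cfsg.Inn (Cfsg.PSU n F q)) γ = Nat.gcd (n / 2) (q + 1)) ∧ ((Even n ∧ Odd q ∧ ¬ Nonempty (↥(Cfsg.inndiagPSU n F q ⊓ Subgroup.centralizer {γ}) ≃* Cfsg.PGSp (n / 2) F₀)) → Cfsg.splitClassCount (Cfsg.inndiagPSU n F q) (Cfsg.Inn (Cfsg.PSU n F q)) γ = Nat.gcd n (q + 1) / 2) ∧ (¬ (Even n ∧ Odd q) → Cfsg.splitClassCount (Cfsg.inndiagPSU n F q) (Cfsg.Inn (Cfsg.PSU n F q)) γ = Nat.gcd n (q + 1)) := by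
  classical
  obtain ⟨C⟩ := exists_ctx hF₀ hF
  obtain ⟨M, hA⟩ := exists_att C hn hγ hγ2
  have hq2 : Odd q ↔ (2 : F₀) ≠ 0 := by
    constructor
    · intro h; exact two_ne_of_odd (hF₀.symm ▸ h)
    · intro h2
      by_contra hq'
      rw [hq, Nat.not_odd_iff_even, Nat.even_pow] at hq'
      have hp : p = 2 := (Fact.out : p.Prime).even_iff.mp hq'.1
      have h0 : (Fintype.card F₀ : F₀) = 0 := FiniteField.cast_card_eq_zero F₀
      rw [hF₀, hq, hp, Nat.cast_pow, Nat.cast_ofNat] at h0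
      exact h2 (pow_eq_zero_iff (by omega) |>.1 h0)
  rw [split_eq_stab (hF := hF) hn]
  obtain ⟨e'⟩ := centralizer_equiv_att hn hA
  refine ⟨?_, ?_, ?_⟩
  · rintro ⟨hn', hp, ⟨e⟩⟩
    obtain ⟨m, rfl⟩ := hn'
    have hm : (m + m) / 2 = m := by omega
    rw [hm] at e ⊢
    have h2 := hq2.1 hp
    have hcard : Fintype.card (Fin (m + m)) = 2 * m := by simp; omega
    rcases hA.symm_or_skew with h | h
    · exact absurd ⟨e'.symm.trans e⟩ (not_iso_PGSp h2 h hA.1 (by omega) hcard)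
    · rw [detImage_skew hn (two_mul m).symm (hA.congr C (cong_alt hA.1 (alt_of_skew h2 h) hcard)),
        IsCyclic.index_powMonoidHom_range, Forms.card_normOne hF, Nat.gcd_comm]
  · rintro ⟨hn', hp, hne⟩
    obtain ⟨m, rfl⟩ := hn'
    have hm : (m + m) / 2 = m := by omega
    rw [hm] at hne
    have h2 := hq2.1 hp
    have hcard : Fintype.card (Fin (m + m)) = 2 * m := by simp; omega
    rcases hA.symm_or_skew with h | h
    · rw [detImage_symm hn h2 (two_mul m).symm hA h, index_half (even_card_normOne hp hF),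
        Forms.card_normOne hF, Nat.gcd_comm, two_mul]
    · obtain ⟨e''⟩ := pgsp_equiv (cong_alt hA.1 (alt_of_skew h2 h) hcard)
      exact absurd ⟨e'.trans e''⟩ hne
  · intro h
    rw [detImage_generic hn hA (by rw [← hq2]; exact h), IsCyclic.index_powMonoidHom_range,
      Forms.card_normOne hF, Nat.gcd_comm]

end Cfsg.Agent.S2709
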