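import Cfsg.Statements.S2710
import Cfsg.Agent.KnownB.GraphInv.PSUSplit
-- import your own Cfsg.Agent.* helpers here

set_option autoImplicit false
open Cfsg

namespace Cfsg.Agent.S2710
open Cfsg.Agent Cfsg.Agent.KnownB Cfsg.Agent.KnownB.GraphInv

/-- Let T = PSU_n(q) with n ≥ 4 divisible by 4 (n = 2m) and q odd, realised over the field F with q² elements, G = Inndiag(T) the image of PGU_n(q), and φ the standard field automorphism of T attached to the q-th power map of F (it induces inverse-transpose on the unitary matrices and is a graph automorphism). Its centralizer in G is isomorphic to the projective conformal orthogonal group of the plus-type form Σ xᵢ yᵢ in dimension n over a field F₀ with q elements. (Dimensions n ≡ 2 (mod 4) are not covered.) -/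
theorem result {F : Type*} [Field F] [Fintype F] {q : ℕ} (hodd : Odd q) (hF : Fintype.card F = q ^ 2) {n m : ℕ} (hm : 2 ≤ m) (hnm : n = 2 * m) (h4 : 4 ∣ n) (F₀ : Type*) [Field F₀] [Fintype F₀] (hF₀ : Fintype.card F₀ = q) (σ : F ≃+* F) (hσ : ∀ a : F, σ a = a ^ q) (φ : MulAut (Cfsg.PSU n F q)) (hφ : Cfsg.IsFieldAutPSUOf σ φ) :
    Nonempty (↥(Cfsg.inndiagPSU n F q ⊓ Subgroup.centralizer {φ}) ≃* Cfsg.PGO F₀ (Cfsg.quadFormPlus m F₀)) := by
  classical
  obtain ⟨k, rfl⟩ : ∃ k, m = k + 1 := ⟨m - 1, by omega⟩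
  have hn3 : 3 ≤ n := by omega
  have h2 : (2 : F₀) ≠ 0 := two_ne_of_odd (hF₀.symm ▸ hodd)
  obtain ⟨C⟩ := exists_ctx hF₀ hF
  have hσC : σ = C.σ := RingEquiv.ext fun a => by rw [hσ, C.hσ, Forms.frobQ_apply]
  subst hσC
  rw [Proj.Unit.isFieldAutOf_iff] at hφ
  subst hφ
  have hA : Att C (Proj.Unit.Fd n q F C.σ) (1 : Matrix (Fin n) (Fin n) F₀) :=
    ⟨by simp, 1, 1, 1, 1, 1, 1, by simp, by simp, one_ne_zero, one_ne_zero, by simp, by simp,
      by simp, by simp [bar_one], by simp [bar_one], by rw [map_one, one_mul]⟩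
  obtain ⟨a, b, hab⟩ := exists_aniso (F := F₀)
  obtain ⟨r, hr⟩ := h4
  have hsq : IsSquare ((1 : Matrix (Fin n) (Fin n) F₀).det * (-1) ^ (k + 1)) := by
    rw [Matrix.det_one, one_mul, show k + 1 = 2 * r by omega, pow_mul]
    simp
  obtain ⟨e⟩ := centralizer_equiv_att hn3 hA
  obtain ⟨e'⟩ := pgo_plus_equiv h2
    ((cong_plus_or_minus h2 (k := k) (Matrix.transpose_one) (by simp) (by simp; omega) hab).1 hsq)
  exact ⟨e.trans e'⟩

end Cfsg.Agent.S2710
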