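import Cfsg.Statements.S2712
import Cfsg.Agent.KnownB.Proj.Symp.Classes

set_option autoImplicit false
open Cfsg

namespace Cfsg.Agent.S2712
open Cfsg.Agent.KnownB.Proj Cfsg.Agent.KnownB.Proj.Symp

/-- Let T = PSp_{2m}(F) be simple over the field F with p^f elements (m ≥ 2, (2m, |F|) ≠ (4, 2)), G = Inndiag(T) the image of the projective conformal symplectic group PGSp_{2m}(F), and x a field automorphism of T of prime order r. Then r divides f; C_G(x) is isomorphic to PGSp_{2m}(F₀) for a field F₀ with p^(f/r) elements; and the G-class of x is the union of exactly gcd(gcd(2, p^f − 1), r) T-classes. -/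
theorem result {F : Type*} [Field F] [Fintype F] {p f : ℕ} [Fact p.Prime] (hF : Fintype.card F = p ^ f) (hf : 1 ≤ f) {m : ℕ} (hm : 2 ≤ m) (hs : m = 2 → 3 ≤ Fintype.card F) (x : MulAut (Cfsg.PSp m F)) (hx : Cfsg.IsFieldAutClassPSp x) {r : ℕ} (hr : r.Prime) (hxr : orderOf x = r) (F₀ : Type*) [Field F₀] [Fintype F₀] (hF₀ : Fintype.card F₀ = p ^ (f / r)) :
    r ∣ f ∧ Nonempty (↥(Cfsg.inndiagPSp m F ⊓ Subgroup.centralizer {x}) ≃* Cfsg.PGSp m F₀) ∧ Cfsg.splitClassCount (Cfsg.inndiagPSp m F) (Cfsg.Inn (Cfsg.PSp m F)) x = Nat.gcd (Nat.gcd 2 (p ^ f - 1)) r := by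
  classical
  obtain ⟨α, σ, -, h, ho⟩ := field_class hm hx
  have hσ : orderOf σ = r := ho.trans hxr
  have hm1 : 1 ≤ m := by omega
  have hFn : Nat.card F = p ^ f := by rw [Nat.card_eq_fintype_card, hF]
  obtain ⟨e⟩ := Cfsg.Agent.KnownB.AutPSL.exists_ringAut_equiv hFn hf
  haveI : NeZero f := ⟨by omega⟩
  have hrf : r ∣ f := by
    have h' := orderOf_dvd_natCard (e σ)
    rwa [MulEquiv.orderOf_eq, hσ, Nat.card_congr Multiplicative.toAdd, Nat.card_zmod] at h'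
  have T := fieldTwist hm hr.pos hσ
  haveI := range_A_normal (F := F) hm
  obtain ⟨ι, hι⟩ := Cfsg.Agent.KnownB.AutPSL.exists_fixedField hF hσ hr.pos hrf F₀ hF₀
  refine ⟨hrf, ?_, ?_⟩
  · obtain ⟨e1⟩ := centralizer_equiv hm ι hι
    obtain ⟨e2⟩ := centralizer_conj (A m F).range α x
    rw [h] at e2
    rw [inndiagPSp_eq]
    exact ⟨e2.trans ((MulEquiv.subgroupCongr T.centralizer_eq).trans e1)⟩
  rw [inndiagPSp_eq, ← splitClassCount_conj (A m F).range (Cfsg.Inn (Cfsg.PSp m F)) α x, h,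
    T.splitCount (Cfsg.Inn (Cfsg.PSp m F)) (mult hm1) (fun c => ⟨dEl c, mult_dEl hm1 c⟩) 2
      (mult_sc hm1) (Inn_eq_map hm1) (det_fixSub hm1 σ),
    index_fix_units hF hF₀ ι hι, Nat.card_units, hFn]
  have h2 : 2 ≤ p ^ (f / r) := hF₀ ▸ Fintype.one_lt_card
  have hpow : p ^ f = (p ^ (f / r)) ^ r := by rw [← pow_mul, Nat.div_mul_cancel hrf]
  rw [hpow]
  exact gcd_two_div h2

end Cfsg.Agent.S2712
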