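import Cfsg.Statements.S2722
import Cfsg.Agent.KnownB.Proj.Orth.PgoModels

set_option autoImplicit false
open Cfsg

namespace Cfsg.Agent.S2722
open Cfsg.Agent.KnownB.Proj.Orth

/-- Let T = PΩ⁺_{2m}(F) with m ≥ 4 and |F| = q odd. Inside Aut(T), the image G̃ of the conformal orthogonal group of the form modulo the image of the special orthogonal group is elementary abelian of order 4. -/
theorem result {F : Type*} [Field F] [Fintype F] (hodd : Odd (Fintype.card F)) {m : ℕ} (hm : 4 ≤ m) :
    (∃ φ : ↥(Cfsg.pgoAut F (Cfsg.quadFormPlus m F)) →* Multiplicative (ZMod 2 × ZMod 2), Function.Surjective φ ∧ φ.ker = (Cfsg.psoAut F (Cfsg.quadFormPlus m F)).subgroupOf (Cfsg.pgoAut F (Cfsg.quadFormPlus m F))) := by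
  exact (pgo_pso_plus hodd hm).1

end Cfsg.Agent.S2722
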