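import Cfsg.Statements.S2738
import Cfsg.Agent.Linear.Transvection

set_option autoImplicit false
open Cfsg

namespace Cfsg.Agent.S2738
open scoped commutatorElement in
theorem commutator_central {G : Type*} [Group G] (z z' k k' : G) (hz : ∀ g, g * z = z * g)
    (hz' : ∀ g, g * z' = z' * g) : ⁅z * k, z' * k'⁆ = ⁅k, k'⁆ := by
  have hzi : ∀ g, g * z⁻¹ = z⁻¹ * g := fun g => (Commute.inv_right (hz g)).eq
  have hzi' : ∀ g, g * z'⁻¹ = z'⁻¹ * g := fun g => (Commute.inv_right (hz' g)).eq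
  rw [commutatorElement_def, commutatorElement_def, mul_inv_rev, mul_inv_rev]
  calc z * k * (z' * k') * (k⁻¹ * z⁻¹) * (k'⁻¹ * z'⁻¹)
      = z * (k * z') * k' * k⁻¹ * (z⁻¹ * k'⁻¹) * z'⁻¹ := by group
    _ = z * (z' * k) * k' * k⁻¹ * (k'⁻¹ * z⁻¹) * z'⁻¹ := by rw [hz' k, hzi k'⁻¹]
    _ = z * z' * (k * k' * k⁻¹ * k'⁻¹) * z⁻¹ * z'⁻¹ := by group
    _ = (k * k' * k⁻¹ * k'⁻¹) * (z * z') * z⁻¹ * z'⁻¹ := by
        rw [show (k * k' * k⁻¹ * k'⁻¹) * (z * z') = z * z' * (k * k' * k⁻¹ * k'⁻¹) by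
          rw [← mul_assoc, hz, mul_assoc, hz', ← mul_assoc]]
    _ = k * k' * k⁻¹ * k'⁻¹ := by
        rw [← hz z']; group

open scoped commutatorElement


/-- The special linear group SL(3, 4) has centre of order 3 and does not split over it: no subgroup is a complement to the centre (so SL(3, 4) is a non-split central extension of PSL(3, 4) by a group of order 3). -/
theorem result (F : Type*) [Field F] [Fintype F] (hF : Fintype.card F = 4) : Nat.card ↥(Subgroup.center (Matrix.SpecialLinearGroup (Fin 3) F)) = 3 ∧ ¬ ∃ K : Subgroup (Matrix.SpecialLinearGroup (Fin 3) F), Subgroup.IsComplement' (Subgroup.center (Matrix.SpecialLinearGroup (Fin 3) F)) K := by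
  classical
  have hcard : Nat.card (Subgroup.center (Matrix.SpecialLinearGroup (Fin 3) F)) = 3 := by
    rw [Cfsg.Agent.Linear.card_center_SL, hF]; rfl
  refine ⟨hcard, ?_⟩
  rintro ⟨K, hK⟩
  have htop : K = ⊤ := by
    rw [eq_top_iff, ← Cfsg.Agent.Linear.commutator_SL_eq_top (F := F) (ι := Fin 3) (by simp),
      commutator_def, Subgroup.commutator_le]
    intro a _ b _
    obtain ⟨⟨z, k⟩, rfl⟩ := hK.2 a
    obtain ⟨⟨z', k'⟩, rfl⟩ := hK.2 b
    have hz : ∀ (z : Subgroup.center (Matrix.SpecialLinearGroup (Fin 3) F)) g,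
        g * (z : Matrix.SpecialLinearGroup (Fin 3) F) = z * g :=
      fun z g => Subgroup.mem_center_iff.mp z.2 g
    show ⁅(z : Matrix.SpecialLinearGroup (Fin 3) F) * (k : Matrix.SpecialLinearGroup (Fin 3) F),
      (z' : Matrix.SpecialLinearGroup (Fin 3) F) * (k' : Matrix.SpecialLinearGroup (Fin 3) F)⁆ ∈ K
    rw [show ⁅(z : Matrix.SpecialLinearGroup (Fin 3) F) * k, (z' : Matrix.SpecialLinearGroup (Fin 3) F) * k'⁆
      = ⁅(k : Matrix.SpecialLinearGroup (Fin 3) F), (k' : Matrix.SpecialLinearGroup (Fin 3) F)⁆ from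
        commutator_central _ _ _ _ (hz z) (hz z')]
    exact K.mul_mem (K.mul_mem (K.mul_mem k.2 k'.2) (K.inv_mem k.2)) (K.inv_mem k'.2)
  have h := hK.card_mul
  rw [hcard, htop, Subgroup.card_top] at h
  have := Nat.card_pos (α := Matrix.SpecialLinearGroup (Fin 3) F)
  omega

end Cfsg.Agent.S2738
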