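import Cfsg.Statements.S2758
import Cfsg.Agent.Components.Dihedral
import Cfsg.Agent.Core.Cores
import Mathlib.Tactic.LinearCombination

set_option autoImplicit false
open Cfsg

namespace Cfsg.Agent.S2758

theorem involves_of_inverts {G : Type*} [Group G] [Finite G] {p : ℕ} [Fact p.Prime] (hp : p ≠ 2) {x y : G}
    (hx : ∃ k : ℕ, orderOf x = 2 ^ k) (hy : ∃ k : ℕ, orderOf y = p ^ k) (hy1 : y ≠ 1) (hxy : x * y * x⁻¹ = y⁻¹) :
    Cfsg.Involves (DihedralGroup p) G := by
  have hpp : p.Prime := Fact.out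
  obtain ⟨k, hk⟩ := hy
  obtain ⟨m, hm⟩ := hx
  have hk1 : k ≠ 0 := by rintro rfl; rw [pow_zero, orderOf_eq_one_iff] at hk; exact hy1 hk
  set z := y ^ p ^ (k - 1) with hz
  have hzp : orderOf z = p := by
    rw [hz, orderOf_pow_of_dvd (pow_ne_zero _ hpp.ne_zero) (hk ▸ pow_dvd_pow p (Nat.sub_le k 1)), hk,
      Nat.pow_div (Nat.sub_le k 1) hpp.pos, Nat.sub_sub_self (Nat.pos_of_ne_zero hk1), pow_one]
  have hxz : x * z * x⁻¹ = z⁻¹ := by rw [hz, ← conj_pow, hxy, inv_pow]
  set L := Subgroup.closure ({x, z} : Set G) with hL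
  have hxL : x ∈ L := Subgroup.subset_closure (by simp)
  have hzL : z ∈ L := Subgroup.subset_closure (by simp)
  set R := Subgroup.zpowers (x ^ 2) with hR
  have hxxz : x ^ 2 * z = z * x ^ 2 := by
    calc x ^ 2 * z = x * (x * z * x⁻¹) * x := by rw [sq]; group
      _ = (x * z * x⁻¹)⁻¹ * x ^ 2 := by rw [hxz, inv_inv, sq]; rw [show x * z⁻¹ = (x * z * x⁻¹)⁻¹ * x by group, hxz, inv_inv, mul_assoc]
      _ = z * x ^ 2 := by rw [hxz, inv_inv]
  have hRc : ∀ r ∈ R, ∀ l ∈ L, Commute r l := by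
    intro r hr l hl
    obtain ⟨i, rfl⟩ := Subgroup.mem_zpowers_iff.1 hr
    induction hl using Subgroup.closure_induction with
    | mem a ha =>
      rcases ha with rfl | rfl
      · exact ((Commute.refl a).pow_left 2).zpow_left i
      · exact (show Commute (x ^ 2) z from hxxz).zpow_left i
    | one => exact Commute.one_right _
    | mul a b _ _ iha ihb => exact iha.mul_right ihb
    | inv a _ iha => exact iha.inv_right
  haveI hRn : (R.subgroupOf L).Normal := ⟨fun r hr l => by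
    have h := hRc _ (Subgroup.mem_subgroupOf.1 hr) _ l.2
    refine Subgroup.mem_subgroupOf.2 ?_
    simp only [Subgroup.coe_mul, Subgroup.coe_inv]
    rw [← h.eq, mul_inv_cancel_right]
    exact hr⟩
  refine ⟨L, R, hRn, ?_⟩
  set π := QuotientGroup.mk' (R.subgroupOf L) with hπ
  set s := π ⟨x, hxL⟩ with hsdef
  set w := π ⟨z, hzL⟩ with hwdef
  have hs2 : s ^ 2 = 1 := by
    rw [hsdef, ← map_pow]
    exact (QuotientGroup.eq_one_iff _).2 (Subgroup.mem_subgroupOf.2 (Subgroup.mem_zpowers _))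
  have hw1 : w ≠ 1 := fun h => by
    have h1 := Subgroup.mem_subgroupOf.1 ((QuotientGroup.eq_one_iff _).1 h)
    have h2 : orderOf z ∣ orderOf (x ^ 2) := orderOf_dvd_of_mem_zpowers h1
    have h3 : p ∣ 2 ^ m := hzp ▸ (h2.trans (hm ▸ orderOf_pow_dvd 2))
    exact hp ((Nat.prime_dvd_prime_iff_eq hpp Nat.prime_two).1 (hpp.dvd_of_dvd_pow h3))
  have hwp : orderOf w = p := orderOf_eq_prime (by
    rw [hwdef, ← map_pow, show (⟨z, hzL⟩ : L) ^ p = 1 from Subtype.ext (hzp ▸ pow_orderOf_eq_one z), map_one]) hw1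
  have hsw : s * w * s⁻¹ = w⁻¹ := by
    rw [hsdef, hwdef, ← map_inv, ← map_mul, ← map_mul, ← map_inv]
    exact congrArg π (Subtype.ext hxz)
  have hs1 : s ≠ 1 := fun h => by
    rw [h, one_mul, inv_one, mul_one] at hsw
    have h2 : w ^ 2 = 1 := by rw [sq]; nth_rw 2 [hsw]; exact mul_inv_cancel w
    have h3 := orderOf_dvd_of_pow_eq_one h2
    rw [hwp] at h3
    exact hp ((Nat.prime_dvd_prime_iff_eq hpp Nat.prime_two).1 h3)
  have hso : orderOf s = 2 := orderOf_eq_prime hs2 hs1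
  have hsinv : s⁻¹ = s := by rw [inv_eq_iff_mul_eq_one, ← sq, hs2]
  have ht : orderOf (s * w) = 2 := by
    refine orderOf_eq_prime ?_ fun h => ?_
    · rw [sq]
      calc s * w * (s * w) = (s * w * s⁻¹) * w := by rw [hsinv]; group
        _ = 1 := by rw [hsw, inv_mul_cancel]
    · have e : s = w⁻¹ := eq_inv_of_mul_eq_one_left h
      rw [e, orderOf_inv, hwp] at hso
      exact hp hso
  have hsst : s * (s * w) = w := by rw [← mul_assoc, ← sq, hs2, one_mul]
  let f := Components.dihedralHom hso ht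
  have hinj := Components.dihedralHom_injective hso ht (fun h => hw1 (by
    have := hsst; rw [← h, ← sq, hs2] at this; exact this.symm))
  have hsurj : Function.Surjective f := by
    rw [← MonoidHom.range_eq_top, Components.dihedralHom_range, eq_top_iff]
    rintro q -
    obtain ⟨⟨l, hl⟩, rfl⟩ := QuotientGroup.mk'_surjective _ q
    induction hl using Subgroup.closure_induction with
    | mem a ha =>
      rcases ha with rfl | rfl
      · exact Subgroup.subset_closure (Or.inl rfl)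
      · show w ∈ _
        have h1 : s ∈ Subgroup.closure ({s, s * w} : Set (↥L ⧸ R.subgroupOf L)) := Subgroup.subset_closure (Or.inl rfl)
        have h2 : s * w ∈ Subgroup.closure ({s, s * w} : Set (↥L ⧸ R.subgroupOf L)) := Subgroup.subset_closure (Or.inr rfl)
        have h := mul_mem h1 h2
        rwa [hsst] at h
    | one =>
      rw [show (⟨1, _⟩ : L) = 1 from rfl, map_one]; exact one_mem _
    | mul a b ha hb iha ihb =>
      rw [show (⟨a * b, mul_mem ha hb⟩ : L) = ⟨a, ha⟩ * ⟨b, hb⟩ from rfl, map_mul]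
      exact mul_mem iha ihb
    | inv a ha iha =>
      rw [show (⟨a⁻¹, inv_mem ha⟩ : L) = (⟨a, ha⟩ : L)⁻¹ from rfl, map_inv]
      exact inv_mem iha
  have hord : orderOf (s * (s * w)) = p := by rw [hsst, hwp]
  exact ⟨(hord ▸ (MulEquiv.ofBijective f ⟨hinj, hsurj⟩).symm : _ ≃* DihedralGroup p)⟩

theorem inverts_of_normalizes {G : Type*} [Group G] [Finite G] {p : ℕ} [Fact p.Prime] {x : G} {P : Subgroup G}
    (hx : ∃ k : ℕ, orderOf x = 2 ^ k) (hP : IsPGroup p P) (hN : x ∈ Subgroup.normalizer (P : Set G))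
    (hC : x ∉ Subgroup.centralizer (P : Set G)) :
    ∃ x y : G, (∃ k : ℕ, orderOf x = 2 ^ k) ∧ (∃ k : ℕ, orderOf y = p ^ k) ∧ y ≠ 1 ∧ x * y * x⁻¹ = y⁻¹ := by
  classical
  obtain ⟨k, hk⟩ := hx
  have hex : ∃ j, x ^ 2 ^ j ∈ Subgroup.centralizer (P : Set G) := ⟨k, by rw [← hk, pow_orderOf_eq_one]; exact one_mem _⟩
  have hspec := Nat.find_spec hex
  rcases hj : Nat.find hex with _ | j
  · rw [hj, pow_zero, pow_one] at hspec; exact absurd hspec hC
  rw [hj] at hspec
  have hnot : x ^ 2 ^ j ∉ Subgroup.centralizer (P : Set G) := Nat.find_min hex (by omega)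
  set u := x ^ 2 ^ j with hu
  have huu : u * u ∈ Subgroup.centralizer (P : Set G) := by
    rw [hu, ← pow_add, show 2 ^ j + 2 ^ j = 2 ^ (j + 1) by ring]; exact hspec
  have huN : u ∈ Subgroup.normalizer (P : Set G) := pow_mem hN _
  obtain ⟨v, hv, hne⟩ : ∃ v ∈ P, u * v * u⁻¹ * v⁻¹ ≠ 1 := by
    by_contra h
    push Not at h
    exact hnot fun v hv => (mul_inv_eq_iff_eq_mul.1 (mul_inv_eq_one.1 (h v hv))).symm
  have hmem : u * v * u⁻¹ * v⁻¹ ∈ P := mul_mem ((Subgroup.mem_normalizer_iff.1 huN v).1 hv) (inv_mem hv)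
  obtain ⟨n, hn⟩ := IsPGroup.iff_orderOf.mp hP ⟨_, hmem⟩
  rw [Subgroup.orderOf_mk] at hn
  refine ⟨u, _, ?_, ⟨n, hn⟩, hne, ?_⟩
  · have := orderOf_pow_dvd (x := x) (2 ^ j)
    rw [hk] at this
    obtain ⟨i, -, hi⟩ := (Nat.dvd_prime_pow Nat.prime_two).1 this
    exact ⟨i, hi⟩
  · have h1 : u * u * v⁻¹ = v⁻¹ * (u * u) := (huu v⁻¹ (inv_mem hv)).symm
    have h2 : u * u * v = v * (u * u) := (huu v hv).symm
    calc u * (u * v * u⁻¹ * v⁻¹) * u⁻¹ = (u * u * v) * (u⁻¹ * v⁻¹ * u⁻¹) := by group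
      _ = v * (u * u) * (u⁻¹ * v⁻¹ * u⁻¹) := by rw [h2]
      _ = (u * v * u⁻¹ * v⁻¹)⁻¹ := by group

theorem normalizes_of_involves {G : Type*} [Group G] [Finite G] {p : ℕ} [Fact p.Prime] (hp : p ≠ 2)
    (h : Cfsg.Involves (DihedralGroup p) G) :
    ∃ (x : G) (P : Subgroup G), (∃ k : ℕ, orderOf x = 2 ^ k) ∧ IsPGroup p ↥P ∧
      x ∈ Subgroup.normalizer (P : Set G) ∧ x ∉ Subgroup.centralizer (P : Set G) := by
  have hpp : p.Prime := Fact.out
  obtain ⟨K, R, hR, ⟨e⟩⟩ := h
  haveI := hR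
  set π := e.toMonoidHom.comp (QuotientGroup.mk' (R.subgroupOf K)) with hπ
  have hπs : Function.Surjective π := e.surjective.comp (QuotientGroup.mk'_surjective _)
  obtain ⟨S⟩ : Nonempty (Sylow p K) := inferInstance
  set Sb := S.mapSurjective hπs with hSb
  have hr : DihedralGroup.r (1 : ZMod p) ∈ (Sb : Subgroup (DihedralGroup p)) := by
    have hzn : (Subgroup.zpowers (DihedralGroup.r (1 : ZMod p))).Normal := Subgroup.normal_of_index_eq_two (by
      have h1 := Subgroup.card_mul_index (Subgroup.zpowers (DihedralGroup.r (1 : ZMod p)))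
      rw [Nat.card_zpowers, DihedralGroup.orderOf_r_one, DihedralGroup.nat_card] at h1
      exact Nat.eq_of_mul_eq_mul_left hpp.pos (by rw [h1, mul_comm]))
    exact (Core.le_pCore hzn (IsPGroup.of_card (n := 1) (by rw [Nat.card_zpowers, DihedralGroup.orderOf_r_one, pow_one]))).trans
      (Core.pCore_le_sylow Sb) (Subgroup.mem_zpowers _)
  have hSn : Function.Surjective (π.comp (Subgroup.normalizer ((S : Subgroup K) : Set K)).subtype) := by
    intro d
    -- Frattini: `K = ker π · N(S)` as the image of `S` is normal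
    obtain ⟨k, rfl⟩ := hπs d
    have hSbn : (Sb : Subgroup (DihedralGroup p)).Normal := by
      have hle : Subgroup.zpowers (DihedralGroup.r (1 : ZMod p)) ≤ (Sb : Subgroup (DihedralGroup p)) :=
        Subgroup.zpowers_le.2 hr
      have hi : (Sb : Subgroup (DihedralGroup p)).index ∣ 2 := by
        have h1 := Subgroup.index_dvd_of_le hle
        have h2 := Subgroup.card_mul_index (Subgroup.zpowers (DihedralGroup.r (1 : ZMod p)))
        rw [Nat.card_zpowers, DihedralGroup.orderOf_r_one, DihedralGroup.nat_card] at h2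
        rwa [Nat.eq_of_mul_eq_mul_left hpp.pos (h2.trans (mul_comm 2 p))] at h1
      rcases (Nat.dvd_prime Nat.prime_two).1 hi with h | h
      · rw [Subgroup.index_eq_one.1 h]; infer_instance
      · exact Subgroup.normal_of_index_eq_two h
    set M := (Sb : Subgroup (DihedralGroup p)).comap π with hM
    haveI : M.Normal := hSbn.comap π
    have hSM : (S : Subgroup K) ≤ M := fun s hs => ⟨s, hs, rfl⟩
    have htop := Sylow.normalizer_sup_eq_top' S hSM
    obtain ⟨n, hn, w, hw, rfl⟩ := Subgroup.mem_sup_of_normal_right.1 (htop.symm ▸ Subgroup.mem_top k :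
      k ∈ Subgroup.normalizer ((S : Subgroup K) : Set K) ⊔ M)
    obtain ⟨s, hs, hse⟩ := Subgroup.mem_comap.1 hw
    exact ⟨⟨n * s, mul_mem hn (Subgroup.le_normalizer hs)⟩, by
      show π (n * s) = π (n * w)
      rw [map_mul, map_mul]
      exact congrArg _ hse⟩
  obtain ⟨⟨x, hxN⟩, hx⟩ := hSn (DihedralGroup.sr (0 : ZMod p))
  obtain ⟨k, r, hr2, hxo⟩ := Nat.exists_eq_pow_mul_and_not_dvd (orderOf_pos x).ne' 2 (by norm_num)
  have hx' : π x = DihedralGroup.sr (0 : ZMod p) := hx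
  have hodd : Odd r := Nat.odd_iff.2 (by omega)
  refine ⟨((x ^ r : K) : G), (S : Subgroup K).map K.subtype, ⟨k, ?_⟩, S.2.map _, ?_, fun hc => ?_⟩
  · rw [Subgroup.orderOf_coe, orderOf_pow_of_dvd (by rintro rfl; simp at hr2) ⟨2 ^ k, by rw [hxo, mul_comm]⟩, hxo,
      Nat.mul_div_left _ (Nat.pos_of_ne_zero (by rintro rfl; simp at hr2))]
  · exact Subgroup.le_normalizer_map _ (Subgroup.mem_map_of_mem _ (pow_mem hxN r))
  · obtain ⟨s, hs, hse⟩ := hr
    have h1 : (⟨x, hxN⟩ : Subgroup.normalizer ((S : Subgroup K) : Set K)) = ⟨x, hxN⟩ := rfl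
    have h2 : s * x ^ r = x ^ r * s := Subtype.ext (hc (s : G) ⟨s, hs, rfl⟩)
    have h3 := congrArg π h2
    rw [map_mul, map_mul, map_pow, hx', hse] at h3
    obtain ⟨i, rfl⟩ := hodd
    rw [pow_succ, pow_mul, show DihedralGroup.sr (0 : ZMod p) ^ 2 = 1 by rw [sq, DihedralGroup.sr_mul_self], one_pow,
      one_mul, DihedralGroup.r_mul_sr, DihedralGroup.sr_mul_r] at h3
    have h4 : ((2 : ℕ) : ZMod p) = 0 := by
      have h5 : (0 : ZMod p) - 1 = 0 + 1 := by simpa using h3
      push_cast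
      linear_combination -h5
    rw [ZMod.natCast_eq_zero_iff] at h4
    exact hp ((Nat.prime_dvd_prime_iff_eq hpp Nat.prime_two).1 h4)

/-- For an odd prime p and a finite group G the following are equivalent: the dihedral group of order 2p is involved in G; some element of 2-power order normalizes but does not centralize some p-subgroup of G; some element of 2-power order inverts some nonidentity element of p-power order. -/
theorem result {G : Type*} [Group G] [Finite G] {p : ℕ} [Fact p.Prime] (hp : p ≠ 2) : (Cfsg.Involves (DihedralGroup p) G ↔ ∃ (x : G) (P : Subgroup G), (∃ k : ℕ, orderOf x = 2 ^ k) ∧ IsPGroup p ↥P ∧ x ∈ Subgroup.normalizer (P : Set G) ∧ x ∉ Subgroup.centralizer (P : Set G)) ∧ (Cfsg.Involves (DihedralGroup p) G ↔ ∃ x y : G, (∃ k : ℕ, orderOf x = 2 ^ k) ∧ (∃ k : ℕ, orderOf y = p ^ k) ∧ y ≠ 1 ∧ x * y * x⁻¹ = y⁻¹) := by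
  constructor
  · refine ⟨normalizes_of_involves hp, fun ⟨x, P, hx, hP, hN, hC⟩ => ?_⟩
    obtain ⟨x', y, hx', hy, hy1, hxy⟩ := inverts_of_normalizes hx hP hN hC
    exact involves_of_inverts hp hx' hy hy1 hxy
  · refine ⟨fun h => ?_, fun ⟨x, y, hx, hy, hy1, hxy⟩ => involves_of_inverts hp hx hy hy1 hxy⟩
    obtain ⟨x, P, hx, hP, hN, hC⟩ := normalizes_of_involves hp h
    exact inverts_of_normalizes hx hP hN hC

end Cfsg.Agent.S2758
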