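import Cfsg.Statements.S2760
import Cfsg.Agent.LocalEven.Conj
import Cfsg.Agent.Core.Cores

set_option autoImplicit false
open Cfsg

namespace Cfsg.Agent.S2760

/-- Let G be a finite group with C_G(O₂(G)) ≤ O₂(G) and H a subgroup of G such that H is normal in G, or the subgroup O²(H) generated by the elements of H of odd order is normal in G. Then C_H(O₂(H)) ≤ O₂(H). -/
theorem result {G : Type*} [Group G] [Finite G] (hchar : Subgroup.centralizer (Cfsg.pCore 2 G : Set G) ≤ Cfsg.pCore 2 G) (H : Subgroup G) (hH : H.Normal ∨ ((Cfsg.pResidual 2 ↥H).map H.subtype).Normal) : Subgroup.centralizer (Cfsg.pCore 2 ↥H : Set ↥H) ≤ Cfsg.pCore 2 ↥H := by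
  classical
  haveI : Fact (Nat.Prime 2) := ⟨Nat.prime_two⟩
  set O := Cfsg.pCore 2 G with hO
  have hOp : IsPGroup 2 ↥O := Cfsg.Agent.Core.isPGroup_pCore 2 G
  have key : ∀ N : Subgroup G, N.Normal → ∀ x ∈ N, Odd (orderOf x) →
      (∀ v ∈ O, v ∈ N → x * v = v * x) → x = 1 := by
    intro N hN x hxN hodd hc
    have hx : ∀ v ∈ O, x * v = v * x := by
      intro v hv
      set c := v⁻¹ * (x * v * x⁻¹) with hcdef
      have hcO : c ∈ O := O.mul_mem (O.inv_mem hv) ((inferInstance : O.Normal).conj_mem v hv x)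
      have hcN : c ∈ N := by
        have : (v⁻¹ * x * v) * x⁻¹ ∈ N := N.mul_mem (by
          have := hN.conj_mem x hxN v⁻¹
          rwa [inv_inv] at this) (N.inv_mem hxN)
        simpa [hcdef, mul_assoc] using this
      have hxc := hc c hcO hcN
      have hit : ∀ k : ℕ, x ^ k * v * (x ^ k)⁻¹ = v * c ^ k := by
        intro k
        induction k with
        | zero => simp
        | succ k ih =>
          calc x ^ (k + 1) * v * (x ^ (k + 1))⁻¹ = x * (x ^ k * v * (x ^ k)⁻¹) * x⁻¹ := by group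
            _ = x * (v * c ^ k) * x⁻¹ := by rw [ih]
            _ = x * v * x⁻¹ * (x * c ^ k * x⁻¹) := by group
            _ = v * c * c ^ k := by
              rw [(show Commute x c from hxc).pow_right k |>.eq, mul_inv_cancel_right, hcdef, mul_inv_cancel_left]
            _ = _ := by rw [mul_assoc, ← pow_succ']
      have h1 := hit (orderOf x)
      rw [pow_orderOf_eq_one, inv_one, one_mul, mul_one] at h1
      have h2 : c ^ orderOf x = 1 := mul_eq_left.mp h1.symm
      obtain ⟨k, hk⟩ := hOp ⟨c, hcO⟩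
      have h3 : c = 1 := by
        rw [← orderOf_eq_one_iff]
        exact Nat.eq_one_of_dvd_coprimes ((Nat.coprime_two_left.mpr hodd).pow_left k)
          (orderOf_dvd_of_pow_eq_one (congrArg Subtype.val hk)) (orderOf_dvd_of_pow_eq_one h2)
      rw [hcdef, inv_mul_eq_one] at h3
      exact mul_inv_eq_iff_eq_mul.mp h3.symm
    obtain ⟨k, hk⟩ := hOp ⟨x, hchar fun v hv => (hx v hv).symm⟩
    rw [← orderOf_eq_one_iff]
    exact Nat.eq_one_of_dvd_coprimes ((Nat.coprime_two_left.mpr hodd).pow_left k)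
      (orderOf_dvd_of_pow_eq_one (congrArg Subtype.val hk)) dvd_rfl
  -- an odd element of the centralizer of the core is trivial
  have hodd : ∀ x : ↥H, x ∈ Subgroup.centralizer (Cfsg.pCore 2 ↥H : Set ↥H) → Odd (orderOf x) → x = 1 := by
    intro x hx ho
    have hox : Odd (orderOf (x : G)) := by rwa [Subgroup.orderOf_coe]
    refine Subtype.ext ?_
    rcases hH with hH | hH
    · refine key H hH x x.2 hox fun v hv hvH => ?_
      exact congrArg Subtype.val (hx ⟨v, hvH⟩ (Cfsg.Agent.Core.le_pCore inferInstance hOp.comap_subtype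
        (show (⟨v, hvH⟩ : ↥H) ∈ O.subgroupOf H from hv))).symm
    · refine key _ hH x ⟨x, Subgroup.subset_closure (Nat.coprime_two_right.mpr ho), rfl⟩ hox fun v hv hvK => ?_
      obtain ⟨w, -, hwv⟩ := hvK
      have hvH : v ∈ H := hwv ▸ w.2
      exact congrArg Subtype.val (hx ⟨v, hvH⟩ (Cfsg.Agent.Core.le_pCore inferInstance hOp.comap_subtype
        (show (⟨v, hvH⟩ : ↥H) ∈ O.subgroupOf H from hv))).symm
  set D := Subgroup.centralizer (Cfsg.pCore 2 ↥H : Set ↥H) with hD
  haveI : D.Normal := by rw [hD]; infer_instance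
  refine Cfsg.Agent.Core.le_pCore inferInstance ?_
  intro x
  obtain ⟨e, m, hm, hem⟩ := Nat.exists_eq_pow_mul_and_not_dvd (orderOf_pos (x : ↥H)).ne' 2 (by norm_num)
  refine ⟨e, Subtype.ext ?_⟩
  have hmo : Odd m := Nat.not_even_iff_odd.mp (by rwa [even_iff_two_dvd])
  exact hodd _ (D.pow_mem x.2 _) (hmo.of_dvd_nat (orderOf_dvd_of_pow_eq_one (by
    simp only [SubmonoidClass.coe_pow, ← pow_mul, ← hem, pow_orderOf_eq_one])))


end Cfsg.Agent.S2760
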