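import Cfsg.Statements.S2762
import Cfsg.Agent.LocalEven.QdOver

set_option autoImplicit false
open Cfsg

namespace Cfsg.Agent.S2762

/-- Structure of Qd over a finite field F of characteristic p (the affine subgroup of SL₃(F)): its largest normal p-subgroup is the group of translations (matrices with upper-left block the identity), the block-diagonal matrices form a complement isomorphic to SL₂(F), and the translation subgroup is a natural SL₂(F)-module for that complement. -/
theorem result {F : Type*} [Field F] [Fintype F] {p : ℕ} [Fact p.Prime] [CharP F p] : (∀ M : ↥(Cfsg.qdOver F), M ∈ Cfsg.pCore p ↥(Cfsg.qdOver F) ↔ ((M : Matrix.SpecialLinearGroup (Fin 3) F) : Matrix (Fin 3) (Fin 3) F) 0 0 = 1 ∧ ((M : Matrix.SpecialLinearGroup (Fin 3) F) : Matrix (Fin 3) (Fin 3) F) 0 1 = 0 ∧ ((M : Matrix.SpecialLinearGroup (Fin 3) F) : Matrix (Fin 3) (Fin 3) F) 1 0 = 0 ∧ ((M : Matrix.SpecialLinearGroup (Fin 3) F) : Matrix (Fin 3) (Fin 3) F) 1 1 = 1) ∧ ∃ K : Subgroup ↥(Cfsg.qdOver F), (∀ M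 : ↥(Cfsg.qdOver F), M ∈ K ↔ ((M : Matrix.SpecialLinearGroup (Fin 3) F) : Matrix (Fin 3) (Fin 3) F) 0 2 = 0 ∧ ((M : Matrix.SpecialLinearGroup (Fin 3) F) : Matrix (Fin 3) (Fin 3) F) 1 2 = 0) ∧ K ⊓ Cfsg.pCore p ↥(Cfsg.qdOver F) = ⊥ ∧ K ⊔ Cfsg.pCore p ↥(Cfsg.qdOver F) = ⊤ ∧ Nonempty (↥K ≃* Matrix.SpecialLinearGroup (Fin 2) F) ∧ Cfsg.IsNaturalSL2Module F (Cfsg.pCore p ↥(Cfsg.qdOver F)) K := by
  open Cfsg.Agent.LocalEven.QdOverFacts in
  rw [pCore_eq p]
  refine ⟨fun M => mem_trans, (sect (F := F)).range, fun M => mem_range_sect, ?_, ?_, ?_, ?_⟩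
  · rw [eq_bot_iff]
    rintro _ ⟨⟨B, rfl⟩, hB⟩
    change lin (sect B) = 1 at hB
    rw [lin_sect] at hB
    rw [hB, map_one]
    exact one_mem _
  · rw [eq_top_iff]
    intro M _
    rw [show M = sect (lin M) * ((sect (lin M))⁻¹ * M) by group]
    refine Subgroup.mul_mem_sup ⟨lin M, rfl⟩ ?_
    show lin _ = 1
    rw [map_mul, map_inv, lin_sect, inv_mul_cancel]
  · exact ⟨(MonoidHom.ofInjective (fun B C h => by simpa [lin_sect] using congrArg lin h)).symm⟩
  · haveI : (Cfsg.Agent.LocalEven.QdOverFacts.trans F).Normal := MonoidHom.normal_ker _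
    refine ⟨by simp [Subgroup.normalizer_eq_top], lin.comp (Subgroup.subtype _),
      AddEquiv.ofBijective _ vecHom_bijective, fun B => ⟨⟨sect B, B, rfl⟩, lin_sect B⟩, ?_, ?_⟩
    · ext ⟨_, B, rfl⟩
      rw [MonoidHom.mem_ker, Subgroup.mem_subgroupOf]
      show lin (sect B) = 1 ↔ sect B ∈ Subgroup.centralizer (Cfsg.Agent.LocalEven.QdOverFacts.trans F : Set _)
      rw [lin_sect]
      constructor
      · rintro rfl
        rw [map_one]
        exact one_mem _
      · intro h
        have key : ∀ w : Fin 2 → F, B.1.mulVec w = w := fun w => by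
          obtain ⟨v', hv⟩ := vecHom_bijective.2 w
          obtain ⟨v, rfl⟩ := Additive.ofMul.surjective v'
          obtain ⟨v0, v1, v2, v3⟩ := mem_trans.mp v.2
          have hc := Subgroup.mem_centralizer_iff.mp h v.1 v.2
          have e0 := congrArg (fun M : Cfsg.qdOver F => M.1.1 0 2) hc
          have e1 := congrArg (fun M : Cfsg.qdOver F => M.1.1 1 2) hc
          simp only [mul_entry] at e0 e1
          simp [sect_val, v0, v1, v2, v3, row2] at e0 e1
          have w0 : v.1.1.1 0 2 = w 0 := congrFun hv 0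
          have w1 : v.1.1.1 1 2 = w 1 := congrFun hv 1
          rw [w0, w1] at e0 e1
          ext i
          fin_cases i
          · simpa [Matrix.mulVec, dotProduct, Fin.sum_univ_two] using e0.symm
          · simpa [Matrix.mulVec, dotProduct, Fin.sum_univ_two] using e1.symm
        apply Subtype.ext
        ext i j
        have hj := congrFun (key (Pi.single j 1)) i
        rw [Matrix.mulVec_single_one] at hj
        rw [Matrix.SpecialLinearGroup.coe_one, Matrix.one_apply]
        simpa [Pi.single_apply] using hj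
    · rintro ⟨_, B, rfl⟩ v
      refine ⟨⟨sect B * v.1 * (sect B)⁻¹, Subgroup.Normal.conj_mem inferInstance _ v.2 _⟩, rfl, ?_⟩
      obtain ⟨v0, v1, v2, v3⟩ := mem_trans.mp v.2
      obtain ⟨u0, u1, u2, u3⟩ := mem_trans.mp (Subgroup.Normal.conj_mem (H := Cfsg.Agent.LocalEven.QdOverFacts.trans F) inferInstance _ v.2 (sect B))
      have hc : sect B * v.1 * (sect B)⁻¹ * sect B = sect B * v.1 := by group
      generalize_proofs hm
      set u := sect B * v.1 * (sect B)⁻¹ with hu
      clear_value u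
      have e0 := congrArg (fun M : Cfsg.qdOver F => M.1.1 0 2) hc
      have e1 := congrArg (fun M : Cfsg.qdOver F => M.1.1 1 2) hc
      simp only [mul_entry] at e0 e1
      simp [sect_val, v0, v1, v2, v3, u0, u1, u2, u3, row2] at e0 e1
      show _ = (lin (sect B)).1.mulVec _
      rw [lin_sect]
      rw [hu] at e0 e1
      ext i
      fin_cases i
      · show (sect B * v.1 * (sect B)⁻¹).1.1 0 2 = _
        rw [e0]; simp [vecHom, Matrix.mulVec, dotProduct, Fin.sum_univ_two]
      · show (sect B * v.1 * (sect B)⁻¹).1.1 1 2 = _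
        rw [e1]; simp [vecHom, Matrix.mulVec, dotProduct, Fin.sum_univ_two]


end Cfsg.Agent.S2762
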