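import Cfsg.Statements.S2772
import Cfsg.Agent.Transfer.AmalgamS4.Final

set_option autoImplicit false
open Cfsg

namespace Cfsg.Agent.S2772

/-- Sims' Theorem in local form: let H be a finite non-abelian simple group and G a maximal subgroup of H with C_G(O₂(G)) ≤ O₂(G), such that N_H(S) is not contained in G for a Sylow 2-subgroup S of G and G/O₂(G) is dihedral of order 2q for a prime q. Then G is isomorphic to the symmetric group of degree 4 or to its direct product with a group of order 2. -/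
theorem result {H : Type*} [Group H] [Finite H] [IsSimpleGroup H] (hna : ¬ IsMulCommutative H) (G : Subgroup H) (hG : IsCoatom G) (hchar : Subgroup.centralizer (Cfsg.pCore 2 ↥G : Set ↥G) ≤ Cfsg.pCore 2 ↥G) (S : Sylow 2 ↥G) (hN : ¬ Subgroup.normalizer (((S : Subgroup ↥G).map G.subtype : Subgroup H) : Set H) ≤ G) (q : ℕ) (hq : q.Prime) (hD : Nonempty (↥G ⧸ Cfsg.pCore 2 ↥G ≃* DihedralGroup q)) : Nonempty (↥G ≃* Equiv.Perm (Fin 4)) ∨ Nonempty (↥G ≃* Equiv.Perm (Fin 4) × Multiplicative (ZMod 2)) := by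
  open Cfsg.Agent.Transfer.AmalgamS4 Cfsg.Agent.LocalEven in
  obtain ⟨g, hgN, hgG⟩ := SetLike.not_le_iff_exists.mp hN
  haveI := Fact.mk Nat.prime_two
  set T := (S : Subgroup ↥G).map G.subtype with hTdef
  set Q := Cfsg.pCoreOf 2 G with hQdef
  have hTG : T ≤ G := Subgroup.map_subtype_le _
  have hp : IsPGroup 2 T := S.isPGroup'.map _
  obtain ⟨e⟩ := hD
  have h2q : Q.relIndex G = 2 * q := by
    rw [hQdef, Subgroup.relIndex, Subgroup.subgroupOf, Cfsg.pCoreOf,
      Subgroup.comap_map_eq_self_of_injective G.subtype_injective, Subgroup.index_eq_card,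
      Nat.card_congr e.toEquiv, DihedralGroup.nat_card]
  have hQT : Q ≤ T := Subgroup.map_mono (Cfsg.Agent.Core.pCore_le_sylow S)
  have hsub : T.subgroupOf G = S := by
    rw [hTdef, Subgroup.subgroupOf, Subgroup.comap_map_eq_self_of_injective G.subtype_injective]
  have hodd : ¬ 2 ∣ T.relIndex G := by
    rw [Subgroup.relIndex, hsub]; exact S.not_dvd_index
  have hmul := Subgroup.relIndex_mul_relIndex Q T G hQT hTG
  rw [h2q] at hmul
  have hTfin : Finite T := inferInstance
  obtain ⟨k, hk⟩ := IsPGroup.iff_card.mp hp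
  have hdvd : Q.relIndex T ∣ 2 ^ k := hk ▸ Subgroup.index_dvd_card _
  have hTq : T.relIndex G = q ∧ q ≠ 2 ∧ Q.relIndex T = 2 := by
    have hd : T.relIndex G ∣ 2 * q := Dvd.intro_left _ hmul
    have hd' : T.relIndex G ∣ q :=
      ((Nat.prime_two.coprime_iff_not_dvd.mpr hodd).symm).dvd_of_dvd_mul_left hd
    rcases (Nat.dvd_prime hq).mp hd' with h | h
    · exfalso
      rw [h, mul_one] at hmul
      rw [hmul] at hdvd
      have h1 : q ∣ 2 ^ k := (dvd_mul_left q 2).trans hdvd
      have hq2 := (Nat.prime_dvd_prime_iff_eq hq Nat.prime_two).mp (hq.dvd_of_dvd_pow h1)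
      have hGT : G ≤ T := Subgroup.relIndex_eq_one.mp h
      have hGp : IsPGroup 2 G := hp.to_le hGT
      have htop : Cfsg.pCore 2 ↥G = ⊤ := top_le_iff.mp (Cfsg.Agent.Core.le_pCore inferInstance
        (hGp.of_equiv Subgroup.topEquiv.symm))
      have hc := congrArg Subgroup.index htop
      rw [Subgroup.index_top, Subgroup.index_eq_card, Nat.card_congr e.toEquiv, DihedralGroup.nat_card] at hc
      omega
    · refine ⟨h, fun hq2 => hodd (by rw [h, hq2]), ?_⟩
      rw [h] at hmul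
      exact Nat.eq_of_mul_eq_mul_right hq.pos hmul
  obtain ⟨hTq, hq2, hQT2⟩ := hTq
  have hG1 : G ≠ ⊥ := by
    intro hb
    rw [hb] at hTG
    have hT1 : T = ⊥ := le_bot_iff.mp hTG
    rw [hT1, hb, Subgroup.relIndex_self] at hTq
    exact hq.ne_one hTq.symm
  have hGn : ¬ G.Normal := fun hn => by
    rcases hn.eq_bot_or_eq_top with h | h
    · exact hG1 h
    · exact hG.1 h
  have hNG : Subgroup.normalizer (G : Set H) = G := by
    rcases (Subgroup.le_normalizer (H := G)).lt_or_eq with h | h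
    · exact absurd (Subgroup.normalizer_eq_top_iff.mp (hG.2 _ h)) hGn
    · exact h.symm
  open Cfsg.Agent.Transfer.AmalgamS4 Cfsg.Agent.LocalEven in
  have hcjT : cj g T = T := cj_eq_self_iff.mpr hgN
  set P₂ := Cfsg.Agent.LocalEven.cj g G with hP₂
  have hne : ¬ G ≤ P₂ := fun hle => hgG (by
    have h1 : P₂ = G := (Subgroup.eq_of_le_of_card_ge hle (Cfsg.Agent.LocalEven.card_cj g G).le).symm
    rw [← hNG]
    exact Cfsg.Agent.LocalEven.cj_eq_self_iff.mp h1)
  have hTP : T ≤ P₂ := hcjT ▸ Cfsg.Agent.LocalEven.cj_mono hTG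
  have hinf : G ⊓ P₂ = T := by
    have h1 := Subgroup.relIndex_mul_relIndex T (G ⊓ P₂) G (le_inf hTG hTP) inf_le_left
    rw [hTq] at h1
    rcases (Nat.dvd_prime hq).mp (Dvd.intro _ h1) with h | h
    · exact le_antisymm (Subgroup.relIndex_eq_one.mp h) (le_inf hTG hTP)
    · rw [h] at h1
      exact absurd ((Subgroup.relIndex_eq_one.mp (Nat.eq_of_mul_eq_mul_left hq.pos (by rw [mul_one]; exact h1))).trans inf_le_right) hne
  have hgen : G ⊔ P₂ = ⊤ := hG.2 _ (lt_of_le_of_ne le_sup_left fun h => hne (by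
    have h1 : P₂ ≤ G := h ▸ le_sup_right
    exact (Subgroup.eq_of_le_of_card_ge h1 (Cfsg.Agent.LocalEven.card_cj g G).ge).ge))
  have hchar' : G ⊓ Subgroup.centralizer (Q : Set H) ≤ Q := by
    rintro x ⟨hxG, hxC⟩
    refine ⟨⟨x, hxG⟩, hchar (Subgroup.mem_centralizer_iff.mpr fun y hy => ?_), rfl⟩
    exact Subtype.ext (Subgroup.mem_centralizer_iff.mp hxC y ⟨y, hy, rfl⟩)
  have hactive : ¬ G ≤ Subgroup.centralizer (Cfsg.omegaOne 2 (T ⊓ Subgroup.centralizer (T : Set H)) : Set H) := by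
    intro hle
    set Z := Cfsg.Agent.Transfer.AmalgamS4.Zc T with hZ
    have hle' : P₂ ≤ Subgroup.centralizer (Z : Set H) := by
      have h1 := Cfsg.Agent.LocalEven.cj_mono (g := g) hle
      rw [Cfsg.Agent.LocalEven.cj_centralizer] at h1
      refine h1.trans (le_of_eq (congrArg Subgroup.centralizer ?_))
      show (Cfsg.Agent.LocalEven.cj g Z : Set H) = _
      rw [hZ, Cfsg.Agent.Transfer.AmalgamS4.cj_Zc, hcjT]
    have hcen : Z ≤ Subgroup.center H := by
      rw [← Subgroup.centralizer_univ, ← Subgroup.coe_top, Subgroup.le_centralizer_iff, ← hgen]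
      exact sup_le hle hle'
    have hZb : Z = ⊥ := by
      rcases (inferInstance : (Subgroup.center H).Normal).eq_bot_or_eq_top with h | h
      · exact le_bot_iff.mp (h ▸ hcen)
      · exact absurd ⟨⟨fun a b => (Subgroup.mem_center_iff.mp (h ▸ Subgroup.mem_top a) b).symm⟩⟩ hna
    haveI : Nontrivial T := by
      refine (Subgroup.nontrivial_iff_ne_bot _).mpr fun h => ?_
      rw [h, Subgroup.relIndex_bot_right] at hQT2
      omega
    haveI := hp.center_nontrivial
    obtain ⟨z, hz⟩ := exists_prime_orderOf_dvd_card' (G := Subgroup.center T) 2 (by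
      obtain ⟨j, hj, he⟩ := (hp.to_subgroup (Subgroup.center T)).nontrivial_iff_card.mp inferInstance
      rw [he]; exact dvd_pow_self 2 hj.ne')
    have hzZ : ((z : T) : H) ∈ Z := Subgroup.subset_closure ⟨⟨(z : T).2, Subgroup.mem_centralizer_iff.mpr
      fun y hy => congrArg Subtype.val (Subgroup.mem_center_iff.mp z.2 ⟨y, hy⟩)⟩, by
        have h1 := pow_orderOf_eq_one z
        rw [hz] at h1
        exact congrArg (fun a : Subgroup.center T => ((a : T) : H)) h1⟩
    rw [hZb, Subgroup.mem_bot] at hzZ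
    have hz1 : z = 1 := Subtype.ext (Subtype.ext hzZ)
    rw [hz1, orderOf_one] at hz
    omega
  open Cfsg.Agent.Transfer.AmalgamS4 Cfsg.Agent.LocalEven in
  have hloc : Local G T := ⟨inferInstance, hTG, hp, by rw [hTq]; exact hq,
    by rw [hTq]; exact hq.odd_of_ne_two hq2, hQT, hQT2, hchar', hactive⟩
  open Cfsg.Agent.Transfer.AmalgamS4 Cfsg.Agent.LocalEven in
  have C : Ctx G P₂ := ⟨hgen, fun N hn hle => by
      rcases hn.eq_bot_or_eq_top with h | h
      · exact h
      · rw [h, hinf] at hle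
        exact absurd (top_le_iff.mp (hle.trans hTG)) hG.1,
    by rw [hinf]; exact hloc, by
      have h1 := hloc.cj g
      rw [hcjT] at h1
      rw [hinf]; exact h1⟩
  open Cfsg.Agent.Transfer.AmalgamS4 Cfsg.Agent.LocalEven in
  obtain ⟨h1, h2⟩ := C.dist_one
  open Cfsg.Agent.Transfer.AmalgamS4 Cfsg.Agent.LocalEven in
  obtain ⟨hK, -⟩ := C.card_Kz adj_base h1 h2
  open Cfsg.Agent.Transfer.AmalgamS4 Cfsg.Agent.LocalEven in
  have hL := C.vertex_iso adj_base h1 h2
  open Cfsg.Agent.Transfer.AmalgamS4 Cfsg.Agent.LocalEven in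
  have eL : MulAction.stabilizer H (vL G P₂) = G := stab_vL
  rcases hK with hK | hK
  · left
    obtain ⟨e₁⟩ := hL.1 hK
    exact ⟨(MulEquiv.subgroupCongr eL).symm.trans e₁⟩
  · right
    obtain ⟨e₁⟩ := hL.2 hK
    exact ⟨((MulEquiv.subgroupCongr eL).symm.trans e₁).trans MulEquiv.prodComm⟩

end Cfsg.Agent.S2772
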