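import Cfsg.Statements.S2779
import Cfsg.Agent.LocalEven.NaturalSL2

set_option autoImplicit false
open Cfsg

namespace Cfsg.Agent.S2779

/-- Let L act on the elementary abelian p-group V (inside a finite group, by conjugation, faithfully) as SL₂(F) on its natural module, F a field with p^n elements, and let S be a Sylow p-subgroup of L. Then [V, S, S] = 1; |V| = p^(2n) and |C_V(S)| = p^n; and for every nonidentity s ∈ S and every v ∈ V outside C_V(S): C_V(s) = C_V(S) = [V, S] = [V, s] = the subgroup generated by the commutators [v, t], t ∈ S. -/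
theorem result {G : Type*} [Group G] [Finite G] {p : ℕ} [Fact p.Prime] {F : Type*} [Field F] [Fintype F] (n : ℕ) (hF : Fintype.card F = p ^ n) (V L : Subgroup G) (hnat : Cfsg.IsNaturalSL2Module F V L) (hf : L ⊓ Subgroup.centralizer (V : Set G) = ⊥) (S : Sylow p ↥L) (T : Subgroup G) (hT : T = ((S : Subgroup ↥L).map L.subtype)) : ⁅⁅V, T⁆, T⁆ = ⊥ ∧ Nat.card V = p ^ (2 * n) ∧ Nat.card ↥(V ⊓ Subgroup.centralizer ((T : Subgroup G) : Set G)) = p ^ n ∧ ∀ s ∈ T, s ≠ 1 → (V ⊓ Subgroup.centralizer ({s} : Set G)) = (V ⊓ Subgroup.centralizer ((T : Subgroup G) : Set G)) ∧ ⁅V, T⁆ = (V ⊓ Subgroup.centralizer ((T : Subgroup G) : Set G)) ∧ ⁅V, Subgroup.zpowers s⁆ = (V ⊓ Subgroup.centralizer ((T : Subgroup G) : Set G)) ∧ ∀ v ∈ V, v ∉ Subgroup.centralizer (T : Set G) → Subgroup.closure {x : G | ∃ t ∈ T, x = v * t * v⁻¹ * t⁻¹} = (V ⊓ Subgroup.centralizer ((T : Subgroup G) : Set G)) := by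
  open Cfsg.Agent.LocalEven.NaturalSL2 in
  obtain ⟨C⟩ := exists_coord hF V L hnat hf S T hT
  have hTc : V ⊓ Subgroup.centralizer (T : Set G) ≤ Subgroup.centralizer (T : Set G) := inf_le_right
  have heq : ⁅V, T⁆ = V ⊓ Subgroup.centralizer (T : Set G) := by
    refine le_antisymm C.commutator_le fun u hu => ?_
    obtain ⟨t, htL, htT, he⟩ := C.exists_T 1
    by_cases h1 : t = 1
    · exfalso
      subst h1
      have := congrArg (fun g : Matrix.SpecialLinearGroup (Fin 2) F => g.1 0 1) (he.symm.trans (map_one C.ρ))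
      simp [Cfsg.Agent.Dickson.uel] at this
    obtain ⟨v, hv, rfl⟩ := C.exists_comm' htT h1 hu
    exact Subgroup.commutator_mem_commutator hv htT
  refine ⟨?_, C.card_V hF, C.card_cent hF, fun s hs h1 => ⟨?_, heq, ?_, ?_⟩⟩
  · rw [Subgroup.commutator_eq_bot_iff_le_centralizer, heq]
    exact inf_le_right
  · refine le_antisymm (fun v hv => ?_) (inf_le_inf_left _ (Subgroup.centralizer_le (Set.singleton_subset_iff.mpr hs)))
    exact C.mem_cent_iff.mpr ⟨hv.1, C.snd_eq_zero_of_commute hs h1 hv.1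
      (Subgroup.mem_centralizer_iff.mp hv.2 s rfl)⟩
  · refine le_antisymm ((Subgroup.commutator_mono le_rfl (Subgroup.zpowers_le.mpr hs)).trans C.commutator_le)
      fun u hu => ?_
    obtain ⟨v, hv, rfl⟩ := C.exists_comm' hs h1 hu
    exact Subgroup.commutator_mem_commutator hv (Subgroup.mem_zpowers s)
  · intro v hv hvc
    refine le_antisymm ((Subgroup.closure_le _).mpr ?_) fun u hu => ?_
    · rintro _ ⟨t, ht, rfl⟩
      exact C.commutator_le (Subgroup.commutator_mem_commutator hv ht)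
    · obtain ⟨t, ht, rfl⟩ := C.exists_comm hv
        (fun h => hvc (C.mem_cent_iff.mpr ⟨hv, h⟩).2) hu
      exact Subgroup.subset_closure ⟨t, ht, rfl⟩


end Cfsg.Agent.S2779
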