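import Cfsg.Statements.S2780
import Cfsg.Agent.LocalEven.NaturalSL2

set_option autoImplicit false
open Cfsg

namespace Cfsg.Agent.S2780

/-- Let L act on the elementary abelian p-group V (inside a finite group, faithfully) as SL₂(F) on its natural module, F a field with p^n elements, S a Sylow p-subgroup of L. Then: for every g ∈ L not normalizing S, V is the internal direct product of C_V(S) and C_V(gSg⁻¹); every nonidentity element of L of order prime to p acts on V without nonidentity fixed points; and C_V(S) and V/C_V(S) are irreducible for N_L(S): the only N_L(S)-invariant subgroups of C_V(S) are 1 and C_V(S), and the only N_L(S)-invariant subgroups between C_V(S) and V are those two. -/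
theorem result {G : Type*} [Group G] [Finite G] {p : ℕ} [Fact p.Prime] {F : Type*} [Field F] [Fintype F] (n : ℕ) (hF : Fintype.card F = p ^ n) (V L : Subgroup G) (hnat : Cfsg.IsNaturalSL2Module F V L) (hf : L ⊓ Subgroup.centralizer (V : Set G) = ⊥) (S : Sylow p ↥L) (T : Subgroup G) (hT : T = ((S : Subgroup ↥L).map L.subtype)) : (∀ g ∈ L, g ∉ Subgroup.normalizer (T : Set G) → Cfsg.IsInternalDirectProduct (V ⊓ Subgroup.centralizer ((T : Subgroup G) : Set G)) (V ⊓ Subgroup.centralizer ((T.map (MulAut.conj g).toMonoidHom : Subgroup G) : Set G)) V) ∧ (∀ x ∈ L, x ≠ 1 → (orderOf x).Coprime p → (V ⊓ Subgroup.centralizer ({x} : Set G)) = ⊥) ∧ (∀ U : Subgroup G, U ≤ (V ⊓ Subgroup.centralizer ((T : Subgroup G) : Set G)) → L ⊓ Subgroup.normalizer (T : Set G) ≤ Subgroup.normalizer (U : Set G) → U = ⊥ ∨ U = (V ⊓ Subgroup.centralizer ((T : Subgroup G) : Set G))) ∧ (∀ U : Subgroup G, (V ⊓ Subgroup.centralizer ((T : Subgroup G) : Set G)) ≤ U → U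 ≤ V → L ⊓ Subgroup.normalizer (T : Set G) ≤ Subgroup.normalizer (U : Set G) → U = (V ⊓ Subgroup.centralizer ((T : Subgroup G) : Set G)) ∨ U = V) := by
  open Cfsg.Agent.LocalEven.NaturalSL2 in
  obtain ⟨C⟩ := exists_coord hF V L hnat hf S T hT
  haveI := Cfsg.Agent.LocalEven.NaturalSL2.charP (p := p) hF
  refine ⟨fun g hg hgN => ?_, fun x hx hx1 hcop => ?_, fun U hU hinv => ?_, fun U hCU hUV hinv => ?_⟩
  · set c := C.ρ ⟨g, hg⟩ with hc
    have h10 := C.lower_ne_zero hg hgN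
    rw [← hc] at h10
    have hsub : ∀ a ∈ V ⊓ Subgroup.centralizer (T : Set G), g * a * g⁻¹ ∈
        V ⊓ Subgroup.centralizer ((T.map (MulAut.conj g).toMonoidHom : Subgroup G) : Set G) := by
      rintro a ⟨haV, haC⟩
      refine ⟨C.conj_mem hg haV, Subgroup.mem_centralizer_iff.mpr ?_⟩
      rintro _ ⟨t, ht, rfl⟩
      have h := Subgroup.mem_centralizer_iff.mp haC t ht
      show g * t * g⁻¹ * (g * a * g⁻¹) = g * a * g⁻¹ * (g * t * g⁻¹)
      calc g * t * g⁻¹ * (g * a * g⁻¹) = g * (t * a) * g⁻¹ := by group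
        _ = g * (a * t) * g⁻¹ := by rw [h]
        _ = g * a * g⁻¹ * (g * t * g⁻¹) := by group
    refine ⟨inf_le_left, inf_le_left, fun a ha b hb => ?_, ?_, ?_⟩
    · have h := C.vec_mul ha.1 hb.1
      rw [add_comm, ← C.vec_mul hb.1 ha.1] at h
      exact C.vec_inj h
    · rw [eq_bot_iff]
      rintro a ⟨ha, hb⟩
      obtain ⟨haV, ha1⟩ := C.mem_cent_iff.mp ha
      have hb' : g⁻¹ * a * g⁻¹⁻¹ ∈ V ⊓ Subgroup.centralizer (T : Set G) := by
        refine ⟨C.conj_mem (inv_mem hg) hb.1, Subgroup.mem_centralizer_iff.mpr fun t ht => ?_⟩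
        have h := Subgroup.mem_centralizer_iff.mp hb.2 (g * t * g⁻¹) ⟨t, ht, rfl⟩
        calc t * (g⁻¹ * a * g⁻¹⁻¹) = g⁻¹ * (g * t * g⁻¹ * a) * g := by group
          _ = g⁻¹ * (a * (g * t * g⁻¹)) * g := by rw [h]
          _ = g⁻¹ * a * g⁻¹⁻¹ * t := by group
      obtain ⟨hm, hb1⟩ := C.mem_cent_iff.mp hb'
      rw [C.vec_conj (inv_mem hg) haV, Cfsg.Agent.LocalEven.NaturalSL2.act_apply, ha1, mul_zero, add_zero,
        show C.ρ ⟨g⁻¹, inv_mem hg⟩ = c⁻¹ from map_inv C.ρ ⟨g, hg⟩] at hb1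
      have ha0 : C.vec a haV 0 = 0 := by
        simp [Matrix.SpecialLinearGroup.coe_inv, Matrix.adjugate_fin_two] at hb1
        exact hb1.resolve_left h10
      exact Subgroup.mem_bot.mpr (C.vec_inj ((Cfsg.Agent.LocalEven.NaturalSL2.vec_eq ha0 ha1).trans C.vec_one.symm))
    · refine le_antisymm (sup_le inf_le_left inf_le_left) fun v hv => ?_
      obtain ⟨k, hk, hke⟩ := C.exists_vec ![C.vec v hv 1 / c.1 1 0, 0]
      obtain ⟨a, ha, hae⟩ := C.exists_vec ![C.vec v hv 0 - c.1 0 0 * (C.vec v hv 1 / c.1 1 0), 0]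
      have hkC : k ∈ V ⊓ Subgroup.centralizer (T : Set G) := C.mem_cent_iff.mpr ⟨hk, by simp [hke]⟩
      have haC : a ∈ V ⊓ Subgroup.centralizer (T : Set G) := C.mem_cent_iff.mpr ⟨ha, by simp [hae]⟩
      have he : v = a * (g * k * g⁻¹) := by
        refine C.vec_inj (hv := hv) (hw := mul_mem ha (C.conj_mem hg hk)) ?_
        rw [C.vec_mul ha (C.conj_mem hg hk), C.vec_conj hg hk, ← hc, hke, hae]
        refine Cfsg.Agent.LocalEven.NaturalSL2.vec_eq ?_ ?_ <;>
          simp [Cfsg.Agent.LocalEven.NaturalSL2.act_apply]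
        field_simp
      rw [he]
      exact Subgroup.mul_mem_sup haC (hsub k hkC)
  · rw [eq_bot_iff]
    rintro v ⟨hv, hvc⟩
    by_contra hne
    have hw : C.vec v hv ≠ 0 := fun h => hne (Subgroup.mem_bot.mpr (C.vec_inj (h.trans C.vec_one.symm)))
    have htr := C.tr_eq_two hw
      ((C.commute_iff hx hv).mp (Subgroup.mem_centralizer_iff.mp hvc x rfl))
    have hxp : x ^ p = 1 := by
      have h := Cfsg.Agent.Dickson.pow_p_of_tr (p := p) _ htr
      rw [← map_pow, ← map_one C.ρ] at h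
      exact congrArg Subtype.val (C.bij.1 h)
    exact hx1 (orderOf_eq_one_iff.mp (Nat.eq_one_of_dvd_coprimes hcop dvd_rfl (orderOf_dvd_of_pow_eq_one hxp)))
  · rcases eq_or_ne U ⊥ with h | h
    · exact Or.inl h
    refine Or.inr (le_antisymm hU fun w hw => ?_)
    obtain ⟨⟨u, hu⟩, hu1'⟩ := Subgroup.ne_bot_iff_exists_ne_one.mp h
    have hu1 : u ≠ 1 := fun h => hu1' (Subtype.ext h)
    obtain ⟨huV, hus⟩ := C.mem_cent_iff.mp (hU hu)
    obtain ⟨hwV, hws⟩ := C.mem_cent_iff.mp hw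
    rcases eq_or_ne (C.vec w hwV 0) 0 with h0 | h0
    · rw [show w = 1 from C.vec_inj ((Cfsg.Agent.LocalEven.NaturalSL2.vec_eq h0 hws).trans C.vec_one.symm)]
      exact one_mem _
    have hu0 : C.vec u huV 0 ≠ 0 := fun h =>
      hu1 (C.vec_inj ((Cfsg.Agent.LocalEven.NaturalSL2.vec_eq h hus).trans C.vec_one.symm))
    obtain ⟨g, hg, hgv⟩ := C.exists_torus (Units.mk0 _ (div_ne_zero h0 hu0))
    have hm := C.conj_mem hg.1 huV
    obtain ⟨k0, k1⟩ := hgv u huV hm
    have he : g * u * g⁻¹ = w := by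
      refine C.vec_inj (hv := hm) (hw := hwV) (Cfsg.Agent.LocalEven.NaturalSL2.vec_eq ?_ ?_)
      · rw [k0]; simp [hu0]
      · rw [k1, hus, hws, mul_zero]
    exact he ▸ (Subgroup.mem_normalizer_iff.mp (hinv hg) u).mp hu
  · rcases eq_or_ne U (V ⊓ Subgroup.centralizer (T : Set G)) with h | h
    · exact Or.inl h
    refine Or.inr (le_antisymm hUV fun w hwV => ?_)
    obtain ⟨u, hu, huC⟩ := SetLike.exists_of_lt (lt_of_le_of_ne hCU (Ne.symm h))
    have huV := hUV hu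
    have hu1 : C.vec u huV 1 ≠ 0 := fun h => huC (C.mem_cent_iff.mpr ⟨huV, h⟩)
    obtain ⟨w', hw', hwe⟩ : ∃ (w' : G) (hw' : w' ∈ V), w' ∈ U ∧ C.vec w' hw' 1 = C.vec w hwV 1 := by
      rcases eq_or_ne (C.vec w hwV 1) 0 with h0 | h0
      · exact ⟨1, one_mem _, one_mem _, by rw [C.vec_one, h0]; rfl⟩
      obtain ⟨g, hg, hgv⟩ := C.exists_torus (Units.mk0 _ (div_ne_zero hu1 h0))
      have hm := C.conj_mem hg.1 huV
      exact ⟨_, hm, (Subgroup.mem_normalizer_iff.mp (hinv hg) u).mp hu, by rw [(hgv u huV hm).2]; simp; field_simp⟩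
    obtain ⟨hw'U, hw's⟩ := hwe
    have hd : w * w'⁻¹ ∈ V ⊓ Subgroup.centralizer (T : Set G) := C.mem_cent_iff.mpr ⟨mul_mem hwV (inv_mem hw'),
      by rw [C.vec_mul hwV (inv_mem hw'), C.vec_inv hw', Pi.add_apply, Pi.neg_apply, hw's, add_neg_cancel]⟩
    simpa using mul_mem (hCU hd) hw'U


end Cfsg.Agent.S2780
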