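import Cfsg.Statements.S2781
import Cfsg.Agent.Coprime.Action
import Cfsg.Agent.Transfer.Basic

set_option autoImplicit false
open Cfsg
open scoped commutatorElement

namespace Cfsg.Agent.S2781

/-- Let H act faithfully by conjugation on the elementary abelian p-subgroup V of a finite group, let O^p(H) be the subgroup of H generated by its elements of order prime to p, and T a Sylow p-subgroup of O^p(H). If V is generated by the H-conjugates of C_V(T) (V is the smallest H-invariant subgroup containing C_V(T)), then V = [V, O^p(H)]·C_V(O^p(H)). -/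
theorem result {G : Type*} [Group G] [Finite G] {p : ℕ} [Fact p.Prime] (V H : Subgroup G) (hV : Cfsg.IsElementaryAbelian p V) (hHV : H ≤ Subgroup.normalizer (V : Set G)) (hf : H ⊓ Subgroup.centralizer (V : Set G) = ⊥) (R : Subgroup G) (hR : R = (Cfsg.pResidual p ↥H).map H.subtype) (S : Sylow p ↥R) (T : Subgroup G) (hT : T = ((S : Subgroup ↥R).map R.subtype)) (hgen : ∀ W : Subgroup G, H ≤ Subgroup.normalizer (W : Set G) → (V ⊓ Subgroup.centralizer ((T : Subgroup G) : Set G)) ≤ W → V ≤ W) : ⁅V, R⁆ ⊔ (V ⊓ Subgroup.centralizer ((R : Subgroup G) : Set G)) = V := by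
  have hRH : R ≤ H := hR ▸ Subgroup.map_subtype_le _
  have hVn : R ≤ Subgroup.normalizer (V : Set G) := hRH.trans hHV
  have hRn : H ≤ Subgroup.normalizer (R : Set G) := by
    have h : (R.subgroupOf H).Normal := by
      rw [hR, show ((Cfsg.pResidual p ↥H).map H.subtype).subgroupOf H = Cfsg.pResidual p ↥H from
        Subgroup.comap_map_eq_self_of_injective H.subtype_injective _]
      infer_instance
    exact (Subgroup.normal_subgroupOf_iff_le_normalizer hRH).1 h
  set CR := V ⊓ Subgroup.centralizer (R : Set G) with hCR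
  set W := ⁅V, R⁆ ⊔ CR with hW
  have hVR : ⁅V, R⁆ ≤ V := Coprime.commutator_le_of_le_normalizer hVn
  refine le_antisymm (sup_le hVR inf_le_left) (hgen W (fun h hh => ?_) fun v hv => ?_)
  · have eV : V.map (MulAut.conj h).toMonoidHom = V := Transfer.mem_normalizer_iff_map_conj.1 (hHV hh)
    have eR : R.map (MulAut.conj h).toMonoidHom = R := Transfer.mem_normalizer_iff_map_conj.1 (hRn hh)
    refine Transfer.mem_normalizer_iff_map_conj.2 (Subgroup.eq_of_le_of_card_ge ?_ (Subgroup.card_map_of_injective (MulAut.conj h).injective).ge)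
    rw [hW, Subgroup.map_sup, Subgroup.map_commutator, eV, eR]
    refine sup_le_sup_left ?_ _
    rintro _ ⟨c, hc, rfl⟩
    obtain ⟨hcV, hcC⟩ := Subgroup.mem_inf.1 hc
    refine Subgroup.mem_inf.2 ⟨eV.le ⟨c, hcV, rfl⟩, fun r hr => ?_⟩
    obtain ⟨r', hr', rfl⟩ := eR.ge hr
    rw [← map_mul, ← map_mul, hcC r' hr']
  · obtain ⟨hvV, hvT⟩ := Subgroup.mem_inf.1 hv
    have hab := hV.1
    letI : CommGroup V := { (inferInstance : Group V) with mul_comm := fun a b => hab.is_comm.comm a b }
    classical
    haveI : Fintype (↥R ⧸ (S : Subgroup R)) := Fintype.ofFinite _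
    let c : ↥R ⧸ (S : Subgroup R) → V := Quotient.lift
      (fun r : R => (⟨(r : G) * v * (r : G)⁻¹, (Subgroup.mem_normalizer_iff.1 (hVn r.2) v).1 hvV⟩ : V))
      fun r r' hrr => Subtype.ext (by
        have h1 : ((r⁻¹ * r' : R) : G) * v = v * ((r⁻¹ * r' : R) : G) :=
          hvT _ (hT ▸ ⟨_, QuotientGroup.leftRel_apply.mp hrr, rfl⟩)
        rw [Subgroup.coe_mul, Subgroup.coe_inv] at h1
        show (r : G) * v * (r : G)⁻¹ = r' * v * (r' : G)⁻¹
        calc (r : G) * v * (r : G)⁻¹ = r * (v * ((r : G)⁻¹ * r')) * (r' : G)⁻¹ := by group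
          _ = r * (((r : G)⁻¹ * r') * v) * (r' : G)⁻¹ := by rw [h1]
          _ = r' * v * (r' : G)⁻¹ := by group)
    set τ : V := ∏ q, c q with hτ
    have hτC : (τ : G) ∈ CR := Subgroup.mem_inf.2 ⟨τ.2, fun r hr => by
      let σ : V →* V :=
        { toFun := fun u => ⟨r * u * r⁻¹, (Subgroup.mem_normalizer_iff.1 (hVn hr) u).1 u.2⟩
          map_one' := Subtype.ext (by simp)
          map_mul' := fun a b => Subtype.ext (by simp [mul_assoc]) }
      have h1 : σ τ = τ := by
        rw [hτ, map_prod]
        refine Fintype.prod_equiv (MulAction.toPerm (⟨r, hr⟩ : R)) _ _ fun q => ?_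
        induction q using QuotientGroup.induction_on with
        | H g =>
          refine Subtype.ext ?_
          show r * ((g : G) * v * (g : G)⁻¹) * r⁻¹ = ((⟨r, hr⟩ * g : R) : G) * v * ((⟨r, hr⟩ * g : R) : G)⁻¹
          rw [Subgroup.coe_mul]; group
      exact mul_inv_eq_iff_eq_mul.1 (congrArg Subtype.val h1)⟩
    let N : Subgroup V := W.subgroupOf V
    have hterm : ∀ q, QuotientGroup.mk' N (c q) = QuotientGroup.mk' N ⟨v, hvV⟩ := by
      intro q
      induction q using QuotientGroup.induction_on with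
      | H g =>
        refine QuotientGroup.eq.2 (Subgroup.mem_subgroupOf.2 ?_)
        have h := Subgroup.commutator_mem_commutator hvV g.2
        have h2 : ((c (g : ↥R ⧸ (S : Subgroup R)))⁻¹ * ⟨v, hvV⟩ : V) = (⟨⁅v, (g : G)⁆, hVR h⟩ : V) := by
          rw [mul_comm]
          refine Subtype.ext ?_
          show v * ((g : G) * v * (g : G)⁻¹)⁻¹ = ⁅v, (g : G)⁆
          rw [commutatorElement_def]; group
        rw [h2]
        exact Subgroup.mem_sup_left h
    have hpow : QuotientGroup.mk' N (⟨v, hvV⟩ : V) ^ (S : Subgroup R).index = 1 := by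
      have h1 : QuotientGroup.mk' N τ = 1 := (QuotientGroup.eq_one_iff _).2 (Subgroup.mem_subgroupOf.2 (Subgroup.mem_sup_right hτC))
      rw [hτ, map_prod, Finset.prod_congr rfl (fun q _ => hterm q), Finset.prod_const, Finset.card_univ,
        ← Nat.card_eq_fintype_card] at h1
      exact h1
    rw [← map_pow] at hpow
    have hm := Subgroup.mem_subgroupOf.1 ((QuotientGroup.eq_one_iff _).1 hpow)
    rw [SubgroupClass.coe_pow] at hm
    obtain ⟨r, hr⟩ := exists_pow_eq_self_of_coprime (x := v) (n := (S : Subgroup R).index) (by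
      refine Nat.Coprime.coprime_dvd_right (orderOf_dvd_of_pow_eq_one (hV.2 v hvV)) ?_
      exact ((Fact.out : p.Prime).coprime_iff_not_dvd.2 S.not_dvd_index).symm)
    rw [← hr]
    exact pow_mem hm r

end Cfsg.Agent.S2781
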