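import Cfsg.Statements.S2807
import Cfsg.Agent.TwoGroups.YoshidaTransfer

set_option autoImplicit false
set_option linter.style.haveILetI false
open Cfsg

namespace Cfsg.Agent.S2807

open Cfsg.Agent.TwoGroups

theorem coe_eng_iterate {G : Type*} [Group G] {H : Subgroup G} (z x : H) : ∀ n,
    (((Yoshida.eng z)^[n] x : H) : G) = (Yoshida.eng (z : G))^[n] (x : G)
  | 0 => rfl
  | n + 1 => by
    rw [Function.iterate_succ_apply', Function.iterate_succ_apply', ← coe_eng_iterate z x n]
    rfl

theorem factorization_factorial_sq (p : ℕ) [hp : Fact p.Prime] :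
    ((p ^ 2).factorial).factorization p = p + 1 := by
  rw [Nat.factorization_def _ hp.out, pow_two, padicValNat_factorial_mul]
  have h1 := padicValNat_factorial_mul (p := p) 1
  rw [mul_one] at h1
  simp [h1]
  omega

/-- A `p`-group with a singular pair on a maximal subgroup maps onto a Sylow `p`-subgroup of
`S_{p²}`. -/
theorem exists_surjective_of_singular {Γ : Type*} [Group Γ] [Finite Γ] {p : ℕ} [hp : Fact p.Prime]
    (hΓ : IsPGroup p Γ) (M : Subgroup Γ) (hM : IsCoatom M) (x z : Γ) (hx : x ∈ M) (hz : z ∉ M)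
    (hout : (Yoshida.eng z)^[p - 1] x ∉ (frattini M).map M.subtype) :
    ∃ (P : Sylow p (Equiv.Perm (Fin (p ^ 2)))) (f : Γ →* (P : Subgroup (Equiv.Perm (Fin (p ^ 2))))),
      Function.Surjective f := by
  classical
  haveI hMn : M.Normal := Cfsg.Agent.FGS3.normal_of_coatom hΓ hM
  have hMi : M.index = p := Cfsg.Agent.FGS3.index_of_coatom hΓ hM
  have hMz : ∀ y ∈ M, z⁻¹ * y * z ∈ M := fun y hy => by
    have := hMn.conj_mem y hy z⁻¹
    rwa [inv_inv] at this
  have hzp : z ^ p ∈ M := Subgroup.mem_carrier.mp (by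
    rw [← hMi]; exact M.pow_index_mem z)
  have hMp : IsPGroup p M := hΓ.to_subgroup M
  haveI : (frattini M).Characteristic := frattini_characteristic
  -- a maximal subgroup of `M` missing the singular element
  have hw : (Yoshida.eng z)^[p - 1] x ∈ M := by
    have key : ∀ n, (Yoshida.eng z)^[n] x ∈ M := by
      intro n
      induction n with
      | zero => exact hx
      | succ n ih =>
        rw [Function.iterate_succ_apply']
        have h := M.mul_mem (M.inv_mem ih) (hMz _ ih)
        simpa [Yoshida.eng, mul_assoc] using h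
    exact key _
  have hout' : (⟨_, hw⟩ : M) ∉ frattini M := fun h => hout ⟨_, h, rfl⟩
  obtain ⟨K', hK', hwK⟩ : ∃ K' : Subgroup M, IsCoatom K' ∧ (⟨_, hw⟩ : M) ∉ K' := by
    by_contra hcon
    push Not at hcon
    apply hout'
    simp only [frattini, Order.radical, Subgroup.mem_iInf]
    exact fun K' hK' => hcon K' hK'
  let K : Subgroup Γ := K'.map M.subtype
  have hKi : K.index = p ^ 2 := by
    rw [Subgroup.index_map_subtype, Cfsg.Agent.FGS3.index_of_coatom hMp hK', hMi, pow_two]
  set D : Subgroup Γ := K.normalCore with hD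
  have hDM : D ≤ M := (Subgroup.normalCore_le K).trans (Subgroup.map_subtype_le _)
  have hΦD : (frattini M).map M.subtype ≤ D := by
    rw [Subgroup.normal_le_normalCore]
    exact Subgroup.map_mono (frattini_le_coatom hK')
  -- the section `M / D`
  let DM : Subgroup M := D.subgroupOf M
  have hΦDM : frattini M ≤ DM := fun a ha => hΦD ⟨a, ha, rfl⟩
  letI : CommGroup (M ⧸ DM) :=
    { (inferInstance : Group (M ⧸ DM)) with
      mul_comm := fun a b => by
        induction a using QuotientGroup.induction_on with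
        | H a =>
        induction b using QuotientGroup.induction_on with
        | H b =>
        show (QuotientGroup.mk' DM a * QuotientGroup.mk' DM b) =
          QuotientGroup.mk' DM b * QuotientGroup.mk' DM a
        rw [← map_mul, ← map_mul]
        refine QuotientGroup.eq.mpr (hΦDM (Cfsg.Agent.FGS3.commutator_le_frattini hMp ?_))
        open scoped commutatorElement in
        rw [show (a * b)⁻¹ * (b * a) = ⁅b⁻¹, a⁻¹⁆ by rw [commutatorElement_def]; group]
        exact Subgroup.commutator_mem_commutator (Subgroup.mem_top _) (Subgroup.mem_top _) }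
  have hAp : ∀ a : M ⧸ DM, a ^ p = 1 := by
    intro a
    induction a using QuotientGroup.induction_on with
    | H a =>
      rw [← QuotientGroup.mk_pow, QuotientGroup.eq_one_iff]
      exact hΦDM (Cfsg.Agent.FGS3.pow_mem_frattini hMp a)
  let σ : M →* M := (((MulAut.conj z⁻¹).toMonoidHom.comp M.subtype).codRestrict M fun y => by
    show z⁻¹ * (y : Γ) * z⁻¹⁻¹ ∈ M
    rw [inv_inv]
    exact hMz _ y.2)
  have hσ : ∀ y : M, ((σ y : M) : Γ) = z⁻¹ * y * z := fun y => by
    show z⁻¹ * (y : Γ) * z⁻¹⁻¹ = _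
    rw [inv_inv]
  have hDn : D.Normal := Subgroup.normalCore_normal K
  let σA : M ⧸ DM →* M ⧸ DM := QuotientGroup.map DM DM σ fun y hy => by
    show ((σ y : M) : Γ) ∈ D
    rw [hσ]
    simpa using hDn.conj_mem (y : Γ) hy z⁻¹
  let δ : M ⧸ DM →* M ⧸ DM := (MonoidHom.id (M ⧸ DM))⁻¹ * σA
  let π : M →* M ⧸ DM := QuotientGroup.mk' DM
  have hδ : ∀ y : M, δ (π y) = π (y⁻¹ * σ y) := fun y => by
    show (π y)⁻¹ * σA (π y) = _
    rw [map_mul, map_inv]
    rfl
  have hiter : ∀ n, ∀ hn : (Yoshida.eng z)^[n] x ∈ M, δ^[n] (π ⟨x, hx⟩) = π ⟨_, hn⟩ := by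
    intro n
    induction n with
    | zero => intro hn; rfl
    | succ n ih =>
      intro hn
      have h1 : (Yoshida.eng z)^[n] x ∈ M := by
        exact (Yoshida.prod_conj_eq_iter hAp M π z hMz x hx).1 n
      rw [Function.iterate_succ_apply', ih h1, hδ]
      congr 1
      apply Subtype.ext
      simp [Function.iterate_succ_apply', hσ, Yoshida.eng, mul_assoc]
  obtain ⟨heng, hnorm⟩ := Yoshida.prod_conj_eq_iter hAp M π z hMz x hx
  have hx' : z⁻¹ * x * z ∈ M := hMz x hx
  obtain ⟨heng', hnorm'⟩ := Yoshida.prod_conj_eq_iter hAp M π z hMz (z⁻¹ * x * z) hx'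
  have hcomm : ∀ n, (Yoshida.eng z)^[n] (z⁻¹ * x * z) = z⁻¹ * (Yoshida.eng z)^[n] x * z := by
    intro n
    induction n with
    | zero => rfl
    | succ n ih =>
      rw [Function.iterate_succ_apply', Function.iterate_succ_apply', ih]
      simp only [Yoshida.eng]
      group
  have hlast : δ^[p] (π ⟨x, hx⟩) = 1 := by
    have hp1 : p = (p - 1) + 1 := (Nat.sub_add_cancel hp.out.one_lt.le).symm
    rw [hp1, Function.iterate_succ_apply', hiter (p - 1) (heng _), hδ, map_mul, map_inv,
      inv_mul_eq_one]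
    have e1 : π (σ ⟨_, heng (p - 1)⟩) = Yoshida.chi π ((Yoshida.eng z)^[p - 1] (z⁻¹ * x * z)) := by
      rw [Yoshida.chi_of_mem π (heng' _)]
      congr 1
      apply Subtype.ext
      rw [hσ]
      exact (hcomm (p - 1)).symm
    rw [e1, ← hnorm', ← Yoshida.chi_of_mem π (heng (p - 1)), ← hnorm]
    let a : ℕ → M ⧸ DM := fun i => Yoshida.chi π ((z ^ i)⁻¹ * x * z ^ i)
    have hshift : ∀ i : ℕ, Yoshida.chi π ((z ^ i)⁻¹ * (z⁻¹ * x * z) * z ^ i) = a (i + 1) := by
      intro i
      show _ = Yoshida.chi π ((z ^ (i + 1))⁻¹ * x * z ^ (i + 1))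
      rw [pow_succ']
      congr 1
      group
    have hap : a p = a 0 := by
      show Yoshida.chi π ((z ^ p)⁻¹ * x * z ^ p) = Yoshida.chi π ((z ^ 0)⁻¹ * x * z ^ 0)
      rw [Yoshida.chi_conj π hzp]
      simp
    rw [Finset.prod_congr rfl fun i _ => hshift i]
    apply mul_right_cancel (b := a 0)
    rw [← Finset.prod_range_succ' a p, ← hap, ← Finset.prod_range_succ a p]
  have hne : δ^[p - 1] (π ⟨x, hx⟩) ≠ 1 := by
    rw [hiter (p - 1) hw]
    intro h1
    have h2 : (Yoshida.eng z)^[p - 1] x ∈ D :=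
      (QuotientGroup.eq_one_iff (⟨_, hw⟩ : M)).mp h1
    obtain ⟨k, hk, hke⟩ := Subgroup.normalCore_le K h2
    apply hwK
    rwa [show (⟨_, hw⟩ : M) = k from Subtype.ext hke.symm]
  -- a strictly increasing chain of kernels
  have hA : IsPGroup p (M ⧸ DM) := hMp.to_quotient _
  let L : ℕ → Subgroup (M ⧸ DM) := fun j => (Subgroup.comap δ)^[j] ⊥
  have hL : ∀ j y, y ∈ L j ↔ δ^[j] y = 1 := by
    intro j
    induction j with
    | zero => intro y; exact Subgroup.mem_bot
    | succ j ih =>
      intro y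
      show y ∈ (Subgroup.comap δ)^[j + 1] ⊥ ↔ _
      rw [Function.iterate_succ_apply' (Subgroup.comap δ), Function.iterate_succ_apply,
        Subgroup.mem_comap]
      exact ih (δ y)
  have hchain : ∀ j ≤ p, p ^ j ≤ Nat.card (L j) := by
    intro j hj
    induction j with
    | zero => exact le_of_eq_of_le (pow_zero p) Nat.card_pos
    | succ j ih =>
      have hlt : L j < L (j + 1) := by
        refine lt_of_le_of_ne (fun y hy => ?_) fun he => ?_
        · rw [hL] at hy ⊢
          rw [Function.iterate_succ_apply', hy, map_one]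
        · have hy : δ^[p - 1 - j] (π ⟨x, hx⟩) ∈ L (j + 1) := by
            rw [hL, ← Function.iterate_add_apply, show j + 1 + (p - 1 - j) = p by omega]
            exact hlast
          rw [← he, hL, ← Function.iterate_add_apply, show j + (p - 1 - j) = p - 1 by omega] at hy
          exact hne hy
      obtain ⟨e₁, he₁⟩ := (hA.to_subgroup (L j)).exists_card_eq
      obtain ⟨e₂, he₂⟩ := (hA.to_subgroup (L (j + 1))).exists_card_eq
      have hcl : Nat.card (L j) < Nat.card (L (j + 1)) := Set.Finite.card_lt_card (Set.toFinite _) hlt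
      rw [he₂]
      rw [he₁, he₂, Nat.pow_lt_pow_iff_right hp.out.one_lt] at hcl
      refine Nat.pow_le_pow_right hp.out.pos ?_
      have h3 := ih (by omega)
      rw [he₁, Nat.pow_le_pow_iff_right hp.out.one_lt] at h3
      omega
  have hcard : p ^ (p + 1) ≤ Nat.card (Γ ⧸ D) := by
    have h1 : p ^ p ≤ Nat.card (M ⧸ DM) := (hchain p le_rfl).trans (Subgroup.card_le_card_group _)
    have h2 : D.index = DM.index * M.index := by
      rw [← Subgroup.relIndex_mul_index hDM]
      rfl
    rw [← Subgroup.index_eq_card, h2, hMi, pow_succ]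
    rw [← Subgroup.index_eq_card] at h1
    exact Nat.mul_le_mul_right p h1
  -- the permutation representation
  haveI : Fintype (Γ ⧸ K) := Fintype.ofFinite _
  obtain ⟨e⟩ : Nonempty ((Γ ⧸ K) ≃ Fin (p ^ 2)) :=
    ⟨(Finite.equivFin _).trans (finCongr (by rw [← Subgroup.index_eq_card, hKi]))⟩
  let f : Γ →* Equiv.Perm (Fin (p ^ 2)) :=
    e.permCongrHom.toMonoidHom.comp (MulAction.toPermHom Γ (Γ ⧸ K))
  have hker : f.ker = D := by
    rw [hD, Subgroup.normalCore_eq_ker]
    ext a
    exact ⟨fun ha => MonoidHom.mem_ker.mpr (e.permCongrHom.injective (by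
      rw [map_one]; exact MonoidHom.mem_ker.mp ha)), fun ha => by
        rw [MonoidHom.mem_ker] at ha ⊢
        show e.permCongrHom _ = 1
        rw [ha, map_one]⟩
  have hfr : IsPGroup p f.range := hΓ.of_surjective f.rangeRestrict f.rangeRestrict_surjective
  obtain ⟨P, hP⟩ := hfr.exists_le_sylow
  refine ⟨P, f.codRestrict _ (fun a => hP ⟨a, rfl⟩), ?_⟩
  have heq : f.range = (P : Subgroup (Equiv.Perm (Fin (p ^ 2)))) := by
    refine Subgroup.eq_of_le_of_card_ge hP ?_
    have h1 : Nat.card (P : Subgroup (Equiv.Perm (Fin (p ^ 2)))) = p ^ (p + 1) := by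
      rw [Sylow.card_eq_multiplicity, Nat.card_perm, Nat.card_fin, factorization_factorial_sq]
    rw [h1, ← Nat.card_congr (QuotientGroup.quotientKerEquivRange f).toEquiv, hker]
    exact hcard
  rintro ⟨y, hy⟩
  obtain ⟨a, ha⟩ := heq.symm ▸ hy
  exact ⟨a, Subtype.ext ha⟩

/-- Let S be a Sylow p-subgroup of the finite group G. If S ∩ G' ≠ S ∩ (N_G(S))' (derived subgroups), then the wreath product Z_p ≀ Z_p — realised as a Sylow p-subgroup of the symmetric group of degree p² — is a homomorphic image of S. -/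
theorem result {G : Type*} [Group G] [Finite G] {p : ℕ} [Fact p.Prime] (S : Sylow p G) (h : (S : Subgroup G) ⊓ commutator G ≠ (S : Subgroup G) ⊓ ⁅Subgroup.normalizer ((S : Subgroup G) : Set G), Subgroup.normalizer ((S : Subgroup G) : Set G)⁆) : ∃ (P : Sylow p (Equiv.Perm (Fin (p ^ 2)))) (f : ↥(S : Subgroup G) →* ↥(P : Subgroup (Equiv.Perm (Fin (p ^ 2))))), Function.Surjective f := by
    have hWw : Cfsg.IsWeaklyClosed (S : Subgroup G) (S : Subgroup G) :=
      ⟨le_rfl, fun g hg => Subgroup.eq_of_le_of_card_ge hg (Cfsg.Agent.Transfer.card_map_conj g _).ge⟩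
    obtain ⟨x, hx, z, hz, M, hMS, hxM, hzM, hMz, hzp, hco, hin, hout⟩ :
        ∃ x ∈ (S : Subgroup G), ∃ z ∈ (S : Subgroup G), ∃ M : Subgroup G, M ≤ (S : Subgroup G) ∧
          x ∈ M ∧ z ∉ M ∧ (∀ y ∈ M, z⁻¹ * y * z ∈ M) ∧ z ^ p ∈ M ∧
          IsCoatom (M.subgroupOf (S : Subgroup G)) ∧
          (Yoshida.eng z)^[p - 1] x ∈ (M.subgroupOf (S : Subgroup G)).map (S : Subgroup G).subtype ∧
          (Yoshida.eng z)^[p - 1] x ∉ ((frattini ↥(M.subgroupOf (S : Subgroup G))).map
            (M.subgroupOf (S : Subgroup G)).subtype).map (S : Subgroup G).subtype := by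
      by_contra hcon
      apply h
      refine Yoshida.inf_commutator_eq S _ hWw ?_
      intro x hx z hz M h1 h2 h3 h4 h5 h6 h7
      by_contra h8
      exact hcon ⟨x, hx, z, hz, M, h1, h2, h3, h4, h5, h6, h7, h8⟩
    exact exists_surjective_of_singular S.2 (M.subgroupOf (S : Subgroup G)) hco ⟨x, hx⟩ ⟨z, hz⟩
      hxM hzM (by
        intro hmem
        apply hout
        refine ⟨_, hmem, ?_⟩
        show ((Yoshida.eng (⟨z, hz⟩ : (S : Subgroup G)))^[p - 1] ⟨x, hx⟩ : G) = _
        exact coe_eng_iterate _ _ _)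

end Cfsg.Agent.S2807
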