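import Cfsg.Statements.S2941


set_option autoImplicit false
set_option linter.style.haveILetI false
open scoped commutatorElement
open Cfsg

namespace Cfsg.Agent.S2941

variable {G : Type*} [Group G] [Finite G]

theorem isPGroup_thompson {T : Subgroup G} (hT : IsPGroup 2 ↥T) :
    IsPGroup 2 ↥(Cfsg.thompsonSubgroupOf 2 T) :=
  hT.to_le (Subgroup.map_subtype_le _)

theorem normalizes_of_commutator {K J Q : Subgroup G}
    (hgen : Subgroup.closure {g : G | g ∈ K ∧ Odd (orderOf g)} = K) (hKJ : ⁅K, J⁆ = K)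
    (hJ : IsPGroup 2 ↥J) (hQ1 : K ⊔ J ≤ Subgroup.normalizer (Q : Set G))
    (hQ2 : Q ≤ Subgroup.normalizer (J : Set G)) : Q ≤ Subgroup.normalizer (K : Set G) := by
  haveI : Fact (Nat.Prime 2) := ⟨Nat.prime_two⟩
  set X := K ⊔ J with hX
  set H := X ⊔ Q with hH
  have hJK : J ≤ Subgroup.normalizer (K : Set G) := by
    rw [← hKJ]; exact Subgroup.normalizer_commutator_ge_right K J
  -- `X` is the normal closure of `J` in `H`, hence `Q` normalizes it
  have hQX : Q ≤ Subgroup.normalizer (X : Set G) := by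
    intro q hq
    have key : ∀ q ∈ Q, ∀ k ∈ K, ∀ j ∈ J, q * ⁅k, j⁆ * q⁻¹ ∈ X := by
      intro q hq k hk j hj
      -- `q k = k q₁` with `q₁ ∈ Q`
      have hq1 : k⁻¹ * q * k ∈ Q := by
        have h1 := (Subgroup.mem_normalizer_iff.mp
          (Subgroup.inv_mem _ (hQ1 (Subgroup.mem_sup_left hk))) q).mp hq
        simpa using h1
      set q₁ := k⁻¹ * q * k with hq₁
      have h2 : q₁ * j * q₁⁻¹ ∈ J := (Subgroup.mem_normalizer_iff.mp (hQ2 hq1) j).mp hj
      have h3 : q * j * q⁻¹ ∈ J := (Subgroup.mem_normalizer_iff.mp (hQ2 hq) j).mp hj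
      have h4 : q * ⁅k, j⁆ * q⁻¹ = k * (q₁ * j * q₁⁻¹) * k⁻¹ * (q * j * q⁻¹)⁻¹ := by
        rw [hq₁, commutatorElement_def]; group
      rw [h4]
      exact X.mul_mem (X.mul_mem (X.mul_mem (Subgroup.mem_sup_left hk) (Subgroup.mem_sup_right h2))
        (X.inv_mem (Subgroup.mem_sup_left hk))) (X.inv_mem (Subgroup.mem_sup_right h3))
    refine Subgroup.mem_normalizer_iff.mpr fun x => ?_
    have hle : ∀ q ∈ Q, ∀ x ∈ X, q * x * q⁻¹ ∈ X := by
      intro q hq x hx
      have : X ≤ X.comap (MulAut.conj q).toMonoidHom := by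
        rw [hX]
        refine sup_le ?_ fun j hj => Subgroup.mem_sup_right
          ((Subgroup.mem_normalizer_iff.mp (hQ2 hq) j).mp hj)
        conv_lhs => rw [← hKJ]
        rw [Subgroup.commutator_le]
        exact fun k hk j hj => key q hq k hk j hj
      exact this hx
    refine ⟨hle q hq x, fun h => ?_⟩
    have h2 := hle q⁻¹ (Q.inv_mem hq) _ h
    simpa [mul_assoc] using h2
  -- odd elements of `X` lie in `K`
  haveI hn : (K.subgroupOf X).Normal :=
    (Subgroup.normal_subgroupOf_iff_le_normalizer le_sup_left).mpr (sup_le Subgroup.le_normalizer hJK)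
  have hodd : ∀ x ∈ X, Odd (orderOf x) → x ∈ K := by
    intro x hx hxo
    have hsup : K.subgroupOf X ⊔ J.subgroupOf X = ⊤ := by
      rw [← Subgroup.subgroupOf_sup le_sup_left le_sup_right, Subgroup.subgroupOf_self]
    obtain ⟨⟨k, _⟩, hk, ⟨j, _⟩, hj, he⟩ :=
      Subgroup.mem_sup_of_normal_left.mp (hsup.symm ▸ Subgroup.mem_top (⟨x, hx⟩ : ↥X))
    obtain rfl : k * j = x := congrArg Subtype.val he
    replace hk : k ∈ K := hk
    replace hj : j ∈ J := hj
    set π := QuotientGroup.mk' (K.subgroupOf X)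
    have h1 : π ⟨k * j, hx⟩ = π ⟨j, Subgroup.mem_sup_right hj⟩ := by
      refine QuotientGroup.eq.mpr ?_
      show (k * j)⁻¹ * j ∈ K
      have := (Subgroup.mem_normalizer_iff.mp (hJK (J.inv_mem hj)) k⁻¹).mp (K.inv_mem hk)
      simpa [mul_assoc] using this
    have h2 : orderOf (π ⟨k * j, hx⟩) ∣ orderOf (k * j) :=
      (orderOf_map_dvd π _).trans (dvd_of_eq (Subgroup.orderOf_mk _ _))
    obtain ⟨n, hn'⟩ := hJ ⟨j, hj⟩
    have h3 : orderOf (π ⟨j, Subgroup.mem_sup_right hj⟩) ∣ 2 ^ n := by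
      refine (orderOf_map_dvd π _).trans ?_
      rw [Subgroup.orderOf_mk]
      exact orderOf_dvd_of_pow_eq_one (congrArg Subtype.val hn')
    rw [← h1] at h3
    have h4 : orderOf (π ⟨k * j, hx⟩) = 1 := Nat.eq_one_of_dvd_coprimes
      (((Nat.coprime_two_right).mpr hxo).pow_right n) h2 h3
    have h5 : π ⟨k * j, hx⟩ = 1 := orderOf_eq_one_iff.mp h4
    have h6 : (⟨k * j, hx⟩ : ↥X) ∈ K.subgroupOf X := (QuotientGroup.eq_one_iff _).mp h5
    exact h6
  intro q hq
  refine Subgroup.mem_normalizer_iff.mpr fun x => ?_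
  have hle : ∀ q ∈ Q, ∀ x ∈ K, q * x * q⁻¹ ∈ K := by
    intro q hq x hx
    have : K ≤ K.comap (MulAut.conj q).toMonoidHom := by
      conv_lhs => rw [← hgen]
      rw [Subgroup.closure_le]
      rintro g ⟨hg, hgo⟩
      exact hodd _ ((Subgroup.mem_normalizer_iff.mp (hQX hq) g).mp (Subgroup.mem_sup_left hg))
        (((MulAut.conj q).orderOf_eq g).symm ▸ hgo)
    exact this hx
  refine ⟨hle q hq x, fun h => ?_⟩
  have h2 := hle q⁻¹ (Q.inv_mem hq) _ h
  simpa [mul_assoc] using h2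

/-- Let G be a finite group of characteristic 2 type in which every 2-local subgroup is solvable and the centralizer of Ω₁(Z(S)) lies in N_G(S) for every Sylow 2-subgroup S, and let T be a nontrivial 2-subgroup and K a J(T)-component (J the Thompson subgroup generated by the elementary abelian 2-subgroups of largest order). If a subgroup Q is normalized by ⟨K, J(T)⟩ and normalizes J(T), then Q normalizes K. -/
theorem result {G : Type*} [Group G] [Finite G] (hL : Cfsg.IsCharacteristicTwoType G) (hN : ∀ N : Subgroup G, Cfsg.IsTwoLocal N → Group.IsSolvable ↥N)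
    (hZ : ∀ S : Sylow 2 G, Subgroup.centralizer (Cfsg.omegaCenterOf (S : Subgroup G) : Set G) ≤ Subgroup.normalizer ((S : Subgroup G) : Set G)) (T : Subgroup G) (hT : IsPGroup 2 ↥T) (hT1 : T ≠ ⊥) (K : Subgroup G) (hK : Cfsg.IsJComponent T K)
    (Q : Subgroup G) (hQ1 : K ⊔ Cfsg.thompsonSubgroupOf 2 T ≤ Subgroup.normalizer (Q : Set G)) (hQ2 : Q ≤ Subgroup.normalizer (Cfsg.thompsonSubgroupOf 2 T : Set G)) :
    Q ≤ Subgroup.normalizer (K : Set G) := by
    haveI : Fact (Nat.Prime 2) := ⟨Nat.prime_two⟩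
    obtain ⟨hgen, hKJ, -⟩ := hK
    exact normalizes_of_commutator hgen hKJ (isPGroup_thompson hT) hQ1 hQ2

end Cfsg.Agent.S2941
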