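import Cfsg.Statements.S2947
import Cfsg.Agent.OddLocal.ThreeStep
import Cfsg.Agent.Transfer.Basic

set_option autoImplicit false
set_option linter.style.haveILetI false
open Cfsg

namespace Cfsg.Agent.S2947

variable {G : Type*} [Group G] [Finite G]

theorem exists_central_involution {U : Subgroup G} (hU : IsPGroup 2 ↥U) (hU1 : U ≠ ⊥) :
    ∃ z ∈ U, orderOf z = 2 ∧ ∀ u ∈ U, u * z = z * u := by
  haveI : Fact (Nat.Prime 2) := ⟨Nat.prime_two⟩
  haveI := (Subgroup.nontrivial_iff_ne_bot U).mpr hU1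
  haveI := hU.center_nontrivial
  obtain ⟨k, hk, hkc⟩ := (hU.to_subgroup (Subgroup.center ↥U)).nontrivial_iff_card.mp inferInstance
  obtain ⟨z, hz⟩ := exists_prime_orderOf_dvd_card' (G := Subgroup.center ↥U) 2
    (hkc ▸ dvd_pow_self 2 hk.ne')
  exact ⟨((z : ↥U) : G), (z : ↥U).2, by rw [Subgroup.orderOf_coe, Subgroup.orderOf_coe, hz],
    fun u hu => congrArg Subtype.val (Subgroup.mem_center_iff.mp z.2 ⟨u, hu⟩)⟩

theorem mem_of_centralizes {M : Subgroup G} (hSE : Cfsg.IsStronglyEmbedded M) {t g : G}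
    (ht : t ∈ M) (hto : orderOf t = 2) (hg : g⁻¹ * t * g ∈ M) : g ∈ M := by
  by_contra h
  have hmem : t ∈ M ⊓ M.map (MulAut.conj g).toMonoidHom :=
    ⟨ht, g⁻¹ * t * g, hg, by simp [mul_assoc]⟩
  have h2 := Subgroup.orderOf_dvd_natCard _ hmem
  rw [hto] at h2
  exact (Nat.not_even_iff_odd.mpr (hSE.2.2 g h)) (even_iff_two_dvd.mpr h2)

theorem normalizer_le_of_stronglyEmbedded {M T U : Subgroup G} (hSE : Cfsg.IsStronglyEmbedded M)
    (hT : IsPGroup 2 ↥T) (hT1 : T ≠ ⊥) (hTM : T ≤ M) (hU : IsPGroup 2 ↥U) (hU1 : U ≠ ⊥)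
    (hTU : T ≤ Subgroup.normalizer (U : Set G)) : Subgroup.normalizer (U : Set G) ≤ M := by
  haveI : Fact (Nat.Prime 2) := ⟨Nat.prime_two⟩
  have hP : IsPGroup 2 ↥(T ⊔ U : Subgroup G) := hT.to_sup_of_normal_right' hU hTU
  obtain ⟨z, -, hzo, hzc⟩ := exists_central_involution hP (fun h => hT1 (le_bot_iff.mp
    (le_sup_left.trans h.le)))
  obtain ⟨t, htT, hto, -⟩ := exists_central_involution hT hT1
  have hzM : z ∈ M := by
    refine mem_of_centralizes hSE (hTM htT) hto ?_
    rw [mul_assoc, hzc t (Subgroup.mem_sup_left htT), inv_mul_cancel_left]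
    exact hTM htT
  have hUM : U ≤ M := fun u hu => by
    refine mem_of_centralizes hSE hzM hzo ?_
    rw [mul_assoc, ← hzc u (Subgroup.mem_sup_right hu), inv_mul_cancel_left]
    exact hzM
  obtain ⟨v, hvU, hvo, -⟩ := exists_central_involution hU hU1
  intro n hn
  refine mem_of_centralizes hSE (hUM hvU) hvo (hUM ?_)
  have h1 := (Subgroup.mem_normalizer_iff.mp (Subgroup.inv_mem _ hn) v).mp hvU
  simpa using h1

theorem stronglyEmbedded_of_closed (S : Sylow 2 G) (hO : Cfsg.pCore 2 G = ⊥) {R : Subgroup G}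
    (hR : IsPGroup 2 ↥R) (hR1 : R ≠ ⊥)
    (hSM : (S : Subgroup G) ≤ Subgroup.normalizer (R : Set G))
    (hNSM : Subgroup.normalizer ((S : Subgroup G) : Set G) ≤ Subgroup.normalizer (R : Set G))
    (hC : ∀ x ∈ Subgroup.normalizer (R : Set G), orderOf x = 2 →
      Subgroup.centralizer ({x} : Set G) ≤ Subgroup.normalizer (R : Set G)) :
    Cfsg.IsStronglyEmbedded (Subgroup.normalizer (R : Set G)) := by
  haveI : Fact (Nat.Prime 2) := ⟨Nat.prime_two⟩
  set M := Subgroup.normalizer (R : Set G) with hM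
  refine ⟨fun h => hR1 ?_, ?_, fun g hg => ?_⟩
  · haveI : R.Normal := Subgroup.normalizer_eq_top_iff.mp h
    exact le_bot_iff.mp (hO ▸ Cfsg.Agent.Core.le_pCore ‹R.Normal› hR)
  · obtain ⟨r, hr, hro, -⟩ := exists_central_involution hR hR1
    rw [even_iff_two_dvd, ← hro]
    exact Subgroup.orderOf_dvd_natCard _ (Subgroup.le_normalizer hr)
  rw [← Nat.not_even_iff_odd, even_iff_two_dvd]
  intro hdvd
  apply hg
  obtain ⟨⟨x, hxM, hxg⟩, hxo⟩ := exists_prime_orderOf_dvd_card' 2 hdvd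
  replace hxo : orderOf x = 2 := (Subgroup.orderOf_coe _).trans hxo
  obtain ⟨y, hy, hyx⟩ := hxg
  have hyx' : g * y * g⁻¹ = x := hyx
  have hyo : orderOf y = 2 := by
    rw [← hxo, ← hyx']
    exact ((MulAut.conj g).orderOf_eq y).symm
  -- move both involutions into `S`
  have hsyl : ∀ w ∈ M, orderOf w = 2 → ∃ m ∈ M, m * w * m⁻¹ ∈ (S : Subgroup G) := by
    intro w hw hwo
    have hp : IsPGroup 2 ↥(Subgroup.zpowers (⟨w, hw⟩ : ↥M)) :=
      IsPGroup.of_card (n := 1) (by rw [Nat.card_zpowers, Subgroup.orderOf_mk, hwo, pow_one])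
    obtain ⟨c, hc⟩ := Cfsg.Agent.Transfer.exists_map_conj_le_sylow (S.subtype hSM) hp
    exact ⟨c, c.2, hc ⟨⟨w, hw⟩, Subgroup.mem_zpowers _, rfl⟩⟩
  obtain ⟨a, ha, hau⟩ := hsyl x hxM hxo
  obtain ⟨b, hb, hbv⟩ := hsyl y hy hyo
  set u := a * x * a⁻¹ with hu
  set v := b * y * b⁻¹ with hv
  set h := b * g⁻¹ * a⁻¹ with hh
  have huv : h * u * h⁻¹ = v := by
    rw [hu, hv, hh, ← hyx']; group
  have hfin : h ∈ M → g ∈ M := by
    intro h'
    have := M.inv_mem (M.mul_mem (M.mul_mem (M.inv_mem hb) h') ha)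
    simpa [hh, mul_assoc] using this
  apply hfin
  have hS1 : (S : Subgroup G) ≠ ⊥ := by
    intro hbot
    rw [hbot, Subgroup.mem_bot] at hau
    have : orderOf u = 2 := by rw [hu, ← hxo]; exact (MulAut.conj a).orderOf_eq x
    rw [show u = 1 from hau, orderOf_one] at this
    omega
  obtain ⟨z, hzS, hzo, hzc⟩ := exists_central_involution S.2 hS1
  have huo : orderOf u = 2 := by rw [hu, ← hxo]; exact (MulAut.conj a).orderOf_eq x
  have hvo : orderOf v = 2 := by rw [hv, ← hyo]; exact (MulAut.conj b).orderOf_eq y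
  -- `z' = h z h⁻¹` centralizes `v`
  set z' := h * z * h⁻¹ with hz'
  have hz'M : z' ∈ M := by
    refine hC v (hSM hbv) hvo ?_
    rw [Subgroup.mem_centralizer_singleton_iff, hz', ← huv]
    calc h * z * h⁻¹ * (h * u * h⁻¹) = h * (z * u) * h⁻¹ := by group
      _ = h * (u * z) * h⁻¹ := by rw [hzc u hau]
      _ = h * u * h⁻¹ * (h * z * h⁻¹) := by group
  have hz'o : orderOf z' = 2 := by rw [hz', ← hzo]; exact (MulAut.conj h).orderOf_eq z
  have hSh : (S : Subgroup G).map (MulAut.conj h).toMonoidHom ≤ M := by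
    rintro _ ⟨s, hs, rfl⟩
    refine hC z' hz'M hz'o ?_
    show h * s * h⁻¹ ∈ _
    rw [Subgroup.mem_centralizer_singleton_iff, hz']
    calc h * s * h⁻¹ * (h * z * h⁻¹) = h * (s * z) * h⁻¹ := by group
      _ = h * (z * s) * h⁻¹ := by rw [hzc s hs]
      _ = h * z * h⁻¹ * (h * s * h⁻¹) := by group
  have hp : IsPGroup 2 ↥(((S : Subgroup G).map (MulAut.conj h).toMonoidHom).subgroupOf M) :=
    (S.2.map _).comap_subtype
  obtain ⟨c, hc⟩ := Cfsg.Agent.Transfer.exists_map_conj_le_sylow (S.subtype hSM) hp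
  have hle : (S : Subgroup G).map (MulAut.conj ((c : G) * h)).toMonoidHom ≤ (S : Subgroup G) := by
    rintro _ ⟨s, hs, rfl⟩
    have h1 := hc ⟨⟨h * s * h⁻¹, hSh ⟨s, hs, rfl⟩⟩, ⟨s, hs, rfl⟩, rfl⟩
    simpa [Subgroup.mem_subgroupOf, mul_assoc] using h1
  have hcn : (c : G) * h ∈ Subgroup.normalizer ((S : Subgroup G) : Set G) :=
    Cfsg.Agent.Transfer.mem_normalizer_iff_map_conj.mpr
      (Subgroup.eq_of_le_of_card_ge hle (Cfsg.Agent.Transfer.card_map_conj _ _).ge)
  have := M.mul_mem (M.inv_mem c.2) (hNSM hcn)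
  simpa [mul_assoc] using this

/-- Let G be a finite group of characteristic 2 type in which every 2-local subgroup is solvable and the centralizer of Ω₁(Z(S)) lies in N_G(S) for every Sylow 2-subgroup S; suppose O₂(G) = 1, fix a Sylow 2-subgroup S and a 2-local subgroup M containing N_G(J(S)) (J the Thompson subgroup generated by the elementary abelian 2-subgroups of largest order). Then M is strongly embedded in G (a proper subgroup of even order whose intersection with each conjugate by an element outside M has odd order) if and only if no nontrivial 2-subgroup of M lies in a 2-local subgroup of G not contained in M. -/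
theorem result {G : Type*} [Group G] [Finite G] (hL : Cfsg.IsCharacteristicTwoType G) (hN : ∀ N : Subgroup G, Cfsg.IsTwoLocal N → Group.IsSolvable ↥N)
    (hZ : ∀ S : Sylow 2 G, Subgroup.centralizer (Cfsg.omegaCenterOf (S : Subgroup G) : Set G) ≤ Subgroup.normalizer ((S : Subgroup G) : Set G)) (hO : Cfsg.pCore 2 G = ⊥) (S : Sylow 2 G) (M : Subgroup G) (hM : Cfsg.IsTwoLocal M)
    (hMJ : Subgroup.normalizer (Cfsg.thompsonSubgroupOf 2 (S : Subgroup G) : Set G) ≤ M) :
    Cfsg.IsStronglyEmbedded M ↔ Cfsg.straddlingTwoSubgroups M = ∅ := by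
    haveI : Fact (Nat.Prime 2) := ⟨Nat.prime_two⟩
    obtain ⟨R, hR, hR1, rfl⟩ := hM
    set M := Subgroup.normalizer (R : Set G) with hMdef
    have hSM : (S : Subgroup G) ≤ M :=
      (Subgroup.le_normalizer.trans
        (Cfsg.Agent.OddLocal.normalizer_le_normalizer_thompson 2 _)).trans hMJ
    have hNSM : Subgroup.normalizer ((S : Subgroup G) : Set G) ≤ M :=
      (Cfsg.Agent.OddLocal.normalizer_le_normalizer_thompson 2 _).trans hMJ
    constructor
    · intro hSE
      rw [Set.eq_empty_iff_forall_notMem]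
      rintro T ⟨hT, hT1, hTM, L, ⟨U, hU, hU1, rfl⟩, hTL, hLM⟩
      exact hLM (normalizer_le_of_stronglyEmbedded hSE hT hT1 hTM hU hU1 hTL)
    · intro hempty
      refine stronglyEmbedded_of_closed S hO hR hR1 hSM hNSM ?_
      intro x hxM hx
      by_contra hcon
      have hz : IsPGroup 2 ↥(Subgroup.zpowers x) :=
        IsPGroup.of_card (n := 1) (by rw [Nat.card_zpowers, hx, pow_one])
      have hz1 : Subgroup.zpowers x ≠ ⊥ := Subgroup.zpowers_ne_bot.mpr (by
        rintro rfl; rw [orderOf_one] at hx; omega)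
      have hmem : Subgroup.zpowers x ∈ Cfsg.straddlingTwoSubgroups M :=
        ⟨hz, hz1, Subgroup.zpowers_le.mpr hxM, Subgroup.normalizer (Subgroup.zpowers x : Set G),
          ⟨_, hz, hz1, rfl⟩, Subgroup.le_normalizer, fun hle => hcon (le_trans (by
            rw [← Subgroup.centralizer_closure, ← Subgroup.zpowers_eq_closure]
            exact Subgroup.centralizer_le_normalizer _) hle)⟩
      rw [hempty] at hmem
      exact hmem

end Cfsg.Agent.S2947
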