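import Cfsg.Statements.S3084
import Cfsg.Agent.LocalEven.PlusExtraspecial
import Cfsg.Agent.FGS3.PGroupFrattini

set_option autoImplicit false
open Cfsg

namespace Cfsg.Agent.S3084

/-- Let K be a group acting faithfully and linearly on a finite-dimensional vector space U of dimension 2n ≥ 2 over the field with two elements, preserving a quadratic form q whose polar bilinear form is non-degenerate and which vanishes on some n-dimensional subspace (a non-singular form of plus type). Then there is a finite group R with a normal extraspecial 2-subgroup Q of order 2^(2n+1), an isomorphism of R/Q with K, and a surjective homomorphism χ from Q onto (the additive group of) U with kernel the centre of Q, such that χ carries conjugation by any r in R to the action of the image of r in K, and an element a of Q squares to the identity exactly when q vanishes at χ(a). -/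
theorem result {K : Type*} [Group K] {U : Type*} [AddCommGroup U] [Module (ZMod 2) U] [Module.Finite (ZMod 2) U] (n : ℕ) (hn1 : 1 ≤ n) (hn : Module.finrank (ZMod 2) U = 2 * n) (ρ : Representation (ZMod 2) K U) (hρ : Function.Injective ρ) (q : QuadraticForm (ZMod 2) U) (hq : ∀ (k : K) (u : U), q (ρ k u) = q u) (hnd : (QuadraticMap.polarBilin q).Nondegenerate) (hplus : ∃ W : Submodule (ZMod 2) U, Module.finrank (ZMod 2) ↥W = n ∧ ∀ w ∈ W, q w = 0) : ∃ (R : Type) (_ : Group R) (_ : Finite R) (Q : Subgroup R) (hN : Q.Normal) (e : R ⧸ Q ≃* K) (χ : ↥Q →* Multiplicative U), Cfsg.IsExtraspecial 2 ↥Q ∧ Nat.card ↥Q = 2 ^ (2 * n + 1) ∧ Function.Surjective χ ∧ χ.ker = Subgroup.center ↥Q ∧ (∀ (r : R) (a : ↥Q), χ ⟨r * a * r⁻¹, hN.conj_mem (a : R) a.2 r⟩ = Multiplicative.ofAdd (ρ (e (r : R ⧸ Q)) (Multiplicative.toAdd (χ a)))) ∧ ∀ a : ↥Q, a * a = 1 ↔ q (Multiplicative.toAdd (χ a)) = 0 := by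
  open Cfsg.Agent.LocalEven.PlusExtraspecial in
  open scoped commutatorElement in
  classical
  obtain ⟨W, hW, hqW⟩ := hplus
  obtain ⟨η, hη⟩ := exists_coord (n := n) q hnd hn W hW hqW
  -- the action in coordinates
  let τ : K → (U ≃ₗ[ZMod 2] U) := fun k => LinearEquiv.ofLinear (ρ k) (ρ k⁻¹)
    (LinearMap.ext fun x => by show (ρ k * ρ k⁻¹) x = x; rw [← map_mul, mul_inv_cancel, map_one]; rfl)
    (LinearMap.ext fun x => by show (ρ k⁻¹ * ρ k) x = x; rw [← map_mul, inv_mul_cancel, map_one]; rfl)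
  let σ : K →* (P n ≃ₗ[ZMod 2] P n) :=
    MonoidHom.mk' (fun k => η.trans ((τ k).trans η.symm)) fun k l => by
      refine LinearEquiv.ext fun u => ?_
      show η.symm (ρ (k * l) (η u)) = η.symm (ρ k (η (η.symm (ρ l (η u)))))
      rw [η.apply_symm_apply, map_mul]; rfl
  have hσe : ∀ k u, η (σ k u) = ρ k (η u) := fun k u => η.apply_symm_apply _
  have hσi : Function.Injective σ := by
    intro k l h
    refine hρ (LinearMap.ext fun x => ?_)
    obtain ⟨u, rfl⟩ := η.surjective x
    rw [← hσe, ← hσe, h]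
  have hσq : ∀ k u, dot (σ k u).1 (σ k u).2 = dot u.1 u.2 := fun k u => by
    rw [← hη, ← hη, hσe, hq]
  -- the group
  let R₀ : Subgroup ((V n ≃ₗ[ZMod 3] V n) × (P n ≃ₗ[ZMod 2] P n)) :=
    { carrier := {x | x.2 ∈ σ.range ∧ Rel x.1 x.2}
      one_mem' := ⟨one_mem _, rel_one⟩
      mul_mem' := fun {a b} ha hb => ⟨mul_mem ha.1 hb.1, rel_mul ha.2 hb.2⟩
      inv_mem' := fun {a} ha => ⟨inv_mem ha.1, rel_inv ha.2⟩ }
  haveI : Finite (V n ≃ₗ[ZMod 3] V n) := Finite.of_injective _ DFunLike.coe_injective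
  haveI : Finite (P n ≃ₗ[ZMod 2] P n) := Finite.of_injective _ DFunLike.coe_injective
  let π : ↥R₀ →* ↥σ.range := ((MonoidHom.snd _ _).comp R₀.subtype).codRestrict σ.range fun x => x.2.1
  have hπ : Function.Surjective π := by
    rintro ⟨_, k, rfl⟩
    obtain ⟨g, hg⟩ := exists_rel (σ k) (hσq k)
    exact ⟨⟨(g, σ k), ⟨k, rfl⟩, hg⟩, Subtype.ext rfl⟩
  let e : ↥R₀ ⧸ π.ker ≃* K := (QuotientGroup.quotientKerEquivOfSurjective π hπ).trans (MonoidHom.ofInjective hσi).symm
  have he : ∀ r : ↥R₀, σ (e (r : ↥R₀ ⧸ π.ker)) = r.1.2 := fun r =>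
    congrArg Subtype.val ((MonoidHom.ofInjective hσi).apply_symm_apply (π r))
  have hker : ∀ a : ↥π.ker, a.1.1.2 = 1 := fun a => congrArg Subtype.val (MonoidHom.mem_ker.mp a.2)
  have hTex : ∀ a : ↥π.ker, ∃ u c, a.1.1.1 = T u c := fun a =>
    exists_T_of_rel_one (by
      have h := a.1.2.2
      rwa [hker a] at h)
  choose u c hu using hTex
  let χ : ↥π.ker →* Multiplicative U :=
    MonoidHom.mk' (fun a => Multiplicative.ofAdd (η (u a))) fun a b => by
      have h : T (u (a * b)) (c (a * b)) = T (u a) (c a) * T (u b) (c b) := by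
        rw [← hu, ← hu, ← hu]; rfl
      rw [T_mul] at h
      rw [(T_inj h).1, map_add]
      rfl
  have hmk : ∀ (v : P n) (d : ZMod 2), ∃ a : ↥π.ker, a.1.1.1 = T v d ∧ u a = v ∧ c a = d := by
    intro v d
    let a : ↥π.ker := ⟨⟨(T v d, 1), one_mem _, rel_T v d⟩, MonoidHom.mem_ker.mpr (Subtype.ext rfl)⟩
    exact ⟨a, rfl, T_inj ((hu a).symm.trans rfl)⟩
  have hext : ∀ a b : ↥π.ker, u a = u b → c a = c b → a = b := fun a b h1 h2 =>
    Subtype.ext (Subtype.ext (Prod.ext (by rw [hu, hu, h1, h2]) ((hker a).trans (hker b).symm)))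
  have hχ : Function.Surjective χ := by
    intro x
    obtain ⟨v, hv⟩ := η.surjective x.toAdd
    obtain ⟨a, -, ha, -⟩ := hmk v 0
    exact ⟨a, by show Multiplicative.ofAdd (η (u a)) = x; rw [ha, hv]; rfl⟩
  have hmem : ∀ a, a ∈ χ.ker ↔ u a = 0 := by
    intro a
    rw [MonoidHom.mem_ker]
    show Multiplicative.ofAdd (η (u a)) = 1 ↔ _
    rw [ofAdd_eq_one, LinearEquiv.map_eq_zero_iff]
  have hcenter : χ.ker = Subgroup.center ↥π.ker := by
    ext a
    rw [hmem, Subgroup.mem_center_iff]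
    constructor
    · intro h b
      refine Subtype.ext (Subtype.ext (Prod.ext ?_ ?_))
      · show b.1.1.1 * a.1.1.1 = a.1.1.1 * b.1.1.1
        rw [hu a, h]
        exact T_central _ _
      · show b.1.1.2 * a.1.1.2 = a.1.1.2 * b.1.1.2
        rw [hker a, mul_one, one_mul]
    · intro h
      have h1 : ∀ v : P n, dot (u a).2 v.1 = dot v.2 (u a).1 := by
        intro v
        obtain ⟨b, hb, -, -⟩ := hmk v 0
        have h2 : b.1.1.1 * a.1.1.1 = a.1.1.1 * b.1.1.1 := congrArg (fun z : ↥π.ker => z.1.1.1) (h b)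
        rw [hb, hu a, T_mul, T_mul] at h2
        have h3 := (T_inj h2).2
        linear_combination h3
      refine Prod.ext (eq_zero_of_dot fun y => ?_) (eq_zero_of_dot fun y => ?_)
      · have h2 := h1 (0, y)
        rw [dot_zero_right] at h2
        exact h2.symm
      · have h2 := h1 (y, 0)
        rw [dot_zero_left, dot_comm] at h2
        exact h2
  have hcard : Nat.card ↥π.ker = 2 ^ (2 * n + 1) := by
    rw [Nat.card_congr (Equiv.ofBijective (fun a => (u a, c a)) ⟨fun a b h =>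
      hext a b (congrArg Prod.fst h) (congrArg Prod.snd h), fun ⟨v, d⟩ => by
        obtain ⟨a, -, h1, h2⟩ := hmk v d
        exact ⟨a, Prod.ext h1 h2⟩⟩)]
    simp [Nat.card_prod, ← pow_add, pow_succ, two_mul]
  have hp : IsPGroup 2 ↥π.ker := IsPGroup.of_card hcard
  have hzc : Nat.card ↥(Subgroup.center ↥π.ker) = 2 := by
    rw [← hcenter]
    refine (Nat.card_congr (Equiv.ofBijective (fun a : ↥χ.ker => c a.1) ⟨fun a b h => Subtype.ext (hext _ _ ?_ h), fun d => ?_⟩)).trans (Nat.card_zmod 2)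
    · rw [(hmem a).mp a.2, (hmem b).mp b.2]
    · obtain ⟨a, -, h1, h2⟩ := hmk 0 d
      exact ⟨⟨a, (hmem a).mpr h1⟩, h2⟩
  have hcomm : commutator ↥π.ker = Subgroup.center ↥π.ker := by
    have hle : commutator ↥π.ker ≤ Subgroup.center ↥π.ker := hcenter ▸ Abelianization.commutator_subset_ker χ
    refine Subgroup.eq_of_le_of_card_ge hle ?_
    rw [hzc]
    refine ((Subgroup.one_lt_card_iff_ne_bot (commutator ↥π.ker)).mpr fun h => ?_ : 1 < _)
    obtain ⟨i⟩ : Nonempty (Fin n) := ⟨⟨0, hn1⟩⟩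
    obtain ⟨a, ha, -, -⟩ := hmk (Pi.single i 1, 0) 0
    obtain ⟨b, hb, -, -⟩ := hmk (0, Pi.single i 1) 0
    have h1 : ⁅a, b⁆ ∈ commutator ↥π.ker := Subgroup.commutator_mem_commutator (Subgroup.mem_top a) (Subgroup.mem_top b)
    rw [h, Subgroup.mem_bot, commutatorElement_eq_one_iff_mul_comm] at h1
    have h2 : a.1.1.1 * b.1.1.1 = b.1.1.1 * a.1.1.1 := congrArg (fun z : ↥π.ker => z.1.1.1) h1
    rw [ha, hb, T_mul, T_mul] at h2
    have h3 := (T_inj h2).2
    simp [dot_single, dot_zero_left] at h3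
  have hfr : frattini ↥π.ker = Subgroup.center ↥π.ker := by
    refine le_antisymm (fun a ha => ?_) (hcomm ▸ Cfsg.Agent.FGS3.commutator_le_frattini hp)
    rw [← hcenter, MonoidHom.mem_ker]
    by_contra hne
    haveI : Finite U := Finite.of_injective _ η.symm.injective
    obtain ⟨M, hM, haM⟩ := Cfsg.Agent.FGS3.exists_coatom_notMem_of_exponent (G := Multiplicative U) (p := 2)
      (fun x y => mul_comm x y) (fun x => by
        obtain ⟨v, hv⟩ := η.surjective x.toAdd
        apply Multiplicative.toAdd.injective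
        rw [toAdd_pow, ← hv, two_nsmul, ← map_add, add_self2P, map_zero]
        rfl) hne
    have hco : IsCoatom (M.comap χ) := by
      refine ⟨fun h => hM.1 ?_, fun L hL => ?_⟩
      · rw [← Subgroup.map_comap_eq_self_of_surjective hχ M, h, Subgroup.map_top_of_surjective _ hχ]
      · have hkL : χ.ker ≤ L := (Subgroup.ker_le_comap χ M).trans hL.le
        have h1 : M < L.map χ := by
          rw [← Subgroup.map_comap_eq_self_of_surjective hχ M]
          refine lt_of_le_of_ne (Subgroup.map_mono hL.le) fun h => hL.ne ?_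
          rw [← Subgroup.comap_map_eq_self hkL, ← h, Subgroup.map_comap_eq_self_of_surjective hχ M]
        rw [← Subgroup.comap_map_eq_self hkL, hM.2 _ h1, Subgroup.comap_top]
    exact haM ((frattini_le_coatom hco) ha)
  refine ⟨↥R₀, inferInstance, inferInstance, π.ker, inferInstance, e, χ, ⟨⟨hp, hfr, hcomm⟩, hzc⟩, hcard, hχ, hcenter, ?_, ?_⟩
  · intro r a
    show Multiplicative.ofAdd (η (u _)) = Multiplicative.ofAdd (ρ _ (η (u a)))
    generalize hb : (⟨r * (a : ↥R₀) * r⁻¹, _⟩ : ↥π.ker) = b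
    obtain ⟨d, hd⟩ := rel_all r.2.2 (u a) (c a)
    have h1 : b.1.1.1 = r.1.1 * a.1.1.1 * r.1.1⁻¹ := by rw [← hb]; rfl
    rw [hu b, hu a, hd, mul_inv_cancel_right] at h1
    rw [(T_inj h1).1, ← hσe, he]
  · intro a
    show a * a = 1 ↔ q (η (u a)) = 0
    rw [hη, dot_comm]
    have h : (a * a).1.1.1 = T 0 (dot (u a).2 (u a).1) := by
      show a.1.1.1 * a.1.1.1 = _
      rw [hu a, T_mul, add_self2P, add_self2, zero_add]
    constructor
    · intro ha
      rw [ha] at h
      exact (T_inj (h.symm.trans T_zero.symm)).2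
    · intro ha
      rw [ha, T_zero] at h
      refine Subtype.ext (Subtype.ext (Prod.ext h ?_))
      show a.1.1.2 * a.1.1.2 = 1
      rw [hker a, one_mul]


end Cfsg.Agent.S3084
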