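import Cfsg.Statements.S3085
import Cfsg.Agent.LocalEven.PlusNonsplit
import Cfsg.Agent.FGS3.PGroupFrattini

set_option autoImplicit false
open Cfsg

namespace Cfsg.Agent.S3085

/-- Let Q be an extraspecial 2-group of order 2^(2n+1) with n ≥ 3 that is of plus type (it contains an elementary abelian subgroup of order 2^(n+1)). Then the group of inner automorphisms of Q has no complement in the full automorphism group of Q: the extension of the inner automorphism group (elementary abelian of order 2^(2n)) by the outer automorphism group (the orthogonal group of plus type) does not split. -/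
theorem result {Q : Type*} [Group Q] [Finite Q] (n : ℕ) (hn : 3 ≤ n) (hQ : Cfsg.IsExtraspecial 2 Q) (hcard : Nat.card Q = 2 ^ (2 * n + 1)) (hplus : ∃ E : Subgroup Q, Cfsg.IsElementaryAbelian 2 E ∧ Nat.card ↥E = 2 ^ (n + 1)) (L : Subgroup (MulAut Q)) : ¬ (Cfsg.Inn Q).IsComplement' L := by
  classical
  haveI : Fact (Nat.Prime 2) := ⟨Nat.prime_two⟩
  intro hL
  obtain ⟨⟨hp, hfr, hder⟩, hc2⟩ := hQ
  obtain ⟨zc, hz⟩ := exists_prime_orderOf_dvd_card' 2 (hc2 ▸ dvd_rfl : 2 ∣ Nat.card (Subgroup.center Q))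
  set z : Q := (zc : Q) with hzdef
  have hzc : z ∈ Subgroup.center Q := zc.2
  have hne : z ≠ 1 := fun e => by
    rw [show zc = 1 from Subtype.ext e, orderOf_one] at hz
    exact absurd hz (by norm_num)
  have hmem : ∀ c ∈ Subgroup.center Q, c = 1 ∨ c = z := by
    intro c hc
    by_contra hcon
    push Not at hcon
    haveI : Fintype (Subgroup.center Q) := Fintype.ofFinite _
    have hd : ({⟨c, hc⟩, zc, 1} : Finset (Subgroup.center Q)).card ≤ 2 :=
      (Finset.card_le_univ _).trans (by rw [← Nat.card_eq_fintype_card, hc2])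
    rw [Finset.card_insert_of_notMem, Finset.card_insert_of_notMem, Finset.card_singleton] at hd
    · omega
    · rw [Finset.mem_singleton]; exact fun e => hne (congrArg Subtype.val e)
    · simp only [Finset.mem_insert, Finset.mem_singleton]
      rintro (e | e)
      · exact hcon.2 (congrArg Subtype.val e)
      · exact hcon.1 (congrArg Subtype.val e)
  have hsd : Cfsg.Agent.LocalEven.SignData Q z := by
    refine ⟨hne, ?_, fun a => (Subgroup.mem_center_iff.mp hzc a).symm,
      fun c hc => hmem c (Subgroup.mem_center_iff.mpr fun a => (hc a).symm), fun a b => ?_⟩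
    · have := congrArg Subtype.val (orderOf_dvd_iff_pow_eq_one.mp hz.dvd)
      rwa [pow_two] at this
    · have h1 : a * b * a⁻¹ * b⁻¹ ∈ Subgroup.center Q := by
        rw [← hder, commutator_def]
        exact Subgroup.commutator_mem_commutator (Subgroup.mem_top a) (Subgroup.mem_top b)
      rcases hmem _ h1 with e | e
      · left
        rwa [mul_inv_eq_one, mul_inv_eq_iff_eq_mul] at e
      · right
        rw [mul_inv_eq_iff_eq_mul, mul_inv_eq_iff_eq_mul] at e
        rw [e, mul_assoc]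
  have hsq : ∀ g : Q, g * g = 1 ∨ g * g = z := fun g => by
    refine hmem _ (hfr ▸ ?_)
    rw [← pow_two]
    exact Cfsg.Agent.FGS3.pow_mem_frattini hp g
  obtain ⟨E, hE, hEc⟩ := hplus
  have hEcomm : ∀ a ∈ E, ∀ b ∈ E, a * b = b * a := fun a ha b hb =>
    congrArg Subtype.val (hE.1.is_comm.comm ⟨a, ha⟩ ⟨b, hb⟩)
  have hEsq : ∀ a ∈ E, a * a = 1 := fun a ha => by rw [← pow_two]; exact hE.2 a ha
  have hbig : 16 ≤ Nat.card E := by
    rw [hEc]
    exact le_trans (by norm_num) (Nat.pow_le_pow_right (by norm_num) (show 4 ≤ n + 1 by omega))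
  have hidx : ∀ f : Q, (Subgroup.centralizer ({f} : Set Q)).relIndex E ≤ 2 := by
    intro f
    have hinj : Function.Injective (fun q : ↥E ⧸ (Subgroup.centralizer ({f} : Set Q)).subgroupOf E =>
        decide ((q.out : Q) * f = f * (q.out : Q))) := by
      intro q q' hqq
      rw [← Quotient.out_eq q, ← Quotient.out_eq q']
      refine QuotientGroup.eq.mpr ?_
      rw [Subgroup.mem_subgroupOf, Subgroup.mem_centralizer_singleton_iff]
      have hzf : z * f = f * z := hsd.central f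
      simp only [decide_eq_decide] at hqq
      show ((q.out : Q)⁻¹ * (q'.out : Q)) * f = f * ((q.out : Q)⁻¹ * (q'.out : Q))
      generalize (q.out : Q) = a at hqq ⊢
      generalize (q'.out : Q) = b at hqq ⊢
      rcases hsd.dich a f with ha | ha
      · have hb := hqq.mp ha
        rw [mul_assoc, hb, ← mul_assoc, ← mul_assoc]
        congr 1
        rw [inv_mul_eq_iff_eq_mul, ← mul_assoc, ha, mul_inv_cancel_right]
      · have hb : b * f = z * (f * b) := (hsd.dich b f).resolve_left fun e => hsd.not_both (hqq.mpr e) ha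
        rw [mul_assoc, hb, ← mul_assoc a⁻¹, ← mul_assoc (a⁻¹ * z), ← mul_assoc f]
        congr 1
        rw [mul_assoc, inv_mul_eq_iff_eq_mul, ← mul_assoc, ha, mul_assoc, mul_inv_cancel_right]
    exact (Nat.card_le_card_of_injective _ hinj).trans (by simp [Nat.card_eq_fintype_card])
  have pick : ∀ f f' : Q, ∃ e ∈ E, e * f = f * e ∧ e * f' = f' * e ∧ e ≠ 1 ∧ e ≠ z := by
    intro f f'
    set M := (Subgroup.centralizer ({f} : Set Q) ⊓ Subgroup.centralizer ({f'} : Set Q)).subgroupOf E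
    by_contra hcon
    push Not at hcon
    have hMc : Nat.card M ≤ 2 := by
      have hinj : Function.Injective (fun e : M => decide (((e : E) : Q) = 1)) := by
        intro a b hab
        simp only [decide_eq_decide] at hab
        have key : ∀ c : M, ((c : E) : Q) ≠ 1 → ((c : E) : Q) = z := fun c hc =>
          hcon _ (c : E).2 (Subgroup.mem_centralizer_singleton_iff.mp c.2.1)
            (Subgroup.mem_centralizer_singleton_iff.mp c.2.2) hc
        apply Subtype.ext; apply Subtype.ext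
        by_cases h1 : ((a : E) : Q) = 1
        · rw [h1, hab.mp h1]
        · rw [key a h1, key b (mt hab.mpr h1)]
      exact (Nat.card_le_card_of_injective _ hinj).trans (by simp [Nat.card_eq_fintype_card])
    have hi : M.index ≤ 4 := le_trans Subgroup.relIndex_inf_le
      (Nat.mul_le_mul (hidx f) (hidx f'))
    have := M.card_mul_index
    nlinarith
  obtain ⟨e1, he1E, -, -, he11, he1z⟩ := pick 1 1
  obtain ⟨g1, hg1⟩ := hsd.exists_anti he11 he1z
  obtain ⟨f1, hf1, he1f1, -⟩ := hsd.exists_dual hsq (hEsq e1 he1E) hg1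
  obtain ⟨e2, he2E, he2f1, -, he21, he2z⟩ := pick f1 f1
  obtain ⟨g2, hg2⟩ := hsd.exists_anti he21 he2z
  obtain ⟨g2', hg2', hb1, hb2, -⟩ := hsd.adjust (hEcomm e2 he2E e1 he1E) he2f1 he1f1 hg2
  obtain ⟨f2, hf2, he2f2, hkeep2⟩ := hsd.exists_dual hsq (hEsq e2 he2E) hg2'
  have he1f2 := hkeep2 e1 (hEcomm e1 he1E e2 he2E) hb1
  have hf1f2 := hkeep2 f1 he2f1.symm hb2
  obtain ⟨e3, he3E, he3f1, he3f2, he31, he3z⟩ := pick f1 f2
  obtain ⟨g3, hg3⟩ := hsd.exists_anti he31 he3z
  obtain ⟨g3', hg3', hc1, hc2', -⟩ := hsd.adjust (hEcomm e3 he3E e1 he1E) he3f1 he1f1 hg3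
  obtain ⟨g3'', hg3'', hd1, hd2, hkeep⟩ := hsd.adjust (hEcomm e3 he3E e2 he2E) he3f2 he2f2 hg3'
  have hd3 := hkeep e1 (hEcomm e1 he1E e2 he2E) he1f2 hc1
  have hd4 := hkeep f1 he2f1.symm hf1f2 hc2'
  obtain ⟨f3, hf3, he3f3, hkeep3⟩ := hsd.exists_dual hsq (hEsq e3 he3E) hg3''
  have he1f3 := hkeep3 e1 (hEcomm e1 he1E e3 he3E) hd3
  have hf1f3 := hkeep3 f1 he3f1.symm hd4
  have he2f3 := hkeep3 e2 (hEcomm e2 he2E e3 he3E) hd1
  have hf2f3 := hkeep3 f2 he3f2.symm hd2
  have hez : ∀ a : Q, z * a = a * z := hsd.central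
  have wsq : ∀ e f : Q, e * e = 1 → f * f = 1 → e * f = z * (f * e) → (e * f) * (e * f) = z := by
    intro e f he hf hef
    calc e * f * (e * f) = z * (f * e) * (e * f) := by rw [← hef]
      _ = z * (f * (e * e) * f) := by simp only [mul_assoc]
      _ = z := by rw [he, mul_one, hf, mul_one]
  have mulc : ∀ {p q r : Q}, p * q = q * p → p * r = r * p → p * (q * r) = q * r * p := fun h1 h2 => by
    rw [← mul_assoc, h1, mul_assoc, h2, mul_assoc]
  have wanti : ∀ e f : Q, e * e = 1 → e * f = z * (f * e) → (e * f) * e = z * (e * (e * f)) := by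
    intro e f he hef
    rw [mul_assoc e f e, hsd.anti_symm hef, ← mul_assoc e z, ← hez e, mul_assoc]
  set w1 := e1 * f1 with hw1d
  set w2 := e2 * f2 with hw2d
  set w3 := e3 * f3 with hw3d
  have hw1 : w1 * w1 = z := wsq e1 f1 (hEsq e1 he1E) hf1 he1f1
  have hw2 : w2 * w2 = z := wsq e2 f2 (hEsq e2 he2E) hf2 he2f2
  have hw3 : w3 * w3 = z := wsq e3 f3 (hEsq e3 he3E) hf3 he3f3
  have e1w2 : e1 * w2 = w2 * e1 := mulc (hEcomm e1 he1E e2 he2E) he1f2
  have e1w3 : e1 * w3 = w3 * e1 := mulc (hEcomm e1 he1E e3 he3E) he1f3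
  have e2w1 : e2 * w1 = w1 * e2 := mulc (hEcomm e2 he2E e1 he1E) he2f1
  have e2w3 : e2 * w3 = w3 * e2 := mulc (hEcomm e2 he2E e3 he3E) he2f3
  have e3w1 : e3 * w1 = w1 * e3 := mulc (hEcomm e3 he3E e1 he1E) he3f1
  have e3w2 : e3 * w2 = w2 * e3 := mulc (hEcomm e3 he3E e2 he2E) he3f2
  have w12 : w1 * w2 = w2 * w1 :=
    (mulc e2w1.symm (mulc he1f2.symm hf1f2.symm).symm : w1 * (e2 * f2) = e2 * f2 * w1)
  have w13 : w1 * w3 = w3 * w1 :=
    (mulc e3w1.symm (mulc he1f3.symm hf1f3.symm).symm : w1 * (e3 * f3) = e3 * f3 * w1)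
  have w23 : w2 * w3 = w3 * w2 :=
    (mulc e3w2.symm (mulc he2f3.symm hf2f3.symm).symm : w2 * (e3 * f3) = e3 * f3 * w2)
  have a1 : w1 * e1 = z * (e1 * w1) := wanti e1 f1 (hEsq e1 he1E) he1f1
  have a2 : w2 * e2 = z * (e2 * w2) := wanti e2 f2 (hEsq e2 he2E) he2f2
  have a3 : w3 * e3 = z * (e3 * w3) := wanti e3 f3 (hEsq e3 he3E) he3f3
  set u := w1 * (w2 * w3) with hud
  have hu : u * u = z := by
    have h1 : w2 * w3 * w1 = w1 * (w2 * w3) := (mulc w12 w13).symm
    calc u * u = w1 * (w2 * w3 * w1) * (w2 * w3) := by rw [hud]; simp only [mul_assoc]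
      _ = w1 * w1 * (w2 * w3 * (w2 * w3)) := by rw [h1]; simp only [mul_assoc]
      _ = z * (w2 * (w3 * w2) * w3) := by rw [hw1]; simp only [mul_assoc]
      _ = z * (w2 * w2 * (w3 * w3)) := by rw [← w23]; simp only [mul_assoc]
      _ = z := by rw [hw2, hw3, hsd.sq, mul_one]
  obtain ⟨v, hv⟩ := Cfsg.Agent.LocalEven.exists_rep hsd hL hu
  -- the parities of the test elements
  have par : ∀ {y a b c : Q}, a * y = z * (y * a) → b * y = y * b → c * y = y * c →
      (a * (b * c)) * y = z * (y * (a * (b * c))) := by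
    intro y a b c ha hb hc
    rw [mul_assoc, mul_assoc b, hc, ← mul_assoc b, hb, ← mul_assoc a, ← mul_assoc a y, ha]
    simp only [mul_assoc]
  have hue1 : u * e1 = z * (e1 * u) := par a1 e1w2.symm e1w3.symm
  have hu' : u = w2 * (w1 * w3) := by rw [hud, ← mul_assoc, w12, mul_assoc]
  have hue2 : u * e2 = z * (e2 * u) := hu' ▸ par a2 e2w1.symm e2w3.symm
  have hu'' : u = w3 * (w1 * w2) := by rw [hud, ← mul_assoc, (mulc w13.symm w23.symm).symm]
  have hue3 : u * e3 = z * (e3 * u) := hu'' ▸ par a3 e3w1.symm e3w2.symm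
  have hanti := Cfsg.Agent.LocalEven.rep_anti hsd hL hu hv hue1
  have two : ∀ {y y' : Q}, u * y = z * (y * u) → u * y' = z * (y' * u) → u * (y * y') = y * y' * u := by
    intro y y' h1 h2
    rw [← mul_assoc, h1, mul_assoc, mul_assoc, h2, ← mul_assoc y z, ← hez y, mul_assoc z y,
      ← mul_assoc z z, hsd.sq, one_mul, mul_assoc]
  have mix : ∀ {w y y' : Q}, w * y = z * (y * w) → y' * w = w * y' → w * (y * y') = z * (y * y' * w) := by
    intro w y y' h1 h2
    rw [← mul_assoc, h1, mul_assoc, mul_assoc, ← h2, ← mul_assoc y]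
  have huw1 : u * w1 = w1 * u := (mulc rfl (mulc w12 w13)).symm
  have huw2 : u * w2 = w2 * u := (mulc w12.symm (mulc rfl w23)).symm
  have huw3 : u * w3 = w3 * u := (mulc w13.symm (mulc w23.symm rfl)).symm
  have c1 := Cfsg.Agent.LocalEven.rep_comm hsd hL hu hw1 huw1 hv (two hue1 hue2) (mix a1 e2w1)
  have c2 := Cfsg.Agent.LocalEven.rep_comm hsd hL hu hw2 huw2 hv (two hue2 hue1) (mix a2 e1w2)
  have c3 := Cfsg.Agent.LocalEven.rep_comm hsd hL hu hw3 huw3 hv (two hue3 hue1) (mix a3 e1w3)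
  exact hsd.not_both (mulc c1 (mulc c2 c3)) hanti


end Cfsg.Agent.S3085
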