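import Cfsg.Statements.S3356
import Mathlib


set_option autoImplicit false
open Cfsg

namespace Cfsg.Agent.S3356

open MulAction

/-- If `S` is a block for the conjugation action of `A` and all centralisers of its elements in `A`
have the order `c`, then orbit sizes being prime to `|S|` forces the stabiliser of `S` to centralise it. -/
theorem fix_of_block {G : Type*} [Group G] [Finite G] (A : Subgroup G) (c : ℕ) (S : Set G)
    (hc : ∀ s ∈ S, Nat.card ↥(A ⊓ Subgroup.centralizer ({s} : Set G)) = c)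
    (hcop : ∀ d, d * c ∣ Nat.card A → d ∣ Nat.card S → d = 1)
    (hblock : ∀ g ∈ A, (∃ s ∈ S, g * s * g⁻¹ ∈ S) → ∀ s, s ∈ S ↔ g * s * g⁻¹ ∈ S)
    {n : G} (hn : n ∈ S) {g : G} (hg : g ∈ A) (hgS : g * n * g⁻¹ ∈ S) : g * n * g⁻¹ = n := by
  classical
  let H : Subgroup G :=
    { carrier := {g | g ∈ A ∧ ∀ s, s ∈ S ↔ g * s * g⁻¹ ∈ S}
      one_mem' := ⟨one_mem A, fun s => by simp⟩
      mul_mem' := fun {a b} ha hb => ⟨mul_mem ha.1 hb.1, fun s => by
        rw [hb.2 s, ha.2 (b * s * b⁻¹), show a * b * s * (a * b)⁻¹ = a * (b * s * b⁻¹) * a⁻¹ by group]⟩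
      inv_mem' := fun {a} ha => ⟨inv_mem ha.1, fun s => by
        rw [ha.2 (a⁻¹ * s * a⁻¹⁻¹), show a * (a⁻¹ * s * a⁻¹⁻¹) * a⁻¹ = s by group]⟩ }
  letI : SMul H S := ⟨fun h s => ⟨(h : G) * s * (h : G)⁻¹, (h.2.2 s).1 s.2⟩⟩
  letI : MulAction H S :=
    { one_smul := fun s => Subtype.ext (show ((1 : H) : G) * s * ((1 : H) : G)⁻¹ = s by simp)
      mul_smul := fun h h' s => Subtype.ext (show ((h * h' : H) : G) * s * ((h * h' : H) : G)⁻¹ = _ by
        rw [Subgroup.coe_mul]
        show (h : G) * h' * s * ((h : G) * h')⁻¹ = (h : G) * ((h' : G) * s * (h' : G)⁻¹) * (h : G)⁻¹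
        group) }
  have hstab : ∀ s : S, Nat.card (stabilizer H s) = c := by
    intro s
    rw [← hc s s.2]
    refine Nat.card_eq_of_bijective (fun h => (⟨((h : H) : G), h.1.2.1, ?_⟩ :
      ↥(A ⊓ Subgroup.centralizer ({(s : G)} : Set G)))) ⟨?_, ?_⟩
    · exact Subgroup.mem_centralizer_singleton_iff.2 (mul_inv_eq_iff_eq_mul.1 (congrArg Subtype.val h.2))
    · intro h h' e
      exact Subtype.ext (Subtype.ext (congrArg Subtype.val e :))
    · rintro ⟨a, haA, has⟩
      have e : a * s * a⁻¹ = s := mul_inv_eq_iff_eq_mul.2 (Subgroup.mem_centralizer_singleton_iff.1 has)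
      exact ⟨⟨⟨a, haA, hblock a haA ⟨s, s.2, by rw [e]; exact s.2⟩⟩, Subtype.ext e⟩, rfl⟩
  have hcard : ∀ s : S, Nat.card (orbit H s) * c = Nat.card H := fun s => by
    rw [← hstab s, ← Nat.card_prod]
    exact Nat.card_congr (orbitProdStabilizerEquivGroup H s)
  have hc0 : c ≠ 0 := fun h => by
    have := hcard ⟨n, hn⟩
    rw [h, mul_zero] at this
    exact Nat.card_pos.ne this
  set d := Nat.card (orbit H (⟨n, hn⟩ : S)) with hd
  have hall : ∀ s : S, Nat.card (orbit H s) = d := fun s =>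
    Nat.eq_of_mul_eq_mul_right (Nat.pos_of_ne_zero hc0) ((hcard s).trans (hcard ⟨n, hn⟩).symm)
  have hdS : d ∣ Nat.card S := by
    have := Fintype.ofFinite (Quotient (orbitRel H S))
    rw [Nat.card_congr (selfEquivSigmaOrbits H S), Nat.card_sigma]
    exact Finset.dvd_sum fun q _ => (hall _).symm ▸ dvd_rfl
  have hd1 : d = 1 := hcop d ((hcard ⟨n, hn⟩).symm ▸ Subgroup.card_dvd_of_le (fun h hh => hh.1)) hdS
  have hsub : Subsingleton (orbit H (⟨n, hn⟩ : S)) := (Nat.card_eq_one_iff_unique.1 (hd ▸ hd1)).1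
  have hgH : g ∈ H := ⟨hg, hblock g hg ⟨n, hn, hgS⟩⟩
  exact congrArg (fun s : S => (s : G)) (congrArg Subtype.val (Subsingleton.elim
    (⟨(⟨g, hgH⟩ : H) • ⟨n, hn⟩, mem_orbit _ _⟩ : orbit H (⟨n, hn⟩ : S)) ⟨⟨n, hn⟩, mem_orbit_self _⟩))


/-- Let G be a finite 3/2-transitive permutation group: G acts faithfully and transitively on a finite set, the point stabilizers are non-trivial, and for each point a all orbits of G_a on the remaining points have the same size. Suppose G has a regular normal subgroup N and G is not a Frobenius group (some two-point stabilizer is non-trivial). Then N is an elementary abelian p-group for some prime p, and every non-trivial normal subgroup of G contains N (so N is the unique minimal normal subgroup). -/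
theorem result {G Ω : Type*} [Group G] [Finite G]
    [MulAction G Ω] [FaithfulSMul G Ω] [Finite Ω] (htrans : MulAction.IsPretransitive G Ω)
    (hne : ∀ a : Ω, MulAction.stabilizer G a ≠ ⊥)
    (hhalf : ∀ a b c : Ω, b ≠ a → c ≠ a →
      Nat.card (MulAction.orbit (MulAction.stabilizer G a) b) = Nat.card (MulAction.orbit (MulAction.stabilizer G a) c))
    (N : Subgroup G) [hN : N.Normal] (hNt : MulAction.IsPretransitive N Ω) (hNr : ∀ a : Ω, MulAction.stabilizer N a = ⊥)
    (hnotF : ∃ a b : Ω, a ≠ b ∧ MulAction.stabilizer G a ⊓ MulAction.stabilizer G b ≠ ⊥) :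
    (∃ p : ℕ, p.Prime ∧ IsMulCommutative N ∧ ∀ x ∈ N, x ^ p = 1) ∧
    (∀ M : Subgroup G, M.Normal → M ≠ ⊥ → N ≤ M) := by
  classical
  obtain ⟨a, b0, hab0, hint⟩ := hnotF
  set A := stabilizer G a with hA
  have hN_free : ∀ m ∈ N, ∀ m' ∈ N, m • a = m' • a → m = m' := by
    intro m hm m' hm' e
    have h := (Subgroup.eq_bot_iff_forall _).1 (hNr a) ⟨m'⁻¹ * m, mul_mem (inv_mem hm') hm⟩
      (show (m'⁻¹ * m) • a = a by rw [mul_smul, e, inv_smul_smul])
    exact (eq_of_inv_mul_eq_one (congrArg Subtype.val h)).symm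
  have hN_surj : ∀ x : Ω, ∃ m ∈ N, m • a = x := fun x =>
    let ⟨m, hm⟩ := hNt.exists_smul_eq a x
    ⟨m, m.2, hm⟩
  have hconj : ∀ g ∈ A, ∀ m : G, g • (m • a) = (g * m * g⁻¹) • a := by
    intro g hg m
    rw [mul_smul, mul_smul, show g⁻¹ • a = a from MulAction.mem_stabilizer_iff.1 (inv_mem hg)]
  -- the stabiliser in `A` of a point is a centraliser
  have hstab : ∀ m ∈ N, Nat.card ↥(A ⊓ Subgroup.centralizer ({m} : Set G)) *
      Nat.card (orbit A (m • a)) = Nat.card A := by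
    intro m hm
    rw [mul_comm, ← Nat.card_congr (orbitProdStabilizerEquivGroup A (m • a)), Nat.card_prod]
    congr 1
    refine Nat.card_eq_of_bijective (fun g => (⟨⟨g.1, g.2.1⟩, ?_⟩ : stabilizer A (m • a))) ⟨?_, ?_⟩
    · show (g : G) • (m • a) = m • a
      rw [hconj _ g.2.1, mul_inv_eq_iff_eq_mul.2 (Subgroup.mem_centralizer_singleton_iff.1 g.2.2)]
    · intro g g' e
      exact Subtype.ext (congrArg (fun h : stabilizer A (m • a) => ((h : A) : G)) e)
    · rintro ⟨⟨g, hg⟩, h⟩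
      have h' : g • (m • a) = m • a := h
      rw [hconj g hg m] at h'
      exact ⟨⟨g, hg, Subgroup.mem_centralizer_singleton_iff.2 (mul_inv_eq_iff_eq_mul.1
        (hN_free _ (hN.conj_mem m hm g) _ hm h'))⟩, rfl⟩
  obtain ⟨n0, hn0, hn0b⟩ := hN_surj b0
  have hn01 : n0 ≠ 1 := by rintro rfl; exact hab0 (by rw [← hn0b, one_smul])
  set c := Nat.card ↥(A ⊓ Subgroup.centralizer ({n0} : Set G)) with hcdef
  set k := Nat.card (orbit A b0) with hk
  have horb : ∀ x : Ω, x ≠ a → Nat.card (orbit A x) = k := fun x hx => hhalf a x b0 hx hab0.symm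
  have hne_a : ∀ m ∈ N, m ≠ 1 → m • a ≠ a := fun m hm hm1 e => hm1 (hN_free m hm 1 (one_mem N) (by rw [e, one_smul]))
  have hk0 : 0 < k := by
    have : Nonempty (orbit A b0) := ⟨⟨b0, mem_orbit_self b0⟩⟩
    exact Nat.card_pos
  have hck : c * k = Nat.card A := by rw [hk, ← hn0b]; exact hstab n0 hn0
  have hall : ∀ m ∈ N, m ≠ 1 → Nat.card ↥(A ⊓ Subgroup.centralizer ({m} : Set G)) = c := by
    intro m hm hm1
    have h := hstab m hm
    rw [horb _ (hne_a m hm hm1), ← hck] at h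
    exact Nat.eq_of_mul_eq_mul_right hk0 h
  have hc1 : 1 < c := by
    rw [hcdef]
    refine (Subgroup.one_lt_card_iff_ne_bot _).2 fun h => hint ((Subgroup.eq_bot_iff_forall _).2 fun g hg => ?_)
    refine (Subgroup.eq_bot_iff_forall _).1 h g ⟨hg.1, Subgroup.mem_centralizer_singleton_iff.2 ?_⟩
    have h2 : g • (n0 • a) = n0 • a := hn0b.symm ▸ hg.2
    rw [hconj g hg.1] at h2
    exact mul_inv_eq_iff_eq_mul.1 (hN_free _ (hN.conj_mem n0 hn0 g) _ hn0 h2)
  have hcard : Nat.card N = Nat.card Ω := Nat.card_eq_of_bijective (fun m : N => (m : G) • a)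
    ⟨fun m m' e => Subtype.ext (hN_free _ m.2 _ m'.2 e), fun x => by
      obtain ⟨m, hm, e⟩ := hN_surj x; exact ⟨⟨m, hm⟩, e⟩⟩
  have hkN : k.Coprime (Nat.card N) := by
    have hd : k ∣ Nat.card N - 1 := by
      have := Fintype.ofFinite (Quotient (orbitRel A Ω))
      rw [hcard, Nat.card_congr (selfEquivSigmaOrbits A Ω), Nat.card_sigma]
      rw [← Finset.add_sum_erase _ _ (Finset.mem_univ (Quotient.mk'' a : Quotient (orbitRel A Ω)))]
      have h1 : Nat.card (orbit A (Quotient.out (Quotient.mk'' a : Quotient (orbitRel A Ω)))) = 1 := by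
        have hfix : orbit A a = {a} := by
          refine Set.eq_singleton_iff_unique_mem.2 ⟨mem_orbit_self a, ?_⟩
          rintro _ ⟨g, rfl⟩
          exact g.2
        have : Quotient.out (Quotient.mk'' a : Quotient (orbitRel A Ω)) ∈ orbit A a :=
          Quotient.exact' (Quotient.out_eq (Quotient.mk'' a : Quotient (orbitRel A Ω)))
        rw [hfix, Set.mem_singleton_iff] at this
        rw [this, hfix, Nat.card_unique]
      rw [h1, Nat.add_sub_cancel_left]
      refine Finset.dvd_sum fun q hq => (horb _ fun e => ?_).symm ▸ dvd_rfl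
      exact (Finset.mem_erase.1 hq).1 (by rw [← Quotient.out_eq q, e])
    have h1 : 0 < Nat.card N := Nat.card_pos
    refine Nat.Coprime.coprime_dvd_left hd ?_
    obtain ⟨m, hm⟩ : ∃ m, Nat.card N = m + 1 := ⟨Nat.card N - 1, by omega⟩
    rw [hm, Nat.add_sub_cancel]
    simp
  -- blocks are fixed by their stabilisers
  have key : ∀ S : Set G, (∀ s ∈ S, s ∈ N ∧ s ≠ 1) → Nat.card S ∣ Nat.card N →
      (∀ g ∈ A, (∃ s ∈ S, g * s * g⁻¹ ∈ S) → ∀ s, s ∈ S ↔ g * s * g⁻¹ ∈ S) →
      ∀ m ∈ S, ∀ g ∈ A, g * m * g⁻¹ ∈ S → g * m * g⁻¹ = m := by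
    intro S hS hdvd hblock m hm g hg hgm
    refine fix_of_block A c S (fun s hs => hall s (hS s hs).1 (hS s hs).2) (fun d hdA hdS => ?_) hblock hm hg hgm
    have hdk : d ∣ k := by
      rw [← hck, mul_comm d] at hdA
      exact Nat.dvd_of_mul_dvd_mul_left (by omega) hdA
    exact Nat.eq_one_of_dvd_coprimes hkN hdk (hdS.trans hdvd)
  have hAne : ∀ C : Subgroup G, C ≤ A → (∀ m ∈ N, C ≤ Subgroup.centralizer ({m} : Set G)) → C = ⊥ := by
    intro C hCA hC
    refine (Subgroup.eq_bot_iff_forall _).2 fun g hg => FaithfulSMul.eq_of_smul_eq_smul (α := Ω) fun x => ?_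
    obtain ⟨m, hm, rfl⟩ := hN_surj x
    rw [hconj g (hCA hg), mul_inv_eq_iff_eq_mul.2 (Subgroup.mem_centralizer_singleton_iff.1 (hC m hm hg)), one_smul]
  let Cm : G → Subgroup G := fun m => A ⊓ Subgroup.centralizer ({m} : Set G)
  have hsame : ∀ m ∈ N, m ≠ 1 → ∀ m' ∈ N, Cm m ≤ Subgroup.centralizer ({m'} : Set G) → m' ≠ 1 → Cm m = Cm m' := by
    intro m hm hm1 m' hm' hle hm'1
    exact Subgroup.eq_of_le_of_card_ge (le_inf inf_le_left hle) (by rw [hall m hm hm1, hall m' hm' hm'1])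
  -- a centraliser centralises the whole class
  have hclass : ∀ m ∈ N, m ≠ 1 → ∀ y ∈ N, Cm m ≤ Subgroup.centralizer ({y * m * y⁻¹} : Set G) := by
    intro m hm hm1 y hy g hg
    let S : Set G := {z | ∃ w ∈ N, w * m * w⁻¹ = z}
    have hgm : g * m * g⁻¹ = m := mul_inv_eq_iff_eq_mul.2 (Subgroup.mem_centralizer_singleton_iff.1 hg.2)
    refine Subgroup.mem_centralizer_singleton_iff.2 (mul_inv_eq_iff_eq_mul.1 (key S ?_ ?_ ?_ _ ⟨y, hy, rfl⟩ g hg.1
      ⟨g * y * g⁻¹, hN.conj_mem y hy g, ?_⟩))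
    · rintro _ ⟨w, hw, rfl⟩
      exact ⟨mul_mem (mul_mem hw hm) (inv_mem hw), fun e => hm1 (conj_eq_one_iff.1 e)⟩
    · have e : Nat.card (MulAction.orbit (ConjAct N) (⟨m, hm⟩ : N)) = Nat.card S := by
        refine Nat.card_eq_of_bijective (fun z => (⟨((z : N) : G), ?_⟩ : S)) ⟨?_, ?_⟩
        · obtain ⟨w, hw⟩ := z.2
          refine ⟨((ConjAct.ofConjAct w : N) : G), (ConjAct.ofConjAct w).2, ?_⟩
          rw [← hw]
          rfl
        · intro z z' e
          exact Subtype.ext (Subtype.ext (congrArg Subtype.val e :))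
        · rintro ⟨_, w, hw, rfl⟩
          exact ⟨⟨⟨w * m * w⁻¹, mul_mem (mul_mem hw hm) (inv_mem hw)⟩, ConjAct.toConjAct (⟨w, hw⟩ : N), rfl⟩, rfl⟩
      have h2 : Nat.card (MulAction.orbit (ConjAct N) (⟨m, hm⟩ : N)) *
          Nat.card (MulAction.stabilizer (ConjAct N) (⟨m, hm⟩ : N)) = Nat.card N := by
        rw [← Nat.card_prod]
        exact Nat.card_congr (orbitProdStabilizerEquivGroup (ConjAct N) (⟨m, hm⟩ : N))
      exact e ▸ ⟨_, h2.symm⟩
    · rintro h hh ⟨_, ⟨w, hw, rfl⟩, w', hw', hw'e⟩ s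
      constructor
      · rintro ⟨u, hu, rfl⟩
        refine ⟨h * u * w⁻¹ * h⁻¹ * w', mul_mem ?_ hw', ?_⟩
        · rw [show h * u * w⁻¹ * h⁻¹ = h * (u * w⁻¹) * h⁻¹ by group]
          exact hN.conj_mem _ (mul_mem hu (inv_mem hw)) h
        calc (h * u * w⁻¹ * h⁻¹ * w') * m * (h * u * w⁻¹ * h⁻¹ * w')⁻¹
            = h * u * w⁻¹ * h⁻¹ * (w' * m * w'⁻¹) * h * w * u⁻¹ * h⁻¹ := by group
          _ = _ := by rw [hw'e]; group
      · rintro ⟨u, hu, hue⟩
        refine ⟨(h⁻¹ * (u * w'⁻¹) * h) * w, mul_mem (hN.conj_mem' _ (mul_mem hu (inv_mem hw')) h) hw, ?_⟩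
        calc (h⁻¹ * (u * w'⁻¹) * h * w) * m * (h⁻¹ * (u * w'⁻¹) * h * w)⁻¹
            = h⁻¹ * u * w'⁻¹ * (h * (w * m * w⁻¹) * h⁻¹) * w' * u⁻¹ * h := by group
          _ = h⁻¹ * (u * m * u⁻¹) * h := by rw [← hw'e]; group
          _ = s := by rw [hue]; group
    · calc g * y * g⁻¹ * m * (g * y * g⁻¹)⁻¹ = g * y * (g⁻¹ * (m * g)) * y⁻¹ * g⁻¹ := by group
        _ = g * y * (g⁻¹ * (g * m * g⁻¹ * g)) * y⁻¹ * g⁻¹ := by rw [hgm]
        _ = _ := by group
  have hcomm : ∀ x ∈ N, ∀ y ∈ N, x * y = y * x := by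
    -- elements with different centralisers commute
    have hdiff : ∀ x ∈ N, ∀ y ∈ N, x ≠ 1 → y ≠ 1 → Cm x ≠ Cm y → x * y = y * x := by
      intro x hx y hy hx1 hy1 hne
      by_contra hxy
      have hw1 : x * y * x⁻¹ * y⁻¹ ≠ 1 := fun e => hxy (by
        calc x * y = x * y * x⁻¹ * y⁻¹ * (y * x) := by group
          _ = y * x := by rw [e, one_mul])
      have hwN : x * y * x⁻¹ * y⁻¹ ∈ N := mul_mem (mul_mem (mul_mem hx hy) (inv_mem hx)) (inv_mem hy)
      have h1 : Cm x = Cm (x * y * x⁻¹ * y⁻¹) := hsame x hx hx1 _ hwN (fun g hg => by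
        have a1 := hclass x hx hx1 y hy hg
        rw [show x * y * x⁻¹ * y⁻¹ = x * (y * x * y⁻¹)⁻¹ by group]
        exact Subgroup.mem_centralizer_singleton_iff.2 (Commute.mul_right
          (Subgroup.mem_centralizer_singleton_iff.1 hg.2)
          (Commute.inv_right (Subgroup.mem_centralizer_singleton_iff.1 a1)))) hw1
      have h2 : Cm y = Cm (x * y * x⁻¹ * y⁻¹) := hsame y hy hy1 _ hwN (fun g hg => by
        have a1 := hclass y hy hy1 x hx hg
        exact Subgroup.mem_centralizer_singleton_iff.2 (Commute.mul_right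
          (Subgroup.mem_centralizer_singleton_iff.1 a1)
          (Commute.inv_right (Subgroup.mem_centralizer_singleton_iff.1 hg.2)))) hw1
      exact hne (h1.trans h2.symm)
    intro x hx y hy
    by_cases hx1 : x = 1
    · simp [hx1]
    by_cases hy1 : y = 1
    · simp [hy1]
    by_cases hne : Cm x = Cm y
    swap
    · exact hdiff x hx y hy hx1 hy1 hne
    obtain ⟨z, hz, hz1, hzx⟩ : ∃ z ∈ N, z ≠ 1 ∧ Cm z ≠ Cm x := by
      by_contra h
      push Not at h
      have := hAne (Cm x) inf_le_left fun m hm => by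
        by_cases hm1 : m = 1
        · subst hm1; exact fun g _ => Subgroup.mem_centralizer_singleton_iff.2 (by simp)
        · rw [← h m hm hm1]; exact inf_le_right
      have h2 := hall x hx hx1
      change Nat.card (Cm x) = c at h2
      rw [this, Subgroup.card_bot] at h2
      omega
    have hxz1 : x * z ≠ 1 := fun e => hzx (hsame x hx hx1 z hz (fun g hg => by
      rw [show z = x⁻¹ from eq_inv_of_mul_eq_one_right e]
      exact Subgroup.mem_centralizer_singleton_iff.2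
        (Commute.inv_right (Subgroup.mem_centralizer_singleton_iff.1 hg.2))) hz1).symm
    have hxz : Cm (x * z) ≠ Cm x := fun e => hzx (hsame x hx hx1 z hz (fun g hg => by
      have a1 : Commute g (x * z) := Subgroup.mem_centralizer_singleton_iff.1 (e.ge hg).2
      have a2 : Commute g x := Subgroup.mem_centralizer_singleton_iff.1 hg.2
      exact Subgroup.mem_centralizer_singleton_iff.2 (by
        have a3 : Commute g (x⁻¹ * (x * z)) := a2.inv_right.mul_right a1
        rw [inv_mul_cancel_left] at a3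
        exact a3.eq)) hz1).symm
    have e1 := hdiff z hz y hy hz1 hy1 (hne ▸ hzx)
    have e2 := hdiff (x * z) (mul_mem hx hz) y hy hxz1 hy1 (hne ▸ hxz)
    calc x * y = x * y * (z * z⁻¹) := by group
      _ = x * (y * z) * z⁻¹ := by group
      _ = x * (z * y) * z⁻¹ := by rw [e1]
      _ = (x * z * y) * z⁻¹ := by group
      _ = y * (x * z) * z⁻¹ := by rw [e2]
      _ = y * x := by group
  -- no invariant subgroup
  have hinvar : ∀ M : Subgroup G, M ≤ N → (∀ g ∈ A, ∀ m ∈ M, g * m * g⁻¹ ∈ M) → M = ⊥ ∨ M = N := by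
    intro M hMN hMA
    by_contra hcon
    push Not at hcon
    obtain ⟨n, hn, hnM⟩ := SetLike.exists_of_lt (lt_of_le_of_ne hMN hcon.2)
    have hfix : ∀ n ∈ N, n ∉ M → ∀ g ∈ Cm n, ∀ m ∈ M, g * m * g⁻¹ = m := by
      intro n hn hnM g hg m hm
      have hgn : g * n * g⁻¹ = n := mul_inv_eq_iff_eq_mul.2 (Subgroup.mem_centralizer_singleton_iff.1 hg.2)
      let S : Set G := {z | n⁻¹ * z ∈ M}
      have e := key S ?_ ?_ ?_ (n * m) (by simpa [S] using hm) g hg.1 ?_
      · have e' : g * n * g⁻¹ * (g * m * g⁻¹) = n * m := by rw [← e]; group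
        rw [hgn] at e'
        exact mul_left_cancel e'
      · intro s hs
        have hsN : s ∈ N := by simpa using mul_mem hn (hMN hs)
        refine ⟨hsN, ?_⟩
        rintro rfl
        exact hnM (by simpa [S] using hs)
      · have e : Nat.card S = Nat.card M := Nat.card_congr
          { toFun := fun z => ⟨n⁻¹ * z.1, z.2⟩
            invFun := fun m => ⟨n * m.1, by simp [S]⟩
            left_inv := fun z => by simp
            right_inv := fun m => by simp }
        rw [e]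
        exact Subgroup.card_dvd_of_le hMN
      · rintro h hh ⟨w, hw, hw'⟩ s
        have e0 : n⁻¹ * (h * s * h⁻¹) = n⁻¹ * (h * w * h⁻¹) * (h * ((n⁻¹ * w)⁻¹ * (n⁻¹ * s)) * h⁻¹) := by group
        constructor
        · intro hs
          show n⁻¹ * (h * s * h⁻¹) ∈ M
          rw [e0]
          exact mul_mem hw' (hMA h hh _ (mul_mem (inv_mem hw) hs))
        · intro hs
          show n⁻¹ * s ∈ M
          change n⁻¹ * (h * s * h⁻¹) ∈ M at hs
          rw [e0, Subgroup.mul_mem_cancel_left _ hw'] at hs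
          have h2 := hMA h⁻¹ (inv_mem hh) _ hs
          simp only [inv_inv] at h2
          rw [show h⁻¹ * (h * ((n⁻¹ * w)⁻¹ * (n⁻¹ * s)) * h⁻¹) * h = (n⁻¹ * w)⁻¹ * (n⁻¹ * s) by group] at h2
          exact (Subgroup.mul_mem_cancel_left _ (inv_mem hw)).1 h2
      · show n⁻¹ * (g * (n * m) * g⁻¹) ∈ M
        rw [show n⁻¹ * (g * (n * m) * g⁻¹) = n⁻¹ * (g * n * g⁻¹) * (g * m * g⁻¹) by group, hgn, inv_mul_cancel,
          one_mul]
        exact hMA g hg.1 m hm
    obtain ⟨m, hmM, hm1⟩ := M.bot_or_exists_ne_one.resolve_left hcon.1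
    have hCm : ∀ n ∈ N, n ∉ M → Cm n = Cm m := fun n hn hnM =>
      hsame n hn (fun e => hnM (e ▸ one_mem M)) m (hMN hmM)
        (fun g hg => Subgroup.mem_centralizer_singleton_iff.2 (mul_inv_eq_iff_eq_mul.1 (hfix n hn hnM g hg m hmM))) hm1
    have := hAne (Cm m) inf_le_left fun z hz g hg => by
      by_cases hzM : z ∈ M
      · exact Subgroup.mem_centralizer_singleton_iff.2
          (mul_inv_eq_iff_eq_mul.1 (hfix n hn hnM g ((hCm n hn hnM).ge hg) z hzM))
      · exact ((hCm z hz hzM).ge hg).2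
    have h2 := hall m (hMN hmM) hm1
    change Nat.card (Cm m) = c at h2
    rw [this, Subgroup.card_bot] at h2
    omega
  refine ⟨?_, ?_⟩
  · have hN1 : Nat.card N ≠ 1 := fun h => hn01 (by
      have := Nat.card_eq_one_iff_unique.1 h
      exact congrArg Subtype.val (this.1.elim (⟨n0, hn0⟩ : N) 1))
    obtain ⟨p, hp, hpd⟩ := Nat.exists_prime_and_dvd hN1
    have : Fact p.Prime := ⟨hp⟩
    refine ⟨p, hp, ⟨⟨fun x y => Subtype.ext (hcomm x x.2 y y.2)⟩⟩, ?_⟩
    let M : Subgroup G :=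
      { carrier := {x | x ∈ N ∧ x ^ p = 1}
        one_mem' := ⟨one_mem N, one_pow p⟩
        mul_mem' := fun {u v} hu hv => ⟨mul_mem hu.1 hv.1, by
          rw [(show Commute u v from hcomm u hu.1 v hv.1).mul_pow, hu.2, hv.2, one_mul]⟩
        inv_mem' := fun {u} hu => ⟨inv_mem hu.1, by rw [inv_pow, hu.2, inv_one]⟩ }
    rcases hinvar M (fun x hx => hx.1) (fun g hg m hm => ⟨hN.conj_mem m hm.1 g, by
        rw [conj_pow, hm.2, mul_one, mul_inv_cancel]⟩) with h | h
    · obtain ⟨x, hx⟩ := exists_prime_orderOf_dvd_card' p hpd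
      rw [← Subgroup.orderOf_coe] at hx
      have hxM : (x : G) ∈ M := ⟨x.2, hx ▸ pow_orderOf_eq_one (x : G)⟩
      have := (Subgroup.eq_bot_iff_forall _).1 h _ hxM
      rw [this, orderOf_one] at hx
      exact absurd hx.symm hp.ne_one
    · exact fun x hx => (h.ge hx : x ∈ M).2
  · intro M hM hM1
    rcases hinvar (M ⊓ N) inf_le_right (fun g _ m hm => ⟨hM.conj_mem m hm.1 g, hN.conj_mem m hm.2 g⟩) with h | h
    · exfalso
      refine hM1 ((Subgroup.eq_bot_iff_forall _).2 fun z hz => ?_)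
      obtain ⟨w, hw, hwz⟩ := hN_surj (z • a)
      have hcz : ∀ u ∈ N, u * z = z * u := fun u hu => by
        have h1 : u * z * u⁻¹ * z⁻¹ ∈ M ⊓ N := ⟨mul_mem (hM.conj_mem z hz u) (M.inv_mem hz), by
          rw [show u * z * u⁻¹ * z⁻¹ = u * (z * u⁻¹ * z⁻¹) by group]
          exact mul_mem hu (hN.conj_mem _ (inv_mem hu) z)⟩
        rw [h, Subgroup.mem_bot] at h1
        exact mul_inv_eq_iff_eq_mul.1 (mul_inv_eq_one.1 h1)
      have hfix : (w⁻¹ * z) • a = a := by rw [mul_smul, ← hwz, inv_smul_smul]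
      have hbot := hAne (Subgroup.zpowers (w⁻¹ * z)) (Subgroup.zpowers_le.2 hfix) fun u hu => by
        rw [Subgroup.zpowers_le, Subgroup.mem_centralizer_singleton_iff]
        exact ((show Commute w⁻¹ u from hcomm _ (inv_mem hw) u hu).mul_left (hcz u hu).symm)
      rw [Subgroup.zpowers_eq_bot, inv_mul_eq_one] at hbot
      have : z ∈ M ⊓ N := ⟨hz, hbot ▸ hw⟩
      rwa [h, Subgroup.mem_bot] at this
    · exact fun x hx => (h.ge hx : x ∈ M ⊓ N).1

end Cfsg.Agent.S3356
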