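import Cfsg.Statements.S3357
import Cfsg.Agent.FGS4.FPFModule
import Mathlib.FieldTheory.IsAlgClosed.AlgebraicClosure
import Mathlib.LinearAlgebra.Matrix.GeneralLinearGroup.Defs
import Mathlib.LinearAlgebra.Matrix.ToLin

set_option autoImplicit false
open Cfsg

namespace Cfsg.Agent.S3357

open scoped Matrix

theorem exists_irreducible {G : Type*} [Group G] [Finite G] {m : ℕ} (hm : 0 < m)
    {τ : G →* Matrix (Fin m) (Fin m) ℤ} (hτ : FGS4.FPFMod.SumZero τ) :
    ∃ (n : ℕ) (ρ : G →* GL (Fin n) (AlgebraicClosure ℚ)), 0 < n ∧ Function.Injective ρ ∧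
      (∀ W : Submodule (AlgebraicClosure ℚ) (Fin n → AlgebraicClosure ℚ),
        (∀ g : G, ∀ w ∈ W, ((ρ g : GL (Fin n) (AlgebraicClosure ℚ)) : Matrix (Fin n) (Fin n) (AlgebraicClosure ℚ)).mulVec w ∈ W) → W = ⊥ ∨ W = ⊤) ∧
      ∀ g : G, g ≠ 1 → ∀ v : Fin n → AlgebraicClosure ℚ,
        ((ρ g : GL (Fin n) (AlgebraicClosure ℚ)) : Matrix (Fin n) (Fin n) (AlgebraicClosure ℚ)).mulVec v = v → v = 0 := by
  classical
  let f : ℤ →+* AlgebraicClosure ℚ := Int.castRingHom _
  let σ := (f.mapMatrix (m := Fin m)).toMonoidHom.comp τ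
  have hσ : FGS4.FPFMod.SumZero σ := hτ.map (f.mapMatrix (m := Fin m))
  have hfix : ∀ g : G, g ≠ 1 → ∀ v, σ g *ᵥ v = v → v = 0 := fun g hg v hv =>
    hσ.fixed_eq_zero hg (Ne.isUnit (Nat.cast_ne_zero.mpr (orderOf_pos g).ne')) hv
  -- a nonzero invariant subspace of least dimension
  let Inv : Submodule (AlgebraicClosure ℚ) (Fin m → AlgebraicClosure ℚ) → Prop := fun W =>
    ∀ g : G, ∀ w ∈ W, σ g *ᵥ w ∈ W
  have hex : ∃ d, ∃ W, W ≠ ⊥ ∧ Inv W ∧ Module.finrank (AlgebraicClosure ℚ) W = d := by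
    haveI : Nonempty (Fin m) := ⟨⟨0, hm⟩⟩
    exact ⟨_, ⊤, top_ne_bot, fun _ _ _ => Submodule.mem_top, rfl⟩
  obtain ⟨W, hW0, hWi, hWd⟩ := Nat.find_spec hex
  haveI : Nontrivial W := Submodule.nontrivial_iff_ne_bot.mpr hW0
  let r : G →* Module.End (AlgebraicClosure ℚ) W :=
    { toFun := fun g => (Matrix.toLin' (σ g)).restrict fun w hw => by
        rw [Matrix.toLin'_apply]; exact hWi g w hw
      map_one' := LinearMap.ext fun w => Subtype.ext (by simp)
      map_mul' := fun a b => LinearMap.ext fun w => Subtype.ext (by simp [Matrix.mulVec_mulVec]) }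
  let b := Module.finBasis (AlgebraicClosure ℚ) W
  let ρ := ((LinearMap.toMatrixAlgEquiv b).toMulEquiv.toMonoidHom.comp r).toHomUnits
  have hρ : ∀ g (w : W), (Units.val (ρ g)) *ᵥ b.equivFun w = b.equivFun (r g w) := fun g w =>
    LinearMap.toMatrix_mulVec_repr b b (r g) w
  have hfp : ∀ g : G, g ≠ 1 → ∀ v, (Units.val (ρ g)) *ᵥ v = v → v = 0 := fun g hg v hv => by
    obtain ⟨w, rfl⟩ := b.equivFun.surjective v
    rw [hρ, b.equivFun.injective.eq_iff] at hv
    have h1 : σ g *ᵥ (w : Fin m → AlgebraicClosure ℚ) = w := congrArg Subtype.val hv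
    rw [show w = 0 from Subtype.ext (hfix g hg _ h1), map_zero]
  refine ⟨_, ρ, Module.finrank_pos, ?_, ?_, hfp⟩
  · refine (injective_iff_map_eq_one ρ).mpr fun g hg => by_contra fun hg1 => ?_
    obtain ⟨w, hw⟩ := exists_ne (0 : W)
    exact hw (b.equivFun.injective ((hfp g hg1 _ (by rw [hg, Units.val_one, Matrix.one_mulVec])).trans
      (map_zero _).symm))
  · intro U hU
    let U' := U.comap (b.equivFun : W →ₗ[AlgebraicClosure ℚ] _)
    by_cases h0 : U'.map W.subtype = ⊥
    · left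
      rw [Submodule.eq_bot_iff]
      intro u hu
      obtain ⟨w, rfl⟩ := b.equivFun.surjective u
      have : (w : Fin m → AlgebraicClosure ℚ) ∈ U'.map W.subtype := ⟨w, hu, rfl⟩
      rw [h0, Submodule.mem_bot] at this
      rw [show w = 0 from Subtype.ext this, map_zero]
    · right
      have hinv : Inv (U'.map W.subtype) := by
        rintro g _ ⟨w, hw, rfl⟩
        refine ⟨r g w, ?_, rfl⟩
        show b.equivFun (r g w) ∈ U
        rw [← hρ]
        exact hU g _ hw
      have hmin : Module.finrank (AlgebraicClosure ℚ) W ≤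
          Module.finrank (AlgebraicClosure ℚ) (U'.map W.subtype) :=
        hWd.le.trans (Nat.find_le ⟨_, h0, hinv, rfl⟩)
      have heq := Submodule.eq_of_le_of_finrank_le (Submodule.map_subtype_le W U') hmin
      rw [eq_top_iff]
      intro u _
      obtain ⟨w, rfl⟩ := b.equivFun.surjective u
      have hw : (w : Fin m → AlgebraicClosure ℚ) ∈ U'.map W.subtype := by rw [heq]; exact w.2
      obtain ⟨w', hw', hww⟩ := hw
      rwa [show w' = w from Subtype.ext hww] at hw'


/-- Let G be a finite group that occurs as a Frobenius complement. Then G has a faithful irreducible representation over an algebraic closure of the rationals in which no non-identity element of G has 1 as an eigenvalue: there are n ≥ 1 and an injective homomorphism ρ from G to GL(n) over that field, with no invariant subspace other than 0 and the whole space, such that for g ≠ 1 the only vector fixed by ρ(g) is 0. -/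
theorem result {G : Type*} [Group G] [Finite G]
    (hFC : ∃ (L : Type) (_ : Group L) (_ : Finite L) (H : Subgroup L), Cfsg.IsFrobeniusComplement H ∧ Nonempty (G ≃* H)) :
    ∃ (n : ℕ) (ρ : G →* GL (Fin n) (AlgebraicClosure ℚ)), 0 < n ∧ Function.Injective ρ ∧
      (∀ W : Submodule (AlgebraicClosure ℚ) (Fin n → AlgebraicClosure ℚ),
        (∀ g : G, ∀ w ∈ W, ((ρ g : GL (Fin n) (AlgebraicClosure ℚ)) : Matrix (Fin n) (Fin n) (AlgebraicClosure ℚ)).mulVec w ∈ W) → W = ⊥ ∨ W = ⊤) ∧
      ∀ g : G, g ≠ 1 → ∀ v : Fin n → AlgebraicClosure ℚ,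
        ((ρ g : GL (Fin n) (AlgebraicClosure ℚ)) : Matrix (Fin n) (Fin n) (AlgebraicClosure ℚ)).mulVec v = v → v = 0 := by
  obtain ⟨L, _, _, H, hF, ⟨e⟩⟩ := hFC
  obtain ⟨m, τ, hm, hτ⟩ := FGS4.FPFMod.exists_int_rep hF e
  exact exists_irreducible hm hτ

end Cfsg.Agent.S3357
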