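import Cfsg.Statements.S3379
import Mathlib

set_option autoImplicit false
open Cfsg

namespace Cfsg.Agent.S3379

/-- Let G be a finite group all of whose Sylow subgroups are cyclic. Then G is generated by two elements x and y of coprime orders n and m with x⁻¹yx = y^r, where gcd(r − 1, m) = 1 and r^n ≡ 1 (mod m). -/
theorem result {G : Type*} [Group G] [Finite G]
    (hZ : ∀ (p : ℕ) [Fact p.Prime] (P : Sylow p G), IsCyclic (P : Subgroup G)) :
    ∃ (x y : G) (n m r : ℕ), Subgroup.closure {x, y} = ⊤ ∧ orderOf x = n ∧ orderOf y = m ∧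
      x⁻¹ * y * x = y ^ r ∧ Nat.Coprime (r - 1) m ∧ Nat.Coprime n m ∧ 1 ≤ r ∧ r ^ n % m = 1 % m := by
  have : IsZGroup G := ⟨fun p hp P => by have := Fact.mk hp; exact hZ p P⟩
  obtain ⟨H, hH⟩ := Subgroup.exists_right_complement'_of_coprime (IsZGroup.coprime_commutator_index (G := G))
  have h1 : Abelianization G ≃* H := hH.symm.QuotientMulEquiv
  have hHc : IsCyclic H := isCyclic_of_surjective _ h1.surjective
  have hNc : IsCyclic (commutator G) := IsZGroup.isCyclic_commutator G
  obtain ⟨x, hx⟩ := (Subgroup.isCyclic_iff_exists_zpowers_eq_top H).mp hHc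
  obtain ⟨y, hy⟩ := (Subgroup.isCyclic_iff_exists_zpowers_eq_top _).mp hNc
  have hcl : Subgroup.closure {x, y} = ⊤ := by
    rw [eq_top_iff, ← hH.sup_eq_top, ← hx, ← hy]
    exact sup_le (Subgroup.zpowers_le.mpr (Subgroup.subset_closure (Or.inr rfl)))
      (Subgroup.zpowers_le.mpr (Subgroup.subset_closure (Or.inl rfl)))
  have hyN : y ∈ commutator G := hy ▸ Subgroup.mem_zpowers y
  have hxy : x⁻¹ * y * x ∈ Subgroup.zpowers y := by
    rw [hy]
    simpa using Subgroup.Normal.conj_mem (inferInstance : (commutator G).Normal) y hyN x⁻¹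
  obtain ⟨r₀, hr₀⟩ := (mem_powers_iff_mem_zpowers).mpr hxy
  have hr₀' : y ^ r₀ = x⁻¹ * y * x := hr₀
  obtain ⟨r, hr, hr1⟩ : ∃ r, x⁻¹ * y * x = y ^ r ∧ 1 ≤ r :=
    ⟨r₀ + orderOf y, by rw [pow_add, pow_orderOf_eq_one, mul_one, hr₀'], by have := orderOf_pos y; omega⟩
  have hnm : (orderOf x).Coprime (orderOf y) := by
    rw [← Nat.card_zpowers, ← Nat.card_zpowers, hx, hy]
    have h2 : Nat.card H = (commutator G).index := by
      rw [Subgroup.index]; exact (Nat.card_congr h1.toEquiv).symm
    rw [h2]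
    exact (IsZGroup.coprime_commutator_index (G := G)).symm
  refine ⟨x, y, orderOf x, orderOf y, r, hcl, rfl, rfl, hr, ?_, hnm, hr1, ?_⟩
  · -- the commutator subgroup is generated by `y ^ (r - 1)`
    have hK : (Subgroup.zpowers (y ^ (r - 1))).Normal := by
      rw [← Subgroup.normalizer_eq_top_iff, eq_top_iff, ← hcl, Subgroup.closure_le]
      have hle : Subgroup.zpowers (y ^ (r - 1)) ≤ Subgroup.zpowers y :=
        Subgroup.zpowers_le.mpr (Subgroup.pow_mem _ (Subgroup.mem_zpowers y) _)
      have hxi : x⁻¹ ∈ Subgroup.normalizer (Subgroup.zpowers (y ^ (r - 1)) : Set G) := by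
        refine Subgroup.mem_normalizer_fintype fun z hz => ?_
        obtain ⟨i, rfl⟩ := Subgroup.mem_zpowers_iff.mp hz
        refine ⟨r * i, ?_⟩
        show (y ^ (r - 1)) ^ (↑r * i) = x⁻¹ * (y ^ (r - 1)) ^ i * x⁻¹⁻¹
        rw [inv_inv]
        have e : x⁻¹ * (y ^ (r - 1)) ^ i * x = ((x⁻¹ * y * x) ^ (r - 1)) ^ i := by
          have := map_zpow (MulAut.conj x⁻¹) (y ^ (r - 1)) i
          have h2 := map_pow (MulAut.conj x⁻¹) y (r - 1)
          simp only [MulAut.conj_apply, inv_inv] at this h2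
          rw [this, h2]
        rw [e, hr, ← pow_mul, mul_comm r (r - 1), pow_mul, zpow_mul, zpow_natCast]
      rintro z hz
      rcases hz with hz | hz
      · rw [hz]
        simpa using (Subgroup.normalizer (Subgroup.zpowers (y ^ (r - 1)) : Set G)).inv_mem hxi
      · rw [Set.mem_singleton_iff.mp hz, SetLike.mem_coe]
        refine Subgroup.mem_normalizer_fintype fun w hw => ?_
        obtain ⟨i, rfl⟩ := Subgroup.mem_zpowers_iff.mp hw
        rw [((Commute.self_pow y (r - 1)).zpow_right i).eq, mul_inv_cancel_right]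
        exact hw
    have hab : ∀ a b : G ⧸ Subgroup.zpowers (y ^ (r - 1)), a * b = b * a := by
      have hgen : Subgroup.closure {(x : G ⧸ Subgroup.zpowers (y ^ (r - 1))), (y : G ⧸ Subgroup.zpowers (y ^ (r - 1)))} = ⊤ := by
        have := congrArg (Subgroup.map (QuotientGroup.mk' (Subgroup.zpowers (y ^ (r - 1))))) hcl
        rw [MonoidHom.map_closure, Subgroup.map_top_of_surjective _ (QuotientGroup.mk'_surjective _)] at this
        rw [← this]; congr 1; simp [Set.image_pair]
      have hxyc : (y : G ⧸ Subgroup.zpowers (y ^ (r - 1))) * x = x * y := by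
        rw [← QuotientGroup.mk_mul, ← QuotientGroup.mk_mul, eq_comm, QuotientGroup.eq]
        have : (x * y)⁻¹ * (y * x) = y ^ (r - 1) := by
          rw [mul_inv_rev, show y⁻¹ * x⁻¹ * (y * x) = y⁻¹ * (x⁻¹ * y * x) by group, hr,
            show y ^ r = y * y ^ (r - 1) by rw [← pow_succ']; congr 1; omega, inv_mul_cancel_left]
        rw [this]; exact Subgroup.mem_zpowers _
      have := Subgroup.isMulCommutative_closure (k := {(x : G ⧸ Subgroup.zpowers (y ^ (r - 1))), (y : G ⧸ Subgroup.zpowers (y ^ (r - 1)))}) (by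
        rintro a (rfl | rfl) b (rfl | rfl)
        · rfl
        · exact hxyc.symm
        · exact hxyc
        · rfl)
      intro a b
      exact congrArg Subtype.val (this.is_comm.comm ⟨a, hgen ▸ Subgroup.mem_top a⟩ ⟨b, hgen ▸ Subgroup.mem_top b⟩)
    have hle : commutator G ≤ Subgroup.zpowers (y ^ (r - 1)) := by
      rw [commutator_eq_closure, Subgroup.closure_le]
      rintro _ ⟨a, b, rfl⟩
      rw [SetLike.mem_coe, ← QuotientGroup.eq_one_iff]
      show QuotientGroup.mk' (Subgroup.zpowers (y ^ (r - 1))) (a * b * a⁻¹ * b⁻¹) = 1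
      rw [map_mul, map_mul, map_mul, map_inv, map_inv, hab (QuotientGroup.mk' _ a)]
      group
    have hmem := hle hyN
    have hd := orderOf_dvd_of_mem_zpowers hmem
    rw [orderOf_pow] at hd
    have hg : (orderOf y).gcd (r - 1) = 1 := by
      have h1 := Nat.gcd_dvd_left (orderOf y) (r - 1)
      have h2 : orderOf y * (orderOf y).gcd (r - 1) ∣ orderOf y * 1 := by
        rw [mul_one]
        exact (Nat.mul_dvd_mul_right hd _).trans (dvd_of_eq (Nat.div_mul_cancel h1))
      exact Nat.dvd_one.mp (Nat.dvd_of_mul_dvd_mul_left (orderOf_pos y) h2)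
    exact (Nat.Coprime.symm hg)
  · have hit : ∀ k : ℕ, (x ^ k)⁻¹ * y * x ^ k = y ^ (r ^ k) := by
      intro k
      induction k with
      | zero => simp
      | succ k ih =>
        have h2 : x⁻¹ * y ^ r ^ k * x = (x⁻¹ * y * x) ^ r ^ k := by
          have := map_pow (MulAut.conj x⁻¹) y (r ^ k)
          simpa only [MulAut.conj_apply, inv_inv] using this
        rw [show (x ^ (k + 1))⁻¹ * y * x ^ (k + 1) = x⁻¹ * ((x ^ k)⁻¹ * y * x ^ k) * x by rw [pow_succ]; group,
          ih, h2, hr, ← pow_mul, pow_succ']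
    have h := hit (orderOf x)
    rw [pow_orderOf_eq_one, inv_one, one_mul, mul_one] at h
    exact pow_eq_pow_iff_modEq.mp (h.symm.trans (pow_one y).symm)

end Cfsg.Agent.S3379
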