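import Cfsg.Statements.S3358
import Cfsg.Agent.FGS4.Zass.Metacyclic
import Cfsg.Agent.S3379

set_option autoImplicit false
open Cfsg

namespace Cfsg.Agent.S3358

/-- Structure of solvable Frobenius complements. Let G be a finite solvable group that occurs as a Frobenius complement. Then G has a normal subgroup G₀ such that G/G₀ is isomorphic to a subgroup of Sym(4) (G₀ is the kernel of a homomorphism to Sym(4)), all Sylow subgroups of G₀ are cyclic, and G₀ has a presentation ⟨x, y | x^n = 1, y^m = 1, x⁻¹ y x = y^r⟩ with n, m ≥ 1, gcd(r − 1, m) = gcd(n, m) = 1 and r^(n/n′) ≡ 1 (mod m), where n′ is the product of the distinct primes dividing n. -/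
theorem result {G : Type*} [Group G] [Finite G] (hsol : Group.IsSolvable G)
    (hFC : ∃ (L : Type) (_ : Group L) (_ : Finite L) (H : Subgroup L), Cfsg.IsFrobeniusComplement H ∧ Nonempty (G ≃* H)) :
    ∃ G₀ : Subgroup G, G₀.Normal ∧
      (∃ f : G →* Equiv.Perm (Fin 4), f.ker = G₀) ∧
      (∀ (p : ℕ) [Fact p.Prime] (P : Sylow p G₀), IsCyclic P) ∧
      ∃ n m r : ℕ, 0 < n ∧ 0 < m ∧ Nat.Coprime (r - 1) m ∧ Nat.Coprime n m ∧ 1 ≤ r ∧
        r ^ (n / ∏ p ∈ n.primeFactors, p) % m = 1 % m ∧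
        Nonempty (G₀ ≃* PresentedGroup
          ({FreeGroup.of (0 : Fin 2) ^ n, FreeGroup.of (1 : Fin 2) ^ m,
            (FreeGroup.of (0 : Fin 2))⁻¹ * FreeGroup.of 1 * FreeGroup.of 0 * (FreeGroup.of (1 : Fin 2) ^ r)⁻¹} :
            Set (FreeGroup (Fin 2)))) := by
  haveI := hsol
  obtain ⟨d, hd, ⟨F⟩⟩ := FGS4.Zass.exists_fpfRep hFC
  haveI : Nonempty (Fin d) := ⟨⟨0, hd⟩⟩
  obtain ⟨N, hN, hZ, hQ⟩ := F.exists_quot
  have hperm : ∃ f : G →* Equiv.Perm (Fin 4), f.ker = N := by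
    rcases hQ with h | ⟨f, -, h⟩ | ⟨f, -, h⟩ | ⟨f, -, h⟩ | ⟨f, hs, -⟩ | ⟨f, hs, -⟩
    · exact ⟨1, by rw [h, MonoidHom.ker_one]⟩
    · obtain ⟨g, hg⟩ := FGS4.Zass.exists_hom_perm_four (by rw [Nat.card_eq_fintype_card]; decide) f
      exact ⟨g, hg.trans h⟩
    · exact ⟨(alternatingGroup (Fin 4)).subtype.comp f, by
        rw [MonoidHom.ker_comp_of_injective _ _ (alternatingGroup (Fin 4)).subtype_injective, h]⟩
    · exact ⟨f, h⟩
    · exfalso
      haveI := solvable_of_surjective hs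
      haveI : Group.IsSolvable (alternatingGroup (Fin 5)) := inferInstance
      exact FGS4.Zass.not_isSolvable_alt_five this
    · exfalso
      exact Equiv.Perm.not_solvable (Fin 5) (by simp) (solvable_of_surjective hs)
  obtain ⟨x, y, n, m, r, hgen, hx, hy, hxy, hr1, hnm, hr, hrn⟩ :=
    S3379.result (G := N) (fun p _ P => inferInstance)
  have hn : 0 < n := hx ▸ orderOf_pos x
  have hm : 0 < m := hy ▸ orderOf_pos y
  refine ⟨N, hN, hperm, fun p _ P => inferInstance, n, m, r, hn, hm, hr1, hnm, hr, ?_,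
    FGS4.Zass.nonempty_equiv_presented hgen hx hy hxy hnm⟩
  have key : ∀ k : ℕ, r ^ k % m = 1 % m ↔ (r : ZMod m) ^ k = 1 := fun k => by
    rw [← ZMod.natCast_eq_natCast_iff', Nat.cast_pow, Nat.cast_one]
  have hconj : ∀ k : ℕ, (x ^ k)⁻¹ * y * x ^ k = y ^ (r ^ k) := by
    intro k
    induction k with
    | zero => simp
    | succ i ih =>
      have e : (x ^ (i + 1))⁻¹ * y * x ^ (i + 1) = x⁻¹ * ((x ^ i)⁻¹ * y * x ^ i) * x := by
        rw [pow_succ]; group
      rw [e, ih]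
      have e2 := map_pow (MulAut.conj x⁻¹) y (r ^ i)
      simp only [MulAut.conj_apply, inv_inv] at e2
      rw [e2, hxy, ← pow_mul, ← pow_succ']
  rw [key]
  refine orderOf_dvd_iff_pow_eq_one.mp (FGS4.Zass.dvd_div_prod_primeFactors hn
    (orderOf_dvd_of_pow_eq_one ((key n).mp hrn)) fun p hp => ?_)
  refine orderOf_dvd_of_pow_eq_one ((key _).mp ?_)
  haveI := Fact.mk (Nat.prime_of_mem_primeFactors hp)
  have hpn := Nat.dvd_of_mem_primeFactors hp
  have hdne : n / p ≠ 0 :=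
    (Nat.div_pos (Nat.le_of_dvd hn hpn) (Nat.pos_of_mem_primeFactors hp)).ne'
  have ha : orderOf (x ^ (n / p)) = p := by
    rw [orderOf_pow' x hdne, hx, Nat.gcd_eq_right (Nat.div_dvd_of_dvd hpn),
      Nat.div_div_self hpn hn.ne']
  have hc := (F.res N).commute_of_normalizes ha
    (by rw [hconj]; exact pow_mem (Subgroup.mem_zpowers y) _)
  have hyy : y ^ (r ^ (n / p)) = y ^ 1 := by
    rw [← hconj, pow_one, mul_assoc, ← hc, inv_mul_cancel_left]
  have := pow_eq_pow_iff_modEq.mp hyy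
  rwa [hy] at this

end Cfsg.Agent.S3358
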