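import Cfsg.Statements.S3362
import Cfsg.Agent.SmallOrder.M12Gen

set_option autoImplicit false
open Cfsg

namespace Cfsg.Agent.S3362

/-- An explicit construction of the Mathieu groups of degrees 11 and 12. On the points 0, …, 11 let s = (3 4 5)(6 7 8)(9 10 11), t = (3 6 9)(4 7 10)(5 8 11), u = (4 6 5 9)(7 8 11 10), v = (4 7 5 11)(6 10 9 8), w = (4 10 5 8)(6 11 9 7), x₁ = (0 3)(6 7)(8 10)(9 11), x₂ = (0 1)(6 9)(7 10)(8 11), x₃ = (1 2)(6 11)(7 9)(8 10) (each written as a product of transpositions). Then the group M₁₂ generated by all eight permutations is sharply 5-transitive on the 12 points and has order 95040, and the group M₁₁ generated by the first seven has order 7920 and is the stabilizer of the point 2 in M₁₂. -/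
theorem result
    (s t u v w x₁ x₂ x₃ : Equiv.Perm (Fin 12))
    (hs : s = Equiv.swap (3 : Fin 12) 5 * Equiv.swap (3 : Fin 12) 4 * Equiv.swap (6 : Fin 12) 8 * Equiv.swap (6 : Fin 12) 7 * Equiv.swap (9 : Fin 12) 11 * Equiv.swap (9 : Fin 12) 10) (ht : t = Equiv.swap (3 : Fin 12) 9 * Equiv.swap (3 : Fin 12) 6 * Equiv.swap (4 : Fin 12) 10 * Equiv.swap (4 : Fin 12) 7 * Equiv.swap (5 : Fin 12) 11 * Equiv.swap (5 : Fin 12) 8)
    (hu : u = Equiv.swap (4 : Fin 12) 9 * Equiv.swap (4 : Fin 12) 5 * Equiv.swap (4 : Fin 12) 6 * Equiv.swap (7 : Fin 12) 10 * Equiv.swap (7 : Fin 12) 11 * Equiv.swap (7 : Fin 12) 8) (hv : v = Equiv.swap (4 : Fin 12) 11 * Equiv.swap (4 : Fin 12) 5 * Equiv.swap (4 : Fin 12) 7 * Equiv.swap (6 : Fin 12) 8 * Equiv.swap (6 : Fin 12) 9 * Equiv.swap (6 : Fin 12) 10) (hw : w = Equiv.swap (4 : Fin 12) 8 * Equiv.swap (4 : Fin 12) 5 * Equiv.swap (4 : Fin 12) 10 * Equiv.swap (6 : Fin 12) 7 * Equiv.swap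 (6 : Fin 12) 9 * Equiv.swap (6 : Fin 12) 11)
    (hx₁ : x₁ = Equiv.swap (0 : Fin 12) 3 * Equiv.swap (6 : Fin 12) 7 * Equiv.swap (8 : Fin 12) 10 * Equiv.swap (9 : Fin 12) 11) (hx₂ : x₂ = Equiv.swap (0 : Fin 12) 1 * Equiv.swap (6 : Fin 12) 9 * Equiv.swap (7 : Fin 12) 10 * Equiv.swap (8 : Fin 12) 11)
    (hx₃ : x₃ = Equiv.swap (1 : Fin 12) 2 * Equiv.swap (6 : Fin 12) 11 * Equiv.swap (7 : Fin 12) 9 * Equiv.swap (8 : Fin 12) 10)
    (M₁₂ M₁₁ : Subgroup (Equiv.Perm (Fin 12))) (hM₁₂ : M₁₂ = Subgroup.closure {s, t, u, v, w, x₁, x₂, x₃})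
    (hM₁₁ : M₁₁ = Subgroup.closure {s, t, u, v, w, x₁, x₂}) :
    MulAction.IsMultiplyPretransitive M₁₂ (Fin 12) 5 ∧ (∀ y : Fin 5 ↪ Fin 12, MulAction.stabilizer M₁₂ y = ⊥) ∧
    Nat.card M₁₂ = 95040 ∧ Nat.card M₁₁ = 7920 ∧
    M₁₁ = M₁₂ ⊓ MulAction.stabilizer (Equiv.Perm (Fin 12)) (2 : Fin 12) := by
  classical
  let gen : Fin 8 → Equiv.Perm (Fin 12) := ![s, t, u, v, w, x₁, x₂, x₃]
  have hgen : ∀ i x, gen i x = SmallOrder.M12Gen.tab i x := by
    subst hs ht hu hv hw hx₁ hx₂ hx₃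
    intro i
    fin_cases i <;> decide +kernel
  have hrange : Set.range gen = {s, t, u, v, w, x₁, x₂, x₃} := by
    simp only [gen, Matrix.range_cons, Matrix.range_empty, Set.singleton_union, insert_empty_eq]
  have h12 : M₁₂ = Subgroup.closure (Set.range gen) := by rw [hM₁₂, hrange]
  let b : Fin 5 ↪ Fin 12 := ⟨SmallOrder.M12Gen.base, by decide⟩
  have hbase : ∀ y : Fin 5 ↪ Fin 12, ∃ g : M₁₂, ∀ j, (g : Equiv.Perm (Fin 12)) (y j) = b j := by
    intro y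
    obtain ⟨g, hg, hgy⟩ := SmallOrder.M12Gen.to_base gen hgen y
    exact ⟨⟨g, h12 ▸ hg⟩, hgy⟩
  have htr : MulAction.IsMultiplyPretransitive M₁₂ (Fin 12) 5 := ⟨fun y z => by
    obtain ⟨g, hg⟩ := hbase y
    obtain ⟨k, hk⟩ := hbase z
    refine ⟨k⁻¹ * g, DFunLike.ext _ _ fun j => ?_⟩
    show ((k : Equiv.Perm (Fin 12))⁻¹ * g) (y j) = z j
    rw [Equiv.Perm.mul_apply, hg, ← hk, Equiv.Perm.inv_def, Equiv.symm_apply_apply]⟩
  have hfree : ∀ y : Fin 5 ↪ Fin 12, MulAction.stabilizer M₁₂ y = ⊥ := by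
    intro y
    obtain ⟨k, hk⟩ := hbase y
    rw [eq_bot_iff]
    intro g hg
    have hgy : ∀ j, (g : Equiv.Perm (Fin 12)) (y j) = y j := fun j => DFunLike.congr_fun hg j
    have h2 := SmallOrder.M12Gen.eq_one gen hgen (g := ((k * g * k⁻¹ : M₁₂) : Equiv.Perm (Fin 12)))
      (h12 ▸ (k * g * k⁻¹).2) (fun j => by
        show ((k : Equiv.Perm (Fin 12)) * g * (k : Equiv.Perm (Fin 12))⁻¹) (b j) = b j
        rw [Equiv.Perm.mul_apply, Equiv.Perm.mul_apply, ← hk, Equiv.Perm.inv_def,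
          Equiv.symm_apply_apply, hgy])
    rw [Subgroup.mem_bot]
    exact conj_eq_one_iff.1 (Subtype.ext h2)
  have hcard : Nat.card M₁₂ = 95040 := by
    let f : M₁₂ → (Fin 5 ↪ Fin 12) := fun g => b.trans (g : Equiv.Perm (Fin 12)).toEmbedding
    have hf : Function.Bijective f := by
      constructor
      · intro g g' e
        have h2 := SmallOrder.M12Gen.eq_one gen hgen (g := ((g'⁻¹ * g : M₁₂) : Equiv.Perm (Fin 12)))
          (h12 ▸ (g'⁻¹ * g).2) (fun j => by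
            show ((g' : Equiv.Perm (Fin 12))⁻¹ * g) (b j) = b j
            have ej : (g : Equiv.Perm (Fin 12)) (b j) = (g' : Equiv.Perm (Fin 12)) (b j) :=
              DFunLike.congr_fun e j
            rw [Equiv.Perm.mul_apply, ej, Equiv.Perm.inv_def, Equiv.symm_apply_apply])
        exact (inv_mul_eq_one.1 (Subtype.ext h2 : g'⁻¹ * g = 1)).symm
      · intro y
        obtain ⟨g, hg⟩ := hbase y
        refine ⟨g⁻¹, DFunLike.ext _ _ fun j => ?_⟩
        show (g : Equiv.Perm (Fin 12))⁻¹ (b j) = y j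
        rw [← hg, Equiv.Perm.inv_def, Equiv.symm_apply_apply]
    have h1 := (Nat.card_eq_of_bijective f hf).symm
    rw [← h1, Nat.card_eq_fintype_card, Fintype.card_embedding_eq]
    decide
  let H : Subgroup M₁₂ := MulAction.stabilizer M₁₂ (2 : Fin 12)
  have hH : Nat.card H = 7920 := by
    haveI : MulAction.IsPretransitive M₁₂ (Fin 12) := ⟨fun p q => by
      obtain ⟨g, hg⟩ := MulAction.exists_smul_eq M₁₂
        ((⟨fun j => (⟨(p.val + j.val) % 12, Nat.mod_lt _ (by norm_num)⟩ : Fin 12), fun i j e => Fin.ext (by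
          have := congrArg Fin.val e; simp at this; omega)⟩) : Fin 5 ↪ Fin 12)
        ((⟨fun j => (⟨(q.val + j.val) % 12, Nat.mod_lt _ (by norm_num)⟩ : Fin 12), fun i j e => Fin.ext (by
          have := congrArg Fin.val e; simp at this; omega)⟩) : Fin 5 ↪ Fin 12)
      have h0 := DFunLike.congr_fun hg 0
      refine ⟨g, ?_⟩
      have e : ∀ r : Fin 12, (⟨(r.val + (0 : Fin 5).val) % 12, Nat.mod_lt _ (by norm_num)⟩ : Fin 12) = r :=
        fun r => Fin.ext (by simp [Nat.mod_eq_of_lt r.2])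
      exact (congrArg (g • ·) (e p).symm).trans (h0.trans (e q))⟩
    have h1 := H.card_mul_index
    rw [MulAction.index_stabilizer_of_transitive, hcard, Nat.card_fin] at h1
    omega
  -- `M₁₁` is transitive on the four-tuples avoiding `2`
  have hle : M₁₁ ≤ M₁₂ ⊓ MulAction.stabilizer (Equiv.Perm (Fin 12)) (2 : Fin 12) := by
    rw [hM₁₁, Subgroup.closure_le]
    have hmem : ∀ i : Fin 8, gen i ∈ M₁₂ := fun i => h12 ▸ Subgroup.subset_closure ⟨i, rfl⟩
    have h2 : ∀ i : Fin 8, i.val < 7 → gen i 2 = 2 := fun i hi => by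
      rw [hgen]; revert hi; revert i; decide +kernel
    rintro g hg
    simp only [Set.mem_insert_iff, Set.mem_singleton_iff] at hg
    rcases hg with rfl | rfl | rfl | rfl | rfl | rfl | rfl
    exacts [⟨hmem 0, h2 0 (by decide)⟩, ⟨hmem 1, h2 1 (by decide)⟩, ⟨hmem 2, h2 2 (by decide)⟩,
      ⟨hmem 3, h2 3 (by decide)⟩, ⟨hmem 4, h2 4 (by decide)⟩, ⟨hmem 5, h2 5 (by decide)⟩,
      ⟨hmem 6, h2 6 (by decide)⟩]
  have hge : M₁₂ ⊓ MulAction.stabilizer (Equiv.Perm (Fin 12)) (2 : Fin 12) ≤ M₁₁ := by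
    rintro g ⟨hg, hg2⟩
    obtain ⟨k, hk, hkb⟩ := SmallOrder.M12Gen.to_base11 gen hgen
      (b.trans (g⁻¹ : Equiv.Perm (Fin 12)).toEmbedding) (by
        show (g⁻¹ : Equiv.Perm (Fin 12)) 2 = 2
        rw [Equiv.Perm.inv_eq_iff_eq]
        exact hg2.symm)
    have hk11 : k ∈ M₁₁ := by
      rw [hM₁₁]
      refine Subgroup.closure_mono ?_ hk
      rintro _ ⟨i, rfl⟩
      fin_cases i <;> simp [gen]
    have hk12 : k ∈ M₁₂ := (hle hk11).1
    have h1 : k * g⁻¹ = 1 := SmallOrder.M12Gen.eq_one gen hgen (h12 ▸ mul_mem hk12 (inv_mem hg))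
      (fun j => hkb j)
    rwa [show g = k from (mul_inv_eq_one.1 h1).symm]
  have heq := le_antisymm hle hge
  refine ⟨htr, hfree, hcard, ?_, heq⟩
  rw [← hH, heq]
  exact Nat.card_congr
    { toFun := fun g => ⟨⟨g.1, g.2.1⟩, g.2.2⟩
      invFun := fun g => ⟨g.1.1, g.1.2, g.2⟩
      left_inv := fun g => rfl
      right_inv := fun g => rfl }

end Cfsg.Agent.S3362
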