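import Cfsg.Statements.S3374
import Cfsg.Agent.FGS4.Zass.Main
import Cfsg.Agent.FGS4.FrobeniusFPF
import Cfsg.Agent.FGS4.FPFModule

set_option autoImplicit false
open Cfsg

namespace Cfsg.Agent.S3374

open FGS4.Zass
open scoped Matrix

/-- A fifth root of unity modulo eleven. -/
def evalE : Z5 → ZMod 11
  | (a, b, c, d) => a + b * 3 + c * 9 + d * 5

/-- Evaluation of matrices. -/
def evalN : M5 → Matrix (Fin 2) (Fin 2) (ZMod 11)
  | (a, b, c, d) => !![evalE a, evalE b; evalE c, evalE d]

theorem evalE_add (x y : Z5) : evalE (zadd x y) = evalE x + evalE y := by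
  obtain ⟨a, b, c, d⟩ := x
  obtain ⟨e, f, g, h⟩ := y
  simp only [evalE, zadd, Int.cast_add]; ring

theorem evalE_mul (x y : Z5) : evalE (zmul x y) = evalE x * evalE y := by
  obtain ⟨a, b, c, d⟩ := x
  obtain ⟨e, f, g, h⟩ := y
  simp only [evalE, zmul, Int.cast_add, Int.cast_sub, Int.cast_mul]
  have h11 : (11 : ZMod 11) = 0 := rfl
  ring_nf
  linear_combination (6 * ((c : ZMod 11) * g + h * b + d * f) - 4 * h * c - 2 * h * d - 9 * h * b - 15 * g * c - 4 * g * d - 2 * g * b - 2 * f * c - 9 * f * d) * h11

theorem evalN_mul (x y : M5) : evalN (mmul x y) = evalN x * evalN y := by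
  obtain ⟨a, b, c, d⟩ := x
  obtain ⟨e, f, g, h⟩ := y
  ext i j
  fin_cases i <;> fin_cases j <;>
    simp [evalN, mmul, Matrix.mul_apply, Fin.sum_univ_two, evalE_add, evalE_mul]

theorem step (g : T5) : evalN (liftK (key (g * A5))) = evalN (liftK (key g)) * evalN mA ∧
    evalN (liftK (key (g * B5))) = evalN (liftK (key g)) * evalN mB := by
  obtain ⟨e, he, hek⟩ := exists_entry g
  obtain ⟨h1, h2, h3⟩ := liftK_step e he
  simp only [key_mul, key_A5, key_B5, ← hek, h1, h2, h3, evalN_mul, and_self]

theorem check : (table.all fun e => (e.1 == (1, 0, 0, 1)) ||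
    ((evalE e.2.1 - 1) * (evalE e.2.2.2.2 - 1) - evalE e.2.2.1 * evalE e.2.2.2.1 != 0)) = true := by
  decide +kernel

theorem evalN_one : evalN (liftK (1, 0, 0, 1)) = 1 := by decide +kernel

theorem exists_action : ∃ (L : Type) (_ : Group L) (_ : Finite L) (H : Subgroup L),
    Cfsg.IsFrobeniusComplement H ∧ Nonempty (T5 ≃* H) := by
  haveI : Fact (Nat.Prime 11) := ⟨by norm_num⟩
  haveI : Nontrivial T5 := Finite.one_lt_card_iff_nontrivial.mp (by rw [card_T5]; norm_num)
  let φ : T5 → Matrix (Fin 2) (Fin 2) (ZMod 11) := fun g => evalN (liftK (key g))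
  have hone : φ 1 = 1 := by
    show evalN (liftK (key 1)) = 1
    rw [key_one]
    exact evalN_one
  have hmul : ∀ g h, φ (g * h) = φ g * φ h := by
    have hA : φ A5 = evalN mA := by
      have := (step 1).1
      rw [one_mul] at this
      exact this.trans (by rw [show evalN (liftK (key 1)) = 1 from hone, one_mul])
    have hB : φ B5 = evalN mB := by
      have := (step 1).2
      rw [one_mul] at this
      exact this.trans (by rw [show evalN (liftK (key 1)) = 1 from hone, one_mul])
    intro g h
    have hm : h ∈ (Subgroup.closure ({A5, B5} : Set T5)).toSubmonoid := by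
      rw [closure_AB]; trivial
    rw [Subgroup.closure_toSubmonoid_of_finite] at hm
    induction hm using Submonoid.closure_induction generalizing g with
    | mem x hx =>
      rcases hx with rfl | rfl
      · rw [hA]; exact (step g).1
      · rw [hB]; exact (step g).2
    | one => rw [mul_one, hone, mul_one]
    | mul x y _ _ hx hy => rw [← mul_assoc, hy, hx, hy x, mul_assoc]
  refine FGS4.exists_complement_of_fpf_add (fun g v => φ g *ᵥ v)
    (fun v => by rw [hone, Matrix.one_mulVec])
    (fun a b v => by rw [hmul, Matrix.mulVec_mulVec]) (fun a v w => Matrix.mulVec_add _ _ _)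
    fun g hg v hv => ?_
  by_contra hv0
  have hd : (φ g - 1).det = 0 := Matrix.exists_mulVec_eq_zero_iff.mp
    ⟨v, hv0, by rw [Matrix.sub_mulVec, hv, Matrix.one_mulVec, sub_self]⟩
  obtain ⟨e, he, hek⟩ := exists_entry g
  have hc := List.all_eq_true.mp check e he
  simp only [Bool.or_eq_true, beq_iff_eq, bne_iff_ne, ne_eq] at hc
  rcases hc with hc | hc
  · exact hg (key_injective ((hek.symm.trans hc).trans key_one.symm))
  · apply hc
    have hφ : φ g = evalN e.2 := by
      show evalN (liftK (key g)) = _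
      rw [← hek, (liftK_step e he).2.2]
    rw [hφ, Matrix.det_fin_two] at hd
    simpa [evalN] using hd


/-- SL(2,5) occurs as a Frobenius complement: there is a finite group L with a subgroup H isomorphic to SL(2,5) which is a non-trivial proper subgroup meeting each conjugate gHg⁻¹ with g outside H trivially. -/
theorem result :
    ∃ (L : Type) (_ : Group L) (_ : Finite L) (H : Subgroup L),
      Cfsg.IsFrobeniusComplement H ∧ Nonempty (H ≃* Matrix.SpecialLinearGroup (Fin 2) (ZMod 5)) := by
  haveI : Fact (Nat.Prime 11) := ⟨by norm_num⟩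
  haveI : Nontrivial (Matrix.SpecialLinearGroup (Fin 2) (ZMod 5)) :=
    Finite.one_lt_card_iff_nontrivial.mp (by rw [FGS4.Zass.card_T5]; norm_num)
  obtain ⟨L, i1, i2, H, hH, ⟨e⟩⟩ := exists_action
  exact ⟨L, i1, i2, H, hH, ⟨e.symm⟩⟩

end Cfsg.Agent.S3374
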