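import Cfsg.Statements.S3375
import Mathlib

set_option autoImplicit false
open Cfsg

namespace Cfsg.Agent.S3375

/-- Let γ be an automorphism of order 2 of a finite group H. (i) If γ fixes only the identity, then H is abelian and γ inverts every element. (ii) If γ has exactly two fixed points and H has a subgroup of index 2, then H has a γ-invariant abelian subgroup of index 2 on which γ acts by inversion. -/
theorem result {H : Type*} [Group H] [Finite H] (γ : MulAut H) (hγ : orderOf γ = 2) :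
    ((∀ h : H, γ h = h → h = 1) → (∀ a b : H, a * b = b * a) ∧ ∀ h : H, γ h = h⁻¹) ∧
    ((Nat.card {h : H // γ h = h} = 2 ∧ ∃ M : Subgroup H, M.index = 2) →
      ∃ A : Subgroup H, A.index = 2 ∧ IsMulCommutative A ∧ (∀ a ∈ A, γ a ∈ A) ∧ ∀ a ∈ A, γ a = a⁻¹) := by
  classical
  have hγ2 : ∀ x, γ (γ x) = x := fun x => by
    have h : γ ^ 2 = 1 := by rw [← hγ]; exact pow_orderOf_eq_one γ
    rw [sq] at h
    exact DFunLike.congr_fun h x
  have hinv : ∀ x, γ (x⁻¹ * γ x) = (x⁻¹ * γ x)⁻¹ := fun x => by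
    rw [map_mul, map_inv, hγ2, mul_inv_rev, inv_inv]
  constructor
  · intro hfix
    have hinj : Function.Injective (fun x : H => x⁻¹ * γ x) := by
      intro a b h
      simp only at h
      have h' : γ (b * a⁻¹) = b * a⁻¹ := by
        rw [map_mul, map_inv]
        calc γ b * (γ a)⁻¹ = b * ((b⁻¹ * γ b) * (a⁻¹ * γ a)⁻¹) * a⁻¹ := by group
          _ = b * a⁻¹ := by rw [h]; group
      exact (mul_inv_eq_one.mp (hfix _ h')).symm
    have hI : ∀ h : H, γ h = h⁻¹ := fun h => by
      obtain ⟨x, rfl⟩ := (Finite.injective_iff_surjective.mp hinj) h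
      exact hinv x
    refine ⟨fun a b => ?_, hI⟩
    have h := hI (a⁻¹ * b⁻¹)
    rw [map_mul, hI, hI, inv_inv, inv_inv, mul_inv_rev, inv_inv, inv_inv] at h
    exact h
  · rintro ⟨h2, M, hM⟩
    -- a `γ`-invariant subgroup of index two
    have hmem : ∀ (N : Subgroup H), N.index = 2 → ∀ a b : H, (a * b ∈ N ↔ (a ∈ N ↔ b ∈ N)) :=
      fun N hN a b => Subgroup.mul_mem_iff_of_index_two hN
    obtain ⟨L, hL, hLγ⟩ : ∃ L : Subgroup H, L.index = 2 ∧ ∀ a, γ a ∈ L ↔ a ∈ L := by
      by_cases hMγ : ∀ a, γ a ∈ M ↔ a ∈ M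
      · exact ⟨M, hM, hMγ⟩
      refine ⟨{ carrier := {a | γ a ∈ M ↔ a ∈ M}, mul_mem' := ?_, one_mem' := ?_, inv_mem' := ?_ }, ?_, ?_⟩
      · intro a b ha hb
        simp only [Set.mem_setOf_eq, map_mul] at ha hb ⊢
        rw [hmem M hM, hmem M hM, ha, hb]
      · simp
      · intro a ha
        simpa only [Set.mem_setOf_eq, map_inv, inv_mem_iff] using ha
      · rw [Subgroup.index_eq_two_iff]
        push Not at hMγ
        obtain ⟨a, ha⟩ := hMγ
        refine ⟨a, fun b => ?_⟩
        show Xor' (γ (b * a) ∈ M ↔ b * a ∈ M) (γ b ∈ M ↔ b ∈ M)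
        rw [map_mul, hmem M hM, hmem M hM]
        simp only [Xor']
        by_cases h1 : γ b ∈ M <;> by_cases h2 : b ∈ M <;> by_cases h3 : γ a ∈ M <;> by_cases h4 : a ∈ M <;> simp_all
      · intro a
        show (γ (γ a) ∈ M ↔ γ a ∈ M) ↔ (γ a ∈ M ↔ a ∈ M)
        rw [hγ2]
        exact ⟨Iff.symm, Iff.symm⟩
    have := Fintype.ofFinite H
    let f : H → H := fun x => x⁻¹ * γ x
    let I := Finset.univ.image f
    have hIL : ∀ y ∈ I, y ∈ L := by
      intro y hy
      obtain ⟨x, -, rfl⟩ := Finset.mem_image.mp hy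
      exact (hmem L hL _ _).mpr (by rw [inv_mem_iff, hLγ])
    have hfib : ∀ y ∈ I, (Finset.univ.filter fun x => f x = y).card ≤ 2 := by
      intro y hy
      obtain ⟨x, -, rfl⟩ := Finset.mem_image.mp hy
      have hle : (Finset.univ.filter fun x' => f x' = f x).card ≤ (Finset.univ.filter fun h : H => γ h = h).card := by
        refine Finset.card_le_card_of_injOn (fun x' => x * x'⁻¹) ?_ ?_
        · intro x' hx'
          simp only [Finset.coe_filter, Finset.mem_univ, true_and, Set.mem_setOf_eq, f] at hx' ⊢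
          rw [map_mul, map_inv]
          calc γ x * (γ x')⁻¹ = x * ((x⁻¹ * γ x) * (x'⁻¹ * γ x')⁻¹) * x'⁻¹ := by group
            _ = x * x'⁻¹ := by rw [hx']; group
        · intro a _ b _ h
          simpa using h
      refine hle.trans (le_of_eq ?_)
      rw [← h2, Nat.card_eq_fintype_card, Fintype.card_subtype]
    have hLI : ∀ a ∈ L, γ a = a⁻¹ := by
      intro a ha
      have h1 : Fintype.card H ≤ 2 * I.card := by
        rw [← Finset.card_univ]
        exact (Finset.card_le_mul_card_image _ 2 hfib)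
      have hLc : (Finset.univ.filter fun a => a ∈ L).card * 2 = Fintype.card H := by
        rw [← Fintype.card_subtype, ← Nat.card_eq_fintype_card, ← Nat.card_eq_fintype_card, ← hL]
        exact L.card_mul_index
      have hsub : I ⊆ Finset.univ.filter fun a => a ∈ L := fun y hy =>
        Finset.mem_filter.mpr ⟨Finset.mem_univ _, hIL y hy⟩
      have heq := Finset.eq_of_subset_of_card_le hsub (by omega)
      have : a ∈ I := heq ▸ Finset.mem_filter.mpr ⟨Finset.mem_univ _, ha⟩
      obtain ⟨x, -, rfl⟩ := Finset.mem_image.mp this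
      exact hinv x
    refine ⟨L, hL, ⟨⟨fun a b => Subtype.ext ?_⟩⟩, fun a ha => (hLγ a).mpr ha, hLI⟩
    have h := hLI (a.1⁻¹ * b.1⁻¹) (L.mul_mem (L.inv_mem a.2) (L.inv_mem b.2))
    rw [map_mul, hLI _ (L.inv_mem a.2), hLI _ (L.inv_mem b.2), inv_inv, inv_inv, mul_inv_rev, inv_inv, inv_inv] at h
    exact h

end Cfsg.Agent.S3375
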