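import Cfsg.Statements.S3381
import Mathlib

set_option autoImplicit false
open Cfsg

namespace Cfsg.Agent.S3381

/-- Let G be a finite group acting faithfully and linearly on a non-trivial finite vector space V over the field with q elements (q prime) so that every non-zero vector has a stabilizer of order 2, and suppose G has a central involution. Then V has q^(2r) elements for some r and G contains exactly q^r + 1 non-central involutions. -/
theorem result
    (q : ℕ) [Fact q.Prime] {V : Type*} [AddCommGroup V] [Module (ZMod q) V] [Finite V] [Nontrivial V]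
    {G : Type*} [Group G] [Finite G] (ρ : G →* (V ≃ₗ[ZMod q] V)) (hρ : Function.Injective ρ)
    (hstab : ∀ v : V, v ≠ 0 → Nat.card {g : G // ρ g v = v} = 2)
    (z : G) (hz : orderOf z = 2) (hzc : z ∈ Subgroup.center G) :
    ∃ r : ℕ, Nat.card V = q ^ (2 * r) ∧
      Nat.card {g : G // orderOf g = 2 ∧ g ∉ Subgroup.center G} = q ^ r + 1 := by
  classical
  have hq : q.Prime := Fact.out
  have hz1 : z ≠ 1 := fun h => by rw [h, orderOf_one] at hz; norm_num at hz
  have hzz : z * z = 1 := by rw [← pow_two, ← hz, pow_orderOf_eq_one]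
  have hzcomm : ∀ g, z * g = g * z := fun g => (Subgroup.mem_center_iff.mp hzc g).symm
  have hone : ∀ v : V, ρ 1 v = v := fun v => by rw [map_one]; rfl
  have hmul : ∀ a b : G, ∀ v : V, ρ (a * b) v = ρ a (ρ b v) := fun a b v => by rw [map_mul]; rfl
  -- the unique non-trivial element fixing a vector
  have huniq : ∀ v : V, v ≠ 0 → ∃ t, t ≠ 1 ∧ t * t = 1 ∧ ρ t v = v ∧ ∀ g, ρ g v = v → g = 1 ∨ g = t := by
    intro v hv
    obtain ⟨a, b, hab, hu⟩ := Nat.card_eq_two_iff.mp (hstab v hv)
    have hmem : ∀ g, ρ g v = v → g = a.1 ∨ g = b.1 := fun g hg => by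
      have : (⟨g, hg⟩ : {g : G // ρ g v = v}) ∈ ({a, b} : Set _) := by rw [hu]; exact Set.mem_univ _
      rcases this with h | h
      · exact Or.inl (congrArg Subtype.val h)
      · exact Or.inr (congrArg Subtype.val h)
    have key : ∀ a b : G, a ≠ b → ρ a v = v → ρ b v = v → (∀ g, ρ g v = v → g = a ∨ g = b) → a = 1 →
        b * b = 1 := by
      intro a b hne ha hb hm ha1
      rcases hm (b * b) (by rw [hmul, hb, hb]) with h | h
      · rw [h, ha1]
      · exact absurd (mul_eq_right.mp h) (fun h' => hne (ha1.trans h'.symm))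
    have hne : a.1 ≠ b.1 := fun h => hab (Subtype.ext h)
    rcases hmem 1 (hone v) with h | h
    · exact ⟨b.1, fun e => hne (h.symm.trans e.symm), key _ _ hne a.2 b.2 hmem h.symm, b.2,
        fun g hg => (hmem g hg).imp (fun e => e.trans h.symm) id⟩
    · exact ⟨a.1, fun e => hne (e.trans h), key _ _ hne.symm b.2 a.2 (fun g hg => (hmem g hg).symm) h.symm, a.2,
        fun g hg => (hmem g hg).elim Or.inr (fun e => Or.inl (e.trans h.symm))⟩
  have hfix_unique : ∀ v : V, v ≠ 0 → ∀ s t : G, s ≠ 1 → t ≠ 1 → ρ s v = v → ρ t v = v → s = t := by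
    intro v hv s t hs ht hsv htv
    obtain ⟨u, -, -, -, hu⟩ := huniq v hv
    rw [(hu s hsv).resolve_left hs, (hu t htv).resolve_left ht]
  have heq1 : ∀ g : G, (∀ v, ρ g v = v) → g = 1 := fun g hg => hρ (by
    rw [map_one]; exact LinearEquiv.ext hg)
  have hsym : ∀ t : G, t * t = 1 → ∀ v, ρ t (v + ρ t v) = v + ρ t v := fun t ht v => by
    rw [map_add, ← hmul, ht, hone, add_comm]
  have hq2 : q ≠ 2 := by
    intro h2
    subst h2
    have hvv : ∀ v : V, v + v = 0 := fun v => by
      rw [← two_smul (ZMod 2) v, show (2 : ZMod 2) = 0 from rfl, zero_smul]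
    obtain ⟨w, hw, hw0⟩ : ∃ w, ρ z w = w ∧ w ≠ 0 := by
      obtain ⟨v, hv⟩ := exists_ne (0 : V)
      by_cases h : v + ρ z v = 0
      · refine ⟨v, ?_, hv⟩
        rw [eq_neg_of_add_eq_zero_right h]
        exact (eq_neg_of_add_eq_zero_left (hvv v)).symm
      · exact ⟨_, hsym z hzz v, h⟩
    have hall : ∀ v : V, ρ z v = v := by
      intro v
      by_cases hv : v = 0
      · rw [hv, map_zero]
      obtain ⟨t, ht1, htt, htv, -⟩ := huniq v hv
      suffices t = z by rw [← this]; exact htv
      by_cases h : w + ρ t w = 0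
      · refine hfix_unique w hw0 t z ht1 hz1 ?_ hw
        rw [eq_neg_of_add_eq_zero_right h]
        exact (eq_neg_of_add_eq_zero_left (hvv w)).symm
      · refine hfix_unique _ h t z ht1 hz1 (hsym t htt w) ?_
        rw [map_add, hw, ← hmul, hzcomm, hmul, hw]
    exact hz1 (heq1 z hall)
  have h2 : (2 : ZMod q) ≠ 0 := by
    intro h
    have := (ZMod.natCast_eq_zero_iff 2 q).mp (by exact_mod_cast h)
    exact hq2 ((Nat.prime_dvd_prime_iff_eq hq Nat.prime_two).mp this)
  have hhalf : ∀ v : V, v + v = 0 → v = 0 := fun v h => by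
    rw [← two_smul (ZMod q) v] at h
    exact (smul_eq_zero.mp h).resolve_left h2
  have hsplit : ∀ t : G, ∀ v : V, ((2 : ZMod q)⁻¹ • (v + ρ t v)) + ((2 : ZMod q)⁻¹ • (v - ρ t v)) = v := by
    intro t v
    rw [← smul_add, add_add_sub_cancel, ← two_smul (ZMod q) v, smul_smul, inv_mul_cancel₀ h2, one_smul]
  have hanti : ∀ t : G, t * t = 1 → ∀ v, ρ t (v - ρ t v) = -(v - ρ t v) := fun t ht v => by
    rw [map_sub, ← hmul, ht, hone, neg_sub]
  -- `z` inverts every vector
  have hzneg : ∀ v, ρ z v = -v := by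
    intro v
    by_contra hv
    set a := (2 : ZMod q)⁻¹ • (v + ρ z v)
    set b := (2 : ZMod q)⁻¹ • (v - ρ z v)
    have haz : ρ z a = a := by rw [map_smul, hsym z hzz]
    have hbz : ρ z b = -b := by rw [map_smul, hanti z hzz, smul_neg]
    have ha : a ≠ 0 := fun h => hv (by
      have := hsplit z v
      change a + b = v at this
      rw [h, zero_add] at this
      rw [← this, hbz])
    obtain ⟨u, hu⟩ : ∃ u, ρ z u ≠ u := by
      by_contra h; push Not at h; exact hz1 (heq1 z h)
    set c := (2 : ZMod q)⁻¹ • (u - ρ z u)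
    have hcz : ρ z c = -c := by rw [map_smul, hanti z hzz, smul_neg]
    have hc : c ≠ 0 := fun h => hu (by
      rw [smul_eq_zero] at h
      exact (sub_eq_zero.mp (h.resolve_left (inv_ne_zero h2))).symm)
    have hac : a + c ≠ 0 := fun h => ha (hhalf a (by
      have h' := congrArg (ρ z) h
      rw [map_add, haz, hcz, map_zero] at h'
      calc a + a = (a + c) + (a + -c) := by abel
        _ = 0 := by rw [h, h', add_zero]))
    obtain ⟨t, ht1, -, htv, -⟩ := huniq _ hac
    have h' : ρ t (a + -c) = a + -c := by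
      calc ρ t (a + -c) = ρ t (ρ z (a + c)) := by rw [map_add (ρ z), haz, hcz]
        _ = ρ z (ρ t (a + c)) := by rw [← hmul, ← hzcomm, hmul]
        _ = a + -c := by rw [htv, map_add, haz, hcz]
    rw [map_add] at htv h'
    rw [map_neg] at h'
    have hta : ρ t a = a := by
      have : (ρ t a - a) + (ρ t a - a) = 0 := by
        calc (ρ t a - a) + (ρ t a - a) = (ρ t a + ρ t c) + (ρ t a + -ρ t c) - (a + c) - (a + -c) := by abel
          _ = 0 := by rw [htv, h']; abel
      exact sub_eq_zero.mp (hhalf _ this)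
    have htz : t = z := hfix_unique a ha t z ht1 hz1 hta haz
    rw [hta, htz, hcz] at htv
    exact hc (hhalf c (by
      calc c + c = (a + c) - (a + -c) := by abel
        _ = 0 := by rw [htv, sub_self]))
  have hnc : ∀ t : G, t * t = 1 → t ∈ Subgroup.center G → t = 1 ∨ t = z := by
    intro t htt htc
    by_contra hcon
    push Not at hcon
    by_cases h : ∀ v, v + ρ t v = 0
    · refine hcon.2 (hρ (LinearEquiv.ext fun v => ?_))
      rw [hzneg]; exact eq_neg_of_add_eq_zero_right (h v)
    push Not at h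
    obtain ⟨v, hv⟩ := h
    set a := v + ρ t v
    obtain ⟨u, hu⟩ : ∃ u, ρ t u ≠ u := by
      by_contra h; push Not at h; exact hcon.1 (heq1 t h)
    set c := u - ρ t u
    have hta : ρ t a = a := hsym t htt v
    have htc' : ρ t c = -c := hanti t htt u
    have hc : c ≠ 0 := fun h => hu (sub_eq_zero.mp h).symm
    have hac : a + c ≠ 0 := fun h => hv (hhalf a (by
      have h' := congrArg (ρ t) h
      rw [map_add, hta, htc', map_zero] at h'
      calc a + a = (a + c) + (a + -c) := by abel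
        _ = 0 := by rw [h, h', add_zero]))
    obtain ⟨s, hs1, -, hsv, -⟩ := huniq _ hac
    have h' : ρ s (a + -c) = a + -c := by
      calc ρ s (a + -c) = ρ s (ρ t (a + c)) := by rw [map_add (ρ t), hta, htc']
        _ = ρ t (ρ s (a + c)) := by rw [← hmul, Subgroup.mem_center_iff.mp htc s, hmul]
        _ = a + -c := by rw [hsv, map_add, hta, htc']
    rw [map_add] at hsv h'
    rw [map_neg] at h'
    have hsa : ρ s a = a := by
      have : (ρ s a - a) + (ρ s a - a) = 0 := by
        calc (ρ s a - a) + (ρ s a - a) = (ρ s a + ρ s c) + (ρ s a + -ρ s c) - (a + c) - (a + -c) := by abel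
          _ = 0 := by rw [hsv, h']; abel
      exact sub_eq_zero.mp (hhalf _ this)
    have hst : s = t := hfix_unique a hv s t hs1 hcon.1 hsa hta
    rw [hsa, hst, htc'] at hsv
    exact hc (hhalf c (by
      calc c + c = (a + c) - (a + -c) := by abel
        _ = 0 := by rw [hsv, sub_self]))
  -- the non-central involutions
  let I : Type _ := {g : G // orderOf g = 2 ∧ g ∉ Subgroup.center G}
  have hI : ∀ t : I, t.1 ≠ 1 ∧ t.1 * t.1 = 1 ∧ t.1 ≠ z := fun t => by
    refine ⟨fun h => t.2.2 (h ▸ (Subgroup.center G).one_mem), ?_, fun h => t.2.2 (h ▸ hzc)⟩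
    have h := pow_orderOf_eq_one t.1; rwa [t.2.1, pow_two] at h
  let flip : I → I := fun t => ⟨t.1 * z, by
    refine ⟨orderOf_eq_prime ?_ fun h => (hI t).2.2 ?_, fun h => t.2.2 ?_⟩
    · rw [pow_two, mul_assoc, ← mul_assoc z, hzcomm t.1, mul_assoc t.1 z z, hzz, mul_one, (hI t).2.1]
    · rw [mul_eq_one_iff_eq_inv] at h
      rw [h, inv_eq_of_mul_eq_one_right hzz]
    · have := (Subgroup.center G).mul_mem h hzc
      rwa [mul_assoc, hzz, mul_one] at this⟩
  let E : G → Submodule (ZMod q) V := fun g => LinearMap.ker ((ρ g : V →ₗ[ZMod q] V) - LinearMap.id)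
  have hE : ∀ (g : G) (v : V), v ∈ E g ↔ ρ g v = v := fun g v => by
    show v ∈ LinearMap.ker ((ρ g : V →ₗ[ZMod q] V) - LinearMap.id) ↔ _
    rw [LinearMap.mem_ker, LinearMap.sub_apply, sub_eq_zero]; rfl
  let f : I → ℕ := fun t => Nat.card (E t.1)
  have hzneg' : ∀ t : I, ∀ v, v ∈ E (flip t).1 ↔ ρ t.1 v = -v := fun t v => by
    rw [hE]
    show ρ (t.1 * z) v = v ↔ _
    rw [hmul, hzneg, map_neg, neg_eq_iff_eq_neg]
  have hdis : ∀ s t : I, s ≠ t → f s * f t ≤ Nat.card V := by
    intro s t hst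
    rw [← Nat.card_prod]
    refine Nat.card_le_card_of_injective (fun x : E s.1 × E t.1 => (x.1 : V) + x.2) ?_
    rintro ⟨a, b⟩ ⟨a', b'⟩ h
    have h' : (a : V) - a' = (b' : V) - b := by
      have h'' : (a : V) + b = (a' : V) + b' := h
      rw [sub_eq_sub_iff_add_eq_add, h'', add_comm]
    have h0 : (a : V) - a' = 0 := by
      by_contra hne
      refine hst (Subtype.ext (hfix_unique _ hne s.1 t.1 (hI s).1 (hI t).1 ((hE _ _).mp (Submodule.sub_mem _ a.2 a'.2)) ?_))
      rw [h']; exact (hE _ _).mp (Submodule.sub_mem _ b'.2 b.2)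
    exact Prod.ext (Subtype.ext (sub_eq_zero.mp h0)) (Subtype.ext (sub_eq_zero.mp (h'.symm.trans h0)).symm)
  have hflipne : ∀ t : I, flip t ≠ t := fun t h => hz1 (mul_eq_left.mp (congrArg Subtype.val h))
  have hfull : ∀ t : I, f t * f (flip t) = Nat.card V := by
    intro t
    refine le_antisymm (hdis t (flip t) (hflipne t).symm) ?_
    rw [← Nat.card_prod]
    refine Nat.card_le_card_of_surjective (fun x : E t.1 × E (flip t).1 => (x.1 : V) + x.2) fun v => ?_
    refine ⟨⟨⟨(2 : ZMod q)⁻¹ • (v + ρ t.1 v), (hE _ _).mpr (by rw [map_smul, hsym _ (hI t).2.1])⟩,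
      ⟨(2 : ZMod q)⁻¹ • (v - ρ t.1 v), (hzneg' t _).mpr (by rw [map_smul, hanti _ (hI t).2.1, smul_neg])⟩⟩, hsplit _ v⟩
  have hpos : ∀ t : I, 1 < f t := by
    intro t
    rw [Finite.one_lt_card_iff_nontrivial, Submodule.nontrivial_iff_ne_bot, Submodule.ne_bot_iff]
    by_contra h
    push Not at h
    refine (hI t).2.2 (hρ (LinearEquiv.ext fun v => ?_))
    rw [hzneg]
    exact eq_neg_of_add_eq_zero_right (h _ ((hE _ _).mpr (hsym _ (hI t).2.1 v)))
  -- every vector lies in exactly one of the fixed spaces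
  have hcov : ∀ v : V, v ≠ 0 → ∃ t : I, v ∈ E t.1 := by
    intro v hv
    obtain ⟨t, ht1, htt, htv, -⟩ := huniq v hv
    refine ⟨⟨t, orderOf_eq_prime (by rw [pow_two, htt]) ht1, fun hc => ?_⟩, (hE _ _).mpr htv⟩
    rcases hnc t htt hc with h | h
    · exact ht1 h
    · rw [h, hzneg] at htv
      exact hv (hhalf v (by nth_rewrite 1 [← htv]; exact neg_add_cancel v))
  obtain ⟨v₀, hv₀⟩ := exists_ne (0 : V)
  obtain ⟨t₀, -⟩ := hcov v₀ hv₀
  obtain ⟨s₀, hs₀⟩ : ∃ s : I, s ≠ t₀ ∧ s ≠ flip t₀ := by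
    obtain ⟨⟨a, ha⟩, ha0⟩ := @exists_ne (E t₀.1) (Finite.one_lt_card_iff_nontrivial.mp (hpos t₀)) 0
    obtain ⟨⟨b, hb⟩, hb0⟩ := @exists_ne (E (flip t₀).1) (Finite.one_lt_card_iff_nontrivial.mp (hpos (flip t₀))) 0
    have ha' : a ≠ 0 := fun h => ha0 (Subtype.ext h)
    have hb' : b ≠ 0 := fun h => hb0 (Subtype.ext h)
    have h1 := (hE _ _).mp ha
    have h2' := (hzneg' t₀ _).mp hb
    have hab : a + b ≠ 0 := fun h => ha' (hhalf a (by
      have h' := congrArg (ρ t₀.1) h
      rw [map_add, h1, h2', map_zero] at h'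
      calc a + a = (a + b) + (a + -b) := by abel
        _ = 0 := by rw [h, h', add_zero]))
    obtain ⟨s, hs⟩ := hcov _ hab
    refine ⟨s, fun h => ?_, fun h => ?_⟩
    · have h3 := (hE _ _).mp (h ▸ hs)
      rw [map_add, h1, h2'] at h3
      exact hb' (hhalf b (by
        calc b + b = (a + b) - (a + -b) := by abel
          _ = 0 := by rw [h3, sub_self]))
    · have h3 := (hzneg' t₀ _).mp (h ▸ hs)
      rw [map_add, h1, h2', neg_add] at h3
      exact ha' (hhalf a (by
        calc a + a = (a + -b) - (-a + -b) := by abel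
          _ = 0 := by rw [h3, sub_self]))
  have heqf : ∀ s t : I, s ≠ t → s ≠ flip t → f s = f t := by
    intro s t h1 h2'
    have hts : t ≠ flip s := fun h => h2' (Subtype.ext (by
      show s.1 = t.1 * z
      rw [h]; show s.1 = s.1 * z * z
      rw [mul_assoc, hzz, mul_one]))
    have e1 := hdis s (flip t) h2'
    have e2 := hfull t
    have e3 := hdis t (flip s) hts
    have e4 := hfull s
    have p1 := hpos (flip t)
    have p2 := hpos (flip s)
    rw [← e2] at e1
    rw [← e4] at e3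
    exact le_antisymm (Nat.le_of_mul_le_mul_right e1 (by omega)) (Nat.le_of_mul_le_mul_right e3 (by omega))
  have hflip2 : flip (flip t₀) = t₀ := Subtype.ext (by
    show t₀.1 * z * z = t₀.1
    rw [mul_assoc, hzz, mul_one])
  have hft : f (flip t₀) = f t₀ :=
    ((heqf s₀ (flip t₀) hs₀.2 (by rw [hflip2]; exact hs₀.1)).symm.trans (heqf s₀ t₀ hs₀.1 hs₀.2))
  have hall : ∀ t : I, f t = f t₀ := fun t => by
    by_cases h1 : t = t₀
    · rw [h1]
    by_cases h3 : t = flip t₀
    · rw [h3, hft]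
    exact heqf t t₀ h1 h3
  have hV : Nat.card V = f t₀ * f t₀ := by
    have := hfull t₀
    rw [hft] at this
    exact this.symm
  haveI := Fintype.ofFinite V
  haveI := Fintype.ofFinite I
  haveI := Fintype.ofFinite (E t₀.1)
  refine ⟨Module.finrank (ZMod q) (E t₀.1), ?_, ?_⟩
  · rw [hV, two_mul, pow_add]
    rw [show f t₀ = Nat.card (E t₀.1) from rfl, Nat.card_eq_fintype_card (α := E t₀.1), Module.card_eq_pow_finrank (K := ZMod q) (V := E t₀.1), ZMod.card]
  · have hr : q ^ Module.finrank (ZMod q) (E t₀.1) = f t₀ := by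
      rw [show f t₀ = Nat.card (E t₀.1) from rfl, Nat.card_eq_fintype_card (α := E t₀.1), Module.card_eq_pow_finrank (K := ZMod q) (V := E t₀.1), ZMod.card]
    rw [hr]
    show Nat.card I = f t₀ + 1
    -- count the non-zero vectors
    have hbij : Nat.card (Σ t : I, {v : E t.1 // v ≠ 0}) = Nat.card {v : V // v ≠ 0} := by
      refine Nat.card_congr (Equiv.ofBijective (fun x => ⟨(x.2.1 : V), fun h => x.2.2 (Subtype.ext h)⟩) ⟨?_, ?_⟩)
      · rintro ⟨s, ⟨a, ha⟩, ha0⟩ ⟨t, ⟨b, hb⟩, hb0⟩ h
        have h' : a = b := congrArg Subtype.val h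
        subst h'
        have hst : s = t := Subtype.ext (hfix_unique a (fun h => ha0 (Subtype.ext h)) s.1 t.1 (hI s).1 (hI t).1
          ((hE _ _).mp ha) ((hE _ _).mp hb))
        subst hst
        rfl
      · rintro ⟨v, hv⟩
        obtain ⟨t, ht⟩ := hcov v hv
        exact ⟨⟨t, ⟨v, ht⟩, fun h => hv (congrArg Subtype.val h)⟩, rfl⟩
    haveI : ∀ t : I, Fintype (E t.1) := fun t => Fintype.ofFinite _
    rw [Nat.card_sigma] at hbij
    have hcard : ∀ t : I, Nat.card {v : E t.1 // v ≠ 0} = f t₀ - 1 := fun t => by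
      rw [Nat.card_eq_fintype_card, Fintype.card_subtype_compl, Fintype.card_subtype_eq, ← hall t,
        ← Nat.card_eq_fintype_card]
    rw [Finset.sum_congr rfl fun t _ => hcard t, Finset.sum_const, Finset.card_univ, smul_eq_mul,
      Nat.card_eq_fintype_card (α := {v : V // v ≠ 0}), Fintype.card_subtype_compl, Fintype.card_subtype_eq,
      ← Nat.card_eq_fintype_card, ← Nat.card_eq_fintype_card, hV] at hbij
    have hp := hpos t₀
    have hsq : f t₀ * f t₀ - 1 = (f t₀ + 1) * (f t₀ - 1) := by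
      have := Nat.mul_self_sub_mul_self_eq (f t₀) 1
      simpa using this
    rw [hsq] at hbij
    exact Nat.eq_of_mul_eq_mul_right (by omega) hbij

end Cfsg.Agent.S3381
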