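import Cfsg.Statements.S3382
import Mathlib

set_option autoImplicit false
open Cfsg

namespace Cfsg.Agent.S3382


theorem isPGroup_mulAut {T : Type*} [Group T] [Finite T] (hT : IsPGroup 2 T) (D : Subgroup T)
    (A B : T) (n : ℕ) (hA : orderOf A = 2 ^ n) (hB : orderOf B = 2 ^ n)
    (hgen : D = Subgroup.closure {A, B}) (hidx : D.index ≤ 2)
    (htwo : ∀ x : T, orderOf x = 2 ^ n → x ∈ Subgroup.zpowers A ∨ x ∈ Subgroup.zpowers B) :
    IsPGroup 2 (MulAut T) := by
  have hfin : Finite (MulAut T) := Finite.of_injective (fun e : MulAut T => (e : T → T)) DFunLike.coe_injective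
  suffices h : ∀ r : ℕ, r.Prime → r ∣ Nat.card (MulAut T) → r = 2 from
    IsPGroup.of_card (Nat.eq_prime_pow_of_unique_prime_dvd Nat.card_pos.ne' fun {r} h1 h2 => h r h1 h2)
  intro r hr hrd
  by_contra hr2
  haveI : Fact r.Prime := ⟨hr⟩
  obtain ⟨φ, hφ⟩ := exists_prime_orderOf_dvd_card' (G := MulAut T) r hrd
  have hodd := hr.odd_of_ne_two hr2
  obtain ⟨j, hj⟩ := hodd
  have hφr : φ ^ r = 1 := by rw [← hφ]; exact pow_orderOf_eq_one φ
  have hgroup : ∀ x : T, orderOf x = 2 ^ n →
      Subgroup.zpowers x = Subgroup.zpowers A ∨ Subgroup.zpowers x = Subgroup.zpowers B := by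
    intro x hx
    rcases htwo x hx with h | h
    · exact Or.inl (Subgroup.eq_of_le_of_card_ge (Subgroup.zpowers_le.2 h)
        (by rw [Nat.card_zpowers, Nat.card_zpowers, hA, hx]))
    · exact Or.inr (Subgroup.eq_of_le_of_card_ge (Subgroup.zpowers_le.2 h)
        (by rw [Nat.card_zpowers, Nat.card_zpowers, hB, hx]))
  have hmap : ∀ (ψ : MulAut T) (x : T),
      (Subgroup.zpowers x).map ψ.toMonoidHom = Subgroup.zpowers (ψ x) := fun ψ x => MonoidHom.map_zpowers _ _
  have hA' : ∀ ψ : MulAut T, orderOf (ψ A) = 2 ^ n := fun ψ => by rw [ψ.orderOf_eq, hA]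
  have hB' : ∀ ψ : MulAut T, orderOf (ψ B) = 2 ^ n := fun ψ => by rw [ψ.orderOf_eq, hB]
  have hsq : ∀ x : T, (x = A ∨ x = B) → φ x ∈ Subgroup.zpowers x := by
    intro x hx
    have hxo : orderOf x = 2 ^ n := by rcases hx with rfl | rfl <;> assumption
    -- the square of `φ` fixes both cyclic subgroups
    have h2 : ∀ y : T, orderOf y = 2 ^ n → φ (φ y) ∈ Subgroup.zpowers y := by
      intro y hy
      by_cases h1 : φ y ∈ Subgroup.zpowers y
      · obtain ⟨k, hk⟩ := Subgroup.mem_zpowers_iff.1 h1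
        rw [← hk, map_zpow, ← hk]
        exact zpow_mem (zpow_mem (Subgroup.mem_zpowers y) _) _
      · have hy1 : orderOf (φ y) = 2 ^ n := by rw [φ.orderOf_eq, hy]
        have hy2 : orderOf (φ (φ y)) = 2 ^ n := by rw [φ.orderOf_eq, hy1]
        have hne : Subgroup.zpowers (φ y) ≠ Subgroup.zpowers y := fun e => h1 (e ▸ Subgroup.mem_zpowers _)
        have hne2 : Subgroup.zpowers (φ (φ y)) ≠ Subgroup.zpowers (φ y) := fun e => hne
          (Subgroup.map_injective (f := φ.toMonoidHom) φ.injective (by rw [hmap, hmap, e]))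
        have : Subgroup.zpowers (φ (φ y)) = Subgroup.zpowers y := by
          rcases hgroup y hy with a | a <;> rcases hgroup _ hy1 with b | b <;>
            rcases hgroup _ hy2 with c | c <;>
            first
              | exact c.trans a.symm
              | exact absurd (b.trans a.symm) hne
              | exact absurd (c.trans b.symm) hne2
        exact this ▸ Subgroup.mem_zpowers _
    have key : ∀ i : ℕ, ((φ * φ) ^ i) x ∈ Subgroup.zpowers x := by
      intro i
      induction i with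
      | zero => exact Subgroup.mem_zpowers x
      | succ i ih =>
        rw [pow_succ', MulAut.mul_apply, MulAut.mul_apply]
        obtain ⟨k, hk⟩ := Subgroup.mem_zpowers_iff.1 ih
        rw [← hk, map_zpow, map_zpow]
        exact zpow_mem (h2 x hxo) _
    have e : (φ * φ) ^ (j + 1) = φ := by
      rw [← sq, ← pow_mul, show 2 * (j + 1) = r + 1 by omega, pow_succ, hφr, one_mul]
    exact e ▸ key (j + 1)
  have hfix : ∀ x : T, (x = A ∨ x = B) → φ x = x := by
    intro x hx
    have hxo : orderOf x = 2 ^ n := by rcases hx with rfl | rfl <;> assumption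
    obtain ⟨k, hk⟩ := Subgroup.mem_zpowers_iff.1 (hsq x hx)
    have hiter : ∀ i : ℕ, (φ ^ i) x = x ^ (k ^ i) := by
      intro i
      induction i with
      | zero => simp
      | succ i ih => rw [pow_succ', MulAut.mul_apply, ih, map_zpow, ← hk, ← zpow_mul, pow_succ']
    have h1 := hiter r
    rw [hφr, MulAut.one_apply] at h1
    have h2 : ((k ^ r : ℤ) : ZMod (2 ^ n)) = ((1 : ℤ) : ZMod (2 ^ n)) := by
      rw [ZMod.intCast_eq_intCast_iff, ← hxo]
      exact zpow_eq_zpow_iff_modEq.1 (by rw [← h1, zpow_one])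
    push_cast at h2
    let u : (ZMod (2 ^ n))ˣ := Units.ofPowEqOne (k : ZMod (2 ^ n)) r h2 hr.ne_zero
    have hu : u ^ r = 1 := Units.ext (by rw [Units.val_pow_eq_pow_val]; exact h2)
    haveI : NeZero (2 ^ n) := ⟨pow_ne_zero _ two_ne_zero⟩
    have hcard : Nat.gcd r (Nat.totient (2 ^ n)) = 1 := by
      rcases Nat.eq_zero_or_pos n with rfl | hn
      · simp
      · rw [Nat.totient_prime_pow Nat.prime_two hn]
        simpa using Nat.Coprime.pow_right (n - 1) ((Nat.coprime_primes hr Nat.prime_two).2 hr2)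
    have hu1 : u = 1 := by
      have := pow_gcd_eq_one.2 ⟨hu, ZMod.pow_totient u⟩
      rwa [hcard, pow_one] at this
    have hk1 : ((k : ℤ) : ZMod (2 ^ n)) = ((1 : ℤ) : ZMod (2 ^ n)) := by
      have := congrArg Units.val hu1
      push_cast
      exact this
    rw [← hk]
    conv_rhs => rw [← zpow_one x]
    rw [zpow_eq_zpow_iff_modEq, hxo]
    exact (ZMod.intCast_eq_intCast_iff _ _ _).1 hk1
  have hD : ∀ d ∈ D, φ d = d := by
    intro d hd
    rw [hgen] at hd
    exact MonoidHom.eqOn_closure (f := φ.toMonoidHom) (g := MonoidHom.id T) (by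
      rintro y (rfl | rfl)
      exacts [hfix _ (Or.inl rfl), hfix _ (Or.inr rfl)]) hd
  have h1 : φ = 1 := by
    ext t
    rw [MulAut.one_apply]
    by_cases ht : t ∈ D
    · exact hD t ht
    have hi : D.index = 2 := by
      have h0 := Subgroup.index_ne_zero_of_finite (H := D)
      have h1 : D.index ≠ 1 := fun e => ht ((Subgroup.index_eq_one.1 e).symm ▸ Subgroup.mem_top t)
      omega
    have hφt : φ t ∉ D := fun h => ht (by
      have := hD _ h
      rwa [φ.injective this] at h)
    obtain ⟨d, hd, hdt⟩ : ∃ d ∈ D, φ t = t * d :=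
      ⟨t⁻¹ * φ t, ((Subgroup.mul_mem_iff_of_index_two hi).2 (by
        simp [ht, hφt])), by group⟩
    have hiter : ∀ i : ℕ, (φ ^ i) t = t * d ^ i := by
      intro i
      induction i with
      | zero => simp
      | succ i ih => rw [pow_succ', MulAut.mul_apply, ih, map_mul, hD _ (pow_mem hd i), hdt, mul_assoc,
          ← pow_succ']
    have h3 := hiter r
    rw [hφr, MulAut.one_apply] at h3
    have hdr : d ^ r = 1 := mul_left_cancel (h3.symm.trans (mul_one t).symm)
    obtain ⟨k, hk⟩ := hT d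
    have hcop : Nat.gcd r (2 ^ k) = 1 := Nat.Coprime.pow_right _ ((Nat.coprime_primes hr Nat.prime_two).2 hr2)
    have hd1 : d = 1 := by
      have := pow_gcd_eq_one.2 ⟨hdr, hk⟩
      rwa [hcop, pow_one] at this
    rw [hdt, hd1, mul_one]
  rw [h1, orderOf_one] at hφ
  exact hr.one_lt.ne hφ

attribute [-simp] ZMod.inv_coe_unit Units.val_inv_eq_inv_val

variable {q : ℕ} [Fact q.Prime]

/-- A diagonal map. -/
def dd (a b : (ZMod q)ˣ) : (Fin 2 → ZMod q) ≃ₗ[ZMod q] (Fin 2 → ZMod q) where
  toFun v := ![(a : ZMod q) * v 0, (b : ZMod q) * v 1]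
  invFun v := ![((a⁻¹ : (ZMod q)ˣ) : ZMod q) * v 0, ((b⁻¹ : (ZMod q)ˣ) : ZMod q) * v 1]
  map_add' u v := by ext i; fin_cases i <;> simp [mul_add]
  map_smul' c v := by ext i; fin_cases i <;> simp <;> ring
  left_inv v := by ext i; fin_cases i <;> simp
  right_inv v := by ext i; fin_cases i <;> simp

/-- An antidiagonal map. -/
def ww (a b : (ZMod q)ˣ) : (Fin 2 → ZMod q) ≃ₗ[ZMod q] (Fin 2 → ZMod q) where
  toFun v := ![(b : ZMod q) * v 1, (a : ZMod q) * v 0]
  invFun v := ![((a⁻¹ : (ZMod q)ˣ) : ZMod q) * v 1, ((b⁻¹ : (ZMod q)ˣ) : ZMod q) * v 0]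
  map_add' u v := by ext i; fin_cases i <;> simp [mul_add]
  map_smul' c v := by ext i; fin_cases i <;> simp <;> ring
  left_inv v := by ext i; fin_cases i <;> simp
  right_inv v := by ext i; fin_cases i <;> simp

theorem dd_mul (a b c d : (ZMod q)ˣ) : dd a b * dd c d = dd (a * c) (b * d) := by
  ext v i; fin_cases i <;> simp [dd, mul_assoc]

theorem dd_ww (a b c d : (ZMod q)ˣ) : dd a b * ww c d = ww (b * c) (a * d) := by
  ext v i; fin_cases i <;> simp [dd, ww, mul_assoc]

theorem ww_dd (a b c d : (ZMod q)ˣ) : ww a b * dd c d = ww (a * c) (b * d) := by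
  ext v i; fin_cases i <;> simp [dd, ww, mul_assoc]

theorem ww_mul (a b c d : (ZMod q)ˣ) : ww a b * ww c d = dd (b * c) (a * d) := by
  ext v i; fin_cases i <;> simp [dd, ww, mul_assoc]

theorem dd_one : dd (q := q) 1 1 = 1 := by
  ext v i; fin_cases i <;> simp [dd]

theorem dd_pow (a b : (ZMod q)ˣ) (k : ℕ) : dd a b ^ k = dd (a ^ k) (b ^ k) := by
  induction k with
  | zero => rw [pow_zero, pow_zero, pow_zero, dd_one]
  | succ k ih => rw [pow_succ, ih, dd_mul, pow_succ, pow_succ]

theorem dd_inj {a b c d : (ZMod q)ˣ} (h : dd a b = dd c d) : a = c ∧ b = d := by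
  have h0 := congrFun (DFunLike.congr_fun h ![1, 1]) 0
  have h1 := congrFun (DFunLike.congr_fun h ![1, 1]) 1
  simp [dd] at h0 h1
  exact ⟨Units.ext h0, Units.ext h1⟩

theorem dd_ne_ww (a b c d : (ZMod q)ˣ) : dd a b ≠ ww c d := fun h => by
  have h1 := congrFun (DFunLike.congr_fun h ![1, 0]) 0
  simp [dd, ww] at h1


/-- Let q = 2^m + 1 be a prime other than 5. Then the automorphism group of the group of linear maps of F_q² of the forms (x, y) ↦ (a x, ± a⁻¹ y) and (x, y) ↦ (± a⁻¹ y, a x) with a ≠ 0 is itself a 2-group. -/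
theorem result (q m : ℕ) [Fact q.Prime] (hq : q = 2 ^ m + 1) (hq5 : q ≠ 5)
    (T : Subgroup ((Fin 2 → ZMod q) ≃ₗ[ZMod q] (Fin 2 → ZMod q)))
    (hT : ∀ f, f ∈ T ↔ ∃ a s : ZMod q, a ≠ 0 ∧ (s = 1 ∨ s = -1) ∧
      ((∀ v, f v = ![a * v 0, s * a⁻¹ * v 1]) ∨ (∀ v, f v = ![s * a⁻¹ * v 1, a * v 0]))) :
    IsPGroup 2 (MulAut T) := by
  have hq2 := (Fact.out : q.Prime).two_le
  haveI : Finite ((Fin 2 → ZMod q) ≃ₗ[ZMod q] (Fin 2 → ZMod q)) :=
    Finite.of_injective (fun f : (Fin 2 → ZMod q) ≃ₗ[ZMod q] (Fin 2 → ZMod q) => (f : (Fin 2 → ZMod q) → (Fin 2 → ZMod q))) DFunLike.coe_injective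
  -- membership in terms of the two families
  have hmem : ∀ f, f ∈ T ↔ ∃ a b : (ZMod q)ˣ, (a * b) * (a * b) = 1 ∧ (f = dd a b ∨ f = ww a b) := by
    intro f
    rw [hT]
    constructor
    · rintro ⟨a, s, ha, hs, hf⟩
      let au : (ZMod q)ˣ := Units.mk0 a ha
      let su : (ZMod q)ˣ := Units.mk0 s (by rcases hs with rfl | rfl <;> simp)
      refine ⟨au, su * au⁻¹, ?_, ?_⟩
      · rw [mul_comm su, mul_inv_cancel_left]
        exact Units.ext (by rcases hs with rfl | rfl <;> simp [su])
      · rcases hf with hf | hf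
        · exact Or.inl (LinearEquiv.ext fun v => by rw [hf]; simp [dd, au, su, Units.val_inv_eq_inv_val])
        · exact Or.inr (LinearEquiv.ext fun v => by rw [hf]; simp [ww, au, su, Units.val_inv_eq_inv_val])
    · rintro ⟨a, b, hab, hf⟩
      refine ⟨a, (a : ZMod q) * b, a.ne_zero, ?_, ?_⟩
      · exact mul_self_eq_one_iff.1 (by simpa using congrArg Units.val hab)
      · rcases hf with rfl | rfl
        · exact Or.inl fun v => by funext i; fin_cases i <;> simp [dd] <;> field_simp <;> simp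
        · exact Or.inr fun v => by funext i; fin_cases i <;> simp [ww] <;> field_simp <;> simp
  have hord : Nat.card (ZMod q)ˣ = 2 ^ m := by
    rw [Nat.card_units, Nat.card_zmod, hq, Nat.add_sub_cancel]
  obtain ⟨g, hg⟩ := IsCyclic.exists_ofOrder_eq_natCard (α := (ZMod q)ˣ)
  rw [hord] at hg
  have hgen : ∀ x : (ZMod q)ˣ, ∃ k : ℕ, x = g ^ k := by
    intro x
    have htop : Subgroup.zpowers g = ⊤ :=
      (Subgroup.card_eq_iff_eq_top _).1 (by rw [Nat.card_zpowers, hg, hord])
    obtain ⟨k, hk⟩ := (mem_powers_iff_mem_zpowers (x := g) (y := x)).2 (htop ▸ Subgroup.mem_top x)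
    exact ⟨k, hk.symm⟩
  have hp : ∀ x : (ZMod q)ˣ, x ^ 2 ^ m = 1 := fun x => by rw [← hord]; exact pow_card_eq_one'
  have hT2 : IsPGroup 2 T := by
    intro x
    refine ⟨m + 1, Subtype.ext ?_⟩
    show (x : (Fin 2 → ZMod q) ≃ₗ[ZMod q] (Fin 2 → ZMod q)) ^ 2 ^ (m + 1) = 1
    obtain ⟨a, b, -, hx | hx⟩ := (hmem _).1 x.2 <;> rw [hx]
    · rw [dd_pow, pow_succ, pow_mul, pow_mul, hp, hp, one_pow, dd_one]
    · rw [pow_succ', pow_mul, sq, ww_mul, dd_pow, hp, hp, dd_one]
  let Dg : Subgroup T :=
    { carrier := {x | ∃ a b, (x : (Fin 2 → ZMod q) ≃ₗ[ZMod q] (Fin 2 → ZMod q)) = dd a b}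
      one_mem' := ⟨1, 1, by rw [dd_one]; rfl⟩
      mul_mem' := by
        rintro x y ⟨a, b, hx⟩ ⟨c, d, hy⟩
        exact ⟨a * c, b * d, by rw [Subgroup.coe_mul, hx, hy, dd_mul]⟩
      inv_mem' := by
        rintro x ⟨a, b, hx⟩
        refine ⟨a⁻¹, b⁻¹, ?_⟩
        rw [Subgroup.coe_inv, hx]
        exact inv_eq_of_mul_eq_one_right (by rw [dd_mul, mul_inv_cancel, mul_inv_cancel, dd_one]) }
  let tw : T := ⟨ww 1 1, (hmem _).2 ⟨1, 1, by simp, Or.inr rfl⟩⟩
  have hsplit : ∀ x : T, x ∈ Dg ∨ x * tw ∈ Dg := by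
    intro x
    obtain ⟨a, b, -, hx | hx⟩ := (hmem _).1 x.2
    · exact Or.inl ⟨a, b, hx⟩
    · exact Or.inr ⟨b * 1, a * 1, by rw [Subgroup.coe_mul, hx]; exact ww_mul a b 1 1⟩
  have hidx : Dg.index ≤ 2 := by
    rw [Subgroup.index_eq_two_iff.2 ⟨tw, fun x => ?_⟩]
    obtain ⟨a, b, -, hx | hx⟩ := (hmem _).1 x.2
    · refine Or.inr ⟨⟨a, b, hx⟩, ?_⟩
      rintro ⟨c, d, he⟩
      rw [Subgroup.coe_mul, hx, show (tw : (Fin 2 → ZMod q) ≃ₗ[ZMod q] (Fin 2 → ZMod q)) = ww 1 1 from rfl, dd_ww] at he
      exact dd_ne_ww _ _ _ _ he.symm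
    · refine Or.inl ⟨⟨b * 1, a * 1, by rw [Subgroup.coe_mul, hx]; exact ww_mul a b 1 1⟩, ?_⟩
      rintro ⟨c, d, he⟩
      exact dd_ne_ww c d a b (he.symm.trans hx)
  rcases Nat.lt_or_ge m 2 with hm | hm
  · -- `q ≤ 3`
    have hsm : ∀ u : (ZMod q)ˣ, u * u = 1 := fun u => by
      rw [← sq]
      rcases (show m = 0 ∨ m = 1 by omega) with rfl | rfl
      · rw [show u = 1 from by simpa using hp u, one_pow]
      · simpa using hp u
    let C : T := ⟨ww g 1, (hmem _).2 ⟨g, 1, by simpa using hsm g, Or.inr rfl⟩⟩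
    have hpair : ∀ u : (ZMod q)ˣ, u = 1 ∨ u = g := by
      intro u
      obtain ⟨k, rfl⟩ := hgen u
      rcases Nat.even_or_odd k with ⟨i, rfl⟩ | ⟨i, rfl⟩
      · left; rw [← two_mul, pow_mul, sq, hsm, one_pow]
      · right; rw [pow_succ, pow_mul, sq, hsm, one_pow, one_mul]
    have hC : orderOf C = 2 ^ (m + 1) := by
      refine orderOf_eq_prime_pow (hp := ⟨Nat.prime_two⟩) (fun h => ?_) ?_
      · have h1 := congrArg Subtype.val h
        rw [SubmonoidClass.coe_pow] at h1
        rcases (show m = 0 ∨ m = 1 by omega) with rfl | rfl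
        · rw [pow_zero, pow_one, Subgroup.coe_one, ← dd_one] at h1
          exact dd_ne_ww _ _ _ _ h1.symm
        · rw [pow_one, sq] at h1
          have h2 : dd (1 * g) (g * 1) = dd 1 1 := by rw [← ww_mul, dd_one]; exact h1
          rw [one_mul, mul_one] at h2
          rw [(dd_inj h2).1, orderOf_one] at hg
          norm_num at hg
      · refine Subtype.ext ?_
        show (ww g 1) ^ 2 ^ (m + 1) = 1
        rw [pow_succ', pow_mul, sq, ww_mul, dd_pow, hp, hp, dd_one]
    have hCsq : ((C * C : T) : (Fin 2 → ZMod q) ≃ₗ[ZMod q] (Fin 2 → ZMod q)) = dd g g := by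
      rw [Subgroup.coe_mul]
      exact (ww_mul g 1 g 1).trans (by simp)
    refine isPGroup_mulAut hT2 (Subgroup.closure {C, C}) C C (m + 1) hC hC rfl ?_ ?_
    · -- index at most two
      have hcardT : Nat.card T ≤ 2 * 2 ^ (m + 1) := by
        classical
        let code : T → Bool × (ZMod q)ˣ × (ZMod q)ˣ := fun x =>
          if hx : x ∈ Dg then (true, hx.choose, hx.choose_spec.choose)
          else (false, (hmem _).1 x.2 |>.choose, ((hmem _).1 x.2).choose_spec.choose)
        have hinj : Function.Injective code := by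
          intro x y e
          by_cases hx : x ∈ Dg <;> by_cases hy : y ∈ Dg <;> simp [code, hx, hy] at e
          · exact Subtype.ext ((hx.choose_spec.choose_spec.trans (congrArg₂ dd e.1 e.2)).trans hy.choose_spec.choose_spec.symm)
          · have h1 := ((hmem _).1 x.2).choose_spec.choose_spec.2.resolve_left fun h => hx ⟨_, _, h⟩
            have h2 := ((hmem _).1 y.2).choose_spec.choose_spec.2.resolve_left fun h => hy ⟨_, _, h⟩
            exact Subtype.ext ((h1.trans (congrArg₂ ww e.1 e.2)).trans h2.symm)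
        refine (Nat.card_le_card_of_injective code hinj).trans ?_
        rw [Nat.card_prod, Nat.card_prod, Nat.card_eq_fintype_card (α := Bool), Fintype.card_bool, hord]
        rcases (show m = 0 ∨ m = 1 by omega) with rfl | rfl <;> norm_num
      have h1 := (Subgroup.closure ({C, C} : Set T)).card_mul_index
      rw [show Subgroup.closure ({C, C} : Set T) = Subgroup.zpowers C by simp [Subgroup.zpowers_eq_closure]] at h1 ⊢
      rw [Nat.card_zpowers, hC] at h1
      refine Nat.le_of_mul_le_mul_left (c := 2 ^ (m + 1)) ?_ (Nat.two_pow_pos (m + 1))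
      rw [h1, mul_comm]; exact hcardT
    · intro x hx
      left
      obtain ⟨a, b, -, hxe | hxe⟩ := (hmem _).1 x.2
      · exfalso
        have hx2 : x ^ 2 ^ m = 1 := Subtype.ext (by
          rw [SubmonoidClass.coe_pow, hxe, dd_pow, hp, hp, dd_one]; rfl)
        have := orderOf_dvd_of_pow_eq_one hx2
        rw [hx] at this
        have := Nat.le_of_dvd (Nat.two_pow_pos m) this
        rw [pow_succ] at this
        have := Nat.two_pow_pos m
        omega
      · rcases hpair a with ha | ha <;> rcases hpair b with hb | hb <;> rw [ha, hb] at hxe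
        · by_cases h1 : g = 1
          · rw [show x = C from Subtype.ext (by rw [hxe]; show ww 1 1 = ww g 1; rw [h1])]
            exact Subgroup.mem_zpowers C
          · exfalso
            have hx2 : x ^ 2 = 1 := Subtype.ext (by
              rw [SubmonoidClass.coe_pow, hxe, sq, ww_mul, one_mul, dd_one]; rfl)
            have := Nat.le_of_dvd two_pos (orderOf_dvd_of_pow_eq_one hx2)
            rw [hx] at this
            rcases (show m = 0 ∨ m = 1 by omega) with rfl | rfl
            · exact h1 (by simpa using hp g)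
            · norm_num at this
        · rw [show x = C * C * C from Subtype.ext (by
            rw [hxe, Subgroup.coe_mul, hCsq]
            show ww 1 g = dd g g * ww g 1
            rw [dd_ww, hsm, mul_one])]
          exact mul_mem (mul_mem (Subgroup.mem_zpowers C) (Subgroup.mem_zpowers C)) (Subgroup.mem_zpowers C)
        · rw [show x = C from Subtype.ext (by rw [hxe])]
          exact Subgroup.mem_zpowers C
        · by_cases h1 : g = 1
          · rw [show x = C from Subtype.ext (by rw [hxe]; show ww g g = ww g 1; rw [h1])]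
            exact Subgroup.mem_zpowers C
          · exfalso
            have hx2 : x ^ 2 = 1 := Subtype.ext (by
              rw [SubmonoidClass.coe_pow, hxe, sq, ww_mul, hsm, dd_one]; rfl)
            have := Nat.le_of_dvd two_pos (orderOf_dvd_of_pow_eq_one hx2)
            rw [hx] at this
            rcases (show m = 0 ∨ m = 1 by omega) with rfl | rfl
            · exact h1 (by simpa using hp g)
            · norm_num at this
  · have hm3 : 3 ≤ m := by
      by_contra h
      exact hq5 (by rw [hq, show m = 2 by omega]; norm_num)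
    let A : T := ⟨dd g g⁻¹, (hmem _).2 ⟨g, g⁻¹, by simp, Or.inl rfl⟩⟩
    let B : T := ⟨dd g (-g⁻¹), (hmem _).2 ⟨g, -g⁻¹, by simp, Or.inl rfl⟩⟩
    have hpow : ∀ b : (ZMod q)ˣ, ∀ (Z : T), (Z : (Fin 2 → ZMod q) ≃ₗ[ZMod q] (Fin 2 → ZMod q)) = dd g b → orderOf Z = 2 ^ m := by
      intro b Z hZ
      rw [← Subgroup.orderOf_coe, hZ]
      apply Nat.dvd_antisymm
      · exact orderOf_dvd_of_pow_eq_one (by rw [dd_pow, hp, hp, dd_one])
      · rw [← hg]
        refine orderOf_dvd_of_pow_eq_one ?_
        have h1 := pow_orderOf_eq_one (dd g b)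
        rw [dd_pow, ← dd_one] at h1
        exact (dd_inj h1).1
    refine isPGroup_mulAut hT2 Dg A B m (hpow _ A rfl) (hpow _ B rfl) ?_ hidx ?_
    · refine le_antisymm ?_ ((Subgroup.closure_le _).2 ?_)
      · rintro x ⟨a, b, hx⟩
        obtain ⟨c, d, hcd, hc | hc⟩ := (hmem _).1 x.2
        swap
        · exact absurd (hx.symm.trans hc) (dd_ne_ww _ _ _ _)
        obtain ⟨k, hk⟩ := hgen c
        rw [hk] at hcd hc
        have hAk : A ^ k ∈ Subgroup.closure ({A, B} : Set T) := pow_mem (Subgroup.subset_closure (by simp)) k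
        have hsign : g ^ k * d = 1 ∨ g ^ k * d = -1 := by
          rcases mul_self_eq_one_iff.1 (show ((g ^ k * d : (ZMod q)ˣ) : ZMod q) * ((g ^ k * d : (ZMod q)ˣ) : ZMod q) = 1 by
            simpa using congrArg Units.val hcd) with h | h
          · exact Or.inl (Units.ext h)
          · exact Or.inr (Units.ext (by rw [h, Units.val_neg, Units.val_one]))
        rcases hsign with h | h
        · have e : x = A ^ k := Subtype.ext (by
            rw [hc, SubmonoidClass.coe_pow]
            show _ = dd g g⁻¹ ^ k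
            rw [dd_pow, inv_pow, eq_inv_of_mul_eq_one_right h])
          rw [e]; exact hAk
        · have e : x = A ^ k * (A⁻¹ * B) := Subtype.ext (by
            rw [hc, Subgroup.coe_mul, Subgroup.coe_mul, SubmonoidClass.coe_pow, Subgroup.coe_inv]
            show _ = dd g g⁻¹ ^ k * ((dd g g⁻¹)⁻¹ * dd g (-g⁻¹))
            rw [show (dd g g⁻¹)⁻¹ = dd g⁻¹ g from inv_eq_of_mul_eq_one_right (by rw [dd_mul, mul_inv_cancel, inv_mul_cancel, dd_one]),
              dd_mul, dd_pow, dd_mul, inv_mul_cancel, mul_one]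
            congr 1
            rw [show d = (g ^ k)⁻¹ * (g ^ k * d) by rw [inv_mul_cancel_left], h, inv_pow, mul_neg g, mul_inv_cancel])
          rw [e]
          exact mul_mem hAk (mul_mem (inv_mem (Subgroup.subset_closure (by simp))) (Subgroup.subset_closure (by simp)))
      · rintro y (rfl | rfl)
        exacts [⟨g, g⁻¹, rfl⟩, ⟨g, -g⁻¹, rfl⟩]
    · intro x hx
      have hhalf : x ^ 2 ^ (m - 1) ≠ 1 := fun e => by
        have := Nat.le_of_dvd (Nat.two_pow_pos _) (orderOf_dvd_of_pow_eq_one e)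
        rw [hx] at this
        have := Nat.pow_lt_pow_right (show 1 < 2 by norm_num) (show m - 1 < m by omega)
        omega
      obtain ⟨a, b, hab, hxe | hxe⟩ := (hmem _).1 x.2
      · obtain ⟨k, hk⟩ := hgen a
        rcases Nat.even_or_odd k with ⟨i, hi⟩ | ⟨i, hi⟩
        · exfalso
          apply hhalf
          refine Subtype.ext ?_
          rw [SubmonoidClass.coe_pow, hxe, dd_pow]
          have ha : a ^ 2 ^ (m - 1) = 1 := by
            rw [hk, hi, ← two_mul, ← pow_mul, mul_comm (2 * i), ← mul_assoc, ← pow_succ, pow_mul,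
              show m - 1 + 1 = m by omega, hp, one_pow]
          have hb : b ^ 2 ^ (m - 1) = 1 := by
            have h2 : (a * b) ^ 2 ^ (m - 1) = 1 := by
              rw [show m - 1 = (m - 2) + 1 by omega, pow_succ', pow_mul, sq, hab, one_pow]
            rwa [mul_pow, ha, one_mul] at h2
          rw [ha, hb, dd_one]
          rfl
        · have hsign : a * b = 1 ∨ a * b = -1 := by
            rcases mul_self_eq_one_iff.1 (show ((a * b : (ZMod q)ˣ) : ZMod q) * ((a * b : (ZMod q)ˣ) : ZMod q) = 1 by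
              simpa using congrArg Units.val hab) with h | h
            · exact Or.inl (Units.ext h)
            · exact Or.inr (Units.ext (by rw [h, Units.val_neg, Units.val_one]))
          rcases hsign with h | h
          · left
            rw [show x = A ^ k from Subtype.ext (by
              rw [hxe, SubmonoidClass.coe_pow]
              show _ = dd g g⁻¹ ^ k
              rw [dd_pow, inv_pow, ← hk, eq_inv_of_mul_eq_one_right h])]
            exact pow_mem (Subgroup.mem_zpowers A) k
          · right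
            rw [show x = B ^ k from Subtype.ext (by
              rw [hxe, SubmonoidClass.coe_pow]
              show _ = dd g (-g⁻¹) ^ k
              rw [dd_pow, ← hk]
              congr 1
              rw [show b = a⁻¹ * (a * b) by rw [inv_mul_cancel_left], h, hk, hi, Odd.neg_pow ⟨i, rfl⟩, inv_pow, mul_neg, mul_one])]
            exact pow_mem (Subgroup.mem_zpowers B) k
      · exfalso
        apply hhalf
        refine Subtype.ext ?_
        rw [SubmonoidClass.coe_pow, hxe, show 2 ^ (m - 1) = 2 * (2 * 2 ^ (m - 3)) by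
          rw [← mul_assoc, show m - 1 = 2 + (m - 3) by omega, pow_add]; rfl, pow_mul, sq, ww_mul, pow_mul, dd_pow,
          sq, sq, mul_comm b a, hab, dd_one, one_pow]
        rfl

end Cfsg.Agent.S3382
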