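import Cfsg.Statements.S3383
import Mathlib

set_option autoImplicit false
open Cfsg

namespace Cfsg.Agent.S3383

open scoped Pointwise

/-- Let H be a Frobenius complement in a finite group L and K the Frobenius kernel (as a subgroup). Then K is characteristic in L, and every normal subgroup of L either contains K or is contained in K. -/
theorem result {L : Type*} [Group L] [Finite L]
    (H : Subgroup L) (hH : Cfsg.IsFrobeniusComplement H)
    (K : Subgroup L) (hK : (K : Set L) = Cfsg.frobeniusKernel H) :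
    K.Characteristic ∧ ∀ N : Subgroup L, N.Normal → K ≤ N ∨ N ≤ K := by
  classical
  obtain ⟨hH1, hH2, hTI⟩ := hH
  have hKmem : ∀ x, x ∈ K ↔ x = 1 ∨ ∀ g : L, x ∉ MulAut.conj g • H := fun x => by
    rw [← SetLike.mem_coe, hK]; rfl
  have hconj : ∀ (g x : L), x ∈ MulAut.conj g • H ↔ g⁻¹ * x * g ∈ H := fun g x => by
    rw [Subgroup.mem_pointwise_smul_iff_inv_smul_mem, ← map_inv, MulAut.smul_def, MulAut.conj_apply, inv_inv]
  have hTI' : ∀ g : L, g ∉ H → ∀ h ∈ H, g⁻¹ * h * g ∈ H → h = 1 := fun g hg h hh hh' => by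
    have : h ∈ H ⊓ MulAut.conj g • H := ⟨hh, (hconj g h).mpr hh'⟩
    rwa [hTI g hg, Subgroup.mem_bot] at this
  have hKn : K.Normal := ⟨fun x hx g => by
    rcases (hKmem x).mp hx with rfl | h
    · simp
    · refine (hKmem _).mpr (Or.inr fun g' hg' => h (g⁻¹ * g') ?_)
      rw [hconj] at hg' ⊢
      simpa [mul_assoc] using hg'⟩
  -- the cardinality of the kernel
  let e : {x : L // x ∉ K} ≃ (L ⧸ H) × {h : H // h ≠ 1} := by
    refine (Equiv.ofBijective (fun z : (L ⧸ H) × {h : H // h ≠ 1} =>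
      (⟨z.1.out * z.2.1.1 * z.1.out⁻¹, ?_⟩ : {x : L // x ∉ K})) ⟨?_, ?_⟩).symm
    · intro hmem
      rcases (hKmem _).mp hmem with h | h
      · exact z.2.2 (Subtype.ext (by simpa using h))
      · exact h z.1.out ((hconj _ _).mpr (by simp [mul_assoc]))
    · rintro ⟨q, h, hh⟩ ⟨q', h', hh'⟩ heq
      have heq' : q.out * h.1 * q.out⁻¹ = q'.out * h'.1 * q'.out⁻¹ := congrArg Subtype.val heq
      have hq : q = q' := by
        by_contra hne
        have hnot : q.out⁻¹ * q'.out ∉ H := fun hm => hne (by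
          rw [← q.out_eq, ← q'.out_eq]; exact QuotientGroup.eq.mpr hm)
        apply hh
        apply Subtype.ext
        refine hTI' _ hnot h.1 h.2 ?_
        have : (q.out⁻¹ * q'.out)⁻¹ * h.1 * (q.out⁻¹ * q'.out) = h'.1 := by
          calc _ = q'.out⁻¹ * (q.out * h.1 * q.out⁻¹) * q'.out := by group
            _ = _ := by rw [heq']; group
        rw [this]; exact h'.2
      subst hq
      obtain rfl : h = h' := Subtype.ext (mul_left_cancel (mul_right_cancel heq'))
      rfl
    · rintro ⟨x, hx⟩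
      rw [hKmem] at hx
      push Not at hx
      obtain ⟨hx1, g, hg⟩ := hx
      rw [hconj] at hg
      obtain ⟨k, hk⟩ := QuotientGroup.mk_out_eq_mul H g
      refine ⟨⟨(g : L ⧸ H), ⟨(g * k.1)⁻¹ * x * (g * k.1), ?_⟩, ?_⟩, ?_⟩
      · have := H.mul_mem (H.mul_mem (H.inv_mem k.2) hg) k.2
        simpa [mul_assoc] using this
      · intro h
        apply hx1
        have h' : (g * k.1)⁻¹ * x * (g * k.1) = 1 := congrArg Subtype.val h
        calc x = (g * k.1) * ((g * k.1)⁻¹ * x * (g * k.1)) * (g * k.1)⁻¹ := by group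
          _ = 1 := by rw [h']; group
      · apply Subtype.ext
        show (g : L ⧸ H).out * _ * (g : L ⧸ H).out⁻¹ = x
        rw [hk]; group
  have hcard : Nat.card K = H.index := by
    have := Fintype.ofFinite L
    have h1 : Nat.card {x : L // x ∉ K} + Nat.card K = Nat.card L := by
      rw [Nat.card_eq_fintype_card, Nat.card_eq_fintype_card, Nat.card_eq_fintype_card,
        Fintype.card_subtype_compl]
      exact Nat.sub_add_cancel (Fintype.card_subtype_le _)
    have h3 : Nat.card {h : H // h ≠ 1} = Nat.card H - 1 := by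
      rw [Nat.card_eq_fintype_card, Fintype.card_subtype_compl, Fintype.card_subtype_eq, Nat.card_eq_fintype_card]
    rw [Nat.card_congr e, Nat.card_prod, h3] at h1
    have h4 := H.index_mul_card
    have h5 : 0 < Nat.card H := Nat.card_pos
    obtain ⟨c, hc⟩ : ∃ c, Nat.card H = c + 1 := ⟨_, (Nat.succ_pred_eq_of_pos h5).symm⟩
    rw [hc] at h1 h4
    rw [← Subgroup.index] at h1
    rw [Nat.add_sub_cancel] at h1
    rw [mul_add, mul_one] at h4
    omega
  have hcop : ∀ p : ℕ, p.Prime → p ∣ Nat.card H → ¬ p ∣ H.index := by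
    intro p hp hd hdi
    have := Fact.mk hp
    obtain ⟨h, hh⟩ := exists_prime_orderOf_dvd_card' p hd
    have hhG : orderOf (h : L) = p := by rw [Subgroup.orderOf_coe]; exact hh
    have hpg : IsPGroup p (Subgroup.zpowers (h : L)) :=
      IsPGroup.of_card (show Nat.card (Subgroup.zpowers (h : L)) = p ^ 1 by rw [Nat.card_zpowers, hhG, pow_one])
    have hmod := hpg.card_modEq_card_fixedPoints (L ⧸ H)
    have hfix : MulAction.fixedPoints (Subgroup.zpowers (h : L)) (L ⧸ H) = {((1 : L) : L ⧸ H)} := by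
      ext q
      obtain ⟨g, rfl⟩ := QuotientGroup.mk_surjective q
      rw [MulAction.mem_fixedPoints, Set.mem_singleton_iff, QuotientGroup.eq, mul_one, inv_mem_iff]
      constructor
      · intro hfix
        by_contra hg
        have h1 : ((h : L) * g : L ⧸ H) = (g : L ⧸ H) := hfix ⟨h, Subgroup.mem_zpowers _⟩
        rw [QuotientGroup.eq] at h1
        have h2 := H.inv_mem h1
        have hh1 := hTI' g hg h h.2 (by simpa [mul_assoc] using h2)
        rw [hh1, orderOf_one] at hhG
        exact hp.one_lt.ne hhG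
      · rintro hg ⟨x, hx⟩
        show ((x * g : L) : L ⧸ H) = (g : L ⧸ H)
        rw [QuotientGroup.eq]
        have hxH : x ∈ H := (Subgroup.zpowers_le.mpr h.2) hx
        simpa [mul_assoc] using H.mul_mem (H.mul_mem (H.inv_mem hg) (H.inv_mem hxH)) hg
    rw [hfix, Nat.card_coe_set_eq {((1 : L) : L ⧸ H)}, Set.ncard_singleton] at hmod
    change Nat.ModEq p H.index 1 at hmod
    have h0 := Nat.mod_eq_zero_of_dvd hdi
    rw [Nat.ModEq, h0, Nat.mod_eq_of_lt hp.one_lt] at hmod
    exact zero_ne_one hmod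
  have hidx : K.index = Nat.card H := by
    have h := K.card_mul_index
    rw [hcard, ← H.index_mul_card] at h
    exact Nat.eq_of_mul_eq_mul_left (Nat.pos_of_ne_zero H.index_ne_zero_of_finite) h
  have hcop' : Nat.Coprime H.index (Nat.card H) := by
    rw [Nat.coprime_iff_gcd_eq_one]
    by_contra hne
    obtain ⟨p, hp, hd⟩ := Nat.exists_prime_and_dvd hne
    exact hcop p hp (hd.trans (Nat.gcd_dvd_right _ _)) (hd.trans (Nat.gcd_dvd_left _ _))
  have hKiff : ∀ x, x ∈ K ↔ orderOf x ∣ H.index := by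
    intro x
    refine ⟨fun hx => ?_, fun hx => ?_⟩
    · rw [← hcard]; exact Subgroup.orderOf_dvd_natCard K hx
    · have h1 : orderOf (QuotientGroup.mk' K x) ∣ Nat.card H := (orderOf_dvd_natCard _).trans (dvd_of_eq hidx)
      have h2 : orderOf (QuotientGroup.mk' K x) ∣ H.index := (orderOf_map_dvd _ _).trans hx
      exact (QuotientGroup.eq_one_iff x).mp (orderOf_eq_one_iff.mp (Nat.eq_one_of_dvd_coprimes hcop' h2 h1))
  refine ⟨⟨fun φ => ?_⟩, fun N hN => ?_⟩
  · ext x
    rw [Subgroup.mem_comap, hKiff, hKiff, MulEquiv.coe_toMonoidHom, MulEquiv.orderOf_eq]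
  · by_contra hcon
    push Not at hcon
    obtain ⟨hKN, hNK⟩ := hcon
    obtain ⟨x, hxN, hxK⟩ := SetLike.not_le_iff_exists.mp hNK
    rw [hKmem] at hxK
    push Not at hxK
    obtain ⟨hx1, g, hg⟩ := hxK
    rw [hconj] at hg
    set h := g⁻¹ * x * g
    have hhN : h ∈ N := by simpa using hN.conj_mem x hxN g⁻¹
    have hh1 : h ≠ 1 := fun e => hx1 (by
      calc x = g * h * g⁻¹ := by simp only [h]; group
        _ = 1 := by rw [e]; group)
    let c : K → K := fun k => ⟨k.1 * (h * k.1⁻¹ * h⁻¹), K.mul_mem k.2 (hKn.conj_mem _ (K.inv_mem k.2) h)⟩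
    have hcinj : Function.Injective c := by
      intro a b hab
      have hab' : a.1 * (h * a.1⁻¹ * h⁻¹) = b.1 * (h * b.1⁻¹ * h⁻¹) := congrArg Subtype.val hab
      apply Subtype.ext
      by_contra hne
      have hne' : a.1⁻¹ * b.1 ∉ H := by
        intro hm
        have hmK : a.1⁻¹ * b.1 ∈ K := K.mul_mem (K.inv_mem a.2) b.2
        rcases (hKmem _).mp hmK with h1 | h1
        · exact hne (inv_mul_eq_one.mp h1)
        · exact h1 1 ((hconj _ _).mpr (by simpa using hm))
      apply hh1
      refine hTI' _ hne' h hg ?_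
      have h2 : a.1 * h * a.1⁻¹ = b.1 * h * b.1⁻¹ := mul_right_cancel (b := h⁻¹) (by simpa [mul_assoc] using hab')
      have : (a.1⁻¹ * b.1)⁻¹ * h * (a.1⁻¹ * b.1) = h := by
        calc _ = b.1⁻¹ * (a.1 * h * a.1⁻¹) * b.1 := by group
          _ = h := by rw [h2]; group
      rw [this]; exact hg
    apply hKN
    intro k hk
    obtain ⟨k', hk'⟩ := (Finite.injective_iff_surjective.mp hcinj) ⟨k, hk⟩
    rw [← show (c k').1 = k from congrArg Subtype.val hk']
    show k'.1 * (h * k'.1⁻¹ * h⁻¹) ∈ N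
    have := N.mul_mem (hN.conj_mem h hhN k'.1) (N.inv_mem hhN)
    simpa [mul_assoc] using this

end Cfsg.Agent.S3383
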