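import Cfsg.Statements.S3419
import Cfsg.Agent.SmallOrder.TwoPrimes
import Cfsg.Agent.Core.Hall

set_option autoImplicit false
open Cfsg

namespace Cfsg.Agent.S3419


theorem exists_pq {M : Type*} [Group M] [Finite M] {p q a : ℕ} (hp : p.Prime) (hq : q.Prime) (hpq : p ≠ q)
    (ha : 0 < a) (hM : Nat.card M = p ^ a * q) (hmod : ∀ i, i ≤ a → p ^ i % q = 1 → i = 0)
    (hnd : ¬ p ∣ q - 1) : ∃ g : M, orderOf g = p * q := by
  haveI := Fact.mk hp
  haveI := Fact.mk hq
  let Q : Sylow q M := Classical.arbitrary _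
  have hcop : (p ^ a).Coprime q := Nat.Coprime.pow_left a ((Nat.coprime_primes hp hq).mpr hpq)
  have hnq : ¬ q ∣ p ^ a := fun h => hq.not_dvd_one ((hcop.symm.dvd_of_dvd_mul_left (by simpa using h : q ∣ p ^ a * 1)))
  have hQ : Nat.card (Q : Subgroup M) = q := by
    rw [Q.card_eq_multiplicity, hM, Nat.factorization_mul (pow_ne_zero _ hp.ne_zero) hq.ne_zero, Finsupp.add_apply,
      Nat.factorization_eq_zero_of_not_dvd hnq, hq.factorization_self, zero_add, pow_one]
  have hidx : (Q : Subgroup M).index = p ^ a := by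
    have := Subgroup.card_mul_index (Q : Subgroup M)
    rw [hQ, hM, mul_comm (p ^ a) q] at this
    exact Nat.eq_of_mul_eq_mul_left hq.pos this
  have hs : Nat.card (Sylow q M) ∣ p ^ a := hidx ▸ Q.card_dvd_index
  obtain ⟨i, hi, hi'⟩ := (Nat.dvd_prime_pow hp).mp hs
  have h1 : Nat.card (Sylow q M) = 1 := by
    have := card_sylow_modEq_one q M
    unfold Nat.ModEq at this
    rw [hi', Nat.mod_eq_of_lt hq.one_lt] at this
    rw [hi', hmod i hi this, pow_zero]
  haveI : Subsingleton (Sylow q M) := (Nat.card_eq_one_iff_unique.mp h1).1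
  haveI : (Q : Subgroup M).Normal := Sylow.normal_of_subsingleton Q
  obtain ⟨x, hx⟩ := exists_prime_orderOf_dvd_card' (G := M) p
    (hM ▸ Dvd.dvd.mul_right (dvd_pow_self p ha.ne') q)
  haveI := isCyclic_of_prime_card hQ
  obtain ⟨u, hu⟩ := IsCyclic.exists_generator (α := (Q : Subgroup M))
  have hou : orderOf (u : M) = q := by
    rw [Subgroup.orderOf_coe, orderOf_eq_card_of_forall_mem_zpowers hu, hQ]
  let f : MulAut (Q : Subgroup M) := MulAut.conjNormal x
  have hf1 : orderOf f ∣ p := (orderOf_map_dvd _ _).trans hx.dvd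
  have hf2 : orderOf f ∣ q - 1 := (orderOf_dvd_natCard f).trans (by
    rw [IsCyclic.card_mulAut, hQ, Nat.totient_prime hq])
  have hf : f = 1 := by
    rcases (Nat.dvd_prime hp).mp hf1 with h' | h'
    · exact orderOf_eq_one_iff.mp h'
    · exact absurd (h' ▸ hf2) hnd
  have hc : Commute x (u : M) := by
    have e : x * (u : M) * x⁻¹ = u := by
      have := congrArg (fun e : MulAut (Q : Subgroup M) => (e u : M)) hf
      simpa [f] using this
    show x * (u : M) = u * x
    conv_rhs => rw [← e]
    group
  exact ⟨x * u, by rw [hc.orderOf_mul_eq_mul_orderOf_of_coprime (by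
    rw [hx, hou]; exact (Nat.coprime_primes hp hq).mpr hpq), hx, hou]⟩

theorem not_dvd_order {n r s : ℕ} (hr : r.Prime) (hs : s.Prime) (hrs : r ≠ s) (h1 : n < r + s)
    (h2 : n < r * s) (σ : ↥(alternatingGroup (Fin n))) : ¬ r * s ∣ orderOf σ := by
  intro hd
  rw [← Subgroup.orderOf_coe, ← Equiv.Perm.lcm_cycleType] at hd
  set m := (σ : Equiv.Perm (Fin n)).cycleType
  have key : ∀ t : ℕ, t.Prime → ∀ M : Multiset ℕ, t ∣ M.lcm → ∃ i ∈ M, t ∣ i := by
    intro t ht M
    induction M using Multiset.induction with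
    | empty => intro h; exact absurd h (by simp [ht.not_dvd_one])
    | cons a M ih =>
      intro h
      rw [Multiset.lcm_cons] at h
      rcases (Nat.Prime.dvd_mul ht).mp (h.trans (Nat.lcm_dvd_mul a M.lcm)) with h' | h'
      · exact ⟨a, Multiset.mem_cons_self a M, h'⟩
      · obtain ⟨i, hi, hti⟩ := ih h'
        exact ⟨i, Multiset.mem_cons_of_mem hi, hti⟩
  obtain ⟨i, hi, hri⟩ := key r hr m (dvd_trans (dvd_mul_right r s) hd)
  obtain ⟨j, hj, hsj⟩ := key s hs m (dvd_trans (dvd_mul_left s r) hd)
  have hi0 : 0 < i := by have := Equiv.Perm.two_le_of_mem_cycleType hi; omega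
  have hj0 : 0 < j := by have := Equiv.Perm.two_le_of_mem_cycleType hj; omega
  have hsum : m.sum ≤ n := by simpa using Equiv.Perm.sum_cycleType_le (σ : Equiv.Perm (Fin n))
  have hir := Nat.le_of_dvd hi0 hri
  by_cases hij : i = j
  · subst hij
    have h3 := Nat.le_of_dvd hi0 ((Nat.coprime_primes hr hs).mpr hrs |>.mul_dvd_of_dvd_of_dvd hri hsj)
    have h4 := Multiset.le_sum_of_mem hi
    omega
  · have hjs := Nat.le_of_dvd hj0 hsj
    have hj' : j ∈ m.erase i := (Multiset.mem_erase_of_ne (Ne.symm hij)).mpr hj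
    have h4 := congrArg Multiset.sum (Multiset.cons_erase hi)
    rw [Multiset.sum_cons] at h4
    have := Multiset.le_sum_of_mem hj'
    omega


/-- Let n ≥ 5 and let G be a finite group with the same order and the same set of element orders as the alternating group of degree n. Then G is not solvable. -/
theorem result {G : Type*} [Group G] [Finite G] (n : ℕ) (hn : 5 ≤ n)
    (hcard : Nat.card G = Nat.card ↥(alternatingGroup (Fin n)))
    (hspec : Set.range (orderOf : G → ℕ) = Set.range (orderOf : ↥(alternatingGroup (Fin n)) → ℕ)) :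
    ¬ Group.IsSolvable G := by
  classical
  intro hsol
  haveI := hsol
  haveI : Nontrivial (Fin n) := Fin.nontrivial_iff_two_le.mpr (by omega)
  have hA : 2 * Nat.card G = n.factorial := by
    rw [hcard, two_mul_nat_card_alternatingGroup, Nat.card_perm, Nat.card_fin]
  have main : ∀ p q a k : ℕ, p.Prime → q.Prime → p ≠ q → 0 < a → Nat.card G = p ^ a * q * k →
      (p ^ a * q).Coprime k → (∀ i, i ≤ a → p ^ i % q = 1 → i = 0) → ¬ p ∣ q - 1 →
      n < p + q → n < p * q → False := by
    intro p q a k hp hq hpq ha hk hco hmod hnd h1 h2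
    obtain ⟨H, hH⟩ := Core.exists_isPiHall_of_isSolvable (G := G) {r | r ∣ p ^ a * q}
    have hHc := (Core.isPiHall_iff_card_eq hk hco).mp hH
    obtain ⟨g, hg⟩ := exists_pq hp hq hpq ha hHc hmod hnd
    obtain ⟨σ, hσ⟩ := (hspec ▸ Set.mem_range_self (g : G) :
      orderOf (g : G) ∈ Set.range (orderOf : ↥(alternatingGroup (Fin n)) → ℕ))
    exact not_dvd_order hp hq hpq h1 h2 σ (by rw [hσ, Subgroup.orderOf_coe, hg])
  by_cases hn11 : 11 ≤ n
  · obtain ⟨p, q, hp, hq, hpq, hp1, hp2, hq1, hq2⟩ := SmallOrder.exists_two_primes n hn11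
    wlog hlt : p < q generalizing p q
    · exact this q p hq hp hpq.symm hq1 hq2 hp1 hp2 (by omega)
    have hG0 : Nat.card G ≠ 0 := Nat.card_pos.ne'
    have hbig : ∀ r : ℕ, r.Prime → n < 2 * r → r ≤ n → (Nat.card G).factorization r = 1 := by
      intro r hr h1 h2
      have hr2 : 2 < r := by omega
      have hfac : n.factorial.factorization r = 1 := by
        rw [Nat.factorization_def _ hr]
        haveI := Fact.mk hr
        rw [padicValNat_factorial (b := 2) (Nat.log_lt_of_lt_pow (by omega) (by nlinarith))]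
        rw [Finset.sum_Ico_eq_sum_range]
        simp only [show 2 - 1 = 1 from rfl, Finset.sum_range_one, add_zero, pow_one]
        exact Nat.div_eq_of_lt_le (by omega) (by omega)
      rw [← hA, Nat.factorization_mul two_ne_zero hG0, Finsupp.add_apply, Nat.Prime.factorization Nat.prime_two,
        Finsupp.single_eq_of_ne (by omega : r ≠ 2), zero_add] at hfac
      exact hfac
    have hfp := hbig p hp hp1 hp2
    have hfq := hbig q hq hq1 hq2
    obtain ⟨k, hk⟩ := ((Nat.coprime_primes hp hq).mpr hpq).mul_dvd_of_dvd_of_dvd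
      ((hp.dvd_iff_one_le_factorization hG0).mpr hfp.ge) ((hq.dvd_iff_one_le_factorization hG0).mpr hfq.ge)
    have hsq : ∀ r : ℕ, r.Prime → (Nat.card G).factorization r = 1 → ¬ r * r ∣ Nat.card G := fun r hr hf hd => by
      have := (hr.pow_dvd_iff_le_factorization (k := 2) hG0).mp (by rwa [pow_two])
      omega
    refine main p q 1 k hp hq hpq one_pos (by rwa [pow_one]) ?_ ?_ ?_ (by omega) ?_
    · rw [pow_one]
      refine Nat.Coprime.mul_left ((hp.coprime_iff_not_dvd).mpr fun h => hsq p hp hfp ?_)
        ((hq.coprime_iff_not_dvd).mpr fun h => hsq q hq hfq ?_)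
      · rw [hk, mul_assoc]; exact Nat.mul_dvd_mul_left p (h.mul_left q)
      · rw [hk, mul_comm p q, mul_assoc]; exact Nat.mul_dvd_mul_left q (h.mul_left p)
    · intro i hi h
      interval_cases i
      · rfl
      · rw [pow_one, Nat.mod_eq_of_lt hlt] at h; exact absurd h hp.one_lt.ne'
    · rintro ⟨c, hc⟩
      have hpo := hp.eq_two_or_odd
      have hqo := hq.eq_two_or_odd
      have hc2 : c < 2 := by
        by_contra hge
        have : p * 2 ≤ p * c := Nat.mul_le_mul_left p (by omega)
        omega
      interval_cases c <;> omega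
    · have : p * 2 ≤ p * q := Nat.mul_le_mul_left p hq.two_le
      omega
  · push Not at hn11
    interval_cases n
    · refine main 3 5 1 4 (by norm_num) (by norm_num) (by norm_num) one_pos ?_ (by norm_num) (by decide) (by norm_num) (by norm_num) (by norm_num)
      rw [Nat.factorial_succ] at hA; simp [Nat.factorial] at hA ⊢; omega
    · refine main 3 5 2 8 (by norm_num) (by norm_num) (by norm_num) (by norm_num) ?_ (by norm_num) (by decide) (by norm_num) (by norm_num) (by norm_num)
      simp [Nat.factorial] at hA ⊢; omega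
    · refine main 5 7 1 72 (by norm_num) (by norm_num) (by norm_num) one_pos ?_ (by norm_num) (by decide) (by norm_num) (by norm_num) (by norm_num)
      simp [Nat.factorial] at hA ⊢; omega
    · refine main 5 7 1 576 (by norm_num) (by norm_num) (by norm_num) one_pos ?_ (by norm_num) (by decide) (by norm_num) (by norm_num) (by norm_num)
      simp [Nat.factorial] at hA ⊢; omega
    · refine main 5 7 1 5184 (by norm_num) (by norm_num) (by norm_num) one_pos ?_ (by norm_num) (by decide) (by norm_num) (by norm_num) (by norm_num)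
      simp [Nat.factorial] at hA ⊢; omega
    · refine main 5 7 2 10368 (by norm_num) (by norm_num) (by norm_num) (by norm_num) ?_ (by norm_num) (by decide) (by norm_num) (by norm_num) (by norm_num)
      simp [Nat.factorial] at hA ⊢; omega

end Cfsg.Agent.S3419
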