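import Cfsg.Statements.S3420
import Cfsg.Agent.SmallOrder.PrimePairFactor
import Cfsg.Agent.SmallOrder.TwoPrimes

set_option autoImplicit false
open Cfsg

namespace Cfsg.Agent.S3420

/-- Let n ≥ 11 and let G be a finite group with the same order and the same set of element orders as the alternating group of degree n. Then G has normal subgroups N < H such that H/N is a non-abelian simple group whose order is divisible by every prime p with n/2 < p ≤ n. -/
theorem result {G : Type*} [Group G] [Finite G] (n : ℕ) (hn : 11 ≤ n)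
    (hcard : Nat.card G = Nat.card ↥(alternatingGroup (Fin n)))
    (hspec : Set.range (orderOf : G → ℕ) = Set.range (orderOf : ↥(alternatingGroup (Fin n)) → ℕ)) :
    ∃ (N H : Subgroup G) (_ : N.Normal), H.Normal ∧ N < H ∧
      IsSimpleGroup (↥H ⧸ N.subgroupOf H) ∧ ¬ IsMulCommutative (↥H ⧸ N.subgroupOf H) ∧
      ∀ p : ℕ, p.Prime → n < 2 * p → p ≤ n → p ∣ Nat.card (↥H ⧸ N.subgroupOf H) := by
  classical
  have hbig : ∀ r : ℕ, r.Prime → n < 2 * r → r ≤ n → r ∣ Nat.card G ∧ ¬ r ^ 2 ∣ Nat.card G := by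
    intro r hr h1 h2
    haveI : Nontrivial (Fin n) := Fin.nontrivial_iff_two_le.mpr (by omega)
    have hA : 2 * Nat.card G = n.factorial := by
      rw [hcard, two_mul_nat_card_alternatingGroup, Nat.card_perm, Nat.card_fin]
    have hr2 : 2 < r := by omega
    have hfac : n.factorial.factorization r = 1 := by
      rw [Nat.factorization_def _ hr]
      haveI := Fact.mk hr
      rw [padicValNat_factorial (b := 2) (Nat.log_lt_of_lt_pow (by omega) (by nlinarith))]
      rw [Finset.sum_Ico_eq_sum_range]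
      simp only [show 2 - 1 = 1 from rfl, Finset.sum_range_one, add_zero, pow_one]
      exact Nat.div_eq_of_lt_le (by omega) (by omega)
    have hG0 : Nat.card G ≠ 0 := Nat.card_pos.ne'
    have hfG : (Nat.card G).factorization r = 1 := by
      rw [← hA, Nat.factorization_mul two_ne_zero hG0, Finsupp.add_apply, Nat.Prime.factorization Nat.prime_two,
        Finsupp.single_eq_of_ne (by omega : r ≠ 2), zero_add] at hfac
      exact hfac
    refine ⟨(hr.dvd_iff_one_le_factorization hG0).mpr hfG.ge, fun hd => ?_⟩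
    have := (hr.pow_dvd_iff_le_factorization hG0).mp hd
    omega
  have hno : ∀ r s : ℕ, r.Prime → s.Prime → r ≠ s → n < 2 * r → n < 2 * s →
      ∀ g : G, ¬ r * s ∣ orderOf g := by
    intro r s hr hs hrs h1 h2 g hd
    obtain ⟨σ, hσ⟩ := (hspec ▸ Set.mem_range_self g : orderOf g ∈ Set.range (orderOf : ↥(alternatingGroup (Fin n)) → ℕ))
    rw [← hσ, ← Subgroup.orderOf_coe, ← Equiv.Perm.lcm_cycleType] at hd
    set m := (σ : Equiv.Perm (Fin n)).cycleType
    have key : ∀ t : ℕ, t.Prime → ∀ M : Multiset ℕ, t ∣ M.lcm → ∃ i ∈ M, t ∣ i := by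
      intro t ht M
      induction M using Multiset.induction with
      | empty => intro h; exact absurd h (by simp [ht.not_dvd_one])
      | cons a M ih =>
        intro h
        rw [Multiset.lcm_cons] at h
        rcases (Nat.Prime.dvd_mul ht).mp (h.trans (Nat.lcm_dvd_mul a M.lcm)) with h' | h'
        · exact ⟨a, Multiset.mem_cons_self a M, h'⟩
        · obtain ⟨i, hi, hti⟩ := ih h'
          exact ⟨i, Multiset.mem_cons_of_mem hi, hti⟩
    obtain ⟨i, hi, hri⟩ := key r hr m (dvd_trans (dvd_mul_right r s) hd)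
    obtain ⟨j, hj, hsj⟩ := key s hs m (dvd_trans (dvd_mul_left s r) hd)
    have hi0 : 0 < i := by have := Equiv.Perm.two_le_of_mem_cycleType hi; omega
    have hj0 : 0 < j := by have := Equiv.Perm.two_le_of_mem_cycleType hj; omega
    have hsum : m.sum ≤ n := by simpa using Equiv.Perm.sum_cycleType_le (σ : Equiv.Perm (Fin n))
    have hir := Nat.le_of_dvd hi0 hri
    by_cases hij : i = j
    · subst hij
      have h3 := Nat.le_of_dvd hi0 ((Nat.coprime_primes hr hs).mpr hrs |>.mul_dvd_of_dvd_of_dvd hri hsj)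
      have h4 := Multiset.le_sum_of_mem hi
      have h5 : 2 * r ≤ r * s := by rw [mul_comm 2 r]; exact Nat.mul_le_mul_left r hs.two_le
      omega
    · have hjs := Nat.le_of_dvd hj0 hsj
      have hj' : j ∈ m.erase i := (Multiset.mem_erase_of_ne (Ne.symm hij)).mpr hj
      have h4 := congrArg Multiset.sum (Multiset.cons_erase hi)
      rw [Multiset.sum_cons] at h4
      have := Multiset.le_sum_of_mem hj'
      omega
  have hpair : ∀ r s : ℕ, r.Prime → s.Prime → r ≠ s → n < 2 * r → r ≤ n → n < 2 * s → s ≤ n →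
      SmallOrder.PrimePair G r s := fun r s hr hs hrs h1 h2 h3 h4 =>
    ⟨hr, hs, by omega, by omega, hrs, by omega, (hbig r hr h1 h2).1, (hbig s hs h3 h4).1,
      (hbig r hr h1 h2).2, (hbig s hs h3 h4).2, hno r s hr hs hrs h1 h3⟩
  obtain ⟨p, q, hp, hq, hpq, hp1, hp2, hq1, hq2⟩ := SmallOrder.exists_two_primes n hn
  obtain ⟨K, H, hKn, hHn, hKH, hsimp, hnc, hpF, hqF, hpK, -⟩ :=
    (hpair p q hp hq hpq hp1 hp2 hq1 hq2).exists_factor (hpair q p hq hp hpq.symm hq1 hq2 hp1 hp2)
  refine ⟨K, H, hKn, hHn, hKH, hsimp, hnc, fun r hr hr1 hr2 => ?_⟩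
  by_cases hrp : r = p
  · exact hrp ▸ hpF
  have P1 := hpair p r hp hr (Ne.symm hrp) hp1 hp2 hr1 hr2
  have P2 := hpair r p hr hp hrp hr1 hr2 hp1 hp2
  haveI := Fact.mk hr
  haveI := Fact.mk hp
  have hrK : ¬ r ∣ Nat.card K := fun hd => by
    obtain ⟨Q, hQ, x, hx, hxn⟩ := SmallOrder.frattini_element hp hd P1.sq_q P1.dvd_p hpK
    exact P2.not_normalizes Q hQ x hx hxn
  have hcardH : Nat.card H = Nat.card (↥H ⧸ K.subgroupOf H) * Nat.card K := by
    rw [Subgroup.card_eq_card_quotient_mul_card_subgroup (K.subgroupOf H),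
      Nat.card_congr (Subgroup.subgroupOfEquivOfLe hKH.le).toEquiv]
  have hrH : r ∣ Nat.card H := by
    by_contra hc
    obtain ⟨P, hP, x, hx, hxn⟩ := SmallOrder.frattini_element hr (hpF.trans ⟨_, hcardH⟩) P1.sq_p P1.dvd_q hc
    exact P1.not_normalizes P hP x hx hxn
  rw [hcardH] at hrH
  exact ((Nat.Prime.dvd_mul hr).mp hrH).resolve_right hrK

end Cfsg.Agent.S3420
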