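import Cfsg.Statements.S3421
import Cfsg.Agent.SmallOrder.PSL2Spec.Main
import Cfsg.Agent.SmallOrder.PSL2Spec.Even

set_option autoImplicit false
open Cfsg

namespace Cfsg.Agent.S3421

/-- Let F be a finite field with more than 3 elements. A finite group G is isomorphic to PSL(2, F) if and only if G has the same set of element orders and the same order as PSL(2, F). -/
theorem result {G : Type*} [Group G] [Finite G] {F : Type*} [Field F] [Fintype F] (hF : 3 < Fintype.card F) :
    Nonempty (G ≃* Matrix.ProjectiveSpecialLinearGroup (Fin 2) F) ↔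
      (Set.range (orderOf : G → ℕ) = Set.range (orderOf : Matrix.ProjectiveSpecialLinearGroup (Fin 2) F → ℕ) ∧
        Nat.card G = Nat.card (Matrix.ProjectiveSpecialLinearGroup (Fin 2) F)) := by
  constructor
  · rintro ⟨e⟩
    exact ⟨SmallOrder.PSL2Spec.mem_range_iff_of_equiv e, Nat.card_congr e.toEquiv⟩
  rintro ⟨hspec, hcard⟩
  rcases Nat.even_or_odd (Fintype.card F) with heven | hodd
  · exact SmallOrder.PSL2Spec.nonempty_psl_even hF heven hspec hcard
  obtain ⟨p, n, m, B, hp, hp2, hn, hq, hqmB, hmB, hmodd, hm3, hB2, hBev, hcardF, hspecF⟩ :=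
    SmallOrder.PSL2Spec.psl_data F hodd hF
  rw [hspecF] at hspec
  have hex : ∀ d, d ∣ p ∨ d ∣ m ∨ d ∣ B → ∃ x : G, orderOf x = d := fun d hd => by
    have : d ∈ Set.range (orderOf : G → ℕ) := hspec ▸ hd
    exact this
  obtain ⟨a, ha⟩ := hex m (Or.inr (Or.inl dvd_rfl))
  obtain ⟨b, hb⟩ := hex B (Or.inr (Or.inr dvd_rfl))
  have hc : SmallOrder.PSL2Spec.Ctx G p n (Fintype.card F) m B a b :=
    { hp := hp, hp2 := hp2, hn := hn, hq := hq, hqmB := hqmB, hmB := hmB, hmodd := hmodd, hm := hm3, hB2 := hB2,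
      hBeven := hBev, hcard := hcard.trans hcardF,
      hspec := fun x => by
        have : orderOf x ∈ Set.range (orderOf : G → ℕ) := ⟨x, rfl⟩
        rw [hspec] at this
        exact this
      ha := ha, hb := hb }
  exact hc.nonempty_psl rfl

end Cfsg.Agent.S3421
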