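import Cfsg.Statements.S3430
import Cfsg.Agent.FGS4.Zsigmondy.Main
import Mathlib.Tactic.NormNum.Prime

set_option autoImplicit false
open Cfsg

namespace Cfsg.Agent.S3430

/-- Let q, n ≥ 2 be integers. Unless (n = 2 and q + 1 = 2^s·3^t for some s ≥ 0 and t ≤ 1), or (q = 2 and n ∈ {4, 6, 10, 12, 18}), or (q = 3 and n ∈ {4, 6}), or (q, n) = (5, 6), there is a prime p dividing q^n − 1 but no q^i − 1 with 1 ≤ i < n (a primitive prime divisor), such that p > n + 1 or p² divides q^n − 1. -/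
theorem result (q n : ℕ) (hq : 2 ≤ q) (hn : 2 ≤ n)
    (h1 : ¬ (n = 2 ∧ ∃ s t : ℕ, t ≤ 1 ∧ q + 1 = 2 ^ s * 3 ^ t))
    (h2 : ¬ (q = 2 ∧ (n = 4 ∨ n = 6 ∨ n = 10 ∨ n = 12 ∨ n = 18)))
    (h3 : ¬ (q = 3 ∧ (n = 4 ∨ n = 6))) (h4 : ¬ (q = 5 ∧ n = 6)) :
    ∃ p : ℕ, p.Prime ∧ p ∣ q ^ n - 1 ∧ (∀ i : ℕ, 1 ≤ i → i < n → ¬ p ∣ q ^ i - 1) ∧ (n + 1 < p ∨ p ^ 2 ∣ q ^ n - 1) := by
  rcases eq_or_lt_of_le hn with rfl | hn3
  · have hfac : q ^ 2 - 1 = (q + 1) * (q - 1) := by rw [← Nat.sq_sub_sq, one_pow]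
    by_cases hex : ∃ p : ℕ, p.Prime ∧ p ∣ q + 1 ∧ 3 < p
    · obtain ⟨p, hp, hpq, hp3⟩ := hex
      refine ⟨p, hp, hfac ▸ hpq.mul_right _, fun i hi1 hi2 hd => ?_, Or.inl hp3⟩
      obtain rfl : i = 1 := by omega
      rw [pow_one] at hd
      have h := Nat.dvd_sub hpq hd
      rw [show q + 1 - (q - 1) = 2 by omega] at h
      have := Nat.le_of_dvd two_pos h
      omega
    by_cases h9 : 9 ∣ q + 1
    · refine ⟨3, Nat.prime_three, hfac ▸ ((dvd_trans (by norm_num) h9).mul_right _),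
        fun i hi1 hi2 hd => ?_, Or.inr (hfac ▸ h9.mul_right _)⟩
      obtain rfl : i = 1 := by omega
      rw [pow_one] at hd
      omega
    refine absurd ⟨rfl, (q + 1).factorization 2, (q + 1).factorization 3, ?_, ?_⟩ h1
    · by_contra h
      exact h9 ((pow_dvd_pow 3 (show 2 ≤ (q + 1).factorization 3 by omega)).trans (Nat.ordProj_dvd _ _))
    · have hne : q + 1 ≠ 0 := by omega
      refine Nat.eq_of_factorization_eq hne (mul_ne_zero (pow_ne_zero _ two_ne_zero)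
        (pow_ne_zero _ three_ne_zero)) fun r => ?_
      rw [Nat.factorization_mul (pow_ne_zero _ two_ne_zero) (pow_ne_zero _ three_ne_zero),
        Nat.factorization_pow, Nat.factorization_pow, Finsupp.add_apply, Finsupp.smul_apply,
        Finsupp.smul_apply, Nat.Prime.factorization Nat.prime_two,
        Nat.Prime.factorization Nat.prime_three, smul_eq_mul, smul_eq_mul]
      rcases eq_or_ne r 2 with rfl | h2'
      · simp
      rcases eq_or_ne r 3 with rfl | h3'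
      · simp
      rw [Finsupp.single_eq_of_ne h2', Finsupp.single_eq_of_ne h3', mul_zero, mul_zero, add_zero]
      by_contra h0
      have hs : r ∈ (q + 1).factorization.support := Finsupp.mem_support_iff.mpr h0
      rw [Nat.support_factorization, Nat.mem_primeFactors] at hs
      have := hs.1.two_le
      exact hex ⟨r, hs.1, hs.2.1, by omega⟩
  by_cases hx : (q, n) ∈ Cfsg.Agent.FGS4.Zsigmondy.exceptions
  · simp only [Cfsg.Agent.FGS4.Zsigmondy.exceptions, List.mem_cons, List.not_mem_nil, or_false,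
      Prod.mk.injEq] at hx
    have key : ∀ p : ℕ, p.Prime → (q ^ n - 1) % p = 0 →
        (∀ k < n, 0 < k → (q ^ k - 1) % p ≠ 0) → n + 1 < p →
        ∃ p : ℕ, p.Prime ∧ p ∣ q ^ n - 1 ∧ (∀ i : ℕ, 1 ≤ i → i < n → ¬ p ∣ q ^ i - 1) ∧
          (n + 1 < p ∨ p ^ 2 ∣ q ^ n - 1) :=
      fun p hp h hk hlt => ⟨p, hp, Nat.dvd_of_mod_eq_zero h,
        fun k h0 hkn hd => hk k hkn h0 (Nat.mod_eq_zero_of_dvd hd), Or.inl hlt⟩
    rcases hx with ⟨rfl, rfl⟩ | ⟨rfl, rfl⟩ | ⟨rfl, rfl⟩ | ⟨rfl, rfl⟩ | ⟨rfl, rfl⟩ | ⟨rfl, rfl⟩ |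
      ⟨rfl, rfl⟩ | ⟨rfl, rfl⟩ | ⟨rfl, rfl⟩ | ⟨rfl, rfl⟩ | ⟨rfl, rfl⟩ | ⟨rfl, rfl⟩ | ⟨rfl, rfl⟩
    iterate 5 exact absurd ⟨rfl, by norm_num⟩ h2
    iterate 2 exact absurd ⟨rfl, by norm_num⟩ h3
    · exact absurd ⟨rfl, rfl⟩ h4
    · exact key 7 (by norm_num) (by norm_num) (by decide +kernel) (by norm_num)
    · exact key 17 (by norm_num) (by norm_num) (by decide +kernel) (by norm_num)
    · exact key 41 (by norm_num) (by norm_num) (by decide +kernel) (by norm_num)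
    · exact key 7 (by norm_num) (by norm_num) (by decide +kernel) (by norm_num)
    · exact key 13 (by norm_num) (by norm_num) (by decide +kernel) (by norm_num)
  obtain ⟨m, hm, hc, hm3⟩ := Cfsg.Agent.FGS4.Zsigmondy.exists_primitive_part hq (show 3 ≤ n by omega) hx
  have hm0 : m ≠ 0 := by omega
  by_cases hex : ∃ p : ℕ, p.Prime ∧ p ∣ m ∧ (n + 1 < p ∨ p ^ 2 ∣ m)
  · obtain ⟨p, hp, hpm, hor⟩ := hex
    exact ⟨p, hp, hpm.trans hm, fun i hi hin =>
      (Cfsg.Agent.FGS4.Zsigmondy.prime_of_primitive hq (by omega) hm hc hp hpm).1 i hi hin,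
      hor.imp id fun h => h.trans hm⟩
  exfalso
  have hall : ∀ p : ℕ, p.Prime → p ∣ m → p = n + 1 := fun p hp hpm => by
    have hle : p ≤ n + 1 := by
      by_contra h
      exact hex ⟨p, hp, hpm, Or.inl (by omega)⟩
    have h1 := Nat.le_of_dvd (by have := hp.two_le; omega)
      (Cfsg.Agent.FGS4.Zsigmondy.prime_of_primitive hq (by omega) hm hc hp hpm).2
    omega
  obtain ⟨p, hp, hpm⟩ := Nat.exists_prime_and_dvd (show m ≠ 1 by omega)
  obtain ⟨c, rfl⟩ := hpm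
  have hpn := hall p hp (dvd_mul_right p c)
  rcases eq_or_ne c 1 with rfl | hc1
  · omega
  obtain ⟨r, hr, hrc⟩ := Nat.exists_prime_and_dvd hc1
  have hrp : r = p := (hall r hr (hrc.mul_left p)).trans hpn.symm
  exact hex ⟨p, hp, dvd_mul_right p c, Or.inr (by rw [pow_two]; exact Nat.mul_dvd_mul_left p (hrp ▸ hrc))⟩

end Cfsg.Agent.S3430
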