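import Cfsg.Statements.S3733
import Cfsg.Agent.Transfer.Basic
import Mathlib.Algebra.BigOperators.Group.Finset.Basic

set_option autoImplicit false
open Cfsg

namespace Cfsg.Agent.S3733

/-- Let A and V be subgroups of a finite group with V abelian and nontrivial and A normalizing V. Suppose a nonempty finite family of proper subgroups of A partitions A: every non-identity element of A lies in exactly one member. If the number of members minus one is coprime to the order of V, then some member B of the family has a non-identity fixed point on V, that is V ∩ C(B) ≠ 1. -/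
theorem result {G : Type*} [Group G] [Finite G] (A V : Subgroup G) (hVab : IsMulCommutative V) (hV : V ≠ ⊥) (hAV : A ≤ Subgroup.normalizer (V : Set G)) (𝒜 : Finset (Subgroup G)) (hne : 𝒜.Nonempty) (hprop : ∀ B ∈ 𝒜, B < A) (hpart : ∀ a ∈ A, a ≠ 1 → ∃! B, B ∈ 𝒜 ∧ a ∈ B) (hk : (𝒜.card - 1).Coprime (Nat.card V)) : ∃ B ∈ 𝒜, V ⊓ Subgroup.centralizer (B : Set G) ≠ ⊥ := by
  classical
  haveI := Fintype.ofFinite G
  by_contra hcon
  simp only [not_exists, not_and, not_not] at hcon
  obtain ⟨v, hvV, hv1⟩ : ∃ v ∈ V, v ≠ 1 := (V.ne_bot_iff_exists_ne_one).mp hV |>.elim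
    fun w hw => ⟨w, w.2, fun h => hw (Subtype.ext h)⟩
  letI : CommGroup V := { (inferInstance : Group V) with mul_comm := fun a b => mul_comm' a b }
  let f : G → V := fun a => if ha : a ∈ A then
    ⟨a * v * a⁻¹, (Subgroup.mem_normalizer_iff.mp (hAV ha) v).mp hvV⟩ else 1
  have hf : ∀ a ∈ A, ((f a : V) : G) = a * v * a⁻¹ := fun a ha => by simp [f, ha]
  let el : Subgroup G → Finset G := fun B => Finset.univ.filter (· ∈ B)
  let nm : Subgroup G → V := fun B => ∏ b ∈ el B, f b
  have hfix : ∀ B, B ≤ A → ∀ c ∈ B, c * (nm B : G) * c⁻¹ = nm B := by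
    intro B hB c hc
    let ψ : V →* V :=
      { toFun := fun w => ⟨c * w * c⁻¹, (Subgroup.mem_normalizer_iff.mp (hAV (hB hc)) w).mp w.2⟩
        map_one' := by apply Subtype.ext; simp
        map_mul' := fun a b => by apply Subtype.ext; simp [mul_assoc] }
    have h1 : ψ (nm B) = nm B := by
      simp only [nm, map_prod]
      refine Finset.prod_equiv (Equiv.mulLeft c) (fun b => ?_) (fun b hb => ?_)
      · simp [el, B.mul_mem_cancel_left hc]
      · apply Subtype.ext
        have hb' : b ∈ B := by simpa [el] using hb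
        show c * ((f b : V) : G) * c⁻¹ = ((f (c * b) : V) : G)
        rw [hf b (hB hb'), hf _ (A.mul_mem (hB hc) (hB hb'))]
        group
    exact congrArg Subtype.val h1
  have hfix' : ∀ B, B ≤ A → ∀ W, B ≤ W → W ≤ A → (nm W : G) ∈ V ⊓ Subgroup.centralizer (B : Set G) := by
    intro B hB W hBW hW
    refine ⟨(nm W).2, ?_⟩
    show (nm W : G) ∈ Subgroup.centralizer (B : Set G)
    rw [Subgroup.mem_centralizer_iff]
    intro c hc
    exact mul_inv_eq_iff_eq_mul.mp (hfix W hW c (hBW hc))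
  have hB1 : ∀ B ∈ 𝒜, nm B = 1 := fun B hB => Subtype.ext (Subgroup.mem_bot.mp
    (hcon B hB ▸ hfix' B (hprop B hB).le B le_rfl (hprop B hB).le))
  obtain ⟨B₀, hB₀⟩ := hne
  have hA1 : nm A = 1 := Subtype.ext (Subgroup.mem_bot.mp
    (hcon B₀ hB₀ ▸ hfix' B₀ (hprop B₀ hB₀).le A (hprop B₀ hB₀).le le_rfl))
  have hsplit : ∀ B, B ≤ A → nm B = ⟨v, hvV⟩ * ∏ b ∈ (el B).erase 1, f b := by
    intro B _
    rw [show nm B = ∏ b ∈ el B, f b from rfl, ← Finset.mul_prod_erase (el B) f
      (by simp [el] : (1 : G) ∈ el B)]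
    congr 1
    exact Subtype.ext (by rw [hf 1 A.one_mem]; simp)
  have hun : (el A).erase 1 = 𝒜.biUnion fun B => (el B).erase 1 := by
    ext a
    simp only [Finset.mem_erase, Finset.mem_biUnion, el, Finset.mem_filter, Finset.mem_univ, true_and]
    constructor
    · rintro ⟨h1, h2⟩
      obtain ⟨B, ⟨hB, haB⟩, -⟩ := hpart a h2 h1
      exact ⟨B, hB, h1, haB⟩
    · rintro ⟨B, hB, h1, h2⟩
      exact ⟨h1, (hprop B hB).le h2⟩
  have hprod : ∏ B ∈ 𝒜, ∏ b ∈ (el B).erase 1, f b = ∏ b ∈ (el A).erase 1, f b := by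
    rw [hun, Finset.prod_biUnion]
    intro B hB B' hB' hne'
    rw [Function.onFun, Finset.disjoint_left]
    intro a ha ha'
    simp only [Finset.mem_erase, el, Finset.mem_filter, Finset.mem_univ, true_and] at ha ha'
    exact hne' ((hpart a ((hprop B hB).le ha.2) ha.1).unique ⟨hB, ha.2⟩ ⟨hB', ha'.2⟩)
  have h0 : (⟨v, hvV⟩ : V) ^ (𝒜.card - 1) = 1 := by
    have e : (1 : V) = (⟨v, hvV⟩ : V) ^ 𝒜.card * ∏ b ∈ (el A).erase 1, f b := by
      rw [← hprod, ← Finset.prod_const, ← Finset.prod_mul_distrib]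
      exact (Finset.prod_eq_one fun B hB => by rw [← hsplit B (hprop B hB).le, hB1 B hB]).symm
    have e' := (hsplit A le_rfl).symm.trans hA1
    rw [← Nat.sub_add_cancel (Finset.card_pos.mpr ⟨B₀, hB₀⟩), pow_succ, mul_assoc, e', mul_one] at e
    exact e.symm
  have h1 : (⟨v, hvV⟩ : V) = 1 := by
    apply (powCoprime hk.symm).injective
    simp only [powCoprime_apply, one_pow]
    exact h0
  exact hv1 (congrArg Subtype.val h1)

end Cfsg.Agent.S3733
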