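import Cfsg.Statements.S3734
import Cfsg.Agent.Coprime.Generation

set_option autoImplicit false
open scoped commutatorElement
open Cfsg

namespace Cfsg.Agent.S3734

/-- Let A and G be subgroups of a finite group with A abelian, A normalizing G and the orders of A and G coprime. Then G is generated by the fixed-point subgroups C_G(B) of those subgroups B of A for which A/B is cyclic (that is, A = ⟨B, a⟩ for some a), and [G, A] is generated by the commutator subgroups [C_G(B), A] over the same subgroups B. -/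
theorem result {X : Type*} [Group X] [Finite X] (A G : Subgroup X) (hAab : IsMulCommutative A) (hAG : A ≤ Subgroup.normalizer (G : Set X)) (hcop : (Nat.card A).Coprime (Nat.card G)) : (⨆ B ∈ {B : Subgroup X | B ≤ A ∧ ∃ a ∈ A, B ⊔ Subgroup.zpowers a = A}, G ⊓ Subgroup.centralizer (B : Set X)) = G ∧ (⨆ B ∈ {B : Subgroup X | B ≤ A ∧ ∃ a ∈ A, B ⊔ Subgroup.zpowers a = A}, ⁅G ⊓ Subgroup.centralizer (B : Set X), A⁆) = ⁅G, A⁆ := by
  classical
  haveI := hAab
  haveI : Group.IsSolvable A := Group.isSolvable_of_comm fun a b => hAab.is_comm.comm a b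
  have hA : ∀ a ∈ A, ∀ b ∈ A, a * b = b * a := fun a ha b hb =>
    congrArg Subtype.val (hAab.is_comm.comm ⟨a, ha⟩ ⟨b, hb⟩)
  set 𝓑 := {B : Subgroup X | B ≤ A ∧ ∃ a ∈ A, B ⊔ Subgroup.zpowers a = A} with h𝓑
  set J := ⨆ B ∈ 𝓑, G ⊓ Subgroup.centralizer (B : Set X) with hJ
  set K := ⨆ B ∈ 𝓑, ⁅G ⊓ Subgroup.centralizer (B : Set X), A⁆ with hK
  have hconjG : ∀ a ∈ A, ∀ x ∈ G, a * x * a⁻¹ ∈ G := fun a ha x hx =>
    (Subgroup.mem_normalizer_iff.mp (hAG ha) x).mp hx
  have hDA : ∀ B : Subgroup X, B ≤ A →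
      A ≤ Subgroup.normalizer ((G ⊓ Subgroup.centralizer (B : Set X) : Subgroup X) : Set X) := fun B hB =>
    (le_inf hAG ((Subgroup.le_centralizer_iff.mpr fun b hb => Subgroup.mem_centralizer_iff.mpr fun a ha =>
      hA a ha b (hB hb)).trans (Subgroup.le_normalizer))).trans Subgroup.inf_normalizer_le_normalizer_inf
  have claim : ∀ d : ℕ, ∀ B₀ : Subgroup X, B₀ ≤ A → Nat.card A - Nat.card B₀ = d →
      G ⊓ Subgroup.centralizer (B₀ : Set X) ≤ J := by
    intro d
    induction d using Nat.strong_induction_on with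
    | _ d ih =>
    intro B₀ hB hd
    by_cases hcyc : ∃ a ∈ A, B₀ ⊔ Subgroup.zpowers a = A
    · exact le_iSup₂ (f := fun B (_ : B ∈ 𝓑) => G ⊓ Subgroup.centralizer (B : Set X)) B₀ ⟨hB, hcyc⟩
    set H := Subgroup.centralizer (B₀ : Set X) with hH
    have hAH : A ≤ H := fun a ha => Subgroup.mem_centralizer_iff.mpr fun b hb => hA b (hB hb) a ha
    have hBH : B₀ ≤ H := hB.trans hAH
    set B' := B₀.subgroupOf H
    haveI : B'.Normal := ⟨fun b hb h => by
      rw [show h * b * h⁻¹ = b from Subtype.ext (by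
        show (h : X) * (b : X) * (h : X)⁻¹ = (b : X)
        rw [← Subgroup.mem_centralizer_iff.mp h.2 (b : X) hb, mul_inv_cancel_right])]
      exact hb⟩
    set f := QuotientGroup.mk' B' with hf
    set N' := (G.subgroupOf H).map f
    set A' := (A.subgroupOf H).map f
    haveI : IsMulCommutative A' := ⟨⟨by
      rintro ⟨_, a, ha, rfl⟩ ⟨_, b, hb, rfl⟩
      refine Subtype.ext ?_
      show f a * f b = f b * f a
      rw [← map_mul, ← map_mul, show a * b = b * a from Subtype.ext (hA a ha b hb)]⟩⟩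
    have hA'n : ¬ IsCyclic A' := fun hc => by
      obtain ⟨⟨_, a, ha, rfl⟩, hgen⟩ := hc.exists_generator
      refine hcyc ⟨(a : X), ha, le_antisymm (sup_le hB (Subgroup.zpowers_le.mpr ha)) fun x hx => ?_⟩
      obtain ⟨i, hi⟩ := hgen ⟨f ⟨x, hAH hx⟩, ⟨⟨x, hAH hx⟩, hx, rfl⟩⟩
      have h1 : f (a ^ i) = f ⟨x, hAH hx⟩ := by
        rw [map_zpow]; exact congrArg Subtype.val hi
      have h2 : ((a ^ i : H) : X)⁻¹ * x ∈ B₀ := (QuotientGroup.eq (s := B')).mp h1
      have h3 := Subgroup.mul_mem _ (Subgroup.mem_sup_right (⟨i, by simp⟩ : ((a ^ i : H) : X) ∈ Subgroup.zpowers (a : X)))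
        (Subgroup.mem_sup_left h2 : _ ∈ B₀ ⊔ Subgroup.zpowers (a : X))
      rwa [mul_inv_cancel_left] at h3
    have hnorm : A' ≤ Subgroup.normalizer (N' : Set (H ⧸ B')) := by
      refine (Subgroup.map_mono ?_).trans (Subgroup.le_normalizer_map f)
      intro a ha
      refine Cfsg.Agent.Coprime.mem_normalizer_of_conj_mem fun x hx => ?_
      exact hconjG _ ha _ hx
    have hcop' : (Nat.card A').Coprime (Nat.card N') := by
      refine (hcop.coprime_dvd_left ?_).coprime_dvd_right ?_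
      · exact (Subgroup.card_map_dvd _ f).trans (Nat.card_congr (Subgroup.subgroupOfEquivOfLe hAH).toEquiv).dvd
      · exact (Subgroup.card_map_dvd _ f).trans ((Subgroup.card_comap_dvd_of_injective G H.subtype H.subtype_injective))
    have hGA : G ⊓ A = ⊥ := by
      rw [← Subgroup.card_eq_one]
      exact Nat.eq_one_of_dvd_coprimes hcop (Subgroup.card_dvd_of_le inf_le_right) (Subgroup.card_dvd_of_le inf_le_left)
    set Y := (G ⊓ H) ⊓ J with hY
    have hle : N' ≤ (Y.subgroupOf H).map f := by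
      conv_lhs => rw [← Cfsg.Agent.Coprime.eq_centralizerJoin hA'n hnorm hcop']
      refine iSup_le ?_
      rintro ⟨_, ⟨e, he, rfl⟩, he1⟩
      rintro _ ⟨⟨x, hx, rfl⟩, hxe⟩
      refine ⟨x, ?_, rfl⟩
      have heB : (e : X) ∉ B₀ := fun h => he1 ((QuotientGroup.eq_one_iff e).mpr h)
      have hcxe : (x : X) * e = e * x := by
        have h1 := Subgroup.mem_centralizer_singleton_iff.mp hxe
        rw [← map_mul, ← map_mul] at h1
        have h2 : ((e * x : H) : X)⁻¹ * (x * e : H) ∈ B₀ := (QuotientGroup.eq (s := B')).mp h1.symm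
        have h3 : ((e * x : H) : X)⁻¹ * (x * e : H) ∈ G := by
          simp only [Subgroup.coe_mul, mul_inv_rev]
          rw [show (x : X)⁻¹ * (e : X)⁻¹ * ((x : X) * e) = (x : X)⁻¹ * ((e : X)⁻¹ * x * (e : X)⁻¹⁻¹) by group]
          exact G.mul_mem (G.inv_mem hx) (hconjG _ (A.inv_mem he) _ hx)
        have h4 : ((e * x : H) : X)⁻¹ * (x * e : H) ∈ G ⊓ A := ⟨h3, hB h2⟩
        rw [hGA, Subgroup.mem_bot, inv_mul_eq_one] at h4
        exact h4.symm
      refine ⟨⟨hx, x.2⟩, ?_⟩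
      refine ih _ ?_ (B₀ ⊔ Subgroup.zpowers (e : X)) (sup_le hB (Subgroup.zpowers_le.mpr he)) rfl ⟨hx, ?_⟩
      · have h1 := Subgroup.card_le_of_le (sup_le hB (Subgroup.zpowers_le.mpr he))
        have h2 : Nat.card B₀ < Nat.card (B₀ ⊔ Subgroup.zpowers (e : X) : Subgroup X) := by
          by_contra hc
          exact heB ((Subgroup.eq_of_le_of_card_ge le_sup_left (not_lt.mp hc)).ge
            (Subgroup.mem_sup_right (Subgroup.mem_zpowers _)))
        simp only [Subgroup.coe_subtype] at *; omega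
      · have h1 : B₀ ⊔ Subgroup.zpowers (e : X) ≤ Subgroup.centralizer ({(x : X)} : Set X) :=
          sup_le (fun b hb => Subgroup.mem_centralizer_singleton_iff.mpr (Subgroup.mem_centralizer_iff.mp x.2 b hb))
            (Subgroup.zpowers_le.mpr (Subgroup.mem_centralizer_singleton_iff.mpr hcxe.symm))
        exact Subgroup.mem_centralizer_iff.mpr fun b hb => Subgroup.mem_centralizer_singleton_iff.mp (h1 hb)
    intro x hx
    obtain ⟨y, hy, hyx⟩ := hle ⟨⟨x, hx.2⟩, hx.1, rfl⟩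
    have h1 : (y : X)⁻¹ * x ∈ B₀ := (QuotientGroup.eq (s := B')).mp hyx
    have h2 : (y : X)⁻¹ * x ∈ G ⊓ A := ⟨G.mul_mem (G.inv_mem hy.1.1) hx.1, hB h1⟩
    rw [hGA, Subgroup.mem_bot, inv_mul_eq_one] at h2
    exact h2 ▸ hy.2
  have hG : J = G := by
    refine le_antisymm (iSup₂_le fun B _ => inf_le_left) fun x hx => claim _ ⊥ bot_le rfl ⟨hx, ?_⟩
    exact Subgroup.mem_centralizer_iff.mpr fun b hb => by rw [Subgroup.mem_bot.mp hb, one_mul, mul_one]
  refine ⟨hG, le_antisymm (iSup₂_le fun B _ => Subgroup.commutator_mono inf_le_left le_rfl) ?_⟩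
  set C := G ⊓ Subgroup.centralizer (A : Set X) with hC
  have hCK : C ≤ Subgroup.normalizer (K : Set X) := by
    intro c hc
    refine Cfsg.Agent.Coprime.mem_normalizer_of_conj_mem fun x hx => ?_
    have hle : K ≤ K.comap (MulAut.conj c).toMonoidHom := by
      refine iSup₂_le fun B hBm => Subgroup.commutator_le.mpr fun d hd a ha => ?_
      show c * ⁅d, a⁆ * c⁻¹ ∈ K
      rw [show c * ⁅d, a⁆ * c⁻¹ = ⁅c * d * c⁻¹, c * a * c⁻¹⁆ by simp only [commutatorElement_def]; group,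
        show c * a * c⁻¹ = a by rw [← Subgroup.mem_centralizer_iff.mp hc.2 a ha, mul_inv_cancel_right]]
      refine le_iSup₂ (f := fun B (_ : B ∈ 𝓑) => ⁅G ⊓ Subgroup.centralizer (B : Set X), A⁆) B hBm
        (Subgroup.commutator_mem_commutator ⟨G.mul_mem (G.mul_mem hc.1 hd.1) (G.inv_mem hc.1), ?_⟩ ha)
      exact Subgroup.mul_mem _ (Subgroup.mul_mem _ (Subgroup.centralizer_le hBm.1 hc.2) hd.2)
        (Subgroup.inv_mem _ (Subgroup.centralizer_le hBm.1 hc.2))
    exact hle hx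
  have hKA : A ≤ Subgroup.normalizer (K : Set X) := by
    intro b hb
    refine Cfsg.Agent.Coprime.mem_normalizer_of_conj_mem fun x hx => ?_
    have hle : K ≤ K.comap (MulAut.conj b).toMonoidHom := by
      refine iSup₂_le fun B hBm => Subgroup.commutator_le.mpr fun d hd a ha => ?_
      show b * ⁅d, a⁆ * b⁻¹ ∈ K
      rw [show b * ⁅d, a⁆ * b⁻¹ = ⁅b * d * b⁻¹, b * a * b⁻¹⁆ by simp only [commutatorElement_def]; group]
      exact le_iSup₂ (f := fun B (_ : B ∈ 𝓑) => ⁅G ⊓ Subgroup.centralizer (B : Set X), A⁆) B hBm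
        (Subgroup.commutator_mem_commutator ((Subgroup.mem_normalizer_iff.mp (hDA B hBm.1 hb) d).mp hd)
          (A.mul_mem (A.mul_mem hb ha) (A.inv_mem hb)))
    exact hle hx
  have hGKC : G ≤ K ⊔ C := by
    rw [← hG]
    refine iSup₂_le fun B hBm => ?_
    rw [Cfsg.Agent.Coprime.eq_commutator_sup_centralizer (hDA B hBm.1)
      (hcop.coprime_dvd_right (Subgroup.card_dvd_of_le inf_le_left))]
    exact sup_le ((le_iSup₂ (f := fun B (_ : B ∈ 𝓑) => ⁅G ⊓ Subgroup.centralizer (B : Set X), A⁆) B hBm).trans le_sup_left)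
      ((inf_le_inf_right _ inf_le_left).trans le_sup_right)
  refine Subgroup.commutator_le.mpr fun x hx a ha => ?_
  obtain ⟨k, hk, c, hc, rfl⟩ := Cfsg.Agent.Coprime.exists_mul_of_mem_sup hCK (hGKC hx)
  rw [show ⁅k * c, a⁆ = k * (c * a * c⁻¹) * k⁻¹ * a⁻¹ by simp only [commutatorElement_def]; group,
    ← Subgroup.mem_centralizer_iff.mp hc.2 a ha, mul_inv_cancel_right,
    show k * a * k⁻¹ * a⁻¹ = k * (a * k⁻¹ * a⁻¹) by group]
  exact K.mul_mem hk ((Subgroup.mem_normalizer_iff.mp (hKA ha) _).mp (K.inv_mem hk))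

end Cfsg.Agent.S3734
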