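import Cfsg.Statements.S3735
import Cfsg.Agent.Coprime.Action

set_option autoImplicit false
open scoped commutatorElement
open Cfsg

namespace Cfsg.Agent.S3735

/-- Clifford's Theorem for actions on finite abelian groups, first part. Let H and V be subgroups of a finite group with V abelian and H normalizing V, and let A be a normal subgroup of H. If every H-invariant subgroup of V has an H-invariant complement in V, then every A-invariant subgroup of V has an A-invariant complement in V. -/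
theorem result {G : Type*} [Group G] [Finite G] (H A V : Subgroup G) (hVab : IsMulCommutative V) (hHV : H ≤ Subgroup.normalizer (V : Set G)) (hAH : A ≤ H) (hAn : H ≤ Subgroup.normalizer (A : Set G)) (hss : ∀ U : Subgroup G, U ≤ V → H ≤ Subgroup.normalizer (U : Set G) → ∃ W : Subgroup G, W ≤ V ∧ H ≤ Subgroup.normalizer (W : Set G) ∧ U ⊓ W = ⊥ ∧ U ⊔ W = V) (U : Subgroup G) (hUV : U ≤ V) (hAU : A ≤ Subgroup.normalizer (U : Set G)) : ∃ W : Subgroup G, W ≤ V ∧ A ≤ Subgroup.normalizer (W : Set G) ∧ U ⊓ W = ⊥ ∧ U ⊔ W = V := by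
  classical
  have hcomm : ∀ x ∈ V, ∀ y ∈ V, x * y = y * x := fun x hx y hy =>
    congrArg Subtype.val (hVab.is_comm.comm ⟨x, hx⟩ ⟨y, hy⟩)
  have hconj : ∀ {K X : Subgroup G}, K ≤ Subgroup.normalizer (X : Set G) → ∀ k ∈ K, ∀ x ∈ X, k * x * k⁻¹ ∈ X :=
    fun hK k hk x hx => (Subgroup.mem_normalizer_iff.mp (hK hk) x).mp hx
  let Irr : Subgroup G → Prop := fun I => I ≤ V ∧ I ≠ ⊥ ∧ A ≤ Subgroup.normalizer (I : Set G) ∧
    ∀ I' : Subgroup G, I' ≤ I → A ≤ Subgroup.normalizer (I' : Set G) → I' = ⊥ ∨ I' = I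
  have hex : ∀ X : Subgroup G, X ≤ V → X ≠ ⊥ → A ≤ Subgroup.normalizer (X : Set G) → ∃ I, Irr I ∧ I ≤ X := by
    intro X hXV hX hAX
    obtain ⟨I, ⟨hIX, hI, hAI⟩, hmin⟩ := (Set.toFinite {I : Subgroup G | I ≤ X ∧ I ≠ ⊥ ∧
      A ≤ Subgroup.normalizer (I : Set G)}).exists_minimal ⟨X, le_rfl, hX, hAX⟩
    refine ⟨I, ⟨hIX.trans hXV, hI, hAI, fun I' hI' hAI' => ?_⟩, hIX⟩
    by_cases h : I' = ⊥
    · exact Or.inl h
    · exact Or.inr (le_antisymm hI' (hmin ⟨hI'.trans hIX, h, hAI'⟩ hI'))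
  set S := sSup {I : Subgroup G | Irr I} with hS
  have hSV : S ≤ V := sSup_le fun I hI => hI.1
  have hHS : H ≤ Subgroup.normalizer (S : Set G) := by
    intro h hh
    refine Cfsg.Agent.Coprime.mem_normalizer_of_conj_mem fun x hx => ?_
    have hle : S ≤ S.comap (MulAut.conj h).toMonoidHom := by
      refine sSup_le fun I hI => ?_
      rw [← Subgroup.map_le_iff_le_comap]
      refine le_sSup ⟨?_, ?_, ?_, ?_⟩
      · rintro _ ⟨i, hi, rfl⟩
        exact hconj hHV h hh i (hI.1 hi)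
      · exact fun e => hI.2.1 ((Subgroup.map_eq_bot_iff_of_injective I (MulAut.conj h).injective).mp e)
      · intro a ha
        refine Cfsg.Agent.Coprime.mem_normalizer_of_conj_mem ?_
        rintro _ ⟨i, hi, rfl⟩
        have ha' : h⁻¹ * a * h ∈ A := by simpa using hconj hAn h⁻¹ (H.inv_mem hh) a ha
        refine ⟨h⁻¹ * a * h * i * (h⁻¹ * a * h)⁻¹, hconj hI.2.2.1 _ ha' i hi, ?_⟩
        simp [mul_assoc]
      · intro I' hI' hAI'
        have h1 := hI.2.2.2 (I'.comap (MulAut.conj h).toMonoidHom) (by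
          refine (Subgroup.comap_mono hI').trans ?_
          rw [Subgroup.comap_map_eq_self_of_injective (MulAut.conj h).injective]) (by
          intro a ha
          refine Cfsg.Agent.Coprime.mem_normalizer_of_conj_mem fun i hi => ?_
          have ha' : h * a * h⁻¹ ∈ A := hconj hAn h hh a ha
          have := hconj hAI' _ ha' _ hi
          simpa [mul_assoc] using this)
        have e : (I'.comap (MulAut.conj h).toMonoidHom).map (MulAut.conj h).toMonoidHom = I' :=
          Subgroup.map_comap_eq_self_of_surjective (MulAut.conj h).surjective I'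
        rcases h1 with h1 | h1 <;> rw [← e, h1]
        · left; exact Subgroup.map_bot _
        · right; rfl
    exact hle hx
  have hSe : S = V := by
    obtain ⟨W, hWV, hHW, hdis, hsup⟩ := hss S hSV hHS
    by_cases hW : W = ⊥
    · rw [← hsup, hW, sup_bot_eq]
    · exfalso
      obtain ⟨I, hI, hIW⟩ := hex W hWV hW (hAH.trans hHW)
      exact hI.2.1 (le_bot_iff.mp (hdis ▸ le_inf (le_sSup (show I ∈ {I : Subgroup G | Irr I} from hI)) hIW))
  obtain ⟨W, ⟨hWV, hAW, hUW⟩, hmax⟩ := (Set.toFinite {W : Subgroup G | W ≤ V ∧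
    A ≤ Subgroup.normalizer (W : Set G) ∧ U ⊓ W = ⊥}).exists_maximal ⟨⊥, bot_le,
      (le_top.trans_eq (Subgroup.normalizer_eq_top (⊥ : Subgroup G)).symm), inf_bot_eq _⟩
  refine ⟨W, hWV, hAW, hUW, le_antisymm (sup_le hUV hWV) ?_⟩
  rw [← hSe]
  refine sSup_le fun I hI => ?_
  have hAUW : A ≤ Subgroup.normalizer ((U ⊔ W : Subgroup G) : Set G) := fun a ha => by
    refine Cfsg.Agent.Coprime.mem_normalizer_of_conj_mem fun x hx => ?_
    have hle : U ⊔ W ≤ (U ⊔ W).comap (MulAut.conj a).toMonoidHom :=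
      sup_le (fun u hu => Subgroup.mem_sup_left (hconj hAU a ha u hu))
        (fun w hw => Subgroup.mem_sup_right (hconj hAW a ha w hw))
    exact hle hx
  rcases hI.2.2.2 (I ⊓ (U ⊔ W)) inf_le_left
    ((le_inf hI.2.2.1 hAUW).trans Subgroup.inf_normalizer_le_normalizer_inf) with h | h
  swap
  · exact h ▸ inf_le_right
  exfalso
  have hWI : W ⊔ I ≤ V := sup_le hWV hI.1
  have hAWI : A ≤ Subgroup.normalizer ((W ⊔ I : Subgroup G) : Set G) := fun a ha => by
    refine Cfsg.Agent.Coprime.mem_normalizer_of_conj_mem fun x hx => ?_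
    have hle : W ⊔ I ≤ (W ⊔ I).comap (MulAut.conj a).toMonoidHom :=
      sup_le (fun u hu => Subgroup.mem_sup_left (hconj hAW a ha u hu))
        (fun w hw => Subgroup.mem_sup_right (hconj hI.2.2.1 a ha w hw))
    exact hle hx
  have hnew : U ⊓ (W ⊔ I) = ⊥ := by
    rw [eq_bot_iff]
    rintro x ⟨hxU, hx⟩
    have hnorm : I ≤ Subgroup.normalizer (W : Set G) := fun i hi =>
      (Subgroup.centralizer_le_normalizer _) (Subgroup.mem_centralizer_iff.mpr fun w hw => hcomm w (hWV hw) i (hI.1 hi))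
    obtain ⟨w, hw, i, hi, rfl⟩ := Cfsg.Agent.Coprime.exists_mul_of_mem_sup hnorm hx
    have hi1 : i ∈ I ⊓ (U ⊔ W) := ⟨hi, by
      have := Subgroup.mul_mem _ (Subgroup.inv_mem _ (Subgroup.mem_sup_right hw : w ∈ U ⊔ W)) (Subgroup.mem_sup_left hxU : w * i ∈ U ⊔ W)
      rwa [inv_mul_cancel_left] at this⟩
    rw [h, Subgroup.mem_bot] at hi1
    subst hi1
    rw [mul_one] at hxU ⊢
    exact hUW ▸ Subgroup.mem_inf.mpr ⟨hxU, hw⟩
  have hIW : I ≤ W := le_sup_right.trans (hmax ⟨hWI, hAWI, hnew⟩ le_sup_left)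
  exact hI.2.1 (le_bot_iff.mp (h ▸ le_inf le_rfl (hIW.trans le_sup_right)))

end Cfsg.Agent.S3735
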