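import Cfsg.Statements.S3741
import Mathlib.GroupTheory.PGroup

set_option autoImplicit false
open Cfsg

namespace Cfsg.Agent.S3741

/-- Let A and B be subgroups of a finite p-group with [A, B] ≤ A ∩ B and [A, B] of order at most p. Then |A : C_A(B)| = |B : C_B(A)|. -/
theorem result {G : Type*} [Group G] [Finite G] {p : ℕ} [Fact p.Prime] (hG : IsPGroup p G) (A B : Subgroup G) (hAB : ⁅A, B⁆ ≤ A ⊓ B) (hcard : Nat.card ↥⁅A, B⁆ ≤ p) : (A ⊓ Subgroup.centralizer (B : Set G)).relIndex A = (B ⊓ Subgroup.centralizer (A : Set G)).relIndex B := by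
  have hp : p.Prime := Fact.out
  haveI hfi : ∀ X Y : Subgroup G, X.IsFiniteRelIndex Y := fun X Y => ⟨Subgroup.index_ne_zero_of_finite⟩
  suffices key : ∀ A B : Subgroup G, ⁅A, B⁆ ≤ A ⊓ B → Nat.card ↥⁅A, B⁆ ≤ p →
      (A ⊓ Subgroup.centralizer (B : Set G)).relIndex A ≤
        (B ⊓ Subgroup.centralizer (A : Set G)).relIndex B from
    le_antisymm (key A B hAB hcard) (key B A (by rw [Subgroup.commutator_comm, inf_comm]; exact hAB)
      (by rw [Subgroup.commutator_comm]; exact hcard))
  clear hAB hcard A B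
  intro A B hAB hcard
  set C := ⁅A, B⁆ with hC
  set B₀ := B ⊓ Subgroup.centralizer (A : Set G) with hB₀
  -- `C` is centralized by `A`
  have hCA : ∀ a ∈ A, ∀ c ∈ C, a * c = c * a := by
    intro a ha c hc
    have hCnA : A ≤ Subgroup.normalizer (C : Set G) := Subgroup.normalizer_commutator_ge_left A B
    by_contra hne
    obtain ⟨k, hk⟩ := IsPGroup.iff_card.mp (hG.to_subgroup C)
    have hk1 : k ≤ 1 := by
      by_contra h
      exact absurd hcard (not_le.mpr (hk ▸ (pow_one p).symm.trans_lt (Nat.pow_lt_pow_right hp.one_lt (by omega))))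
    have hCp : Nat.card C = p := by
      interval_cases k
      · exfalso
        rw [pow_zero, Subgroup.card_eq_one] at hk
        rw [hk, Subgroup.mem_bot] at hc
        exact hne (by simp [hc])
      · simpa using hk
    -- the `p`-group `A` acts trivially on a group of order `p`
    haveI : IsCyclic C := isCyclic_of_prime_card hCp
    let φ : A →* MulAut C := C.normalizerMonoidHom.comp (Subgroup.inclusion hCnA)
    obtain ⟨j, hj⟩ := IsPGroup.iff_orderOf.mp (hG.to_subgroup A) ⟨a, ha⟩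
    have h1 : orderOf (φ ⟨a, ha⟩) ∣ p ^ j := hj ▸ orderOf_map_dvd φ _
    have h2 : orderOf (φ ⟨a, ha⟩) ∣ p - 1 := by
      refine (orderOf_dvd_natCard _).trans (dvd_of_eq ?_)
      rw [IsCyclic.card_mulAut, hCp, Nat.totient_prime hp]
    have h3 : orderOf (φ ⟨a, ha⟩) = 1 := Nat.eq_one_of_dvd_coprimes
      ((hp.coprime_iff_not_dvd.mpr (Nat.not_dvd_of_pos_of_lt (by have := hp.two_le; omega)
        (by have := hp.pos; omega))).pow_left j) h1 h2
    have h4 := congrArg Subtype.val (MulEquiv.congr_fun (orderOf_eq_one_iff.mp h3) ⟨c, hc⟩)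
    exact hne (mul_inv_eq_iff_eq_mul.mp h4)
  -- fibres of `a ↦ [a, b]`
  have hstep : ∀ b ∈ B, (A ⊓ Subgroup.centralizer ({b} : Set G)).relIndex A ≤ p := by
    intro b hb
    refine le_trans ?_ hcard
    rw [Subgroup.relIndex, Subgroup.index_eq_card]
    refine Nat.card_le_card_of_injective
      (fun q => (⟨(q.out : G) * b * (q.out : G)⁻¹ * b⁻¹,
        Subgroup.commutator_mem_commutator q.out.2 hb⟩ : C)) ?_
    intro q q' he
    have he' : (q.out : G) * b * (q.out : G)⁻¹ = (q'.out : G) * b * (q'.out : G)⁻¹ :=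
      mul_right_cancel (congrArg Subtype.val he)
    rw [← q.out_eq, ← q'.out_eq]
    refine QuotientGroup.eq.mpr ⟨(q.out⁻¹ * q'.out).2, ?_⟩
    refine Subgroup.mem_centralizer_iff.mpr ?_
    rintro y rfl
    show y * ((q.out : G)⁻¹ * q'.out) = (q.out : G)⁻¹ * q'.out * y
    calc y * ((q.out : G)⁻¹ * q'.out)
        = (q.out : G)⁻¹ * ((q.out : G) * y * (q.out : G)⁻¹) * q'.out := by group
      _ = (q.out : G)⁻¹ * q'.out * y := by rw [he']; group
  obtain ⟨D, ⟨hBD, hDB, hDle⟩, hmax⟩ := (Set.toFinite {D : Subgroup G | B₀ ≤ D ∧ D ≤ B ∧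
      (A ⊓ Subgroup.centralizer (D : Set G)).relIndex A ≤ B₀.relIndex D}).exists_maximal
    ⟨B₀, le_rfl, inf_le_left, by
      rw [Subgroup.relIndex_self]
      refine le_of_eq (Subgroup.relIndex_eq_one.mpr (le_inf le_rfl fun a ha => ?_))
      rw [Subgroup.mem_centralizer_iff]
      exact fun y hy => (Subgroup.mem_centralizer_iff.mp hy.2 a ha).symm⟩
  rcases hDB.eq_or_lt with e | hlt
  · exact e ▸ hDle
  exfalso
  obtain ⟨b, hb, hbD⟩ := SetLike.exists_of_lt hlt
  set D' := D ⊔ Subgroup.zpowers b with hD'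
  have hDD' : D < D' := lt_of_le_of_ne le_sup_left fun e =>
    hbD (e.symm.le (Subgroup.mem_sup_right (Subgroup.mem_zpowers b)))
  refine hDD'.not_ge (hmax ⟨hBD.trans le_sup_left,
    sup_le hDB (Subgroup.zpowers_le.mpr hb), ?_⟩ le_sup_left)
  have h1 : p * B₀.relIndex D ≤ B₀.relIndex D' := by
    rw [← Subgroup.relIndex_mul_relIndex B₀ D D' hBD le_sup_left, mul_comm]
    refine Nat.mul_le_mul_left _ ?_
    obtain ⟨m, hm⟩ := (hG.to_subgroup D').index (D.subgroupOf D')
    have hm' : D.relIndex D' = p ^ m := hm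
    rw [hm']
    refine Nat.le_self_pow ?_ p
    rintro rfl
    exact hDD'.not_ge (Subgroup.relIndex_eq_one.mp (by rw [hm', pow_zero]))
  refine le_trans ?_ h1
  have hle : A ⊓ Subgroup.centralizer (D' : Set G) =
      (A ⊓ Subgroup.centralizer (D : Set G)) ⊓ (A ⊓ Subgroup.centralizer ({b} : Set G)) := by
    apply le_antisymm
    · exact le_inf (inf_le_inf le_rfl (Subgroup.centralizer_le (by exact_mod_cast le_sup_left)))
        (inf_le_inf le_rfl (Subgroup.centralizer_le
          (Set.singleton_subset_iff.mpr (Subgroup.mem_sup_right (Subgroup.mem_zpowers b)))))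
    · rintro x ⟨⟨hxA, hx1⟩, -, hx2⟩
      refine ⟨hxA, ?_⟩
      have : D' ≤ Subgroup.centralizer ({x} : Set G) := by
        refine sup_le (fun d hd => ?_) (Subgroup.zpowers_le.mpr ?_) <;>
          rw [Subgroup.mem_centralizer_iff] <;> rintro _ rfl
        · exact (Subgroup.mem_centralizer_iff.mp hx1 d hd).symm
        · exact (Subgroup.mem_centralizer_iff.mp hx2 b rfl).symm
      exact Subgroup.mem_centralizer_iff.mpr fun y hy => (Subgroup.mem_centralizer_iff.mp (this hy) x rfl).symm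
  rw [hle]
  exact Subgroup.relIndex_inf_le.trans ((Nat.mul_le_mul hDle (hstep b hb)).trans_eq (mul_comm _ _))

end Cfsg.Agent.S3741
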