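import Cfsg.Statements.S3744
import Cfsg.Agent.Core.Hall

set_option autoImplicit false
open Cfsg

namespace Cfsg.Agent.S3744

/-- A finite p-soluble group has a p-complement, all its p-complements are conjugate, and every subgroup of order prime to p lies in one of them. Here a p-complement is a subgroup of order prime to p whose index is a power of p. -/
theorem result {G : Type*} [Group G] [Finite G] {p : ℕ} [Fact p.Prime] (hG : Cfsg.IsPSolvable p G) : (∃ H : Subgroup G, (Nat.card H).Coprime p ∧ ∃ n : ℕ, H.index = p ^ n) ∧ (∀ H₁ H₂ : Subgroup G, (Nat.card H₁).Coprime p → (∃ n : ℕ, H₁.index = p ^ n) → (Nat.card H₂).Coprime p → (∃ n : ℕ, H₂.index = p ^ n) → ∃ g : G, H₂ = H₁.map (MulAut.conj g).toMonoidHom) ∧ (∀ U : Subgroup G, (Nat.card U).Coprime p → ∃ H : Subgroup G, (Nat.card H).Coprime p ∧ (∃ n : ℕ, H.index = p ^ n) ∧ ∃ g : G, U.map (MulAut.conj g).toMonoidHom ≤ H) := by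
  have hp : p.Prime := Fact.out
  have hps := Cfsg.Agent.Core.isPiSeparable_compl (Cfsg.Agent.Core.isPiSeparable_of_isPSolvable hG)
  have hhs : Cfsg.Agent.Core.HallSolvable {p}ᶜ G := Cfsg.Agent.Core.hallSolvable_compl_singleton hp
  have key : ∀ H : Subgroup G, Cfsg.IsPiHall ({p}ᶜ : Set ℕ) H ↔
      ((Nat.card H).Coprime p ∧ ∃ n : ℕ, H.index = p ^ n) := fun H => by
    rw [Cfsg.Agent.Core.isPiHall_iff, Cfsg.Agent.Core.isPiNat_compl_singleton_iff_coprime hp, compl_compl,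
      Cfsg.Agent.Core.isPiNat_singleton_iff hp Subgroup.index_ne_zero_of_finite]
  refine ⟨?_, fun H₁ H₂ h1 h2 h3 h4 => ?_, fun U hU => ?_⟩
  · obtain ⟨H, hH⟩ := Cfsg.Agent.Core.exists_isPiHall hps
    exact ⟨H, (key H).mp hH⟩
  · obtain ⟨g, hg⟩ := Cfsg.Agent.Core.exists_conj_eq_of_isPiHall hps hhs
      ((key H₁).mpr ⟨h1, h2⟩) ((key H₂).mpr ⟨h3, h4⟩)
    exact ⟨g, by rw [← hg, Cfsg.Agent.Core.conj_smul_eq_map]⟩
  · obtain ⟨H, hH, hUH⟩ := Cfsg.Agent.Core.exists_isPiHall_ge hps hhs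
      ((Cfsg.Agent.Core.isPiNat_compl_singleton_iff_coprime hp).mpr hU)
    refine ⟨H, ((key H).mp hH).1, ((key H).mp hH).2, 1, ?_⟩
    rintro _ ⟨u, hu, rfl⟩
    simpa using hUH hu

end Cfsg.Agent.S3744
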