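import Cfsg.Statements.S3746
import Cfsg.Agent.Components.Basic

set_option autoImplicit false
open scoped commutatorElement
open Cfsg

namespace Cfsg.Agent.S3746

/-- Let Z ≤ Z(G) be a central subgroup of a finite group G and E a subgroup of G containing Z whose image E/Z is a component of G/Z (subnormal and quasisimple). Then the derived subgroup [E, E] is a component of G. -/
theorem result {G : Type*} [Group G] [Finite G] (Z : Subgroup G) (hZ : Z ≤ Subgroup.center G) [Z.Normal] (E : Subgroup G) (hZE : Z ≤ E) (hE : Cfsg.IsComponent (E.map (QuotientGroup.mk' Z))) : Cfsg.IsComponent ⁅E, E⁆ := by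
  set f := QuotientGroup.mk' Z with hf
  set D := ⁅E, E⁆ with hD
  have hDE : D ≤ E := Subgroup.commutator_le.mpr fun a ha b hb =>
      E.mul_mem (E.mul_mem (E.mul_mem ha hb) (E.inv_mem ha)) (E.inv_mem hb)
  have hEeq : (E.map f).comap f = E := by
    rw [Subgroup.comap_map_eq, QuotientGroup.ker_mk', sup_eq_left.mpr hZE]
  have hEsn : E.IsSubnormal := hEeq ▸ hE.1.comap f
  have hmapD : D.map f = E.map f := by
    rw [hD, Subgroup.map_commutator, Cfsg.Agent.Components.component_commutator_self hE]
  have hEDZ : E ≤ D ⊔ Z := by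
    intro e he
    obtain ⟨d, hd, hde⟩ : f e ∈ D.map f := hmapD ▸ Subgroup.mem_map_of_mem f he
    have : d⁻¹ * e ∈ Z := QuotientGroup.eq.mp hde
    simpa using Subgroup.mul_mem_sup hd this
  have hperf : ⁅D, D⁆ = D := by
    refine le_antisymm (Subgroup.commutator_le.mpr fun a ha b hb =>
      D.mul_mem (D.mul_mem (D.mul_mem ha hb) (D.inv_mem ha)) (D.inv_mem hb)) ?_
    rw [hD, Subgroup.commutator_le]
    intro a ha b hb
    obtain ⟨d, hd, z, hz, rfl⟩ := Subgroup.mem_sup_of_normal_right.mp (hEDZ ha)
    obtain ⟨d', hd', z', hz', rfl⟩ := Subgroup.mem_sup_of_normal_right.mp (hEDZ hb)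
    have hc := Subgroup.mem_center_iff.mp (hZ hz)
    have hc' := Subgroup.mem_center_iff.mp (hZ hz')
    have e : ⁅d * z, d' * z'⁆ = ⁅d, d'⁆ := by
      simp only [commutatorElement_def, mul_inv_rev]
      calc d * z * (d' * z') * (z⁻¹ * d⁻¹) * (z'⁻¹ * d'⁻¹)
          = d * (z * (d' * z') * z⁻¹) * d⁻¹ * (z'⁻¹ * d'⁻¹) := by group
        _ = d * (d' * z') * d⁻¹ * (z'⁻¹ * d'⁻¹) := by rw [← hc (d' * z'), mul_inv_cancel_right]
        _ = d * d' * (z' * d⁻¹ * z'⁻¹) * d'⁻¹ := by group
        _ = d * d' * d⁻¹ * d'⁻¹ := by rw [← hc' d⁻¹, mul_inv_cancel_right]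
    rw [e]
    exact Subgroup.commutator_mem_commutator hd hd'
  have hDn : (D.subgroupOf E).Normal :=
    Subgroup.normal_subgroupOf_of_le_normalizer (by
      intro g hg
      rw [Subgroup.mem_normalizer_iff]
      intro x
      have key : ∀ w ∈ E, ∀ y ∈ D, w * y * w⁻¹ ∈ D := fun w hw y hy => by
        have h1 : ⁅w, y⁆ ∈ D := Subgroup.commutator_mem_commutator hw (hDE hy)
        have := D.mul_mem h1 hy
        simpa [commutatorElement_def, mul_assoc] using this
      exact ⟨key g hg x, fun h => by simpa [mul_assoc] using key g⁻¹ (E.inv_mem hg) _ h⟩)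
  refine ⟨Subgroup.IsSubnormal.step D E hDE hEsn hDn, ?_⟩
  have hq : Cfsg.IsQuasisimple (D.map f) := by rw [hmapD]; exact hE.2
  haveI : Nontrivial (D.map f) := Cfsg.Agent.Components.quasisimple_nontrivial hq
  haveI : Nontrivial D := (f.subgroupMap_surjective D).nontrivial
  refine Cfsg.Agent.Components.isQuasisimple_of_normal_le_center ?_ fun N hN hNt => ?_
  · apply Subgroup.map_injective D.subtype_injective
    rw [commutator_def, Subgroup.map_commutator, ← MonoidHom.range_eq_map, Subgroup.range_subtype, hperf]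
  · haveI := hN
    set g := f.subgroupMap D with hg
    have hgs := f.subgroupMap_surjective D
    haveI : (N.map g).Normal := hN.map g hgs
    have hk : ∀ x : D, g x = 1 → ∀ y : D, y * x = x * y := fun x hx y => Subtype.ext
      (Subgroup.mem_center_iff.mp (hZ ((QuotientGroup.eq_one_iff _).mp (congrArg Subtype.val hx))) y)
    rcases Cfsg.Agent.Components.quasisimple_normal_eq_top_or_le_center hq (N.map g) with ht | hc
    · exfalso
      apply hNt
      have hsup : ∀ x : D, ∃ n ∈ N, ∀ y : D, y * (n⁻¹ * x) = (n⁻¹ * x) * y := fun x => by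
        obtain ⟨n, hn, hne⟩ : g x ∈ N.map g := ht ▸ Subgroup.mem_top _
        exact ⟨n, hn, hk _ (by rw [map_mul, map_inv, hne, inv_mul_cancel])⟩
      have hle : commutator D ≤ N := by
        rw [commutator_def, Subgroup.commutator_le]
        intro a _ b _
        obtain ⟨n, hn, hc1⟩ := hsup a
        obtain ⟨m, hm, hc2⟩ := hsup b
        set z := n⁻¹ * a with hz
        set z' := m⁻¹ * b with hz'
        rw [show a = n * z by rw [hz, mul_inv_cancel_left], show b = m * z' by rw [hz', mul_inv_cancel_left]]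
        have e : ⁅n * z, m * z'⁆ = ⁅n, m⁆ := by
          simp only [commutatorElement_def, mul_inv_rev]
          calc n * z * (m * z') * (z⁻¹ * n⁻¹) * (z'⁻¹ * m⁻¹)
              = n * (z * (m * z') * z⁻¹) * n⁻¹ * (z'⁻¹ * m⁻¹) := by group
            _ = n * (m * z') * n⁻¹ * (z'⁻¹ * m⁻¹) := by rw [← hc1 (m * z'), mul_inv_cancel_right]
            _ = n * m * (z' * n⁻¹ * z'⁻¹) * m⁻¹ := by group
            _ = n * m * n⁻¹ * m⁻¹ := by rw [← hc2 n⁻¹, mul_inv_cancel_right]
        rw [e]
        exact N.mul_mem (N.mul_mem (N.mul_mem hn hm) (N.inv_mem hn)) (N.inv_mem hm)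
      have hcomm : commutator D = ⊤ := by
        apply Subgroup.map_injective D.subtype_injective
        rw [commutator_def, Subgroup.map_commutator, ← MonoidHom.range_eq_map, Subgroup.range_subtype, hperf]
      exact top_le_iff.mp (hcomm ▸ hle)
    · -- `[N, D]` lies in the kernel, so perfect `D` centralizes `N`
      intro n hn
      rw [Subgroup.mem_center_iff]
      intro y
      have hz : ∀ w : D, w * ⁅n, y⁆ = ⁅n, y⁆ * w := by
        intro w; exact hk _ (by
          have := Subgroup.mem_center_iff.mp (hc ⟨n, hn, rfl⟩) (g y)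
          rw [map_commutatorElement, commutatorElement_eq_one_iff_mul_comm]
          exact this.symm) w
      have h1 : ⁅⁅N, (⊤ : Subgroup D)⁆, (⊤ : Subgroup D)⁆ = ⊥ := by
        rw [Subgroup.commutator_eq_bot_iff_le_centralizer, Subgroup.commutator_le]
        intro a ha b _
        rw [Subgroup.mem_centralizer_iff]
        intro w _
        exact hk _ (by
          have := Subgroup.mem_center_iff.mp (hc ⟨a, ha, rfl⟩) (g b)
          rw [map_commutatorElement, commutatorElement_eq_one_iff_mul_comm]
          exact this.symm) w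
      have h2 : ⁅⁅(⊤ : Subgroup D), N⁆, (⊤ : Subgroup D)⁆ = ⊥ := by
        rw [Subgroup.commutator_comm (⊤ : Subgroup D) N]; exact h1
      have h3 := Subgroup.commutator_commutator_eq_bot_of_rotate h2 h1
      have hcomm : commutator D = ⊤ := by
        apply Subgroup.map_injective D.subtype_injective
        rw [commutator_def, Subgroup.map_commutator, ← MonoidHom.range_eq_map, Subgroup.range_subtype, hperf]
      rw [← commutator_def, hcomm, Subgroup.commutator_eq_bot_iff_le_centralizer] at h3
      exact (Subgroup.mem_centralizer_iff.mp (h3 (Subgroup.mem_top y)) n hn).symm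

end Cfsg.Agent.S3746
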