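import Cfsg.Statements.S3747
import Cfsg.Agent.Components.Embedding
import Cfsg.Agent.Components.FStar

set_option autoImplicit false
open Cfsg

namespace Cfsg.Agent.S3747

/-- Let G be a finite group. (a) If K is a component of G with trivial centre, then the normal closure of K in G is a minimal normal subgroup of G. (b) If the Fitting subgroup of G is trivial, then the layer E(G) is generated by the minimal normal subgroups of G. -/
theorem result {G : Type*} [Group G] [Finite G] : (∀ K : Subgroup G, Cfsg.IsComponent K → Subgroup.center ↥K = ⊥ → (Subgroup.normalClosure (K : Set G) ≠ ⊥ ∧ ∀ N : Subgroup G, N.Normal → N ≤ Subgroup.normalClosure (K : Set G) → N = ⊥ ∨ N = Subgroup.normalClosure (K : Set G))) ∧ (Cfsg.fittingSubgroup G = ⊥ → sSup {N : Subgroup G | N ≠ ⊥ ∧ N.Normal ∧ ∀ N' : Subgroup G, N'.Normal → N' ≤ N → N' = ⊥ ∨ N' = N} = Cfsg.layer G) := by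
  have hzero : ∀ (S : Finset (Subgroup G)), (∀ K ∈ S, Cfsg.IsComponent K ∧ Subgroup.center ↥K = ⊥) →
      ∀ x ∈ S.sup id, (∀ K ∈ S, x ∈ Subgroup.centralizer (K : Set G)) → x = 1 := by
    intro S
    classical
    induction S using Finset.induction_on with
    | empty => intro _ x hx _; simpa using hx
    | @insert K T hKT ih =>
      intro hS x hx hcent
      rw [Finset.sup_insert, id_eq] at hx
      have hTK : ∀ L ∈ T, L ≤ Subgroup.centralizer (K : Set G) := fun L hL =>
        Cfsg.Agent.Components.components_commute_le (hS L (Finset.mem_insert_of_mem hL)).1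
          (hS K (Finset.mem_insert_self K T)).1 (fun e => hKT (e ▸ hL))
      have hsupK : T.sup id ≤ Subgroup.centralizer (K : Set G) := Finset.sup_le hTK
      have hKn : T.sup id ≤ Subgroup.normalizer (K : Set G) :=
        hsupK.trans (fun g hg => Subgroup.mem_normalizer_iff.mpr fun y => by
          constructor
          · intro hy
            rw [show g * y * g⁻¹ = y by
              rw [← Subgroup.mem_centralizer_iff.mp hg y hy, mul_inv_cancel_right]]
            exact hy
          · intro hy
            have e := Subgroup.mem_centralizer_iff.mp hg _ hy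
            have : y = g * y * g⁻¹ := by
              calc y = g⁻¹ * ((g * y * g⁻¹) * g) := by group
                _ = g * y * g⁻¹ := by rw [e]; group
            rwa [this])
      rw [← SetLike.mem_coe, Subgroup.coe_mul_of_right_le_normalizer_left _ _ hKn] at hx
      obtain ⟨k, hk, y, hy, rfl⟩ := Set.mem_mul.mp hx
      have hk1 : k = 1 := by
        have hkc : (⟨k, hk⟩ : K) ∈ Subgroup.center ↥K := by
          rw [Subgroup.mem_center_iff]
          rintro ⟨w, hw⟩
          apply Subtype.ext
          have h1 := Subgroup.mem_centralizer_iff.mp (hcent K (Finset.mem_insert_self K T)) w hw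
          have h2 := Subgroup.mem_centralizer_iff.mp (hsupK hy) w hw
          show w * k = k * w
          calc w * k = w * (k * y) * y⁻¹ := by group
            _ = k * (y * w) * y⁻¹ := by rw [h1]; group
            _ = k * w := by rw [← h2]; group
        rw [(hS K (Finset.mem_insert_self K T)).2, Subgroup.mem_bot] at hkc
        exact congrArg Subtype.val hkc
      subst hk1
      rw [one_mul] at hcent ⊢
      exact ih (fun L hL => hS L (Finset.mem_insert_of_mem hL)) y hy
        (fun L hL => hcent L (Finset.mem_insert_of_mem hL))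
  have ha : ∀ K : Subgroup G, Cfsg.IsComponent K → Subgroup.center ↥K = ⊥ →
      (Subgroup.normalClosure (K : Set G) ≠ ⊥ ∧ ∀ N : Subgroup G, N.Normal →
        N ≤ Subgroup.normalClosure (K : Set G) → N = ⊥ ∨ N = Subgroup.normalClosure (K : Set G)) := by
    intro K hK hZ
    classical
    refine ⟨fun h => Cfsg.Agent.Components.component_ne_bot hK
      (le_bot_iff.mp (h ▸ Subgroup.le_normalClosure)), fun N hN hle => ?_⟩
    haveI := hN
    haveI : Fintype G := Fintype.ofFinite G
    let S : Finset (Subgroup G) := Finset.univ.image fun g : G => K.map (MulAut.conj g).toMonoidHom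
    have hSc : ∀ L ∈ S, Cfsg.IsComponent L ∧ Subgroup.center ↥L = ⊥ := by
      intro L hL
      simp only [S, Finset.mem_image, Finset.mem_univ, true_and] at hL
      obtain ⟨g, rfl⟩ := hL
      refine ⟨Cfsg.Agent.Components.isComponent_map_equiv (MulAut.conj g) hK, ?_⟩
      rw [eq_bot_iff]
      intro z hz
      obtain ⟨y, hy⟩ := (K.equivMapOfInjective (MulAut.conj g).toMonoidHom (MulAut.conj g).injective).surjective z
      have hy' : y ∈ Subgroup.center ↥K := by
        rw [Subgroup.mem_center_iff]
        intro w
        apply (K.equivMapOfInjective (MulAut.conj g).toMonoidHom (MulAut.conj g).injective).injective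
        rw [map_mul, map_mul, hy]
        exact Subgroup.mem_center_iff.mp hz _
      rw [hZ, Subgroup.mem_bot] at hy'
      rw [Subgroup.mem_bot, ← hy, hy', map_one]
    by_cases hKN : K ≤ N
    · exact Or.inr (le_antisymm hle (Subgroup.normalClosure_le_normal hKN))
    left
    have hsn : Subgroup.normalClosure (K : Set G) = S.sup id := by
      refine le_antisymm ?_ (Finset.sup_le fun L hL => ?_)
      · rw [Subgroup.normalClosure, Subgroup.closure_le]
        intro y hy
        obtain ⟨a, ha, hconj⟩ := Group.mem_conjugatesOfSet_iff.mp hy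
        obtain ⟨g, rfl⟩ := isConj_iff.mp hconj
        have hle' : K.map (MulAut.conj g).toMonoidHom ≤ S.sup id :=
          Finset.le_sup (f := id) (Finset.mem_image_of_mem _ (Finset.mem_univ g))
        exact hle' ⟨a, ha, rfl⟩
      · simp only [S, Finset.mem_image, Finset.mem_univ, true_and] at hL
        obtain ⟨g, rfl⟩ := hL
        rintro _ ⟨a, ha, rfl⟩
        exact Subgroup.normalClosure_normal.conj_mem _ (Subgroup.le_normalClosure ha) g
    rw [eq_bot_iff]
    intro x hx
    refine Subgroup.mem_bot.mpr (hzero S hSc x (hsn ▸ hle hx) fun L hL => ?_)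
    have hL' := hL
    simp only [S, Finset.mem_image, Finset.mem_univ, true_and] at hL'
    obtain ⟨g, rfl⟩ := hL'
    have hnot : ¬ K.map (MulAut.conj g).toMonoidHom ≤ N := fun h => hKN fun a ha => by
      have := hN.conj_mem _ (h ⟨a, ha, rfl⟩) g⁻¹
      simpa [mul_assoc] using this
    have h0 := Cfsg.Agent.Components.component_commutator_eq_bot_of_not_le (hSc _ hL).1
      (Subgroup.Normal.isSubnormal hN) hnot
    rw [Subgroup.commutator_comm] at h0
    exact Subgroup.commutator_eq_bot_iff_le_centralizer.mp h0 hx
  refine ⟨ha, fun hF => ?_⟩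
  have hZ : ∀ K : Subgroup G, Cfsg.IsComponent K → Subgroup.center ↥K = ⊥ := by
    intro K hK
    have hsn : ((Subgroup.center ↥K).map K.subtype).IsSubnormal :=
      (Subgroup.Normal.isSubnormal inferInstance).trans' hK.1
    have hnil : Group.IsNilpotent ↥((Subgroup.center ↥K).map K.subtype) :=
      Cfsg.Agent.Core.isNilpotent_map (Cfsg.Agent.Components.isNilpotent_of_commute (Subgroup.commutator_eq_bot_iff_le_centralizer.mpr (Subgroup.le_centralizer_iff_isMulCommutative.mpr inferInstance))) _
    have := Cfsg.Agent.Components.le_fitting_of_isSubnormal hsn hnil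
    rw [hF, le_bot_iff, Subgroup.map_eq_bot_iff_of_injective _ K.subtype_injective] at this
    exact this
  refine le_antisymm (sSup_le ?_) (sSup_le ?_)
  · rintro N ⟨hne, hN, hmin⟩
    haveI := hN
    rcases hmin (N ⊓ Cfsg.layer G) inferInstance inf_le_left with h | h
    swap
    · exact h ▸ inf_le_right
    exfalso
    have hlay : Cfsg.generalizedFittingSubgroup G = Cfsg.layer G := by
      rw [Cfsg.generalizedFittingSubgroup, hF, sup_bot_eq]
    have hc : ⁅N, Cfsg.layer G⁆ = ⊥ := le_bot_iff.mp (h ▸ Subgroup.commutator_le_inf N _)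
    have h1 : N ≤ Subgroup.centralizer (Cfsg.generalizedFittingSubgroup G : Set G) := by
      rw [hlay]; exact Subgroup.commutator_eq_bot_iff_le_centralizer.mp hc
    have h2 := h1.trans Cfsg.Agent.Components.centralizer_generalizedFitting_le
    rw [hlay] at h2
    exact hne (le_bot_iff.mp (h ▸ le_inf le_rfl h2))
  · intro K hK
    obtain ⟨h1, h2⟩ := ha K hK (hZ K hK)
    exact (Subgroup.le_normalClosure (H := K)).trans (le_sSup ⟨h1, Subgroup.normalClosure_normal, h2⟩)

end Cfsg.Agent.S3747
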