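import Cfsg.Statements.S3751
import Cfsg.Agent.Transfer.Basic
import Cfsg.Agent.Transfer.Fusion
import Cfsg.Agent.Components.BenderMaximal

set_option autoImplicit false
open Cfsg

namespace Cfsg.Agent.S3751

/-- Two distinct subgroups M₁, M₂ of G form a primitive pair when, for {i, j} = {1, 2}, every non-trivial normal subgroup A of M_i contained in M₁ ∩ M₂ satisfies N_{M_j}(A) = M₁ ∩ M₂; the pair has characteristic p when moreover C_{M_i}(O_p(M_i)) ≤ O_p(M_i) for both i and O_p(M₁)O_p(M₂) ≤ M₁ ∩ M₂. Let G be a finite group, p a prime dividing its order, with O_p(G) = 1 and every p-local subgroup of characteristic p. Then either G has a primitive pair of characteristic p, or every maximal p-local subgroup M of G is strongly p-embedded in G: M is a proper subgroup, p divides its order, and for every g ∉ M the order of M ∩ gMg⁻¹ is prime to p. -/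
theorem result {G : Type*} [Group G] [Finite G] {p : ℕ} [Fact p.Prime] (hloc : Cfsg.IsOfLocalCharacteristic p G) (hOp : Cfsg.pCore p G = ⊥) : (∃ M₁ M₂ : Subgroup G, M₁ ≠ M₂ ∧ (∀ A : Subgroup G, A ≠ ⊥ → A ≤ M₁ ⊓ M₂ → (M₁ ≤ Subgroup.normalizer (A : Set G) → M₂ ⊓ Subgroup.normalizer (A : Set G) = M₁ ⊓ M₂) ∧ (M₂ ≤ Subgroup.normalizer (A : Set G) → M₁ ⊓ Subgroup.normalizer (A : Set G) = M₁ ⊓ M₂)) ∧ Subgroup.centralizer (Cfsg.pCore p ↥M₁ : Set ↥M₁) ≤ Cfsg.pCore p ↥M₁ ∧ Subgroup.centralizer (Cfsg.pCore p ↥M₂ : Set ↥M₂) ≤ Cfsg.pCore p ↥M₂ ∧ (Cfsg.pCore p ↥M₁).map M₁.subtype ⊔ (Cfsg.pCore p ↥M₂).map M₂.subtype ≤ M₁ ⊓ M₂) ∨ (∀ M : Subgroup G, (∃ T : Subgroup G, IsPGroup p T ∧ T ≠ ⊥ ∧ M = Subgroup.normalizer (T : Set G)) → (∀ L : Subgroup G, (∃ T : Subgroup G, IsPGroup p T ∧ T ≠ ⊥ ∧ L = Subgroup.normalizer (T : Set G)) → M ≤ L → L = M) → M ≠ ⊤ ∧ p ∣ Nat.card M ∧ ∀ g : G, g ∉ M → ¬ p ∣ Nat.card ↥(M ⊓ M.map (MulAut.conj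 g).toMonoidHom)) := by
  let Loc : Subgroup G → Prop := fun M =>
    ∃ T : Subgroup G, IsPGroup p T ∧ T ≠ ⊥ ∧ M = Subgroup.normalizer (T : Set G)
  let Max : Subgroup G → Prop := fun M => Loc M ∧ ∀ L : Subgroup G, Loc L → M ≤ L → L = M
  let Q : Subgroup G → Subgroup G := fun M => (Cfsg.pCore p ↥M).map M.subtype
  have hQp : ∀ M, IsPGroup p ↥(Q M) := fun M => (Core.isPGroup_pCore p ↥M).map _
  have hQn : ∀ M : Subgroup G, M ≤ Subgroup.normalizer (Q M : Set G) := fun M =>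
    Subgroup.le_normalizer.trans (Components.normalizer_le_normalizer_map_char _)
  have hchar : ∀ M, Loc M → Subgroup.centralizer (Cfsg.pCore p ↥M : Set ↥M) ≤ Cfsg.pCore p ↥M := by
    rintro M ⟨T, hT, hT0, rfl⟩
    exact hloc.2 T hT hT0
  have habove : ∀ M, Loc M → ∃ H, Max H ∧ M ≤ H := by
    intro M hM
    obtain ⟨H, ⟨hH, hMH⟩, hmax⟩ := (wellFounded_gt (α := Subgroup G)).has_min
      {H | Loc H ∧ M ≤ H} ⟨M, hM, le_rfl⟩
    exact ⟨H, ⟨hH, fun L hL hle => (hle.eq_of_not_lt (hmax L ⟨hL, hMH.trans hle⟩)).symm⟩, hMH⟩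
  have hQ0 : ∀ M, Loc M → Q M ≠ ⊥ := by
    rintro M ⟨T, hT, hT0, rfl⟩ h
    apply hT0
    rw [eq_bot_iff, ← h]
    haveI : (T.subgroupOf (Subgroup.normalizer (T : Set G))).Normal := Subgroup.normal_in_normalizer
    exact (Subgroup.map_subgroupOf_eq_of_le Subgroup.le_normalizer).ge.trans (Subgroup.map_mono
      (Core.le_pCore inferInstance
        (hT.of_equiv (Subgroup.subgroupOfEquivOfLe Subgroup.le_normalizer).symm)))
  have hNX : ∀ M, Max M → ∀ X : Subgroup G, IsPGroup p X → X ≠ ⊥ →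
      M ≤ Subgroup.normalizer (X : Set G) → Subgroup.normalizer (X : Set G) = M :=
    fun M hM X hX hX0 hle => hM.2 _ ⟨X, hX, hX0, rfl⟩ hle
  have hNA : ∀ M, Max M → ∀ A : Subgroup G, A ≠ ⊥ → A ≤ M → M ≤ Subgroup.normalizer (A : Set G) →
      Subgroup.normalizer (A : Set G) ≤ M := by
    intro M hM A hA hAM hn
    set X := (Cfsg.pCore p ↥A).map A.subtype with hX
    have hX0 : X ≠ ⊥ := by
      intro h
      apply hA
      haveI hAn : (A.subgroupOf M).Normal := (Subgroup.normal_subgroupOf_iff_le_normalizer hAM).mpr hn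
      set B := A.subgroupOf M ⊓ Cfsg.pCore p ↥M with hB
      have hBb : B = ⊥ := by
        rw [← Subgroup.map_eq_bot_iff_of_injective _ M.subtype_injective, eq_bot_iff, ← h]
        have hBA : B.map M.subtype ≤ A := (Subgroup.map_mono inf_le_left).trans
          (Subgroup.map_subgroupOf_eq_of_le hAM).le
        haveI : ((B.map M.subtype).subgroupOf A).Normal := by
          refine (Subgroup.normal_subgroupOf_iff_le_normalizer hBA).mpr fun a ha => ?_
          refine Subgroup.mem_normalizer_fintype ?_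
          rintro _ ⟨b, hb, rfl⟩
          exact ⟨⟨a, hAM ha⟩ * b * (⟨a, hAM ha⟩ : ↥M)⁻¹,
            (inferInstance : B.Normal).conj_mem b hb _, rfl⟩
        exact (Subgroup.map_subgroupOf_eq_of_le hBA).ge.trans (Subgroup.map_mono
          (Core.le_pCore inferInstance ((((Core.isPGroup_pCore p ↥M).to_le inf_le_right).map _).of_equiv
            (Subgroup.subgroupOfEquivOfLe hBA).symm)))
      have h1 : A.subgroupOf M ≤ Cfsg.pCore p ↥M := by
        refine le_trans ?_ (hchar M hM.1)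
        rw [← Subgroup.commutator_eq_bot_iff_le_centralizer, eq_bot_iff, ← hBb]
        exact Subgroup.commutator_le_inf _ _
      have h2 : A.subgroupOf M = ⊥ := by
        rw [eq_bot_iff, ← hBb]
        exact le_inf le_rfl h1
      rw [← Subgroup.map_subgroupOf_eq_of_le hAM, h2, Subgroup.map_bot]
    have hNAX : Subgroup.normalizer (A : Set G) ≤ Subgroup.normalizer (X : Set G) :=
      Components.normalizer_le_normalizer_map_char _
    exact hNAX.trans (hNX M hM X ((Core.isPGroup_pCore p ↥A).map _) hX0 (hn.trans hNAX)).le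
  have hgoal : ∀ M₁ M₂ : Subgroup G, Max M₁ → Max M₂ → M₁ ≠ M₂ → Q M₁ ≤ M₂ → Q M₂ ≤ M₁ →
      ∃ M₁ M₂ : Subgroup G, M₁ ≠ M₂ ∧ (∀ A : Subgroup G, A ≠ ⊥ → A ≤ M₁ ⊓ M₂ → (M₁ ≤ Subgroup.normalizer (A : Set G) → M₂ ⊓ Subgroup.normalizer (A : Set G) = M₁ ⊓ M₂) ∧ (M₂ ≤ Subgroup.normalizer (A : Set G) → M₁ ⊓ Subgroup.normalizer (A : Set G) = M₁ ⊓ M₂)) ∧ Subgroup.centralizer (Cfsg.pCore p ↥M₁ : Set ↥M₁) ≤ Cfsg.pCore p ↥M₁ ∧ Subgroup.centralizer (Cfsg.pCore p ↥M₂ : Set ↥M₂) ≤ Cfsg.pCore p ↥M₂ ∧ (Cfsg.pCore p ↥M₁).map M₁.subtype ⊔ (Cfsg.pCore p ↥M₂).map M₂.subtype ≤ M₁ ⊓ M₂ := by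
    intro M₁ M₂ h1 h2 hne q1 q2
    refine ⟨M₁, M₂, hne, fun A hA hle => ⟨fun hn => ?_, fun hn => ?_⟩, hchar _ h1.1, hchar _ h2.1,
      sup_le (le_inf (Subgroup.map_subtype_le _) q1) (le_inf q2 (Subgroup.map_subtype_le _))⟩
    · exact le_antisymm (le_inf (inf_le_right.trans (hNA M₁ h1 A hA (hle.trans inf_le_left) hn)) inf_le_left)
        (le_inf inf_le_right (inf_le_left.trans hn))
    · exact le_antisymm (le_inf inf_le_left (inf_le_right.trans (hNA M₂ h2 A hA (hle.trans inf_le_right) hn)))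
        (le_inf inf_le_left (inf_le_right.trans hn))
  by_cases hall : ∀ M, Max M → ∀ g : G, g ∉ M → ¬ p ∣ Nat.card ↥(M ⊓ M.map (MulAut.conj g).toMonoidHom)
  · right
    intro M hM hmax
    refine ⟨fun htop => ?_, ?_, hall M ⟨hM, hmax⟩⟩
    · obtain ⟨T, hT, hT0, rfl⟩ := hM
      haveI : T.Normal := Subgroup.normalizer_eq_top_iff.mp htop
      exact hT0 (le_bot_iff.mp ((Core.le_pCore inferInstance hT).trans hOp.le))
    · obtain ⟨T, hT, hT0, rfl⟩ := hM
      obtain ⟨k, hk⟩ := IsPGroup.iff_card.mp hT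
      have hk0 : k ≠ 0 := fun e => hT0 (Subgroup.eq_bot_of_card_eq _ (by rw [hk, e, pow_zero]))
      exact (hk ▸ dvd_pow_self p hk0).trans (Subgroup.card_dvd_of_le Subgroup.le_normalizer)
  left
  push Not at hall
  obtain ⟨M, hM, g, hg, hdvd⟩ := hall
  have hconj : ∀ M, Max M → ∀ g : G, Max (M.map (MulAut.conj g).toMonoidHom) := by
    have hloc' : ∀ M, Loc M → ∀ g : G, Loc (M.map (MulAut.conj g).toMonoidHom) := by
      rintro M ⟨T, hT, hT0, rfl⟩ g
      refine ⟨T.map (MulAut.conj g).toMonoidHom, hT.map _, ?_, (Transfer.normalizer_map_conj g T).symm⟩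
      exact fun h => hT0 ((Subgroup.map_eq_bot_iff_of_injective _ (MulAut.conj g).injective).mp h)
    refine fun M hM g => ⟨hloc' M hM.1 g, fun L hL hle => ?_⟩
    have h := hM.2 _ (hloc' L hL g⁻¹) (by
      intro m hm
      exact ⟨g * m * g⁻¹, hle ⟨m, hm, rfl⟩, by simp [MulAut.conj_apply, mul_assoc]⟩)
    refine le_antisymm (fun l hl => ⟨g⁻¹ * l * g, h ▸ ⟨l, hl, by simp [MulAut.conj_apply]⟩, ?_⟩) hle
    simp [MulAut.conj_apply, mul_assoc]
  have hne' : ∀ M, Max M → ∀ g : G, g ∉ M → M ≠ M.map (MulAut.conj g).toMonoidHom := by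
    intro M hM g hg h
    apply hg
    have h1 : g ∈ Subgroup.normalizer (M : Set G) := Transfer.mem_normalizer_iff_map_conj.mpr h.symm
    have h2 := Components.normalizer_le_normalizer_map_char (Cfsg.pCore p ↥M) h1
    exact (hNX M hM _ (hQp M) (hQ0 M hM.1) (hQn M)).le h2
  -- a largest `p`-subgroup in two maximal locals
  let S : Set (Subgroup G) := {T | IsPGroup p T ∧ T ≠ ⊥ ∧ ∃ A B, Max A ∧ Max B ∧ A ≠ B ∧ T ≤ A ∧ T ≤ B}
  have hS : S.Nonempty := by
    obtain ⟨x, hx⟩ := exists_prime_orderOf_dvd_card' p hdvd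
    rw [← Subgroup.orderOf_coe] at hx
    refine ⟨Subgroup.zpowers (x : G), IsPGroup.of_card (n := 1) (by rw [Nat.card_zpowers, hx, pow_one]),
      fun h => ?_, M, _, hM, hconj M hM g, hne' M hM g hg, Subgroup.zpowers_le.mpr x.2.1,
      Subgroup.zpowers_le.mpr x.2.2⟩
    rw [Subgroup.zpowers_eq_bot] at h
    rw [h, orderOf_one] at hx
    exact (Fact.out : p.Prime).one_lt.ne hx
  obtain ⟨T, ⟨hT, hT0, A, B, hA, hB, hAB, hTA, hTB⟩, hTmax⟩ :=
    (wellFounded_gt (α := Subgroup G)).has_min S hS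
  let MaxP : Subgroup G → Prop := fun H => ∀ U : Subgroup G, IsPGroup p U → T ≤ U → U ≤ H → U = T
  have hQle : ∀ H, T ≤ H → MaxP H → Q H ≤ T := by
    intro H hTH hH
    have h := hH (Q H ⊔ T) (IsPGroup.to_sup_of_normal_left' (hQp H) hT (hTH.trans (hQn H)))
      le_sup_right (sup_le (Subgroup.map_subtype_le _) hTH)
    exact le_sup_left.trans h.le
  have hgrow : ∀ H, T ≤ H → ¬ MaxP H →
      ∃ U : Subgroup G, IsPGroup p U ∧ T < U ∧ U ≤ H ∧ U ≤ Subgroup.normalizer (T : Set G) := by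
    intro H hTH hH
    simp only [MaxP, not_forall] at hH
    obtain ⟨U, hU, hTU, hUH, hne⟩ := hH
    have h := Transfer.lt_inf_normalizer hU (lt_of_le_of_ne hTU (Ne.symm hne))
    exact ⟨_, hU.to_le inf_le_left, h, inf_le_left.trans hUH, inf_le_right⟩
  suffices ∀ A B, Max A → Max B → A ≠ B → T ≤ A → T ≤ B → MaxP A →
      ∃ M₁ M₂ : Subgroup G, Max M₁ ∧ Max M₂ ∧ M₁ ≠ M₂ ∧ Q M₁ ≤ M₂ ∧ Q M₂ ≤ M₁ by
    obtain ⟨M₁, M₂, a, b, c, d, e⟩ : ∃ M₁ M₂ : Subgroup G, Max M₁ ∧ Max M₂ ∧ M₁ ≠ M₂ ∧ Q M₁ ≤ M₂ ∧ Q M₂ ≤ M₁ := by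
      by_cases hmA : MaxP A
      · exact this A B hA hB hAB hTA hTB hmA
      by_cases hmB : MaxP B
      · exact this B A hB hA hAB.symm hTB hTA hmB
      obtain ⟨U₁, hU₁, hl₁, hUA, hUN₁⟩ := hgrow A hTA hmA
      obtain ⟨U₂, hU₂, hl₂, hUB, hUN₂⟩ := hgrow B hTB hmB
      obtain ⟨H, hH, hNH⟩ := habove _ ⟨T, hT, hT0, rfl⟩
      have key : ∀ C U : Subgroup G, Max C → IsPGroup p U → T < U → U ≤ C →
          U ≤ Subgroup.normalizer (T : Set G) → H = C := by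
        intro C U hC hU hlt hUC hUN
        by_contra hne
        exact hTmax U ⟨hU, fun e => not_lt_bot (e ▸ hlt), H, C, hH, hC, hne, hUN.trans hNH, hUC⟩ hlt
      exact absurd ((key A U₁ hA hU₁ hl₁ hUA hUN₁).symm.trans (key B U₂ hB hU₂ hl₂ hUB hUN₂)) hAB
    exact hgoal M₁ M₂ a b c d e
  intro A B hA hB hAB hTA hTB hmA
  by_cases hmB : MaxP B
  · exact ⟨A, B, hA, hB, hAB, (hQle A hTA hmA).trans hTB, (hQle B hTB hmB).trans hTA⟩
  obtain ⟨U, hU, hlt, hUB, hUN⟩ := hgrow B hTB hmB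
  obtain ⟨x, hx, hxT⟩ := SetLike.exists_of_lt hlt
  have hxA : x ∉ A := fun h => hxT ((hmA (U ⊓ A) (hU.to_le inf_le_left) (le_inf hlt.le hTA) inf_le_right).le ⟨hx, h⟩)
  have hTx : T.map (MulAut.conj x).toMonoidHom = T := Transfer.mem_normalizer_iff_map_conj.mp (hUN hx)
  have hTA' : T ≤ A.map (MulAut.conj x).toMonoidHom := hTx.ge.trans (Subgroup.map_mono hTA)
  have hmA' : MaxP (A.map (MulAut.conj x).toMonoidHom) := by
    intro V hV hTV hVA
    obtain ⟨W, rfl⟩ : ∃ W : Subgroup G, W.map (MulAut.conj x).toMonoidHom = V :=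
      ⟨V.comap (MulAut.conj x).toMonoidHom, Subgroup.map_comap_eq_self_of_surjective (MulAut.conj x).surjective V⟩
    have hinj := (MulAut.conj x).injective
    have h := hmA W (hV.of_equiv (W.equivMapOfInjective _ hinj).symm)
      ((Subgroup.map_le_map_iff_of_injective hinj).mp (hTx.le.trans hTV))
      ((Subgroup.map_le_map_iff_of_injective hinj).mp hVA)
    rw [h, hTx]
  exact ⟨A, _, hA, hconj A hA x, hne' A hA x hxA, (hQle A hTA hmA).trans hTA',
    (hQle _ hTA' hmA').trans hTA⟩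

end Cfsg.Agent.S3751
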