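import Cfsg.Statements.S3752
import Cfsg.Agent.Transfer.PrimitivePair

set_option autoImplicit false
open Cfsg

namespace Cfsg.Agent.S3752

/-- Bender's Theorem on primitive pairs. Two distinct subgroups M₁, M₂ of G form a primitive pair when, for {i, j} = {1, 2}, every non-trivial normal subgroup A of M_i contained in M₁ ∩ M₂ satisfies N_{M_j}(A) = M₁ ∩ M₂; the pair has characteristic p when moreover C_{M_i}(O_p(M_i)) ≤ O_p(M_i) for both i and O_p(M₁)O_p(M₂) ≤ M₁ ∩ M₂. If (M₁, M₂) is a primitive pair of the finite group G with F*(M₁) ≤ M₂ and F*(M₂) ≤ M₁, then for some prime p the pair has characteristic p. -/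
theorem result {G : Type*} [Group G] [Finite G] (M₁ M₂ : Subgroup G) (hne : M₁ ≠ M₂) (hP : ∀ A : Subgroup G, A ≠ ⊥ → A ≤ M₁ ⊓ M₂ → (M₁ ≤ Subgroup.normalizer (A : Set G) → M₂ ⊓ Subgroup.normalizer (A : Set G) = M₁ ⊓ M₂) ∧ (M₂ ≤ Subgroup.normalizer (A : Set G) → M₁ ⊓ Subgroup.normalizer (A : Set G) = M₁ ⊓ M₂)) (h₁ : (Cfsg.generalizedFittingSubgroup ↥M₁).map M₁.subtype ≤ M₂) (h₂ : (Cfsg.generalizedFittingSubgroup ↥M₂).map M₂.subtype ≤ M₁) : ∃ p : ℕ, p.Prime ∧ Subgroup.centralizer (Cfsg.pCore p ↥M₁ : Set ↥M₁) ≤ Cfsg.pCore p ↥M₁ ∧ Subgroup.centralizer (Cfsg.pCore p ↥M₂ : Set ↥M₂) ≤ Cfsg.pCore p ↥M₂ ∧ (Cfsg.pCore p ↥M₁).map M₁.subtype ⊔ (Cfsg.pCore p ↥M₂).map M₂.subtype ≤ M₁ ⊓ M₂ := by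
  open Cfsg.Agent.Components Cfsg.Agent.Transfer.PrimPair in
  have hMprim : ∀ X : Subgroup G, X ≠ ⊥ → M₁ ≤ Subgroup.normalizer (X : Set G) → X ≤ M₁ ⊓ M₂ →
      M₂ ⊓ Subgroup.normalizer (X : Set G) = M₁ ⊓ M₂ := fun X hX h hle => (hP X hX hle).1 h
  have hNprim : ∀ X : Subgroup G, X ≠ ⊥ → M₂ ≤ Subgroup.normalizer (X : Set G) → X ≤ M₂ ⊓ M₁ →
      M₁ ⊓ Subgroup.normalizer (X : Set G) = M₂ ⊓ M₁ := fun X hX h hle =>
    ((hP X hX (hle.trans (inf_comm M₂ M₁).le)).2 h).trans (inf_comm M₁ M₂)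
  have hcharmap : ∀ (M : Subgroup G) (C : Subgroup ↥M) [C.Characteristic],
      M ≤ Subgroup.normalizer ((C.map M.subtype : Subgroup G) : Set G) := fun M C _ =>
    Subgroup.le_normalizer.trans (normalizer_le_normalizer_map_char C)
  have hsplit : ∀ M : Subgroup G, (Cfsg.generalizedFittingSubgroup ↥M).map M.subtype =
      (Cfsg.layer ↥M).map M.subtype ⊔ (Cfsg.fittingSubgroup ↥M).map M.subtype := fun M =>
    Subgroup.map_sup _ _ _
  have hE : (Cfsg.layer ↥M₁).map M₁.subtype = (Cfsg.layer ↥M₂).map M₂.subtype :=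
    le_antisymm (BenderMax.layer_le_layer ((hsplit M₁ ▸ le_sup_left).trans h₁) h₂)
      (BenderMax.layer_le_layer ((hsplit M₂ ▸ le_sup_left).trans h₂) h₁)
  have hE0 : (Cfsg.layer ↥M₁).map M₁.subtype = ⊥ := by
    by_contra h
    exact hne (eq_of_normal_both hMprim hNprim h (hcharmap M₁ _) (hE ▸ hcharmap M₂ _)
      (le_inf (Subgroup.map_subtype_le _) (hE ▸ Subgroup.map_subtype_le _)))
  have hlM : Cfsg.layer ↥M₁ = ⊥ := (map_inj_eq_bot_iff M₁.subtype_injective).mp hE0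
  have hlN : Cfsg.layer ↥M₂ = ⊥ := (map_inj_eq_bot_iff M₂.subtype_injective).mp (hE ▸ hE0)
  have hdM := Cfsg.Agent.Transfer.PrimPair.datum_fitting hlM hMprim
  have hdN := Cfsg.Agent.Transfer.PrimPair.datum_fitting hlN hNprim
  have h1 := ((hsplit M₁ ▸ le_sup_right).trans h₁ : (Cfsg.fittingSubgroup ↥M₁).map M₁.subtype ≤ M₂)
  have h2 := ((hsplit M₂ ▸ le_sup_right).trans h₂ : (Cfsg.fittingSubgroup ↥M₂).map M₂.subtype ≤ M₁)
  have hbot : ∀ {M N F : Subgroup G}, Cfsg.Agent.Transfer.PrimPair.Datum M N F → F = ⊥ → M = ⊥ := by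
    intro M N F hd h
    rw [eq_bot_iff, ← h]
    intro g hg
    exact hd.self_centralizing ⟨hg, Subgroup.mem_centralizer_iff.mpr fun f hf => by
      rw [h, SetLike.mem_coe, Subgroup.mem_bot] at hf
      rw [hf, one_mul, mul_one]⟩
  have hF : (Cfsg.fittingSubgroup ↥M₁).map M₁.subtype ≠ ⊥ := by
    intro h
    have hM := hbot hdM h
    have hN : (Cfsg.fittingSubgroup ↥M₂).map M₂.subtype = ⊥ := le_bot_iff.mp (h2.trans hM.le)
    exact hne (hM.trans (hbot hdN hN).symm)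
  obtain ⟨p, hp, hpM, hpN⟩ := Cfsg.Agent.Transfer.PrimPair.isPGroup_of_data hdM hdN h1 h2 hne hF
  haveI : Fact p.Prime := ⟨hp⟩
  have key : ∀ (M : Subgroup G), Cfsg.layer ↥M = ⊥ →
      IsPGroup p ↥((Cfsg.fittingSubgroup ↥M).map M.subtype) →
      Subgroup.centralizer (Cfsg.pCore p ↥M : Set ↥M) ≤ Cfsg.pCore p ↥M ∧
        (Cfsg.pCore p ↥M).map M.subtype ≤ (Cfsg.fittingSubgroup ↥M).map M.subtype := by
    intro M hl hpF
    have hle : Cfsg.fittingSubgroup ↥M ≤ Cfsg.pCore p ↥M :=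
      Core.le_pCore inferInstance
        (hpF.of_equiv ((Cfsg.fittingSubgroup ↥M).equivMapOfInjective _ M.subtype_injective).symm)
    exact ⟨((Subgroup.centralizer_le hle).trans (centralizer_fitting_le_of_layer_eq_bot hl)).trans hle,
      Subgroup.map_mono (le_fitting_of_isSubnormal (inferInstance : (Cfsg.pCore p ↥M).Normal).isSubnormal
        (Core.isPGroup_pCore p ↥M).isNilpotent)⟩
  obtain ⟨c1, d1⟩ := key M₁ hlM hpM
  obtain ⟨c2, d2⟩ := key M₂ hlN hpN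
  exact ⟨p, hp, c1, c2, sup_le (le_inf (Subgroup.map_subtype_le _) (d1.trans h1))
    (le_inf (d2.trans h2) (Subgroup.map_subtype_le _))⟩

end Cfsg.Agent.S3752
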