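import Cfsg.Statements.S3754
import Cfsg.Agent.Transfer.Basic
import Cfsg.Agent.Coprime.Generation
import Cfsg.Agent.Core.PiSeparable
import Cfsg.Agent.FGS3.PGroupFrattini
import Cfsg.Agent.PLocal.ChainPCore

set_option autoImplicit false
open Cfsg

namespace Cfsg.Agent.S3754

/-- Let M be a finite p-soluble group and A a p-subgroup of M with Φ(A) ≤ O_p(M) but A ≰ O_p(M). Then there is x ∈ O_{p,p'}(M) such that L = ⟨A, xAx⁻¹⟩ satisfies: x ∈ O^p(L) and O^p(L) ≤ O_{p,p'}(M); [O^p(L), A] = O^p(L); A ∩ O_p(L) has index p in A; and [A ∩ O_p(L), L] ≤ O_p(M). Here O^p(L) is the subgroup generated by the p'-elements of L and O_{p,p'}(M) the preimage of O_{p'}(M/O_p(M)). -/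
theorem result {M : Type*} [Group M] [Finite M] {p : ℕ} [Fact p.Prime] (hM : Cfsg.IsPSolvable p M) (A : Subgroup M) (hA : IsPGroup p A) (hΦ : (frattini ↥A).map A.subtype ≤ Cfsg.pCore p M) (hnot : ¬ A ≤ Cfsg.pCore p M) : ∃ x ∈ (Cfsg.pPrimeCore p (M ⧸ Cfsg.pCore p M)).comap (QuotientGroup.mk' (Cfsg.pCore p M)), x ∈ (Cfsg.pResidual p ↥(A ⊔ A.map (MulAut.conj x).toMonoidHom)).map (A ⊔ A.map (MulAut.conj x).toMonoidHom).subtype ∧ (Cfsg.pResidual p ↥(A ⊔ A.map (MulAut.conj x).toMonoidHom)).map (A ⊔ A.map (MulAut.conj x).toMonoidHom).subtype ≤ (Cfsg.pPrimeCore p (M ⧸ Cfsg.pCore p M)).comap (QuotientGroup.mk' (Cfsg.pCore p M)) ∧ ⁅(Cfsg.pResidual p ↥(A ⊔ A.map (MulAut.conj x).toMonoidHom)).map (A ⊔ A.map (MulAut.conj x).toMonoidHom).subtype, A⁆ = (Cfsg.pResidual p ↥(A ⊔ A.map (MulAut.conj x).toMonoidHom)).map (A ⊔ A.map (MulAut.conj x).toMonoidHom).subtype ∧ (A ⊓ (Cfsg.pCore p ↥(A ⊔ A.map (MulAut.conj x).toMonoidHom)).map (A ⊔ A.map (MulAut.conj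 x).toMonoidHom).subtype).relIndex A = p ∧ ⁅A ⊓ (Cfsg.pCore p ↥(A ⊔ A.map (MulAut.conj x).toMonoidHom)).map (A ⊔ A.map (MulAut.conj x).toMonoidHom).subtype, A ⊔ A.map (MulAut.conj x).toMonoidHom⁆ ≤ Cfsg.pCore p M := by
  open scoped commutatorElement in
  classical
  have hp : p.Prime := Fact.out
  set O := Cfsg.pCore p M with hO
  set π := QuotientGroup.mk' O with hπ
  have hπ1 : ∀ g, π g = 1 ↔ g ∈ O := fun g => QuotientGroup.eq_one_iff g
  set Nb := Cfsg.pPrimeCore p (M ⧸ O) with hNb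
  set Ab := A.map π with hAb
  have hpow_mem : ∀ {K : Type _} [Group K] [Finite K] (g : K) (H : Subgroup K) (s : ℕ),
      (orderOf g).Coprime p → g ^ p ^ s ∈ H → g ∈ H := by
    intro K _ _ g H s hg h
    obtain ⟨m, hm⟩ := exists_pow_eq_self_of_coprime (x := g) (hg.pow_right s).symm
    rw [← hm]
    exact pow_mem h m
  have hprime_mem : ∀ {a z : M ⧸ O}, a ^ p = 1 → z ∈ Subgroup.zpowers a → z ≠ 1 →
      ∀ H : Subgroup (M ⧸ O), z ∈ H → a ∈ H := by
    intro a z ha hz hz1 H hzH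
    have h1 : orderOf a ∣ p := orderOf_dvd_of_pow_eq_one ha
    have h2 : Subgroup.zpowers z = Subgroup.zpowers a := by
      refine Subgroup.eq_of_le_of_card_ge (Subgroup.zpowers_le.mpr hz) ?_
      rw [Nat.card_zpowers, Nat.card_zpowers]
      have h3 : orderOf z ∣ p := (orderOf_dvd_of_mem_zpowers hz).trans h1
      rcases (Nat.dvd_prime hp).mp h3 with h | h
      · exact absurd (orderOf_eq_one_iff.mp h) hz1
      · rw [h]; exact Nat.le_of_dvd hp.pos h1
    exact Subgroup.zpowers_le.mpr hzH (h2.ge (Subgroup.mem_zpowers a))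
  have hfr : ∀ a ∈ A, ∀ y : ↥A, y ∈ frattini ↥A → (y : M) = a → π a = 1 := fun a _ y hy e =>
    (hπ1 a).mpr (hΦ ⟨y, hy, e⟩)
  have hAbp : ∀ a ∈ Ab, a ^ p = 1 := by
    rintro _ ⟨a, ha, rfl⟩
    rw [← map_pow]
    exact hfr _ (pow_mem ha p) _ (FGS3.pow_mem_frattini hA ⟨a, ha⟩) rfl
  have hAbc : ∀ a ∈ Ab, ∀ b ∈ Ab, a * b = b * a := by
    rintro _ ⟨a, ha, rfl⟩ _ ⟨b, hb, rfl⟩
    have h : π ⁅a, b⁆ = 1 := hfr _ (mul_mem (mul_mem (mul_mem ha hb) (inv_mem ha)) (inv_mem hb))
      ⁅(⟨a, ha⟩ : ↥A), ⟨b, hb⟩⁆ (FGS3.commutator_le_frattini hA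
        (Subgroup.commutator_mem_commutator (Subgroup.mem_top _) (Subgroup.mem_top _))) rfl
    rwa [map_commutatorElement, commutatorElement_eq_one_iff_mul_comm] at h
  have hNAb : ∀ z ∈ Nb, z ∈ Ab → z = 1 := fun z hz hz' =>
    orderOf_eq_one_iff.mp (Nat.eq_one_of_dvd_coprimes (Core.card_pPrimeCore_coprime p (M ⧸ O))
      (Subgroup.orderOf_dvd_natCard _ hz) (orderOf_dvd_of_pow_eq_one (hAbp z hz')))
  have hself : Subgroup.centralizer (Nb : Set (M ⧸ O)) ≤ Nb := by
    rw [hNb, Core.pPrimeCore_eq_piCore]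
    refine Core.centralizer_piCore_le (Core.isPiSeparable_compl
      (Core.isPiSeparable_of_isPSolvable (Core.isPSolvable_quotient hM O))) ?_
    rw [compl_compl, ← Core.pCore_eq_piCore]
    exact Core.pCore_quotient_pCore p M
  obtain ⟨B, ⟨hBA, hBX⟩, hBmax⟩ := (wellFounded_gt (α := Subgroup (M ⧸ O))).has_min
    {B | B ≤ Ab ∧ ¬ Nb ⊓ Subgroup.centralizer (B : Set (M ⧸ O)) ≤ Subgroup.centralizer (Ab : Set (M ⧸ O))}
    ⟨⊥, bot_le, fun h => hnot fun a ha => (hπ1 a).mp <| by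
      refine hNAb _ (hself (Subgroup.mem_centralizer_iff.mpr fun n hn => ?_)) ⟨a, ha, rfl⟩
      have h' : n ∈ Nb ⊓ Subgroup.centralizer ((⊥ : Subgroup (M ⧸ O)) : Set (M ⧸ O)) :=
        ⟨hn, Subgroup.mem_centralizer_iff.mpr fun z hz => by
          rw [SetLike.mem_coe, Subgroup.mem_bot] at hz
          rw [hz, one_mul, mul_one]⟩
      exact (Subgroup.mem_centralizer_iff.mp (h h') _ ⟨a, ha, rfl⟩).symm⟩
  set X := Nb ⊓ Subgroup.centralizer (B : Set (M ⧸ O)) with hX
  have hAC : Ab ≤ Subgroup.centralizer (Ab : Set (M ⧸ O)) := fun a ha =>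
    Subgroup.mem_centralizer_iff.mpr fun b hb => (hAbc a ha b hb).symm
  have hne : ¬ Ab ≤ B := fun h => hBX (inf_le_right.trans (Subgroup.centralizer_le h))
  obtain ⟨a0, ha0, ha0B⟩ := SetLike.not_le_iff_exists.mp hne
  have hBa : B ⊔ Subgroup.zpowers a0 = Ab := by
    refine le_antisymm (sup_le hBA (Subgroup.zpowers_le.mpr ha0)) ?_
    by_contra hc
    obtain ⟨b0, hb0, hb0B⟩ := SetLike.not_le_iff_exists.mp hc
    apply hBX
    set E := Subgroup.zpowers a0 ⊔ Subgroup.zpowers b0 with hE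
    have hEA : E ≤ Ab := sup_le (Subgroup.zpowers_le.mpr ha0) (Subgroup.zpowers_le.mpr hb0)
    haveI : IsMulCommutative ↥E := ⟨⟨fun u v => Subtype.ext (hAbc _ (hEA u.2) _ (hEA v.2))⟩⟩
    have hcyc : ¬ IsCyclic ↥E := by
      intro h
      obtain ⟨g, hg⟩ := h.exists_generator
      have hg' : (g : M ⧸ O) ^ p = 1 := hAbp _ (hEA g.2)
      have hEg : E ≤ Subgroup.zpowers (g : M ⧸ O) := by
        intro u hu
        obtain ⟨k, hk⟩ := Subgroup.mem_zpowers_iff.mp (hg ⟨u, hu⟩)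
        exact Subgroup.mem_zpowers_iff.mpr ⟨k, by rw [← SubgroupClass.coe_zpow, hk]⟩
      have hga : (g : M ⧸ O) ∈ Subgroup.zpowers a0 :=
        hprime_mem hg' (hEg (Subgroup.mem_sup_left (Subgroup.mem_zpowers a0)))
          (fun e => ha0B (e ▸ one_mem B)) _ (Subgroup.mem_zpowers a0)
      exact hb0B (Subgroup.mem_sup_right (Subgroup.zpowers_le.mpr hga (hEg
        (Subgroup.mem_sup_right (Subgroup.mem_zpowers b0)))))
    have hXn : E ≤ Subgroup.normalizer (X : Set (M ⧸ O)) := by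
      intro u hu
      refine Subgroup.mem_normalizer_fintype fun z hz => ?_
      refine ⟨(inferInstance : Nb.Normal).conj_mem z hz.1 u, Subgroup.mem_centralizer_iff.mpr fun b hb => ?_⟩
      have c1 : Commute b u := hAbc b (hBA hb) u (hEA hu)
      have c2 : Commute b z := Subgroup.mem_centralizer_iff.mp hz.2 b hb
      exact ((c1.mul_right c2).mul_right c1.inv_right).eq
    have hcop : (Nat.card ↥E).Coprime (Nat.card ↥X) := by
      have hEp : IsPGroup p ↥E := (hA.map π).to_le hEA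
      obtain ⟨k, hk⟩ := IsPGroup.iff_card.mp hEp
      rw [hk]
      exact (((Core.card_pPrimeCore_coprime p (M ⧸ O)).coprime_dvd_left
        (Subgroup.card_dvd_of_le inf_le_left)).pow_right k).symm
    rw [← Coprime.eq_centralizerJoin hcyc hXn hcop]
    refine iSup_le fun ⟨e, he, he1⟩ => ?_
    have heB : e ∉ B := by
      intro heB
      obtain ⟨u, hu, v, hv, rfl⟩ := Coprime.exists_mul_of_mem_sup
        (show Subgroup.zpowers b0 ≤ Subgroup.normalizer (Subgroup.zpowers a0 : Set (M ⧸ O)) from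
          ((le_sup_right.trans hEA).trans hAC).trans ((Subgroup.centralizer_le
            (Subgroup.zpowers_le.mpr ha0)).trans (Subgroup.centralizer_le_normalizer _))) he
      by_cases hv1 : v = 1
      · subst hv1
        rw [mul_one] at heB he1
        exact ha0B (hprime_mem (hAbp _ ha0) hu he1 _ heB)
      · refine hb0B (hprime_mem (hAbp _ hb0) hv hv1 _ ?_)
        rw [show v = u⁻¹ * (u * v) by group]
        exact mul_mem (Subgroup.mem_sup_right (inv_mem hu)) (Subgroup.mem_sup_left heB)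
    by_contra hcc
    refine hBmax (B ⊔ Subgroup.zpowers e) ⟨sup_le hBA (Subgroup.zpowers_le.mpr (hEA he)), fun h => hcc ?_⟩ ?_
    · intro z hz
      refine h ⟨hz.1.1, ?_⟩
      show z ∈ Subgroup.centralizer _
      rw [← Subgroup.zpowers_le, Subgroup.le_centralizer_iff]
      refine sup_le ?_ ?_
      · rw [Subgroup.le_centralizer_iff, Subgroup.zpowers_le]; exact hz.1.2
      · rw [Subgroup.zpowers_le, Subgroup.mem_centralizer_iff]
        rintro _ ⟨k, rfl⟩
        exact ((show Commute e z from Subgroup.mem_centralizer_iff.mp hz.2 e rfl).symm.zpow_left k).eq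
    · exact lt_of_le_of_ne le_sup_left fun h => heB (h ▸ Subgroup.mem_sup_right (Subgroup.mem_zpowers e))
  let L : M → Subgroup M := fun x => A ⊔ A.map (MulAut.conj x).toMonoidHom
  let S : Set M := {x | π x ∈ X ∧ π x ∉ Subgroup.centralizer (Ab : Set (M ⧸ O))}
  have hS : S.Nonempty := by
    obtain ⟨z, hz, hz'⟩ := SetLike.not_le_iff_exists.mp hBX
    obtain ⟨x, rfl⟩ := QuotientGroup.mk'_surjective O z
    exact ⟨x, hz, hz'⟩
  obtain ⟨x0, hx0, hmin⟩ := exists_minimalFor_of_wellFoundedLT (· ∈ S) L hS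
  have hconj : ∀ x : M, ∀ a ∈ A, x * a * x⁻¹ ∈ L x := fun x a ha =>
    Subgroup.mem_sup_right ⟨a, ha, rfl⟩
  -- facts valid for every choice
  have hLC : ∀ x ∈ S, (L x).map π ≤ Subgroup.centralizer (B : Set (M ⧸ O)) := by
    intro x hx
    have hA' : Ab ≤ Subgroup.centralizer (B : Set (M ⧸ O)) := hAC.trans (Subgroup.centralizer_le hBA)
    show (A ⊔ _).map π ≤ _
    rw [Subgroup.map_sup]
    refine sup_le hA' ?_
    rintro _ ⟨_, ⟨a, ha, rfl⟩, rfl⟩
    simp only [MulEquiv.coe_toMonoidHom, MulAut.conj_apply, map_mul, map_inv]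
    exact mul_mem (mul_mem hx.1.2 (hA' ⟨a, ha, rfl⟩)) (inv_mem hx.1.2)
  have hLN : ∀ x ∈ S, (L x).map π ≤ Nb ⊔ Ab := by
    intro x hx
    show (A ⊔ _).map π ≤ _
    rw [Subgroup.map_sup]
    refine sup_le le_sup_right ?_
    rintro _ ⟨_, ⟨a, ha, rfl⟩, rfl⟩
    simp only [MulEquiv.coe_toMonoidHom, MulAut.conj_apply, map_mul, map_inv]
    exact mul_mem (mul_mem (Subgroup.mem_sup_left hx.1.1) (Subgroup.mem_sup_right ⟨a, ha, rfl⟩))
      (inv_mem (Subgroup.mem_sup_left hx.1.1))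
  let R : M → Subgroup M := fun x => (Cfsg.pResidual p ↥(L x)).map (L x).subtype
  have hRN : ∀ x ∈ S, (R x).map π ≤ Nb := by
    intro x hx
    show (Subgroup.map _ _).map π ≤ _
    rw [Subgroup.map_map, Subgroup.map_le_iff_le_comap, Cfsg.pResidual, Subgroup.closure_le]
    intro g hg
    have hgL : π (g : M) ∈ Nb ⊔ Ab := hLN x hx ⟨g, g.2, rfl⟩
    obtain ⟨n, hn, a, ha, hna⟩ := Subgroup.mem_sup_of_normal_left.mp hgL
    refine hpow_mem (π (g : M)) Nb 1 ((show (orderOf (g : M)).Coprime p by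
      rw [Subgroup.orderOf_coe]; exact hg).coprime_dvd_left (orderOf_map_dvd π _)) ?_
    rw [← QuotientGroup.eq_one_iff, QuotientGroup.mk_pow, ← hna, QuotientGroup.mk_mul,
      (QuotientGroup.eq_one_iff n).mpr hn, one_mul, ← QuotientGroup.mk_pow, pow_one, hAbp a ha]
    rfl
  have hstep : ∀ x ∈ S, ∃ x' ∈ R x, x' ∈ S := by
    intro x hx
    have hnc : ¬ (L x).map π ⊓ Nb ≤ Subgroup.centralizer (Ab : Set (M ⧸ O)) := by
      intro hall
      refine hx.2 (Subgroup.mem_centralizer_iff.mpr ?_)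
      rintro _ ⟨a, ha, rfl⟩
      set c := π x * π a * (π x)⁻¹ * (π a)⁻¹ with hc
      have hcN : c ∈ Nb := by
        rw [hc, show π x * π a * (π x)⁻¹ * (π a)⁻¹ = π x * (π a * (π x)⁻¹ * (π a)⁻¹) by group]
        exact mul_mem hx.1.1 ((inferInstance : Nb.Normal).conj_mem _ (inv_mem hx.1.1) _)
      have hcL : c ∈ (L x).map π := ⟨x * a * x⁻¹ * a⁻¹,
        mul_mem (hconj x a ha) (inv_mem (Subgroup.mem_sup_left ha)), by simp [hc]⟩
      have hcomm : Commute c (π a) :=
        (Subgroup.mem_centralizer_iff.mp (hall ⟨hcL, hcN⟩) _ ⟨a, ha, rfl⟩).symm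
      have h1 : (c * π a) ^ p = 1 := by
        rw [hc, inv_mul_cancel_right, conj_pow, hAbp _ ⟨a, ha, rfl⟩]; group
      rw [hcomm.mul_pow, hAbp _ ⟨a, ha, rfl⟩, mul_one] at h1
      have hc1 : c = 1 := orderOf_eq_one_iff.mp (Nat.eq_one_of_dvd_coprimes
        (Core.card_pPrimeCore_coprime p (M ⧸ O)) (Subgroup.orderOf_dvd_natCard _ hcN)
        (orderOf_dvd_of_pow_eq_one h1))
      rw [hc, mul_inv_eq_one, mul_inv_eq_iff_eq_mul] at hc1
      exact hc1.symm
    obtain ⟨e, ⟨heL, heN⟩, hec⟩ := SetLike.not_le_iff_exists.mp hnc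
    have heR : e ∈ (R x).map π := by
      obtain ⟨l, hl, rfl⟩ := heL
      refine hpow_mem (π l) _ ((orderOf (⟨l, hl⟩ : ↥(L x))).factorization p)
        ((Core.card_pPrimeCore_coprime p (M ⧸ O)).coprime_dvd_left (Subgroup.orderOf_dvd_natCard _ heN)) ?_
      rw [← map_pow]
      exact ⟨_, ⟨_, Transfer.pow_mem_pResidual (p := p) (⟨l, hl⟩ : ↥(L x)), rfl⟩, rfl⟩
    obtain ⟨x', hx', rfl⟩ := heR
    exact ⟨x', hx', ⟨heN, hLC x hx heL⟩, hec⟩
  obtain ⟨x, hxR0, hxS⟩ := hstep x0 hx0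
  have hLeq : L x = L x0 := by
    have hle : L x ≤ L x0 := sup_le le_sup_left (by
      rintro _ ⟨a, ha, rfl⟩
      have hxL : x ∈ L x0 := Subgroup.map_subtype_le _ hxR0
      exact mul_mem (mul_mem hxL (Subgroup.mem_sup_left ha)) (inv_mem hxL))
    exact le_antisymm hle (hmin hxS hle)
  have hxR : x ∈ R x := by
    show x ∈ (Cfsg.pResidual p ↥(L x)).map (L x).subtype
    rw [hLeq]; exact hxR0
  have hPle : A ⊓ (Cfsg.pCore p ↥(L x)).map (L x).subtype = A ⊓ B.comap π := by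
    refine le_antisymm (le_inf inf_le_left ?_) (le_inf inf_le_left ?_)
    · rintro a ⟨ha, ⟨q, hq, hqa⟩⟩
      show π a ∈ B
      have haAb : π a ∈ Ab := ⟨a, ha, rfl⟩
      by_contra haB
      have hcent : ∀ r ∈ R x, π a * π r = π r * π a := by
        intro r hr
        have hrL : r ∈ L x := Subgroup.map_subtype_le _ hr
        have h1 : ⁅q, (⟨r, hrL⟩ : ↥(L x))⁆ ∈ Cfsg.pCore p ↥(L x) := by
          rw [commutatorElement_def, show q * ⟨r, hrL⟩ * q⁻¹ * (⟨r, hrL⟩ : ↥(L x))⁻¹ =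
            q * ((⟨r, hrL⟩ : ↥(L x)) * q⁻¹ * (⟨r, hrL⟩ : ↥(L x))⁻¹) by group]
          exact mul_mem hq (Subgroup.Normal.conj_mem inferInstance _ (inv_mem hq) _)
        obtain ⟨k, hk⟩ := Core.isPGroup_pCore p ↥(L x) ⟨_, h1⟩
        have h2 : ⁅π a, π r⁆ = 1 := by
          have hN : ⁅π a, π r⁆ ∈ Nb := by
            rw [commutatorElement_def]
            exact mul_mem ((inferInstance : Nb.Normal).conj_mem _ (hRN x hxS ⟨r, hr, rfl⟩) _)
              (inv_mem (hRN x hxS ⟨r, hr, rfl⟩))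
          refine orderOf_eq_one_iff.mp (Nat.eq_one_of_dvd_coprimes
            ((Core.card_pPrimeCore_coprime p (M ⧸ O)).pow_right k) (Subgroup.orderOf_dvd_natCard _ hN)
            (orderOf_dvd_of_pow_eq_one ?_))
          have h3 := congrArg (fun w : ↥(L x) => π (w : M)) (congrArg Subtype.val hk)
          simp only [SubmonoidClass.coe_pow, commutatorElement_def, Subgroup.coe_mul, InvMemClass.coe_inv,
            OneMemClass.coe_one, map_one, map_pow, map_mul, map_inv] at h3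
          rw [← hqa, commutatorElement_def]
          exact h3
        exact commutatorElement_eq_one_iff_mul_comm.mp h2
      apply hxS.2
      rw [Subgroup.mem_centralizer_iff]
      intro b hb
      have hall : Ab ≤ Subgroup.centralizer {π x} := by
        rw [← hBa]
        refine sup_le (fun u hu => Subgroup.mem_centralizer_singleton_iff.mpr
          (Subgroup.mem_centralizer_iff.mp hxS.1.2 u hu)) ?_
        have ha' : π a ∈ Subgroup.centralizer {π x} :=
          Subgroup.mem_centralizer_singleton_iff.mpr (hcent x hxR)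
        have hB' : B ≤ Subgroup.centralizer {π x} := fun u hu => Subgroup.mem_centralizer_singleton_iff.mpr
          (Subgroup.mem_centralizer_iff.mp hxS.1.2 u hu)
        haveI : IsMulCommutative ↥Ab := ⟨⟨fun u v => Subtype.ext (hAbc _ u.2 _ v.2)⟩⟩
        obtain ⟨u, hu, w, hw, huw⟩ := Coprime.exists_mul_of_mem_sup
          (show Subgroup.zpowers a0 ≤ Subgroup.normalizer (B : Set (M ⧸ O)) from
            ((Subgroup.zpowers_le.mpr ha0).trans hAC).trans ((Subgroup.centralizer_le hBA).trans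
              (Subgroup.centralizer_le_normalizer _))) (hBa.ge haAb)
        by_cases hw1 : w = 1
        · exact absurd (by rw [← huw, hw1, mul_one]; exact hu) haB
        rw [Subgroup.zpowers_le]
        refine hprime_mem (hAbp _ ha0) hw hw1 _ ?_
        rw [show w = u⁻¹ * π a by rw [← huw]; group]
        exact mul_mem (Subgroup.inv_mem _ (hB' hu)) ha'
      exact Subgroup.mem_centralizer_singleton_iff.mp (hall hb)
    · rintro a ⟨ha, haB⟩
      have hJ : (((L x) ⊓ B.comap π).subgroupOf (L x)).Normal := by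
        refine (Subgroup.normal_subgroupOf_iff_le_normalizer inf_le_left).mpr fun l hl => ?_
        refine Subgroup.mem_normalizer_fintype fun z hz => ⟨mul_mem (mul_mem hl hz.1) (Subgroup.inv_mem _ hl), ?_⟩
        show π (l * z * l⁻¹) ∈ B
        rw [map_mul, map_mul, map_inv, ← Subgroup.mem_centralizer_iff.mp (hLC x hxS ⟨l, hl, rfl⟩) (π z) hz.2,
          mul_inv_cancel_right]
        exact hz.2
      have hJp : IsPGroup p ↥(B.comap π) :=
        IsPGroup.comap_of_ker_isPGroup ((hA.map π).to_le hBA) π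
          (by rw [hπ, QuotientGroup.ker_mk']; exact Core.isPGroup_pCore p M)
      exact ⟨⟨a, Subgroup.mem_sup_left ha⟩, Core.le_pCore hJ ((hJp.to_le inf_le_right).of_equiv
        (Subgroup.subgroupOfEquivOfLe inf_le_left).symm)
        (show _ ∈ ((L x) ⊓ B.comap π).subgroupOf (L x) from ⟨Subgroup.mem_sup_left ha, haB⟩), rfl⟩
  refine ⟨x, hxS.1.1, hxR, fun r hr => hRN x hxS ⟨r, hr, rfl⟩, ?_, ?_, ?_⟩
  · -- `[O^p(L), A] = O^p(L)`
    set K := ⁅R x, A⁆ with hK
    have hRL : R x ≤ L x := Subgroup.map_subtype_le _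
    have hnR : L x ≤ Subgroup.normalizer (R x : Set M) := by
      intro l hl
      refine Subgroup.mem_normalizer_fintype ?_
      rintro _ ⟨r, hr, rfl⟩
      exact ⟨⟨l, hl⟩ * r * (⟨l, hl⟩ : ↥(L x))⁻¹, Subgroup.Normal.conj_mem inferInstance r hr _, rfl⟩
    refine le_antisymm ?_ ?_
    · rw [Subgroup.commutator_le]
      intro r hr a ha
      rw [commutatorElement_def, show r * a * r⁻¹ * a⁻¹ = r * (a * r⁻¹ * a⁻¹) by group]
      exact mul_mem hr ((Subgroup.mem_normalizer_iff.mp (hnR (Subgroup.mem_sup_left ha)) _).mp (inv_mem hr))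
    have hKn : A ≤ Subgroup.normalizer (K : Set M) :=
      le_sup_right.trans (PLocal.sup_le_normalizer_commutator (R x) A)
    have hLKA : L x ≤ K ⊔ A := sup_le le_sup_right (by
      rintro _ ⟨a, ha, rfl⟩
      show x * a * x⁻¹ ∈ K ⊔ A
      rw [show x * a * x⁻¹ = ⁅x, a⁆ * a by rw [commutatorElement_def, inv_mul_cancel_right]]
      exact mul_mem (Subgroup.mem_sup_left (Subgroup.commutator_mem_commutator hxR ha))
        (Subgroup.mem_sup_right ha))
    show (Cfsg.pResidual p ↥(L x)).map _ ≤ K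
    rw [Subgroup.map_le_iff_le_comap, Cfsg.pResidual, Subgroup.closure_le]
    intro g hg
    obtain ⟨k, hk, a, ha, hgk⟩ := Coprime.exists_mul_of_mem_sup hKn (show (g : M) ∈ K ⊔ A from hLKA g.2)
    obtain ⟨s, hs⟩ := hA ⟨a, ha⟩
    refine hpow_mem (g : M) K s (by rw [Subgroup.orderOf_coe]; exact hg) ?_
    have : ∀ j : ℕ, ((g : M) ^ j) * (a ^ j)⁻¹ ∈ K := by
      intro j
      induction j with
      | zero => simp
      | succ j ih =>
        rw [show ((g : M) ^ (j + 1)) * (a ^ (j + 1))⁻¹ = k * (a * ((g : M) ^ j * (a ^ j)⁻¹) * a⁻¹) by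
          rw [pow_succ' (g : M), pow_succ' a]
          conv_lhs => enter [1, 1]; rw [← hgk]
          group]
        exact mul_mem hk ((Subgroup.mem_normalizer_iff.mp (hKn ha) _).mp ih)
    have h := this (p ^ s)
    rw [show a ^ p ^ s = 1 from congrArg Subtype.val hs, inv_one, mul_one] at h
    exact h
  · -- index `p`
    show (A ⊓ (Cfsg.pCore p ↥(L x)).map (L x).subtype).relIndex A = p
    rw [hPle, inf_comm, Subgroup.inf_relIndex_right, Subgroup.relIndex_comap, ← hAb, ← hBa]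
    haveI : IsMulCommutative ↥Ab := ⟨⟨fun u v => Subtype.ext (hAbc _ u.2 _ v.2)⟩⟩
    have hbot : B ⊓ Subgroup.zpowers a0 = ⊥ := by
      rw [Subgroup.eq_bot_iff_forall]
      intro z hz
      by_contra hz1
      exact ha0B (hprime_mem (hAbp _ ha0) hz.2 hz1 _ hz.1)
    have hord : orderOf a0 = p := by
      refine orderOf_eq_prime (hAbp _ ha0) fun e => ha0B (e ▸ one_mem B)
    have hc := Coprime.card_sup (A := B) (N := Subgroup.zpowers a0) ((hBA.trans hAC).trans
      ((Subgroup.centralizer_le (Subgroup.zpowers_le.mpr ha0)).trans (Subgroup.centralizer_le_normalizer _))) (inf_comm B _ ▸ hbot)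
    have h := Subgroup.relIndex_mul_relIndex ⊥ B (B ⊔ Subgroup.zpowers a0) bot_le le_sup_left
    rw [Subgroup.relIndex_bot_left, Subgroup.relIndex_bot_left, sup_comm, hc, Nat.card_zpowers, hord,
      mul_comm p] at h
    rw [sup_comm]
    exact Nat.eq_of_mul_eq_mul_left Nat.card_pos h
  · -- commutator
    show ⁅_, L x⁆ ≤ O
    rw [Subgroup.commutator_le]
    intro a ha l hl
    rw [← hπ1, map_commutatorElement, commutatorElement_eq_one_iff_mul_comm]
    have haB : π a ∈ B := (hPle.le ha).2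
    exact Subgroup.mem_centralizer_iff.mp (hLC x hxS ⟨l, hl, rfl⟩) (π a) haB

end Cfsg.Agent.S3754
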