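import Cfsg.Statements.S3756
import Cfsg.Agent.PLocal.S4FreeChar.Main

set_option autoImplicit false
open Cfsg

namespace Cfsg.Agent.S3756

open Subgroup Cfsg.Agent.PLocal.S4FreeChar

/-- Let G be a finite group of even order with O₂(G) = 1 such that every 2-local subgroup of G is solvable, of characteristic 2, and has no section isomorphic to the symmetric group of degree 4. Then every maximal 2-local subgroup of G is strongly embedded in G. -/
theorem result {G : Type*} [Group G] [Finite G] (heven : Even (Nat.card G)) (hO : Cfsg.pCore 2 G = ⊥) (hloc : ∀ M : Subgroup G, Cfsg.IsTwoLocal M → Group.IsSolvable M ∧ Cfsg.IsOfCharacteristicTwo ↥M ∧ ¬ Cfsg.Involves (Equiv.Perm (Fin 4)) ↥M) (M : Subgroup G) (hM : Cfsg.IsMaximalTwoLocal M) : Cfsg.IsStronglyEmbedded M := by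
  classical
  haveI : Fact (Nat.Prime 2) := ⟨Nat.prime_two⟩
  have hcj : ∀ g : G, Function.Injective (MulAut.conj g).toMonoidHom := fun g => (MulAut.conj g).injective
  -- a 2-group inside `L`
  have hin : ∀ L P : Subgroup G, IsPGroup 2 P → P ≤ L → ∃ T : Sylow 2 L, P ≤ (T : Subgroup L).map L.subtype := by
    intro L P hP hPL
    obtain ⟨T, hT⟩ := IsPGroup.exists_le_sylow (hP.comap_subtype (K := L))
    exact ⟨T, (Subgroup.map_subgroupOf_eq_of_le hPL).ge.trans (Subgroup.map_mono hT)⟩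
  have htop : ∀ (L : Subgroup G) (T : Sylow 2 L) (P : Subgroup G), IsPGroup 2 P → P ≤ L →
      (T : Subgroup L).map L.subtype ≤ P → P = (T : Subgroup L).map L.subtype := by
    intro L T P hP hPL hTP
    have h : (T : Subgroup L) ≤ P.subgroupOf L := fun z hz => hTP ⟨z, hz, rfl⟩
    rw [← T.is_maximal' hP.comap_subtype h]
    exact (Subgroup.map_subgroupOf_eq_of_le hPL).symm
  -- every 2-local subgroup normalizes the good subgroup of its Sylow subgroup
  have hkey : ∀ L : Subgroup G, IsTwoLocal L → ∀ T : Sylow 2 L,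
      L ≤ normalizer (goodMax ((T : Subgroup L).map L.subtype) : Set G) ∧
        IsTwoLocal (normalizer (goodMax ((T : Subgroup L).map L.subtype) : Set G)) := by
    intro L hL T
    obtain ⟨h1, h2, h3⟩ := hloc L hL
    haveI := h1
    have hP : IsPGroup 2 ((T : Subgroup L).map L.subtype) := T.isPGroup'.map _
    refine ⟨le_normalizer_goodMax h3 h2 (Subgroup.map_subtype_le _) T rfl, _,
      hP.to_le (good_goodMax hP).1.le, goodMax_ne_bot hP fun e => ?_, rfl⟩
    obtain ⟨T₀, hT₀, hT₀1, rfl⟩ := hL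
    obtain ⟨T', hT'⟩ := hin _ T₀ hT₀ Subgroup.le_normalizer
    obtain ⟨g, hg⟩ := MulAction.exists_smul_eq (normalizer (T₀ : Set G)) T T'
    have hb : (T : Subgroup (normalizer (T₀ : Set G))) = ⊥ := by
      rwa [Subgroup.map_eq_bot_iff_of_injective _ (Subgroup.subtype_injective _)] at e
    have hb' : (T' : Subgroup (normalizer (T₀ : Set G))) = ⊥ := by
      apply Subgroup.eq_bot_of_card_eq
      rw [← hg, ← Nat.card_congr (Sylow.equivSMul T g).toEquiv, hb, Subgroup.card_bot]
    rw [hb', Subgroup.map_bot] at hT'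
    exact hT₀1 (le_bot_iff.mp hT')
  obtain ⟨T₀, hT₀, hT₀1, hMdef⟩ := hM.1
  obtain ⟨T, hT₀T⟩ := hin M T₀ hT₀ (hMdef ▸ Subgroup.le_normalizer)
  set P := (T : Subgroup M).map M.subtype with hPdef
  have hPM : P ≤ M := Subgroup.map_subtype_le _
  have hP : IsPGroup 2 P := T.isPGroup'.map _
  have hW : normalizer (goodMax P : Set G) = M :=
    hM.2 _ (hkey M hM.1 T).2 (hkey M hM.1 T).1
  have hNP : normalizer (P : Set G) ≤ M := (normalizer_le_goodMax hP).trans hW.le
  -- `P` is a Sylow subgroup of `G`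
  obtain ⟨S, hPS⟩ := IsPGroup.exists_le_sylow hP
  have hgrow : ∀ {X Y : Subgroup G}, IsPGroup 2 Y → X < Y → X < Y ⊓ normalizer (X : Set G) := by
    intro X Y hY hlt
    haveI : Group.IsNilpotent Y := hY.isNilpotent
    have hlt' : X.subgroupOf Y < ⊤ := lt_top_iff_ne_top.mpr fun e => hlt.not_ge (Subgroup.subgroupOf_eq_top.mp e)
    obtain ⟨g, hg1, hg2⟩ := SetLike.exists_of_lt (Group.normalizerCondition_of_isNilpotent _ hlt')
    refine lt_of_le_of_ne (le_inf hlt.le Subgroup.le_normalizer) fun e => hg2 ?_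
    show (g : G) ∈ X
    rw [e]
    refine ⟨g.2, Coprime.mem_normalizer_of_conj_mem fun y hy => ?_⟩
    exact (Subgroup.mem_normalizer_iff.mp hg1 ⟨y, hlt.le hy⟩).mp hy
  have hPeq : P = (S : Subgroup G) := by
    by_contra hne
    have h := hgrow S.isPGroup' (lt_of_le_of_ne hPS hne)
    exact h.ne (htop M T _ (S.isPGroup'.to_le inf_le_left) (inf_le_right.trans hNP) h.le).symm
  have hNS : normalizer ((S : Subgroup G) : Set G) ≤ M := hPeq ▸ hNP
  -- 2-groups inside `M` that are not properly contained in a larger one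
  have hmaxP : ∀ X : Subgroup G, IsPGroup 2 X → X ≤ M → (∀ Y : Subgroup G, IsPGroup 2 Y → Y ≤ M → X ≤ Y → Y = X) →
      ∃ m ∈ M, X = P.map (MulAut.conj m).toMonoidHom := by
    intro X hX hXM hmax
    obtain ⟨T', hXT'⟩ := hin M X hX hXM
    obtain ⟨m, hm⟩ := MulAction.exists_smul_eq M T T'
    refine ⟨m, m.2, ?_⟩
    rw [← hmax _ (T'.isPGroup'.map _) (Subgroup.map_subtype_le _) hXT', hPdef, ← hm]
    ext z
    constructor
    · rintro ⟨_, ⟨v, hv, rfl⟩, rfl⟩
      exact ⟨v, ⟨v, hv, rfl⟩, rfl⟩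
    · rintro ⟨_, ⟨v, hv, rfl⟩, rfl⟩
      exact ⟨_, ⟨v, hv, rfl⟩, rfl⟩
  -- every 2-local subgroup meeting `M` in even order is inside `M`
  have hall : ∀ L : Subgroup G, IsTwoLocal L →
      (∃ X : Subgroup G, X ≠ ⊥ ∧ IsPGroup 2 X ∧ X ≤ L ⊓ M) → L ≤ M := by
    suffices h : ∀ (k : ℕ) (L X : Subgroup G), IsTwoLocal L → X ≠ ⊥ → IsPGroup 2 X → X ≤ L ⊓ M →
        Nat.card G - Nat.card X = k → L ≤ M by
      rintro L hL ⟨X, h1, h2, h3⟩
      exact h _ L X hL h1 h2 h3 rfl
    intro k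
    induction k using Nat.strong_induction_on with
    | _ k ih =>
    intro L X hL hX1 hX hXLM hk
    by_contra hLM
    -- larger 2-groups inside `L ⊓ M` are impossible
    have hbig : ∀ (L' : Subgroup G), IsTwoLocal L' → ∀ Y : Subgroup G, IsPGroup 2 Y → Y ≤ L' ⊓ M → X < Y →
        L' ≤ M := by
      intro L' hL' Y hY hYL hlt
      refine ih _ ?_ L' Y hL' (fun e => hX1 (le_bot_iff.mp (e ▸ hlt.le))) hY hYL rfl
      have h1 : Nat.card X < Nat.card Y := by
        refine lt_of_le_of_ne (Subgroup.card_le_of_le hlt.le) fun e => ?_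
        exact hlt.ne (Subgroup.eq_of_le_of_card_ge hlt.le e.ge)
      have h2 := Subgroup.card_le_card_group Y
      omega
    obtain ⟨TL, hTL⟩ := hin L X hX (hXLM.trans inf_le_left)
    have hNX : IsTwoLocal (normalizer (X : Set G)) := ⟨X, hX, hX1, rfl⟩
    by_cases hXS : ∀ Y : Subgroup G, IsPGroup 2 Y → Y ≤ M → X ≤ Y → Y = X
    · obtain ⟨m, hm, hXm⟩ := hmaxP X hX (hXLM.trans inf_le_right) hXS
      have hcard : Nat.card X = Nat.card (S : Subgroup G) := by
        rw [hXm, Subgroup.card_map_of_injective (hcj m), hPeq]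
      have hXTL : (TL : Subgroup L).map L.subtype = X := by
        obtain ⟨S', hS'⟩ := IsPGroup.exists_le_sylow (TL.isPGroup'.map L.subtype)
        refine (Subgroup.eq_of_le_of_card_ge hTL ?_).symm
        rw [hcard, Sylow.card_eq_multiplicity, ← Sylow.card_eq_multiplicity S']
        exact Subgroup.card_le_of_le hS'
      have h := (hkey L hL TL).1
      rw [hXTL, hXm, goodMax_map (hcj m) hP] at h
      refine hLM (h.trans fun g hg => ?_)
      have hmg : m⁻¹ * g * m ∈ M := by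
        rw [← hW]
        refine Coprime.mem_normalizer_of_conj_mem fun w hw => ?_
        obtain ⟨w', hw', e⟩ := conj_mem_of_norm hg (Subgroup.mem_map_of_mem (MulAut.conj m).toMonoidHom hw)
        have e' : m * w' * m⁻¹ = g * (m * w * m⁻¹) * g⁻¹ := e
        rw [show m⁻¹ * g * m * w * (m⁻¹ * g * m)⁻¹ = m⁻¹ * (g * (m * w * m⁻¹) * g⁻¹) * m by group, ← e',
          show m⁻¹ * (m * w' * m⁻¹) * m = w' by group]
        exact hw'
      rw [show g = m * (m⁻¹ * g * m) * m⁻¹ by group]
      exact mul_mem (mul_mem hm hmg) (inv_mem hm)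
    · push Not at hXS
      obtain ⟨Y, hY, hYM, hXY, hYne⟩ := hXS
      have hlt := hgrow hY (lt_of_le_of_ne hXY (Ne.symm hYne))
      have hNXM : normalizer (X : Set G) ≤ M :=
        hbig _ hNX _ (hY.to_le inf_le_left) (le_inf inf_le_right (inf_le_left.trans hYM)) hlt
      have hXTL : (TL : Subgroup L).map L.subtype = X := by
        by_contra hne
        have h2 := hgrow (TL.isPGroup'.map L.subtype) (lt_of_le_of_ne hTL (Ne.symm hne))
        exact hLM (hbig L hL _ ((TL.isPGroup'.map L.subtype).to_le inf_le_left)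
          (le_inf (inf_le_left.trans (Subgroup.map_subtype_le _)) (inf_le_right.trans hNXM)) h2)
      have h := hkey L hL TL
      rw [hXTL] at h
      refine hLM (h.1.trans (hbig _ h.2 _ (hY.to_le inf_le_left) (le_inf ?_ (inf_le_left.trans hYM)) hlt))
      exact inf_le_right.trans (normalizer_le_goodMax hX)
  have hPne : P ≠ ⊥ := fun e => hT₀1 (le_bot_iff.mp (e ▸ hT₀T))
  refine ⟨fun e => hT₀1 (le_bot_iff.mp (hO ▸ ?_)), ?_, fun g hg => ?_⟩
  · refine Core.le_pCore ?_ hT₀
    rw [← Subgroup.normalizer_eq_top_iff, ← hMdef, e]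
  · rw [even_iff_two_dvd]
    obtain ⟨i, hi⟩ := IsPGroup.iff_card.mp hP
    have hi0 : i ≠ 0 := by
      rintro rfl
      exact hPne (Subgroup.eq_bot_of_card_eq _ (by simpa using hi))
    exact (dvd_pow_self 2 hi0).trans (hi ▸ Subgroup.card_dvd_of_le hPM)
  by_contra hodd
  rw [Nat.not_odd_iff_even, even_iff_two_dvd] at hodd
  set Mg := M.map (MulAut.conj g).toMonoidHom
  obtain ⟨t, ht⟩ := exists_prime_orderOf_dvd_card' (G := (M ⊓ Mg : Subgroup G)) 2 hodd
  have ht' : orderOf (t : G) = 2 := by rw [Subgroup.orderOf_coe, ht]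
  have hMg : IsTwoLocal Mg := by
    refine ⟨T₀.map (MulAut.conj g).toMonoidHom, hT₀.map _, fun e => hT₀1 ?_, ?_⟩
    · rwa [Subgroup.map_eq_bot_iff_of_injective _ (hcj g)] at e
    · show M.map _ = _
      rw [hMdef]
      exact Subgroup.map_equiv_normalizer_eq T₀ (MulAut.conj g)
  have hle : Mg ≤ M := hall Mg hMg ⟨zpowers (t : G), fun e => by
    rw [zpowers_eq_bot] at e
    rw [e, orderOf_one] at ht'
    omega, IsPGroup.of_card (n := 1) (by rw [Nat.card_zpowers, ht', pow_one]),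
    zpowers_le.mpr ⟨t.2.2, t.2.1⟩⟩
  refine hg ?_
  -- Frattini
  have hPg : P.map (MulAut.conj g).toMonoidHom ≤ M := (Subgroup.map_mono hPM).trans hle
  obtain ⟨m, hm, e⟩ := hmaxP _ (hP.map _) hPg fun Y hY hYM hle' => by
    refine (Subgroup.eq_of_le_of_card_ge hle' ?_).symm
    obtain ⟨S', hS'⟩ := IsPGroup.exists_le_sylow hY
    rw [Subgroup.card_map_of_injective (hcj g), hPeq, Sylow.card_eq_multiplicity,
      ← Sylow.card_eq_multiplicity S']
    exact Subgroup.card_le_of_le hS'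
  have hN : m⁻¹ * g ∈ normalizer (P : Set G) := Coprime.mem_normalizer_of_conj_mem fun p hp => by
    obtain ⟨q, hq, eq⟩ := e.le (Subgroup.mem_map_of_mem (MulAut.conj g).toMonoidHom hp)
    have eq' : m * q * m⁻¹ = g * p * g⁻¹ := eq
    rw [show m⁻¹ * g * p * (m⁻¹ * g)⁻¹ = m⁻¹ * (g * p * g⁻¹) * m by group, ← eq',
      show m⁻¹ * (m * q * m⁻¹) * m = q by group]
    exact hq
  rw [show g = m * (m⁻¹ * g) by group]
  exact mul_mem hm (hNP hN)

end Cfsg.Agent.S3756
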