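import Cfsg.Statements.S3760
import Cfsg.Agent.Transfer.Small

set_option autoImplicit false
open Cfsg

namespace Cfsg.Agent.S3760

/-- Let the group G act transitively on a set X, let x ∈ X with stabilizer H = G_x, and let K ≤ H. Then N_G(K) acts transitively on the set of fixed points of K if and only if every G-conjugate of K contained in H is already an H-conjugate of K. -/
theorem result {G : Type*} [Group G] {X : Type*} [MulAction G X] (htrans : ∀ a b : X, ∃ g : G, g • a = b) (x : X) (K : Subgroup G) (hK : K ≤ MulAction.stabilizer G x) : (∀ a b : X, (∀ k ∈ K, k • a = a) → (∀ k ∈ K, k • b = b) → ∃ g ∈ Subgroup.normalizer (K : Set G), g • a = b) ↔ ∀ g : G, K.map (MulAut.conj g).toMonoidHom ≤ MulAction.stabilizer G x → ∃ h ∈ MulAction.stabilizer G x, K.map (MulAut.conj g).toMonoidHom = K.map (MulAut.conj h).toMonoidHom := by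
  constructor
  · intro h g hg
    obtain ⟨n, hn, hnx⟩ := h x (g⁻¹ • x) (fun k hk => MulAction.mem_stabilizer_iff.mp (hK hk))
      (fun k hk => by
        have := MulAction.mem_stabilizer_iff.mp (hg (Subgroup.mem_map_of_mem _ hk))
        simp only [MulEquiv.coe_toMonoidHom, MulAut.conj_apply, mul_smul] at this
        exact eq_inv_smul_iff.mpr this)
    refine ⟨g * n, by rw [MulAction.mem_stabilizer_iff, mul_smul, hnx, smul_inv_smul], ?_⟩
    rw [← Cfsg.Agent.Transfer.map_conj_mul, Cfsg.Agent.Transfer.mem_normalizer_iff_map_conj.mp hn]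
  · intro h
    have key : ∀ a : X, (∀ k ∈ K, k • a = a) → ∃ n ∈ Subgroup.normalizer (K : Set G), n • a = x := by
      intro a ha
      obtain ⟨g, hg⟩ := htrans a x
      have hle : K.map (MulAut.conj g).toMonoidHom ≤ MulAction.stabilizer G x := by
        rintro _ ⟨k, hk, rfl⟩
        rw [MulAction.mem_stabilizer_iff]
        simp only [MulEquiv.coe_toMonoidHom, MulAut.conj_apply, mul_smul]
        rw [← hg, inv_smul_smul, ha k hk]
      obtain ⟨u, hu, e⟩ := h g hle
      refine ⟨u⁻¹ * g, ?_, ?_⟩
      · rw [Cfsg.Agent.Transfer.mem_normalizer_iff_map_conj, ← Cfsg.Agent.Transfer.map_conj_mul, e,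
          Cfsg.Agent.Transfer.map_conj_mul, inv_mul_cancel, Cfsg.Agent.Transfer.map_conj_one]
      · rw [mul_smul, hg]
        exact inv_smul_eq_iff.mpr (MulAction.mem_stabilizer_iff.mp hu).symm
    intro a b ha hb
    obtain ⟨n, hn, hna⟩ := key a ha
    obtain ⟨m, hm, hmb⟩ := key b hb
    exact ⟨m⁻¹ * n, mul_mem (inv_mem hm) hn, by rw [mul_smul, hna, ← hmb, inv_smul_smul]⟩

end Cfsg.Agent.S3760
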