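import Cfsg.Statements.S3763
import Cfsg.Agent.FGS4.ExtraTwoRank

set_option autoImplicit false
open Cfsg

namespace Cfsg.Agent.S3763

/-- Let E be an extraspecial 2-group of order 2^(2n+1). Then the largest elementary abelian subgroups of E have order 2^n or 2^(n+1); and two extraspecial 2-groups of the same order whose largest elementary abelian subgroups have the same order are isomorphic. -/
theorem result {E : Type*} [Group E] [Finite E] (hE : Cfsg.IsExtraspecial 2 E) (n : ℕ) (hn : Nat.card E = 2 ^ (2 * n + 1)) : ((Cfsg.PRankLE 2 n E ∧ ¬ Cfsg.PRankLE 2 (n - 1) E) ∨ (Cfsg.PRankLE 2 (n + 1) E ∧ ¬ Cfsg.PRankLE 2 n E)) ∧ ∀ (E' : Type*) [Group E'] [Finite E'], Cfsg.IsExtraspecial 2 E' → Nat.card E' = Nat.card E → (∀ k : ℕ, Cfsg.PRankLE 2 k E ↔ Cfsg.PRankLE 2 k E') → Nonempty (E ≃* E') := by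
  obtain ⟨b, m, hm, hcard, ⟨e⟩⟩ := Cfsg.Agent.FGS4.ExtraTwo.exists_model E hE
  obtain rfl : n = m := by
    rw [hn] at hcard
    have := Nat.pow_right_injective le_rfl hcard
    omega
  refine ⟨?_, ?_⟩
  · simp only [Cfsg.Agent.FGS4.ExtraTwoRank.prankLE_iff hm e]
    cases b <;> simp [Cfsg.Agent.FGS4.ExtraTwoRank.rk] <;> omega
  · intro E' _ _ hE' hc hrk
    obtain ⟨b', m', hm', hcard', ⟨e'⟩⟩ := Cfsg.Agent.FGS4.ExtraTwo.exists_model E' hE'
    obtain rfl : m' = n := by
      rw [hcard', hn] at hc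
      have := Nat.pow_right_injective le_rfl hc
      omega
    simp only [Cfsg.Agent.FGS4.ExtraTwoRank.prankLE_iff hm e,
      Cfsg.Agent.FGS4.ExtraTwoRank.prankLE_iff hm' e'] at hrk
    obtain rfl : b' = b := by
      have h1 := hrk m'
      cases b <;> cases b' <;> simp [Cfsg.Agent.FGS4.ExtraTwoRank.rk] at h1 ⊢
    exact ⟨e.trans e'.symm⟩

end Cfsg.Agent.S3763
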