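import Cfsg.Statements.S3764
import Cfsg.Agent.Transfer.HHGroup

set_option autoImplicit false
open scoped commutatorElement
open Cfsg

namespace Cfsg.Agent.S3764

/-- Let p, q, r be distinct primes and let X, Q, V be subgroups of a finite group with X of order r, Q an extraspecial q-group normalized by X with C_Q(X) = Z(Q), and V an elementary abelian p-group normalized by X and Q on which XQ acts faithfully ((X ⊔ Q) ∩ C(V) = 1). If C_V(X) = 1, then q = 2, r = 2^n + 1 for some n, and Q has order 2^(2n+1). -/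
theorem result {G : Type*} [Group G] [Finite G] {p q r : ℕ} (hp : p.Prime) (hq : q.Prime) (hr : r.Prime) (hpq : p ≠ q) (hpr : p ≠ r) (hqr : q ≠ r) (X Q V : Subgroup G) (hX : Nat.card X = r) (hQ : Cfsg.IsExtraspecial q ↥Q) (hXQ : X ≤ Subgroup.normalizer (Q : Set G)) (hCQ : Q ⊓ Subgroup.centralizer (X : Set G) = (Subgroup.center ↥Q).map Q.subtype) (hV : Cfsg.IsElementaryAbelian p V) (hXV : X ≤ Subgroup.normalizer (V : Set G)) (hQV : Q ≤ Subgroup.normalizer (V : Set G)) (hfaith : (X ⊔ Q) ⊓ Subgroup.centralizer (V : Set G) = ⊥) (hCV : V ⊓ Subgroup.centralizer (X : Set G) = ⊥) : q = 2 ∧ ∃ n : ℕ, r = 2 ^ n + 1 ∧ Nat.card Q = 2 ^ (2 * n + 1) := by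
  classical
  haveI := Fact.mk hp
  haveI := Fact.mk hq
  have hpq' : ¬ p ∣ q := fun h => hpq ((Nat.prime_dvd_prime_iff_eq hp hq).mp h)
  have hpr' : ¬ p ∣ r := fun h => hpr ((Nat.prime_dvd_prime_iff_eq hp hr).mp h)
  obtain ⟨hspec, hzc⟩ := hQ
  have hzne : Subgroup.center ↥Q ≠ ⊥ := fun h => by
    rw [h, Subgroup.card_bot] at hzc; exact hq.ne_one hzc.symm
  obtain ⟨⟨z, hz⟩, hz1'⟩ := Subgroup.ne_bot_iff_exists_ne_one.mp hzne
  have hz1 : z ≠ 1 := fun h => hz1' (Subtype.ext h)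
  have hV1 : V ≠ ⊥ := by
    rintro rfl
    refine hz1 (Subtype.ext ((Subgroup.eq_bot_iff_forall _).mp hfaith _ ⟨le_sup_right (a := X) z.2, ?_⟩))
    exact Subgroup.mem_centralizer_iff.mpr fun v hv => by rw [Subgroup.mem_bot.mp hv, one_mul, mul_one]
  obtain ⟨K, _, _, W, _, _, _, _, ρ, T, σ, hqK, hrK, hρ, hσ, hfix, hT, hTρ⟩ :=
    Cfsg.Agent.Transfer.HHGroup.exists_setup hr hpq' hpr' X Q V hX hXQ hV hV1 hXV hQV hfaith hCV
  have hfix' : ∀ y : ↥Q, σ y = y ↔ y ∈ Subgroup.center ↥Q := fun y => by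
    rw [hfix]
    constructor
    · intro h
      obtain ⟨y', hy', he⟩ := hCQ.le ⟨y.2, h⟩
      rwa [← Subtype.ext he]
    · intro h
      exact (hCQ.ge ⟨y, h, rfl⟩).2
  have hcop : (Nat.card ↥Q).Coprime r := by
    obtain ⟨k, hk⟩ := IsPGroup.iff_card.mp hspec.1
    rw [hk]; exact ((Nat.coprime_primes hq hr).mpr hqr).pow_left k
  letI : CommGroup (Subgroup.center ↥Q) :=
    { (inferInstance : Group (Subgroup.center ↥Q)) with
      mul_comm := fun a b => Subtype.ext (Subgroup.mem_center_iff.mp b.2 a) }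
  haveI := Fintype.ofFinite (Subgroup.center ↥Q)
  obtain ⟨χ, hχ, v, hv0, hv⟩ := Cfsg.Agent.Transfer.WeightSpace.exists_weight_of_ne_one
    (ρ.comp (Subgroup.center ↥Q).subtype) (by rw [hzc]; exact hqK) (b := ⟨z, hz⟩)
    (fun h => hz1 (hρ (h.trans (map_one ρ).symm)))
  let U : Submodule K W :=
    { carrier := {w | ∀ d : Subgroup.center ↥Q, ρ (d : ↥Q) w = Cfsg.Agent.Transfer.WeightSpace.wt χ d • w}
      zero_mem' := fun d => by simp
      add_mem' := fun {a b} ha hb d => by rw [map_add, ha d, hb d, smul_add]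
      smul_mem' := fun e a ha d => by rw [map_smul, ha d, smul_comm] }
  have hUρ : ∀ g, ∀ w ∈ U, ρ g w ∈ U := fun g w hw d => by
    rw [← Module.End.mul_apply, ← map_mul, ← Subgroup.mem_center_iff.mp d.2 g, map_mul, Module.End.mul_apply, hw d,
      map_smul]
  have hUT : ∀ w ∈ U, T w ∈ U := fun w hw d => by
    have h := LinearMap.congr_fun (hTρ (d : ↥Q)) w
    rw [Module.End.mul_apply, Module.End.mul_apply, hw d, map_smul, (hfix' d).mpr d.2] at h
    exact h.symm
  haveI : Nontrivial U := ⟨⟨⟨v, hv⟩, 0, fun h => hv0 (congrArg Subtype.val h)⟩⟩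
  set ρU := Cfsg.Agent.Transfer.HHExceptional.restrictRep ρ U hUρ with hρU
  have hscalZ : ∀ d : Subgroup.center ↥Q, ρU (d : ↥Q) = Cfsg.Agent.Transfer.WeightSpace.wt χ d • 1 := fun d =>
    LinearMap.ext fun w => Subtype.ext (w.2 d)
  have hcZ : ∀ a b : ↥Q, ⁅a, b⁆ ∈ Subgroup.center ↥Q := fun a b =>
    hspec.2.2.le (Subgroup.commutator_mem_commutator (Subgroup.mem_top a) (Subgroup.mem_top b))
  have hrad : ∀ g, (∀ w, Commute (ρU g) (ρU w)) → g ∈ Subgroup.center ↥Q := by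
    intro g hg
    rw [Subgroup.mem_center_iff]
    intro w
    by_contra hne
    have hc1 : (⟨⁅w, g⁆, hcZ w g⟩ : Subgroup.center ↥Q) ≠ 1 := fun h =>
      hne (commutatorElement_eq_one_iff_mul_comm.mp (congrArg Subtype.val h))
    have h2 : ρU ⁅w, g⁆ = 1 := by
      rw [commutatorElement_def, map_mul, map_mul, map_mul, (hg w).eq.symm, mul_assoc (ρU g),
        ← map_mul ρU w, mul_inv_cancel, map_one, mul_one, ← map_mul, mul_inv_cancel, map_one]
    rw [hscalZ ⟨⁅w, g⁆, hcZ w g⟩] at h2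
    have h3 : χ ⟨⁅w, g⁆, hcZ w g⟩ = 1 := by
      have := congrArg Subtype.val (LinearMap.congr_fun h2 ⟨v, hv⟩)
      simp only [LinearMap.smul_apply, Module.End.one_apply, Submodule.coe_smul] at this
      exact Units.ext (smul_left_injective K hv0 (this.trans (one_smul K v).symm))
    obtain ⟨i, hi⟩ := mem_powers_of_prime_card (G := Subgroup.center ↥Q) hzc (g' := ⟨z, hz⟩) hc1
    refine hχ ?_
    rw [← hi]
    show χ (_ ^ i) = 1
    rw [map_pow, h3, one_pow]
  obtain ⟨h2, n, hn, hrn, hidx⟩ := Cfsg.Agent.Transfer.HHExceptional.exceptional hr hrK hspec.1 ρU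
    (T.restrict hUT) σ (Cfsg.Agent.Transfer.HHExceptional.sum_pow_restrict hUT hT)
    (fun g => LinearMap.ext fun w => Subtype.ext (LinearMap.congr_fun (hTρ g) (w : W)))
    (fun a b => ⟨Cfsg.Agent.Transfer.WeightSpace.wt χ ⟨⁅a, b⁆, hcZ a b⟩, by
      rw [← one_mul (ρU b * ρU a), ← smul_mul_assoc, ← hscalZ, ← map_mul, ← map_mul, ← map_mul]
      congr 1
      show a * b = ⁅a, b⁆ * (b * a)
      rw [commutatorElement_def]; group⟩)
    (fun g hg => ⟨_, hscalZ ⟨g, hrad g hg⟩⟩)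
    (fun g ⟨e, he⟩ => ⟨_, hscalZ ⟨g, (hfix' g).mp (Cfsg.Agent.Transfer.HHExceptional.eq_one_of_fixed_quot σ hσ
      (z := g⁻¹ * σ g) ((hfix' _).mpr (hrad _ fun w => by
        rw [map_mul, he, mul_smul_comm, ← map_mul, inv_mul_cancel, map_one]
        exact (Commute.one_left _).smul_left e)) (by group) hcop)⟩⟩)
    (by
      by_contra h
      push Not at h
      have htop : Subgroup.center ↥Q = ⊤ := eq_top_iff.mpr fun g _ => hrad g fun w => by
        obtain ⟨e, he⟩ := h g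
        rw [he]; exact (Commute.one_left _).smul_left e
      have hc := hspec.2.2
      rw [htop] at hc
      haveI : Group.IsNilpotent ↥Q := hspec.1.isNilpotent
      haveI : Nontrivial ↥Q := nontrivial_of_ne z 1 hz1
      exact (Group.IsSolvable.commutator_lt_top_of_nontrivial ↥Q).ne hc)
  subst h2
  refine ⟨rfl, n, hrn, ?_⟩
  have hR := hidx (Subgroup.center ↥Q) (fun g => ⟨fun hg => ⟨_, hscalZ ⟨g, hg⟩⟩, fun ⟨e, he⟩ =>
    hrad g fun w => by rw [he]; exact (Commute.one_left _).smul_left e⟩)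
  rw [← Subgroup.card_mul_index (Subgroup.center ↥Q), hzc, hR, pow_succ']

end Cfsg.Agent.S3764
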