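import Cfsg.Statements.S3766
import Cfsg.Agent.Core.MinimalNormal

set_option autoImplicit false
open Cfsg

namespace Cfsg.Agent.S3766

/-- Let G be a finite solvable group and N a normal subgroup of G. Call a pair V < U of normal subgroups of G a chief factor of G when no normal subgroup of G lies strictly between them; an element g centralizes the chief factor U/V when u g u⁻¹ g⁻¹ ∈ V for all u ∈ U. Then an element of G lies in the Fitting subgroup F(N) if and only if it lies in N and centralizes every chief factor of G; and also if and only if it lies in N and centralizes every chief factor U/V of G with U ≤ F(N). -/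
theorem result {G : Type*} [Group G] [Finite G] (hG : Group.IsSolvable G) (N : Subgroup G) [N.Normal] (g : G) : (g ∈ (Cfsg.fittingSubgroup ↥N).map N.subtype ↔ g ∈ N ∧ ∀ U V : Subgroup G, (U.Normal ∧ V.Normal ∧ V < U ∧ ∀ W : Subgroup G, W.Normal → V ≤ W → W ≤ U → W = V ∨ W = U) → ∀ u ∈ U, u * g * u⁻¹ * g⁻¹ ∈ V) ∧ (g ∈ (Cfsg.fittingSubgroup ↥N).map N.subtype ↔ g ∈ N ∧ ∀ U V : Subgroup G, (U.Normal ∧ V.Normal ∧ V < U ∧ ∀ W : Subgroup G, W.Normal → V ≤ W → W ≤ U → W = V ∨ W = U) → U ≤ (Cfsg.fittingSubgroup ↥N).map N.subtype → ∀ u ∈ U, u * g * u⁻¹ * g⁻¹ ∈ V) := by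
  haveI := hG
  set F := (Cfsg.fittingSubgroup ↥N).map N.subtype with hF
  have hFeq : F = Cfsg.fittingSubgroup G ⊓ N := Cfsg.Agent.Core.map_fittingSubgroup_subtype N
  haveI hFn : F.Normal := by rw [hFeq]; exact Subgroup.normal_inf_normal _ _
  have hfwd : ∀ g ∈ F, g ∈ N ∧ ∀ U V : Subgroup G, (U.Normal ∧ V.Normal ∧ V < U ∧
      ∀ W : Subgroup G, W.Normal → V ≤ W → W ≤ U → W = V ∨ W = U) → ∀ u ∈ U, u * g * u⁻¹ * g⁻¹ ∈ V := by
    intro g hg
    rw [hFeq] at hg
    refine ⟨hg.2, ?_⟩
    rintro U V ⟨hU, hV, hlt, hch⟩ u hu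
    haveI := hV
    set f := QuotientGroup.mk' V with hf
    have hfs : Function.Surjective f := QuotientGroup.mk'_surjective V
    have hmin : Cfsg.Agent.Core.IsMinNormal (U.map f) := by
      refine ⟨hU.map f hfs, fun e => ?_, fun W hW hWU => ?_⟩
      · rw [Subgroup.map_eq_bot_iff, QuotientGroup.ker_mk'] at e
        exact not_le_of_gt hlt e
      · have h1 : V ≤ W.comap f := fun v hv => by
          rw [Subgroup.mem_comap, show f v = 1 from (QuotientGroup.eq_one_iff v).mpr hv]
          exact W.one_mem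
        have h2 : W.comap f ≤ U := by
          refine (Subgroup.comap_mono hWU).trans ?_
          rw [Subgroup.comap_map_eq, QuotientGroup.ker_mk']
          exact sup_le le_rfl hlt.le
        rcases hch _ (hW.comap f) h1 h2 with e | e
        · left; rw [← Subgroup.map_comap_eq_self_of_surjective hfs W, e, QuotientGroup.map_mk'_self]
        · right; rw [← Subgroup.map_comap_eq_self_of_surjective hfs W, e]
    have h1 := Subgroup.mem_centralizer_iff.mp (hmin.fittingSubgroup_le_centralizer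
      (Cfsg.Agent.Core.map_fittingSubgroup_le hfs ⟨g, hg.1, rfl⟩)) (f u) ⟨u, hu, rfl⟩
    rw [← QuotientGroup.eq_one_iff]
    show f (u * g * u⁻¹ * g⁻¹) = 1
    rw [map_mul, map_mul, map_mul, map_inv, map_inv, h1]
    group
  let D : Subgroup G :=
    { carrier := {g | g ∈ N ∧ ∀ U V : Subgroup G, (U.Normal ∧ V.Normal ∧ V < U ∧
        ∀ W : Subgroup G, W.Normal → V ≤ W → W ≤ U → W = V ∨ W = U) → U ≤ F → ∀ u ∈ U, u * g * u⁻¹ * g⁻¹ ∈ V}
      one_mem' := ⟨N.one_mem, fun U V h _ u _ => by simp⟩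
      mul_mem' := fun {a b} ha hb => ⟨N.mul_mem ha.1 hb.1, fun U V h hUF u hu => by
        have h1 := V.mul_mem (ha.2 U V h hUF u hu) (h.2.1.conj_mem _ (hb.2 U V h hUF u hu) a)
        rwa [show u * a * u⁻¹ * a⁻¹ * (a * (u * b * u⁻¹ * b⁻¹) * a⁻¹) =
          u * (a * b) * u⁻¹ * (a * b)⁻¹ by group] at h1⟩
      inv_mem' := fun {a} ha => ⟨N.inv_mem ha.1, fun U V h hUF u hu => by
        have h1 := h.2.1.conj_mem _ (V.inv_mem (ha.2 U V h hUF u hu)) a⁻¹
        rwa [show a⁻¹ * (u * a * u⁻¹ * a⁻¹)⁻¹ * a⁻¹⁻¹ = u * a⁻¹ * u⁻¹ * a⁻¹⁻¹ by group] at h1⟩ }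
  haveI hDn : D.Normal := ⟨fun a ha x => ⟨(inferInstance : N.Normal).conj_mem a ha.1 x, fun U V h hUF u hu => by
    have hu' : x⁻¹ * u * x ∈ U := by simpa using h.1.conj_mem u hu x⁻¹
    have h1 := h.2.1.conj_mem _ (ha.2 U V h hUF _ hu') x
    rwa [show x * (x⁻¹ * u * x * a * (x⁻¹ * u * x)⁻¹ * a⁻¹) * x⁻¹ =
      u * (x * a * x⁻¹) * u⁻¹ * (x * a * x⁻¹)⁻¹ by group] at h1⟩⟩
  have hDF : D ≤ F := by
    -- a normal subgroup of `D` that is abelian modulo `F` lies in `F`
    have hstep : ∀ M : Subgroup G, M.Normal → M ≤ D → ⁅M, M⁆ ≤ F → M ≤ F := by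
      intro M hM hMD hMM
      haveI := hM
      have key : ∀ W : Subgroup G, W.Normal → W ≤ F → W ≠ ⊥ → ⁅W, M⁆ < W := by
        intro W hW hWF hWne
        obtain ⟨V, ⟨hV, hVW⟩, hVmax⟩ := (Set.toFinite {V : Subgroup G | V.Normal ∧ V < W}).exists_maximal
          ⟨⊥, inferInstance, bot_lt_iff_ne_bot.mpr hWne⟩
        refine lt_of_le_of_lt (Subgroup.commutator_le.mpr fun u hu a ha => ?_) hVW
        refine (hMD ha).2 W V ⟨hW, hV, hVW, fun X hX h1 h2 => ?_⟩ hWF u hu
        rcases eq_or_lt_of_le h2 with e | e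
        · exact Or.inr e
        · exact Or.inl (le_antisymm (hVmax ⟨hX, e⟩ h1) h1)
      let c : ℕ → Subgroup G := fun i => Nat.rec ⁅M, M⁆ (fun _ H => ⁅H, M⁆) i
      have hc : ∀ i, (c i).Normal ∧ c i ≤ F := fun i => by
        induction i with
        | zero => exact ⟨Subgroup.commutator_normal M M, hMM⟩
        | succ i ih =>
          haveI := ih.1
          exact ⟨Subgroup.commutator_normal (c i) M, (Subgroup.commutator_le_left (c i) M).trans ih.2⟩
      have hdec : ∀ i, c i = ⊥ ∨ Nat.card ↥(c i) + i ≤ Nat.card ↥(c 0) := fun i => by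
        induction i with
        | zero => exact Or.inr le_rfl
        | succ i ih =>
          by_cases hb : c i = ⊥
          · left
            show ⁅c i, M⁆ = ⊥
            rw [hb, Subgroup.commutator_bot_left]
          · right
            have h1 := (key (c i) (hc i).1 (hc i).2 hb)
            have h2 : Nat.card ↥(c (i + 1)) < Nat.card ↥(c i) := by
              refine lt_of_le_of_ne (Subgroup.card_le_of_le h1.le) fun e => h1.ne ?_
              exact Subgroup.eq_of_le_of_card_ge h1.le e.ge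
            have := ih.resolve_left hb
            omega
      obtain ⟨k, hk⟩ : ∃ k, c k = ⊥ := ⟨Nat.card ↥(c 0), (hdec _).resolve_right (by
        have := Nat.card_pos (α := ↥(c (Nat.card ↥(c 0))))
        omega)⟩
      have hnil : Group.IsNilpotent M := by
        refine (Subgroup.isNilpotent_iff_lowerCentralSeries M).mpr ⟨k + 1, le_bot_iff.mp ?_⟩
        have hle : ∀ i, M.lowerCentralSeries (i + 1) ≤ c i := fun i => by
          induction i with
          | zero => rw [Subgroup.lowerCentralSeries_succ, Subgroup.lowerCentralSeries_zero]; exact le_rfl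
          | succ i ih =>
            rw [Subgroup.lowerCentralSeries_succ]
            exact Subgroup.commutator_mono ih le_rfl
        exact (hle k).trans hk.le
      rw [hFeq]
      exact le_inf (Cfsg.Agent.Core.le_fittingSubgroup hM hnil) (hMD.trans fun a ha => ha.1)
    let d : ℕ → Subgroup G := fun i => Nat.rec D (fun _ H => ⁅H, H⁆) i
    have hd : ∀ i, (d i).Normal ∧ d i ≤ D ∧ d i ≤ (derivedSeries G i) := fun i => by
      induction i with
      | zero => exact ⟨hDn, le_rfl, by rw [derivedSeries_zero]; exact le_top⟩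
      | succ i ih =>
        haveI := ih.1
        refine ⟨Subgroup.commutator_normal (d i) (d i), (Subgroup.commutator_le_left (d i) (d i)).trans ih.2.1, ?_⟩
        rw [derivedSeries_succ]
        exact Subgroup.commutator_mono ih.2.2 ih.2.2
    obtain ⟨k, hk⟩ := (Group.isSolvable_def G).mp hG
    have hdown : ∀ j i, i + j = k → d i ≤ F := fun j => by
      induction j with
      | zero =>
        intro i hi
        rw [Nat.add_zero] at hi
        exact ((hd i).2.2.trans (hi ▸ hk).le).trans bot_le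
      | succ j ih =>
        intro i hi
        exact hstep (d i) (hd i).1 (hd i).2.1 (ih (i + 1) (by omega))
    exact hdown k 0 (Nat.zero_add k)
  refine ⟨⟨hfwd g, fun h => hDF ⟨h.1, fun U V hUV _ u hu => h.2 U V hUV u hu⟩⟩, ⟨fun h => ?_, fun h => hDF h⟩⟩
  exact ⟨(hfwd g h).1, fun U V hUV _ u hu => (hfwd g h).2 U V hUV u hu⟩

end Cfsg.Agent.S3766
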