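import Cfsg.Statements.S3774
import Mathlib

set_option autoImplicit false
open Cfsg

namespace Cfsg.Agent.S3774

/-- Let G be a nontrivial finite 2-group whose automorphism group permutes the involutions of G transitively. Then every involution of G is central, so that the involutions together with 1 form the subgroup Ω₁(Z(G)), and if this subgroup has order q then |G| is a power of q. -/
theorem result {G : Type*} [Group G] [Finite G] [Nontrivial G] (hG : IsPGroup 2 G) (htrans : ∀ x y : G, x ≠ 1 → x ^ 2 = 1 → y ≠ 1 → y ^ 2 = 1 → ∃ a : MulAut G, a x = y) : (∀ x : G, x ^ 2 = 1 → x ∈ Subgroup.center G) ∧ ∃ m : ℕ, Nat.card G = Nat.card {z : G // z ^ 2 = 1} ^ m := by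
  classical
  haveI : Fact (Nat.Prime 2) := ⟨Nat.prime_two⟩
  haveI : Fintype G := Fintype.ofFinite G
  have hcen : ∀ x : G, x ^ 2 = 1 → x ∈ Subgroup.center G := by
    haveI := hG.center_nontrivial
    obtain ⟨z, hz⟩ := exists_prime_orderOf_dvd_card' (G := Subgroup.center G) 2
      (by
        obtain ⟨k, hk⟩ := IsPGroup.iff_card.1 (hG.to_subgroup (Subgroup.center G))
        have : k ≠ 0 := by rintro rfl; exact absurd hk (by simpa using (Finite.one_lt_card (α := Subgroup.center G)).ne')
        rw [hk]; exact dvd_pow_self 2 this)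
    have hz' : orderOf (z : G) = 2 := by rw [Subgroup.orderOf_coe, hz]
    intro x hx
    by_cases hx1 : x = 1
    · rw [hx1]; exact one_mem _
    obtain ⟨a, rfl⟩ := htrans (z : G) x (fun h => by rw [h, orderOf_one] at hz'; omega)
      (by rw [← hz']; exact pow_orderOf_eq_one _) hx1 hx
    rw [Subgroup.mem_center_iff]
    intro g
    obtain ⟨g', rfl⟩ := a.surjective g
    rw [← map_mul, ← map_mul, Subgroup.mem_center_iff.1 z.2 g']
  refine ⟨hcen, ?_⟩
  let Ω : Subgroup G :=
    { carrier := {z | z ^ 2 = 1}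
      mul_mem' := fun {y z} hy hz => by
        show (y * z) ^ 2 = 1
        rw [Commute.mul_pow (Subgroup.mem_center_iff.1 (hcen z hz) y), hy, hz, one_mul]
      one_mem' := one_pow _
      inv_mem' := fun {y} hy => by show y⁻¹ ^ 2 = 1; rw [inv_pow, hy, inv_one] }
  obtain ⟨f, hf⟩ := IsPGroup.iff_card.1 (hG.to_subgroup Ω)
  obtain ⟨n, hn⟩ := IsPGroup.iff_card.1 hG
  have hq : Nat.card {z : G // z ^ 2 = 1} = 2 ^ f := hf
  rw [hq, hn]
  let φ : G → G := fun x => x ^ (orderOf x / 2)
  have hφ : ∀ x : G, x ≠ 1 → φ x ≠ 1 ∧ φ x ^ 2 = 1 := by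
    intro x hx
    obtain ⟨k, hk⟩ := IsPGroup.iff_orderOf.1 hG x
    obtain ⟨j, rfl⟩ : ∃ j, k = j + 1 := ⟨k - 1, by
      have : k ≠ 0 := by rintro rfl; exact hx (orderOf_eq_one_iff.1 (by simpa using hk))
      omega⟩
    have h2 : orderOf x / 2 = 2 ^ j := by rw [hk, pow_succ]; omega
    simp only [φ, h2]
    refine ⟨pow_ne_one_of_lt_orderOf (by positivity) (by rw [hk, pow_succ]; have := Nat.one_le_two_pow (n := j); omega), ?_⟩
    rw [← pow_mul, ← pow_succ, ← hk, pow_orderOf_eq_one]
  let s : Finset G := Finset.univ.filter fun x => x ≠ 1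
  let t : Finset G := Finset.univ.filter fun x => x ≠ 1 ∧ x ^ 2 = 1
  have hsum := Finset.card_eq_sum_card_fiberwise (f := φ) (s := s) (t := t)
    (fun x hx => by simpa [t, s] using hφ x (by simpa [s] using hx))
  obtain ⟨w, hw⟩ : ∃ w, w ∈ t := by
    obtain ⟨x, hx⟩ := exists_ne (1 : G)
    exact ⟨φ x, by simpa [t] using hφ x hx⟩
  have hconst : ∀ y ∈ t, (s.filter fun x => φ x = y).card = (s.filter fun x => φ x = w).card := by
    intro y hy
    simp only [t, Finset.mem_filter, Finset.mem_univ, true_and] at hy hw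
    obtain ⟨a, ha⟩ := htrans y w hy.1 hy.2 hw.1 hw.2
    refine Finset.card_equiv a.toEquiv fun x => ?_
    rw [show a.toEquiv x = a x from rfl]
    simp only [s, φ, Finset.mem_filter, Finset.mem_univ, true_and, ne_eq,
      EmbeddingLike.map_eq_one_iff, MulEquiv.orderOf_eq, ← map_pow, ← ha, EmbeddingLike.apply_eq_iff_eq]
  rw [Finset.sum_congr rfl hconst, Finset.sum_const, smul_eq_mul] at hsum
  have hs : s.card = 2 ^ n - 1 := by
    simp only [s, Finset.filter_ne', Finset.card_erase_of_mem (Finset.mem_univ _), Finset.card_univ]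
    rw [← Nat.card_eq_fintype_card, hn]
  have ht : t.card = 2 ^ f - 1 := by
    have he : t = (Finset.univ.filter fun x : G => x ^ 2 = 1).erase 1 := by
      ext; simp [t, and_comm]
    rw [he, Finset.card_erase_of_mem (by simp), ← Fintype.card_subtype,
      ← Nat.card_eq_fintype_card, hq]
  have hdvd : 2 ^ f - 1 ∣ 2 ^ n - 1 := by rw [← hs, ← ht]; exact ⟨_, hsum⟩
  obtain ⟨m, hm⟩ : f ∣ n := by
    have hg := Nat.pow_sub_one_gcd_pow_sub_one 2 f n
    rw [Nat.gcd_eq_left hdvd] at hg
    have h1 : 2 ^ f = 2 ^ Nat.gcd f n := by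
      have := Nat.one_le_two_pow (n := f); have := Nat.one_le_two_pow (n := Nat.gcd f n); omega
    exact (Nat.pow_right_injective le_rfl h1) ▸ Nat.gcd_dvd_right f n
  exact ⟨m, by rw [← pow_mul, hm]⟩

end Cfsg.Agent.S3774
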