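import Cfsg.Statements.S3775
import Cfsg.Agent.Transfer.AbelianMaschke

set_option autoImplicit false
open Cfsg

namespace Cfsg.Agent.S3775

/-- Let A be a finite abelian p-group and X a group of automorphisms of A of order prime to p. Call a subgroup of A invariant when every element of X maps it onto itself. Then the following are equivalent: (i) A is not the direct product of two nontrivial invariant subgroups; (ii) every invariant subgroup of A is one of the subgroups Ω_i(A) = {a : a^(p^i) = 1}; (iii) the subgroup Ω₁(A) of elements of order dividing p has no invariant subgroups other than 1 and itself. -/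
theorem result {A : Type*} [CommGroup A] [Finite A] {p : ℕ} [Fact p.Prime] (hA : IsPGroup p A) (X : Subgroup (MulAut A)) (hX : (Nat.card X).Coprime p) : ((¬ ∃ B C : Subgroup A, B ≠ ⊥ ∧ C ≠ ⊥ ∧ (∀ x ∈ X, B.map x.toMonoidHom = B) ∧ (∀ x ∈ X, C.map x.toMonoidHom = C) ∧ B ⊓ C = ⊥ ∧ B ⊔ C = ⊤) ↔ (∀ B : Subgroup A, (∀ x ∈ X, B.map x.toMonoidHom = B) → ∃ i : ℕ, ∀ a : A, a ∈ B ↔ a ^ p ^ i = 1)) ∧ ((∀ B : Subgroup A, (∀ x ∈ X, B.map x.toMonoidHom = B) → ∃ i : ℕ, ∀ a : A, a ∈ B ↔ a ^ p ^ i = 1) ↔ (∀ B : Subgroup A, (∀ x ∈ X, B.map x.toMonoidHom = B) → (∀ b ∈ B, b ^ p = 1) → B = ⊥ ∨ ∀ a : A, a ∈ B ↔ a ^ p = 1)) := by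
  have hp : p.Prime := Fact.out
  obtain ⟨n, hn⟩ := IsPGroup.iff_card.mp hA
  have hX' : (Nat.card X).Coprime (Nat.card A) := hn ▸ hX.pow_right n
  have hI : ∀ B : Subgroup A, (∀ x ∈ X, B.map x.toMonoidHom = B) ↔
      Cfsg.Agent.Transfer.AbMaschke.Inv X B := fun B =>
    Cfsg.Agent.Transfer.AbMaschke.inv_iff_map.symm
  have h23 : (∀ B : Subgroup A, (∀ x ∈ X, B.map x.toMonoidHom = B) → ∃ i : ℕ, ∀ a : A, a ∈ B ↔ a ^ p ^ i = 1) →
      (∀ B : Subgroup A, (∀ x ∈ X, B.map x.toMonoidHom = B) → (∀ b ∈ B, b ^ p = 1) → B = ⊥ ∨ ∀ a : A, a ∈ B ↔ a ^ p = 1) := by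
    intro h B hB hBp
    obtain ⟨i, hi⟩ := h B hB
    rcases i with _ | i
    · left
      rw [eq_bot_iff]
      intro b hb
      simpa using (hi b).mp hb
    · right
      refine fun a => ⟨hBp a, fun ha => (hi a).mpr ?_⟩
      rw [pow_succ', pow_mul, ha, one_pow]
  have h32 : (∀ B : Subgroup A, (∀ x ∈ X, B.map x.toMonoidHom = B) → (∀ b ∈ B, b ^ p = 1) → B = ⊥ ∨ ∀ a : A, a ∈ B ↔ a ^ p = 1) →
      (∀ B : Subgroup A, (∀ x ∈ X, B.map x.toMonoidHom = B) → ∃ i : ℕ, ∀ a : A, a ∈ B ↔ a ^ p ^ i = 1) := by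
    intro h B hB
    by_cases hne : B = ⊥
    · exact ⟨0, fun a => by simp [hne]⟩
    obtain ⟨e, he, hne'⟩ := Cfsg.Agent.Transfer.AbMaschke.exists_exponent hA hne
    exact ⟨e + 1, fun a => ⟨he a, Cfsg.Agent.Transfer.AbMaschke.omega_le X
      (fun U hU hUp hUne a ha => (((h U ((hI U).mpr hU) hUp).resolve_left hUne) a).mpr ha)
      ((hI B).mp hB) he hne' (e + 1) le_rfl a⟩⟩
  refine ⟨⟨fun hind => h32 fun B hB hBp => ?_, fun h => ?_⟩, h23, h32⟩
  · by_cases hne : B = ⊥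
    · exact Or.inl hne
    refine Or.inr fun a => ⟨hBp a, fun ha => ?_⟩
    refine Cfsg.Agent.Transfer.AbMaschke.irreducible_of_indecomposable hA X hX' ⊤
      (fun x _ b _ => Subgroup.mem_top _) ?_ B ((hI B).mp hB) le_top hBp hne a (Subgroup.mem_top a) ha
    intro C D hC hD h1 h2
    by_contra hcon
    push Not at hcon
    exact hind ⟨C, D, hcon.1, hcon.2, (hI C).mpr hC, (hI D).mpr hD, h1, h2⟩
  · rintro ⟨B, C, hB, hC, hBi, hCi, hBC, -⟩
    obtain ⟨i, hi⟩ := h B hBi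
    obtain ⟨j, hj⟩ := h C hCi
    have key : ∀ (D : Subgroup A) (i : ℕ), D ≠ ⊥ → (∀ a : A, a ∈ D ↔ a ^ p ^ i = 1) → ∀ a : A, a ^ p = 1 → a ∈ D := by
      intro D i hD hi a ha
      rcases i with _ | i
      · exact absurd (eq_bot_iff.mpr fun b hb => by simpa using (hi b).mp hb) hD
      · exact (hi a).mpr (by rw [pow_succ', pow_mul, ha, one_pow])
    obtain ⟨b, hb, hb1⟩ := (Subgroup.bot_or_exists_ne_one B).resolve_left hB
    have hdvd : p ∣ Nat.card A := by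
      rcases Nat.eq_zero_or_pos n with h0 | h0
      · haveI : Subsingleton A := (Nat.card_eq_one_iff_unique.mp (by rw [hn, h0, pow_zero])).1
        exact absurd (Subsingleton.elim b 1) hb1
      · exact hn ▸ dvd_pow_self p h0.ne'
    obtain ⟨u, hu⟩ := exists_prime_orderOf_dvd_card' p hdvd
    have hup : u ^ p = 1 := hu ▸ pow_orderOf_eq_one u
    have h1 : u ∈ B ⊓ C := ⟨key B i hB hi u hup, key C j hC hj u hup⟩
    rw [hBC, Subgroup.mem_bot] at h1
    rw [h1, orderOf_one] at hu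
    exact hp.ne_one hu.symm

end Cfsg.Agent.S3775
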