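import Cfsg.Statements.S3780
import Cfsg.Agent.FGS3.PGroupFrattini
import Mathlib.Algebra.CharP.Lemmas

set_option autoImplicit false
open Cfsg

namespace Cfsg.Agent.S3780

/-- Let V be a finite abelian p-group and α an automorphism of V of order p whose fixed-point subgroup has order p^n. Then V can be generated by pn elements: some subset of V with at most pn elements generates V. -/
theorem result {V : Type*} [CommGroup V] [Finite V] {p : ℕ} [Fact p.Prime] (hV : IsPGroup p V) (α : MulAut V) (hα : orderOf α = p) (n : ℕ) (hfix : Nat.card {v : V // α v = v} = p ^ n) : ∃ S : Finset V, S.card ≤ p * n ∧ Subgroup.closure (S : Set V) = ⊤ := by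
  classical
  have hp : p.Prime := Fact.out
  let π : V →* V := powMonoidHom p
  set W := π.ker with hW
  have hWmem : ∀ {x : V}, x ∈ W ↔ x ^ p = 1 := Iff.rfl
  let a : Additive W →+ Additive W := MonoidHom.toAdditive
    (MonoidHom.mk' (fun w : W => (⟨α w, hWmem.mpr (by rw [← map_pow, hWmem.mp w.2, map_one])⟩ : W))
      fun u v => Subtype.ext (map_mul α _ _))
  let A : AddMonoid.End (Additive W) := a
  have hApow : ∀ (k : ℕ) (w : Additive W), (((A ^ k) w).toMul : V) = (α ^ k) (w.toMul : V) := by
    intro k
    induction k with
    | zero => intro w; rfl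
    | succ k ih =>
      intro w
      rw [pow_succ', pow_succ']
      show α (((A ^ k) w).toMul : V) = α ((α ^ k) (w.toMul : V))
      rw [ih]
  have hAp : A ^ p = 1 := by
    refine DFunLike.ext _ _ fun w => ?_
    apply Additive.toMul.injective
    apply Subtype.ext
    rw [hApow, ← hα, pow_orderOf_eq_one]
    rfl
  have hchar : (p : AddMonoid.End (Additive W)) = 0 := by
    refine DFunLike.ext _ _ fun w => ?_
    rw [AddMonoid.End.natCast_apply]
    apply Additive.toMul.injective
    apply Subtype.ext
    show ((w.toMul ^ p : W) : V) = 1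
    exact hWmem.mp w.toMul.2
  set N : AddMonoid.End (Additive W) := A - 1 with hN
  have hN0 : N ^ p = 0 := by
    obtain ⟨r, hr⟩ := (Commute.neg_right (Commute.one_right A)).exists_add_pow_prime_eq hp
    rw [hN, sub_eq_add_neg, hr, hAp, hchar, zero_mul, zero_mul, zero_mul, add_zero]
    rcases hp.eq_two_or_odd' with h2 | hodd
    · subst h2
      rw [neg_one_sq, one_add_one_eq_two]
      exact_mod_cast hchar
    · rw [hodd.neg_one_pow, add_neg_cancel]
  have hker : Nat.card (AddMonoidHom.ker (N : Additive W →+ Additive W)) ≤ p ^ n := by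
    rw [← hfix]
    refine Nat.card_le_card_of_injective (fun w => (⟨(w.1.toMul : V), ?_⟩ : {v : V // α v = v})) ?_
    · have h : a w.1 - w.1 = 0 := w.2
      exact congrArg (fun z : Additive W => (z.toMul : V)) (sub_eq_zero.mp h)
    · intro u v h
      exact Subtype.ext (Additive.toMul.injective (Subtype.ext (congrArg (fun z : {v : V // α v = v} => (z : V)) h :)))
  have hstep : ∀ j : ℕ, Nat.card (AddMonoidHom.ker ((N ^ j : AddMonoid.End (Additive W)) : Additive W →+ Additive W)) ≤ p ^ (j * n) := by
    intro j
    induction j with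
    | zero =>
      simp only [Nat.zero_mul, pow_zero]
      rw [show AddMonoidHom.ker ((1 : AddMonoid.End (Additive W)) : Additive W →+ Additive W) = ⊥ by
        ext w; simp [AddMonoidHom.mem_ker]; rfl]
      simp
    | succ j ih =>
      let f : AddMonoidHom.ker ((N ^ (j + 1) : AddMonoid.End (Additive W)) : Additive W →+ Additive W) →+
          AddMonoidHom.ker ((N ^ j : AddMonoid.End (Additive W)) : Additive W →+ Additive W) :=
        (((N : Additive W →+ Additive W)).comp (AddSubgroup.subtype _)).codRestrict _ fun w => by
          have := w.2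
          have h' : (N ^ (j + 1)) (w : Additive W) = 0 := this
          exact (DFunLike.congr_fun (pow_succ N j) (w : Additive W)).symm.trans h'
      refine (f.ker.index_mul_card).symm.le.trans ?_
      rw [show p ^ ((j + 1) * n) = p ^ (j * n) * p ^ n by rw [Nat.succ_mul, pow_add]]
      refine Nat.mul_le_mul ?_ (le_trans ?_ hker)
      · rw [AddSubgroup.index_ker]
        exact (Nat.card_le_card_of_injective _ Subtype.val_injective).trans ih
      · refine Nat.card_le_card_of_injective (fun w => (⟨w.1.1, ?_⟩ :
          AddMonoidHom.ker (N : Additive W →+ Additive W))) ?_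
        · exact congrArg Subtype.val w.2
        · intro u v h
          exact Subtype.ext (Subtype.ext (congrArg (fun z => z.1) h))
  have hWc : Nat.card W ≤ p ^ (p * n) := by
    refine le_trans (le_of_eq ?_) (hstep p)
    rw [hN0, show AddMonoidHom.ker ((0 : AddMonoid.End (Additive W)) : Additive W →+ Additive W) = ⊤ by
      ext w; simp [AddMonoidHom.mem_ker]; rfl, AddSubgroup.card_top]
    exact (Nat.card_congr Additive.ofMul).symm.symm
  have hle : π.range ≤ frattini V := by
    rintro _ ⟨x, rfl⟩
    exact Cfsg.Agent.FGS3.pow_mem_frattini hV x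
  obtain ⟨r, hr⟩ := hV.index (frattini V)
  have hidx : π.range.index = Nat.card W := by
    have h1 := π.range.card_mul_index
    have h2 := π.ker.card_mul_index
    rw [Subgroup.index_ker, ← h1, mul_comm (Nat.card π.range) π.range.index] at h2
    exact (Nat.eq_of_mul_eq_mul_right Nat.card_pos h2).symm
  have hr' : r ≤ p * n := (Nat.pow_le_pow_iff_right hp.one_lt).mp (hr ▸
    (Nat.le_of_dvd (Nat.pos_of_ne_zero Subgroup.index_ne_zero_of_finite)
      (Subgroup.index_dvd_of_le hle)).trans (hidx.le.trans hWc))
  obtain ⟨v, hv⟩ := Cfsg.Agent.FGS3.exists_gen_of_frattini_index hV hr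
  refine ⟨Finset.univ.image v, (Finset.card_image_le).trans (by simpa using hr'), ?_⟩
  rw [Finset.coe_image, Finset.coe_univ, Set.image_univ, hv]

end Cfsg.Agent.S3780
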