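import Cfsg.Statements.S3784
import Mathlib.NumberTheory.Fermat
import Mathlib.Tactic.Linarith
import Mathlib.Algebra.Ring.Parity

set_option autoImplicit false
open Cfsg

namespace Cfsg.Agent.S3784

/-- Let p, q be primes and a, b positive integers with p^a = q^b + 1. Then either p = 2, b = 1, a is prime and q = 2^a − 1; or q = 2, a = 1, b is a power of 2 and p = 2^b + 1; or p^a = 9 and q^b = 8. -/
theorem result (p q a b : ℕ) (hp : p.Prime) (hq : q.Prime) (ha : 1 ≤ a) (hb : 1 ≤ b) (h : p ^ a = q ^ b + 1) : (p = 2 ∧ b = 1 ∧ a.Prime ∧ q + 1 = 2 ^ a) ∨ (q = 2 ∧ a = 1 ∧ (∃ m : ℕ, b = 2 ^ m) ∧ p = 2 ^ b + 1) ∨ (p ^ a = 9 ∧ q ^ b = 8) := by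
  have key : ∀ x m j : ℕ, x * x % m = 1 % m → x ^ (2 * j + 1) % m = x % m := by
    intro x m j hx
    rw [pow_succ, pow_mul, Nat.mul_mod, Nat.pow_mod, sq, hx, ← Nat.pow_mod, one_pow, ← Nat.mul_mod,
      one_mul]
  rcases hp.eq_two_or_odd with rfl | hp2
  · left
    rcases Nat.eq_or_lt_of_le hb with rfl | hb1
    · rw [pow_one] at h
      refine ⟨rfl, rfl, ?_, h.symm⟩
      have ha1 : a ≠ 1 := by rintro rfl; have := hq.two_le; omega
      exact (Nat.prime_of_pow_sub_one_prime ha1
        (show (2 ^ a - 1).Prime by rw [h, Nat.add_sub_cancel]; exact hq)).2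
    exfalso
    have h2a : 2 ∣ 2 ^ a := dvd_pow_self 2 (by omega)
    have hqodd : q % 2 = 1 := by
      rcases hq.eq_two_or_odd with rfl | hq2
      · have : 2 ∣ 2 ^ b := dvd_pow_self 2 (by omega)
        omega
      · exact hq2
    rcases Nat.even_or_odd b with ⟨j, rfl⟩ | ⟨j, rfl⟩
    · have hsq : q ^ (j + j) % 4 = 1 := by
        have hqq : (q * q) % 4 = 1 := by
          rw [Nat.mul_mod]
          have : q % 4 = 1 ∨ q % 4 = 3 := by omega
          rcases this with h' | h' <;> rw [h']
        simp [← two_mul, pow_mul, sq, Nat.pow_mod, hqq]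
      rcases Nat.eq_or_lt_of_le ha with rfl | ha1
      · have : 2 ≤ q ^ (j + j) := hq.two_le.trans (Nat.le_self_pow (by omega) q)
        omega
      · have : 4 ∣ 2 ^ a := ⟨2 ^ (a - 2), by
          rw [show (4 : ℕ) = 2 ^ 2 by rfl, ← pow_add]; congr 1; omega⟩
        omega
    · obtain ⟨r, rfl⟩ : ∃ r, q = 2 * r + 1 := ⟨q / 2, by omega⟩
      have h1 := key (2 * r + 1) (2 * (2 * r + 2)) j (by
        rw [show (2 * r + 1) * (2 * r + 1) = 1 + 2 * (2 * r + 2) * r by ring, Nat.add_mul_mod_self_left])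
      rw [Nat.mod_eq_of_lt (by omega : 2 * r + 1 < 2 * (2 * r + 2))] at h1
      have h2 : 2 ^ a % (2 * (2 * r + 2)) = 2 * r + 2 := by
        rw [h, Nat.add_mod, h1, Nat.mod_eq_of_lt (a := 1) (by omega), Nat.mod_eq_of_lt (by omega)]
      have hd : 2 * r + 2 ∣ 2 ^ a := by
        have h4 : 2 * r + 2 ∣ 2 ^ a % (2 * (2 * r + 2)) := h2.symm ▸ dvd_rfl
        exact (Nat.dvd_mod_iff ⟨2, mul_comm _ _⟩).mp h4
      obtain ⟨c, hca, hc⟩ := (Nat.dvd_prime_pow Nat.prime_two).mp hd
      have hlt : c < a := by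
        rcases hca.lt_or_eq with hlt | rfl
        · exact hlt
        · exfalso
          have h5 : (2 * r + 1) ^ 1 < (2 * r + 1) ^ (2 * j + 1) :=
            Nat.pow_lt_pow_right (by have := hq.two_le; omega) (by omega)
          rw [pow_one] at h5
          omega
      have h6 : 2 * (2 * r + 2) ∣ 2 ^ a := by
        rw [hc, ← pow_succ']
        exact pow_dvd_pow 2 hlt
      rw [Nat.mod_eq_zero_of_dvd h6] at h2
      omega
  · right
    have hq2 : q = 2 := by
      rcases hq.eq_two_or_odd with rfl | hq2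
      · rfl
      · exfalso
        have h1 : q ^ b % 2 = 1 := by simp [Nat.pow_mod, hq2]
        have h2 : p ^ a % 2 = 1 := by simp [Nat.pow_mod, hp2]
        omega
    subst hq2
    rcases Nat.eq_or_lt_of_le ha with rfl | ha1
    · left
      rw [pow_one] at h
      exact ⟨rfl, rfl, Nat.pow_of_pow_add_prime (by norm_num) (by omega) (h ▸ hp), h⟩
    · right
      obtain ⟨r, rfl⟩ : ∃ r, p = 2 * r + 1 := ⟨p / 2, by omega⟩
      have hr : 1 ≤ r := by have := hp.two_le; omega
      rcases Nat.even_or_odd a with ⟨j, rfl⟩ | ⟨j, rfl⟩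
      · obtain ⟨z, hz⟩ : ∃ z, (2 * r + 1) ^ j = z + 2 :=
          ⟨(2 * r + 1) ^ j - 2, by
            have : 2 * r + 1 ≤ (2 * r + 1) ^ j := Nat.le_self_pow (by omega) _
            omega⟩
        rw [pow_add, hz] at h
        have h1 : (z + 1) * (z + 3) = 2 ^ b := by nlinarith
        obtain ⟨u, -, hu⟩ := (Nat.dvd_prime_pow Nat.prime_two).mp (Dvd.intro _ h1)
        obtain ⟨v, -, hv⟩ := (Nat.dvd_prime_pow Nat.prime_two).mp (Dvd.intro_left _ h1)
        have hz1 : z = 1 := by
          have hz0 : z ≠ 0 := by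
            rintro rfl
            have h2 : (2 * r + 1) ^ j % 2 = 1 := by
              simp [Nat.pow_mod]
            omega
          rcases Nat.lt_or_ge u 2 with hu2 | hu2
          · interval_cases u <;> omega
          · exfalso
            have hv2 : u < v := (Nat.pow_lt_pow_iff_right (by norm_num)).mp
              (show 2 ^ u < 2 ^ v by omega)
            have h4u : 2 ^ 2 ∣ 2 ^ u := pow_dvd_pow 2 hu2
            have h4v : 2 ^ 2 ∣ 2 ^ v := pow_dvd_pow 2 (by omega)
            omega
        subst hz1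
        rw [pow_add, hz]
        constructor
        · norm_num
        · omega
      · exfalso
        have h1 := key (2 * r + 1) (2 * (2 * r)) j (by
          rw [show (2 * r + 1) * (2 * r + 1) = 1 + 2 * (2 * r) * (r + 1) by ring,
            Nat.add_mul_mod_self_left])
        rw [Nat.mod_eq_of_lt (by omega : 2 * r + 1 < 2 * (2 * r)) |>.trans rfl] at h1
        rw [h] at h1
        have h2 : 2 ^ b % (2 * (2 * r)) = 2 * r := by
          have := Nat.div_add_mod (2 ^ b + 1) (2 * (2 * r))
          rw [h1] at this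
          have e : 2 ^ b = 2 * r + 2 * (2 * r) * ((2 ^ b + 1) / (2 * (2 * r))) := by omega
          rw [e, Nat.add_mul_mod_self_left, Nat.mod_eq_of_lt (by omega)]
        have hd : 2 * r ∣ 2 ^ b :=
          (Nat.dvd_mod_iff ⟨2, mul_comm _ _⟩).mp (h2.symm ▸ dvd_rfl)
        obtain ⟨c, hcb, hc⟩ := (Nat.dvd_prime_pow Nat.prime_two).mp hd
        have hlt : c < b := by
          rcases hcb.lt_or_eq with hlt | rfl
          · exact hlt
          · exfalso
            have h5 : (2 * r + 1) ^ 1 < (2 * r + 1) ^ (2 * j + 1) :=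
              Nat.pow_lt_pow_right (by omega) (by omega)
            rw [pow_one] at h5
            omega
        have h6 : 2 * (2 * r) ∣ 2 ^ b := by
          rw [hc, ← pow_succ']
          exact pow_dvd_pow 2 hlt
        rw [Nat.mod_eq_zero_of_dvd h6] at h2
        omega

end Cfsg.Agent.S3784
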