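import Cfsg.Statements.S3785
import Cfsg.Agent.Transfer.FittingPrimeElements

set_option autoImplicit false
open Cfsg

namespace Cfsg.Agent.S3785

/-- Let G be a finite solvable group whose Fitting subgroup F(G) has odd order. If an element g of G commutes with every element of prime order of F(G), then g ∈ F(G). -/
theorem result {G : Type*} [Group G] [Finite G] (hG : Group.IsSolvable G) (hodd : Odd (Nat.card (Cfsg.fittingSubgroup G))) (g : G) (hg : ∀ x ∈ Cfsg.fittingSubgroup G, (orderOf x).Prime → g * x = x * g) : g ∈ Cfsg.fittingSubgroup G := by
  exact Transfer.FitPrime.mem_fitting hG hodd g hg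

end Cfsg.Agent.S3785
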