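import Cfsg.Statements.S3787
import Cfsg.Agent.Core.HallHigman.Wreath
-- import your own Cfsg.Agent.* helpers here

set_option autoImplicit false
open Cfsg

namespace Cfsg.Agent.S3787

open Agent.Core

theorem involves_of_mulEquiv {W : Type} [Group W] {A : Type*} [Group A] {B : Type*} [Group B] (e : A ≃* B)
    (h : Cfsg.Involves W A) : Cfsg.Involves W B := by
  obtain ⟨K, R, hR, ⟨f⟩⟩ := h
  have hn : ((R.map (e : A →* B)).subgroupOf (K.map (e : A →* B))) =
      (R.subgroupOf K).map ((e.subgroupMap K) : K →* (K.map (e : A →* B))) := by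
    ext ⟨y, hy⟩
    obtain ⟨x, hx, rfl⟩ := hy
    rw [Subgroup.mem_subgroupOf, Subgroup.mem_map]
    refine ⟨fun ⟨x', hx', he⟩ => ?_, fun ⟨z, hz, he⟩ => ⟨z, hz, congrArg Subtype.val he⟩⟩
    obtain rfl : x' = x := e.injective he
    exact ⟨⟨x', hx⟩, hx', rfl⟩
  have hn' : ((R.map (e : A →* B)).subgroupOf (K.map (e : A →* B))).Normal := by
    rw [hn]; exact hR.map _ (e.subgroupMap K).surjective
  haveI := hn'
  exact ⟨K.map (e : A →* B), R.map (e : A →* B), hn',
    ⟨(QuotientGroup.congr _ _ (e.subgroupMap K) hn.symm).symm.trans f⟩⟩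

/-- Let G be a finite p-soluble group, p an odd prime not of the form 2^k + 1, and suppose the wreath product C_p ≀ C_p (of order p^(p+1)) is not involved in a Sylow p-subgroup of G: no section of a Sylow p-subgroup is isomorphic to it. Then G has p-length at most 1. -/
theorem result {G : Type*} [Group G] [Finite G] {p : ℕ} [Fact p.Prime] (hp2 : p ≠ 2) (hnf : (¬ ∃ k : ℕ, p = 2 ^ k + 1)) (hG : Cfsg.IsPSolvable p G) (P : Sylow p G) (hwr : ∀ (W : Type) [Group W] [Finite W], (∃ (B : Subgroup W) (t : W), B.Normal ∧ IsMulCommutative B ∧ (∀ b ∈ B, b ^ p = 1) ∧ Nat.card B = p ^ p ∧ orderOf t = p ∧ t ∉ B ∧ Nat.card W = p ^ (p + 1) ∧ Nat.card ↥(B ⊓ Subgroup.centralizer ({t} : Set W)) = p) → ¬ Cfsg.Involves W ↥(P : Subgroup G)) : Cfsg.PLengthLE p 1 G := by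
  classical
  set G1 := G ⧸ pPrimeCore p G
  have hs1 : IsPSolvable p G1 := isPSolvable_quotient hG _
  have h01 : pPrimeCore p G1 = ⊥ := pPrimeCore_quotient_pPrimeCore p G
  rw [← pLengthLE_quotient_pPrimeCore_iff, pLengthLE_one_iff, pPrimePCore_eq_pCore h01, Nat.coprime_comm,
    (Fact.out : p.Prime).coprime_iff_not_dvd]
  intro hd
  set V := pCore p G1
  let P1 : Sylow p G1 := P.mapSurjective (QuotientGroup.mk'_surjective (pPrimeCore p G))
  let P2 : Sylow p (G1 ⧸ V) := P1.mapSurjective (QuotientGroup.mk'_surjective V)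
  obtain ⟨x, hx⟩ := exists_prime_orderOf_dvd_card' (G := (P2 : Subgroup (G1 ⧸ V))) p (by
    obtain ⟨k, hk⟩ := IsPGroup.iff_card.mp P2.isPGroup'
    rcases Nat.eq_zero_or_pos k with rfl | hk0
    · exact absurd (Subgroup.index_eq_card V ▸ hd) (fun h => P2.not_dvd_index (by
        rw [Subgroup.card_eq_one.mp hk, Subgroup.index_bot]; exact h))
    · exact hk ▸ dvd_pow_self p hk0.ne')
  rw [← Subgroup.orderOf_coe] at hx
  obtain ⟨g, hg, hgx⟩ := x.2
  rw [← hgx] at hx
  have hgV : g ∉ V := fun h => by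
    rw [show (QuotientGroup.mk' V g) = 1 from (QuotientGroup.eq_one_iff g).mpr h, orderOf_one] at hx
    exact (Fact.out : p.Prime).one_lt.ne hx
  have hgp : g ^ p ∈ V := (QuotientGroup.eq_one_iff _).mp (by
    show QuotientGroup.mk' V (g ^ p) = 1
    rw [map_pow]; exact orderOf_dvd_iff_pow_eq_one.mp hx.dvd)
  obtain ⟨M, _, _, _, π, L, hsurj, hadd, hinj, hconj⟩ := HH.exists_quotient_rep hs1 h01
  have hdeg : ((L.comp (QuotientGroup.mk' V)) g - 1) ^ (p - 1) ≠ 0 := by
    intro h0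
    rcases HH.theoremB_zmod L hinj (isPSolvable_quotient hs1 _) (pCore_quotient_pCore p G1) _ Nat.one_pos
      (show orderOf (QuotientGroup.mk' V g) = p ^ 1 by rw [pow_one, hx]) _ h0 with h | ⟨a, m, q, ha, hq, hm, he, -, -⟩
    · have := (Fact.out : p.Prime).two_le
      rw [pow_one] at h
      omega
    · exact hnf (HH.exception_odd hp2 (by omega) hm hq he).2
  obtain ⟨W, _, _, hW, hinv⟩ := HH.involves_wreath (P1 : Subgroup G1) (pCore_le_sylow P1) π
    (L.comp (QuotientGroup.mk' V)) hsurj hadd hconj g hg hgV hgp hdeg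
  let e : ↥(P : Subgroup G) ≃* ↥(P1 : Subgroup G1) :=
    MulEquiv.ofBijective ((QuotientGroup.mk' (pPrimeCore p G)).subgroupMap (P : Subgroup G) :
      ↥(P : Subgroup G) →* ↥(P1 : Subgroup G1)) ⟨by
      refine (MonoidHom.ker_eq_bot_iff _).mp ?_
      rw [eq_bot_iff]
      intro y hy
      refine Subgroup.mem_bot.mpr (Subtype.ext ?_)
      have hy' : (y : G) ∈ pPrimeCore p G := (QuotientGroup.eq_one_iff _).mp (congrArg Subtype.val hy)
      obtain ⟨k, hk⟩ := P.isPGroup' y
      exact orderOf_eq_one_iff.mp (Nat.eq_one_of_dvd_coprimes ((card_pPrimeCore_coprime p G).symm.pow_left k)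
        (orderOf_dvd_of_pow_eq_one (congrArg Subtype.val hk)) (Subgroup.orderOf_dvd_natCard _ hy')),
      MonoidHom.subgroupMap_surjective _ _⟩
  exact hwr W hW (involves_of_mulEquiv e.symm hinv)

end Cfsg.Agent.S3787
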