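import Cfsg.Statements.S3796
import Cfsg.Agent.Transfer.WardMain

set_option autoImplicit false
open Cfsg

namespace Cfsg.Agent.S3796

/-- Ward's Theorem: let G be a finite solvable group and A an elementary abelian group of automorphisms of G of order p² (p a prime) with no non-identity common fixed point. Then G has Fitting height at most 2: G has Fitting height at most m when there is a chain of normal subgroups 1 = F₀ ≤ F₁ ≤ ⋯ ≤ F_m = G with each F_{i+1}/F_i nilpotent. -/
theorem result {G : Type*} [Group G] [Finite G] (hG : Group.IsSolvable G) {p : ℕ} (hp : p.Prime) (A : Subgroup (MulAut G)) (hA : Cfsg.IsElementaryAbelian p A) (hcard : Nat.card A = p ^ 2) (hfpf : ∀ g : G, (∀ a ∈ A, a g = g) → g = 1) : ∃ F : Fin (2 + 1) → Subgroup G, F 0 = ⊥ ∧ F (Fin.last 2) = ⊤ ∧ Monotone F ∧ (∀ i, (F i).Normal) ∧ ∀ i : Fin 2, ∃ k : ℕ, (F i.succ).lowerCentralSeries k ≤ F i.castSucc := by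
  obtain ⟨k, hk⟩ := Cfsg.Agent.Transfer.Ward.fitting_height_le_two hG hp A hA hcard hfpf
  obtain ⟨m, hm⟩ := Subgroup.nilpotent_iff_lowerCentralSeries.mp hk
  refine ⟨![⊥, (⊤ : Subgroup G).lowerCentralSeries k, ⊤], rfl, rfl, ?_, ?_, ?_⟩
  · intro i j hij
    fin_cases i <;> fin_cases j <;> simp_all
  · intro i
    fin_cases i
    · show (⊥ : Subgroup G).Normal; infer_instance
    · show ((⊤ : Subgroup G).lowerCentralSeries k).Normal; infer_instance
    · show (⊤ : Subgroup G).Normal; infer_instance
  · intro i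
    fin_cases i
    · refine ⟨m, ?_⟩
      show ((⊤ : Subgroup G).lowerCentralSeries k).lowerCentralSeries m ≤ ⊥
      rw [← Subgroup.range_subtype ((⊤ : Subgroup G).lowerCentralSeries k), MonoidHom.range_eq_map,
        ← Subgroup.map_lowerCentralSeries, hm, Subgroup.map_bot]
    · exact ⟨k, le_rfl⟩

end Cfsg.Agent.S3796
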