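import Cfsg.Statements.S3798
import Cfsg.Agent.Core.PLength
import Cfsg.Agent.Core.Frattini
import Cfsg.Agent.Core.CoprimeAction
import Cfsg.Agent.FGS3.FixOrderFour
-- import your own Cfsg.Agent.* helpers here

set_option autoImplicit false
set_option linter.style.haveILetI false
open Cfsg

namespace Cfsg.Agent.S3798

open Cfsg.Agent.Core

theorem pPrimePCore_top_or {G : Type*} [Group G] [Finite G] {p : ℕ} [hpf : Fact p.Prime] (hp : p ≠ 2)
    (hdvd : p ∣ Nat.card G) (hG : Cfsg.IsPSolvable p G) (h0 : pPrimeCore p G = ⊥)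
    (htrans : ∀ U V : Subgroup G, Nat.card U = p → Nat.card V = p → ∃ a : MulAut G, U.map a.toMonoidHom = V) :
    Cfsg.PLengthLE p 1 G := by
  set V := pCore p G with hVdef
  rw [pLengthLE_one_iff, pPrimePCore_eq_pCore h0, ← hVdef]
  have hVp : IsPGroup p V := isPGroup_pCore p G
  have hCV := centralizer_pCore_le hG h0
  rw [← hVdef] at hCV
  have hinvV : ∀ a : MulAut G, V.map a.toMonoidHom = V := fun a => pCore_map_equiv a
  have hVne : V ≠ ⊥ := by
    intro hb
    rw [hb, Subgroup.coe_bot] at hCV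
    have hone : ∀ g : G, g = 1 := fun g => Subgroup.mem_bot.mp (hCV (by simp [Subgroup.mem_centralizer_iff]))
    haveI : Subsingleton G := ⟨fun a b => (hone a).trans (hone b).symm⟩
    rw [Nat.card_unique] at hdvd
    exact hpf.out.not_dvd_one hdvd
  -- a central element of order `p`
  haveI : Nontrivial V := (Subgroup.nontrivial_iff_ne_bot _).mpr hVne
  haveI := hVp.center_nontrivial
  obtain ⟨k, hkpos, hk⟩ : ∃ k, 0 < k ∧ Nat.card (Subgroup.center V) = p ^ k :=
    (hVp.to_subgroup _).nontrivial_iff_card.mp inferInstance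
  obtain ⟨z, hz⟩ := exists_prime_orderOf_dvd_card' (G := Subgroup.center V) p (hk ▸ dvd_pow_self p hkpos.ne')
  have hzo : orderOf ((z : V) : G) = p := by rw [Subgroup.orderOf_coe, Subgroup.orderOf_coe, hz]
  have hord : ∀ x : G, orderOf x = p → x ∈ V ∧ ∀ v ∈ V, v * x = x * v := by
    intro x hx
    obtain ⟨a, ha⟩ := htrans (Subgroup.zpowers ((z : V) : G)) (Subgroup.zpowers x)
      (by rw [Nat.card_zpowers, hzo]) (by rw [Nat.card_zpowers, hx])
    have hxm : x ∈ (Subgroup.zpowers ((z : V) : G)).map a.toMonoidHom := by rw [ha]; exact Subgroup.mem_zpowers x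
    obtain ⟨w, hw, rfl⟩ := hxm
    obtain ⟨i, rfl⟩ := Subgroup.mem_zpowers_iff.mp hw
    refine ⟨?_, fun v hv => ?_⟩
    · exact (hinvV a).le ⟨_, V.zpow_mem (z : V).2 i, rfl⟩
    · obtain ⟨u, hu, rfl⟩ := (hinvV a).ge hv
      rw [← map_mul, ← map_mul]
      congr 1
      have hc : Commute (⟨u, hu⟩ : V) (z : V) := (Subgroup.mem_center_iff.mp z.2 ⟨u, hu⟩)
      exact ((congrArg Subtype.val (hc.zpow_right i).eq) : _)
  by_contra hcop
  have hpidx : p ∣ V.index := by
    by_contra hnd
    exact hcop ((Nat.coprime_comm).mp ((hpf.out.coprime_iff_not_dvd).mpr hnd))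
  -- `O_{p,p'}`
  set N' := pPrimeCore p (G ⧸ V) with hN'
  have hN'ne : N' ≠ ⊥ := by
    haveI : Nontrivial (G ⧸ V) := QuotientGroup.nontrivial_iff.mpr
      (fun e => by rw [e, Subgroup.index_top] at hpidx; exact hpf.out.not_dvd_one hpidx)
    intro hb
    rcases piCore_ne_bot_or (isPiSeparable_of_isPSolvable (isPSolvable_quotient hG V)) with h | h
    · rw [← pCore_eq_piCore] at h; exact h (pCore_quotient_pCore p G)
    · rw [← pPrimeCore_eq_piCore, ← hN'] at h; exact h hb
  set M := N'.comap (QuotientGroup.mk' V) with hM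
  have hVM : V ≤ M := QuotientGroup.le_comap_mk' V N'
  have hMcard : Nat.card M = Nat.card N' * Nat.card V := card_comap_mk V N'
  obtain ⟨j, hj⟩ := IsPGroup.iff_card.mp hVp
  have hcopN : (Nat.card V).Coprime (Nat.card N') := by
    rw [hj]; exact (card_pPrimeCore_coprime p (G ⧸ V)).symm.pow_left j
  have hVidx : (V.subgroupOf M).index = Nat.card N' := by
    have h1 := Subgroup.card_mul_index (V.subgroupOf M)
    rw [card_subgroupOf hVM, hMcard, mul_comm (Nat.card N')] at h1
    exact Nat.eq_of_mul_eq_mul_left Nat.card_pos h1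
  obtain ⟨K₀, hK₀⟩ := Subgroup.exists_right_complement'_of_coprime (N := V.subgroupOf M)
    (by rw [card_subgroupOf hVM, hVidx]; exact hcopN)
  set K := K₀.map M.subtype with hK
  have hKM : K ≤ M := Subgroup.map_subtype_le _
  have hKcard : Nat.card K = Nat.card N' := by
    rw [hK, card_map_subtype, card_eq_index_of_isComplement' hK₀, hVidx]
  have hKV : K ⊓ V = ⊥ := Subgroup.inf_eq_bot_of_coprime (by rw [hKcard]; exact hcopN.symm)
  have hMinv : ∀ a : MulAut G, M.map a.toMonoidHom = M := by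
    intro a
    have hcard : Nat.card (M.map a.toMonoidHom) = Nat.card M := Nat.card_congr (a.subgroupMap M).toEquiv.symm
    have hVL : V ≤ M.map a.toMonoidHom := (hinvV a).ge.trans (Subgroup.map_mono hVM)
    haveI : (M.map a.toMonoidHom).Normal := Subgroup.Normal.map inferInstance _ a.surjective
    refine Subgroup.eq_of_le_of_card_ge ?_ hcard.ge
    conv_rhs => rw [hM]
    rw [← Subgroup.map_le_iff_le_comap]
    refine le_pPrimeCore (Subgroup.Normal.map inferInstance _ (QuotientGroup.mk'_surjective V)) ?_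
    have h1 := card_comap_mk V ((M.map a.toMonoidHom).map (QuotientGroup.mk' V))
    rw [Subgroup.comap_map_eq, QuotientGroup.ker_mk', sup_eq_left.mpr hVL, hcard, hMcard] at h1
    rw [← Nat.eq_of_mul_eq_mul_right Nat.card_pos h1]
    exact card_pPrimeCore_coprime p (G ⧸ V)
  -- `K` has no fixed point in `V`
  have hfpf : ∀ v ∈ V, (∀ c ∈ K, c * v = v * c) → v = 1 := by
    intro v hv hcv
    by_contra hv1
    obtain ⟨i, hi⟩ := hVp ⟨v, hv⟩
    obtain ⟨u, hu, huo⟩ : ∃ u ∈ Subgroup.zpowers v, orderOf u = p := by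
      have hd : p ∣ Nat.card (Subgroup.zpowers v) := by
        rw [Nat.card_zpowers]
        obtain ⟨t, -, ht⟩ := (Nat.dvd_prime_pow hpf.out).mp (orderOf_dvd_of_pow_eq_one (show v ^ p ^ i = 1 from congrArg Subtype.val hi))
        rw [ht]
        refine dvd_pow_self p fun h0' => hv1 (orderOf_eq_one_iff.mp (by rw [ht, h0', pow_zero]))
      obtain ⟨u, hu⟩ := exists_prime_orderOf_dvd_card' (G := Subgroup.zpowers v) p hd
      exact ⟨u, u.2, by rw [Subgroup.orderOf_coe, hu]⟩
    have huM : ∀ m ∈ M, m * u = u * m := by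
      intro m hm
      obtain ⟨⟨⟨w, hw⟩, ⟨c, hc⟩⟩, he⟩ := hK₀.surjective ⟨m, hm⟩
      have he' : (w : G) * c = m := congrArg Subtype.val he
      rw [← he']
      obtain ⟨t, rfl⟩ := Subgroup.mem_zpowers_iff.mp hu
      have h1 : Commute (c : G) (v ^ t) := Commute.zpow_right (hcv _ ⟨c, hc, rfl⟩) t
      have h2 : Commute (w : G) (v ^ t) := (hord _ huo).2 _ hw
      exact (h2.mul_left h1).eq
    have hall : ∀ x : G, orderOf x = p → ∀ m ∈ M, m * x = x * m := by
      intro x hx m hm
      obtain ⟨a, ha⟩ := htrans (Subgroup.zpowers u) (Subgroup.zpowers x)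
        (by rw [Nat.card_zpowers, huo]) (by rw [Nat.card_zpowers, hx])
      have hxm : x ∈ (Subgroup.zpowers u).map a.toMonoidHom := by rw [ha]; exact Subgroup.mem_zpowers x
      obtain ⟨w, hw, rfl⟩ := hxm
      obtain ⟨t, rfl⟩ := Subgroup.mem_zpowers_iff.mp hw
      rw [← hMinv a] at hm
      obtain ⟨m₀, hm₀, rfl⟩ := hm
      rw [← map_mul, ← map_mul]
      congr 1
      exact Commute.zpow_right (huM m₀ hm₀) t
    have hKC : K ≤ Subgroup.centralizer (V : Set G) := by
      intro c hc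
      refine Subgroup.mem_centralizer_iff.mpr fun y hy => ?_
      have hcop' : (orderOf c).Coprime p := by
        refine Nat.Coprime.coprime_dvd_left (Subgroup.orderOf_dvd_natCard K hc) ?_
        rw [hKcard]; exact card_pPrimeCore_coprime p (G ⧸ V)
      have hconj : ∀ y ∈ V, c * y * c⁻¹ ∈ V := fun y hy => (inferInstance : V.Normal).conj_mem y hy c
      have hfix : ∀ y ∈ V, y ^ p = 1 ∨ (p = 2 ∧ y ^ 4 = 1) → c * y * c⁻¹ = y := by
        intro y hy hy'
        rcases hy' with hy' | ⟨h2, -⟩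
        · by_cases hy1 : y = 1
          · simp [hy1]
          rw [mul_inv_eq_iff_eq_mul]
          exact hall y (orderOf_eq_prime hy' hy1) c (hKM hc)
        · exact absurd h2 hp
      have := Cfsg.Agent.FGS3.fixed_of_fixed_order_p_four c hcop' _ V le_rfl hVp hconj hfix y hy
      rw [mul_inv_eq_iff_eq_mul] at this
      exact this.symm
    refine hN'ne ?_
    rw [← Subgroup.card_eq_one, ← hKcard, Subgroup.card_eq_one, eq_bot_iff, ← hKV]
    exact le_inf le_rfl (hKC.trans hCV)
  -- Frattini argument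
  set R := Subgroup.normalizer (K : Set G) with hR
  haveI : Group.IsNilpotent V := hVp.isNilpotent
  have hsup : V ⊔ R = ⊤ := by
    rw [eq_top_iff]
    intro g _
    have hgM : K.map (MulAut.conj g).toMonoidHom ≤ M := by
      rw [← hMinv (MulAut.conj g)]
      exact Subgroup.map_mono hKM
    have hVK : M ≤ V ⊔ K := by
      intro m hm
      obtain ⟨⟨⟨w, hw⟩, ⟨c, hc⟩⟩, he⟩ := hK₀.surjective ⟨m, hm⟩
      have he' : (w : G) * c = m := congrArg Subtype.val he
      rw [← he']
      exact Subgroup.mul_mem_sup hw ⟨c, hc, rfl⟩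
    obtain ⟨x, hx, hxe⟩ := exists_conj_complement_general V K (K.map (MulAut.conj g).toMonoidHom)
      (Or.inr inferInstance) (by rw [Subgroup.normalizer_eq_top]; exact le_top) (hgM.trans hVK)
      (Nat.card_congr ((MulAut.conj g).subgroupMap K).toEquiv.symm) (by rw [hKcard]; exact hcopN.symm)
    have hmemR : x⁻¹ * g ∈ R := by
      rw [hR, Subgroup.mem_normalizer_iff_map_conj_eq]
      show K.map (MulAut.conj (x⁻¹ * g)).toMonoidHom = K
      have hcomp : (MulAut.conj (x⁻¹ * g)).toMonoidHom =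
          (MulAut.conj x⁻¹).toMonoidHom.comp (MulAut.conj g).toMonoidHom :=
        MonoidHom.ext fun y => by simp [mul_assoc]
      rw [hcomp, ← Subgroup.map_map, hxe, Subgroup.map_map]
      convert Subgroup.map_id K
      ext y
      simp [mul_assoc]
    have := Subgroup.mul_mem_sup hx hmemR
    rwa [mul_inv_cancel_left] at this
  have hVR : V ⊓ R = ⊥ := by
    rw [eq_bot_iff]
    rintro v ⟨hv, hvR⟩
    refine Subgroup.mem_bot.mpr (hfpf v hv fun c hc => ?_)
    have h1 : v * c * v⁻¹ * c⁻¹ ∈ K := K.mul_mem ((Subgroup.mem_normalizer_iff.mp hvR c).mp hc) (K.inv_mem hc)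
    have h2 : v * c * v⁻¹ * c⁻¹ ∈ V := by
      rw [show v * c * v⁻¹ * c⁻¹ = v * (c * v⁻¹ * c⁻¹) by group]
      exact V.mul_mem hv ((inferInstance : V.Normal).conj_mem _ (V.inv_mem hv) c)
    have h3 : v * c * v⁻¹ * c⁻¹ = 1 := Subgroup.mem_bot.mp (hKV ▸ Subgroup.mem_inf.mpr ⟨h1, h2⟩)
    rw [mul_inv_eq_one, mul_inv_eq_iff_eq_mul] at h3
    exact h3.symm
  have hcardR : Nat.card R = V.index :=
    card_eq_index_of_isComplement' (isComplement'_of_inf_eq_bot_of_sup_eq_top hVR hsup)
  obtain ⟨x, hx⟩ := exists_prime_orderOf_dvd_card' (G := R) p (hcardR ▸ hpidx)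
  have hxo : orderOf (x : G) = p := by rw [Subgroup.orderOf_coe, hx]
  have h1 : (x : G) = 1 := Subgroup.mem_bot.mp (hVR ▸ Subgroup.mem_inf.mpr ⟨(hord _ hxo).1, x.2⟩)
  rw [h1, orderOf_one] at hxo
  exact hpf.out.one_lt.ne hxo

/-- The Gaschütz–Yen Theorem: let G be a finite p-soluble group, p an odd prime dividing its order, such that the automorphism group of G permutes the subgroups of G of order p transitively. Then G has p-length at most 1. -/
theorem result {G : Type*} [Group G] [Finite G] {p : ℕ} [Fact p.Prime] (hp : p ≠ 2) (hdvd : p ∣ Nat.card G) (hG : Cfsg.IsPSolvable p G) (htrans : ∀ U V : Subgroup G, Nat.card U = p → Nat.card V = p → ∃ a : MulAut G, U.map a.toMonoidHom = V) : Cfsg.PLengthLE p 1 G := by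
  rw [← pLengthLE_quotient_pPrimeCore_iff]
  have hnd : ∀ x ∈ pPrimeCore p G, x ^ p = 1 → x = 1 := fun x hx hxp => orderOf_eq_one_iff.mp
    (Nat.eq_one_of_dvd_coprimes (card_pPrimeCore_coprime p G) (Subgroup.orderOf_dvd_natCard _ hx)
      (orderOf_dvd_of_pow_eq_one hxp))
  refine pPrimePCore_top_or hp ?_ (isPSolvable_quotient hG _) (pPrimeCore_quotient_pPrimeCore p G) ?_
  · obtain ⟨x, hx⟩ := exists_prime_orderOf_dvd_card' (G := G) p hdvd
    have h := orderOf_eq_prime (x := QuotientGroup.mk' (pPrimeCore p G) x) (p := p)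
      (by rw [← map_pow, orderOf_dvd_iff_pow_eq_one.mp hx.dvd, map_one]) (fun h => by
        have h1 : x = 1 := hnd x ((QuotientGroup.eq_one_iff x).mp h) (orderOf_dvd_iff_pow_eq_one.mp hx.dvd)
        rw [h1, orderOf_one] at hx
        exact (Fact.out : p.Prime).one_lt.ne hx)
    have h2 := orderOf_dvd_natCard (QuotientGroup.mk' (pPrimeCore p G) x)
    rwa [h] at h2
  · have hlift : ∀ U : Subgroup (G ⧸ pPrimeCore p G), Nat.card U = p →
        ∃ U₀ : Subgroup G, Nat.card U₀ = p ∧ U₀.map (QuotientGroup.mk' _) = U := by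
      intro U hU
      obtain ⟨x, hx⟩ := exists_prime_orderOf_dvd_card' (G := U.comap (QuotientGroup.mk' (pPrimeCore p G))) p
        (by rw [card_comap_mk, hU]; exact dvd_mul_right _ _)
      have hxo : orderOf (x : G) = p := by rw [Subgroup.orderOf_coe, hx]
      refine ⟨Subgroup.zpowers (x : G), by rw [Nat.card_zpowers, hxo], ?_⟩
      rw [MonoidHom.map_zpowers]
      refine Subgroup.eq_of_le_of_card_ge (Subgroup.zpowers_le.mpr x.2) ?_
      rw [hU, Nat.card_zpowers, orderOf_eq_prime (p := p) (by rw [← map_pow, orderOf_dvd_iff_pow_eq_one.mp hxo.dvd, map_one])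
        (fun h => by
          have h1 : (x : G) = 1 := hnd _ ((QuotientGroup.eq_one_iff _).mp h) (orderOf_dvd_iff_pow_eq_one.mp hxo.dvd)
          rw [h1, orderOf_one] at hxo
          exact (Fact.out : p.Prime).one_lt.ne hxo)]
    intro U W hU hW
    obtain ⟨U₀, hU₀, rfl⟩ := hlift U hU
    obtain ⟨W₀, hW₀, rfl⟩ := hlift W hW
    obtain ⟨a, rfl⟩ := htrans U₀ W₀ hU₀ hW₀
    refine ⟨QuotientGroup.congr _ _ a (pPrimeCore_map_equiv a), ?_⟩
    rw [Subgroup.map_map, Subgroup.map_map]
    rfl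

end Cfsg.Agent.S3798
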