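import Cfsg.Statements.S3799
import Cfsg.Agent.Transfer.Heisenberg
import Cfsg.Agent.FGS3.PGroupFrattini

set_option autoImplicit false
open scoped commutatorElement
open Cfsg

namespace Cfsg.Agent.S3799

/-- For every odd prime p and every n ≥ 1 there is an extraspecial p-group of order p^(1+2n) and exponent p; concretely, the general linear group of degree n + 2 over the field with p elements contains such a subgroup. -/
theorem result (p : ℕ) [Fact p.Prime] (hp : p ≠ 2) (n : ℕ) (hn : 1 ≤ n) : ∃ E : Subgroup (Matrix.GeneralLinearGroup (Fin (n + 2)) (ZMod p)), Cfsg.IsExtraspecial p ↥E ∧ Nat.card E = p ^ (1 + 2 * n) ∧ ∀ x ∈ E, x ^ p = 1 := by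
  classical
  have hpp : p.Prime := Fact.out
  set E := Cfsg.Agent.Transfer.Heis.heis n (ZMod p) with hE
  let el : (Fin n → ZMod p) × (Fin n → ZMod p) × ZMod p → E := fun v =>
    ⟨Cfsg.Agent.Transfer.Heis.elt v, v, rfl⟩
  have hel : Function.Bijective el := ⟨fun v w h => Cfsg.Agent.Transfer.Heis.elt_injective
    (congrArg Subtype.val h), fun x => by obtain ⟨v, hv⟩ := x.2; exact ⟨v, Subtype.ext hv⟩⟩
  have hcard : Nat.card E = p ^ (1 + 2 * n) := by
    rw [← Nat.card_eq_of_bijective el hel]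
    simp only [Nat.card_prod, Nat.card_fun, Nat.card_fin, Nat.card_zmod]
    ring
  have hmul : ∀ v w, el v * el w = el (v.1 + w.1, v.2.1 + w.2.1, v.2.2 + w.2.2 + dotProduct v.1 w.2.1) :=
    fun v w => Subtype.ext (Cfsg.Agent.Transfer.Heis.elt_mul v w)
  have hexp : ∀ x : E, x ^ p = 1 := by
    intro x
    obtain ⟨v, rfl⟩ := hel.2 x
    apply Subtype.ext
    show Cfsg.Agent.Transfer.Heis.elt v ^ p = 1
    rw [Cfsg.Agent.Transfer.Heis.elt_pow, ← Cfsg.Agent.Transfer.Heis.elt_zero]
    congr 1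
    have h2 : ((p.choose 2 : ℕ) : ZMod p) = 0 := by
      rw [ZMod.natCast_eq_zero_iff]
      exact hpp.dvd_choose_self two_ne_zero (lt_of_le_of_ne hpp.two_le (Ne.symm hp))
    simp [h2]
  have hEp : IsPGroup p E := fun x => ⟨1, by rw [pow_one]; exact hexp x⟩
  have hcomm : ∀ v w, el v * el w = el (0, 0, dotProduct v.1 w.2.1 - dotProduct w.1 v.2.1) * (el w * el v) := by
    intro v w
    rw [hmul, hmul, hmul]
    congr 1
    refine Prod.ext (by simp [add_comm]) (Prod.ext (by simp [add_comm]) ?_)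
    simp only [zero_dotProduct]
    ring
  have hzc : ∀ z, el (0, 0, z) ∈ Subgroup.center E := fun z => by
    rw [Subgroup.mem_center_iff]
    intro x
    obtain ⟨v, rfl⟩ := hel.2 x
    rw [hmul, hmul]
    congr 1
    refine Prod.ext (by simp) (Prod.ext (by simp) ?_)
    simp [add_comm]
  have hbr : ∀ v w, ⁅el v, el w⁆ = el (0, 0, dotProduct v.1 w.2.1 - dotProduct w.1 v.2.1) := fun v w => by
    rw [commutatorElement_def, hcomm]
    group
  have hcenter : ∀ v, el v ∈ Subgroup.center E → v.1 = 0 ∧ v.2.1 = 0 := by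
    intro v hv
    have key : ∀ w : (Fin n → ZMod p) × (Fin n → ZMod p) × ZMod p, dotProduct v.1 w.2.1 - dotProduct w.1 v.2.1 = 0 := fun w => by
      have h1 : ⁅el v, el w⁆ = 1 :=
        commutatorElement_eq_one_iff_mul_comm.mpr ((Subgroup.mem_center_iff.mp hv (el w)).symm)
      rw [hbr] at h1
      have h2 : el (0, 0, dotProduct v.1 w.2.1 - dotProduct w.1 v.2.1) = el 0 :=
        h1.trans (Subtype.ext Cfsg.Agent.Transfer.Heis.elt_zero.symm)
      exact congrArg (fun u => u.2.2) (hel.1 h2)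
    refine ⟨funext fun i => ?_, funext fun i => ?_⟩
    · simpa using key (0, Pi.single i 1, 0)
    · simpa using key (Pi.single i 1, 0, 0)
  have hzcard : Nat.card (Subgroup.center E) = p := by
    have e : Function.Bijective (fun z : ZMod p => (⟨el (0, 0, z), hzc z⟩ : Subgroup.center E)) := by
      refine ⟨fun z z' h => congrArg (fun u => u.2.2) (hel.1 (congrArg Subtype.val h)), fun x => ?_⟩
      obtain ⟨v, hv⟩ := hel.2 x.1
      obtain ⟨h1, h2⟩ := hcenter v (hv ▸ x.2)
      refine ⟨v.2.2, Subtype.ext ?_⟩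
      show el (0, 0, v.2.2) = x.1
      rw [← hv]
      exact congrArg el (Prod.ext h1.symm (Prod.ext h2.symm rfl) : ((0, 0, v.2.2) : (Fin n → ZMod p) × (Fin n → ZMod p) × ZMod p) = v)
    rw [← Nat.card_eq_of_bijective _ e, Nat.card_zmod]
  have hle : commutator E ≤ Subgroup.center E := by
    rw [commutator_def, Subgroup.commutator_le]
    intro x _ y _
    obtain ⟨v, rfl⟩ := hel.2 x
    obtain ⟨w, rfl⟩ := hel.2 y
    rw [hbr]
    exact hzc _
  have hZ : commutator E = Subgroup.center E := by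
    refine le_antisymm hle fun x hx => ?_
    obtain ⟨v, rfl⟩ := hel.2 x
    obtain ⟨h1, h2⟩ := hcenter v hx
    have h3 : el v = ⁅el (Pi.single ⟨0, hn⟩ v.2.2, 0, 0), el (0, Pi.single ⟨0, hn⟩ 1, 0)⁆ := by
      rw [hbr]
      congr 1
      refine Prod.ext h1 (Prod.ext h2 ?_)
      simp
    rw [h3, commutator_def]
    exact Subgroup.commutator_mem_commutator (Subgroup.mem_top _) (Subgroup.mem_top _)
  refine ⟨E, ⟨⟨hEp, ?_, hZ⟩, hzcard⟩, hcard, fun x hx => congrArg Subtype.val (hexp ⟨x, hx⟩)⟩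
  exact le_antisymm (Cfsg.Agent.FGS3.frattini_le_of_elementary (p := p) hle
    (fun a => by rw [hexp a]; exact Subgroup.one_mem _))
    (hZ ▸ Cfsg.Agent.FGS3.commutator_le_frattini hEp)

end Cfsg.Agent.S3799
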