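import Cfsg.Statements.S3800
import Cfsg.Agent.Transfer.Small
import Cfsg.Agent.Core.PiNumber

set_option autoImplicit false
open Cfsg

namespace Cfsg.Agent.S3800

/-- Let G be a finite group, N a normal subgroup of G whose order is prime to p, and P a p-subgroup of G. Then in G/N the normalizer of the image of P is the image of N_G(P), and the centralizer of the image of P is the image of C_G(P). -/
theorem result {G : Type*} [Group G] [Finite G] {p : ℕ} [Fact p.Prime] (N : Subgroup G) [N.Normal] (hN : (Nat.card N).Coprime p) (P : Subgroup G) (hP : IsPGroup p P) : Subgroup.normalizer ((P.map (QuotientGroup.mk' N)) : Set (G ⧸ N)) = (Subgroup.normalizer (P : Set G)).map (QuotientGroup.mk' N) ∧ Subgroup.centralizer ((P.map (QuotientGroup.mk' N)) : Set (G ⧸ N)) = (Subgroup.centralizer (P : Set G)).map (QuotientGroup.mk' N) := by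
  set q := QuotientGroup.mk' N with hq
  have hP1 : ∀ y, y ∈ P → y ∈ N → y = 1 := fun y hyP hyN => congrArg Subtype.val
    (Cfsg.Agent.Transfer.eq_one_of_coprime_orderOf hP (g := (⟨y, hyP⟩ : P)) (by
      rw [← Subgroup.orderOf_coe]
      exact Nat.Coprime.coprime_dvd_left (Subgroup.orderOf_dvd_natCard _ hyN) hN))
  set J := (P.map q).comap q with hJ
  have hJmem : ∀ y, y ∈ J → ∃ r ∈ P, ∃ n ∈ N, y = r * n := by
    rintro y ⟨r, hr, e⟩
    exact ⟨r, hr, r⁻¹ * y, QuotientGroup.eq.mp e, by group⟩
  have hidx : ¬ p ∣ (P.subgroupOf J).index := by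
    have h1 : Nat.card J = Nat.card P * Nat.card N := by
      have hinj : Function.Injective (fun x : P => q x) := by
        intro a b hab
        have := hP1 _ (mul_mem (inv_mem a.2) b.2) (QuotientGroup.eq.mp hab)
        exact Subtype.ext (inv_mul_eq_one.mp this)
      rw [hJ, Core.card_comap_mk N, ← SetLike.coe_sort_coe, Subgroup.coe_map, Set.image_eq_range]
      exact congrArg (· * Nat.card N) (Nat.card_range_of_injective hinj)
    have h2 := Subgroup.card_mul_index (P.subgroupOf J)
    rw [Nat.card_congr (Subgroup.subgroupOfEquivOfLe (show P ≤ J from fun y hy => ⟨y, hy, rfl⟩)).toEquiv,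
      h1] at h2
    rw [Nat.eq_of_mul_eq_mul_left Nat.card_pos h2]
    exact (Fact.out : p.Prime).coprime_iff_not_dvd.mp hN.symm
  let S : Sylow p J := IsPGroup.toSylow (P := P.subgroupOf J) hP.comap_subtype hidx
  have hnorm : Subgroup.normalizer (((P.map q) : Subgroup (G ⧸ N)) : Set (G ⧸ N)) =
      (Subgroup.normalizer (P : Set G)).map q := by
    apply le_antisymm
    · intro y hy
      obtain ⟨g, rfl⟩ := QuotientGroup.mk'_surjective N y
      have hgJ : P.map (MulAut.conj g).toMonoidHom ≤ J := by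
        rintro _ ⟨r, hr, rfl⟩
        show q (g * r * g⁻¹) ∈ P.map q
        rw [map_mul, map_mul, map_inv]
        exact (Subgroup.mem_normalizer_iff.mp hy _).mp (Subgroup.mem_map_of_mem _ hr)
      obtain ⟨c, hc⟩ := Cfsg.Agent.Transfer.exists_map_conj_le_sylow S
        ((hP.map (MulAut.conj g).toMonoidHom).comap_subtype (K := J))
      have hcg : (c : G) * g ∈ Subgroup.normalizer (P : Set G) := by
        rw [Cfsg.Agent.Transfer.mem_normalizer_iff_map_conj]
        refine Subgroup.eq_of_le_of_card_ge ?_ (Cfsg.Agent.Transfer.card_map_conj _ _).ge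
        rw [← Cfsg.Agent.Transfer.map_conj_mul]
        rintro _ ⟨x, hx, rfl⟩
        exact hc ⟨⟨x, hgJ hx⟩, hx, rfl⟩
      obtain ⟨r, hr, n, hn, hrn⟩ := hJmem c c.2
      refine ⟨r⁻¹ * ((c : G) * g), mul_mem (inv_mem (Subgroup.le_normalizer hr)) hcg, ?_⟩
      rw [hrn, show r⁻¹ * (r * n * g) = n * g by group, map_mul,
        show q n = 1 from (QuotientGroup.eq_one_iff n).mpr hn, one_mul]
    · rintro _ ⟨n, hn, rfl⟩
      rw [Cfsg.Agent.Transfer.mem_normalizer_iff_map_conj]
      conv_rhs => rw [← Cfsg.Agent.Transfer.mem_normalizer_iff_map_conj.mp hn]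
      rw [Subgroup.map_map, Subgroup.map_map]
      congr 1
  refine ⟨hnorm, le_antisymm (fun y hy => ?_) ?_⟩
  · have hy' : y ∈ Subgroup.normalizer (((P.map q) : Subgroup (G ⧸ N)) : Set (G ⧸ N)) := by
      rw [Subgroup.mem_normalizer_iff]
      intro z
      constructor
      · intro hz
        rw [← Subgroup.mem_centralizer_iff.mp hy z hz, mul_inv_cancel_right]
        exact hz
      · intro hz
        have h := Subgroup.mem_centralizer_iff.mp hy _ hz
        have : y * z * y⁻¹ = z := by
          have := congrArg (fun t => y⁻¹ * t) h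
          simpa [mul_assoc] using this.symm
        exact this ▸ hz
    obtain ⟨m, hm, rfl⟩ : y ∈ (Subgroup.normalizer (P : Set G)).map q := hnorm ▸ hy'
    refine ⟨m, ?_, rfl⟩
    rw [SetLike.mem_coe, Subgroup.mem_centralizer_iff]
    intro r hr
    have h1 : r * m * r⁻¹ * m⁻¹ ∈ N := by
      rw [← QuotientGroup.eq_one_iff, ← QuotientGroup.mk'_apply, ← hq, map_mul, map_mul, map_mul,
        map_inv, map_inv, Subgroup.mem_centralizer_iff.mp hy _ (Subgroup.mem_map_of_mem q hr)]
      group
    have h2 : r * m * r⁻¹ * m⁻¹ ∈ P := by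
      rw [mul_assoc r m, mul_assoc]
      exact P.mul_mem hr ((Subgroup.mem_normalizer_iff.mp hm _).mp (P.inv_mem hr))
    exact mul_inv_eq_iff_eq_mul.mp (mul_inv_eq_one.mp (hP1 _ h2 h1))
  · rintro _ ⟨c, hc, rfl⟩
    rw [Subgroup.mem_centralizer_iff]
    rintro _ ⟨r, hr, rfl⟩
    rw [← map_mul, ← map_mul, Subgroup.mem_centralizer_iff.mp hc r hr]

end Cfsg.Agent.S3800
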