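import Cfsg.Statements.S3950
import Cfsg.Agent.FGS2.CExt

set_option autoImplicit false
open Cfsg

namespace Cfsg.Agent.S3950

open Cfsg.Agent.FGS2
open scoped commutatorElement

theorem exists_two_homs {G : Type*} [CommGroup G] [Finite G] (h : ¬ IsCyclic G) :
    ∃ p : ℕ, p.Prime ∧ ∃ (f f' : G →* Multiplicative (ZMod p)) (g g' : G),
      (f g).toAdd = 1 ∧ (f' g).toAdd = 0 ∧ (f g').toAdd = 0 ∧ (f' g').toAdd = 1 := by
  classical
  obtain ⟨ι, _, n, hn, ⟨e⟩⟩ := CommGroup.equiv_prod_multiplicative_zmod_of_finite G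
  by_cases hco : Pairwise fun i j => Nat.Coprime (n i) (n j)
  · refine absurd ?_ h
    have : Finite (Multiplicative (ZMod (∏ i, n i))) := by
      have : NeZero (∏ i, n i) :=
        ⟨Finset.prod_ne_zero_iff.2 fun i _ => (Nat.lt_trans zero_lt_one (hn i)).ne'⟩
      infer_instance
    let E : G ≃* Multiplicative (ZMod (∏ i, n i)) :=
      e.trans ((MulEquiv.piMultiplicative fun i => ZMod (n i)).symm.trans
        (AddEquiv.toMultiplicative (ZMod.prodEquivPi n hco).toAddEquiv.symm))
    exact isCyclic_of_injective E.toMonoidHom E.injective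
  · simp only [Pairwise, not_forall] at hco
    obtain ⟨i, j, hij, hc⟩ := hco
    obtain ⟨p, hp, hpi, hpj⟩ := Nat.Prime.not_coprime_iff_dvd.1 hc
    let pr : ∀ k, p ∣ n k → (G →* Multiplicative (ZMod p)) := fun k hk =>
      (AddMonoidHom.toMultiplicative (ZMod.castHom hk (ZMod p)).toAddMonoidHom).comp
        ((Pi.evalMonoidHom (fun k => Multiplicative (ZMod (n k))) k).comp e.toMonoidHom)
    refine ⟨p, hp, pr i hpi, pr j hpj, e.symm (Pi.mulSingle i (Multiplicative.ofAdd 1)),
      e.symm (Pi.mulSingle j (Multiplicative.ofAdd 1)), ?_, ?_, ?_, ?_⟩ <;>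
      simp [pr, Pi.mulSingle_apply, hij, Ne.symm hij, ← ZMod.castHom_apply (h := hpi),
        ← ZMod.castHom_apply (h := hpj), -ZMod.castHom_apply]

/-- A finite abelian group has trivial Schur multiplier if and only if it is cyclic. -/
theorem result {G : Type*} [CommGroup G] [Finite G] : Cfsg.HasCyclicSchurMultiplier G 1 ↔ IsCyclic G := by
  constructor
  · intro h
    by_contra hnc
    obtain ⟨p, hp, f, f', g, g', h1, h2, h3, h4⟩ := exists_two_homs hnc
    have : NeZero p := ⟨hp.ne_zero⟩
    have hst := mulBilin_isStem f f' (fun r => ⟨r.val, ZMod.natCast_zmod_val r⟩) (g := g) (h := g')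
      (mul_comm _ _) (by simp [h1, h2, h3, h4])
    obtain ⟨π, hπ⟩ := h.2 _ CExt.proj hst
    have hcard := Nat.card_le_card_of_surjective _ (CExt.kerEquiv.surjective.comp hπ)
    simp [Nat.card_congr Multiplicative.toAdd, Nat.card_zmod] at hcard
    exact absurd hcard (not_le.2 hp.one_lt)
  · intro hc
    apply hasCyclic_one_of_stem_ker_eq_bot
    intro Γ _ _ σ hσ
    rw [eq_bot_iff]
    refine hσ.2.2.trans ?_
    have h := MonoidHom.isMulCommutative_of_isCyclic_of_ker_le_center σ hσ.2.1
    rw [commutator_eq_closure, Subgroup.closure_le]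
    rintro _ ⟨x, y, rfl⟩
    exact commutatorElement_eq_one_iff_mul_comm.2 (h.is_comm.comm x y)

end Cfsg.Agent.S3950
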