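import Cfsg.Statements.S3951
import Cfsg.Agent.FGS2.CExt

set_option autoImplicit false
open Cfsg

namespace Cfsg.Agent.S3951

open Cfsg.Agent.FGS2
open scoped commutatorElement

/-- For positive integers `m` and `n` with `n` dividing `m`, the Schur multiplier of the abelian group `ZMod m × ZMod n` (written multiplicatively) is cyclic of order `n`. In particular the elementary abelian group of order `p ^ 2` has multiplier of order `p`. -/
theorem result (m n : ℕ) [NeZero m] [NeZero n] (hnm : n ∣ m) : Cfsg.HasCyclicSchurMultiplier (Multiplicative (ZMod m × ZMod n)) n := by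
  let f : Multiplicative (ZMod m × ZMod n) →* Multiplicative (ZMod n) :=
    AddMonoidHom.toMultiplicative
      ((ZMod.castHom hnm (ZMod n)).toAddMonoidHom.comp (AddMonoidHom.fst (ZMod m) (ZMod n)))
  let f' : Multiplicative (ZMod m × ZMod n) →* Multiplicative (ZMod n) :=
    AddMonoidHom.toMultiplicative (AddMonoidHom.snd (ZMod m) (ZMod n))
  refine ⟨⟨CExt (mulBilin f f'), _, inferInstance, CExt.proj, ?_, ⟨CExt.kerEquiv⟩⟩,
    fun Γ _ _ σ hσ => ?_⟩
  · refine mulBilin_isStem f f' (fun r => ⟨r.val, ZMod.natCast_zmod_val r⟩)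
      (g := Multiplicative.ofAdd (1, 0)) (h := Multiplicative.ofAdd (0, 1)) (mul_comm _ _) ?_
    simp [f, f', ← ZMod.castHom_apply (h := hnm), -ZMod.castHom_apply]
  · obtain ⟨a, ha⟩ := hσ.1 (Multiplicative.ofAdd (1, 0))
    obtain ⟨b, hb⟩ := hσ.1 (Multiplicative.ofAdd (0, 1))
    have hgen : Subgroup.closure ({σ a, σ b} : Set (Multiplicative (ZMod m × ZMod n))) = ⊤ := by
      rw [ha, hb, eq_top_iff]
      intro x _
      have hx : x = Multiplicative.ofAdd ((1 : ZMod m), (0 : ZMod n)) ^ x.toAdd.1.val *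
          Multiplicative.ofAdd ((0 : ZMod m), (1 : ZMod n)) ^ x.toAdd.2.val := by
        apply Multiplicative.toAdd.injective
        ext <;> simp
      rw [hx]
      exact mul_mem (pow_mem (Subgroup.subset_closure (by simp)) _)
        (pow_mem (Subgroup.subset_closure (by simp)) _)
    have hc : ∀ y, y * ⁅b, a⁆ = ⁅b, a⁆ * y := Subgroup.mem_center_iff.1 (hσ.2.1 (by
      rw [MonoidHom.mem_ker, map_commutatorElement, commutatorElement_eq_one_iff_mul_comm]
      exact mul_comm _ _))
    have hle : commutator Γ ≤ Subgroup.zpowers ⁅b, a⁆ :=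
      commutator_le_zpowers (closure_pair_of_stem hσ hgen)
        (by rw [hc a, mul_inv_cancel_right]; exact Subgroup.mem_zpowers _)
        (by rw [hc b, mul_inv_cancel_right]; exact Subgroup.mem_zpowers _)
    refine exists_surj_zmod (hσ.2.2.trans hle) ?_
    have hbn : b ^ n ∈ σ.ker := by
      rw [MonoidHom.mem_ker, map_pow, hb, ← ofAdd_nsmul]
      simp [Prod.smul_mk]
    have hbn' := Subgroup.mem_center_iff.1 (hσ.2.1 hbn)
    have h1 : a * b * a⁻¹ = ⁅b, a⁆⁻¹ * b := by
      rw [commutatorElement_def]; group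
    have hcb : Commute ⁅b, a⁆⁻¹ b := (Commute.inv_right (hc b)).symm
    have h2 : (⁅b, a⁆⁻¹ * b) ^ n = b ^ n := by
      rw [← h1, conj_pow, hbn' a, mul_inv_cancel_right]
    rw [hcb.mul_pow, inv_pow, mul_eq_right, inv_eq_one] at h2
    exact h2

end Cfsg.Agent.S3951
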