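import Cfsg.Statements.S3956
import Cfsg.Agent.FGS2.ProjRep

set_option autoImplicit false
universe u v
open Cfsg

namespace Cfsg.Agent.S3956

/-- Let `σ : Γ →* Q` be a finite stem extension of the finite group `Q` such that every homomorphism from `Q` to the quotient of `GL n ℂ` by its centre, for every `n`, lifts along `σ` to a homomorphism `Γ →* GL n ℂ`. Then `σ` is a Schur covering group of `Q`: for every finite stem extension `τ : Δ →* Q` with `Δ` in the same universe as `Q`, the kernel of `τ` is a homomorphic image of the kernel of `σ`. -/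
theorem result {Q : Type u} [Group Q] [Finite Q] {Γ : Type v} [Group Γ] [Finite Γ] (σ : Γ →* Q) (hσ : Cfsg.IsStemExtension σ) (hlift : ∀ (n : ℕ) (γ : Q →* (GL (Fin n) ℂ ⧸ Subgroup.center (GL (Fin n) ℂ))), ∃ ρ : Γ →* GL (Fin n) ℂ, (QuotientGroup.mk' (Subgroup.center (GL (Fin n) ℂ))).comp ρ = γ.comp σ) (Δ : Type u) [Group Δ] [Finite Δ] (τ : Δ →* Q) (hτ : Cfsg.IsStemExtension τ) : ∃ π : σ.ker →* τ.ker, Function.Surjective π := by
  obtain ⟨ψ, hψ⟩ := Cfsg.Agent.FGS2.exists_lift σ hσ.1 hσ.2.1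
  have hinj := Cfsg.Agent.FGS2.injective_of_proj_lift ψ hψ hlift
  obtain ⟨π, hπ⟩ := Cfsg.Agent.FGS2.exists_mult_surj hτ
  have hm : ∀ x : Cfsg.Agent.FGS2.Mult Q, ψ x ∈ σ.ker := fun x =>
    (Cfsg.Agent.FGS2.lift_mult_stem hσ hψ) ▸ Subgroup.mem_map_of_mem ψ x.2
  let f : Cfsg.Agent.FGS2.Mult Q →* σ.ker :=
    (ψ.comp (Cfsg.Agent.FGS2.mult Q).subtype).codRestrict σ.ker hm
  have hf : Function.Bijective f := by
    constructor
    · rw [← MonoidHom.ker_eq_bot_iff, Subgroup.eq_bot_iff_forall]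
      intro x hx
      have : (x : Cfsg.Agent.FGS2.Univ Q) ∈ ψ.ker ⊓ Cfsg.Agent.FGS2.mult Q :=
        Subgroup.mem_inf.2 ⟨congrArg Subtype.val hx, x.2⟩
      rw [hinj, Subgroup.mem_bot] at this
      exact Subtype.ext this
    · intro z
      obtain ⟨x, hx, hxz⟩ : (z : Γ) ∈ (Cfsg.Agent.FGS2.mult Q).map ψ :=
        (Cfsg.Agent.FGS2.lift_mult_stem hσ hψ).symm ▸ z.2
      exact ⟨⟨x, hx⟩, Subtype.ext hxz⟩
  exact ⟨π.comp (MulEquiv.ofBijective f hf).symm.toMonoidHom,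
    hπ.comp (MulEquiv.ofBijective f hf).symm.surjective⟩

end Cfsg.Agent.S3956
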