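import Cfsg.Statements.S3958
import Cfsg.Agent.FGS2.SchurCovers

set_option autoImplicit false
universe u v
open Cfsg

namespace Cfsg.Agent.S3958

/-- Let `σ : Γ →* Q` be a finite stem extension of the finite group `Q` with `Γ` of trivial Schur multiplier. Then `σ` is a Schur covering group of `Q`: for every finite stem extension `τ : Δ →* Q` with `Δ` in the same universe as `Q`, the kernel of `τ` is a homomorphic image of the kernel of `σ`. -/
theorem result {Q : Type u} [Group Q] [Finite Q] {Γ : Type v} [Group Γ] [Finite Γ] (σ : Γ →* Q) (hσ : Cfsg.IsStemExtension σ) (hΓ : Cfsg.HasCyclicSchurMultiplier Γ 1) (Δ : Type u) [Group Δ] [Finite Δ] (τ : Δ →* Q) (hτ : Cfsg.IsStemExtension τ) : ∃ π : σ.ker →* τ.ker, Function.Surjective π := by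
  obtain ⟨e⟩ := Cfsg.Agent.FGS2.mulEquiv_of_mult_trivial hσ
    (Cfsg.Agent.FGS2.hasCyclicSchurMultiplier_one_iff.1 hΓ)
  obtain ⟨π, hπ⟩ := Cfsg.Agent.FGS2.exists_mult_surj hτ
  exact ⟨π.comp e.toMonoidHom, hπ.comp e.surjective⟩

end Cfsg.Agent.S3958
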