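import Cfsg.Statements.S3964
import Cfsg.Agent.FGS2.SchurTools

set_option autoImplicit false
open Cfsg

namespace Cfsg.Agent.S3964

open scoped commutatorElement

theorem closure_gen (n : ℕ) [NeZero n] :
    Subgroup.closure ({DihedralGroup.r 1, DihedralGroup.sr 0} : Set (DihedralGroup n)) = ⊤ := by
  rw [eq_top_iff]
  have ha : ∀ i : ZMod n, DihedralGroup.r i ∈
      Subgroup.closure ({DihedralGroup.r 1, DihedralGroup.sr 0} : Set (DihedralGroup n)) := by
    intro i
    rw [← ZMod.natCast_zmod_val i, ← DihedralGroup.r_one_pow]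
    exact pow_mem (Subgroup.subset_closure (by simp)) _
  rintro (i | i) -
  · exact ha i
  · have h : DihedralGroup.sr i = DihedralGroup.sr 0 * DihedralGroup.r i := by simp
    rw [h]
    exact mul_mem (Subgroup.subset_closure (by simp)) (ha i)

/-- For odd `n` the dihedral group of order `2 n` has trivial Schur multiplier. -/
theorem result (n : ℕ) (hn : Odd n) : Cfsg.HasCyclicSchurMultiplier (DihedralGroup n) 1 := by
  have : NeZero n := ⟨fun h => by simp [h] at hn⟩
  apply Cfsg.Agent.FGS2.hasCyclic_one_of_stem_ker_eq_bot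
  intro Γ _ _ σ hσ
  obtain ⟨a, ha⟩ := hσ.1 (DihedralGroup.r 1)
  obtain ⟨x, hx⟩ := hσ.1 (DihedralGroup.sr 0)
  have hgen : Subgroup.closure ({σ a, σ x} : Set (DihedralGroup n)) = ⊤ := by
    rw [ha, hx]; exact closure_gen n
  have hcomm : Commute (a ^ n) x := by
    have hz : a ^ n ∈ σ.ker := by
      rw [MonoidHom.mem_ker, map_pow, ha, DihedralGroup.r_one_pow]; simp
    exact ((Subgroup.mem_center_iff.1 (hσ.2.1 hz)) x).symm
  obtain ⟨h1, h2, h3⟩ := Cfsg.Agent.FGS2.stem_dihedral_like hσ hgen (by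
    rw [ha, hx]; simp) hcomm
  have hord : orderOf (σ ⁅x, a⁆) = n := by
    rw [h3, orderOf_inv, ha, Nat.Coprime.orderOf_pow]
    · exact DihedralGroup.orderOf_r_one
    · rw [DihedralGroup.orderOf_r_one]; exact Nat.coprime_two_right.2 hn
  rw [Subgroup.eq_bot_iff_forall]
  intro z hz
  have := Cfsg.Agent.FGS2.mem_zpowers_pow_of_map_eq_one σ (h2 (hσ.2.2 hz)) hz hord
  rw [h1, Subgroup.zpowers_one_eq_bot, Subgroup.mem_bot] at this
  exact this

end Cfsg.Agent.S3964
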