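import Cfsg.Statements.S3968
import Cfsg.Agent.FGS2.BurnsideClass
import Cfsg.Agent.Chars.Orth
-- import your own Cfsg.Agent.* helpers here

set_option autoImplicit false
open Cfsg

namespace Cfsg.Agent.S3968

open Cfsg.Agent

/-- Let `p` be a prime and `G` a finite group with a faithful irreducible complex character of degree `p` (so `G` is an irreducible linear group in `p` variables). If `p ^ 2` divides the order of `G`, then the centre of `G` is nontrivial. -/
theorem result {G : Type*} [Group G] [Finite G] (p : ℕ) (hp : p.Prime) (χ : Cfsg.IrrCharacter G) (hdeg : χ.1 1 = p) (hfaith : ∀ g : G, χ.1 g = χ.1 1 → g = 1) (hdiv : p ^ 2 ∣ Nat.card G) : Subgroup.center G ≠ ⊥ := by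
  classical
  haveI := Fintype.ofFinite G
  haveI := Fact.mk hp
  obtain ⟨n, ρ, hi, hρ⟩ := χ.2
  rw [← hρ] at hdeg hfaith
  have hn : (Module.finrank ℂ (Fin n → ℂ)) = p := by
    rw [Representation.char_one] at hdeg
    exact_mod_cast hdeg
  have hker : ∀ g : G, ρ g = 1 → g = 1 := fun g hg => hfaith g (by
    rw [(Chars.rep_char_eq_finrank_iff ρ g).2 hg, Representation.char_one])
  have hscalar : ∀ z : G, (∃ c : ℂ, ρ z = c • (1 : Module.End ℂ (Fin n → ℂ))) → z ∈ Subgroup.center G := by
    rintro z ⟨c, hc⟩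
    rw [Subgroup.mem_center_iff]
    intro g
    have h : ρ (g * z) = ρ (z * g) := by
      rw [map_mul, map_mul, hc, mul_smul_comm, smul_mul_assoc, mul_one, one_mul]
    have h1 : ρ ((z * g)⁻¹ * (g * z)) = 1 := by
      rw [map_mul, h, ← map_mul, inv_mul_cancel, map_one]
    exact (eq_of_inv_mul_eq_one (hker _ h1)).symm
  intro hZ
  obtain ⟨P⟩ := (inferInstance : Nonempty (Sylow p G))
  obtain ⟨a, ha⟩ := IsPGroup.iff_card.1 P.isPGroup'
  have hpP : p ^ 2 ∣ Nat.card P := P.pow_dvd_card_of_pow_dvd_card hdiv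
  let σ : Representation ℂ P (Fin n → ℂ) := ρ.comp (P : Subgroup G).subtype
  have hσ : Cfsg.IsCharacter P σ.character := Chars.isCharacter_of_rep σ
  obtain ⟨m, hm, hdec⟩ := Chars.exists_eq_sum_nsmul hσ
  -- the restriction to a non-abelian `P` is irreducible
  have hab : ∀ x y : P, x * y = y * x := by
    by_contra hab
    obtain ⟨D, hD⟩ : ∃ D : Cfsg.IrrCharacter P → ℕ, ∀ ψ : Cfsg.IrrCharacter P, (ψ : P → ℂ) 1 = D ψ ∧ 0 < D ψ ∧ D ψ ∣ Nat.card P := by
      choose D h1 h2 h3 using fun ψ : Cfsg.IrrCharacter P => Chars.irr_degree_dvd_card ψ.2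
      exact ⟨D, fun ψ => ⟨h2 ψ, h1 ψ, h3 ψ⟩⟩
    have hsum : ∑ ψ, m ψ * D ψ = p := by
      have h := congrFun hdec 1
      rw [Representation.char_one, hn, Finset.sum_apply] at h
      simp only [Pi.smul_apply, nsmul_eq_mul, (hD _).1] at h
      exact_mod_cast h.symm
    by_cases hbig : ∃ ψ, m ψ ≠ 0 ∧ D ψ ≠ 1
    · obtain ⟨ψ, hmψ, hDψ⟩ := hbig
      have hle : m ψ * D ψ ≤ p := hsum ▸ Finset.single_le_sum (f := fun θ => m θ * D θ) (fun _ _ => Nat.zero_le _)
        (Finset.mem_univ ψ)
      obtain ⟨i, -, hi'⟩ := (Nat.dvd_prime_pow hp).1 (ha ▸ (hD ψ).2.2)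
      have hDp : p ≤ D ψ := by
        rcases Nat.eq_zero_or_pos i with rfl | hi0
        · exact absurd (hi'.trans (pow_zero p)) hDψ
        · exact hi' ▸ Nat.le_self_pow hi0.ne' p
      have hm1 : m ψ = 1 := by
        have : 1 ≤ m ψ := Nat.pos_of_ne_zero hmψ
        nlinarith [hp.pos]
      have hzero : ∀ θ ∈ (Finset.univ : Finset (Cfsg.IrrCharacter P)).erase ψ, m θ * D θ = 0 := by
        have h : m ψ * D ψ + ∑ θ ∈ (Finset.univ : Finset (Cfsg.IrrCharacter P)).erase ψ, m θ * D θ = p :=
          (Finset.add_sum_erase _ (fun θ => m θ * D θ) (Finset.mem_univ ψ)).trans hsum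
        have h' : m ψ * D ψ = D ψ := by rw [hm1, one_mul]
        have hz : ∑ θ ∈ (Finset.univ : Finset (Cfsg.IrrCharacter P)).erase ψ, m θ * D θ = 0 := by omega
        exact fun θ hθ => Finset.sum_eq_zero_iff.1 hz θ hθ
      have hirr : Cfsg.IsIrrCharacter P σ.character := by
        rw [hdec, ← Finset.add_sum_erase _ _ (Finset.mem_univ ψ), hm1, one_smul,
          Finset.sum_eq_zero fun θ hθ => by
            rw [(mul_eq_zero.1 (hzero θ hθ)).resolve_right (hD θ).2.1.ne', zero_smul], add_zero]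
        exact ψ.2
      haveI := Chars.isIrreducible_of_character σ hirr
      haveI : Nontrivial P := by
        by_contra h
        rw [not_nontrivial_iff_subsingleton] at h
        exact hab fun x y => Subsingleton.elim _ _
      haveI := P.isPGroup'.center_nontrivial
      obtain ⟨⟨z, hz⟩, hz1⟩ := exists_ne (1 : Subgroup.center P)
      obtain ⟨c, hc⟩ := Chars.scalar_of_commute σ (σ z) fun g => by
        rw [← map_mul, ← map_mul, Subgroup.mem_center_iff.1 hz g]
      have hzc := hscalar (z : G) ⟨c, hc⟩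
      rw [hZ, Subgroup.mem_bot] at hzc
      exact hz1 (Subtype.ext (Subtype.ext hzc))
    · push Not at hbig
      refine hab fun x y => ?_
      have h1 : σ.character ((y * x)⁻¹ * (x * y)) = σ.character 1 := by
        rw [hdec, Finset.sum_apply, Finset.sum_apply]
        refine Finset.sum_congr rfl fun ψ _ => ?_
        by_cases hmψ : m ψ = 0
        · simp [hmψ]
        have h1 : (ψ : P → ℂ) 1 = 1 := by rw [(hD ψ).1, hbig ψ hmψ, Nat.cast_one]
        obtain ⟨φ, hφ⟩ := Chars.exists_hom_of_degree_one (Chars.irr_isCharacter ψ) h1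
        rw [Pi.smul_apply, Pi.smul_apply, hφ]
        simp [mul_comm (φ x)]
      have h2 : ρ.character (((y * x)⁻¹ * (x * y) : P) : G) = ρ.character 1 := by
        simpa [σ, Representation.character] using h1
      exact (eq_of_inv_mul_eq_one (Subtype.ext (hfaith _ h2) : (y * x)⁻¹ * (x * y) = 1)).symm
  -- so the character vanishes on `P` away from the identity
  have hvan : ∀ x : P, x ≠ 1 → σ.character x = 0 := by
    intro x hx
    by_contra h0
    have hcop : (Module.finrank ℂ (Fin n → ℂ)).Coprime (Subgroup.centralizer ({(x : G)} : Set G)).index := by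
      rw [hn, hp.coprime_iff_not_dvd]
      refine fun hd => P.not_dvd_index (hd.trans (Subgroup.index_dvd_of_le fun y hy => ?_))
      exact Subgroup.mem_centralizer_singleton_iff.2 (congrArg Subtype.val (hab ⟨y, hy⟩ x))
    have h0' : ρ.character (x : G) ≠ 0 := h0
    have hxc := hscalar _ ((Chars.rep_norm_char_eq_iff ρ (x : G)).1 (FGS2.norm_char_eq_of_coprime ρ _ h0' hcop))
    rw [hZ, Subgroup.mem_bot] at hxc
    exact hx (Subtype.ext hxc)
  obtain ⟨k, hk⟩ := Chars.exists_classInner_eq_nat hσ (Chars.isCharacter_hom (1 : P →* ℂˣ))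
  rw [Chars.classInner_def] at hk
  have hs : ∀ b : P, b ≠ 1 → σ.character b * starRingEnd ℂ (((1 : P →* ℂˣ) b : ℂ)) = 0 := fun b hb => by
    rw [hvan b hb, zero_mul]
  have hsum : ∑ g : P, σ.character g * starRingEnd ℂ (((1 : P →* ℂˣ) g : ℂ)) = (p : ℂ) := by
    refine (Fintype.sum_eq_single _ hs).trans ?_
    have h1 : σ.character (1 : P) = (p : ℂ) := by
      show ρ.character ((1 : P) : G) = _
      exact hdeg
    rw [h1, MonoidHom.one_apply, Units.val_one, map_one, mul_one]
  erw [hsum] at hk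
  have h1 : (p : ℂ) = (Nat.card P : ℂ) * k := by
    rw [← hk, ← mul_assoc, mul_inv_cancel₀ (by exact_mod_cast Nat.card_pos.ne'), one_mul]
  have h2 : Nat.card P ∣ p := ⟨k, by exact_mod_cast h1⟩
  have h3 := Nat.le_of_dvd hp.pos (hpP.trans h2)
  nlinarith [hp.two_le]

end Cfsg.Agent.S3968
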