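import Cfsg.Statements.S3970
import Cfsg.Agent.FGS2.AbelianSylow
-- import your own Cfsg.Agent.* helpers here

set_option autoImplicit false
open Cfsg

namespace Cfsg.Agent.S3970

/-- Let `G` be a finite group such that for every prime `p` dividing its order, other than the largest such prime, the Sylow `p`-subgroups are abelian and generated by at most two elements, and suppose `12` does not divide the order of `G`. Then `G` is solvable. In particular a group of cube-free order not divisible by `12` is solvable. -/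
theorem result {G : Type*} [Group G] [Finite G] (h : ∀ p : ℕ, p.Prime → p ∣ Nat.card G → (∃ q : ℕ, q.Prime ∧ q ∣ Nat.card G ∧ p < q) → ∀ P : Sylow p G, IsMulCommutative (P : Subgroup G) ∧ Group.rank (P : Subgroup G) ≤ 2) (h12 : ¬ 12 ∣ Nat.card G) : Group.IsSolvable G := by
  refine Cfsg.Agent.FGS2.isSolvable_of_sylow_rank_two (Nat.card G) G le_rfl (fun p hp hpd hq S hS => ?_) h12
  have := Fact.mk hp
  obtain ⟨P, hP⟩ := hS.exists_le_sylow
  obtain ⟨hab, hrk⟩ := h p hp hpd hq P
  refine ⟨⟨⟨fun a b => Subtype.ext ?_⟩⟩, fun he => ?_⟩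
  · show (a : G) * b = b * a
    exact congrArg Subtype.val (hab.is_comm.comm ⟨(a : G), hP a.2⟩ ⟨(b : G), hP b.2⟩)
  · obtain ⟨E, hEm, hEc⟩ := Cfsg.Agent.FGS2.card_omega_dvd (p := p) (P : Subgroup G) hab
    exact ((Subgroup.card_dvd_of_le fun x hx => (hEm x).2 ⟨hP hx, he x hx⟩).trans hEc).trans
      (pow_dvd_pow p hrk)

end Cfsg.Agent.S3970
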