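import Cfsg.Statements.S3978
import Cfsg.Agent.FGS2.ProjRep

set_option autoImplicit false
open Cfsg

namespace Cfsg.Agent.S3978

/-- A finite group `Q` has trivial Schur multiplier if and only if, for every `n`, every homomorphism from `Q` to the projective general linear group (the quotient of `GL n ℂ` by its centre) lifts to a homomorphism into `GL n ℂ`. -/
theorem result {Q : Type*} [Group Q] [Finite Q] : Cfsg.HasCyclicSchurMultiplier Q 1 ↔ ∀ (n : ℕ) (γ : Q →* (GL (Fin n) ℂ ⧸ Subgroup.center (GL (Fin n) ℂ))), ∃ ρ : Q →* GL (Fin n) ℂ, (QuotientGroup.mk' (Subgroup.center (GL (Fin n) ℂ))).comp ρ = γ := by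
  have hid : Cfsg.IsStemExtension (MonoidHom.id Q) :=
    ⟨Function.surjective_id, by simp [MonoidHom.ker_id], by simp [MonoidHom.ker_id]⟩
  rw [Cfsg.Agent.FGS2.hasCyclicSchurMultiplier_one_iff]
  constructor
  · intro h n γ
    obtain ⟨ρ, hρ⟩ := Cfsg.Agent.FGS2.proj_lift_of_injective hid (Cfsg.Agent.FGS2.univProj Q)
      (MonoidHom.id_comp _) (by rw [h, inf_bot_eq]) n γ
    exact ⟨ρ, hρ⟩
  · intro h
    have := Cfsg.Agent.FGS2.injective_of_proj_lift (σ := MonoidHom.id Q)
      (Cfsg.Agent.FGS2.univProj Q) (MonoidHom.id_comp _) h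
    exact (inf_eq_right.2 inf_le_left).symm.trans this

end Cfsg.Agent.S3978
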