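import Cfsg.Statements.S3995
import Cfsg.Agent.FGS2.FrobSolutions
import Cfsg.Agent.OddLocal.UniqueSubgroup
-- import your own Cfsg.Agent.* helpers here

set_option autoImplicit false
open Cfsg

namespace Cfsg.Agent.S3995

theorem card_pow_eq_one_eq_sum {G : Type*} [Group G] [Finite G] (d : ℕ) (hd : d ≠ 0) :
    Nat.card {g : G // g ^ d = 1} = ∑ m ∈ d.divisors, Nat.card {g : G // orderOf g = m} := by
  classical
  have := Fintype.ofFinite G
  simp only [Nat.card_eq_fintype_card, Fintype.card_subtype]
  exact (sum_card_orderOf_eq_card_pow_eq_one hd).symm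

theorem sum_divisors_prime_mul {p q : ℕ} (hp : p.Prime) (hq : q.Prime) (h : p ≠ q) (f : ℕ → ℕ) :
    ∑ m ∈ (p * q).divisors, f m = f 1 + f p + f q + f (p * q) := by
  have hd : (p * q).divisors = {1, p, q, p * q} := by
    ext m
    simp only [Nat.mem_divisors, Finset.mem_insert, Finset.mem_singleton]
    constructor
    · rintro ⟨hm, -⟩
      obtain ⟨y, z, hy, hz, rfl⟩ := Nat.dvd_mul.mp hm
      rcases (Nat.dvd_prime hp).mp hy with rfl | rfl <;>
        rcases (Nat.dvd_prime hq).mp hz with rfl | rfl <;> simp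
    · refine fun hm => ⟨?_, mul_ne_zero hp.ne_zero hq.ne_zero⟩
      rcases hm with rfl | rfl | rfl | rfl <;> simp
  have hp1 := hp.one_lt
  have hq1 := hq.one_lt
  have h1 : p < p * q := by nlinarith
  have h2 : q < p * q := by nlinarith
  rw [hd, Finset.sum_insert (by simp; omega), Finset.sum_insert (by simp; omega),
    Finset.sum_pair (by omega)]
  ring

theorem sum_divisors_four_mul {p : ℕ} (hp : p.Prime) (h : p ≠ 2) (f : ℕ → ℕ) :
    ∑ m ∈ (4 * p).divisors, f m = f 1 + f 2 + f 4 + f p + f (2 * p) + f (4 * p) := by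
  have hd : (4 * p).divisors = {1, 2, 4, p, 2 * p, 4 * p} := by
    ext m
    simp only [Nat.mem_divisors, Finset.mem_insert, Finset.mem_singleton]
    constructor
    · rintro ⟨hm, -⟩
      obtain ⟨y, z, hy, hz, rfl⟩ := Nat.dvd_mul.mp hm
      obtain ⟨k, hk, rfl⟩ := (Nat.dvd_prime_pow Nat.prime_two (m := 2)).mp hy
      interval_cases k <;> rcases (Nat.dvd_prime hp).mp hz with rfl | rfl <;> simp
    · refine fun hm => ⟨?_, mul_ne_zero four_ne_zero hp.ne_zero⟩
      rcases hm with rfl | rfl | rfl | rfl | rfl | rfl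
      · exact one_dvd _
      · exact Dvd.dvd.mul_right (by norm_num) _
      · exact Dvd.dvd.mul_right dvd_rfl _
      · exact dvd_mul_left _ _
      · exact mul_dvd_mul_right (by norm_num) _
      · exact dvd_rfl
  have hp1 := hp.two_le
  have h4 : p ≠ 4 := fun e => by rw [e] at hp; exact absurd hp (by norm_num)
  rw [hd, Finset.sum_insert (by simp; omega), Finset.sum_insert (by simp; omega),
    Finset.sum_insert (by simp; omega), Finset.sum_insert (by simp; omega),
    Finset.sum_pair (by omega)]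
  ring

/-- Let G be a finite group such that the numbers of elements of each order that occurs in G (the numbers #{g : o(g) = m}, m ranging over the element orders of G) take exactly two values, 1 and some n ≠ 1. Then either G is a p-group of exponent p and order at least 3 for some prime p, or G is the quaternion group of order 8, or G is cyclic of order 4, or G ≅ Z₂ × P for a p-group P of exponent p with p an odd prime. -/
theorem result {G : Type*} [Group G] [Finite G] (n : ℕ) (hn : n ≠ 1) (h : ((fun m : ℕ => Nat.card {g : G // orderOf g = m}) '' Set.range (orderOf : G → ℕ)) = {1, n}) :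
    (∃ p : ℕ, p.Prime ∧ IsPGroup p G ∧ 3 ≤ Nat.card G ∧ Monoid.exponent G = p) ∨
      Nonempty (G ≃* QuaternionGroup 2) ∨ (IsCyclic G ∧ Nat.card G = 4) ∨
      (∃ (p : ℕ) (P : Type) (_ : Group P) (_ : Finite P), p.Prime ∧ p ≠ 2 ∧ IsPGroup p P ∧ Monoid.exponent P = p ∧
        Nonempty (G ≃* Multiplicative (ZMod 2) × P)) := by
  classical
  set c : ℕ → ℕ := fun m => Nat.card {g : G // orderOf g = m} with hc
  have hval : ∀ g : G, c (orderOf g) = 1 ∨ c (orderOf g) = n := fun g => by
    have : c (orderOf g) ∈ ({1, n} : Set ℕ) := h ▸ ⟨orderOf g, ⟨g, rfl⟩, rfl⟩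
    simpa using this
  have hzero : ∀ m, (∀ g : G, orderOf g ≠ m) → c m = 0 := fun m hm => by
    have : IsEmpty {g : G // orderOf g = m} := ⟨fun g => hm g g.2⟩
    exact Nat.card_of_isEmpty
  have hpos : ∀ g : G, c (orderOf g) ≠ 0 := fun g => by
    have : Nonempty {x : G // orderOf x = orderOf g} := ⟨⟨g, rfl⟩⟩
    exact Nat.card_pos.ne'
  have huniq : ∀ g : G, c (orderOf g) = 1 → ∀ x : G, orderOf x = orderOf g → x = g := fun g hg x hx => by
    have := (Nat.card_eq_one_iff_unique.mp hg).1
    exact congrArg Subtype.val (Subsingleton.elim (⟨x, hx⟩ : {y : G // orderOf y = orderOf g}) ⟨g, rfl⟩)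
  have hbig : ∀ g : G, 2 < orderOf g → c (orderOf g) = n := fun g hg => by
    refine (hval g).resolve_left fun h1 => ?_
    have h2 := huniq g h1 g⁻¹ (orderOf_inv g)
    have : g ^ 2 = 1 := by rw [pow_two, ← inv_eq_iff_mul_eq_one.mp h2]
    have := Nat.le_of_dvd two_pos (orderOf_dvd_of_pow_eq_one this)
    omega
  have hcm : ∀ m, 2 < m → c m = 0 ∨ c m = n := fun m hm => by
    by_cases hex : ∃ g : G, orderOf g = m
    · obtain ⟨g, rfl⟩ := hex; exact Or.inr (hbig g hm)
    · push Not at hex; exact Or.inl (hzero m hex)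
  have hc1 : c 1 = 1 := by
    refine Nat.card_eq_one_iff_unique.mpr ⟨⟨fun a b => ?_⟩, ⟨⟨1, orderOf_one⟩⟩⟩
    exact Subtype.ext ((orderOf_eq_one_iff.mp a.2).trans (orderOf_eq_one_iff.mp b.2).symm)
  obtain ⟨g0, hg0⟩ : ∃ g : G, c (orderOf g) = n := by
    obtain ⟨_, ⟨g, rfl⟩, hg⟩ : n ∈ ((fun m : ℕ => Nat.card {g : G // orderOf g = m}) ''
        Set.range (orderOf : G → ℕ)) := by rw [h]; simp
    exact ⟨g, hg⟩
  have hn0 : n ≠ 0 := hg0 ▸ hpos g0
  -- solutions of `x ^ d = 1`
  have hsum : ∀ d, d ∣ Nat.card G → d ∣ ∑ m ∈ d.divisors, c m := by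
    intro d hd
    have h1 := FGS2.frobenius_solutions (Nat.card G) rfl d hd
    rwa [card_pow_eq_one_eq_sum d (ne_zero_of_dvd_ne_zero Nat.card_pos.ne' hd)] at h1
  have hprime : ∀ r : ℕ, r.Prime → r ∣ Nat.card G → 2 < r → r ∣ 1 + n ∧ c r = n := by
    intro r hr hd h2
    have := Fact.mk hr
    obtain ⟨g, hg⟩ := exists_prime_orderOf_dvd_card' r hd
    have hcr : c r = n := hg ▸ hbig g (hg.symm ▸ h2)
    have h1 := hsum r hd
    rw [hr.divisors, Finset.sum_pair hr.one_lt.ne, hc1, hcr] at h1
    exact ⟨h1, hcr⟩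
  have hsq : ∀ r : ℕ, r.Prime → 2 < r → ∀ g : G, orderOf g ≠ r ^ 2 := by
    intro r hr h2 g hg
    have hd : r ^ 2 ∣ Nat.card G := hg ▸ orderOf_dvd_natCard g
    obtain ⟨h3, hcr⟩ := hprime r hr ((dvd_pow_self r two_ne_zero).trans hd) h2
    have h1 := hsum _ hd
    have hcr2 : c (r ^ 2) = n := hg ▸ hbig g (by
      rw [hg]; exact h2.trans_le (Nat.le_self_pow two_ne_zero r))
    rw [Nat.sum_divisors_prime_pow hr, Finset.sum_range_succ, Finset.sum_range_succ,
      Finset.sum_range_succ, Finset.sum_range_zero, pow_zero, pow_one, hc1, hcr, hcr2] at h1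
    have h4 := (dvd_pow_self r two_ne_zero).trans h1
    have h5 : r ∣ n := (Nat.dvd_add_right h3).mp (by rwa [zero_add] at h4)
    exact hr.not_dvd_one ((Nat.dvd_add_left h5).mp h3)
  have hpq : ∀ p q : ℕ, p.Prime → q.Prime → 2 < p → 2 < q → p ∣ Nat.card G → q ∣ Nat.card G →
      p = q := by
    intro p q hp hq h2p h2q hdp hdq
    by_contra hne
    obtain ⟨h3, hcp⟩ := hprime p hp hdp h2p
    obtain ⟨-, hcq⟩ := hprime q hq hdq h2q
    have hco : p.Coprime q := (Nat.coprime_primes hp hq).mpr hne
    have h1 := hsum (p * q) (hco.mul_dvd_of_dvd_of_dvd hdp hdq)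
    rw [sum_divisors_prime_mul hp hq hne, hc1, hcp, hcq] at h1
    have h4 := (dvd_mul_right p q).trans h1
    rcases hcm (p * q) (by nlinarith) with h0 | h0 <;> rw [h0] at h4
    · have h5 : p ∣ n := (Nat.dvd_add_right h3).mp (by simpa using h4)
      exact hp.not_dvd_one ((Nat.dvd_add_left h5).mp h3)
    · have h5 : p ∣ 1 + n + n + n + 2 := by
        rw [show 1 + n + n + n + 2 = 3 * (1 + n) by ring]; exact h3.mul_left 3
      have := Nat.le_of_dvd two_pos ((Nat.dvd_add_right h4).mp h5)
      omega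
  have hcard : 3 ≤ Nat.card G := by
    by_contra hlt
    have h1 := Nat.le_of_dvd Nat.card_pos (orderOf_dvd_natCard g0)
    have hg1 : g0 ≠ 1 := fun e => by rw [e, orderOf_one] at hg0; exact hn (hg0 ▸ hc1)
    have h2 : orderOf g0 ≠ 1 := fun e => hg1 (orderOf_eq_one_iff.mp e)
    have h2' : orderOf g0 = 2 := by have := orderOf_pos g0; omega
    have h3 : c 2 + 1 ≤ Nat.card G := by
      have := Fintype.ofFinite G
      simp only [hc, Nat.card_eq_fintype_card]
      refine Nat.succ_le_of_lt ?_
      exact Fintype.card_subtype_lt (x := (1 : G)) (by simp)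
    rw [h2'] at hg0
    omega
  have hexp_of : ∀ q : ℕ, q.Prime → (∀ g : G, g ^ q = 1) →
      (∃ p : ℕ, p.Prime ∧ IsPGroup p G ∧ 3 ≤ Nat.card G ∧ Monoid.exponent G = p) := by
    intro q hq hall
    refine ⟨q, hq, fun g => ⟨1, by rw [pow_one]; exact hall g⟩, hcard, ?_⟩
    refine ((Nat.dvd_prime hq).mp (Monoid.exponent_dvd_of_forall_pow_eq_one hall)).resolve_left ?_
    intro he
    have := Monoid.exp_eq_one_iff.mp he
    exact absurd hcard (by rw [Nat.card_of_subsingleton (1 : G)]; omega)
  -- prime divisors of element orders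
  have hfour : ∀ g : G, 4 ∣ orderOf g → ∃ u : G, orderOf u = 4 := fun g hg =>
    ⟨g ^ (orderOf g / 4), orderOf_pow_orderOf_div (orderOf_pos g).ne' hg⟩
  by_cases h4 : ∃ u : G, orderOf u = 4
  · obtain ⟨u, hu⟩ := h4
    have h4d : 4 ∣ Nat.card G := hu ▸ orderOf_dvd_natCard u
    have hc4 : c 4 = n := hu ▸ hbig u (by omega)
    have hs4 := hsum 4 h4d
    rw [show (4 : ℕ).divisors = {1, 2, 4} by decide, Finset.sum_insert (by decide),
      Finset.sum_pair (by decide), hc1, hc4] at hs4
    have hu2 : orderOf (u ^ 2) = 2 := by rw [orderOf_pow, hu]; rfl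
    have hc2 : c 2 = 1 := by
      rcases hval (u ^ 2) with h1 | h1 <;> rw [hu2] at h1
      · exact h1
      · rw [h1] at hs4; omega
    rw [hc2] at hs4
    by_cases hodd : ∃ p : ℕ, p.Prime ∧ 2 < p ∧ p ∣ Nat.card G
    · exfalso
      obtain ⟨p, hp, h2p, hdp⟩ := hodd
      obtain ⟨h3, hcp⟩ := hprime p hp hdp h2p
      have hco : (4 : ℕ).Coprime p := by
        rw [show (4 : ℕ) = 2 ^ 2 by norm_num]
        exact Nat.Coprime.pow_left 2 ((Nat.coprime_primes Nat.prime_two hp).mpr (by omega))
      have h1 := hsum (4 * p) (hco.mul_dvd_of_dvd_of_dvd h4d hdp)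
      rw [sum_divisors_four_mul hp (by omega), hc1, hc2, hc4, hcp] at h1
      have ha := (dvd_mul_right 4 p).trans h1
      have hb := (dvd_mul_left p 4).trans h1
      rcases hcm (2 * p) (by omega) with e1 | e1 <;> rcases hcm (4 * p) (by omega) with e2 | e2 <;>
        rw [e1, e2] at ha hb
      · omega
      · have h5 : p ∣ 1 + 1 + n + n + 0 + n + 1 := by
          rw [show 1 + 1 + n + n + 0 + n + 1 = 3 * (1 + n) by ring]; exact h3.mul_left 3
        exact hp.not_dvd_one ((Nat.dvd_add_right hb).mp h5)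
      · have h5 : p ∣ 1 + 1 + n + n + n + 0 + 1 := by
          rw [show 1 + 1 + n + n + n + 0 + 1 = 3 * (1 + n) by ring]; exact h3.mul_left 3
        exact hp.not_dvd_one ((Nat.dvd_add_right hb).mp h5)
      · omega
    · push Not at hodd
      have h2all : ∀ r : ℕ, r.Prime → r ∣ Nat.card G → r = 2 := fun r hr hd => by
        by_contra hne
        exact hodd r hr (by have := hr.two_le; omega) hd
      have hG2 : IsPGroup 2 G := IsPGroup.of_card (n := (Nat.card G).primeFactorsList.length)
        (Nat.eq_prime_pow_of_unique_prime_dvd Nat.card_pos.ne' (fun {d} hd hd' => h2all d hd hd'))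
      have h8 : ∀ g : G, orderOf g ≠ 8 := by
        intro g hg
        have h1 := hsum 8 (hg ▸ orderOf_dvd_natCard g)
        have hc8 : c 8 = n := hg ▸ hbig g (by omega)
        rw [show (8 : ℕ).divisors = {1, 2, 4, 8} by decide, Finset.sum_insert (by decide),
          Finset.sum_insert (by decide), Finset.sum_pair (by decide), hc1, hc2, hc4, hc8] at h1
        omega
      have hord : ∀ g : G, orderOf g ∣ 4 := by
        intro g
        obtain ⟨k, hk⟩ := IsPGroup.iff_orderOf.mp hG2 g
        rw [hk]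
        by_cases hk3 : 3 ≤ k
        · refine absurd (orderOf_pow_orderOf_div (orderOf_pos g).ne' ?_) (h8 (g ^ (orderOf g / 8)))
          rw [hk]; exact pow_dvd_pow 2 hk3
        · exact pow_dvd_pow 2 (by omega : k ≤ 2)
      have : Fact (Nat.Prime 2) := ⟨Nat.prime_two⟩
      have hu' : OddLocal.UniqueOrderP 2 G := by
        intro a b ha hb ha1
        by_cases hb1 : b = 1
        · rw [hb1]; exact one_mem _
        · have hoa := orderOf_eq_prime ha ha1
          have := huniq a (by rw [hoa]; exact hc2) b ((orderOf_eq_prime hb hb1).trans hoa.symm)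
          rw [this]; exact Subgroup.mem_zpowers a
      rcases OddLocal.isCyclic_or_quaternion hG2 hu' with hcyc | ⟨-, m, ⟨e⟩⟩
      · refine Or.inr (Or.inr (Or.inl ⟨hcyc, ?_⟩))
        obtain ⟨g, hg⟩ := IsCyclic.exists_ofOrder_eq_natCard (α := G)
        exact Nat.dvd_antisymm (hg ▸ hord g) h4d
      · have : NeZero (2 ^ m) := ⟨by positivity⟩
        have hcardG : Nat.card G = 4 * 2 ^ m := by
          rw [Nat.card_congr e.toEquiv, Nat.card_eq_fintype_card, QuaternionGroup.card]
        rcases m with _ | _ | m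
        · refine Or.inr (Or.inr (Or.inl ⟨?_, by simpa using hcardG⟩))
          refine isCyclic_of_orderOf_eq_card (e.symm (QuaternionGroup.xa 0)) ?_
          rw [MulEquiv.orderOf_eq, QuaternionGroup.orderOf_xa, hcardG]; rfl
        · exact Or.inr (Or.inl ⟨e⟩)
        · exfalso
          have h1 := hord (e.symm (QuaternionGroup.a 1))
          rw [MulEquiv.orderOf_eq, QuaternionGroup.orderOf_a_one] at h1
          have := Nat.le_of_dvd (by norm_num) h1
          have : 4 ≤ 2 ^ (m + 1 + 1) := by
            rw [pow_succ, pow_succ]; have := Nat.two_pow_pos m; omega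
          omega
  · push Not at h4
    by_cases hodd : ∃ p : ℕ, p.Prime ∧ 2 < p ∧ p ∣ Nat.card G
    swap
    · push Not at hodd
      refine Or.inl (hexp_of 2 Nat.prime_two fun g => ?_)
      have h2 : ∃ k, orderOf g = 2 ^ k := ⟨_, Nat.eq_prime_pow_of_unique_prime_dvd (orderOf_pos g).ne'
        (fun {d} hd hd' => by
          by_contra hne
          exact hodd d hd (by have := hd.two_le; omega) (hd'.trans (orderOf_dvd_natCard g)))⟩
      obtain ⟨k, hk⟩ := h2
      apply orderOf_dvd_iff_pow_eq_one.mp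
      rw [hk]
      by_cases hk2 : 2 ≤ k
      · obtain ⟨u, hu⟩ := hfour g (hk ▸ (pow_dvd_pow 2 hk2 : 2 ^ 2 ∣ 2 ^ k))
        exact absurd hu (h4 u)
      · exact (pow_dvd_pow 2 (by omega : k ≤ 1)).trans (pow_one 2).dvd
    obtain ⟨p, hp, h2p, hdp⟩ := hodd
    have hpf := Fact.mk hp
    obtain ⟨h3, hcp⟩ := hprime p hp hdp h2p
    have hord : ∀ g : G, orderOf g ∣ 2 * p := by
      intro g
      rw [← Nat.factorization_le_iff_dvd (orderOf_pos g).ne' (by omega)]
      intro r
      by_cases hr : r.Prime ∧ r ∣ orderOf g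
      swap
      · rw [not_and] at hr
        by_cases hr' : r.Prime
        · rw [Nat.factorization_eq_zero_of_not_dvd (hr hr')]; exact Nat.zero_le _
        · rw [Nat.factorization_eq_zero_of_not_prime _ hr']; exact Nat.zero_le _
      obtain ⟨hr, hrd⟩ := hr
      have hr1 : (orderOf g).factorization r ≤ 1 := by
        by_contra hlt
        have h2d : r ^ 2 ∣ orderOf g :=
          (hr.pow_dvd_iff_le_factorization (orderOf_pos g).ne').mpr (by omega)
        by_cases hr2 : r = 2
        · subst hr2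
          obtain ⟨u, hu⟩ := hfour g h2d
          exact h4 u hu
        · exact hsq r hr (by have := hr.two_le; omega) _
            (orderOf_pow_orderOf_div (orderOf_pos g).ne' h2d)
      refine hr1.trans ((hr.dvd_iff_one_le_factorization (by omega)).mp ?_)
      by_cases hr2 : r = 2
      · rw [hr2]; exact dvd_mul_right 2 p
      · rw [hpq r p hr hp (by have := hr.two_le; omega) h2p (hrd.trans (orderOf_dvd_natCard g)) hdp]
        exact dvd_mul_left p 2
    by_cases h2 : 2 ∣ Nat.card G
    swap
    · refine Or.inl (hexp_of p hp fun g => orderOf_dvd_iff_pow_eq_one.mp ?_)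
      refine (Nat.Coprime.dvd_mul_left ?_).mp (hord g)
      exact (Nat.prime_two.coprime_iff_not_dvd.mpr fun hd => h2 (hd.trans (orderOf_dvd_natCard g))).symm
    right; right; right
    obtain ⟨z, hz⟩ := exists_prime_orderOf_dvd_card' 2 h2
    have hco : (2 : ℕ).Coprime p := (Nat.coprime_primes Nat.prime_two hp).mpr (by omega)
    have hc2 : c 2 = 1 := by
      rcases hval z with h1 | h1 <;> rw [hz] at h1
      · exact h1
      exfalso
      have h5 := hsum (2 * p) (hco.mul_dvd_of_dvd_of_dvd h2 hdp)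
      rw [sum_divisors_prime_mul Nat.prime_two hp (by omega), hc1, h1, hcp] at h5
      have ha := (dvd_mul_right 2 p).trans h5
      have hb := (dvd_mul_left p 2).trans h5
      rcases hcm (2 * p) (by omega) with e1 | e1 <;> rw [e1] at ha hb
      · omega
      · have h6 : p ∣ 1 + n + n + n + 2 := by
          rw [show 1 + n + n + n + 2 = 3 * (1 + n) by ring]; exact h3.mul_left 3
        have := Nat.le_of_dvd two_pos ((Nat.dvd_add_right hb).mp h6)
        omega
    have hzu : ∀ x : G, orderOf x = 2 → x = z := fun x hx =>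
      huniq z (by rw [hz]; exact hc2) x (hx.trans hz.symm)
    have hz2 : z ^ 2 = 1 := hz ▸ pow_orderOf_eq_one z
    have hzc : ∀ g : G, Commute z g := fun g => by
      have := hzu (MulAut.conj g z) ((MulEquiv.orderOf_eq _ z).trans hz)
      rw [MulAut.conj_apply, mul_inv_eq_iff_eq_mul] at this
      exact this.symm
    let S : Sylow p G := default
    have hp1 : ∀ g : G, g ∈ (S : Subgroup G) → g ^ p = 1 := by
      intro g hg
      obtain ⟨k, hk⟩ := IsPGroup.iff_orderOf.mp S.isPGroup' ⟨g, hg⟩
      rw [Subgroup.orderOf_mk] at hk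
      apply orderOf_dvd_iff_pow_eq_one.mp
      refine (Nat.Coprime.dvd_mul_left ?_).mp (hord g)
      rw [hk]; exact Nat.Coprime.pow_left k hco.symm
    have hZ : Nat.card (Subgroup.zpowers z) = 2 := by rw [Nat.card_zpowers, hz]
    have hcom : ∀ (a : Subgroup.zpowers z) (b : (S : Subgroup G)), Commute (a : G) (b : G) :=
      fun a b => by
        obtain ⟨k, hk⟩ := Subgroup.mem_zpowers_iff.mp a.2
        rw [← hk]; exact (hzc b).zpow_left k
    let φ : Subgroup.zpowers z × (S : Subgroup G) →* G :=
      (Subgroup.zpowers z).subtype.noncommCoprod (S : Subgroup G).subtype hcom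
    have hindex : (S : Subgroup G).index = 2 := by
      have hd := (S : Subgroup G).index_dvd_card
      have hpr : ∀ r : ℕ, r.Prime → r ∣ (S : Subgroup G).index → r = 2 := fun r hr hrd => by
        by_contra hne
        have := hpq r p hr hp (by have := hr.two_le; omega) h2p (hrd.trans hd) hdp
        exact S.not_dvd_index (this ▸ hrd)
      obtain ⟨k, hk⟩ : ∃ k, (S : Subgroup G).index = 2 ^ k :=
        ⟨_, Nat.eq_prime_pow_of_unique_prime_dvd Subgroup.index_ne_zero_of_finite
          (fun {d} hd hd' => hpr d hd hd')⟩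
      have : Fact (Nat.Prime 2) := ⟨Nat.prime_two⟩
      let T : Sylow 2 G := default
      have hT : (T : Subgroup G) ≤ Subgroup.zpowers z := by
        intro t ht
        obtain ⟨i, hi⟩ := IsPGroup.iff_orderOf.mp T.isPGroup' ⟨t, ht⟩
        rw [Subgroup.orderOf_mk] at hi
        rcases i with _ | _ | i
        · rw [orderOf_eq_one_iff.mp hi]; exact one_mem _
        · rw [hzu t hi]; exact Subgroup.mem_zpowers z
        · obtain ⟨u, hu⟩ := hfour t (hi ▸ (pow_dvd_pow 2 (by omega) : 2 ^ 2 ∣ 2 ^ (i + 1 + 1)))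
          exact absurd hu (h4 u)
      have hT2 : 2 ^ (Nat.card G).factorization 2 ≤ 2 := by
        have := Subgroup.card_le_of_le hT
        rwa [T.card_eq_multiplicity, hZ] at this
      have hle : k ≤ (Nat.card G).factorization 2 :=
        (Nat.prime_two.pow_dvd_iff_le_factorization Nat.card_pos.ne').mp (hk ▸ hd)
      have h2' : 2 ^ k ≤ 2 := (Nat.pow_le_pow_right two_pos hle).trans hT2
      rcases k with _ | k
      · exfalso
        rw [pow_zero, Subgroup.index_eq_one] at hk
        have := hp1 z (hk ▸ Subgroup.mem_top z)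
        have h7 := hz ▸ orderOf_dvd_of_pow_eq_one this
        have := (Nat.prime_dvd_prime_iff_eq Nat.prime_two hp).mp h7
        omega
      · have := Nat.one_le_two_pow (n := k)
        rw [pow_succ] at h2'
        rw [hk, show 2 ^ (k + 1) = 2 by rw [pow_succ]; omega]
    have hcardG : Nat.card (Subgroup.zpowers z × (S : Subgroup G)) = Nat.card G := by
      rw [Nat.card_prod, hZ, ← (S : Subgroup G).index_mul_card, hindex]
    have hinj : Function.Injective φ := by
      rw [injective_iff_map_eq_one]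
      rintro ⟨a, b⟩ hab
      have hab' : (a : G) * (b : G) = 1 := hab
      have ha : (a : G) = ((b : G))⁻¹ := eq_inv_of_mul_eq_one_left hab'
      have h5 : orderOf (b : G) ∣ 2 := by
        rw [← orderOf_inv, ← ha, Subgroup.orderOf_coe, ← hZ]
        exact orderOf_dvd_natCard a
      have hb : (b : G) = 1 := by
        rw [← orderOf_eq_one_iff]
        exact Nat.eq_one_of_dvd_coprimes hco h5 (orderOf_dvd_of_pow_eq_one (hp1 _ b.2))
      rw [hb, inv_one] at ha
      exact Prod.ext (Subtype.ext ha) (Subtype.ext hb)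
    have hbij : Function.Bijective φ := (Nat.bijective_iff_injective_and_card φ).mpr ⟨hinj, hcardG⟩
    obtain ⟨P, _, _, ⟨eP⟩⟩ := Finite.exists_type_univ_nonempty_mulEquiv.{_, 0} (S : Subgroup G)
    refine ⟨p, P, inferInstance, inferInstance, hp, by omega, S.isPGroup'.of_equiv eP, ?_, ⟨?_⟩⟩
    · rw [← Monoid.exponent_eq_of_mulEquiv eP]
      refine ((Nat.dvd_prime hp).mp (Monoid.exponent_dvd_of_forall_pow_eq_one
        fun g => Subtype.ext (hp1 _ g.2))).resolve_left fun he => ?_
      have := Monoid.exp_eq_one_iff.mp he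
      exact S.ne_bot_of_dvd_card hdp (Subgroup.eq_bot_of_subsingleton _)
    · have hZc : IsCyclic (Subgroup.zpowers z) := inferInstance
      exact (MulEquiv.ofBijective φ hbij).symm.trans
        (((zmodCyclicMulEquiv hZc).symm.trans
          (MulEquiv.cast (M := fun k => Multiplicative (ZMod k)) hZ)).prodCongr eP)

end Cfsg.Agent.S3995
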