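import Cfsg.Statements.S3996
import Cfsg.Agent.FGS5.ThreeCounts

set_option autoImplicit false
open Cfsg

namespace Cfsg.Agent.S3996

open Cfsg.Agent.FGS5.ThreeCounts

/-- A finite group in which the numbers of elements of each order that occurs (the numbers #{g : o(g) = m}, m ranging over the element orders) take exactly three different values is solvable. -/
theorem result {G : Type*} [Group G] [Finite G] (h : (((fun m : ℕ => Nat.card {g : G // orderOf g = m}) '' Set.range (orderOf : G → ℕ))).ncard = 3) : Group.IsSolvable G := by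
  classical
  have h1 : 1 ∈ (fun m : ℕ => Nat.card {g : G // orderOf g = m}) '' Set.range (orderOf : G → ℕ) :=
    ⟨1, ⟨1, orderOf_one⟩, cnt_one⟩
  obtain ⟨a, b, hab, he⟩ := Set.ncard_eq_two.mp (show (((fun m : ℕ =>
    Nat.card {g : G // orderOf g = m}) '' Set.range (orderOf : G → ℕ)) \ {1}).ncard = 2 by
    rw [Set.ncard_diff_singleton_of_mem h1, h])
  have hmem : ∀ g : G, cnt G (orderOf g) ≠ 1 → cnt G (orderOf g) = a ∨ cnt G (orderOf g) = b := by
    intro g hg
    have h2 : cnt G (orderOf g) ∈ ((fun m : ℕ =>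
        Nat.card {g : G // orderOf g = m}) '' Set.range (orderOf : G → ℕ)) \ {1} :=
      ⟨⟨_, ⟨g, rfl⟩, rfl⟩, hg⟩
    rw [he] at h2
    simpa using h2
  have hv : Vals G a b := fun m hm => by
    by_cases h0 : cnt G m = 0
    · exact Or.inl h0
    obtain ⟨g, rfl⟩ := exists_of_cnt_ne h0
    refine Or.inr (hmem g fun e => ?_)
    have := cnt_even (G := G) hm
    rw [e] at this
    omega
  by_cases hG : 2 ∣ Nat.card G
  swap
  · exact Core.isSolvable_of_primeFactors_card_le_two (card_primeFactors_odd hv hG)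
  by_cases hle : (Nat.card G).primeFactors.card ≤ 2
  · exact Core.isSolvable_of_primeFactors_card_le_two hle
  -- two odd primes
  obtain ⟨p, q, hp, hq, hpq⟩ : ∃ p q, p ∈ ((Nat.card G).primeFactors.erase 2) ∧
      q ∈ ((Nat.card G).primeFactors.erase 2) ∧ p ≠ q := by
    refine Finset.one_lt_card_iff.mp ?_
    have := Finset.pred_card_le_card_erase (a := 2) (s := (Nat.card G).primeFactors)
    omega
  obtain ⟨hp2, hp⟩ := Finset.mem_erase.mp hp
  obtain ⟨hq2, hq⟩ := Finset.mem_erase.mp hq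
  rw [Nat.mem_primeFactors] at hp hq
  have := Fact.mk Nat.prime_two
  obtain ⟨z, hz⟩ := exists_prime_orderOf_dvd_card' 2 hG
  by_cases hc2 : cnt G 2 = 1
  swap
  · exfalso
    have hodd : ¬ 2 ∣ cnt G 2 := fun hd => by
      have := frob_prime (G := G) Nat.prime_two hG
      omega
    obtain ⟨d, hd⟩ : ∃ d, Vals G d d := by
      rcases hz ▸ hmem z (hz.symm ▸ hc2) with e | e
      · refine ⟨b, fun m hm => ?_⟩
        rcases hv m hm with e' | e' | e'
        · exact Or.inl e'
        · exact absurd ((e'.trans e.symm) ▸ cnt_even (G := G) hm) hodd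
        · exact Or.inr (Or.inl e')
      · refine ⟨a, fun m hm => ?_⟩
        rcases hv m hm with e' | e' | e'
        · exact Or.inl e'
        · exact Or.inr (Or.inl e')
        · exact absurd ((e'.trans e.symm) ▸ cnt_even (G := G) hm) hodd
    obtain ⟨-, h2d, -, hd0⟩ := pair hd hp.1 hq.1 hp2 hq2 hpq hp.2.1 hq.2.1
      ((cnt_of_dvd hd hp.1 hp2 hp.2.1).elim id id) ((cnt_of_dvd hd hq.1 hq2 hq.2.1).elim id id)
    omega
  have huniq : ∀ x : G, orderOf x = 2 → x = z := fun x hx =>
    congrArg Subtype.val ((Nat.card_eq_one_iff_unique.mp hc2).1.elim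
      (⟨x, hx⟩ : {g : G // orderOf g = 2}) ⟨z, hz⟩)
  have hno4 : ∀ u : G, orderOf u ≠ 4 := by
    intro u hu
    have h4 := (hv 4 (by norm_num)).resolve_left (hu ▸ cnt_pos u)
    rcases cnt_of_dvd hv hp.1 hp2 hp.2.1 with e1 | e1 <;>
      rcases cnt_of_dvd hv hq.1 hq2 hq.2.1 with e2 | e2
    · exact not_share_four z hz huniq hv hp.1 hq.1 hp2 hq2 hpq hp.2.1 hq.2.1 e1 e2 u hu
    · rcases h4 with e | e
      · exact not_ne_four z hz huniq hv hp.1 hq.1 hp2 hq2 hpq hp.2.1 hq.2.1 e1 e2 e u hu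
      · exact not_ne_four z hz huniq hv.symm hq.1 hp.1 hq2 hp2 hpq.symm hq.2.1 hp.2.1 e2 e1 e u hu
    · rcases h4 with e | e
      · exact not_ne_four z hz huniq hv hq.1 hp.1 hq2 hp2 hpq.symm hq.2.1 hp.2.1 e2 e1 e u hu
      · exact not_ne_four z hz huniq hv.symm hp.1 hq.1 hp2 hq2 hpq hp.2.1 hq.2.1 e1 e2 e u hu
    · exact not_share_four z hz huniq hv.symm hp.1 hq.1 hp2 hq2 hpq hp.2.1 hq.2.1 e1 e2 u hu
  let Z := Subgroup.zpowers z
  have hZ : Nat.card Z = 2 := (Nat.card_zpowers z).trans hz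
  have hn : Nat.card G = 2 * Z.index := by rw [← hZ, Z.card_mul_index]
  have hodd : ¬ 2 ∣ Z.index := by
    intro hd
    let T : Sylow 2 G := default
    have hT : (T : Subgroup G) ≤ Z := by
      intro t ht
      obtain ⟨i, hi⟩ := IsPGroup.iff_orderOf.mp T.isPGroup' ⟨t, ht⟩
      rw [Subgroup.orderOf_mk] at hi
      rcases i with _ | _ | i
      · rw [orderOf_eq_one_iff.mp hi]; exact one_mem _
      · rw [huniq t hi]; exact Subgroup.mem_zpowers z
      · exact absurd (orderOf_pow_orderOf_div (orderOf_pos t).ne'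
          (hi ▸ (pow_dvd_pow 2 (by omega) : 2 ^ 2 ∣ 2 ^ (i + 1 + 1)))) (hno4 _)
    have h4 : (2 : ℕ) ^ 2 ∣ Nat.card (T : Subgroup G) := by
      rw [T.card_eq_multiplicity]
      refine pow_dvd_pow 2 ((Nat.prime_two.pow_dvd_iff_le_factorization Nat.card_pos.ne').mp ?_)
      rw [hn, pow_two]
      exact mul_dvd_mul_left 2 hd
    have := Nat.le_of_dvd Nat.card_pos h4
    have := Subgroup.card_le_of_le hT
    omega
  have hshare : ∀ {a b : ℕ}, Vals G a b → ∀ r s, r.Prime → s.Prime → r ∣ Z.index → s ∣ Z.index →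
      r ≠ s → cnt G r = a → cnt G s = a → False := by
    intro a b hv r s hr hs hdr hds hrs ea eb
    have hr2 : r ≠ 2 := fun e => hodd (e ▸ hdr)
    have hs2 : s ≠ 2 := fun e => hodd (e ▸ hds)
    have hdr' := hdr.trans Z.index_dvd_card
    have hds' := hds.trans Z.index_dvd_card
    obtain ⟨-, -, -, ha0⟩ := pair hv hr hs hr2 hs2 hrs hdr' hds' ea eb
    have h1 := le_of_share hv hr hs hr2 hs2 hrs hdr' hds' ea eb Z.index_dvd_card hodd
    have hor : ¬ 2 ∣ r := fun e => hr2 ((Nat.prime_dvd_prime_iff_eq Nat.prime_two hr).mp e).symm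
    have hos : ¬ 2 ∣ s := fun e => hs2 ((Nat.prime_dvd_prime_iff_eq Nat.prime_two hs).mp e).symm
    have h2 := sum_cnt_le (G := G) {1, 2, r, s, 2 * r, 2 * s}
    have hr3 := two_lt_of_prime hr hr2
    have hs3 := two_lt_of_prime hs hs2
    rw [Finset.sum_insert (by simp; omega), Finset.sum_insert (by simp; omega),
      Finset.sum_insert (by simp; omega), Finset.sum_insert (by simp; omega),
      Finset.sum_pair (by omega), cnt_one, hc2, cnt_two_mul z hz huniq hor,
      cnt_two_mul z hz huniq hos, ea, eb] at h2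
    omega
  haveI : Z.Normal := ⟨fun x hx g => by
    obtain ⟨k, rfl⟩ := Subgroup.mem_zpowers_iff.mp hx
    rw [((central z hz huniq g).zpow_left k).symm.eq, mul_inv_cancel_right]
    exact hx⟩
  haveI : Group.IsSolvable (G ⧸ Z) := by
    refine Core.isSolvable_of_primeFactors_card_le_two ?_
    rw [← Subgroup.index_eq_card]
    by_contra hlt
    obtain ⟨r, s, t, hr, hs, ht, hrs, hrt, hst⟩ := Finset.two_lt_card_iff.mp (not_le.mp hlt)
    rw [Nat.mem_primeFactors] at hr hs ht
    have hval : ∀ r, r.Prime ∧ r ∣ Z.index ∧ Z.index ≠ 0 → cnt G r = a ∨ cnt G r = b := fun r hr =>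
      cnt_of_dvd hv hr.1 (fun e => hodd (e ▸ hr.2.1)) (hr.2.1.trans Z.index_dvd_card)
    rcases hval r hr with e1 | e1 <;> rcases hval s hs with e2 | e2 <;> rcases hval t ht with e3 | e3
    all_goals first
      | exact hshare hv r s hr.1 hs.1 hr.2.1 hs.2.1 hrs e1 e2
      | exact hshare hv r t hr.1 ht.1 hr.2.1 ht.2.1 hrt e1 e3
      | exact hshare hv s t hs.1 ht.1 hs.2.1 ht.2.1 hst e2 e3
      | exact hshare hv.symm r s hr.1 hs.1 hr.2.1 hs.2.1 hrs e1 e2
      | exact hshare hv.symm r t hr.1 ht.1 hr.2.1 ht.2.1 hrt e1 e3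
      | exact hshare hv.symm s t hs.1 ht.1 hs.2.1 ht.2.1 hst e2 e3
  haveI : Group.IsSolvable Z := Core.isSolvable_of_primeFactors_card_le_two (by
    rw [hZ, Nat.prime_two.primeFactors]; simp)
  exact solvable_of_ker_le_range Z.subtype (QuotientGroup.mk' Z) (by simp)

end Cfsg.Agent.S3996
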