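import Cfsg.Statements.S3997
import Cfsg.Agent.FGS2.Basic

set_option autoImplicit false
open Cfsg

namespace Cfsg.Agent.S3997

/-- Let G and H be finite groups with the same order type: for every m they have the same number of elements of order m. If G is nilpotent then so is H. -/
theorem result {G H : Type*} [Group G] [Finite G] [Group H] [Finite H] (hT : (∀ m : ℕ, Nat.card {g : G // orderOf g = m} = Nat.card {h : H // orderOf h = m})) (hG : Group.IsNilpotent G) :
    Group.IsNilpotent H := by
  obtain ⟨e, he⟩ := Cfsg.Agent.FGS2.exists_orderEquiv hT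
  rw [((isNilpotent_of_finite_tfae (G := H)).out 0 3 rfl rfl)]
  intro p _ Q
  let P : Sylow p G := default
  have hPn : (P : Subgroup G).Normal :=
    Sylow.normal_of_normalizerCondition normalizerCondition_of_isNilpotent P
  have hPuniq : ∀ g : G, (∃ k, orderOf g = p ^ k) → g ∈ (P : Subgroup G) := by
    rintro g ⟨k, hk⟩
    have hp : IsPGroup p ↥(Subgroup.zpowers g) := IsPGroup.of_card (by rw [Nat.card_zpowers, hk])
    obtain ⟨R, hR⟩ := hp.exists_le_sylow
    have := Sylow.unique_of_normal P hPn
    exact (Subsingleton.elim R P) ▸ hR (Subgroup.mem_zpowers g)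
  have hcard : Nat.card G = Nat.card H := Nat.card_congr e
  have hPQ : Nat.card ↥(P : Subgroup G) = Nat.card ↥(Q : Subgroup H) := by
    rw [P.card_eq_multiplicity, Q.card_eq_multiplicity, hcard]
  let f : ↥(Q : Subgroup H) → ↥(P : Subgroup G) := fun q => ⟨e.symm q, hPuniq _ (by
    obtain ⟨k, hk⟩ := IsPGroup.iff_orderOf.1 Q.isPGroup' q
    exact ⟨k, by rw [← he (e.symm q), e.apply_symm_apply, Subgroup.orderOf_coe, hk]⟩)⟩
  have hf : Function.Surjective f := ((Nat.bijective_iff_injective_and_card f).2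
    ⟨fun a b h => Subtype.ext (e.symm.injective (congrArg Subtype.val h)), hPQ.symm⟩).2
  refine ⟨fun x hx g => ?_⟩
  have hg : e.symm (g * x * g⁻¹) ∈ (P : Subgroup G) := hPuniq _ (by
    obtain ⟨k, hk⟩ := IsPGroup.iff_orderOf.1 Q.isPGroup' ⟨x, hx⟩
    refine ⟨k, ?_⟩
    rw [← he (e.symm _), e.apply_symm_apply]
    rw [Subgroup.orderOf_mk] at hk
    rw [← hk]
    exact orderOf_injective (MulAut.conj g).toMonoidHom (MulAut.conj g).injective x)
  obtain ⟨q, hq⟩ := hf ⟨_, hg⟩
  have : (q : H) = g * x * g⁻¹ := e.symm.injective (congrArg Subtype.val hq)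
  exact this ▸ q.2

end Cfsg.Agent.S3997
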