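import Cfsg.Statements.S3998
import Cfsg.Agent.FGS2.OrderType
import Cfsg.Agent.Core.SupersolvableTower
import Cfsg.Agent.Core.Supersolvable
-- import your own Cfsg.Agent.* helpers here

set_option autoImplicit false
open Cfsg

namespace Cfsg.Agent.S3998

universe u_1 u_2

theorem aux (n : ℕ) : ∀ {G : Type u_1} {H : Type u_2} [Group G] [Finite G] [Group H] [Finite H],
    Nat.card G = n → FGS2.OrderType.SamePow G H → Cfsg.IsSupersolvable G → Group.IsSolvable H := by
  induction n using Nat.strong_induction_on with
  | _ n ih =>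
  intro G H _ _ _ _ hn hT hG
  by_cases h1 : Nat.card G = 1
  · have : Subsingleton H := Finite.card_le_one_iff_subsingleton.mp (by rw [← hT.card_eq, h1])
    exact Group.isSolvable_of_comm fun a b => Subsingleton.elim _ _
  have hne : (Nat.card G).primeFactors.Nonempty := by
    obtain ⟨q, hq, hqd⟩ := Nat.exists_prime_and_dvd h1
    exact ⟨q, Nat.mem_primeFactors.mpr ⟨hq, hqd, Nat.card_pos.ne'⟩⟩
  set p := (Nat.card G).primeFactors.max' hne with hp
  have hpm := (Nat.card G).primeFactors.max'_mem hne
  have : Fact p.Prime := ⟨Nat.prime_of_mem_primeFactors hpm⟩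
  let P : Sylow p G := default
  let Q : Sylow p H := default
  have hP : (P : Subgroup G).Normal := Agent.Core.sylow_normal_of_max_prime hG
    (fun r hr hd => Finset.le_max' _ _ (Nat.mem_primeFactors.mpr ⟨hr, hd, Nat.card_pos.ne'⟩)) P
  obtain ⟨hQ, hPQ⟩ := hT.sylow_normal hP Q
  have hlt : Nat.card (G ⧸ (P : Subgroup G)) < n := by
    rw [← hn, ← (P : Subgroup G).index_mul_card, ← Subgroup.index_eq_card]
    refine lt_mul_of_one_lt_right (Nat.pos_of_ne_zero Subgroup.index_ne_zero_of_finite) ?_
    exact ((P : Subgroup G).one_lt_card_iff_ne_bot).mpr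
      (P.ne_bot_of_dvd_card (Nat.dvd_of_mem_primeFactors hpm))
  have hS : Group.IsSolvable (H ⧸ (Q : Subgroup H)) :=
    ih _ hlt rfl (hT.quotient (P : Subgroup G) P.card_coprime_index (Q : Subgroup H) Q.card_coprime_index hPQ)
      (Agent.Core.isSupersolvable_of_surjective (QuotientGroup.mk'_surjective _) hG)
  have : Group.IsNilpotent (Q : Subgroup H) := Q.isPGroup'.isNilpotent
  have : Group.IsSolvable (Q : Subgroup H) := IsNilpotent.to_isSolvable
  exact Group.isSolvable_of_ker_le_range (Q : Subgroup H).subtype (QuotientGroup.mk' (Q : Subgroup H))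
    (by rw [QuotientGroup.ker_mk', Subgroup.range_subtype])

/-- Let G and H be finite groups with the same order type (for every m the same number of elements of order m). If G is supersolvable then H is solvable. -/
theorem result {G H : Type*} [Group G] [Finite G] [Group H] [Finite H] (hT : (∀ m : ℕ, Nat.card {g : G // orderOf g = m} = Nat.card {h : H // orderOf h = m})) (hG : Cfsg.IsSupersolvable G) :
    Group.IsSolvable H := by
  exact aux (Nat.card G) rfl (FGS2.OrderType.samePow_of_order hT) hG

end Cfsg.Agent.S3998
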