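import Cfsg.Statements.S4001
import Cfsg.Agent.FGS2.FrobeniusType
import Cfsg.Agent.OddLocal.NilBasics
import Cfsg.Agent.OddLocal.Basic
-- import your own Cfsg.Agent.* helpers here

set_option autoImplicit false
open Cfsg

namespace Cfsg.Agent.S4001

open scoped Pointwise

theorem frobenius_identify {F : Type*} [Group F] [Finite F] (N : Subgroup F) [N.Normal] {C : Subgroup F}
    (hC : Cfsg.IsFrobeniusComplement C) (hk : Cfsg.frobeniusKernel C = (N : Set F)) :
    Group.IsNilpotent N ∧ (Nat.card N).Coprime N.index ∧ OddLocal.FPF N C ∧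
      FGS2.ComplementTower.HasUniqueOrders C ∧ Subgroup.IsComplement' N C := by
  obtain ⟨M, hMn, hc, hnil, -, hcop, hfpf, hu⟩ := FGS2.FrobeniusType.kernel_data hC
  have hcard : Nat.card N = Nat.card M := by
    have h1 := PermGroups.Frobenius.natCard_kernel hC
    rw [hk] at h1
    exact h1.trans hc.index_eq_card
  have hNM : N = M := by
    refine Subgroup.eq_of_le_of_card_ge (fun x hx => ?_) hcard.ge
    rw [← FGS2.OrderType.pow_eq_one_iff_mem M hcop, ← hcard]
    exact congrArg Subtype.val (pow_card_eq_one' (x := (⟨x, hx⟩ : N)))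
  subst hNM
  exact ⟨hnil, hcop, hfpf, hu, hc⟩

theorem fix_eq_one {F : Type*} [Group F] [Finite F] {N C : Subgroup F} [N.Normal]
    (hC : Cfsg.IsFrobeniusComplement C) (hk : Cfsg.frobeniusKernel C = (N : Set F))
    (hfpf : OddLocal.FPF N C) (hc : Subgroup.IsComplement' N C)
    {q : ℕ} (hq : q.Prime) {b k : F} (hb : b ∉ N) (hbq : b ^ q = 1) (hkN : k ∈ N)
    (hcomm : b * k = k * b) : k = 1 := by
  have hb' : b ∉ Cfsg.frobeniusKernel C := by rw [hk]; exact hb
  rw [PermGroups.mem_frobeniusKernel, not_or] at hb'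
  obtain ⟨hb1, h2⟩ := hb'
  push Not at h2
  obtain ⟨g, hg⟩ := h2
  have h3 := hfpf _ hg (fun e => hb1 (by
    have := congrArg (fun w => g * w * g⁻¹) e
    simpa [mul_assoc] using this)) (g⁻¹ * k * g)
    (by simpa using (inferInstance : N.Normal).conj_mem _ hkN g⁻¹) (by
      rw [show g⁻¹ * b * g * (g⁻¹ * k * g) = g⁻¹ * (b * k) * g by group, hcomm]
      group)
  have := congrArg (fun w => g * w * g⁻¹) h3
  simpa [mul_assoc] using this

theorem exists_fixed {Γ V : Type*} [Group Γ] [Finite Γ] [CommGroup V] [Finite V] [Nontrivial V]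
    (ψ : Γ →* MulAut V) (N : Subgroup Γ) [N.Normal]
    (hN : ∀ v : V, (∀ k ∈ N, ψ k v = v) → v = 1) (hcop : (Nat.card N).Coprime (Nat.card V))
    {q : ℕ} (hq : q.Prime) {x : Γ} (hxq : x ^ q = 1) (hfix : ∀ k ∈ N, x * k = k * x → k = 1) :
    ∃ v : V, v ≠ 1 ∧ ψ x v = v := by
  classical
  by_contra hno
  push Not at hno
  have hno' : ∀ v : V, ψ x v = v → v = 1 := fun v hv => by
    by_contra h; exact hno v h hv
  have := Fintype.ofFinite N
  have hxpow : ∀ t : Γ, ∀ i : ℕ, (t * x * t⁻¹) ^ i = t * x ^ i * t⁻¹ := fun t i => conj_pow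
  have hsum : ∀ (t : Γ) (v : V), ∏ i ∈ Finset.range q, ψ ((t * x * t⁻¹) ^ i) v = 1 := by
    intro t v
    set y := t * x * t⁻¹ with hy
    set w := ∏ i ∈ Finset.range q, ψ (y ^ i) v with hw
    have hyq : y ^ q = 1 := by rw [hxpow, hxq, mul_one, mul_inv_cancel]
    have h1 : ψ y w = w := by
      have e1 := Finset.prod_range_succ' (fun i => ψ (y ^ i) v) q
      have e2 := Finset.prod_range_succ (fun i => ψ (y ^ i) v) q
      rw [e2, hyq, pow_zero] at e1
      rw [hw, map_prod]
      refine ((mul_right_cancel e1).trans (Finset.prod_congr rfl fun i _ => ?_)).symm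
      rw [pow_succ', map_mul, MulAut.mul_apply]
    have h2 : ψ x (ψ t⁻¹ w) = ψ t⁻¹ w := by
      rw [← MulAut.mul_apply, ← map_mul, show x * t⁻¹ = t⁻¹ * y by rw [hy]; group, map_mul,
        MulAut.mul_apply, h1]
    have h3 := congrArg (ψ t) (hno' _ h2)
    rwa [← MulAut.mul_apply, ← map_mul, mul_inv_cancel, map_one ψ, MulAut.one_apply, map_one] at h3
  let b : ℕ → N → N := fun i t => ⟨(t : Γ) * (x ^ i * (t : Γ)⁻¹ * (x ^ i)⁻¹),
    N.mul_mem t.2 ((inferInstance : N.Normal).conj_mem _ (N.inv_mem t.2) _)⟩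
  have hbij : ∀ i, ¬ q ∣ i → Function.Bijective (b i) := by
    intro i hi
    rw [← Finite.injective_iff_bijective]
    intro y z hyz
    have h1 : (y : Γ) * (x ^ i * (y : Γ)⁻¹ * (x ^ i)⁻¹) = z * (x ^ i * (z : Γ)⁻¹ * (x ^ i)⁻¹) :=
      congrArg Subtype.val hyz
    have h2 : Commute (x ^ i) ((z : Γ)⁻¹ * y) := by
      show x ^ i * ((z : Γ)⁻¹ * y) = (z : Γ)⁻¹ * y * x ^ i
      calc x ^ i * ((z : Γ)⁻¹ * y) = (z : Γ)⁻¹ * ((z : Γ) * (x ^ i * (z : Γ)⁻¹ * (x ^ i)⁻¹)) * x ^ i * y := by group
        _ = _ := by rw [← h1]; group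
    obtain ⟨j, hj⟩ := Nat.exists_mul_mod_eq_one_of_coprime (hq.coprime_iff_not_dvd.mpr hi).symm hq.one_lt
    have h3 := h2.pow_left j
    rw [← pow_mul, pow_eq_pow_mod _ hxq, hj.2, pow_one] at h3
    exact (Subtype.ext (inv_mul_eq_one.mp (hfix _ (N.mul_mem (N.inv_mem z.2) y.2) h3.eq))).symm
  obtain ⟨v, hv⟩ := exists_ne (1 : V)
  apply hv
  obtain ⟨q', hq'⟩ : ∃ q', q = q' + 1 := ⟨q - 1, by have := hq.pos; omega⟩
  have h2 : ∏ i ∈ Finset.range q, ∏ t : N, ψ (((t : Γ) * x * (t : Γ)⁻¹) ^ i) v = 1 := by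
    rw [Finset.prod_comm]
    exact Finset.prod_eq_one fun t _ => hsum t v
  conv at h2 => lhs; arg 1; rw [hq']
  rw [Finset.prod_range_succ'] at h2
  rw [Finset.prod_eq_one (fun i hi => ?_), one_mul] at h2
  · simp only [pow_zero, map_one, MulAut.one_apply, Finset.prod_const, Finset.card_univ] at h2
    rw [← Nat.card_eq_fintype_card] at h2
    exact orderOf_eq_one_iff.mp (Nat.eq_one_of_dvd_coprimes hcop (orderOf_dvd_of_pow_eq_one h2)
      (orderOf_dvd_natCard v))
  · have hi' := Finset.mem_range.mp hi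
    have hnd : ¬ q ∣ i + 1 := fun hd => absurd (Nat.le_of_dvd (Nat.succ_pos i) hd) (by omega)
    have e : ∀ t : N, ψ (((t : Γ) * x * (t : Γ)⁻¹) ^ (i + 1)) v =
        ψ (b (i + 1) t : Γ) (ψ (x ^ (i + 1)) v) := fun t => by
      rw [← MulAut.mul_apply, ← map_mul, hxpow]
      congr 2
      simp only [b]
      group
    simp only [e]
    rw [(hbij _ hnd).prod_comp (fun y : N => ψ (y : Γ) (ψ (x ^ (i + 1)) v))]
    refine hN _ fun k hk => ?_
    rw [map_prod]
    refine Fintype.prod_equiv (Equiv.mulLeft (⟨k, hk⟩ : N)) _ _ fun t => ?_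
    simp only [Equiv.coe_mulLeft, Subgroup.coe_mul, map_mul, MulAut.mul_apply]

theorem exists_commuting_pair {G : Type*} [Group G] [Finite G] (H K : Subgroup G) [H.Normal] [K.Normal]
    (hHK : H ≤ K) {C : Subgroup K} (hC : Cfsg.IsFrobeniusComplement C)
    (hcC : Subgroup.IsComplement' (H.subgroupOf K) C) (hfC : OddLocal.FPF (H.subgroupOf K) C)
    {D : Subgroup (G ⧸ H)} (hD : Cfsg.IsFrobeniusComplement D)
    (hDk : Cfsg.frobeniusKernel D = (K.map (QuotientGroup.mk' H) : Set (G ⧸ H)))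
    (hfD : OddLocal.FPF (K.map (QuotientGroup.mk' H)) D)
    (hcD : Subgroup.IsComplement' (K.map (QuotientGroup.mk' H)) D)
    (_hcop : (Nat.card (K.map (QuotientGroup.mk' H))).Coprime (K.map (QuotientGroup.mk' H)).index)
    (hnil : Group.IsNilpotent (H.subgroupOf K))
    (hcop1 : (Nat.card (K.map (QuotientGroup.mk' H))).Coprime (Nat.card H))
    {r s : ℕ} (hr : r.Prime) (hs : s.Prime) (hrH : r ∣ Nat.card H)
    (hsK : ¬ s ∣ Nat.card (K.map (QuotientGroup.mk' H))) (hsG : s ∣ Nat.card G) (hsH : ¬ s ∣ Nat.card H) :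
    ∃ a b : G, orderOf a = r ∧ orderOf b = s ∧ Commute a b := by
  classical
  have := Fact.mk hr
  have := Fact.mk hs
  set π := QuotientGroup.mk' H with hπdef
  have hπ : Function.Surjective π := QuotientGroup.mk'_surjective H
  have hπ1 : ∀ g, π g = 1 ↔ g ∈ H := fun g => QuotientGroup.eq_one_iff g
  have hKn : (K.map π).Normal := Subgroup.Normal.map inferInstance π hπ
  let V : Subgroup G :=
    { carrier := {z | z ∈ H ∧ (∀ h ∈ H, h * z = z * h) ∧ z ^ r = 1}
      one_mem' := ⟨one_mem H, fun h _ => by simp, one_pow r⟩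
      mul_mem' := by
        rintro a b ⟨ha, hac, har⟩ ⟨hb, hbc, hbr⟩
        refine ⟨H.mul_mem ha hb, fun h hh => ?_, ?_⟩
        · rw [← mul_assoc, hac h hh, mul_assoc, hbc h hh, mul_assoc]
        · rw [(show Commute a b from hbc a ha).mul_pow, har, hbr, one_mul]
      inv_mem' := by
        rintro a ⟨ha, hac, har⟩
        exact ⟨H.inv_mem ha, fun h hh => (show Commute h a from hac h hh).inv_right.eq,
          by rw [inv_pow, har, inv_one]⟩ }
  have hVn : V.Normal := by
    refine ⟨fun z hz g => ⟨(inferInstance : H.Normal).conj_mem _ hz.1 g, fun h hh => ?_, ?_⟩⟩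
    · have h1 := hz.2.1 (g⁻¹ * h * g) (by simpa using (inferInstance : H.Normal).conj_mem _ hh g⁻¹)
      calc h * (g * z * g⁻¹) = g * (g⁻¹ * h * g * z) * g⁻¹ := by group
        _ = g * z * g⁻¹ * h := by rw [h1]; group
    · rw [conj_pow, hz.2.2, mul_one, mul_inv_cancel]
  let _ : CommGroup V := { (inferInstance : Group V) with
    mul_comm := fun a b => Subtype.ext (b.2.2.1 a a.2.1) }
  obtain ⟨z, hz, hz1⟩ : ∃ z ∈ V, z ≠ 1 := by
    have := hnil
    have hH' : Nat.card (H.subgroupOf K) = Nat.card H := Nat.card_congr (Subgroup.subgroupOfEquivOfLe hHK).toEquiv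
    obtain ⟨P⟩ : Nonempty (Sylow r (H.subgroupOf K)) := inferInstance
    have hPn : (P : Subgroup (H.subgroupOf K)).Normal :=
      Core.isNilpotent_iff_forall_sylow_normal.mp hnil r inferInstance P
    obtain ⟨z, hzP, hz1, hzc⟩ := OddLocal.exists_ne_one_mem_center_of_normal (P : Subgroup (H.subgroupOf K))
      (P.ne_bot_of_dvd_card (hH' ▸ hrH))
    obtain ⟨k, hk⟩ := IsPGroup.iff_orderOf.mp P.isPGroup' ⟨z, hzP⟩
    rw [Subgroup.orderOf_mk] at hk
    rcases k with _ | k
    · exact absurd (orderOf_eq_one_iff.mp hk) hz1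
    have hord : orderOf (z ^ (r ^ k)) = r := by
      rw [orderOf_pow_of_dvd (pow_ne_zero _ hr.ne_zero) (by rw [hk, pow_succ]; exact dvd_mul_right _ _),
        hk, pow_succ, Nat.mul_div_cancel_left _ (pow_pos hr.pos k)]
    refine ⟨(((z ^ (r ^ k) : H.subgroupOf K) : K) : G), ⟨(z ^ (r ^ k)).2, fun h hh => ?_, ?_⟩, fun e => ?_⟩
    · exact congrArg (fun w : H.subgroupOf K => ((w : K) : G))
        (Subgroup.mem_center_iff.mp (pow_mem hzc (r ^ k)) ⟨⟨h, hHK hh⟩, hh⟩)
    · have h1 := pow_orderOf_eq_one (z ^ (r ^ k))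
      rw [hord] at h1
      have h2 := congrArg (fun w : H.subgroupOf K => ((w : K) : G)) h1
      simpa using h2
    · rw [show z ^ (r ^ k) = 1 from Subtype.ext (Subtype.ext e), orderOf_one] at hord
      exact hr.ne_one hord.symm
  have : Nontrivial V := ⟨⟨⟨z, hz⟩, 1, fun e => hz1 (congrArg Subtype.val e)⟩⟩
  let c : G →* MulAut V := MulAut.conjNormal
  have hker : H ≤ c.ker := by
    intro h hh
    rw [MonoidHom.mem_ker]
    refine MulEquiv.ext fun v => Subtype.ext ?_
    rw [MulAut.conjNormal_apply, MulAut.one_apply, v.2.2.1 h hh, mul_inv_cancel_right]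
  let ψ : G ⧸ H →* MulAut V := QuotientGroup.lift H c hker
  have hψ : ∀ g v, (ψ (π g) v : G) = g * v * g⁻¹ := fun g v => MulAut.conjNormal_apply g v
  obtain ⟨x, hx⟩ := exists_prime_orderOf_dvd_card' s hsG
  have hxK : π x ∉ K.map π := by
    intro hm
    have hx1 : π x ≠ 1 := fun e => hsH (hx ▸ H.orderOf_dvd_natCard ((hπ1 x).mp e))
    exact hx1 (orderOf_eq_one_iff.mp (Nat.eq_one_of_dvd_coprimes (hs.coprime_iff_not_dvd.mpr hsK)
      ((orderOf_map_dvd π x).trans hx.dvd) ((K.map π).orderOf_dvd_natCard hm)))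
  have hxs : π x ^ s = 1 := by rw [← map_pow, ← hx, pow_orderOf_eq_one, map_one]
  have hVr : IsPGroup r V := fun v => ⟨1, Subtype.ext (by rw [pow_one, SubmonoidClass.coe_pow]; exact v.2.2.2)⟩
  obtain ⟨n, hn⟩ := IsPGroup.iff_card.mp hVr
  have hcopV : (Nat.card (K.map π)).Coprime (Nat.card V) := by
    rw [hn]; exact Nat.Coprime.pow_right n (hcop1.coprime_dvd_right hrH)
  obtain ⟨v, hv1, hv⟩ := exists_fixed ψ (K.map π) (fun v hv => by
    obtain ⟨cc, hcc, hc1⟩ := C.bot_or_exists_ne_one.resolve_left hC.1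
    have h1 := congrArg Subtype.val (hv (π (cc : G)) (Subgroup.mem_map_of_mem π cc.2))
    rw [hψ, mul_inv_eq_iff_eq_mul] at h1
    have := hfC cc hcc hc1 ⟨v, hHK v.2.1⟩ v.2.1 (Subtype.ext h1)
    exact Subtype.ext (congrArg Subtype.val this : _)) hcopV hs hxs
    (fun k hk hc => fix_eq_one hD hDk hfD hcD hs hxK hxs hk hc)
  refine ⟨v, x, ?_, hx, ?_⟩
  · exact orderOf_eq_prime v.2.2.2 (fun e => hv1 (Subtype.ext e))
  · have h1 := congrArg Subtype.val hv
    rw [hψ, mul_inv_eq_iff_eq_mul] at h1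
    exact h1.symm

/-- Let G be a 2-Frobenius group: it has normal subgroups H < K with K a Frobenius group with kernel H and G/H a Frobenius group with kernel K/H. Then G is solvable; K/H has odd order coprime to the order of H and to the order of G/K (it is the image of an odd-order Hall subgroup); G/K is cyclic; and the prime graph of G has exactly two connected components, both complete: for distinct primes p, q dividing the order of G, G has an element of order pq exactly when p and q either both divide the order of K/H or both do not. -/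
theorem result {G : Type*} [Group G] [Finite G] (H K : Subgroup G) [H.Normal] [K.Normal] (hlt : H < K)
    (hK : ∃ C : Subgroup ↥K, Cfsg.IsFrobeniusComplement C ∧ Cfsg.frobeniusKernel C = (H.subgroupOf K : Set ↥K))
    (hGH : ∃ C : Subgroup (G ⧸ H), Cfsg.IsFrobeniusComplement C ∧ Cfsg.frobeniusKernel C = (K.map (QuotientGroup.mk' H) : Set (G ⧸ H))) :
    Group.IsSolvable G ∧ Odd (Nat.card (↥K ⧸ H.subgroupOf K)) ∧
      Nat.Coprime (Nat.card (↥K ⧸ H.subgroupOf K)) (Nat.card ↥H * Nat.card (G ⧸ K)) ∧ IsCyclic (G ⧸ K) ∧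
      ∀ p q : ℕ, p.Prime → q.Prime → p ≠ q → p ∣ Nat.card G → q ∣ Nat.card G →
        ((∃ g : G, orderOf g = p * q) ↔ (p ∣ Nat.card (↥K ⧸ H.subgroupOf K) ↔ q ∣ Nat.card (↥K ⧸ H.subgroupOf K))) := by
  classical
  obtain ⟨C, hC, hCk⟩ := hK
  obtain ⟨D, hD, hDk⟩ := hGH
  set π := QuotientGroup.mk' H with hπdef
  have hπ : Function.Surjective π := QuotientGroup.mk'_surjective H
  have hπ1 : ∀ g, π g = 1 ↔ g ∈ H := fun g => QuotientGroup.eq_one_iff g
  set H' := H.subgroupOf K with hH'
  set Kb := K.map π with hKb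
  have hKbn : Kb.Normal := Subgroup.Normal.map inferInstance π hπ
  obtain ⟨hH'nil, hH'cop, hfC, huC, hcC⟩ := frobenius_identify H' hC hCk
  obtain ⟨hKbnil, hKbcop, hfD, huD, hcD⟩ := frobenius_identify Kb hD hDk
  let f : K →* G ⧸ H := π.comp K.subtype
  have hCinj : Function.Injective (f.comp C.subtype) := by
    rw [injective_iff_map_eq_one]
    intro c hc
    exact Subtype.ext (Subgroup.disjoint_def.mp hcC.disjoint
      (Subgroup.mem_subgroupOf.mpr ((hπ1 _).mp hc)) c.2)
  have hcardKb : Nat.card Kb = Nat.card C := by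
    have hrange : f.range = Kb := by rw [MonoidHom.range_comp, Subgroup.range_subtype]
    have hker : f.ker = H' := by
      ext k
      rw [MonoidHom.mem_ker, Subgroup.mem_subgroupOf]
      exact hπ1 _
    rw [← hrange, ← Subgroup.index_ker, hker, hcC.symm.index_eq_card]
  have hrle : (f.comp C.subtype).range ≤ Kb := by
    rintro _ ⟨c, rfl⟩
    exact Subgroup.mem_map_of_mem π (c : K).2
  have hreq : (f.comp C.subtype).range = Kb :=
    Subgroup.eq_of_le_of_card_ge hrle (by
      rw [hcardKb, ← Nat.card_congr (MonoidHom.ofInjective hCinj).toEquiv])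
  let eC : C ≃* Kb := (MonoidHom.ofInjective hCinj).trans (MulEquiv.subgroupCongr hreq)
  have huKb : FGS2.ComplementTower.HasUniqueOrders Kb := huC.of_injective eC.symm.toMonoidHom eC.symm.injective
  have hDne : D ≠ ⊥ := hD.1
  -- `K/H` has odd order
  have hodd : ¬ 2 ∣ Nat.card Kb := by
    intro h2
    have : Fact (Nat.Prime 2) := ⟨Nat.prime_two⟩
    obtain ⟨t, ht⟩ := exists_prime_orderOf_dvd_card' (G := Kb) 2 h2
    obtain ⟨d, hdD, hd1⟩ := D.bot_or_exists_ne_one.resolve_left hDne
    let P : Sylow 2 Kb := default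
    have hPn : (P : Subgroup Kb).Normal :=
      Core.isNilpotent_iff_forall_sylow_normal.mp hKbnil 2 inferInstance P
    have hmem : ∀ u : Kb, orderOf u = 2 → u ∈ (P : Subgroup Kb) := by
      intro u hu
      have hz : IsPGroup 2 (Subgroup.zpowers u) := IsPGroup.of_card (n := 1) (by
        rw [Nat.card_zpowers, hu, pow_one])
      obtain ⟨Q, hQ⟩ := hz.exists_le_sylow
      have : Subsingleton (Sylow 2 Kb) := (Sylow.unique_of_normal P hPn).instSubsingleton
      rw [Subsingleton.elim Q P] at hQ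
      exact hQ (Subgroup.mem_zpowers u)
    have huniq : ∀ u v : Kb, orderOf u = 2 → orderOf v = 2 → v = u := by
      intro u v hu hv
      have hu2 : u ^ 2 = 1 := by have := pow_orderOf_eq_one u; rwa [hu] at this
      have hv2 : v ^ 2 = 1 := by have := pow_orderOf_eq_one v; rwa [hv] at this
      have hu' : (⟨u, hmem u hu⟩ : (P : Subgroup Kb)) ^ 2 = 1 :=
        Subtype.ext (by rw [SubmonoidClass.coe_pow]; exact hu2)
      have hv' : (⟨v, hmem v hv⟩ : (P : Subgroup Kb)) ^ 2 = 1 :=
        Subtype.ext (by rw [SubmonoidClass.coe_pow]; exact hv2)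
      obtain ⟨k, hk⟩ := Subgroup.mem_zpowers_iff.mp (huKb 2 P _ _ hu' hv' (fun e => by
        rw [show u = 1 from congrArg Subtype.val e, orderOf_one] at hu; omega))
      have hk' : u ^ k = v := congrArg Subtype.val hk
      rcases Int.even_or_odd k with ⟨m, rfl⟩ | ⟨m, rfl⟩
      · exfalso
        rw [← two_mul, zpow_mul, zpow_two, ← pow_two, hu2, one_zpow] at hk'
        rw [← hk', orderOf_one] at hv; omega
      · rw [zpow_add, zpow_mul, zpow_two, ← pow_two, hu2, one_zpow, one_mul,
          zpow_one] at hk'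
        exact hk'.symm
    have hconj : orderOf (MulAut.conjNormal d t : Kb) = 2 := by rw [MulEquiv.orderOf_eq, ht]
    have h3 := congrArg Subtype.val (huniq t _ ht hconj)
    rw [MulAut.conjNormal_apply, mul_inv_eq_iff_eq_mul] at h3
    have := hfD d hdD hd1 t t.2 h3
    rw [show t = 1 from Subtype.ext this, orderOf_one] at ht
    omega
  have hKbcyc : IsCyclic Kb := by
    have : IsZGroup Kb := ⟨fun r hr P => by
      have := Fact.mk hr
      by_cases hr2 : r = 2
      · subst hr2
        have hP : (P : Subgroup Kb) = ⊥ := Subgroup.eq_bot_of_card_eq _ (by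
          rw [P.card_eq_multiplicity, Nat.factorization_eq_zero_of_not_dvd hodd, pow_zero])
        have : Subsingleton (P : Subgroup Kb) := by rw [hP]; infer_instance
        infer_instance
      · exact OddLocal.isCyclic_of_uniqueOrderP _ P.isPGroup' (huKb r P) (Or.inl hr2) le_rfl⟩
    exact inferInstance
  -- `G/K` is cyclic
  let act : D →* MulAut Kb := (MulAut.conjNormal (H := Kb)).comp D.subtype
  have hact : Function.Injective act := by
    rw [injective_iff_map_eq_one]
    intro d hd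
    by_contra hd1
    obtain ⟨k, hk, hk1⟩ := Kb.bot_or_exists_ne_one.resolve_left (by
      intro e
      rw [e, Subgroup.card_bot] at hcardKb
      exact hC.1 (Subgroup.eq_bot_of_card_eq C hcardKb.symm))
    refine hk1 (hfD d d.2 (fun e => hd1 (Subtype.ext e)) k hk ?_)
    have := congrArg (fun φ : MulAut Kb => ((φ ⟨k, hk⟩ : Kb) : G ⧸ H)) hd
    simp only [act, MonoidHom.comp_apply, MulAut.conjNormal_apply, MulAut.one_apply,
      Subgroup.coe_subtype, mul_inv_eq_iff_eq_mul] at this
    exact this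
  have hDcomm : ∀ a b : D, a * b = b * a := fun a b => hact (by
    rw [map_mul, map_mul]
    apply (IsCyclic.mulAutMulEquiv Kb).injective
    rw [map_mul, map_mul, mul_comm])
  have hDcyc : IsCyclic D := by
    have : IsZGroup D := ⟨fun r hr P => by
      have := Fact.mk hr
      exact OddLocal.isCyclic_of_uniqueOrderP _ P.isPGroup' (huD r P)
        (Or.inr fun a b => Subtype.ext (hDcomm a b)) le_rfl⟩
    let _ : CommGroup D := { (inferInstance : Group D) with mul_comm := hDcomm }
    exact inferInstance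
  have hHK : H ≤ K := hlt.le
  let eK : G ⧸ K ≃* D :=
    (QuotientGroup.quotientQuotientEquivQuotient H K hHK).symm.trans
      (Subgroup.IsComplement'.QuotientMulEquiv hcD.symm)
  have hGKcyc : IsCyclic (G ⧸ K) := isCyclic_of_surjective eK.symm eK.symm.surjective
  have hKcard : Nat.card (↥K ⧸ H') = Nat.card Kb := by
    rw [hcardKb, ← Subgroup.index_eq_card, hcC.symm.index_eq_card]
  have hHcard : Nat.card H' = Nat.card H := Nat.card_congr (Subgroup.subgroupOfEquivOfLe hHK).toEquiv
  have hDcard : Nat.card (G ⧸ K) = Nat.card D := Nat.card_congr eK.toEquiv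
  have hcop1 : (Nat.card Kb).Coprime (Nat.card H) := by
    rw [← hKcard, ← Subgroup.index_eq_card, ← hHcard]; exact hH'cop.symm
  have hcop2 : (Nat.card Kb).Coprime (Nat.card D) := by
    rw [← hcD.symm.index_eq_card]; exact hKbcop
  have hsol : Group.IsSolvable G := by
    have : Group.IsSolvable H :=
      have : Group.IsSolvable H' := IsNilpotent.to_isSolvable (h := hH'nil)
      Group.isSolvable_of_surjective (f := (Subgroup.subgroupOfEquivOfLe hHK).toMonoidHom)
        (MulEquiv.surjective _)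
    have : Group.IsSolvable ((G ⧸ H) ⧸ Kb) := by
      have := hDcyc
      exact Group.isSolvable_of_isSolvable_injective
        (Subgroup.IsComplement'.QuotientMulEquiv hcD.symm).injective (f := (Subgroup.IsComplement'.QuotientMulEquiv hcD.symm).toMonoidHom)
    have : Group.IsSolvable (G ⧸ H) :=
      Group.isSolvable_of_ker_le_range Kb.subtype (QuotientGroup.mk' Kb)
        (by rw [QuotientGroup.ker_mk', Subgroup.range_subtype])
    exact Group.isSolvable_of_ker_le_range H.subtype π
      (by rw [QuotientGroup.ker_mk', Subgroup.range_subtype])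
  refine ⟨hsol, ?_, ?_, hGKcyc, ?_⟩
  · rw [hKcard]; exact Nat.not_even_iff_odd.mp fun he => hodd he.two_dvd
  · rw [hKcard, hDcard]; exact Nat.Coprime.mul_right hcop1 hcop2
  -- prime graph
  have hcardG : Nat.card G = Nat.card D * (Nat.card Kb * Nat.card H) := by
    rw [← H.index_mul_card, Subgroup.index_eq_card, ← Kb.index_mul_card, hcD.symm.index_eq_card, mul_assoc]
  -- no mixed element
  have hmix : ∀ (a b : G) (p q : ℕ), p.Prime → q.Prime → p ∣ Nat.card Kb → ¬ q ∣ Nat.card Kb →
      orderOf a = p → orderOf b = q → ¬ Commute a b := by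
    intro a b p q hp hq hpK hqK ha hb hab
    have haH : π a ≠ 1 := fun e => by
      have := H.orderOf_dvd_natCard ((hπ1 a).mp e)
      rw [ha] at this
      exact hp.not_dvd_one (hcop1 ▸ Nat.dvd_gcd hpK this)
    have haKb : π a ∈ Kb := by
      rw [← QuotientGroup.eq_one_iff, ← orderOf_eq_one_iff]
      refine Nat.eq_one_of_dvd_coprimes hcop2 ?_ ?_
      · exact ((orderOf_map_dvd (QuotientGroup.mk' Kb) (π a)).trans
          ((orderOf_map_dvd π a).trans ha.dvd)).trans hpK
      · rw [← hcD.symm.index_eq_card, Subgroup.index_eq_card]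
        exact orderOf_dvd_natCard _
    have hc : Commute (π a) (π b) := hab.map π
    by_cases hbK : π b ∈ Kb
    · -- both in `K`
      have hbH : b ∈ H := by
        rw [← hπ1, ← orderOf_eq_one_iff]
        exact Nat.eq_one_of_dvd_coprimes (hq.coprime_iff_not_dvd.mpr hqK)
          ((orderOf_map_dvd π b).trans hb.dvd) (Kb.orderOf_dvd_natCard hbK)
      have haK : a ∈ K := by
        obtain ⟨k, hk, hka⟩ := haKb
        have : k⁻¹ * a ∈ H := (hπ1 _).mp (by rw [map_mul, map_inv, hka, inv_mul_cancel])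
        simpa using K.mul_mem hk (hHK this)
      obtain ⟨x, hx⟩ := PermGroups.Frobenius.exists_le_conj hC (Subgroup.zpowers (⟨a, haK⟩ : K))
        (by rw [Nat.card_zpowers, Subgroup.orderOf_mk, ha, ← hcardKb]; exact hpK)
      have h1 : x⁻¹ * ⟨a, haK⟩ * x ∈ C := PermGroups.mem_conj_smul.mp (hx (Subgroup.mem_zpowers _))
      have hb' : (⟨b, hHK hbH⟩ : K) ∈ H' := hbH
      have h2 : x⁻¹ * ⟨b, hHK hbH⟩ * x ∈ H' := by
        simpa using (inferInstance : H'.Normal).conj_mem _ hb' x⁻¹
      have h3 := hfC _ h1 (fun e => by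
        have : (⟨a, haK⟩ : K) = 1 := by
          have := congrArg (fun w => x * w * x⁻¹) e
          simpa [mul_assoc] using this
        rw [show a = 1 from congrArg Subtype.val this, orderOf_one] at ha
        exact hp.ne_one ha.symm) _ h2 (by
          have : (⟨a, haK⟩ : K) * ⟨b, hHK hbH⟩ = ⟨b, hHK hbH⟩ * ⟨a, haK⟩ := Subtype.ext hab.eq
          rw [show x⁻¹ * ⟨a, haK⟩ * x * (x⁻¹ * ⟨b, hHK hbH⟩ * x) = x⁻¹ * (⟨a, haK⟩ * ⟨b, hHK hbH⟩) * x
            by group, this]
          group)
      have : (⟨b, hHK hbH⟩ : K) = 1 := by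
        have := congrArg (fun w => x * w * x⁻¹) h3
        simpa [mul_assoc] using this
      rw [show b = 1 from congrArg Subtype.val this, orderOf_one] at hb
      exact hq.ne_one hb.symm
    · refine haH (fix_eq_one hD hDk hfD hcD hq hbK ?_ haKb hc.symm.eq)
      rw [← map_pow, ← hb, pow_orderOf_eq_one, map_one]
  intro p q hp hq hne hpG hqG
  constructor
  · rintro ⟨g, hg⟩
    have ho1 : orderOf (g ^ q) = p := by
      rw [orderOf_pow_of_dvd hq.ne_zero (by rw [hg]; exact dvd_mul_left q p), hg,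
        Nat.mul_div_cancel _ hq.pos]
    have ho2 : orderOf (g ^ p) = q := by
      rw [orderOf_pow_of_dvd hp.ne_zero (by rw [hg]; exact dvd_mul_right p q), hg,
        Nat.mul_div_cancel_left _ hp.pos]
    rw [hKcard]
    constructor
    · intro hpK
      by_contra hqK
      exact hmix _ _ p q hp hq hpK hqK ho1 ho2 (Commute.pow_pow_self g q p)
    · intro hqK
      by_contra hpK
      exact hmix _ _ q p hq hp hqK hpK ho2 ho1 (Commute.pow_pow_self g p q)
  · rw [hKcard]
    intro hiff
    have := Fact.mk hp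
    have := Fact.mk hq
    suffices hex : ∃ a b : G, orderOf a = p ∧ orderOf b = q ∧ Commute a b by
      obtain ⟨a, b, ha, hb, hab⟩ := hex
      exact ⟨a * b, by rw [hab.orderOf_mul_eq_mul_orderOf_of_coprime
        (by rw [ha, hb]; exact (Nat.coprime_primes hp hq).mpr hne), ha, hb]⟩
    by_cases hpK : p ∣ Nat.card Kb
    · have hqK := hiff.mp hpK
      obtain ⟨a, ha⟩ := exists_prime_orderOf_dvd_card' (G := C) p (hcardKb ▸ hpK)
      obtain ⟨b, hb⟩ := exists_prime_orderOf_dvd_card' (G := C) q (hcardKb ▸ hqK)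
      have := hKbcyc
      let _ : CommGroup Kb := IsCyclic.commGroup
      have hab : a * b = b * a := eC.injective (by rw [map_mul, map_mul, mul_comm])
      refine ⟨((a : K) : G), ((b : K) : G), ?_, ?_, congrArg (fun c : C => ((c : K) : G)) hab⟩
      · rw [Subgroup.orderOf_coe, Subgroup.orderOf_coe, ha]
      · rw [Subgroup.orderOf_coe, Subgroup.orderOf_coe, hb]
    have hqK : ¬ q ∣ Nat.card Kb := fun h => hpK (hiff.mpr h)
    have hcases : ∀ r : ℕ, r.Prime → r ∣ Nat.card G → ¬ r ∣ Nat.card Kb →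
        r ∣ Nat.card H ∨ r ∣ Nat.card D ∧ ¬ r ∣ Nat.card H := by
      intro r hr hrG hrK
      rw [hcardG] at hrG
      rcases hr.dvd_mul.mp hrG with h | h
      · by_cases hrH : r ∣ Nat.card H
        · exact Or.inl hrH
        · exact Or.inr ⟨h, hrH⟩
      · exact Or.inl ((hr.dvd_mul.mp h).resolve_left hrK)
    have hHD : ∀ r s : ℕ, r.Prime → s.Prime → r ≠ s → r ∣ Nat.card H → s ∣ Nat.card D → ¬ s ∣ Nat.card H →
        ¬ s ∣ Nat.card Kb → ∃ a b : G, orderOf a = r ∧ orderOf b = s ∧ Commute a b := by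
      intro r s hr hs hrs hrH hsD hsH hsK
      exact exists_commuting_pair H K hlt.le hC hcC hfC hD hDk hfD hcD hKbcop
        hH'nil hcop1 hr hs hrH hsK (hcardG ▸ dvd_mul_of_dvd_left hsD _) hsH
    rcases hcases p hp hpG hpK with hpH | ⟨hpD, hpH⟩ <;>
      rcases hcases q hq hqG hqK with hqH | ⟨hqD, hqH⟩
    · obtain ⟨a, ha⟩ := exists_prime_orderOf_dvd_card' (G := H') p (hHcard ▸ hpH)
      obtain ⟨b, hb⟩ := exists_prime_orderOf_dvd_card' (G := H') q (hHcard ▸ hqH)
      have := hH'nil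
      have hab : Commute a b := OddLocal.commute_of_coprime_orderOf
        (by rw [ha, hb]; exact (Nat.coprime_primes hp hq).mpr hne)
      refine ⟨((a : K) : G), ((b : K) : G), ?_, ?_, congrArg (fun c : H' => ((c : K) : G)) hab⟩
      · rw [Subgroup.orderOf_coe, Subgroup.orderOf_coe, ha]
      · rw [Subgroup.orderOf_coe, Subgroup.orderOf_coe, hb]
    · exact hHD p q hp hq hne hpH hqD hqH hqK
    · obtain ⟨a, b, ha, hb, hab⟩ := hHD q p hq hp hne.symm hqH hpD hpH hpK
      exact ⟨b, a, hb, ha, hab.symm⟩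
    · have := hGKcyc
      obtain ⟨g0, hg0⟩ := IsCyclic.exists_ofOrder_eq_natCard (α := G ⧸ K)
      obtain ⟨g, rfl⟩ := QuotientGroup.mk'_surjective K g0
      have hdiv : Nat.card D ∣ orderOf g := hDcard ▸ hg0 ▸ orderOf_map_dvd (QuotientGroup.mk' K) g
      exact ⟨g ^ (orderOf g / p), g ^ (orderOf g / q),
        orderOf_pow_orderOf_div (orderOf_pos g).ne' (hpD.trans hdiv),
        orderOf_pow_orderOf_div (orderOf_pos g).ne' (hqD.trans hdiv), Commute.pow_pow_self g _ _⟩

end Cfsg.Agent.S4001
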