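import Cfsg.Statements.S4002
import Cfsg.Agent.OddLocal.PrimePowerOrders
import Cfsg.Agent.Core.Hall
import Mathlib.NumberTheory.Bertrand
-- import your own Cfsg.Agent.* helpers here

set_option autoImplicit false
open Cfsg

namespace Cfsg.Agent.S4002

open Cfsg.Agent

theorem three_primes (n : ℕ) (hn : 7 ≤ n) : ∃ a b c : ℕ, a.Prime ∧ b.Prime ∧ c.Prime ∧ a < b ∧ b < c ∧
    c ≤ n ∧ n < a * b := by
  by_cases h1 : n < 15
  · exact ⟨3, 5, 7, by norm_num, by norm_num, by norm_num, by norm_num, by norm_num, hn, by omega⟩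
  by_cases h2 : n < 35
  · exact ⟨5, 7, 11, by norm_num, by norm_num, by norm_num, by norm_num, by norm_num, by omega, by omega⟩
  by_cases h3 : n < 77
  · exact ⟨7, 11, 13, by norm_num, by norm_num, by norm_num, by norm_num, by norm_num, by omega, by omega⟩
  set s := Nat.sqrt n with hs
  have hs8 : 8 ≤ s := Nat.le_sqrt.mpr (by omega)
  have hss : s * s ≤ n := Nat.sqrt_le n
  have hlt : n < (s + 1) * (s + 1) := Nat.lt_succ_sqrt n
  obtain ⟨a, ha, ha1, ha2⟩ := Nat.exists_prime_lt_and_le_two_mul s (by omega)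
  obtain ⟨b, hb, hb1, hb2⟩ := Nat.exists_prime_lt_and_le_two_mul (2 * s) (by omega)
  obtain ⟨c, hc, hc1, hc2⟩ := Nat.exists_prime_lt_and_le_two_mul (4 * s) (by omega)
  exact ⟨a, b, c, ha, hb, hc, by omega, by omega, by nlinarith, by nlinarith⟩

/-- If the set of element orders of a finite group G is {1, 2, …, n} with n ≥ 7, then G is not solvable. -/
theorem result {G : Type*} [Group G] [Finite G] (n : ℕ) (hn : 7 ≤ n) (h : Set.range (orderOf : G → ℕ) = {k : ℕ | 1 ≤ k ∧ k ≤ n}) : ¬ Group.IsSolvable G := by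
  intro hsol
  haveI := hsol
  obtain ⟨a, b, c, ha, hb, hc, hab, hbc, hcn, habn⟩ := three_primes n hn
  set π : Set ℕ := {a, b, c} with hπ
  obtain ⟨H, hH⟩ := Core.exists_isPiHall_of_isSolvable (G := G) π
  have hbig : ∀ p ∈ π, ∀ q ∈ π, p ≠ q → n < p * q := by
    intro p hp q hq hpq
    simp only [hπ, Set.mem_insert_iff, Set.mem_singleton_iff] at hp hq
    rcases hp with rfl | rfl | rfl <;> rcases hq with rfl | rfl | rfl <;>
      first | exact absurd rfl hpq | nlinarith
  have hdvd : ∀ p ∈ π, p.Prime → p ∣ Nat.card H := by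
    intro p hp hp'
    have h1 : p ∈ Set.range (orderOf : G → ℕ) := by
      rw [h]
      refine ⟨hp'.one_le, ?_⟩
      simp only [hπ, Set.mem_insert_iff, Set.mem_singleton_iff] at hp
      rcases hp with rfl | rfl | rfl <;> omega
    obtain ⟨g, hg⟩ := h1
    have h2 : p ∣ Nat.card H * H.index := by
      rw [Subgroup.card_mul_index, ← hg]; exact orderOf_dvd_natCard g
    exact (hp'.dvd_mul.mp h2).resolve_right (hH.2 p hp' hp)
  have happ : OddLocal.AllPrimePowerOrders H := by
    intro g p q hp hq hpg hqg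
    by_contra hne
    have hpm : p ∈ π := hH.1 p hp (hpg.trans (orderOf_dvd_natCard g))
    have hqm : q ∈ π := hH.1 q hq (hqg.trans (orderOf_dvd_natCard g))
    have hle : orderOf (g : G) ≤ n := ((Set.ext_iff.mp h _).mp ⟨(g : G), rfl⟩).2
    rw [Subgroup.orderOf_coe] at hle
    have := Nat.le_of_dvd (orderOf_pos g) (((Nat.coprime_primes hp hq).mpr hne).mul_dvd_of_dvd_of_dvd hpg hqg)
    have := hbig p hpm q hqm hne
    omega
  have htwo := OddLocal.two_primes_of_allPrimePowerOrders (Nat.card H) (G := H) happ le_rfl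
  have hsub : ({a, b, c} : Finset ℕ) ⊆ (Nat.card H).primeFactors := by
    intro x hx
    simp only [Finset.mem_insert, Finset.mem_singleton] at hx
    refine Nat.mem_primeFactors.mpr ⟨?_, ?_, Nat.card_pos.ne'⟩
    · rcases hx with rfl | rfl | rfl <;> assumption
    · exact hdvd x (by simpa [hπ] using hx) (by rcases hx with rfl | rfl | rfl <;> assumption)
  have := Finset.card_le_card hsub
  rw [Finset.card_eq_three.mpr ⟨a, b, c, hab.ne, (hab.trans hbc).ne, hbc.ne, rfl⟩] at this
  omega

end Cfsg.Agent.S4002
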