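import Cfsg.Statements.S4003
import Cfsg.Agent.FGS3.Kulakoff
import Cfsg.Agent.OddLocal.NilBasics
import Cfsg.Agent.Core.PiNumber
-- import your own Cfsg.Agent.* helpers here

set_option autoImplicit false
open Cfsg

namespace Cfsg.Agent.S4003

open Subgroup

theorem card_zpowers_fibre {G : Type*} [Group G] [Finite G] (C : Subgroup G) (hC : IsCyclic C) :
    Nat.card {x : G // zpowers x = C} = Nat.totient (Nat.card C) := by
  classical
  have : Fintype C := Fintype.ofFinite _
  rw [Nat.card_congr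
    (β := {c : C // orderOf c = Nat.card C})
    { toFun := fun x => ⟨⟨x.1, x.2.le (mem_zpowers _)⟩, by
        rw [orderOf_mk, ← Nat.card_zpowers, x.2]⟩
      invFun := fun c => ⟨c.1.1, eq_of_le_of_card_ge (zpowers_le.mpr c.1.2) (by
        rw [Nat.card_zpowers, orderOf_coe, c.2])⟩
      left_inv := fun x => rfl
      right_inv := fun c => rfl }, Nat.card_eq_fintype_card, Fintype.card_subtype, Nat.card_eq_fintype_card]
  exact IsCyclic.card_orderOf_eq_totient dvd_rfl

variable {p : ℕ} [hp : Fact p.Prime]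

/-- An odd non-cyclic `p`-group has a normal elementary subgroup of order `p ^ 2`, central modulo a
central subgroup of exponent `p`. -/
theorem exists_normal_sq {P : Type*} [Group P] [Finite P] (hodd : p ≠ 2) (hP : IsPGroup p P)
    (hnc : ¬ IsCyclic P) :
    ∃ E : Subgroup P, E.Normal ∧ Nat.card E = p ^ 2 ∧ (∀ e ∈ E, e ^ p = 1) ∧
      ∀ (x : P), ∀ e ∈ E, ∃ c : P, (∀ g : P, g * c = c * g) ∧ c ^ p = 1 ∧ x * e = e * x * c := by
  classical
  obtain ⟨m, hm⟩ := IsPGroup.iff_card.mp hP
  have hm2 : 2 ≤ m := by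
    by_contra hlt
    apply hnc
    rcases (by omega : m = 0 ∨ m = 1) with rfl | rfl
    · have := (Nat.card_eq_one_iff_unique.1 (hm.trans (pow_zero p))).1
      exact inferInstance
    · exact isCyclic_of_prime_card (hm.trans (pow_one p))
  have hnum := FGS3.Kulakoff.numSub_modEq_odd hodd m hm hnc 1 le_rfl hm2
  rw [pow_one] at hnum
  have hnil : Group.IsNilpotent P := hP.isNilpotent
  have hne : (⊤ : Subgroup P) ≠ ⊥ := fun e => by
    have := card_top (G := P)
    rw [e, card_bot, hm] at this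
    exact (Nat.one_lt_pow (by omega) hp.out.one_lt).ne this
  obtain ⟨z, hzc, hz⟩ : ∃ z ∈ center P, orderOf z = p := by
    obtain ⟨x, -, hx1, hxc⟩ := OddLocal.exists_ne_one_mem_center_of_normal (⊤ : Subgroup P) hne
    obtain ⟨k, hk⟩ := IsPGroup.iff_orderOf.mp hP x
    rcases k with _ | k
    · exact absurd (orderOf_eq_one_iff.mp hk) hx1
    exact ⟨x ^ p ^ k, pow_mem hxc _, by
      rw [orderOf_pow_of_dvd (pow_ne_zero _ hp.out.ne_zero) (by rw [hk, pow_succ]; exact dvd_mul_right _ _),
        hk, pow_succ, Nat.mul_div_cancel_left _ (pow_pos hp.out.pos k)]⟩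
  have hzcomm : ∀ g : P, g * z = z * g := mem_center_iff.mp hzc
  set Z := zpowers z with hZdef
  have hZcard : Nat.card Z = p := by rw [Nat.card_zpowers, hz]
  let Y := {y : P // orderOf y = p ∧ y ∉ Z}
  let EE := {E : Subgroup P // Z ≤ E ∧ Nat.card E = p ^ 2 ∧ ∀ e ∈ E, e ^ p = 1}
  have hpair : ∀ y : P, orderOf y = p → y ∉ Z →
      Nat.card (Z ⊔ zpowers y : Subgroup P) = p ^ 2 ∧ ∀ e ∈ Z ⊔ zpowers y, e ^ p = 1 := by
    intro y hy hyZ
    have hn : zpowers y ≤ normalizer (Z : Set P) := by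
      rw [zpowers_le, mem_normalizer_iff]
      intro h
      constructor
      · intro hh
        rw [← SetLike.mem_coe] at hh
        obtain ⟨i, rfl⟩ := mem_zpowers_iff.mp hh
        rw [((show Commute y z from hzcomm y).zpow_right i).eq, mul_inv_cancel_right]
        exact hh
      · intro hh
        obtain ⟨i, hi⟩ := mem_zpowers_iff.mp hh
        have : h = y⁻¹ * z ^ i * y := by rw [hi]; group
        rw [this, mul_assoc, ← ((show Commute y z from hzcomm y).zpow_right i).eq, inv_mul_cancel_left]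
        exact mem_zpowers_iff.mpr ⟨i, rfl⟩
    have hmem : ∀ e ∈ Z ⊔ zpowers y, ∃ i j : ℤ, e = z ^ i * y ^ j := by
      intro e he
      rw [← SetLike.mem_coe, coe_mul_of_right_le_normalizer_left _ _ hn] at he
      obtain ⟨a, ha, b, hb, rfl⟩ := he
      obtain ⟨i, rfl⟩ := mem_zpowers_iff.mp ha
      obtain ⟨j, rfl⟩ := mem_zpowers_iff.mp hb
      exact ⟨i, j, rfl⟩
    have hexp : ∀ e ∈ Z ⊔ zpowers y, e ^ p = 1 := by
      intro e he
      obtain ⟨i, j, rfl⟩ := hmem e he
      rw [(((show Commute z y from (hzcomm y).symm).zpow_zpow i j)).mul_pow, ← zpow_natCast, ← zpow_natCast,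
        ← zpow_mul, ← zpow_mul, mul_comm i, mul_comm j, zpow_mul, zpow_mul, zpow_natCast, zpow_natCast]
      rw [show z ^ p = 1 by rw [← hz]; exact pow_orderOf_eq_one z,
        show y ^ p = 1 by rw [← hy]; exact pow_orderOf_eq_one y, one_zpow, one_zpow, one_mul]
    refine ⟨?_, hexp⟩
    have hd : Disjoint Z (zpowers y) := by
      rw [disjoint_def]
      intro w hw hw'
      by_contra hw1
      have h1 : zpowers w = zpowers y := eq_of_le_of_card_ge (zpowers_le.mpr hw') (by
        rw [Nat.card_zpowers, Nat.card_zpowers, hy,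
          orderOf_eq_prime (hexp w (mem_sup_left hw)) hw1])
      exact hyZ (zpowers_le.mpr hw (h1 ▸ mem_zpowers y))
    have : Z.Normal := ⟨fun w hw g => by
      obtain ⟨i, rfl⟩ := mem_zpowers_iff.mp hw
      rw [((show Commute g z from hzcomm g).zpow_right i).eq, mul_inv_cancel_right]; exact hw⟩
    rw [sup_comm, Core.card_sup_of_disjoint (by rw [inf_comm]; exact hd.eq_bot), hZcard, Nat.card_zpowers,
      hy, sq]
  let f : Y → EE := fun y => ⟨Z ⊔ zpowers y.1, le_sup_left, hpair y.1 y.2.1 y.2.2⟩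
  have hfib : ∀ E : EE, Nat.card {y : Y // f y = E} = p ^ 2 - p := by
    rintro ⟨E, hZE, hE, hexp⟩
    have hdiff : Nat.card {e : E // (e : P) ∉ Z} = p ^ 2 - p := by
      have h1 := Nat.card_congr (Equiv.sumCompl (fun e : E => (e : P) ∈ Z))
      rw [Nat.card_sum, hE, Nat.card_congr (show {e : E // (e : P) ∈ Z} ≃ Z from
        { toFun := fun e => ⟨e.1.1, e.2⟩
          invFun := fun w => ⟨⟨w.1, hZE w.2⟩, w.2⟩
          left_inv := fun e => rfl
          right_inv := fun w => rfl }), hZcard] at h1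
      omega
    rw [← hdiff]
    refine Nat.card_congr
      { toFun := fun y => ⟨⟨y.1.1, (congrArg Subtype.val y.2).le (mem_sup_right (mem_zpowers _))⟩, y.1.2.2⟩
        invFun := fun e => ⟨⟨e.1.1, orderOf_eq_prime (hexp _ e.1.2) (fun h => e.2 (h ▸ one_mem Z)), e.2⟩,
          Subtype.ext (eq_of_le_of_card_ge (sup_le hZE (zpowers_le.mpr e.1.2)) (by
            rw [hE, (hpair e.1.1 (orderOf_eq_prime (hexp _ e.1.2) (fun h => e.2 (h ▸ one_mem Z))) e.2).1]))⟩
        left_inv := fun y => rfl
        right_inv := fun e => rfl }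
  have hYE : Nat.card Y = Nat.card EE * (p ^ 2 - p) := FGS4.card_eq_card_mul_of_fiber f _ hfib
  have hX : Nat.card {y : P // orderOf y = p} = FGS3.Kulakoff.numSub P p * (p - 1) := by
    refine FGS4.card_eq_card_mul_of_fiber (fun y : {y : P // orderOf y = p} =>
      (⟨zpowers y.1, by rw [Nat.card_zpowers, y.2]⟩ : {H : Subgroup P // Nat.card H = p})) _ fun H => ?_
    obtain ⟨H, hH⟩ := H
    have hc := card_zpowers_fibre H (isCyclic_of_prime_card hH)
    rw [hH, Nat.totient_prime hp.out] at hc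
    rw [← hc]
    exact Nat.card_congr
      { toFun := fun y => ⟨y.1.1, congrArg Subtype.val y.2⟩
        invFun := fun y => ⟨⟨y.1, by rw [← Nat.card_zpowers, y.2, hH]⟩, Subtype.ext y.2⟩
        left_inv := fun y => rfl
        right_inv := fun y => rfl }
  have hXY : Nat.card {y : P // orderOf y = p} = Nat.card Y + (p - 1) := by
    have hc := card_zpowers_fibre Z (inferInstance)
    rw [hZcard, Nat.totient_prime hp.out] at hc
    rw [← Nat.card_congr (Equiv.sumCompl (fun y : {y : P // orderOf y = p} => y.1 ∈ Z)), Nat.card_sum,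
      add_comm, ← hc]
    congr 1
    · exact Nat.card_congr (Equiv.subtypeSubtypeEquivSubtypeInter _ (fun y : P => y ∉ Z))
    · exact Nat.card_congr
        { toFun := fun y => ⟨y.1.1, eq_of_le_of_card_ge (zpowers_le.mpr y.2) (by
            rw [hZcard, Nat.card_zpowers, y.1.2])⟩
          invFun := fun y => ⟨⟨y.1, by rw [← Nat.card_zpowers, y.2, hZcard]⟩, y.2.le (mem_zpowers _)⟩
          left_inv := fun y => rfl
          right_inv := fun y => rfl }
  have hEE : ¬ p ∣ Nat.card EE := by
    intro hd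
    have h1 : FGS3.Kulakoff.numSub P p = p * Nat.card EE + 1 := by
      have h3 : FGS3.Kulakoff.numSub P p * (p - 1) = (p * Nat.card EE + 1) * (p - 1) := by
        rw [← hX, hXY, hYE, show p ^ 2 - p = p * (p - 1) by rw [Nat.mul_sub, mul_one, sq]]
        ring
      exact Nat.eq_of_mul_eq_mul_right (by have := hp.out.two_le; omega) h3
    obtain ⟨t, ht⟩ := hd
    rw [h1, ht, ← mul_assoc, ← sq] at hnum
    unfold Nat.ModEq at hnum
    rw [Nat.add_mod, Nat.mul_mod_right, zero_add, Nat.mod_mod] at hnum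
    have h4 : 1 + p < p ^ 2 := by
      have := hp.out.two_le
      rw [sq]; nlinarith
    rw [Nat.mod_eq_of_lt (by omega), Nat.mod_eq_of_lt h4] at hnum
    have := hp.out.pos
    omega
  letI : MulAction P EE :=
    { smul := fun g E => ⟨E.1.map (MulAut.conj g).toMonoidHom, fun w hw => by
          obtain ⟨i, rfl⟩ := mem_zpowers_iff.mp hw
          refine ⟨z ^ i, E.2.1 (mem_zpowers_iff.mpr ⟨i, rfl⟩), ?_⟩
          show g * z ^ i * g⁻¹ = z ^ i
          rw [((show Commute g z from hzcomm g).zpow_right i).eq, mul_inv_cancel_right],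
        by rw [card_map_of_injective (MulAut.conj g).injective]; exact E.2.2.1,
        by
          rintro _ ⟨e, he, rfl⟩
          rw [← map_pow, E.2.2.2 e he, map_one]⟩
      one_smul := fun E => Subtype.ext (by
        show E.1.map (MulAut.conj 1).toMonoidHom = E.1
        rw [map_one]; exact E.1.map_id)
      mul_smul := fun g h E => Subtype.ext (by
        show E.1.map (MulAut.conj (g * h)).toMonoidHom = (E.1.map _).map _
        rw [map_map, map_mul]; rfl) }
  obtain ⟨⟨E, hZE, hEc, hexp⟩, hfix⟩ : (MulAction.fixedPoints P EE).Nonempty := by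
    by_contra hem
    have h1 := hP.card_modEq_card_fixedPoints (α := EE)
    rw [Set.not_nonempty_iff_eq_empty.mp hem] at h1
    simp only [Nat.card_of_isEmpty] at h1
    exact hEE (Nat.modEq_zero_iff_dvd.mp h1)
  have hEn : E.Normal := ⟨fun e he g => by
    have := congrArg Subtype.val (hfix g)
    exact this.le ⟨e, he, rfl⟩⟩
  refine ⟨E, hEn, hEc, hexp, ?_⟩
  have hZn : Z.Normal := ⟨fun w hw g => by
    obtain ⟨i, rfl⟩ := mem_zpowers_iff.mp hw
    rw [((show Commute g z from hzcomm g).zpow_right i).eq, mul_inv_cancel_right]; exact hw⟩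
  obtain ⟨w, hwE, hwZ⟩ := SetLike.exists_of_lt (lt_of_le_of_ne hZE (fun e => by
    rw [← e, hZcard] at hEc
    exact (lt_self_pow₀ hp.out.one_lt one_lt_two).ne hEc))
  have hcen : E.map (QuotientGroup.mk' Z) ≤ center (P ⧸ Z) := by
    have hQ : IsPGroup p (P ⧸ Z) := hP.to_quotient Z
    have := hQ.isNilpotent
    have hn : (E.map (QuotientGroup.mk' Z)).Normal := hEn.map _ (QuotientGroup.mk'_surjective Z)
    have hc1 : Nat.card (E.map (QuotientGroup.mk' Z)) = p := by
      have h1 := ((QuotientGroup.mk' Z).comp E.subtype).ker.index_mul_card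
      rw [index_ker, MonoidHom.range_comp, range_subtype, ← MonoidHom.comap_ker, QuotientGroup.ker_mk',
        ← Subgroup.subgroupOf, Nat.card_congr (Subgroup.subgroupOfEquivOfLe hZE).toEquiv, hZcard, hEc, sq] at h1
      exact Nat.eq_of_mul_eq_mul_right hp.out.pos h1
    obtain ⟨x, hx, hx1, hxc⟩ := OddLocal.exists_ne_one_mem_center_of_normal (E.map (QuotientGroup.mk' Z))
      (fun e => by rw [e, card_bot] at hc1; exact hp.out.one_lt.ne hc1)
    have : zpowers x = E.map (QuotientGroup.mk' Z) := eq_of_le_of_card_ge (zpowers_le.mpr hx) (by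
      rw [hc1, Nat.card_zpowers]
      rcases (Nat.dvd_prime hp.out).mp (hc1 ▸ Subgroup.orderOf_dvd_natCard _ hx) with h | h
      · exact absurd (orderOf_eq_one_iff.mp h) hx1
      · exact h.ge)
    rw [← this, zpowers_le]; exact hxc
  intro x e he
  have h1 := (mem_center_iff.mp (hcen ⟨e, he, rfl⟩)) (x : P ⧸ Z)
  have h2 : (e * x)⁻¹ * (x * e) ∈ Z := QuotientGroup.eq.mp (by
    simpa using h1.symm)
  refine ⟨(e * x)⁻¹ * (x * e), fun g => ?_, hexp _ (hZE h2), by group⟩
  obtain ⟨i, hi⟩ := mem_zpowers_iff.mp h2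
  rw [← hi]
  exact ((show Commute g z from hzcomm g).zpow_right i).eq

theorem mul_pow_central {P : Type*} [Group P] {e x c : P} (hc : ∀ g : P, g * c = c * g)
    (h : x * e = e * x * c) (n : ℕ) : (e * x) ^ n = e ^ n * x ^ n * c ^ n.choose 2 := by
  have hxn : ∀ n : ℕ, x ^ n * e = e * x ^ n * c ^ n := by
    intro n
    induction n with
    | zero => simp
    | succ n ih =>
      calc x ^ (n + 1) * e = x * (x ^ n * e) := by rw [pow_succ']; group
        _ = x * e * x ^ n * c ^ n := by rw [ih]; group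
        _ = e * x * (c * x ^ n) * c ^ n := by rw [h]; group
        _ = e * x * (x ^ n * c) * c ^ n := by rw [← hc]
        _ = e * x ^ (n + 1) * c ^ (n + 1) := by rw [pow_succ', pow_succ']; group
  induction n with
  | zero => simp
  | succ n ih =>
    have hcc : ∀ (g : P) (k : ℕ), c ^ k * g = g * c ^ k := fun g k => ((Commute.pow_right (hc g) k).eq).symm
    calc (e * x) ^ (n + 1) = e ^ n * x ^ n * c ^ n.choose 2 * (e * x) := by rw [pow_succ, ih]
      _ = e ^ n * (x ^ n * e) * x * c ^ n.choose 2 := by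
        rw [mul_assoc _ (c ^ n.choose 2), hcc]; group
      _ = e ^ n * e * (x ^ n * (c ^ n * x)) * c ^ n.choose 2 := by rw [hxn]; group
      _ = e ^ (n + 1) * x ^ (n + 1) * (c ^ n * c ^ n.choose 2) := by
        rw [hcc x n, pow_succ, pow_succ]; group
      _ = _ := by rw [← pow_add, Nat.choose_succ_succ', Nat.choose_one_right]

theorem dvd_card_pgroup {P : Type*} [Group P] [Finite P] (hodd : p ≠ 2) (hP : IsPGroup p P)
    (hnc : ¬ IsCyclic P) {s : ℕ} (hs : 1 < s) : p ^ s ∣ Nat.card {x : P // orderOf x = p ^ s} := by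
  classical
  obtain ⟨E, hEn, hEc, hexp, hcen⟩ := exists_normal_sq hodd hP hnc
  let f : {x : P // orderOf x = p ^ s} → Subgroup P := fun x => zpowers x.1 ⊔ E
  rw [← Nat.card_congr (Equiv.sigmaFiberEquiv f)]
  have : Fintype (Subgroup P) := Fintype.ofFinite _
  rw [Nat.card_sigma]
  refine Finset.dvd_sum fun W _ => ?_
  by_cases hW : Nonempty {x // f x = W}
  swap
  · have := not_nonempty_iff.mp hW
    simp
  obtain ⟨⟨⟨x, hx⟩, rfl⟩⟩ := hW
  set V := zpowers (x ^ p) ⊔ E with hVdef
  have hVW : V ≤ zpowers x ⊔ E :=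
    sup_le (le_sup_of_le_left (zpowers_le.mpr (pow_mem (mem_zpowers x) p))) le_sup_right
  have hp2 : p ∣ p.choose 2 := hp.out.dvd_choose_self two_ne_zero (by
    have := hp.out.two_le; omega)
  -- elements of the form `e * w`
  have hpow : ∀ w : P, ∀ e ∈ E, (e * w) ^ p = w ^ p := by
    intro w e he
    obtain ⟨c, hc, hcp, h⟩ := hcen w e he
    obtain ⟨t, ht⟩ := hp2
    rw [mul_pow_central hc h, hexp e he, one_mul, ht, pow_mul, hcp, one_pow, mul_one]
  have hmem : ∀ (a w : P), w ∈ zpowers a ⊔ E → ∃ e ∈ E, ∃ i : ℤ, w = e * a ^ i := by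
    intro a w hw
    rw [sup_comm, ← SetLike.mem_coe, coe_mul_of_right_le_normalizer_left _ _
      (by rw [normalizer_eq_top_iff.mpr hEn]; exact le_top)] at hw
    obtain ⟨e, he, b, hb, rfl⟩ := hw
    obtain ⟨i, rfl⟩ := mem_zpowers_iff.mp hb
    exact ⟨e, he, i, rfl⟩
  have hxE : x ∉ E := fun h => by
    have h1 := orderOf_dvd_of_pow_eq_one (hexp x h)
    rw [hx] at h1
    have := (Nat.pow_dvd_pow_iff_le_right hp.out.one_lt).mp (h1.trans (pow_one p).symm.dvd)
    omega
  have hxV : x ∉ V := by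
    intro h
    obtain ⟨e, he, i, hi⟩ := hmem _ _ h
    apply hxE
    have h1 : x ^ (1 - (p : ℤ) * i) = e := by
      rw [sub_eq_add_neg, zpow_add, zpow_one, zpow_neg, zpow_mul, zpow_natCast, mul_inv_eq_iff_eq_mul]
      exact hi
    obtain ⟨k, hk⟩ := IsPGroup.iff_orderOf.mp hP x
    have hcop : IsCoprime (1 - (p : ℤ) * i) ((p : ℤ) ^ k) := IsCoprime.pow_right ⟨1, i, by ring⟩
    obtain ⟨a, b, hab⟩ := hcop
    rw [← zpow_one x, ← hab, zpow_add, mul_comm a, zpow_mul, h1, mul_comm b, zpow_mul,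
      ← Nat.cast_pow, zpow_natCast, ← hk, pow_orderOf_eq_one, one_zpow, mul_one]
    exact zpow_mem he a
  have hdiff : Nat.card {w : (zpowers x ⊔ E : Subgroup P) // (w : P) ∉ V} + Nat.card V =
      Nat.card (zpowers x ⊔ E : Subgroup P) := by
    conv_rhs => rw [← Nat.card_congr (Equiv.sumCompl (fun w : (zpowers x ⊔ E : Subgroup P) => (w : P) ∈ V))]
    rw [Nat.card_sum, add_comm]
    congr 1
    exact Nat.card_congr
      { toFun := fun w => ⟨⟨w.1, hVW w.2⟩, w.2⟩
        invFun := fun w => ⟨w.1.1, w.2⟩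
        left_inv := fun w => rfl
        right_inv := fun w => rfl }
  -- the fibre is `W \ V`
  have hgood : ∀ w : P, w ∈ zpowers x ⊔ E → w ∉ V → orderOf w = p ^ s ∧ zpowers w ⊔ E = zpowers x ⊔ E := by
    intro w hw hwV
    obtain ⟨e, he, i, rfl⟩ := hmem _ _ hw
    have hpi : ¬ (p : ℤ) ∣ i := by
      rintro ⟨j, rfl⟩
      exact hwV (mul_mem (mem_sup_right he) (mem_sup_left (by
        rw [zpow_mul, zpow_natCast]; exact zpow_mem (mem_zpowers _) j)))
    have hcop : IsCoprime i ((p ^ s : ℕ) : ℤ) := by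
      rw [Nat.cast_pow]
      exact (((Nat.prime_iff_prime_int.mp hp.out).coprime_iff_not_dvd.mpr hpi).symm).pow_right
    obtain ⟨a, b, hab⟩ := hcop
    have hxi : x ∈ zpowers (x ^ i) := mem_zpowers_iff.mpr ⟨a, by
      conv_rhs => rw [← zpow_one x, ← hab]
      rw [zpow_add, mul_comm b, zpow_mul x ((p ^ s : ℕ) : ℤ), zpow_natCast, ← hx, pow_orderOf_eq_one,
        one_zpow, mul_one, ← zpow_mul, mul_comm]⟩
    have hxo : orderOf (x ^ i) = p ^ s := by
      rw [← Nat.card_zpowers, le_antisymm (zpowers_le.mpr (zpow_mem (mem_zpowers x) i)) (zpowers_le.mpr hxi),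
        Nat.card_zpowers, hx]
    constructor
    · obtain ⟨k, rfl⟩ : ∃ k, s = k + 1 := ⟨s - 1, by omega⟩
      refine orderOf_eq_prime_pow ?_ ?_
      · intro h
        have hk : ∃ j, k = j + 1 := ⟨k - 1, by omega⟩
        obtain ⟨j, rfl⟩ := hk
        rw [pow_succ', pow_mul, hpow _ e he, ← pow_mul, ← pow_succ'] at h
        have := orderOf_dvd_of_pow_eq_one h
        rw [hxo] at this
        have := (Nat.pow_dvd_pow_iff_le_right hp.out.one_lt).mp this
        omega
      · rw [pow_succ', pow_mul, hpow _ e he, ← pow_mul, ← pow_succ', ← hxo, pow_orderOf_eq_one]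
    · refine le_antisymm (sup_le (zpowers_le.mpr hw) le_sup_right) (sup_le ?_ le_sup_right)
      refine zpowers_le.mpr ?_
      have h1 : x ^ i ∈ zpowers (e * x ^ i) ⊔ E := by
        have := mul_mem (inv_mem (mem_sup_right (S := zpowers (e * x ^ i)) he))
          (mem_sup_left (mem_zpowers (e * x ^ i)))
        rwa [inv_mul_cancel_left] at this
      exact zpowers_le.mpr h1 hxi
  have hfib : Nat.card {y : {y : P // orderOf y = p ^ s} // f y = f ⟨x, hx⟩} =
      Nat.card {w : (zpowers x ⊔ E : Subgroup P) // (w : P) ∉ V} := Nat.card_congr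
    { toFun := fun y => ⟨⟨y.1.1, y.2.le (mem_sup_left (mem_zpowers _))⟩, fun hV => by
        have h1 : zpowers y.1.1 ⊔ E ≤ V := sup_le (zpowers_le.mpr hV) le_sup_right
        exact hxV (h1 (y.2.ge (mem_sup_left (mem_zpowers x))))⟩
      invFun := fun w => ⟨⟨w.1.1, (hgood _ w.1.2 w.2).1⟩, (hgood _ w.1.2 w.2).2⟩
      left_inv := fun y => rfl
      right_inv := fun w => rfl }
  obtain ⟨v, hv⟩ := IsPGroup.iff_card.mp (hP.to_subgroup V)
  obtain ⟨w, hw⟩ := IsPGroup.iff_card.mp (hP.to_subgroup (zpowers x ⊔ E : Subgroup P))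
  have hsv : s ≤ v := by
    by_contra hlt
    have hcard : Nat.card (zpowers (x ^ p)) = p ^ (s - 1) := by
      rw [Nat.card_zpowers, orderOf_pow_of_dvd hp.out.ne_zero (by rw [hx]; exact dvd_pow_self p (by omega)),
        hx]
      conv_lhs => rw [show s = s - 1 + 1 by omega, pow_succ]
      exact Nat.mul_div_cancel _ hp.out.pos
    have heq : zpowers (x ^ p) = V := eq_of_le_of_card_ge le_sup_left (by
      rw [hv, hcard]; exact Nat.pow_le_pow_right hp.out.pos (by omega))
    have hEle : E ≤ zpowers (x ^ p) := heq ▸ le_sup_right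
    have hEcyc : IsCyclic E := isCyclic_of_injective (Subgroup.inclusion hEle) (Subgroup.inclusion_injective hEle)
    obtain ⟨g, hg⟩ := IsCyclic.exists_ofOrder_eq_natCard (α := E)
    have h1 := orderOf_dvd_of_pow_eq_one (x := g) (n := p) (Subtype.ext (hexp g g.2))
    rw [hg, hEc] at h1
    exact absurd (Nat.le_of_dvd hp.out.pos h1) (not_le.mpr (lt_self_pow₀ hp.out.one_lt one_lt_two))
  have hvw : v ≤ w := by
    have := card_le_of_le hVW
    rw [hv, hw] at this
    exact (Nat.pow_le_pow_iff_right hp.out.one_lt).mp this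
  show p ^ s ∣ Nat.card {y : {y : P // orderOf y = p ^ s} // f y = f ⟨x, hx⟩}
  rw [hfib]
  have hs1 : p ^ s ∣ p ^ v := pow_dvd_pow p hsv
  have hs2 : p ^ s ∣ p ^ w := pow_dvd_pow p (hsv.trans hvw)
  rw [hv, hw] at hdiff
  exact (Nat.dvd_add_left hs1).mp (hdiff ▸ hs2)

/-- Let G be a finite group, p an odd prime dividing the order of G whose Sylow p-subgroups are not cyclic, and n = p^s·m with s > 1 and m coprime to p. Then the number of elements of G of order n is a multiple of p^s. -/
theorem result {G : Type*} [Group G] [Finite G] (p : ℕ) [Fact p.Prime] (hodd : p ≠ 2) (hpG : p ∣ Nat.card G)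
    (P : Sylow p G) (hP : ¬ IsCyclic ↥(P : Subgroup G)) (s m : ℕ) (hs : 1 < s) (hm : Nat.Coprime p m) :
    p ^ s ∣ Nat.card {g : G // orderOf g = p ^ s * m} := by
  classical
  have hp := Fact.out (p := p.Prime)
  have hmdvd : (p ^ s).Coprime m := Nat.Coprime.pow_left s hm
  let A := {t : G × Subgroup G // orderOf t.1 = m ∧ IsCyclic t.2 ∧ Nat.card t.2 = p ^ s ∧
    ∀ c ∈ t.2, Commute c t.1}
  obtain ⟨u, hu1, hu2⟩ := Nat.chineseRemainder hmdvd 1 0
  obtain ⟨v, hv1, hv2⟩ := Nat.chineseRemainder hmdvd 0 1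
  have hpm : ∀ {g : G}, orderOf g = p ^ s → g ^ u = g ∧ g ^ v = 1 := by
    intro g hg
    constructor
    · conv_rhs => rw [← pow_one g]
      rw [pow_eq_pow_iff_modEq, hg]; exact hu1
    · rw [← pow_zero g, pow_eq_pow_iff_modEq, hg]; exact hv1
  have hmm : ∀ {g : G}, orderOf g = m → g ^ u = 1 ∧ g ^ v = g := by
    intro g hg
    constructor
    · rw [← pow_zero g, pow_eq_pow_iff_modEq, hg]; exact hu2
    · conv_rhs => rw [← pow_one g]
      rw [pow_eq_pow_iff_modEq, hg]; exact hv2
  let X := Σ a : A, {x : G // Subgroup.zpowers x = a.1.2}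
  have hXord : ∀ a : X, orderOf a.2.1 = p ^ s := fun a => by
    rw [← Nat.card_zpowers, a.2.2, a.1.2.2.2.1]
  have hXcom : ∀ a : X, Commute a.2.1 a.1.1.1 := fun a =>
    a.1.2.2.2.2 _ (a.2.2.le (Subgroup.mem_zpowers _))
  let φ : X → {g : G // orderOf g = p ^ s * m} := fun a => ⟨a.2.1 * a.1.1.1, by
    rw [(hXcom a).orderOf_mul_eq_mul_orderOf_of_coprime (by rw [hXord a, a.1.2.1]; exact hmdvd),
      hXord a, a.1.2.1]⟩
  have hφ : Function.Bijective φ := by
    constructor
    · intro a b hab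
      have h0 : a.2.1 * a.1.1.1 = b.2.1 * b.1.1.1 := congrArg Subtype.val hab
      have h1 := congrArg (fun g => g ^ u) h0
      simp only [(hXcom a).mul_pow, (hXcom b).mul_pow, (hpm (hXord a)).1, (hpm (hXord b)).1,
        (hmm a.1.2.1).1, (hmm b.1.2.1).1, mul_one] at h1
      have h2 : a.1.1.1 = b.1.1.1 := by
        rw [h1] at h0; exact mul_left_cancel h0
      obtain ⟨⟨⟨y, C⟩, ha⟩, x, hx⟩ := a
      obtain ⟨⟨⟨y', C'⟩, hb⟩, x', hx'⟩ := b
      simp only at h1 h2 hx hx'
      subst h1 h2 hx hx'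
      rfl
    · rintro ⟨g, hg⟩
      have hu : orderOf (g ^ u) = p ^ s := by
        have h1 : g ^ u = g ^ (m * (u / m)) := by rw [Nat.mul_div_cancel' (Nat.modEq_zero_iff_dvd.mp hu2)]
        refine Nat.dvd_antisymm (orderOf_dvd_of_pow_eq_one ?_) ?_
        · rw [← pow_mul, ← orderOf_dvd_iff_pow_eq_one, hg, mul_comm u]
          exact Nat.mul_dvd_mul_left _ (Nat.modEq_zero_iff_dvd.mp hu2)
        · have h2 : p ^ s * m ∣ u * orderOf (g ^ u) :=
            hg ▸ orderOf_dvd_of_pow_eq_one (by rw [pow_mul, pow_orderOf_eq_one])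
          refine (Nat.Coprime.dvd_of_dvd_mul_left ?_ ((dvd_mul_right _ _).trans h2))
          rw [Nat.coprime_comm, Nat.Coprime, Nat.ModEq.gcd_eq hu1, Nat.gcd_one_left]
      have hv : orderOf (g ^ v) = m := by
        refine Nat.dvd_antisymm (orderOf_dvd_of_pow_eq_one ?_) ?_
        · rw [← pow_mul, ← orderOf_dvd_iff_pow_eq_one, hg]
          exact Nat.mul_dvd_mul_right (Nat.modEq_zero_iff_dvd.mp hv1) _
        · have h2 : p ^ s * m ∣ v * orderOf (g ^ v) :=
            hg ▸ orderOf_dvd_of_pow_eq_one (by rw [pow_mul, pow_orderOf_eq_one])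
          refine (Nat.Coprime.dvd_of_dvd_mul_left ?_ ((dvd_mul_left _ _).trans h2))
          rw [Nat.coprime_comm, Nat.Coprime, Nat.ModEq.gcd_eq hv2, Nat.gcd_one_left]
      refine ⟨⟨⟨(g ^ v, Subgroup.zpowers (g ^ u)), hv, inferInstance, by rw [Nat.card_zpowers, hu],
        fun c hc => ?_⟩, g ^ u, rfl⟩, Subtype.ext ?_⟩
      · obtain ⟨i, rfl⟩ := Subgroup.mem_zpowers_iff.mp hc
        exact (Commute.pow_pow_self g u v).zpow_left i
      · show g ^ u * g ^ v = g
        rw [← pow_add]
        conv_rhs => rw [← pow_one g]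
        rw [pow_eq_pow_iff_modEq, hg]
        exact (Nat.modEq_and_modEq_iff_modEq_mul hmdvd).mp ⟨hu1.add hv1, hu2.add hv2⟩
  rw [← Nat.card_eq_of_bijective φ hφ]
  have hX : Nat.card X = Nat.card A * (p ^ s).totient := by
    refine FGS4.card_eq_card_mul_of_fiber (fun a : X => a.1) _ fun a => ?_
    rw [Nat.card_congr (Equiv.sigmaSubtype (β := fun a : A => {x : G // Subgroup.zpowers x = a.1.2}) a),
      card_zpowers_fibre a.1.2 a.2.2.1, a.2.2.2.1]
  rw [hX, Nat.totient_prime_pow hp (by omega)]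
  suffices hA : p ∣ Nat.card A by
    obtain ⟨t, ht⟩ := hA
    refine ⟨t * (p - 1), ?_⟩
    conv_rhs => rw [show s = s - 1 + 1 by omega, pow_succ]
    rw [ht]; ring
  letI : MulAction (P : Subgroup G) A :=
    { smul := fun g a => ⟨((g : G) * a.1.1 * (g : G)⁻¹, a.1.2.map (MulAut.conj (g : G)).toMonoidHom),
        (MulEquiv.orderOf_eq (MulAut.conj (g : G)) a.1.1).trans a.2.1,
        (by
          have := a.2.2.1
          exact isCyclic_of_surjective (a.1.2.equivMapOfInjective _ (MulAut.conj (g : G)).injective)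
            (MulEquiv.surjective _)),
        (Subgroup.card_map_of_injective (MulAut.conj (g : G)).injective).trans a.2.2.2.1,
        by
          rintro _ ⟨c, hc, rfl⟩
          exact (a.2.2.2.2 c hc).map (MulAut.conj (g : G))⟩
      one_smul := fun a => Subtype.ext (Prod.ext (by
          show ((1 : (P : Subgroup G)) : G) * a.1.1 * ((1 : (P : Subgroup G)) : G)⁻¹ = a.1.1
          simp) (by
          show a.1.2.map (MulAut.conj ((1 : (P : Subgroup G)) : G)).toMonoidHom = a.1.2
          rw [OneMemClass.coe_one, map_one]; exact a.1.2.map_id))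
      mul_smul := fun g h a => Subtype.ext (Prod.ext (by
          show ((g * h : (P : Subgroup G)) : G) * a.1.1 * ((g * h : (P : Subgroup G)) : G)⁻¹ =
            (g : G) * ((h : G) * a.1.1 * (h : G)⁻¹) * (g : G)⁻¹
          rw [Subgroup.coe_mul]; group) (by
          show a.1.2.map (MulAut.conj ((g * h : (P : Subgroup G)) : G)).toMonoidHom = (a.1.2.map _).map _
          rw [Subgroup.map_map, Subgroup.coe_mul, map_mul]; rfl)) }
  have hcong := P.isPGroup'.card_modEq_card_fixedPoints (α := A)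
  refine Nat.modEq_zero_iff_dvd.mp (hcong.trans (Nat.modEq_zero_iff_dvd.mpr ?_))
  let YF := {y : G // orderOf y = m ∧ ∀ g ∈ (P : Subgroup G), g * y * g⁻¹ = y}
  let S := {C : Subgroup (P : Subgroup G) // IsCyclic C ∧ Nat.card C = p ^ s}
  letI : MulAction (P : Subgroup G) S :=
    { smul := fun g C => ⟨C.1.map (MulAut.conj g).toMonoidHom, (by
          have := C.2.1
          exact isCyclic_of_surjective (C.1.equivMapOfInjective _ (MulAut.conj g).injective)
            (MulEquiv.surjective _)), (Subgroup.card_map_of_injective (MulAut.conj g).injective).trans C.2.2⟩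
      one_smul := fun C => Subtype.ext (by
        show C.1.map (MulAut.conj 1).toMonoidHom = C.1
        rw [map_one]; exact C.1.map_id)
      mul_smul := fun g h C => Subtype.ext (by
        show C.1.map (MulAut.conj (g * h)).toMonoidHom = (C.1.map _).map _
        rw [Subgroup.map_map, map_mul]; rfl) }
  have hS : p ∣ Nat.card S := by
    have h1 := dvd_card_pgroup hodd P.isPGroup' hP hs
    have h2 : Nat.card {x : (P : Subgroup G) // orderOf x = p ^ s} = Nat.card S * (p ^ s).totient := by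
      refine FGS4.card_eq_card_mul_of_fiber (fun x : {x : (P : Subgroup G) // orderOf x = p ^ s} =>
        (⟨Subgroup.zpowers x.1, inferInstance, by rw [Nat.card_zpowers, x.2]⟩ : S)) _ fun C => ?_
      obtain ⟨C, hC, hCc⟩ := C
      have hfc := card_zpowers_fibre C hC
      rw [hCc] at hfc
      rw [← hfc]
      exact Nat.card_congr
        { toFun := fun x => ⟨x.1.1, congrArg Subtype.val x.2⟩
          invFun := fun x => ⟨⟨x.1, by rw [← Nat.card_zpowers, x.2, hCc]⟩, Subtype.ext x.2⟩
          left_inv := fun x => rfl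
          right_inv := fun x => rfl }
    rw [h2, Nat.totient_prime_pow hp (by omega)] at h1
    nth_rewrite 1 [show s = s - 1 + 1 by omega] at h1
    rw [pow_succ, mul_left_comm] at h1
    refine (Nat.Coprime.dvd_of_dvd_mul_right ?_ (Nat.dvd_of_mul_dvd_mul_left (pow_pos hp.pos _) h1))
    rw [hp.coprime_iff_not_dvd]
    intro hd
    have := hp.two_le
    have := Nat.le_of_dvd (by omega) hd
    omega
  have hSfix : p ∣ Nat.card (MulAction.fixedPoints (P : Subgroup G) S) :=
    Nat.modEq_zero_iff_dvd.mp ((P.isPGroup'.card_modEq_card_fixedPoints (α := S)).symm.trans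
      (Nat.modEq_zero_iff_dvd.mpr hS))
  -- the fixed points
  have hbij : Nat.card (MulAction.fixedPoints (P : Subgroup G) A) =
      Nat.card (YF × MulAction.fixedPoints (P : Subgroup G) S) := by
    refine (Nat.card_eq_of_bijective (fun t : YF × MulAction.fixedPoints (P : Subgroup G) S =>
      (⟨⟨(t.1.1, t.2.1.1.map (P : Subgroup G).subtype), t.1.2.1, (by
            have := t.2.1.2.1
            exact isCyclic_of_surjective (t.2.1.1.equivMapOfInjective _ (P : Subgroup G).subtype_injective)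
              (MulEquiv.surjective _)),
          (Subgroup.card_map_of_injective (P : Subgroup G).subtype_injective).trans t.2.1.2.2,
          (by
            rintro _ ⟨c, -, rfl⟩
            exact mul_inv_eq_iff_eq_mul.mp (t.1.2.2 _ c.2))⟩, fun g => Subtype.ext (Prod.ext (t.1.2.2 _ g.2) (by
          show (t.2.1.1.map (P : Subgroup G).subtype).map (MulAut.conj (g : G)).toMonoidHom =
            t.2.1.1.map (P : Subgroup G).subtype
          have h1 : t.2.1.1.map (MulAut.conj g).toMonoidHom = t.2.1.1 := congrArg Subtype.val (t.2.2 g)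
          conv_rhs => rw [← h1, Subgroup.map_map]
          rw [Subgroup.map_map]; rfl))⟩ : MulAction.fixedPoints (P : Subgroup G) A)) ⟨?_, ?_⟩).symm
    · rintro ⟨⟨y, hy⟩, ⟨⟨C, hC⟩, hCf⟩⟩ ⟨⟨y', hy'⟩, ⟨⟨C', hC'⟩, hCf'⟩⟩ he
      have h1 := congrArg (fun z : MulAction.fixedPoints (P : Subgroup G) A => z.1.1) he
      simp only [Prod.mk.injEq] at h1
      obtain ⟨h1, h2⟩ := h1
      subst h1
      have := Subgroup.map_injective (P : Subgroup G).subtype_injective h2
      subst this
      rfl
    · rintro ⟨⟨⟨y, C⟩, hy, hC, hCc, hcom⟩, hf⟩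
      have hfix : ∀ g ∈ (P : Subgroup G), g * y * g⁻¹ = y ∧ C.map (MulAut.conj g).toMonoidHom = C :=
        fun g hg => Prod.ext_iff.mp (congrArg Subtype.val (hf ⟨g, hg⟩))
      have hCP : C ≤ (P : Subgroup G) := by
        have hnorm : (P : Subgroup G) ≤ Subgroup.normalizer (C : Set G) := fun g hg =>
          Subgroup.mem_normalizer_iff_map_conj_eq.mpr (hfix g hg).2
        have hJ : IsPGroup p (C ⊔ (P : Subgroup G) : Subgroup G) :=
          IsPGroup.to_sup_of_normal_left' (IsPGroup.of_card hCc) P.isPGroup' hnorm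
        exact le_sup_left.trans (P.is_maximal' hJ le_sup_right).le
      refine ⟨(⟨y, hy, fun g hg => (hfix g hg).1⟩, ⟨⟨C.subgroupOf (P : Subgroup G),
        isCyclic_of_surjective (Subgroup.subgroupOfEquivOfLe hCP).symm (MulEquiv.surjective _),
        (Nat.card_congr (Subgroup.subgroupOfEquivOfLe hCP).toEquiv).trans hCc⟩, fun g => ?_⟩), ?_⟩
      · refine Subtype.ext (Subgroup.map_injective (P : Subgroup G).subtype_injective ?_)
        show ((C.subgroupOf _).map _).map _ = (C.subgroupOf _).map _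
        rw [Subgroup.map_map, Subgroup.map_subgroupOf_eq_of_le hCP]
        conv_rhs => rw [← (hfix g g.2).2, ← Subgroup.map_subgroupOf_eq_of_le hCP, Subgroup.map_map]
        rfl
      · exact Subtype.ext (Subtype.ext (Prod.ext rfl (Subgroup.map_subgroupOf_eq_of_le hCP)))
  rw [hbij, Nat.card_prod]
  exact dvd_mul_of_dvd_right hSfix _

end Cfsg.Agent.S4003
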