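import Cfsg.Statements.S4004
import Cfsg.Agent.FGS5.ThreeCounts
import Cfsg.Agent.FGS5.PrimeOrdersFrobenius

set_option autoImplicit false
open Cfsg

namespace Cfsg.Agent.S4004

open Cfsg.Agent.FGS5.ThreeCounts

theorem no_sq {G : Type*} [Group G] [Finite G] {a b : ℕ} (hv : Vals G a b) {p q : ℕ} (hp : p.Prime)
    (hq : q.Prime) (hp2 : p ≠ 2) (hq2 : q ≠ 2) (hne : p ≠ q) (hdp : p ∣ Nat.card G)
    (hdq : q ∣ Nat.card G) (hca : cnt G p = a) (hcb : cnt G q = b) (g : G) : orderOf g ≠ p ^ 2 := by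
  intro hg
  obtain ⟨h0, hpb, -⟩ := pair_ne hv hp hq hp2 hq2 hne hdp hdq hca hcb
  have hp22 : 2 < p ^ 2 := by nlinarith [hp.two_le]
  have h := dvd_sum_cnt (G := G) (hg ▸ orderOf_dvd_natCard g)
  rw [Nat.sum_divisors_prime_pow hp, Finset.sum_range_succ, Finset.sum_range_succ,
    Finset.sum_range_succ, Finset.sum_range_zero, pow_zero, pow_one, cnt_one, zero_add, hca] at h
  have h4 : p ∣ 1 + a := hca ▸ frob_prime hp hdp
  have h5 : p ∣ cnt G (p ^ 2) := (Nat.dvd_add_right h4).mp ((dvd_pow_self p two_ne_zero).trans h)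
  have h6 : cnt G (p ^ 2) = b := by
    rcases (hv (p ^ 2) hp22).resolve_left (hg ▸ cnt_pos g) with e | e
    · rw [e] at h5
      exact absurd h5 (hca ▸ not_dvd_of_frob hp hdp : ¬ p ∣ a)
    · exact e
  have h7 : cnt G (q * p ^ 2) = 0 := cnt_eq_zero fun x hx => by
    have hd : p * q ∣ orderOf x := by rw [hx]; exact ⟨p, by ring⟩
    have h8 := orderOf_pow_orderOf_div (orderOf_pos x).ne' hd
    exact cnt_pos (x ^ (orderOf x / (p * q))) (by rw [h8]; exact h0)
  have h8 := dvd_cnt (G := G) hq hp22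
    (Nat.Coprime.pow_right 2 ((Nat.coprime_primes hq hp).mpr hne.symm)) hdq h7
  rw [h6, ← hcb] at h8
  exact not_dvd_of_frob hq hdq h8

/-- Let G be a finite group of odd order in which the numbers of elements of each order that occurs (the numbers #{g : o(g) = m}, m ranging over the element orders of G) take exactly three different values. Then the order of G has at most two prime divisors; and if it has exactly two, then every Sylow subgroup of G for a prime dividing its order has prime exponent, G is a Frobenius group, and some Frobenius complement of G has prime order. -/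
theorem result {G : Type*} [Group G] [Finite G] (hodd : Odd (Nat.card G)) (h : (((fun m : ℕ => Nat.card {g : G // orderOf g = m}) '' Set.range (orderOf : G → ℕ))).ncard = 3) :
    (Nat.card G).primeFactors.card ≤ 2 ∧
      ((Nat.card G).primeFactors.card = 2 →
        (∀ (p : ℕ) [Fact p.Prime] (P : Sylow p G), p ∣ Nat.card G → Monoid.exponent ↥(P : Subgroup G) = p) ∧
        ∃ C : Subgroup G, Cfsg.IsFrobeniusComplement C ∧ (Nat.card ↥C).Prime) := by
  classical
  have hG : ¬ 2 ∣ Nat.card G := fun hd => by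
    have := Nat.odd_iff.mp hodd
    omega
  have h1 : 1 ∈ (fun m : ℕ => Nat.card {g : G // orderOf g = m}) '' Set.range (orderOf : G → ℕ) :=
    ⟨1, ⟨1, orderOf_one⟩, cnt_one⟩
  obtain ⟨a, b, hab, he⟩ := Set.ncard_eq_two.mp (show (((fun m : ℕ =>
    Nat.card {g : G // orderOf g = m}) '' Set.range (orderOf : G → ℕ)) \ {1}).ncard = 2 by
    rw [Set.ncard_diff_singleton_of_mem h1, h])
  have hv : Vals G a b := fun m hm => by
    by_cases h0 : cnt G m = 0
    · exact Or.inl h0
    obtain ⟨g, rfl⟩ := exists_of_cnt_ne h0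
    have h2 : cnt G (orderOf g) ∈ ((fun m : ℕ =>
        Nat.card {g : G // orderOf g = m}) '' Set.range (orderOf : G → ℕ)) \ {1} :=
      ⟨⟨_, ⟨g, rfl⟩, rfl⟩, fun e => by
        have := cnt_even (G := G) hm
        rw [Set.mem_singleton_iff.mp e] at this
        omega⟩
    rw [he] at h2
    exact Or.inr (by simpa using h2)
  refine ⟨card_primeFactors_odd hv hG, fun hcard => ?_⟩
  obtain ⟨p, q, hne, hpq⟩ := Finset.card_eq_two.mp hcard
  obtain ⟨hp, hdp, -⟩ := Nat.mem_primeFactors.mp (hpq ▸ Finset.mem_insert_self p {q})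
  obtain ⟨hq, hdq, -⟩ := Nat.mem_primeFactors.mp
    (hpq ▸ Finset.mem_insert_of_mem (Finset.mem_singleton_self q))
  have hp2 : p ≠ 2 := fun e => hG (e ▸ hdp)
  have hq2 : q ≠ 2 := fun e => hG (e ▸ hdq)
  have hmain : ∀ {a b : ℕ}, Vals G a b → cnt G p = a → cnt G q = b → ∀ g : G, g ^ p = 1 ∨ g ^ q = 1 := by
    intro a b hv ea eb g
    obtain ⟨h0, -, -⟩ := pair_ne hv hp hq hp2 hq2 hne hdp hdq ea eb
    have hall : ∀ r, r.Prime → r ∣ orderOf g → r = p ∨ r = q := fun r hr hd => by
      have : r ∈ (Nat.card G).primeFactors :=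
        Nat.mem_primeFactors.mpr ⟨hr, hd.trans (orderOf_dvd_natCard g), Nat.card_pos.ne'⟩
      simpa [hpq] using this
    have hsq : ∀ r, r.Prime → ¬ r ^ 2 ∣ orderOf g := fun r hr hd => by
      have hx := orderOf_pow_orderOf_div (orderOf_pos g).ne' hd
      rcases hall r hr ((dvd_pow_self r two_ne_zero).trans hd) with rfl | rfl
      · exact no_sq hv hp hq hp2 hq2 hne hdp hdq ea eb _ hx
      · exact no_sq hv.symm hq hp hq2 hp2 hne.symm hdq hdp eb ea _ hx
    have key : ∀ r s : ℕ, r.Prime → s.Prime → (∀ t, t.Prime → t ∣ orderOf g → t = r ∨ t = s) →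
        ¬ s ∣ orderOf g → g ^ r = 1 := by
      intro r s hr _ hall hs
      obtain ⟨k, hk⟩ : ∃ k, orderOf g = r ^ k := ⟨_, Nat.eq_prime_pow_of_unique_prime_dvd
        (orderOf_pos g).ne' fun {d} hd hd' => (hall d hd hd').resolve_right fun e => hs (e ▸ hd')⟩
      refine orderOf_dvd_iff_pow_eq_one.mp ?_
      rw [hk]
      refine (pow_dvd_pow r (?_ : k ≤ 1)).trans (pow_one r).dvd
      by_contra hk2
      exact hsq r hr (hk ▸ pow_dvd_pow r (by omega))
    by_cases hq' : q ∣ orderOf g
    · refine Or.inr (key q p hq hp (fun t ht hd => (hall t ht hd).symm) fun hp' => ?_)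
      have hx := orderOf_pow_orderOf_div (orderOf_pos g).ne'
        (((Nat.coprime_primes hp hq).mpr hne).mul_dvd_of_dvd_of_dvd hp' hq')
      exact cnt_pos (g ^ (orderOf g / (p * q))) (by rw [hx]; exact h0)
    · exact Or.inl (key p q hp hq hall hq')
  have hord : ∀ g : G, g ^ p = 1 ∨ g ^ q = 1 := by
    rcases cnt_of_dvd hv hp hp2 hdp with ea | ea <;> rcases cnt_of_dvd hv hq hq2 hdq with eb | eb
    · exact (not_share_odd hv hG hp hq hne hdp hdq ea eb).elim
    · exact hmain hv ea eb
    · exact hmain hv.symm ea eb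
    · exact (not_share_odd hv.symm hG hp hq hne hdp hdq ea eb).elim
  refine ⟨fun r _ P hdr => ?_, ?_⟩
  · have hr : r.Prime := Fact.out
    have hall : ∀ g : (P : Subgroup G), g ^ r = 1 := by
      rintro ⟨g, hg⟩
      obtain ⟨k, hk⟩ := IsPGroup.iff_orderOf.mp P.isPGroup' ⟨g, hg⟩
      rw [Subgroup.orderOf_mk] at hk
      refine Subtype.ext (orderOf_dvd_iff_pow_eq_one.mp ?_)
      rw [hk]
      rcases k with _ | k
      · simp
      have key : ∀ s : ℕ, s.Prime → g ^ s = 1 → r ^ (k + 1) ∣ r := fun s hs h => by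
        have h1 := hk ▸ orderOf_dvd_of_pow_eq_one h
        rw [← (Nat.prime_dvd_prime_iff_eq hr hs).mp ((dvd_pow_self r k.succ_ne_zero).trans h1)] at h1
        exact h1
      exact (hord g).elim (key p hp) (key q hq)
    refine ((Nat.dvd_prime hr).mp (Monoid.exponent_dvd_of_forall_pow_eq_one hall)).resolve_left ?_
    intro he
    have := Monoid.exp_eq_one_iff.mp he
    exact P.ne_bot_of_dvd_card hdr (Subgroup.eq_bot_of_subsingleton _)
  · haveI := Core.isSolvable_of_primeFactors_card_le_two hcard.le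
    exact FGS5.PrimeOrders.main hp hq hne hdp hdq hord

end Cfsg.Agent.S4004
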