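import Cfsg.Statements.S4005
import Cfsg.Agent.Core.BurnsidePQ
import Cfsg.Agent.Core.MinimalNormal
import Cfsg.Agent.Core.Cores
-- import your own Cfsg.Agent.* helpers here

set_option autoImplicit false
open Cfsg

namespace Cfsg.Agent.S4005

theorem perm {M : Type*} [CommGroup M] (w a b c d e f g h : M) :
    w * w * w * ((w * a * b) * (c * d * e) * (f * g * h)) =
      (w * a * b) * (w * c * f) * (w * d * h) * (w * g * e) := by
  apply Additive.ofMul.injective
  simp only [ofMul_mul]
  abel

/-- A finite group whose set of element orders is exactly {1, 2, 3} has either a normal elementary abelian 3-subgroup of index 2 or a normal elementary abelian 2-subgroup of index 3. -/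
theorem result {G : Type*} [Group G] [Finite G] (h : Set.range (orderOf : G → ℕ) = {k : ℕ | 1 ≤ k ∧ k ≤ 3}) :
    (∃ N : Subgroup G, N.Normal ∧ Cfsg.IsElementaryAbelian 3 N ∧ N.index = 2) ∨
      (∃ N : Subgroup G, N.Normal ∧ Cfsg.IsElementaryAbelian 2 N ∧ N.index = 3) := by
  have hcases : ∀ g : G, g = 1 ∨ orderOf g = 2 ∨ orderOf g = 3 := by
    intro g
    have := h.le ⟨g, rfl⟩
    simp only [Set.mem_ofPred_eq] at this
    rcases (show orderOf g = 1 ∨ orderOf g = 2 ∨ orderOf g = 3 by omega) with h1 | h1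
    · exact Or.inl (orderOf_eq_one_iff.mp h1)
    · exact Or.inr h1
  have hex : ∀ k, 1 ≤ k → k ≤ 3 → ∃ g : G, orderOf g = k := fun k h1 h2 => h.ge ⟨h1, h2⟩
  have no6 : ∀ t x : G, orderOf t = 2 → orderOf x = 3 → ¬ Commute t x := by
    intro t x ht hx hc
    have h6 := hc.orderOf_mul_eq_mul_orderOf_of_coprime (by rw [ht, hx]; norm_num)
    rw [ht, hx] at h6
    rcases hcases (t * x) with h1 | h1 | h1
    · rw [h1, orderOf_one] at h6; omega
    · omega
    · omega
  -- exponents of 2- and 3-elements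
  have h2el : ∀ V : Subgroup G, IsPGroup 2 V → ∀ v ∈ V, v ≠ 1 → orderOf v = 2 := by
    intro V hV v hv hv1
    rcases hcases v with h1 | h1 | h1
    · exact absurd h1 hv1
    · exact h1
    · obtain ⟨k, hk⟩ := IsPGroup.iff_orderOf.mp hV ⟨v, hv⟩
      rw [Subgroup.orderOf_mk, h1] at hk
      rcases k with _ | k
      · simp at hk
      · omega
  have h3el : ∀ V : Subgroup G, IsPGroup 3 V → ∀ v ∈ V, v ≠ 1 → orderOf v = 3 := by
    intro V hV v hv hv1
    rcases hcases v with h1 | h1 | h1
    · exact absurd h1 hv1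
    · obtain ⟨k, hk⟩ := IsPGroup.iff_orderOf.mp hV ⟨v, hv⟩
      rw [Subgroup.orderOf_mk, h1] at hk
      rcases k with _ | k
      · simp at hk
      · have : (3 : ℕ) ∣ 2 := hk ▸ dvd_pow_self 3 (Nat.succ_ne_zero k)
        omega
    · exact h1
  have hpow : ∀ (p : ℕ) (g : G), orderOf g = p → g ^ p = 1 := fun p g hg =>
    hg ▸ pow_orderOf_eq_one g
  have hprimes : ∀ p : ℕ, p.Prime → p ∣ Nat.card G → p = 2 ∨ p = 3 := by
    intro p hp hd
    have := Fact.mk hp
    obtain ⟨g, hg⟩ := exists_prime_orderOf_dvd_card' p hd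
    rcases hcases g with h1 | h1 | h1
    · rw [h1, orderOf_one] at hg; exact absurd hg.symm hp.ne_one
    · exact Or.inl (hg.symm.trans h1)
    · exact Or.inr (hg.symm.trans h1)
  have hsolv : Group.IsSolvable G := by
    refine Core.isSolvable_of_primeFactors_card_le_two ?_
    have hsub : (Nat.card G).primeFactors ⊆ ({2, 3} : Finset ℕ) := by
      intro p hp
      rw [Nat.mem_primeFactors] at hp
      simpa using hprimes p hp.1 hp.2.1
    exact (Finset.card_le_card hsub).trans Finset.card_le_two
  obtain ⟨t₀, ht₀⟩ := hex 2 (by omega) (by omega)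
  obtain ⟨x₀, hx₀⟩ := hex 3 (by omega) (by omega)
  by_cases hV : pCore 2 G = ⊥
  · left
    set F := pCore 3 G with hFdef
    have hFn : F.Normal := inferInstance
    have hF3 : IsPGroup 3 F := Core.isPGroup_pCore 3 G
    have hFne : F ≠ ⊥ := by
      have : Nontrivial G := ⟨t₀, 1, fun h1 => by rw [h1, orderOf_one] at ht₀; omega⟩
      obtain ⟨M, hM⟩ := Core.exists_isMinNormal (G := G)
      obtain ⟨-, p, hp, -, hpg⟩ := hM.elementaryAbelian_of_isSolvable
      have hMne : M ≠ ⊥ := hM.2.1
      have := Fact.mk hp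
      obtain ⟨m, hm, hm1⟩ := M.bot_or_exists_ne_one.resolve_left hMne
      obtain ⟨k, hk⟩ := IsPGroup.iff_orderOf.mp hpg ⟨m, hm⟩
      rw [Subgroup.orderOf_mk] at hk
      have hp23 := hprimes p hp <| by
        rcases k with _ | k
        · exact absurd (orderOf_eq_one_iff.mp hk) hm1
        · exact ((dvd_pow_self p (Nat.succ_ne_zero k)).trans hk.symm.dvd).trans
            (orderOf_dvd_natCard m)
      rcases hp23 with rfl | rfl
      · exact absurd (le_bot_iff.mp (hV ▸ Core.le_pCore hM.1 hpg)) hMne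
      · intro h1
        exact hMne (le_bot_iff.mp (h1 ▸ Core.le_pCore hM.1 hpg))
    obtain ⟨f, hf, hf1⟩ := F.bot_or_exists_ne_one.resolve_left hFne
    have hfo := h3el F hF3 f hf hf1
    have hCF : Subgroup.centralizer (F : Set G) ≤ F := by
      refine Core.le_pCore inferInstance ?_
      rw [IsPGroup.iff_orderOf]
      rintro ⟨c, hc⟩
      rw [Subgroup.orderOf_mk]
      rcases hcases c with h1 | h1 | h1
      · exact ⟨0, by rw [h1, orderOf_one, pow_zero]⟩
      · exact absurd (Subgroup.mem_centralizer_iff.mp hc f hf).symm (no6 c f h1 hfo)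
      · exact ⟨1, by rw [h1, pow_one]⟩
    have htF : ∀ t : G, orderOf t = 2 → t ∉ F := fun t ht htm => by
      have := h3el F hF3 t htm (fun h1 => by rw [h1, orderOf_one] at ht; omega)
      omega
    have hinv : ∀ t : G, orderOf t = 2 → ∀ a ∈ F, t * a * t = a⁻¹ := by
      intro t ht a ha
      have ht2 : t * t = 1 := by rw [← pow_two]; exact hpow 2 t ht
      have hti : t⁻¹ = t := inv_eq_of_mul_eq_one_right ht2
      have htat : t * a * t ∈ F := by
        have := hFn.conj_mem a ha t
        rwa [hti] at this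
      rcases hcases (t * a) with h1 | h1 | h1
      · exact absurd (by rw [eq_inv_of_mul_eq_one_left h1]; exact inv_mem ha) (htF t ht)
      · have h3 := hpow 2 _ h1
        rw [pow_two] at h3
        rw [eq_comm, inv_eq_iff_mul_eq_one]
        calc a * (t * a * t) = t * (t * a * (t * a)) * t := by
              simp only [mul_assoc]
              rw [← mul_assoc t t, ht2, one_mul]
          _ = 1 := by rw [h3, mul_one, ht2]
      · exfalso
        have h3 := hpow 3 _ h1
        have : t = (a * (t * a * t) * a)⁻¹ := by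
          apply eq_inv_of_mul_eq_one_left
          simpa only [pow_succ, pow_zero, one_mul, mul_assoc] using h3
        exact htF t ht (this ▸ inv_mem (mul_mem (mul_mem ha htat) ha))
    have hFab : IsMulCommutative F := by
      constructor; constructor
      rintro ⟨a, ha⟩ ⟨b, hb⟩
      refine Subtype.ext ?_
      show a * b = b * a
      have h1 := hinv t₀ ht₀ (a * b) (mul_mem ha hb)
      have h2 : t₀ * (a * b) * t₀ = a⁻¹ * b⁻¹ := by
        rw [← hinv t₀ ht₀ a ha, ← hinv t₀ ht₀ b hb]
        simp only [mul_assoc]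
        rw [← mul_assoc t₀ t₀, ← pow_two, hpow 2 t₀ ht₀, one_mul]
      rw [h1, ← mul_inv_rev, inv_inj] at h2
      exact h2
    have hprod : ∀ t u : G, orderOf t = 2 → orderOf u = 2 → t * u ∈ F := by
      intro t u ht hu
      refine hCF (Subgroup.mem_centralizer_iff.mpr fun a ha => ?_)
      have ht2 : t * t = 1 := by rw [← pow_two]; exact hpow 2 t ht
      have e1 := hinv t ht a⁻¹ (inv_mem ha)
      have e2 := hinv u hu a ha
      rw [inv_inv] at e1
      calc a * (t * u) = t * a⁻¹ * t * (t * u) := by rw [e1]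
        _ = t * (u * a * u) * u := by
            rw [e2]; simp only [mul_assoc]; rw [← mul_assoc t t, ht2, one_mul]
        _ = t * u * a := by
            simp only [mul_assoc]; rw [← pow_two u, hpow 2 u hu, mul_one]
    have ht2 : t₀ * t₀ = 1 := by rw [← pow_two]; exact hpow 2 t₀ ht₀
    have h3mem : ∀ g : G, orderOf g = 3 → g ∈ F := by
      intro g hg
      have hconj : orderOf (g * t₀ * g⁻¹) = 2 := by
        rw [show g * t₀ * g⁻¹ = MulAut.conj g t₀ from rfl, MulEquiv.orderOf_eq, ht₀]
      rw [← QuotientGroup.eq_one_iff]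
      let π := QuotientGroup.mk' F
      show π g = 1
      have htb : π t₀ * π t₀ = 1 := by rw [← map_mul, ht2, map_one]
      have htb1 : π t₀ ≠ 1 := fun h1 => htF t₀ ht₀ ((QuotientGroup.eq_one_iff _).mp h1)
      have hcomm : π g * π t₀ = π t₀ * π g := by
        have h1 : π (t₀ * (g * t₀ * g⁻¹)) = 1 :=
          (QuotientGroup.eq_one_iff _).mpr (hprod _ _ ht₀ hconj)
        have h2 := inv_eq_of_mul_eq_one_right ((map_mul π _ _) ▸ h1)
        rw [inv_eq_of_mul_eq_one_right htb, map_mul, map_mul, map_inv] at h2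
        conv_rhs => rw [h2]
        simp
      have hg3 : π g ^ 3 = 1 := by rw [← map_pow, hpow 3 g hg, map_one]
      rcases hcases (g * t₀) with h1 | h1 | h1
      · have : π g * π t₀ = 1 := by rw [← map_mul, h1, map_one]
        rw [eq_inv_of_mul_eq_one_left this] at hg3 ⊢
        rw [inv_pow, inv_eq_one, pow_succ, pow_two, htb, one_mul] at hg3
        exact absurd hg3 htb1
      · have h2 : (π g * π t₀) ^ 2 = 1 := by rw [← map_mul, ← map_pow, hpow 2 _ h1, map_one]
        rw [Commute.mul_pow hcomm, pow_two (π t₀), htb, mul_one] at h2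
        calc π g = π g ^ 3 * (π g ^ 2)⁻¹ := by group
          _ = 1 := by rw [hg3, h2, inv_one, mul_one]
      · exfalso
        have h2 : (π g * π t₀) ^ 3 = 1 := by rw [← map_mul, ← map_pow, hpow 3 _ h1, map_one]
        rw [Commute.mul_pow hcomm, hg3, one_mul, pow_succ, pow_two, htb, one_mul] at h2
        exact htb1 h2
    refine ⟨F, hFn, ⟨hFab, fun a ha => ?_⟩, ?_⟩
    · by_cases ha1 : a = 1
      · rw [ha1, one_pow]
      · exact hpow 3 a (h3el F hF3 a ha ha1)
    · rw [Subgroup.index_eq_two_iff']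
      refine ⟨t₀, fun b => ?_⟩
      rcases hcases b with h1 | h1 | h1
      · exact Or.inr ⟨h1 ▸ one_mem F, fun h2 => htF t₀ ht₀ (by rwa [h1, mul_one] at h2)⟩
      · exact Or.inl ⟨hprod t₀ b ht₀ h1, htF b h1⟩
      · refine Or.inr ⟨h3mem b h1, fun h2 => htF t₀ ht₀ ?_⟩
        simpa using mul_mem h2 (inv_mem (h3mem b h1))
  · right
    set V := pCore 2 G with hVdef
    have hVn : V.Normal := inferInstance
    have hV2 : IsPGroup 2 V := Core.isPGroup_pCore 2 G
    have hexp : ∀ v ∈ V, v * v = 1 := by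
      intro v hv
      by_cases hv1 : v = 1
      · rw [hv1, one_mul]
      · rw [← pow_two]; exact hpow 2 v (h2el V hV2 v hv hv1)
    have hcomm2 : ∀ Q : Subgroup G, IsPGroup 2 Q → ∀ a ∈ Q, ∀ b ∈ Q, a * b = b * a := by
      intro Q hQ a ha b hb
      have hq : ∀ v ∈ Q, v⁻¹ = v := fun v hv => by
        apply inv_eq_of_mul_eq_one_right
        by_cases hv1 : v = 1
        · rw [hv1, one_mul]
        · rw [← pow_two]; exact hpow 2 v (h2el Q hQ v hv hv1)
      rw [← hq (a * b) (mul_mem ha hb), mul_inv_rev, hq a ha, hq b hb]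
    obtain ⟨v₀, hv₀, hv₀1⟩ := V.bot_or_exists_ne_one.resolve_left hV
    have : Fact (Nat.Prime 2) := ⟨Nat.prime_two⟩
    have : Fact (Nat.Prime 3) := ⟨Nat.prime_three⟩
    -- fixed-point-free action
    have hfpf : ∀ x : G, orderOf x = 3 → ∀ v ∈ V,
        v * (x * v * x⁻¹) * (x ^ 2 * v * (x ^ 2)⁻¹) = 1 := by
      intro x hx v hv
      set w := v * (x * v * x⁻¹) * (x ^ 2 * v * (x ^ 2)⁻¹) with hw
      have h1 := hVn.conj_mem v hv x
      have h2 := hVn.conj_mem v hv (x ^ 2)
      have hwV : w ∈ V := mul_mem (mul_mem hv h1) h2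
      by_contra hw1
      refine no6 w x (h2el V hV2 w hwV hw1) hx ?_
      have h3 : x * w * x⁻¹ = w := by
        calc x * w * x⁻¹
            = (x * v * x⁻¹) * (x ^ 2 * v * (x ^ 2)⁻¹) * (x ^ 3 * v * (x ^ 3)⁻¹) := by
              rw [hw]; group
          _ = (x * v * x⁻¹) * (x ^ 2 * v * (x ^ 2)⁻¹) * v := by
              rw [hpow 3 x hx, inv_one, one_mul, mul_one]
          _ = w := by rw [hcomm2 V hV2 _ (mul_mem h1 h2) v hv, hw, mul_assoc v]
      show w * x = x * w
      conv_lhs => rw [← h3]
      group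
    let P : Sylow 3 G := default
    have hPexp : ∀ y ∈ (P : Subgroup G), y ≠ 1 → orderOf y = 3 := h3el _ P.isPGroup'
    have hPcard : Nat.card (P : Subgroup G) = 3 := by
      have hne : (P : Subgroup G) ≠ ⊥ := P.ne_bot_of_dvd_card (hx₀ ▸ orderOf_dvd_natCard x₀)
      have : Nontrivial (P : Subgroup G) := (Subgroup.nontrivial_iff_ne_bot _).mpr hne
      have : Nontrivial (Subgroup.center (P : Subgroup G)) := P.isPGroup'.center_nontrivial
      obtain ⟨⟨⟨z, hz⟩, hzc⟩, hz1⟩ := exists_ne (1 : Subgroup.center (P : Subgroup G))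
      have hz1' : z ≠ 1 := fun h1 => hz1 (Subtype.ext (Subtype.ext h1))
      have hle : (P : Subgroup G) ≤ Subgroup.zpowers z := by
        intro y hy
        by_contra hyz
        have hcz : z * y = y * z :=
          (congrArg Subtype.val (Subgroup.mem_center_iff.mp hzc ⟨y, hy⟩)).symm
        have hne' : ∀ w ∈ Subgroup.zpowers z, ∀ j : ℕ, j = 1 ∨ j = 2 → w * y ^ j ≠ 1 := by
          intro w hw j hj h1
          have hyj : y ^ j ∈ Subgroup.zpowers z := by
            rw [eq_inv_of_mul_eq_one_right h1]; exact inv_mem hw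
          refine hyz ?_
          rcases hj with rfl | rfl
          · simpa using hyj
          · have hy3 : y ^ 3 = 1 := hpow 3 y (hPexp y hy fun h2 => hyz (h2 ▸ one_mem _))
            have : y = (y ^ 2) ^ 2 := by
              rw [← pow_mul, show 2 * 2 = 3 + 1 from rfl, pow_succ, hy3, one_mul]
            rw [this]; exact pow_mem hyj 2
        have hy1 : y ≠ 1 := fun h2 => hyz (h2 ▸ one_mem _)
        have hzo := hPexp z hz hz1'
        have hyo := hPexp y hy hy1
        have hzy : orderOf (z * y) = 3 := hPexp _ (mul_mem hz hy) (by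
          simpa using hne' z (Subgroup.mem_zpowers z) 1 (Or.inl rfl))
        have hzy2 : orderOf (z * y ^ 2) = 3 := hPexp _ (mul_mem hz (pow_mem hy 2))
          (hne' z (Subgroup.mem_zpowers z) 2 (Or.inr rfl))
        let _ : CommGroup V :=
          { (inferInstance : Group V) with
            mul_comm := fun a b => Subtype.ext (hcomm2 V hV2 a a.2 b b.2) }
        let F : G → V := fun g => ⟨g * v₀ * g⁻¹, hVn.conj_mem v₀ hv₀ g⟩
        let w : V := ⟨v₀, hv₀⟩
        have R : ∀ x : G, orderOf x = 3 → w * F x * F (x ^ 2) = 1 :=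
          fun x hx => Subtype.ext (hfpf x hx v₀ hv₀)
        have R' : ∀ x : G, orderOf x = 3 → ∀ g : G, F g * F (g * x) * F (g * x ^ 2) = 1 := by
          intro x hx g
          apply Subtype.ext
          show g * v₀ * g⁻¹ * (g * x * v₀ * (g * x)⁻¹) * (g * x ^ 2 * v₀ * (g * x ^ 2)⁻¹) = 1
          have := hfpf x hx v₀ hv₀
          calc _ = g * (v₀ * (x * v₀ * x⁻¹) * (x ^ 2 * v₀ * (x ^ 2)⁻¹)) * g⁻¹ := by group
            _ = 1 := by rw [this, mul_one, mul_inv_cancel]
        have hc : Commute z y := hcz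
        have r3 := R (z * y) hzy
        have r4 := R (z * y ^ 2) hzy2
        have e4 : (z * y ^ 2) ^ 2 = z ^ 2 * y := by
          rw [(hc.pow_right 2).mul_pow, ← pow_mul, show 2 * 2 = 3 + 1 from rfl, pow_succ y 3,
            hpow 3 y hyo, one_mul]
        rw [hc.mul_pow] at r3
        rw [e4] at r4
        have A := R' z hzo y
        have B := R' z hzo (y ^ 2)
        rw [← hc.eq, ← (hc.pow_left 2).eq] at A
        rw [← (hc.pow_right 2).eq, ← (hc.pow_pow 2 2).eq] at B
        have r1 := R z hzo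
        have r2 := R y hyo
        have hw2 : w * w = 1 := Subtype.ext (hexp v₀ hv₀)
        have key : w = 1 := by
          calc w = (w * w) * w * 1 := by rw [hw2, one_mul, mul_one]
            _ = w * w * w * ((w * F z * F (z ^ 2)) * (F y * F (z * y) * F (z ^ 2 * y)) *
                (F (y ^ 2) * F (z * y ^ 2) * F (z ^ 2 * y ^ 2))) := by rw [r1, A, B, one_mul, one_mul]
            _ = (w * F z * F (z ^ 2)) * (w * F y * F (y ^ 2)) *
                (w * F (z * y) * F (z ^ 2 * y ^ 2)) * (w * F (z * y ^ 2) * F (z ^ 2 * y)) := by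
                exact perm w _ _ _ _ _ _ _ _
            _ = 1 := by rw [r1, r2, r3, r4, one_mul, one_mul, one_mul]
        exact hv₀1 (congrArg Subtype.val key)
      rw [le_antisymm hle ((Subgroup.zpowers_le).mpr hz), Nat.card_zpowers]
      exact hPexp z hz hz1'
    let Q : Sylow 2 G := default
    have hVQ : V ≤ Q := Core.pCore_le_sylow Q
    have hQV : (Q : Subgroup G) = V := by
      refine le_antisymm (le_trans ?_ (Core.le_pCore
        (inferInstance : (Subgroup.centralizer (V : Set G)).Normal) ?_)) hVQ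
      · intro q hq
        exact Subgroup.mem_centralizer_iff.mpr fun v hv =>
          hcomm2 _ Q.isPGroup' v (hVQ hv) q hq
      · rw [IsPGroup.iff_orderOf]
        rintro ⟨c, hc⟩
        rw [Subgroup.orderOf_mk]
        rcases hcases c with h1 | h1 | h1
        · exact ⟨0, by rw [h1, orderOf_one, pow_zero]⟩
        · exact ⟨1, by rw [h1, pow_one]⟩
        · exact absurd (Subgroup.mem_centralizer_iff.mp hc v₀ hv₀)
            (no6 v₀ c (h2el V hV2 v₀ hv₀ hv₀1) h1)
    refine ⟨V, hVn, ⟨⟨⟨fun a b => Subtype.ext (hcomm2 V hV2 a a.2 b b.2)⟩⟩, fun a ha => ?_⟩, ?_⟩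
    · rw [pow_two]; exact hexp a ha
    · rw [← hQV]
      have h2 : ¬ 2 ∣ (Q : Subgroup G).index := Q.not_dvd_index
      have hdvd := (Q : Subgroup G).index_dvd_card
      have hpp : ∀ p : ℕ, p.Prime → p ∣ (Q : Subgroup G).index → p = 3 := fun p hp hpd =>
        (hprimes p hp (hpd.trans hdvd)).resolve_left fun h1 => h2 (h1 ▸ hpd)
      obtain ⟨k, hk⟩ : ∃ k, (Q : Subgroup G).index = 3 ^ k :=
        ⟨_, Nat.eq_prime_pow_of_unique_prime_dvd Subgroup.index_ne_zero_of_finite
          (fun {d} hd hd' => hpp d hd hd')⟩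
      have hfac : (Nat.card G).factorization 3 = 1 := by
        have := P.card_eq_multiplicity
        rw [hPcard] at this
        exact (Nat.pow_right_injective (by norm_num) ((pow_one 3).trans this)).symm
      have hk1 : k ≤ 1 := hfac ▸ (Nat.prime_three.pow_dvd_iff_le_factorization
        Nat.card_pos.ne').mp (hk ▸ hdvd)
      rcases k with _ | k
      · exfalso
        rw [pow_zero, Subgroup.index_eq_one] at hk
        have := h2el V hV2 x₀ (hQV ▸ hk ▸ Subgroup.mem_top x₀) (fun h1 => by
          rw [h1, orderOf_one] at hx₀; omega)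
        omega
      · rw [hk, show k = 0 by omega, pow_one]

end Cfsg.Agent.S4005
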