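import Cfsg.Statements.S4198
import Mathlib.GroupTheory.SpecificGroups.Alternating.Centralizer
-- import your own Cfsg.Agent.* helpers here

set_option autoImplicit false
open Cfsg

namespace Cfsg.Agent.S4198

open Equiv

/-- Number of partitions of `n`. -/
noncomputable def numPart (n : ℕ) : ℕ := Nat.card (Nat.Partition n)

/-- Number of partitions of `n` without a part 1. -/
noncomputable def numPartNoOne (n : ℕ) : ℕ := Nat.card {s : Nat.Partition n // (1 : ℕ) ∉ s.parts}

theorem numPart_succ_le (n : ℕ) : numPart (n + 1) ≤ numPart n + numPartNoOne (n + 1) := by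
  classical
  unfold numPart numPartNoOne
  rw [← Nat.card_sum]
  refine Nat.card_le_card_of_injective (fun s : Nat.Partition (n + 1) =>
    if h : (1 : ℕ) ∈ s.parts then Sum.inl (⟨s.parts.erase 1,
      fun hi => s.parts_pos (Multiset.mem_of_mem_erase hi), by
        have := congrArg Multiset.sum (Multiset.cons_erase h)
        rw [Multiset.sum_cons, s.parts_sum] at this
        omega⟩ : Nat.Partition n)
    else Sum.inr ⟨s, h⟩) fun s t hst => ?_
  by_cases hs : (1 : ℕ) ∈ s.parts <;> by_cases ht : (1 : ℕ) ∈ t.parts <;>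
    simp only [dif_pos, dif_neg, hs, ht, not_false_eq_true] at hst
  · have h2 := congrArg Nat.Partition.parts (Sum.inl_injective hst)
    apply Nat.Partition.ext
    rw [← Multiset.cons_erase hs, ← Multiset.cons_erase ht]
    exact congrArg (Multiset.cons 1) h2
  · exact absurd hst (by simp)
  · exact absurd hst (by simp)
  · exact congrArg Subtype.val (Sum.inr_injective hst)

theorem numPartNoOne_le (n : ℕ) : numPartNoOne (n + 1) ≤ numPart n := by
  classical
  have hmin : ∀ s : Nat.Partition (n + 1), ∃ m ∈ s.parts, ∀ x ∈ s.parts, m ≤ x := by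
    intro s
    have hne : s.parts.toFinset.Nonempty := by
      rw [Multiset.toFinset_nonempty]
      intro h0
      have := s.parts_sum
      rw [h0] at this
      simp at this
    exact ⟨s.parts.toFinset.min' hne, Multiset.mem_toFinset.mp (Finset.min'_mem _ _),
      fun x hx => Finset.min'_le _ _ (Multiset.mem_toFinset.mpr hx)⟩
  choose m hm hle using hmin
  have h2 : ∀ s : {s : Nat.Partition (n + 1) // (1 : ℕ) ∉ s.parts}, 2 ≤ m s.1 := fun s => by
    have h1 := s.1.parts_pos (hm s.1)
    have h3 : m s.1 ≠ 1 := fun h => by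
      have := hm s.1
      rw [h] at this
      exact s.2 this
    omega
  refine Nat.card_le_card_of_injective (fun s : {s : Nat.Partition (n + 1) // (1 : ℕ) ∉ s.parts} =>
    (⟨(m s.1 - 1) ::ₘ s.1.parts.erase (m s.1), ?_, ?_⟩ : Nat.Partition n)) fun s t hst => ?_
  · intro i hi
    rcases Multiset.mem_cons.mp hi with rfl | hi
    · have := h2 s; omega
    · exact s.1.parts_pos (Multiset.mem_of_mem_erase hi)
  · have := congrArg Multiset.sum (Multiset.cons_erase (hm s.1))
    rw [Multiset.sum_cons, s.1.parts_sum] at this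
    rw [Multiset.sum_cons]
    have := h2 s
    omega
  · have e := congrArg Nat.Partition.parts hst
    simp only at e
    have h1 : m s.1 - 1 ∈ (m t.1 - 1) ::ₘ t.1.parts.erase (m t.1) := e ▸ Multiset.mem_cons_self _ _
    have h1' : m t.1 - 1 ∈ (m s.1 - 1) ::ₘ s.1.parts.erase (m s.1) := e.symm ▸ Multiset.mem_cons_self _ _
    have hst' : m s.1 = m t.1 := by
      have := h2 s
      have := h2 t
      rcases Multiset.mem_cons.mp h1 with h | h
      · omega
      rcases Multiset.mem_cons.mp h1' with h' | h'
      · omega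
      have := hle _ _ (Multiset.mem_of_mem_erase h)
      have := hle _ _ (Multiset.mem_of_mem_erase h')
      omega
    rw [hst', Multiset.cons_inj_right] at e
    apply Subtype.ext
    apply Nat.Partition.ext
    calc s.1.parts = m s.1 ::ₘ s.1.parts.erase (m s.1) := (Multiset.cons_erase (hm s.1)).symm
      _ = m t.1 ::ₘ t.1.parts.erase (m t.1) := by rw [hst', e]
      _ = t.1.parts := Multiset.cons_erase (hm t.1)

theorem numPartNoOne_small (n : ℕ) (h4 : 4 ≤ n) (h5 : n ≤ 5) : numPartNoOne n ≤ 2 := by
  classical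
  have key : ∀ s : {s : Nat.Partition n // (1 : ℕ) ∉ s.parts},
      s.1.parts ∈ ({{n}, {2, n - 2}} : Finset (Multiset ℕ)) := by
    intro s
    have h2 : ∀ x ∈ s.1.parts, 2 ≤ x := fun x hx => by
      have h1 := s.1.parts_pos hx
      have h3 : x ≠ 1 := fun h => s.2 (h ▸ hx)
      omega
    have hsum := s.1.parts_sum
    rw [Finset.mem_insert, Finset.mem_singleton]
    generalize s.1.parts = l at h2 hsum ⊢
    rcases l.empty_or_exists_mem with rfl | ⟨a, ha⟩
    · simp at hsum; omega
    obtain ⟨l', rfl⟩ := Multiset.exists_cons_of_mem ha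
    rcases l'.empty_or_exists_mem with rfl | ⟨b, hb⟩
    · simp at hsum
      left; simp [hsum]
    obtain ⟨l'', rfl⟩ := Multiset.exists_cons_of_mem hb
    have := h2 a (by simp)
    have := h2 b (by simp)
    simp only [Multiset.sum_cons] at hsum
    rcases l''.empty_or_exists_mem with rfl | ⟨c, hc⟩
    · simp at hsum
      right
      rcases (show a = 2 ∧ b = n - 2 ∨ b = 2 ∧ a = n - 2 by omega) with ⟨ea, eb⟩ | ⟨eb, ea⟩
      · rw [ea, eb]; rfl
      · rw [ea, eb, Multiset.cons_swap]; rfl
    · have := h2 c (by simp [hc])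
      have := Multiset.le_sum_of_mem hc
      omega
  unfold numPartNoOne
  refine (Nat.card_le_card_of_injective
    (fun s => (⟨s.1.parts, key s⟩ : ({{n}, {2, n - 2}} : Finset (Multiset ℕ))))
    fun s t hst => Subtype.ext (Nat.Partition.ext (congrArg Subtype.val hst))).trans ?_
  rw [Nat.card_eq_finsetCard]
  exact Finset.card_le_two

theorem numPart_le (n : ℕ) (hn : 5 ≤ n) : numPart n ≤ 2 ^ (n - 2) := by
  have hd : ∀ k, numPart (k + 1) ≤ 2 * numPart k := fun k => by
    have := numPart_succ_le k
    have := numPartNoOne_le k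
    omega
  induction n, hn using Nat.le_induction with
  | base =>
    have h0 : numPart 0 ≤ 1 := by
      unfold numPart
      rw [Nat.card_eq_fintype_card]
      exact Fintype.card_le_one_iff_subsingleton.mpr inferInstance
    have h1 : numPart 1 ≤ 1 := by
      unfold numPart
      rw [Nat.card_eq_fintype_card]
      exact Fintype.card_le_one_iff_subsingleton.mpr inferInstance
    have e2 : numPart 2 ≤ 2 * numPart 1 := hd 1
    have e3 : numPart 3 ≤ 2 * numPart 2 := hd 2
    have e4 : numPart 4 ≤ numPart 3 + numPartNoOne 4 := numPart_succ_le 3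
    have e5 : numPart 5 ≤ numPart 4 + numPartNoOne 5 := numPart_succ_le 4
    have := numPartNoOne_small 4 le_rfl (by norm_num)
    have := numPartNoOne_small 5 (by norm_num) le_rfl
    norm_num
    omega
  | succ k hk ih =>
    calc numPart (k + 1) ≤ 2 * numPart k := hd k
      _ ≤ 2 * 2 ^ (k - 2) := by omega
      _ = 2 ^ (k + 1 - 2) := by rw [← pow_succ']; congr 1; omega

theorem card_conjClasses_perm_le (α : Type*) [Fintype α] [DecidableEq α] :
    Nat.card (ConjClasses (Perm α)) ≤ numPart (Fintype.card α) := by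
  refine Nat.card_le_card_of_injective
    (Quotient.lift (fun σ : Perm α => σ.partition) fun a b h => Perm.partition_eq_of_isConj.mp h) ?_
  rintro ⟨a⟩ ⟨b⟩ h
  exact Quotient.sound (Perm.partition_eq_of_isConj.mpr h)

variable {α : Type*} [Fintype α] [DecidableEq α]

/-- An odd class attached to a class that splits in the alternating group. -/
theorem exists_odd_twin (h5 : 5 ≤ Fintype.card α) (g : Perm α)
    (hg : Subgroup.centralizer ({g} : Set (Perm α)) ≤ alternatingGroup α) :
    ∃ h : Perm α, Perm.sign h ≠ 1 ∧ h.cycleType ≠ {2} ∧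
      ∃ m, m ∈ g.cycleType ∧ 3 ≤ m ∧ (∀ c ∈ g.cycleType, Odd c) ∧
        h.cycleType = (m - 1) ::ₘ g.cycleType.erase m := by
  obtain ⟨hodd, hcard, -⟩ := Perm.centralizer_le_alternating_iff.mp hg
  have hsum : g.cycleType.sum ≤ Fintype.card α := by
    rw [Perm.sum_cycleType]; exact Finset.card_le_univ _
  obtain ⟨m, hm⟩ : ∃ m, m ∈ g.cycleType := by
    apply Multiset.exists_mem_of_ne_zero
    intro h0
    rw [h0] at hcard
    simp at hcard
    omega
  have hge : ∀ c ∈ g.cycleType, 3 ≤ c := fun c hc => by
    have := Perm.one_lt_of_mem_cycleType hc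
    obtain ⟨k, hk⟩ := hodd c hc
    omega
  have hm3 := hge m hm
  have hsplit := congrArg Multiset.sum (Multiset.cons_erase hm)
  rw [Multiset.sum_cons] at hsplit
  obtain ⟨h, hh⟩ := (Perm.exists_with_cycleType_iff α (m := (m - 1) ::ₘ g.cycleType.erase m)).mpr
    ⟨by rw [Multiset.sum_cons]; omega, by
      intro a ha
      rcases Multiset.mem_cons.mp ha with rfl | ha
      · omega
      · exact le_trans (by norm_num) (hge a (Multiset.mem_of_mem_erase ha))⟩
  refine ⟨h, ?_, ?_, m, hm, hm3, hodd, hh⟩
  · intro h1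
    have hgs : Perm.sign g = 1 := by
      rw [← Perm.mem_alternatingGroup]
      exact hg (Subgroup.mem_centralizer_singleton_iff.mpr rfl)
    rw [Perm.sign_of_cycleType, hh, Multiset.sum_cons, Multiset.card_cons] at h1
    rw [Perm.sign_of_cycleType] at hgs
    have hc := congrArg Multiset.card (Multiset.cons_erase hm)
    rw [Multiset.card_cons] at hc
    set S := (g.cycleType.erase m).sum
    set C := (g.cycleType.erase m).card
    have e1 : m - 1 + S + (C + 1) + 1 = g.cycleType.sum + g.cycleType.card := by omega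
    rw [← e1, pow_succ, h1, one_mul] at hgs
    exact absurd hgs (by decide)
  · intro h2
    rw [hh] at h2
    have hc := congrArg Multiset.sum h2
    rw [Multiset.sum_cons, Multiset.sum_singleton] at hc
    omega

theorem card_conjClasses_alternating_lt (h5 : 5 ≤ Fintype.card α) :
    Nat.card (ConjClasses (alternatingGroup α)) < Nat.card (ConjClasses (Perm α)) := by
  classical
  -- a preferred element in each class of `Perm α`
  let q : ConjClasses (alternatingGroup α) → ConjClasses (Perm α) :=
    Quotient.lift (fun a : alternatingGroup α => ConjClasses.mk (a : Perm α)) fun a b h => by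
      obtain ⟨c, hc⟩ := isConj_iff.mp h
      exact ConjClasses.mk_eq_mk_iff_isConj.mpr (isConj_iff.mpr ⟨c, congrArg Subtype.val hc⟩)
  let ch : ConjClasses (Perm α) → Option (ConjClasses (alternatingGroup α)) := fun C =>
    if h : ∃ c, q c = C then some h.choose else none
  have hch : ∀ c, ∃ c₀, ch (q c) = some c₀ ∧ q c₀ = q c := fun c => by
    have h : ∃ d, q d = q c := ⟨c, rfl⟩
    exact ⟨h.choose, dif_pos h, h.choose_spec⟩
  -- two classes over the same class force the centralizer to be even
  have hsplit : ∀ a b : alternatingGroup α, ConjClasses.mk a ≠ ConjClasses.mk b →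
      IsConj (a : Perm α) (b : Perm α) → Subgroup.centralizer ({(a : Perm α)} : Set (Perm α)) ≤ alternatingGroup α ∧
        ∃ t : Perm α, Perm.sign t ≠ 1 ∧ t * a * t⁻¹ = b := by
    intro a b hne hab
    obtain ⟨t, ht⟩ := isConj_iff.mp hab
    have htodd : Perm.sign t ≠ 1 := fun h1 => hne (ConjClasses.mk_eq_mk_iff_isConj.mpr
      (isConj_iff.mpr ⟨⟨t, Perm.mem_alternatingGroup.mpr h1⟩, Subtype.ext ht⟩))
    refine ⟨fun z hz => ?_, t, htodd, ht⟩
    by_contra hzo
    refine hne (ConjClasses.mk_eq_mk_iff_isConj.mpr (isConj_iff.mpr ⟨⟨t * z, ?_⟩, Subtype.ext ?_⟩))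
    · rw [Perm.mem_alternatingGroup, map_mul]
      rcases Int.units_eq_one_or (Perm.sign z) with h | h
      · exact absurd (Perm.mem_alternatingGroup.mpr h) hzo
      · rcases Int.units_eq_one_or (Perm.sign t) with h' | h'
        · exact absurd h' htodd
        · rw [h, h']; rfl
    · show t * z * (a : Perm α) * (t * z)⁻¹ = b
      rw [mul_assoc t z, Subgroup.mem_centralizer_singleton_iff.mp hz, ← ht]
      group
  let Split : ConjClasses (Perm α) → Prop := fun C =>
    ∃ a : alternatingGroup α, ConjClasses.mk (a : Perm α) = C ∧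
      Subgroup.centralizer ({(a : Perm α)} : Set (Perm α)) ≤ alternatingGroup α
  have htwin : ∀ C, Split C → ∃ D : ConjClasses (Perm α), ∃ a h : Perm α, ConjClasses.mk a = C ∧
      ConjClasses.mk h = D ∧ Perm.sign h ≠ 1 ∧ h.cycleType ≠ {2} ∧
        ∃ m, m ∈ a.cycleType ∧ 3 ≤ m ∧ (∀ c ∈ a.cycleType, Odd c) ∧
          h.cycleType = (m - 1) ::ₘ a.cycleType.erase m := by
    rintro C ⟨a, ha, hc⟩
    obtain ⟨h, h1, h2, h3⟩ := exists_odd_twin h5 (a : Perm α) hc
    exact ⟨_, a, h, ha, rfl, h1, h2, h3⟩
  choose tw htw using htwin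
  have hother : ∀ c c₀, c₀ ≠ c → q c₀ = q c → Split (q c) := by
    intro c c₀ hne heq
    induction c using Quotient.inductionOn with | _ a => ?_
    induction c₀ using Quotient.inductionOn with | _ b => ?_
    exact ⟨a, rfl, (hsplit a b (fun e => hne e.symm) (ConjClasses.mk_eq_mk_iff_isConj.mp heq.symm)).1⟩
  let Φ : ConjClasses (alternatingGroup α) → ConjClasses (Perm α) := fun c =>
    if h : ch (q c) = some c then q c
    else tw (q c) (by
      obtain ⟨c₀, e, e'⟩ := hch c
      exact hother c c₀ (fun e2 => h (e2 ▸ e)) e')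
  have heven : ∀ c, ∀ g : Perm α, q c = ConjClasses.mk g → Perm.sign g = 1 := by
    intro c g hg
    induction c using Quotient.inductionOn with | _ a => ?_
    obtain ⟨t, ht⟩ := isConj_iff.mp (ConjClasses.mk_eq_mk_iff_isConj.mp hg)
    rw [← ht, map_mul, map_mul, Perm.mem_alternatingGroup.mp a.2, map_inv, mul_one, mul_inv_cancel]
  -- the twin determines the class
  have htwinj : ∀ C hC C' hC', tw C hC = tw C' hC' → C = C' := by
    intro C hC C' hC' e
    obtain ⟨a, h, ha, hh, -, -, m, hm, hm3, hodd, hct⟩ := htw C hC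
    obtain ⟨a', h', ha', hh', -, -, m', hm', hm3', hodd', hct'⟩ := htw C' hC'
    rw [← hh, ← hh', ConjClasses.mk_eq_mk_iff_isConj, Perm.isConj_iff_cycleType_eq, hct, hct'] at e
    have hmm : m = m' := by
      have h1 : m - 1 ∈ (m' - 1) ::ₘ a'.cycleType.erase m' := e ▸ Multiset.mem_cons_self _ _
      rcases Multiset.mem_cons.mp h1 with h | h
      · omega
      · obtain ⟨k, hk⟩ := hodd' _ (Multiset.mem_of_mem_erase h)
        obtain ⟨l, hl⟩ := hodd m hm
        omega
    subst hmm
    rw [Multiset.cons_inj_right] at e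
    rw [← ha, ← ha', ConjClasses.mk_eq_mk_iff_isConj, Perm.isConj_iff_cycleType_eq,
      ← Multiset.cons_erase hm, ← Multiset.cons_erase hm', e]
  -- two non-preferred classes over the same class coincide
  have hunique : ∀ a b d : alternatingGroup α, ConjClasses.mk a ≠ ConjClasses.mk d →
      ConjClasses.mk b ≠ ConjClasses.mk d → IsConj (a : Perm α) (d : Perm α) →
      IsConj (b : Perm α) (d : Perm α) → ConjClasses.mk a = ConjClasses.mk b := by
    intro a b d had hbd h1 h2
    obtain ⟨-, t, ht, hta⟩ := hsplit a d had h1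
    obtain ⟨-, s, hs, hsb⟩ := hsplit b d hbd h2
    refine ConjClasses.mk_eq_mk_iff_isConj.mpr (isConj_iff.mpr ⟨⟨s⁻¹ * t, ?_⟩, Subtype.ext ?_⟩)
    · rw [Perm.mem_alternatingGroup, map_mul, map_inv, Int.units_ne_iff_eq_neg.mp ht,
        Int.units_ne_iff_eq_neg.mp hs]
      simp
    · show s⁻¹ * t * (a : Perm α) * (s⁻¹ * t)⁻¹ = b
      rw [show s⁻¹ * t * (a : Perm α) * (s⁻¹ * t)⁻¹ = s⁻¹ * (t * (a : Perm α) * t⁻¹) * s by group,
        hta, ← hsb]
      group
  have hinj : Function.Injective Φ := by
    intro c c' e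
    by_cases h : ch (q c) = some c <;> by_cases h' : ch (q c') = some c' <;>
      simp only [Φ, dif_pos, dif_neg, h, h', not_false_eq_true] at e
    · rw [e, h'] at h
      exact (Option.some_inj.mp h).symm
    · obtain ⟨a, g, -, hg, h1, -⟩ := htw (q c') _
      exact absurd (heven c g (e.trans hg.symm)) h1
    · obtain ⟨a, g, -, hg, h1, -⟩ := htw (q c) _
      exact absurd (heven c' g (e.symm.trans hg.symm)) h1
    · have hq := htwinj _ _ _ _ e
      obtain ⟨c₀, he, he'⟩ := hch c
      have hne : c₀ ≠ c := fun e2 => h (e2 ▸ he)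
      have hne' : c₀ ≠ c' := fun e2 => h' (by rw [← hq, he, e2])
      induction c using Quotient.inductionOn with | _ a => ?_
      induction c' using Quotient.inductionOn with | _ b => ?_
      induction c₀ using Quotient.inductionOn with | _ d => ?_
      exact hunique a b d (fun e2 => hne e2.symm) (fun e2 => hne' e2.symm)
        (ConjClasses.mk_eq_mk_iff_isConj.mp he'.symm)
        (ConjClasses.mk_eq_mk_iff_isConj.mp (hq.symm.trans he'.symm))
  obtain ⟨x, y, hxy⟩ := Fintype.exists_pair_of_one_lt_card (α := α) (by omega)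
  refine (Nat.card_le_card_of_injective Φ hinj).lt_of_ne fun heq => ?_
  have hbij := (Nat.bijective_iff_injective_and_card Φ).mpr ⟨hinj, heq⟩
  obtain ⟨c, hc⟩ := hbij.2 (ConjClasses.mk (Equiv.swap x y))
  by_cases h : ch (q c) = some c <;>
    simp only [Φ, dif_pos, dif_neg, h, not_false_eq_true] at hc
  · have := heven c _ hc
    rw [Perm.sign_swap hxy] at this
    exact absurd this (by decide)
  · obtain ⟨a, g, -, hg, -, h2, -⟩ := htw (q c) _
    apply h2
    rw [Perm.isConj_iff_cycleType_eq.mp (ConjClasses.mk_eq_mk_iff_isConj.mp (hg.trans hc))]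
    rw [(Perm.isCycle_swap hxy).cycleType, Perm.card_support_swap hxy]


/-- For n ≥ 5 the alternating group of degree n has strictly fewer conjugacy classes than the symmetric group of degree n, and the symmetric group of degree n (whose classes correspond to the partitions of n) has at most 2^(n−2) conjugacy classes. -/
theorem result (n : ℕ) (hn : 5 ≤ n) : Nat.card (ConjClasses (alternatingGroup (Fin n))) < Nat.card (ConjClasses (Equiv.Perm (Fin n))) ∧ Nat.card (ConjClasses (Equiv.Perm (Fin n))) ≤ 2 ^ (n - 2) := by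
  refine ⟨card_conjClasses_alternating_lt (by rwa [Fintype.card_fin]), ?_⟩
  refine (card_conjClasses_perm_le (Fin n)).trans ?_
  rw [Fintype.card_fin]
  exact numPart_le n hn

end Cfsg.Agent.S4198
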