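import Cfsg.Statements.S4200
import Cfsg.Agent.FGS3.CommutingPairs
-- import your own Cfsg.Agent.* helpers here

set_option autoImplicit false
open Cfsg

namespace Cfsg.Agent.S4200

/-- Let Y be a subgroup of the finite group X, of index m. Then the numbers of conjugacy classes satisfy k(Y) ≤ m·k(X) and k(X) ≤ m·k(Y), and the second inequality is strict unless Y is normal in X. -/
theorem result {X : Type*} [Group X] [Finite X] (Y : Subgroup X) : Nat.card (ConjClasses Y) ≤ Y.index * Nat.card (ConjClasses X) ∧ Nat.card (ConjClasses X) ≤ Y.index * Nat.card (ConjClasses Y) ∧ (¬ Y.Normal → Nat.card (ConjClasses X) < Y.index * Nat.card (ConjClasses Y)) := by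
  classical
  have hY : 0 < Nat.card Y := Nat.card_pos
  have hm : 0 < Y.index := Nat.pos_of_ne_zero Subgroup.index_ne_zero_of_finite
  have hX : Nat.card X = Y.index * Nat.card Y := (Subgroup.index_mul_card Y).symm
  haveI := Fintype.ofFinite ((X ⧸ Y) × (X ⧸ Y))
  have hidx : Fintype.card ((X ⧸ Y) × (X ⧸ Y)) = Y.index * Y.index := by
    rw [← Nat.card_eq_fintype_card, Nat.card_prod, Subgroup.index_eq_card]
  have hbound : Cfsg.Agent.FGS3.numCommPairs X ≤ Y.index * Y.index * Cfsg.Agent.FGS3.numCommPairs Y := by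
    rw [Cfsg.Agent.FGS3.numCommPairs_eq_sum Y]
    refine (Finset.sum_le_sum fun c _ => Cfsg.Agent.FGS3.card_cosetPairs_le Y c).trans_eq ?_
    rw [Finset.sum_const, Finset.card_univ, hidx, smul_eq_mul]
  refine ⟨?_, ?_, fun hn => ?_⟩
  · have h1 : Cfsg.Agent.FGS3.numCommPairs Y ≤ Cfsg.Agent.FGS3.numCommPairs X :=
      Nat.card_le_card_of_injective (fun v => ⟨((v.1.1 : X), (v.1.2 : X)), congrArg Subtype.val v.2.eq⟩)
        fun a b h => Subtype.ext (Prod.ext (Subtype.ext (congrArg (fun v => v.1.1) h)) (Subtype.ext (congrArg (fun v => v.1.2) h)))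
    rw [Cfsg.Agent.FGS3.numCommPairs_eq, Cfsg.Agent.FGS3.numCommPairs_eq, hX] at h1
    exact Nat.le_of_mul_le_mul_right (h1.trans_eq (by ring)) hY
  · rw [Cfsg.Agent.FGS3.numCommPairs_eq, Cfsg.Agent.FGS3.numCommPairs_eq, hX] at hbound
    exact Nat.le_of_mul_le_mul_right (hbound.trans_eq (by ring)) (Nat.mul_pos hm hY)
  · obtain ⟨n, g, hgn⟩ : ∃ (n : Y) (g : X), g⁻¹ * (n : X) * g ∉ Y := by
      by_contra h
      push Not at h
      exact hn ⟨fun a ha g => by simpa using h ⟨a, ha⟩ g⁻¹⟩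
    have hlt : Cfsg.Agent.FGS3.numCommPairs X < Y.index * Y.index * Cfsg.Agent.FGS3.numCommPairs Y := by
      rw [Cfsg.Agent.FGS3.numCommPairs_eq_sum Y]
      refine (Finset.sum_lt_sum (fun c _ => Cfsg.Agent.FGS3.card_cosetPairs_le Y c)
        ⟨((g : X ⧸ Y), ((1 : X) : X ⧸ Y)), Finset.mem_univ _, Cfsg.Agent.FGS3.card_cosetPairs_lt Y hgn _⟩).trans_eq ?_
      rw [Finset.sum_const, Finset.card_univ, hidx, smul_eq_mul]
    rw [Cfsg.Agent.FGS3.numCommPairs_eq, Cfsg.Agent.FGS3.numCommPairs_eq, hX] at hlt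
    exact Nat.lt_of_mul_lt_mul_right (hlt.trans_eq (show _ = Y.index * Nat.card (ConjClasses Y) * (Y.index * Nat.card Y) by ring))

end Cfsg.Agent.S4200
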