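import Cfsg.Statements.S4201
import Cfsg.Agent.FGS3.CommutingPairs
-- import your own Cfsg.Agent.* helpers here

set_option autoImplicit false
open Cfsg

namespace Cfsg.Agent.S4201

/-- If N is a normal subgroup of the finite group X then k(X) ≤ k(N)·k(X ⧸ N), where k denotes the number of conjugacy classes. -/
theorem result {X : Type*} [Group X] [Finite X] (N : Subgroup X) [N.Normal] : Nat.card (ConjClasses X) ≤ Nat.card (ConjClasses N) * Nat.card (ConjClasses (X ⧸ N)) := by
  classical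
  haveI := Fintype.ofFinite ((X ⧸ N) × (X ⧸ N))
  have h1 : Cfsg.Agent.FGS3.numCommPairs X ≤ Cfsg.Agent.FGS3.numCommPairs (X ⧸ N) * Cfsg.Agent.FGS3.numCommPairs N := by
    rw [Cfsg.Agent.FGS3.numCommPairs_eq_sum N,
      ← Finset.sum_filter_add_sum_filter_not Finset.univ (fun c => Commute c.1 c.2)]
    have hz : ∑ c ∈ Finset.univ.filter (fun c : (X ⧸ N) × (X ⧸ N) => ¬ Commute c.1 c.2),
        Nat.card (Cfsg.Agent.FGS3.CosetPairs N c) = 0 := by
      refine Finset.sum_eq_zero fun c hc => ?_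
      haveI : IsEmpty (Cfsg.Agent.FGS3.CosetPairs N c) := ⟨fun v => (Finset.mem_filter.1 hc).2 (by
        rw [← v.2]
        exact v.1.2.map (QuotientGroup.mk' N))⟩
      exact Nat.card_of_isEmpty
    rw [hz, add_zero]
    refine (Finset.sum_le_sum fun c _ => Cfsg.Agent.FGS3.card_cosetPairs_le N c).trans_eq ?_
    rw [Finset.sum_const, smul_eq_mul, ← Fintype.card_subtype, ← Nat.card_eq_fintype_card]
    rfl
  rw [Cfsg.Agent.FGS3.numCommPairs_eq, Cfsg.Agent.FGS3.numCommPairs_eq, Cfsg.Agent.FGS3.numCommPairs_eq] at h1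
  have hX : Nat.card X = Nat.card (X ⧸ N) * Nat.card N := Subgroup.card_eq_card_quotient_mul_card_subgroup N
  refine Nat.le_of_mul_le_mul_right (h1.trans_eq ?_) (Nat.card_pos (α := X))
  rw [hX]; ring

end Cfsg.Agent.S4201
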