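import Cfsg.Statements.S4203
import Cfsg.Agent.Core.MinimalNormal
import Cfsg.Agent.FGS4.Swaps
-- import your own Cfsg.Agent.* helpers here

set_option autoImplicit false
open Cfsg

namespace Cfsg.Agent.S4203


private theorem modEq_index_of_normalizer_le {K : Type*} [Group K] [Finite K] {p : ℕ} [Fact p.Prime]
    (R : Sylow p K) {L : Subgroup K} (hL : Subgroup.normalizer (R : Set K) ≤ L) :
    L.index ≡ 1 [MOD p] := by
  have hR : (R : Subgroup K) ≤ L := Subgroup.le_normalizer.trans hL
  have h1 := Sylow.card_eq_index_normalizer R
  have h2 := Sylow.card_eq_index_normalizer (R.subtype hR)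
  have hK := card_sylow_modEq_one p K
  have hL1 := card_sylow_modEq_one p L
  have he : Subgroup.normalizer ((R.subtype hR : Sylow p L) : Set L) =
      (Subgroup.normalizer (R : Set K)).subgroupOf L :=
    (Subgroup.subgroupOf_normalizer_eq hR).symm
  rw [he] at h2
  have h3 := Subgroup.relIndex_mul_index hL
  rw [Subgroup.relIndex, ← h2, ← h1] at h3
  rw [← h3] at hK
  calc L.index = 1 * L.index := (one_mul _).symm
    _ ≡ Nat.card (Sylow p L) * L.index [MOD p] := (hL1.symm.mul_right _)
    _ ≡ 1 [MOD p] := hK

/-- A finite group in which every maximal subgroup has index a prime or the square of a prime is solvable. -/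
theorem result {G : Type*} [Group G] [Finite G] (h : ∀ M : Subgroup G, IsCoatom M → ∃ p : ℕ, p.Prime ∧ (M.index = p ∨ M.index = p ^ 2)) : Group.IsSolvable G := by
  classical
  suffices H : ∀ n, ∀ (G : Type _) [Group G] [Finite G], Nat.card G = n →
      (∀ M : Subgroup G, IsCoatom M → ∃ p : ℕ, p.Prime ∧ (M.index = p ∨ M.index = p ^ 2)) →
      Group.IsSolvable G from H _ G rfl h

  clear h
  intro n
  induction n using Nat.strong_induction_on with
  | _ n ih =>
    intro G _ _ hn h
    rcases subsingleton_or_nontrivial G with hs | hnt
    · exact inferInstance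
    obtain ⟨K, hK⟩ := Cfsg.Agent.Core.exists_isMinNormal (G := G)
    haveI := hK.1
    have hq : Group.IsSolvable (G ⧸ K) := by
      refine ih (Nat.card (G ⧸ K)) ?_ (G ⧸ K) rfl fun M hM => ?_
      · rw [← hn, Subgroup.card_eq_card_quotient_mul_card_subgroup K]
        have h1 : 1 < Nat.card K :=
          Finite.one_lt_card_iff_nontrivial.2 ((Subgroup.nontrivial_iff_ne_bot K).2 hK.2.1)
        exact lt_mul_of_one_lt_right Nat.card_pos h1
      · have hs := QuotientGroup.mk'_surjective K
        obtain ⟨q, hq, hq'⟩ := h (M.comap (QuotientGroup.mk' K))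
          (Subgroup.isCoatom_comap_of_surjective hs hM)
        exact ⟨q, hq, by rwa [Subgroup.index_comap_of_surjective _ hs] at hq'⟩
    refine (Group.isSolvable_iff_subgroup_quotient K).mpr ⟨?_, hq⟩
    by_contra hns
    have hKnt : Nontrivial K := (Subgroup.nontrivial_iff_ne_bot K).2 hK.2.1
    -- the largest prime divisor of the order of K
    obtain ⟨p, hp, hpK, hmax⟩ : ∃ p, p.Prime ∧ p ∣ Nat.card K ∧
        ∀ q, q.Prime → q ∣ Nat.card K → q ≤ p := by
      have hne : (Nat.card K).primeFactors.Nonempty := by
        rw [Nat.nonempty_primeFactors]; exact Finite.one_lt_card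
      refine ⟨_, Nat.prime_of_mem_primeFactors (Finset.max'_mem _ hne),
        Nat.dvd_of_mem_primeFactors (Finset.max'_mem _ hne), fun q hq hqK => ?_⟩
      exact Finset.le_max' _ q (Nat.mem_primeFactors.2 ⟨hq, hqK, Nat.card_pos.ne'⟩)
    haveI := Fact.mk hp
    obtain ⟨R⟩ : Nonempty (Sylow p K) := inferInstance
    have hR0 := R.ne_bot_of_dvd_card hpK
    set R' := (R : Subgroup K).map K.subtype with hR'
    have hnorm : Subgroup.normalizer (R' : Set G) ≠ ⊤ := by
      intro htop
      have hR'n : R'.Normal := Subgroup.normalizer_eq_top_iff.1 htop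
      rcases hK.2.2 R' hR'n (Subgroup.map_subtype_le _) with h1 | h1
      · exact hR0 ((Subgroup.map_eq_bot_iff_of_injective _ K.subtype_injective).1 h1)
      · apply hns
        have hRtop : (R : Subgroup K) = ⊤ := by
          apply Subgroup.map_injective K.subtype_injective
          rw [← MonoidHom.range_eq_map, Subgroup.range_subtype]
          exact h1
        haveI : Group.IsNilpotent K :=
          (IsPGroup.of_equiv R.2 ((MulEquiv.subgroupCongr hRtop).trans Subgroup.topEquiv)).isNilpotent
        infer_instance
    obtain ⟨M, hM, hle⟩ := (eq_top_or_exists_le_coatom (Subgroup.normalizer (R' : Set G))).resolve_left hnorm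
    have hsup : M ⊔ K = ⊤ := top_le_iff.1 ((Sylow.normalizer_sup_eq_top R).ge.trans
      (sup_le_sup_right hle K))
    set L := M.subgroupOf K
    have hidx : L.index = M.index := by
      show M.relIndex K = M.index
      have e1 := Subgroup.relIndex_mul_index (inf_le_left : M ⊓ K ≤ M)
      have e2 := Subgroup.relIndex_mul_index (inf_le_right : M ⊓ K ≤ K)
      rw [Subgroup.inf_relIndex_left] at e1
      rw [Subgroup.inf_relIndex_right] at e2
      have e3 : K.relIndex M = K.index := by
        rw [← Subgroup.relIndex_sup_right, hsup, Subgroup.relIndex_top_right]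
      rw [e3] at e1
      rw [← e1, mul_comm (M.relIndex K)] at e2
      exact mul_left_cancel₀ K.index_ne_zero_of_finite e2
    have hNL : Subgroup.normalizer (R : Set K) ≤ L := by
      intro x hx
      refine Subgroup.mem_subgroupOf.2 (hle (Subgroup.mem_normalizer_iff.2 fun y => ?_))
      constructor
      · rintro ⟨z, hz, rfl⟩
        exact ⟨x * z * x⁻¹, (Subgroup.mem_normalizer_iff.1 hx z).1 hz, rfl⟩
      · rintro ⟨z, hz, e⟩
        refine ⟨x⁻¹ * z * x, (Subgroup.mem_normalizer_iff''.1 hx z).1 hz, ?_⟩
        show (x : G)⁻¹ * z * x = y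
        rw [show ((z : K) : G) = (x : G) * y * (x : G)⁻¹ from e]
        group
    have hmod := modEq_index_of_normalizer_le R hNL
    obtain ⟨q, hq, hqi⟩ := h M hM
    have hqd : q ∣ Nat.card K := by
      refine Dvd.dvd.trans ?_ L.index_dvd_card
      rw [hidx]
      rcases hqi with e | e <;> rw [e]
      exact dvd_pow_self q two_ne_zero
    have hqp : q ≤ p := hmax q hq hqd
    have hqne : q ≠ p := by
      rintro rfl
      rw [hidx] at hmod
      rcases hqi with e | e <;> rw [e] at hmod
      · rw [Nat.ModEq, Nat.mod_self, Nat.mod_eq_of_lt hq.one_lt] at hmod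
        exact zero_ne_one hmod
      · rw [Nat.ModEq, Nat.pow_mod, Nat.mod_self, Nat.mod_eq_of_lt hq.one_lt] at hmod
        simp at hmod
    have h4 : L.index = 4 := by
      rw [hidx] at hmod ⊢
      rcases hqi with e | e <;> rw [e] at hmod ⊢
      · have h5 := (Nat.modEq_iff_dvd' hq.one_lt.le).1 hmod.symm
        have := Nat.le_of_dvd (by have := hq.two_le; omega) h5
        omega
      · have h5 := (Nat.modEq_iff_dvd' (Nat.one_le_pow _ _ hq.pos)).1 hmod.symm
        have h6 : q ^ 2 - 1 = (q + 1) * (q - 1) := by
          simpa using Nat.sq_sub_sq q 1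
        rw [h6] at h5
        rcases (Nat.Prime.dvd_mul hp).1 h5 with h7 | h7
        · have := Nat.le_of_dvd (by omega) h7
          have hpq : p = q + 1 := by omega
          rcases hq.eq_two_or_odd' with rfl | ho
          · norm_num
          · exfalso
            have h8 : Even p := hpq ▸ ho.add_one
            have := hp.even_iff.1 h8
            have := hq.two_le
            omega
        · exfalso
          have := Nat.le_of_dvd (by have := hq.two_le; omega) h7
          omega
    -- the action on the cosets of L
    let f : K →* Equiv.Perm (K ⧸ L) := MulAction.toPermHom K (K ⧸ L)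
    haveI := Fintype.ofFinite (K ⧸ L)
    haveI : Group.IsSolvable (Equiv.Perm (K ⧸ L)) :=
      Cfsg.Agent.FGS4.isSolvable_perm_of_card_le_four (by
        rw [← Nat.card_eq_fintype_card, ← Subgroup.index_eq_card, h4])
    -- a non-trivial solvable image forces K to be abelian
    have hcomm : commutator K ≠ ⊤ := by
      intro hperf
      haveI : Group.IsSolvable f.range := inferInstance
      have h9 : commutator f.range = ⊤ := by
        rw [commutator_def]
        have := congrArg (Subgroup.map f.rangeRestrict) hperf
        rwa [commutator_def, Subgroup.map_commutator,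
          Subgroup.map_top_of_surjective _ f.rangeRestrict_surjective] at this
      haveI : Nontrivial f.range := by
        rw [Subgroup.nontrivial_iff_ne_bot, Ne, MonoidHom.range_eq_bot_iff]
        intro e
        have hker : f.ker = ⊤ := by rw [e, MonoidHom.ker_one]
        rw [← Subgroup.normalCore_eq_ker] at hker
        have := top_le_iff.1 (hker ▸ Subgroup.normalCore_le L)
        rw [this, Subgroup.index_top] at h4
        omega
      exact absurd h9 (Group.IsSolvable.commutator_lt_top_of_nontrivial f.range).ne
    apply hns
    have hchar : ((commutator K).map K.subtype).Normal :=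
      ConjAct.normal_of_characteristic_of_normal
    rcases hK.2.2 _ hchar (Subgroup.map_subtype_le _) with h1 | h1
    · refine Group.isSolvable_of_comm fun a b => ?_
      have h2 := (Subgroup.map_eq_bot_iff_of_injective _ K.subtype_injective).1 h1
      rw [← commutatorElement_eq_one_iff_mul_comm, ← Subgroup.mem_bot, ← h2]
      exact Subgroup.commutator_mem_commutator (Subgroup.mem_top a) (Subgroup.mem_top b)
    · exfalso
      apply hcomm
      apply Subgroup.map_injective K.subtype_injective
      rw [h1, ← MonoidHom.range_eq_map, Subgroup.range_subtype]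

end Cfsg.Agent.S4203
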