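import Cfsg.Statements.S4204
-- import your own Cfsg.Agent.* helpers here

set_option autoImplicit false
open Cfsg

namespace Cfsg.Agent.S4204


private theorem comm_le_iff {G : Type*} [Group G] (A B N : Subgroup G) [N.Normal] :
    ⁅A, B⁆ ≤ N ↔ A ≤ (Subgroup.centralizer ((B.map (QuotientGroup.mk' N) : Subgroup (G ⧸ N)) : Set (G ⧸ N))).comap (QuotientGroup.mk' N) := by
  rw [← Subgroup.map_le_iff_le_comap, ← Subgroup.commutator_eq_bot_iff_le_centralizer,
    ← Subgroup.map_commutator, Subgroup.map_eq_bot_iff, QuotientGroup.ker_mk']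

private theorem sup_comm_le {G : Type*} [Group G] {A B C N : Subgroup G} [N.Normal]
    (h1 : ⁅A, B⁆ ≤ N) (h2 : ⁅A, C⁆ ≤ N) : ⁅A, B ⊔ C⁆ ≤ N := by
  rw [Subgroup.commutator_comm] at h1 h2 ⊢
  rw [comm_le_iff] at h1 h2 ⊢
  exact sup_le h1 h2

/-- `⊤`, then the lower central series. -/
private def F {G : Type*} [Group G] (H : Subgroup G) : ℕ → Subgroup G
  | 0 => ⊤
  | n + 1 => H.lowerCentralSeries n

private theorem F_normal {G : Type*} [Group G] (H : Subgroup G) [H.Normal] :
    ∀ n, (F H n).Normal
  | 0 => inferInstanceAs (⊤ : Subgroup G).Normal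
  | 1 => ‹H.Normal›
  | n + 2 => by
    haveI := F_normal H (n + 1)
    show (⁅F H (n + 1), H⁆).Normal
    exact Subgroup.commutator_normal _ _

private theorem F_comm {G : Type*} [Group G] (H : Subgroup G) [H.Normal] :
    ∀ n, ⁅F H n, H⁆ ≤ F H (n + 1)
  | 0 => by
    show ⁅(⊤ : Subgroup G), H⁆ ≤ H
    exact Subgroup.commutator_le_right _ _
  | _ + 1 => le_rfl

private theorem F_bot {G : Type*} [Group G] (H : Subgroup G) {c n : ℕ}
    (hc : H.lowerCentralSeries c = ⊥) (hn : c + 1 ≤ n) : F H n = ⊥ := by
  obtain ⟨m, rfl⟩ := Nat.exists_eq_succ_of_ne_zero (by omega : n ≠ 0)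
  exact le_bot_iff.1 (hc ▸ Subgroup.lowerCentralSeries_antitone (S := H) (by omega))

/-- If `H` and `K` are normal subgroups of a finite group with `H` nilpotent of class at most `c` and `K` nilpotent of class at most `d` (the terms with index `c`, respectively `d`, of their lower central series are trivial, indices starting at `0`), then `HK` is nilpotent of class at most `c + d`. -/
theorem result {G : Type*} [Group G] [Finite G] (H K : Subgroup G) [H.Normal] [K.Normal] (c d : ℕ) (hH : H.lowerCentralSeries c = ⊥) (hK : K.lowerCentralSeries d = ⊥) : (H ⊔ K).lowerCentralSeries (c + d) = ⊥ := by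
  haveI := F_normal H
  haveI := F_normal K
  have key : ∀ n, (H ⊔ K).lowerCentralSeries n ≤
      ⨆ (i : ℕ) (j : ℕ) (_ : i + j = n + 1), F H i ⊓ F K j := by
    intro n
    induction n with
    | zero =>
      refine sup_le ?_ ?_
      · exact le_iSup₂_of_le 1 0 (le_iSup_of_le rfl (le_inf le_rfl le_top))
      · exact le_iSup₂_of_le 0 1 (le_iSup_of_le rfl (le_inf le_top le_rfl))
    | succ n ih =>
      have hN : (⨆ (i : ℕ) (j : ℕ) (_ : i + j = n + 1 + 1), F H i ⊓ F K j).Normal := by
        infer_instance
      rw [Subgroup.lowerCentralSeries_succ]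
      refine (Subgroup.commutator_mono ih le_rfl).trans ?_
      rw [comm_le_iff]
      refine iSup_le fun i => iSup_le fun j => iSup_le fun hij => ?_
      rw [← comm_le_iff]
      refine sup_comm_le ?_ ?_
      · refine le_iSup₂_of_le (i + 1) j (le_iSup_of_le (by omega) (le_inf ?_ ?_))
        · exact (Subgroup.commutator_mono inf_le_left le_rfl).trans (F_comm H i)
        · exact (Subgroup.commutator_mono inf_le_right le_rfl).trans (Subgroup.commutator_le_left _ _)
      · refine le_iSup₂_of_le i (j + 1) (le_iSup_of_le (by omega) (le_inf ?_ ?_))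
        · exact (Subgroup.commutator_mono inf_le_left le_rfl).trans (Subgroup.commutator_le_left _ _)
        · exact (Subgroup.commutator_mono inf_le_right le_rfl).trans (F_comm K j)
  refine le_bot_iff.1 ((key (c + d)).trans (iSup_le fun i => iSup_le fun j => iSup_le fun hij => ?_))
  rcases le_or_gt (c + 1) i with hi | hi
  · rw [F_bot H hH hi]; exact inf_le_left
  · rw [F_bot K hK (by omega : d + 1 ≤ j)]; exact inf_le_right

end Cfsg.Agent.S4204
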