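import Cfsg.Statements.S4205
-- import your own Cfsg.Agent.* helpers here

set_option autoImplicit false
open Cfsg

namespace Cfsg.Agent.S4205

/-- In a finite group whose upper central series reaches the whole group at step `c` (nilpotent of class at most `c`), starting from any subgroup and taking normalizers `c` times reaches the whole group. -/
theorem result {G : Type*} [Group G] [Finite G] (c : ℕ) (hG : Subgroup.upperCentralSeries G c = ⊤) (H : Subgroup G) : (fun K : Subgroup G => Subgroup.normalizer (K : Set G))^[c] H = ⊤ := by
  have key : ∀ i, Subgroup.upperCentralSeries G i ≤
      (fun K : Subgroup G => Subgroup.normalizer (K : Set G))^[i] H := by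
    intro i
    induction i with
    | zero => simp [Subgroup.upperCentralSeries_zero]
    | succ i ih =>
      rw [Function.iterate_succ_apply']
      intro g hg
      have hg' := fun g (hg : g ∈ Subgroup.upperCentralSeries G (i + 1)) y =>
        ih (Subgroup.mem_upperCentralSeries_succ_iff.1 hg y)
      rw [Subgroup.mem_normalizer_iff]
      intro k
      constructor
      · intro hk
        have := mul_mem (hg' g hg k) hk
        simpa [commutatorElement_def, mul_assoc] using this
      · intro hk
        have := mul_mem (hg' g⁻¹ (inv_mem hg) (g * k * g⁻¹)) hk
        simpa [commutatorElement_def, mul_assoc] using this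
  exact eq_top_iff.2 (hG ▸ key c)

end Cfsg.Agent.S4205
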