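import Cfsg.Statements.S4211
import Cfsg.Agent.OddLocal.CN
import Cfsg.Agent.Core.Cores
-- import your own Cfsg.Agent.* helpers here

set_option autoImplicit false
open Cfsg

namespace Cfsg.Agent.S4211

/-- In a group with all subgroups normal, a noncommutative p-subgroup has p = 2 and contains a
quaternion pair. -/
theorem exists_quaternion_pair {K : Type*} [Group K] [Finite K] {p : ℕ} [hp : Fact p.Prime]
    (hK : IsPGroup p K) (hn : ∀ H : Subgroup K, H.Normal) (hna : ∃ x y : K, x * y ≠ y * x) :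
    p = 2 ∧ ∃ x y : K, orderOf x = 4 ∧ y * y = x ^ 2 ∧ y * x * y⁻¹ = x⁻¹ := by
  classical
  obtain ⟨x₀, y₀, hxy₀⟩ := hna
  have : Nonempty {z : K × K // z.1 * z.2 ≠ z.2 * z.1} := ⟨⟨(x₀, y₀), hxy₀⟩⟩
  obtain ⟨⟨⟨x₁, y₁⟩, hxy₁⟩, hmin₁⟩ := Finite.exists_min
    (fun z : {z : K × K // z.1 * z.2 ≠ z.2 * z.1} => orderOf z.1.1 + orderOf z.1.2)
  obtain ⟨x, y, hxy, hle, hmin⟩ : ∃ x y : K, x * y ≠ y * x ∧ orderOf y ≤ orderOf x ∧
      ∀ x' y' : K, x' * y' ≠ y' * x' → orderOf x + orderOf y ≤ orderOf x' + orderOf y' := by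
    rcases le_total (orderOf y₁) (orderOf x₁) with h | h
    · exact ⟨x₁, y₁, hxy₁, h, fun a b hab => hmin₁ ⟨(a, b), hab⟩⟩
    · exact ⟨y₁, x₁, Ne.symm hxy₁, h, fun a b hab => by
        have := hmin₁ ⟨(a, b), hab⟩
        simp only at this
        omega⟩
  obtain ⟨a, ha⟩ := IsPGroup.iff_orderOf.mp hK x
  obtain ⟨b, hb⟩ := IsPGroup.iff_orderOf.mp hK y
  have hb0 : 1 ≤ b := by
    rcases Nat.eq_zero_or_pos b with rfl | h
    · rw [pow_zero, orderOf_eq_one_iff] at hb
      subst hb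
      simp at hxy
    · exact h
  have hab : b ≤ a := by rw [ha, hb] at hle; exact (Nat.pow_le_pow_iff_right hp.out.one_lt).mp hle
  set c := x * y * x⁻¹ * y⁻¹ with hc
  have hcx : c ∈ Subgroup.zpowers x := by
    have := mul_mem (Subgroup.mem_zpowers x)
      ((hn (Subgroup.zpowers x)).conj_mem _ (inv_mem (Subgroup.mem_zpowers x)) y)
    rwa [← mul_assoc, ← mul_assoc] at this
  have hcy : c ∈ Subgroup.zpowers y := by
    exact mul_mem ((hn (Subgroup.zpowers y)).conj_mem _ (Subgroup.mem_zpowers y) x)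
      (inv_mem (Subgroup.mem_zpowers y))
  have hcommx : Commute c x := by
    obtain ⟨i, hi⟩ := Subgroup.mem_zpowers_iff.mp hcx
    exact hi ▸ (Commute.refl x).zpow_left i
  have hcommy : Commute c y := by
    obtain ⟨i, hi⟩ := Subgroup.mem_zpowers_iff.mp hcy
    exact hi ▸ (Commute.refl y).zpow_left i
  have hc1 : c ≠ 1 := fun h => hxy (by
    calc x * y = c * (y * x) := by rw [hc]; group
      _ = y * x := by rw [h, one_mul])
  have hyxy : y * x * y⁻¹ = c⁻¹ * x := by rw [hc]; group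
  -- `c` has order p
  have hcp : c ^ p = 1 := by
    have hlt : orderOf (x ^ p) < orderOf x := by
      have ha1 : 1 ≤ a := hb0.trans hab
      rw [orderOf_pow_of_dvd hp.out.ne_zero (ha ▸ dvd_pow_self p (by omega)), ha]
      exact Nat.div_lt_self (pow_pos hp.out.pos a) hp.out.one_lt
    have hcomm : x ^ p * y = y * x ^ p := by
      by_contra hne
      have := hmin _ _ hne
      omega
    have h1 : y * x ^ p * y⁻¹ = (c⁻¹) ^ p * x ^ p := by
      rw [← conj_pow, hyxy, hcommx.inv_left.mul_pow]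
    rw [← hcomm, mul_inv_cancel_right] at h1
    have h2 : (c⁻¹) ^ p = 1 := by
      calc (c⁻¹) ^ p = (c⁻¹) ^ p * x ^ p * (x ^ p)⁻¹ := by group
        _ = 1 := by rw [← h1, mul_inv_cancel]
    rwa [inv_pow, inv_eq_one] at h2
  have hco : orderOf c = p := orderOf_eq_prime hcp hc1
  -- elements of order dividing `p` in a cyclic group are powers of `c`
  have hgen : ∀ z w : K, w ^ p = 1 → w ∈ Subgroup.zpowers z → c ∈ Subgroup.zpowers z →
      w ∈ Subgroup.zpowers c := by
    intro z w hw hwz hcz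
    have hpN : p ∣ orderOf z := hco ▸
      (by rw [← Nat.card_zpowers, ← Nat.card_zpowers z]
          exact Subgroup.card_dvd_of_le (Subgroup.zpowers_le.mpr hcz))
    set d := orderOf z / p with hd
    have hin : ∀ v : K, v ^ p = 1 → v ∈ Subgroup.zpowers z → v ∈ Subgroup.zpowers (z ^ d) := by
      intro v hv hvz
      obtain ⟨i, rfl⟩ := Subgroup.mem_zpowers_iff.mp hvz
      rw [← zpow_natCast, ← zpow_mul, ← orderOf_dvd_iff_zpow_eq_one] at hv
      have hd' : (d : ℤ) ∣ i := by
        rw [← Nat.div_mul_cancel hpN, Nat.cast_mul] at hv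
        exact Int.dvd_of_mul_dvd_mul_right (by exact_mod_cast hp.out.ne_zero) hv
      obtain ⟨j, rfl⟩ := hd'
      exact Subgroup.mem_zpowers_iff.mpr ⟨j, by rw [← zpow_natCast, ← zpow_mul]⟩
    have hdo : orderOf (z ^ d) = p := orderOf_pow_orderOf_div (orderOf_pos z).ne' hpN
    have heq : Subgroup.zpowers c = Subgroup.zpowers (z ^ d) :=
      Subgroup.eq_of_le_of_card_ge (Subgroup.zpowers_le.mpr (hin c hcp hcz))
        (by rw [Nat.card_zpowers, Nat.card_zpowers, hdo, hco])
    rw [heq]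
    exact hin w hw hwz
  set n := p ^ (b - 1) with hn'
  have hynp : (y ^ n) ^ p = 1 := by
    rw [← pow_mul, hn', ← pow_succ, Nat.sub_add_cancel hb0, ← hb, pow_orderOf_eq_one]
  have hyn : y ^ n ∈ Subgroup.zpowers c :=
    hgen y _ hynp (pow_mem (Subgroup.mem_zpowers y) n) hcy
  -- an element of `⟨x⟩` cancelling it
  obtain ⟨t, ht, htab⟩ : ∃ t : ℕ, (x ^ t) ^ n * y ^ n = 1 ∧ (b < a → p ∣ t) := by
    set d := p ^ (a - 1)
    have hxd : (x ^ d) ^ p = 1 := by
      rw [← pow_mul, ← pow_succ, Nat.sub_add_cancel (hb0.trans hab), ← ha, pow_orderOf_eq_one]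
    have hxd1 : x ^ d ≠ 1 := fun h => by
      have := Nat.le_of_dvd (pow_pos hp.out.pos _) (orderOf_dvd_of_pow_eq_one h)
      rw [ha] at this
      have := (Nat.pow_le_pow_iff_right hp.out.one_lt).mp this
      omega
    have hceq : Subgroup.zpowers (x ^ d) = Subgroup.zpowers c :=
      Subgroup.eq_of_le_of_card_ge
        (Subgroup.zpowers_le.mpr (hgen x _ hxd (pow_mem (Subgroup.mem_zpowers x) d) hcx))
        (by rw [Nat.card_zpowers, Nat.card_zpowers, orderOf_eq_prime hxd hxd1, hco])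
    obtain ⟨k, hk⟩ := (isOfFinOrder_of_finite (x ^ d)).mem_powers_iff_mem_zpowers.mpr
      (inv_mem (hceq ▸ hyn) : (y ^ n)⁻¹ ∈ Subgroup.zpowers (x ^ d))
    refine ⟨p ^ (a - b) * k, ?_, fun hlt => Dvd.dvd.mul_right (dvd_pow_self p (by omega)) k⟩
    have he : p ^ (a - b) * k * n = d * k := by
      rw [hn', mul_right_comm, ← pow_add, show a - b + (b - 1) = a - 1 by omega]
    simp only at hk
    rw [← pow_mul, he, pow_mul, hk, inv_mul_cancel]
  set u := x ^ t with hu
  have hd : y * u * y⁻¹ = (c⁻¹) ^ t * u := by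
    rw [hu, ← conj_pow, hyxy, hcommx.inv_left.mul_pow]
  set e := (c⁻¹) ^ t with he
  have heu : Commute e u := (hcommx.inv_left.pow_left t).pow_right t
  have hey : Commute e y := hcommy.inv_left.pow_left t
  have hpow : ∀ k : ℕ, (u * y) ^ k = u ^ k * y ^ k * e ^ k.choose 2 := by
    intro k
    induction k with
    | zero => simp
    | succ k ih =>
      have hyu : ∀ j : ℕ, y ^ j * u = u * y ^ j * e ^ j := by
        intro j
        induction j with
        | zero => simp
        | succ j ihj =>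
          have h1 : y * u = u * y * e := by
            calc y * u = e * u * y := by rw [← hd]; group
              _ = u * y * e := by rw [heu.eq, mul_assoc, hey.eq, ← mul_assoc]
          calc y ^ (j + 1) * u = y ^ j * (y * u) := by rw [pow_succ, mul_assoc]
            _ = y ^ j * u * y * e := by rw [h1]; simp only [mul_assoc]
            _ = u * y ^ j * (e ^ j * y) * e := by rw [ihj]; simp only [mul_assoc]
            _ = u * y ^ j * (y * e ^ j) * e := by rw [(hey.pow_left j).eq]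
            _ = _ := by simp only [pow_succ, mul_assoc]
      rw [pow_succ (u * y), ih]
      calc u ^ k * y ^ k * e ^ k.choose 2 * (u * y)
          = u ^ k * (y ^ k * u) * (y * e ^ k.choose 2) := by
            rw [mul_assoc _ (e ^ k.choose 2), ← mul_assoc (e ^ k.choose 2) u y,
              (heu.pow_left _).eq, mul_assoc u, (hey.pow_left _).eq]
            simp only [mul_assoc]
        _ = u ^ k * u * y ^ k * (e ^ k * y) * e ^ k.choose 2 := by rw [hyu]; simp only [mul_assoc]
        _ = u ^ k * u * y ^ k * (y * e ^ k) * e ^ k.choose 2 := by rw [(hey.pow_left k).eq]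
        _ = u ^ k * u * (y ^ k * y) * (e ^ k * e ^ k.choose 2) := by simp only [mul_assoc]
        _ = _ := by rw [← pow_succ, ← pow_succ, ← pow_add, Nat.choose_succ_succ, Nat.choose_one_right]
  by_cases hdiv : p ∣ t * n.choose 2
  · exfalso
    have hy' : (u * y) ^ n = 1 := by
      rw [hpow, ht, one_mul, he, ← pow_mul]
      obtain ⟨k, hk⟩ := hdiv
      rw [hk, pow_mul, inv_pow, hcp, inv_one, one_pow]
    have hne : x * (u * y) ≠ (u * y) * x := by
      intro hcom
      apply hxy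
      have hxu : Commute x u := (Commute.refl x).pow_right t
      refine mul_left_cancel (a := u) ?_
      rw [← mul_assoc, ← hxu.eq, mul_assoc, hcom, mul_assoc]
    have := hmin _ _ hne
    have hle' : orderOf (u * y) ≤ n := Nat.le_of_dvd (pow_pos hp.out.pos _) (orderOf_dvd_of_pow_eq_one hy')
    have : n < orderOf y := by
      rw [hb, hn']; exact Nat.pow_lt_pow_right hp.out.one_lt (by omega)
    omega
  · have h2C : 2 * n.choose 2 = n * (n - 1) := by
      rw [Nat.choose_two_right, Nat.mul_div_cancel' (Nat.two_dvd_mul_sub_one n)]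
    have hb2 : 2 ≤ b := by
      by_contra hb'
      have : b = 1 := by omega
      exact hdiv (by rw [hn', this]; simp)
    have hp2 : p = 2 := by
      by_contra hne
      refine hdiv (Dvd.dvd.mul_left ?_ t)
      have hpn : p ∣ 2 * n.choose 2 := h2C ▸ (dvd_pow_self p (by omega : b - 1 ≠ 0)).mul_right (n - 1)
      rcases hp.out.dvd_mul.mp hpn with h2 | h2
      · exact absurd ((Nat.prime_dvd_prime_iff_eq hp.out Nat.prime_two).mp h2) hne
      · exact h2
    subst hp2
    have hbe : b = 2 := by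
      by_contra hne
      refine hdiv (Dvd.dvd.mul_left ?_ t)
      have h4 : 2 * 2 ∣ 2 * n.choose 2 := h2C ▸ Dvd.dvd.mul_right
        ((show 2 * 2 = 2 ^ 2 by norm_num) ▸ pow_dvd_pow 2 (by omega : 2 ≤ b - 1)) _
      exact Nat.dvd_of_mul_dvd_mul_left (by norm_num) h4
    have hae : a = 2 := by
      by_contra hne
      exact hdiv (Dvd.dvd.mul_right (htab (by omega)) _)
    refine ⟨rfl, x, y, by rw [ha, hae]; norm_num, ?_, ?_⟩
    all_goals
      have hx4 : x ^ 4 = 1 := by
        rw [show (4 : ℕ) = orderOf x by rw [ha, hae]; norm_num, pow_orderOf_eq_one]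
      have hsq : ∀ z : K, orderOf z = 4 → c ∈ Subgroup.zpowers z → c = z ^ 2 := by
        intro z hz hcz
        have hz2 : (z ^ 2) ^ 2 = 1 := by rw [← pow_mul, show 2 * 2 = orderOf z by rw [hz], pow_orderOf_eq_one]
        have hz2' : z ^ 2 ≠ 1 := fun h => by
          have := Nat.le_of_dvd (by norm_num) (orderOf_dvd_of_pow_eq_one h)
          omega
        obtain ⟨i, hi⟩ := Subgroup.mem_zpowers_iff.mp
          (hgen z _ hz2 (pow_mem (Subgroup.mem_zpowers z) 2) hcz)
        rcases Int.even_or_odd i with ⟨j, rfl⟩ | ⟨j, rfl⟩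
        · rw [← two_mul, zpow_mul, zpow_two, ← pow_two, hcp, one_zpow] at hi
          exact absurd hi.symm hz2'
        · rw [zpow_add, zpow_mul, zpow_two, ← pow_two, hcp, one_zpow, one_mul, zpow_one] at hi
          exact hi
      have hcx2 : c = x ^ 2 := hsq x (by rw [ha, hae]; norm_num) hcx
    · rw [← hcx2, hsq y (by rw [hb, hbe]; norm_num) hcy, pow_two]
    · rw [hyxy, hcx2]
      refine mul_right_cancel (b := x) ?_
      rw [inv_mul_cancel, mul_assoc, ← pow_two, inv_mul_cancel]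

/-- The quaternion group inside. -/
theorem exists_quaternion_hom {K : Type*} [Group K] {x y : K} (hx : orderOf x = 4)
    (hyy : y * y = x ^ 2) (hyx : y * x * y⁻¹ = x⁻¹) :
    ∃ f : QuaternionGroup 2 →* K, Function.Injective f ∧ x ∈ f.range ∧ y ∈ f.range ∧
      ∀ q ∈ f.range, (∃ i : ℤ, q = x ^ i) ∨ ∃ i : ℤ, q = y * x ^ i := by
  have key : ∀ a b : ℤ, (a : ZMod (2 * 2)) = b → x ^ a = x ^ b := fun a b e => by
    rw [zpow_eq_zpow_iff_modEq, hx]; exact (ZMod.intCast_eq_intCast_iff a b (2 * 2)).mp e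
  have hvu : ∀ i : ℤ, x ^ i * y = y * x ^ (-i) := fun i => by
    have : y * x ^ (-i) * y⁻¹ = x ^ i := by rw [← conj_zpow, hyx, inv_zpow, ← zpow_neg, neg_neg]
    rw [mul_inv_eq_iff_eq_mul] at this
    exact this.symm
  let P : QuaternionGroup 2 → K
    | QuaternionGroup.a i => x ^ (i.cast : ℤ)
    | QuaternionGroup.xa i => y * x ^ (i.cast : ℤ)
  let f : QuaternionGroup 2 →* K := MonoidHom.mk' P (by
    rintro (i | i) (j | j) <;>
      simp only [P, QuaternionGroup.a_mul_a, QuaternionGroup.a_mul_xa, QuaternionGroup.xa_mul_a,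
        QuaternionGroup.xa_mul_xa]
    · rw [← zpow_add]; exact key _ _ (by simp)
    · rw [← mul_assoc, hvu, mul_assoc, ← zpow_add]; congr 1; exact key _ _ (by simp; ring)
    · rw [mul_assoc, ← zpow_add]; congr 1; exact key _ _ (by simp)
    · rw [mul_assoc y, ← mul_assoc (x ^ _) y, hvu, ← mul_assoc, ← mul_assoc, hyy, ← zpow_natCast,
        ← zpow_add, ← zpow_add]
      exact key _ _ (by simp; ring))
  refine ⟨f, ?_, ⟨QuaternionGroup.a 1, ?_⟩, ⟨QuaternionGroup.xa 0, ?_⟩, ?_⟩
  · rw [injective_iff_map_eq_one]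
    rintro (i | i) h
    · change x ^ (i.cast : ℤ) = 1 at h
      rw [← orderOf_dvd_iff_zpow_eq_one, hx] at h
      have : ((i.cast : ℤ) : ZMod (2 * 2)) = 0 := (ZMod.intCast_zmod_eq_zero_iff_dvd _ _).mpr h
      rw [ZMod.intCast_zmod_cast] at this
      rw [this]; rfl
    · exfalso
      change y * x ^ (i.cast : ℤ) = 1 at h
      rw [mul_eq_one_iff_eq_inv, ← zpow_neg] at h
      rw [h, mul_inv_eq_iff_eq_mul, ← (Commute.self_zpow x _).eq] at hyx
      have hxx : x = x⁻¹ := mul_right_cancel hyx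
      rw [eq_inv_iff_mul_eq_one, ← pow_two] at hxx
      have := Nat.le_of_dvd (by norm_num) (orderOf_dvd_of_pow_eq_one hxx)
      omega
  · change x ^ ((1 : ZMod (2 * 2)).cast : ℤ) = x
    rw [key _ 1 (by simp), zpow_one]
  · change y * x ^ ((0 : ZMod (2 * 2)).cast : ℤ) = y
    rw [key _ 0 (by simp), zpow_zero, mul_one]
  · rintro _ ⟨(i | i), rfl⟩
    · exact Or.inl ⟨_, rfl⟩
    · exact Or.inr ⟨_, rfl⟩


/-- A finite non-abelian group in which every subgroup is normal is the internal direct product of a subgroup isomorphic to the quaternion group of order `8`, an elementary abelian `2`-subgroup and an abelian subgroup of odd order. -/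
theorem result {G : Type*} [Group G] [Finite G] (hna : ¬ IsMulCommutative G) (hn : ∀ H : Subgroup G, H.Normal) : ∃ Q E A : Subgroup G, Nonempty (Q ≃* QuaternionGroup 2) ∧ Cfsg.IsElementaryAbelian 2 E ∧ IsMulCommutative A ∧ Odd (Nat.card A) ∧ E ⊓ A = ⊥ ∧ Q ⊓ (E ⊔ A) = ⊥ ∧ Q ⊔ (E ⊔ A) = ⊤ := by
  classical
  have := Fact.mk Nat.prime_two
  have hnil : Group.IsNilpotent G :=
    (Group.isNilpotent_of_finite_tfae (G := G)).out 0 2 rfl rfl |>.mpr fun H _ => hn H
  set A := Cfsg.pPrimeCore 2 G with hAdef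
  obtain ⟨P⟩ : Nonempty (Sylow 2 G) := inferInstance
  have hnsub : ∀ (H : Subgroup G) (L : Subgroup H), L.Normal := fun H L => by
    have := (hn (L.map H.subtype)).comap H.subtype
    rwa [Subgroup.comap_map_eq_self_of_injective H.subtype_injective] at this
  -- odd prime power elements are central
  have hodd : ∀ (g : G) (r k : ℕ), r.Prime → r ≠ 2 → orderOf g = r ^ k → g ∈ Subgroup.center G := by
    intro g r k hr hr2 hg
    have := Fact.mk hr
    obtain ⟨R⟩ : Nonempty (Sylow r G) := inferInstance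
    have hinR : ∀ (h : G) (l : ℕ), orderOf h = r ^ l → h ∈ (R : Subgroup G) := fun h l hh => by
      obtain ⟨S, hS⟩ := (IsPGroup.of_card (n := l) (G := Subgroup.zpowers h)
        (by rw [Nat.card_zpowers, hh])).exists_le_sylow
      obtain ⟨c, hc⟩ := MulAction.exists_smul_eq G S R
      have : (R : Subgroup G) = S := by
        rw [← hc, Sylow.coe_subgroup_smul]
        exact (hn (S : Subgroup G)).conjAct c
      rw [this]
      exact hS (Subgroup.mem_zpowers h)
    rw [Subgroup.mem_center_iff]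
    intro h
    suffices hle : (⊤ : Subgroup G) ≤ Subgroup.centralizer {g} from
      Subgroup.mem_centralizer_singleton_iff.mp (hle (Subgroup.mem_top h))
    refine Cfsg.Agent.OddLocal.CN.le_of_prime_pow_elements fun z _ t l ht hz => ?_
    rw [Subgroup.mem_centralizer_singleton_iff]
    obtain ⟨j, -, hj⟩ := (Nat.dvd_prime_pow ht).mp (orderOf_dvd_of_pow_eq_one hz)
    by_cases htr : t = r
    · subst htr
      by_contra hne
      exact hr2 (exists_quaternion_pair R.2 (hnsub R)
        ⟨⟨z, hinR z j hj⟩, ⟨g, hinR g k hg⟩, fun e => hne (congrArg Subtype.val e)⟩).1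
    · refine (Cfsg.Agent.OddLocal.commute_of_coprime_orderOf ?_).eq
      rw [hj, hg]
      exact Nat.Coprime.pow j k ((Nat.coprime_primes ht hr).mpr htr)
  have hAcard : (Nat.card A).Coprime 2 := Cfsg.Agent.Core.card_pPrimeCore_coprime 2 G
  have hAc : A ≤ Subgroup.center G := by
    refine Cfsg.Agent.OddLocal.CN.le_of_prime_pow_elements fun z hzA t l ht hz => ?_
    obtain ⟨j, -, hj⟩ := (Nat.dvd_prime_pow ht).mp (orderOf_dvd_of_pow_eq_one hz)
    rcases Nat.eq_zero_or_pos j with rfl | hj0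
    · rw [pow_zero, orderOf_eq_one_iff] at hj; rw [hj]; exact one_mem _
    refine hodd z t j ht (fun h2 => ?_) hj
    subst h2
    exact Nat.prime_two.ne_one (Nat.eq_one_of_dvd_coprimes hAcard
      ((dvd_pow_self 2 hj0.ne').trans (hj ▸ Subgroup.orderOf_dvd_natCard A hzA)) dvd_rfl)
  have hPn : (P : Subgroup G).Normal := hn _
  have htop : (P : Subgroup G) ⊔ A = ⊤ := by
    refine top_le_iff.mp (Cfsg.Agent.OddLocal.CN.le_of_prime_pow_elements fun z _ t l ht hz => ?_)
    obtain ⟨j, -, hj⟩ := (Nat.dvd_prime_pow ht).mp (orderOf_dvd_of_pow_eq_one hz)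
    by_cases h2 : t = 2
    · subst h2
      refine Subgroup.mem_sup_left ?_
      obtain ⟨S, hS⟩ := (IsPGroup.of_card (n := j) (G := Subgroup.zpowers z)
        (by rw [Nat.card_zpowers, hj])).exists_le_sylow
      obtain ⟨c, hc⟩ := MulAction.exists_smul_eq G S P
      have : (P : Subgroup G) = S := by
        rw [← hc, Sylow.coe_subgroup_smul]
        exact (hn (S : Subgroup G)).conjAct c
      rw [this]
      exact hS (Subgroup.mem_zpowers z)
    · refine Subgroup.mem_sup_right ?_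
      refine Cfsg.Agent.Core.le_pPrimeCore (hn (Subgroup.zpowers z)) ?_ (Subgroup.mem_zpowers z)
      rw [Nat.card_zpowers, hj]
      exact Nat.Coprime.pow_left j ((Nat.coprime_primes ht Nat.prime_two).mpr h2)
  have hnaP : ∃ x y : (P : Subgroup G), x * y ≠ y * x := by
    by_contra hno
    refine hna ⟨⟨fun a b => ?_⟩⟩
    obtain ⟨s, hs, u, hu, rfl⟩ := Subgroup.mem_sup_of_normal_left.mp
      (htop.symm ▸ Subgroup.mem_top a : a ∈ (P : Subgroup G) ⊔ A)
    obtain ⟨s', hs', u', hu', rfl⟩ := Subgroup.mem_sup_of_normal_left.mp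
      (htop.symm ▸ Subgroup.mem_top b : b ∈ (P : Subgroup G) ⊔ A)
    have h1 : s * s' = s' * s := congrArg Subtype.val
      (by_contra fun hne => hno ⟨⟨s, hs⟩, ⟨s', hs'⟩, hne⟩ :
        (⟨s, hs⟩ : (P : Subgroup G)) * ⟨s', hs'⟩ = ⟨s', hs'⟩ * ⟨s, hs⟩)
    have h2 := Subgroup.mem_center_iff.mp (hAc hu)
    have h3 := Subgroup.mem_center_iff.mp (hAc hu')
    calc s * u * (s' * u') = s * s' * (u * u') := by
          rw [mul_assoc, ← mul_assoc u, ← h2 s']; simp only [mul_assoc]
      _ = s' * s * (u' * u) := by rw [h1, h3 u]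
      _ = _ := by rw [mul_assoc, ← mul_assoc s, h3 s]; simp only [mul_assoc]
  obtain ⟨-, ⟨x, hxP⟩, ⟨y, hyP⟩, hx4, hyy, hyx⟩ := exists_quaternion_pair P.2 (hnsub P) hnaP
  rw [Subgroup.orderOf_mk] at hx4
  have hyy' : y * y = x ^ 2 := congrArg Subtype.val hyy
  have hyx' : y * x * y⁻¹ = x⁻¹ := congrArg Subtype.val hyx
  obtain ⟨f, hf, hxf, hyf, hfr⟩ := exists_quaternion_hom hx4 hyy' hyx'
  set Q := f.range with hQ
  have hQP : Q ≤ (P : Subgroup G) := fun q hq => by
    rcases hfr q hq with ⟨i, rfl⟩ | ⟨i, rfl⟩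
    · exact zpow_mem hxP i
    · exact mul_mem hyP (zpow_mem hxP i)
  have hx4' : x ^ 4 = 1 := by rw [← hx4, pow_orderOf_eq_one]
  have hxne : x ≠ x⁻¹ := fun h => by
    rw [eq_inv_iff_mul_eq_one, ← pow_two] at h
    have := Nat.le_of_dvd (by norm_num) (orderOf_dvd_of_pow_eq_one h)
    omega
  have hxy : x * y ≠ y * x := fun h => hxne (by rw [← hyx', ← h, mul_inv_cancel_right])
  set c := x ^ 2 with hc
  set C := (P : Subgroup G) ⊓ Subgroup.centralizer ({x, y} : Set G) with hC
  have hCx : ∀ z ∈ C, z * x = x * z ∧ z * y = y * z := fun z hz =>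
    ⟨(Subgroup.mem_centralizer_iff.mp hz.2 x (by simp)).symm,
      (Subgroup.mem_centralizer_iff.mp hz.2 y (by simp)).symm⟩
  -- C has exponent 2
  have hC2 : ∀ z ∈ C, z ^ 2 = 1 := by
    intro z₀ hz₀
    by_contra hz₀2
    obtain ⟨k, hk⟩ := IsPGroup.iff_orderOf.mp P.2 ⟨z₀, hz₀.1⟩
    rw [Subgroup.orderOf_mk] at hk
    have hk2 : 2 ≤ k := by
      by_contra hlt
      exact hz₀2 (orderOf_dvd_iff_pow_eq_one.mp (hk ▸ (pow_dvd_pow 2 (by omega : k ≤ 1)).trans (by simp)))
    set z := z₀ ^ 2 ^ (k - 2) with hz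
    have hzC : z ∈ C := C.pow_mem hz₀ _
    have hz4 : orderOf z = 4 := by
      rw [hz, orderOf_pow_of_dvd (pow_ne_zero _ two_ne_zero) (hk ▸ pow_dvd_pow 2 (Nat.sub_le k 2)), hk,
        Nat.pow_div (Nat.sub_le k 2) (by norm_num), show k - (k - 2) = 2 by omega]
    have hz4' : z ^ 4 = 1 := by rw [← hz4, pow_orderOf_eq_one]
    obtain ⟨hzx, hzy⟩ := hCx z hzC
    have hmem : y * (x * z) * y⁻¹ ∈ Subgroup.zpowers (x * z) :=
      (hn _).conj_mem _ (Subgroup.mem_zpowers _) y
    obtain ⟨i, hi⟩ := (isOfFinOrder_of_finite (x * z)).mem_powers_iff_mem_zpowers.mpr hmem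
    simp only at hi
    have e1 : y * (x * z) * y⁻¹ = x⁻¹ * z := by
      calc y * (x * z) * y⁻¹ = y * x * y⁻¹ * (y * z * y⁻¹) := by group
        _ = x⁻¹ * z := by rw [hyx', ← hzy, mul_inv_cancel_right]
    have hcxz : Commute x z := hzx.symm
    rw [e1, ← Nat.mod_add_div i 4, pow_add, pow_mul, hcxz.mul_pow 4, hx4', hz4', one_mul, one_pow,
      mul_one, hcxz.mul_pow] at hi
    have hlt : i % 4 < 4 := Nat.mod_lt _ (by norm_num)
    interval_cases hi4 : i % 4
    · rw [pow_zero, pow_zero, one_mul, eq_comm, inv_mul_eq_one] at hi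
      exact hxy (hi ▸ hzy)
    · rw [pow_one, pow_one] at hi
      exact hxne (mul_right_cancel hi)
    · have : z⁻¹ = x ^ 3 := by
        calc z⁻¹ = x * (x⁻¹ * z) * (z ^ 2)⁻¹ := by group
          _ = x * (x ^ 2 * z ^ 2) * (z ^ 2)⁻¹ := by rw [← hi]
          _ = x ^ 3 := by group
      have hzx3 : z = x := by
        rw [← inv_inv z, this]
        exact inv_eq_of_mul_eq_one_right (by rw [← pow_succ, hx4'])
      exact hxy (hzx3 ▸ hzy)
    · have hz3 : z ^ 3 = z⁻¹ := eq_inv_of_mul_eq_one_left (by rw [← pow_succ, hz4'])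
      have hx3 : x ^ 3 = x⁻¹ := eq_inv_of_mul_eq_one_left (by rw [← pow_succ, hx4'])
      rw [hz3, hx3] at hi
      have h := mul_left_cancel hi
      rw [inv_eq_iff_mul_eq_one, ← pow_two] at h
      have := Nat.le_of_dvd (by norm_num) (orderOf_dvd_of_pow_eq_one h)
      omega
  have hcC : c ∈ C := by
    refine Subgroup.mem_inf.mpr ⟨pow_mem hxP 2, ?_⟩
    rw [Subgroup.mem_centralizer_iff]
    rintro w (rfl | rfl)
    · exact (Commute.self_pow w 2).eq
    · rw [← hyy', mul_assoc]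
  have hc1 : c ≠ 1 := fun h => by
    have := Nat.le_of_dvd (by norm_num) (orderOf_dvd_of_pow_eq_one h)
    omega
  -- Q ∩ C
  have hQC : ∀ q ∈ Q, q ∈ C → q = 1 ∨ q = c := by
    intro q hq hqC
    obtain ⟨hqx, hqy⟩ := hCx q hqC
    rcases hfr q hq with ⟨i, rfl⟩ | ⟨i, rfl⟩
    · have h2 : x ^ (i + i) = 1 := by
        have h1 : y * x ^ i * y⁻¹ = x ^ i := by rw [← hqy, mul_inv_cancel_right]
        rw [← conj_zpow, hyx', inv_zpow, inv_eq_iff_mul_eq_one, ← zpow_add] at h1
        exact h1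
      rw [← orderOf_dvd_iff_zpow_eq_one, hx4] at h2
      obtain ⟨j, hj⟩ : (2 : ℤ) ∣ i := by omega
      subst hj
      rw [zpow_mul, zpow_two, ← pow_two, ← hc]
      rcases Int.even_or_odd j with ⟨l, rfl⟩ | ⟨l, rfl⟩
      · left
        rw [← two_mul, zpow_mul, zpow_two, ← pow_two, hC2 c hcC, one_zpow]
      · right
        rw [zpow_add, zpow_mul, zpow_two, ← pow_two, hC2 c hcC, one_zpow, one_mul, zpow_one]
    · exfalso
      apply hxy
      have h1 : y * (x ^ i * x) = x * (y * x ^ i) := by rw [← mul_assoc]; exact hqx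
      rw [← (Commute.self_zpow x i).eq, ← mul_assoc, ← mul_assoc] at h1
      exact (mul_right_cancel h1).symm
  -- P = Q C
  have hPQC : (P : Subgroup G) ≤ Q ⊔ C := by
    intro g hg
    have hpm : ∀ w, orderOf w = 4 → g * w * g⁻¹ = w ∨ g * w * g⁻¹ = w⁻¹ := by
      intro w hw
      obtain ⟨i, hi⟩ := (isOfFinOrder_of_finite w).mem_powers_iff_mem_zpowers.mpr
        ((hn _).conj_mem _ (Subgroup.mem_zpowers w) g)
      simp only at hi
      have ho : orderOf (g * w * g⁻¹) = 4 := (MulEquiv.orderOf_eq (MulAut.conj g) w).trans hw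
      rw [← Nat.mod_add_div i 4, pow_add, pow_mul, show w ^ 4 = 1 by rw [← hw, pow_orderOf_eq_one],
        one_pow, mul_one] at hi
      have hlt : i % 4 < 4 := Nat.mod_lt _ (by norm_num)
      interval_cases hi4 : i % 4
      · rw [← hi, pow_zero, orderOf_one] at ho; omega
      · exact Or.inl (by rw [← hi, pow_one])
      · rw [← hi, orderOf_pow_of_dvd two_ne_zero (by rw [hw]; norm_num), hw] at ho; omega
      · refine Or.inr (hi.symm.trans ?_)
        exact eq_inv_of_mul_eq_one_left (by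
          rw [← pow_succ, show (3 + 1 : ℕ) = orderOf w from hw.symm, pow_orderOf_eq_one])
    have hyo : orderOf y = 4 := by
      refine orderOf_eq_prime_pow (p := 2) (n := 1) ?_ ?_
      · rw [show (2 : ℕ) ^ 1 = 2 from rfl, pow_two, hyy']
        exact hc1
      · rw [show (2 : ℕ) ^ (1 + 1) = 2 * 2 from rfl, pow_mul, pow_two y, hyy']
        exact hC2 c hcC
    have hxy' : x * y * x⁻¹ = y⁻¹ := by
      rw [eq_inv_iff_mul_eq_one]
      calc x * y * x⁻¹ * y = x * (y * y) * (y⁻¹ * x⁻¹ * y) := by group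
        _ = x * x ^ 2 * x := by
          rw [hyy']
          congr 1
          calc y⁻¹ * x⁻¹ * y = y⁻¹ * (y * x * y⁻¹) * y := by rw [hyx']
            _ = x := by group
        _ = x ^ 4 := by simp only [pow_succ, pow_zero, one_mul, mul_assoc]
        _ = 1 := hx4'
    have finish : ∀ q ∈ Q, q * x * q⁻¹ = g * x * g⁻¹ → q * y * q⁻¹ = g * y * g⁻¹ → g ∈ Q ⊔ C := by
      intro q hq h1 h2
      have : q⁻¹ * g ∈ C := by
        refine Subgroup.mem_inf.mpr ⟨mul_mem (inv_mem (hQP hq)) hg, ?_⟩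
        rw [Subgroup.mem_centralizer_iff]
        have key : ∀ w, q * w * q⁻¹ = g * w * g⁻¹ → w * (q⁻¹ * g) = q⁻¹ * g * w := fun w e => by
          calc w * (q⁻¹ * g) = q⁻¹ * (q * w * q⁻¹) * g := by group
            _ = _ := by rw [e]; group
        rintro w (rfl | rfl)
        exacts [key _ h1, key _ h2]
      rw [show g = q * (q⁻¹ * g) by group]
      exact Subgroup.mul_mem_sup hq this
    rcases hpm x hx4 with ex | ex <;> rcases hpm y hyo with ey | ey
    · exact finish 1 (one_mem _) (by rw [ex]; group) (by rw [ey]; group)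
    · exact finish x hxf (by rw [ex]; group) (by rw [ey, hxy'])
    · exact finish y hyf (by rw [ex, hyx']) (by rw [ey]; group)
    · refine finish (x * y) (mul_mem hxf hyf) ?_ ?_
      · rw [ex]
        calc x * y * x * (x * y)⁻¹ = x * (y * x * y⁻¹) * x⁻¹ := by group
          _ = x⁻¹ := by rw [hyx']; group
      · rw [ey, ← hxy']
        group
  -- E
  obtain ⟨E, -, hE⟩ := Finite.exists_le_maximal (α := Subgroup G) (p := fun E => E ≤ C ∧ c ∉ E)
    (a := ⊥) ⟨bot_le, fun h => hc1 (Subgroup.mem_bot.mp h)⟩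
  have hEc : C ≤ E ⊔ Subgroup.zpowers c := by
    intro z hz
    by_contra hzn
    have hc' : c ∈ E ⊔ Subgroup.zpowers z := by
      by_contra hcn
      have hle := hE.le_of_ge (y := E ⊔ Subgroup.zpowers z)
        ⟨sup_le hE.prop.1 (Subgroup.zpowers_le.mpr hz), hcn⟩ le_sup_left
      exact hzn (Subgroup.mem_sup_left (hle (Subgroup.mem_sup_right (Subgroup.mem_zpowers z))))
    have := hn E
    obtain ⟨e, he, w, hw, hew⟩ := Subgroup.mem_sup_of_normal_left.mp hc'
    obtain ⟨i, rfl⟩ := Subgroup.mem_zpowers_iff.mp hw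
    rcases Int.even_or_odd i with ⟨l, rfl⟩ | ⟨l, rfl⟩
    · rw [← two_mul, zpow_mul, zpow_two, ← pow_two, hC2 z hz, one_zpow, mul_one] at hew
      exact hE.prop.2 (hew ▸ he)
    · rw [zpow_add, zpow_mul, zpow_two, ← pow_two, hC2 z hz, one_zpow, one_mul, zpow_one] at hew
      refine hzn ?_
      rw [show z = e⁻¹ * c by rw [← hew]; group]
      exact mul_mem (Subgroup.mem_sup_left (inv_mem he)) (Subgroup.mem_sup_right (Subgroup.mem_zpowers c))
  have hPA : (P : Subgroup G) ⊓ A = ⊥ := by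
    apply disjoint_iff.mp
    apply Subgroup.disjoint_of_coprime_natCard
    obtain ⟨k, hk⟩ := IsPGroup.iff_card.mp P.2
    rw [hk]
    exact Nat.Coprime.pow_left k hAcard.symm
  refine ⟨Q, E, A, ⟨(MonoidHom.ofInjective hf).symm⟩, ⟨⟨⟨fun a b => Subtype.ext ?_⟩⟩, fun a ha => ?_⟩,
    ⟨⟨fun a b => Subtype.ext (Subgroup.mem_center_iff.mp (hAc b.2) a)⟩⟩,
    Nat.coprime_two_right.mp hAcard, ?_, ?_, ?_⟩
  · have h2 : ∀ w ∈ E, w⁻¹ = w := fun w hw => by
      rw [inv_eq_iff_mul_eq_one, ← pow_two, hC2 w (hE.prop.1 hw)]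
    show (a : G) * b = b * a
    calc (a : G) * b = ((a : G) * b)⁻¹ := (h2 _ (mul_mem a.2 b.2)).symm
      _ = (b : G)⁻¹ * (a : G)⁻¹ := mul_inv_rev _ _
      _ = b * a := by rw [h2 _ a.2, h2 _ b.2]
  · exact hC2 a (hE.prop.1 ha)
  · rw [eq_bot_iff, ← hPA]
    exact inf_le_inf_right A (hE.prop.1.trans inf_le_left)
  · rw [eq_bot_iff]
    rintro z ⟨hzQ, hzEA⟩
    have := hn E
    obtain ⟨e, he, u, hu, rfl⟩ := Subgroup.mem_sup_of_normal_left.mp hzEA
    have : u ∈ (P : Subgroup G) ⊓ A := ⟨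
      inv_mul_cancel_left e u ▸ (P : Subgroup G).mul_mem ((P : Subgroup G).inv_mem (hE.prop.1 he).1) (hQP hzQ), hu⟩
    rw [hPA, Subgroup.mem_bot] at this
    subst this
    rw [mul_one] at hzQ ⊢
    rcases hQC e hzQ (hE.prop.1 he) with h | h
    · rw [h]; exact one_mem _
    · exact absurd (h ▸ he) hE.prop.2
  · rw [eq_top_iff, ← htop]
    refine sup_le (hPQC.trans (sup_le le_sup_left (hEc.trans (sup_le ?_ ?_)))) ?_
    · exact le_sup_of_le_right le_sup_left
    · exact le_sup_of_le_left (Subgroup.zpowers_le.mpr (pow_mem hxf 2))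
    · exact le_sup_of_le_right le_sup_right

end Cfsg.Agent.S4211
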