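import Cfsg.Statements.S4213
import Cfsg.Agent.FGS2.FrobSolutions
import Cfsg.Agent.Core.MinimalNormal
import Cfsg.Agent.Core.PiNumber
-- import your own Cfsg.Agent.* helpers here

set_option autoImplicit false
open Cfsg

namespace Cfsg.Agent.S4213


universe w

open Subgroup in
private theorem main : ∀ (N : ℕ) (G : Type w) [Group G] [Finite G] [Group.IsSolvable G],
    Nat.card G = N → ∀ n, n ∣ Nat.card G → Nat.card {x : G // x ^ n = 1} = n →
      ∃ H : Subgroup G, H.Normal ∧ Nat.card H = n ∧ (H : Set G) = {x : G | x ^ n = 1} := by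
  intro N
  induction N using Nat.strong_induction_on with
  | _ N ih =>
    intro G _ _ _ hN n hn hcount
    have hn0 : 0 < n := Nat.pos_of_dvd_of_pos hn Nat.card_pos
    rcases subsingleton_or_nontrivial G with hs | hnt
    · have h1 : Nat.card G = 1 := Nat.card_of_subsingleton 1
      refine ⟨⊤, inferInstance, by
        rw [Subgroup.card_top, h1]; rw [h1] at hn; exact (Nat.dvd_one.1 hn).symm, ?_⟩
      ext x
      simp [Subsingleton.elim x 1]
    obtain ⟨A, hA⟩ := Cfsg.Agent.Core.exists_isMinNormal (G := G)
    haveI := hA.1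
    obtain ⟨-, p, hp, hexp, hpA⟩ := hA.elementaryAbelian_of_isSolvable
    haveI := Fact.mk hp
    obtain ⟨b, hb⟩ := IsPGroup.iff_card.1 hpA
    have hA1 : 1 < Nat.card A :=
      Finite.one_lt_card_iff_nontrivial.2 ((Subgroup.nontrivial_iff_ne_bot A).2 hA.2.1)
    have hcard : Nat.card G = Nat.card (G ⧸ A) * Nat.card A := card_eq_card_quotient_mul_card_subgroup A
    have hlt : Nat.card (G ⧸ A) < N := by
      rw [← hN, hcard]; exact lt_mul_of_one_lt_right Nat.card_pos hA1
    let π := QuotientGroup.mk' A
    have hπ : Function.Surjective π := QuotientGroup.mk'_surjective A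
    haveI : Group.IsSolvable (G ⧸ A) := inferInstance
    -- the subgroup attached to a subgroup of the quotient
    have hpre : ∀ K : Subgroup (G ⧸ A), Nat.card (K.comap π) = Nat.card K * Nat.card A := fun K =>
      Cfsg.Agent.Core.card_comap_mk A K
    by_cases hpn : p ∣ n
    · set g := Nat.gcd n (Nat.card A) with hg
      obtain ⟨m, hm⟩ := Nat.gcd_dvd_left n (Nat.card A)
      rw [← hg] at hm
      have hpg : p ∣ g := Nat.dvd_gcd hpn (hb ▸ dvd_pow_self p (by
        rintro rfl; rw [pow_zero] at hb; omega))
      have hg0 : 0 < g := Nat.gcd_pos_of_pos_left _ hn0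
      obtain ⟨c, hc⟩ := Nat.gcd_dvd_right n (Nat.card A)
      rw [← hg] at hc
      have hcop : m.Coprime c := by
        have h1 := Nat.coprime_div_gcd_div_gcd (m := n) (n := Nat.card A) (by rw [← hg]; exact hg0)
        have e1 : n / g = m := by rw [hm, Nat.mul_div_cancel_left _ hg0]
        have e2 : Nat.card A / g = c := by rw [hc, Nat.mul_div_cancel_left _ hg0]
        rwa [← hg, e1, e2] at h1
      have hmd : m ∣ Nat.card (G ⧸ A) := by
        refine hcop.dvd_of_dvd_mul_right (Nat.dvd_of_mul_dvd_mul_left hg0 ?_)
        have h1 : g * m ∣ Nat.card (G ⧸ A) * Nat.card A := by rw [← hm, ← hcard]; exact hn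
        rw [hc] at h1
        refine h1.trans (dvd_of_eq ?_)
        ring
      have hF := Cfsg.Agent.FGS2.frobenius_solutions (Nat.card (G ⧸ A)) (G := G ⧸ A) rfl m hmd
      have hsub : ∀ x : G, (π x) ^ m = 1 → x ^ n = 1 := by
        intro x hx
        rw [← map_pow] at hx
        have h1 := hexp _ ((QuotientGroup.eq_one_iff _).1 hx)
        rw [← pow_mul] at h1
        obtain ⟨k, hk⟩ := hpg
        rw [hm, hk, mul_assoc, mul_comm k, ← mul_assoc, mul_comm p, pow_mul, h1, one_pow]
      have hcnt : Nat.card {z : G ⧸ A // z ^ m = 1} * Nat.card A ≤ n := by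
        rw [← hcount, ← Nat.card_prod]
        refine Nat.card_le_card_of_injective
          (fun za => ⟨za.1.1.out * za.2.1, hsub _ (by
            have : π (za.1.1.out * za.2.1) = za.1.1 := by
              rw [map_mul, show π za.2.1 = 1 from (QuotientGroup.eq_one_iff _).2 za.2.2, mul_one]
              exact QuotientGroup.out_eq' _
            rw [this]; exact za.1.2)⟩) ?_
        rintro ⟨⟨z, hz⟩, ⟨a, ha⟩⟩ ⟨⟨z', hz'⟩, ⟨a', ha'⟩⟩ e
        have e' : z.out * a = z'.out * a' := congrArg Subtype.val e
        have hzz : z = z' := by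
          have h3 := congrArg π e'
          rw [map_mul, map_mul, show π a = 1 from (QuotientGroup.eq_one_iff _).2 ha,
            show π a' = 1 from (QuotientGroup.eq_one_iff _).2 ha', mul_one, mul_one] at h3
          rwa [show π z.out = z from QuotientGroup.out_eq' z,
            show π z'.out = z' from QuotientGroup.out_eq' z'] at h3
        subst hzz
        obtain rfl := mul_left_cancel e'
        rfl
      obtain ⟨t, ht⟩ := hF
      have htpos : 0 < t := by
        rcases Nat.eq_zero_or_pos t with rfl | h
        · exfalso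
          haveI : Nonempty {z : G ⧸ A // z ^ m = 1} := ⟨⟨1, one_pow _⟩⟩
          exact Nat.card_pos.ne' (by simpa using ht)
        · exact h
      have hm0 : 0 < m := Nat.pos_of_mul_pos_left (hm ▸ hn0)
      have h1 : t * Nat.card A ≤ g := by
        rw [ht, hm] at hcnt
        refine Nat.le_of_mul_le_mul_left ?_ hm0
        calc m * (t * Nat.card A) = m * t * Nat.card A := by ring
          _ ≤ g * m := hcnt
          _ = m * g := by ring
      have hgA : g ≤ Nat.card A := Nat.le_of_dvd Nat.card_pos (Nat.gcd_dvd_right _ _)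
      have ht1 : t = 1 := by
        have h2 : t * Nat.card A ≤ 1 * Nat.card A := by rw [one_mul]; exact h1.trans hgA
        have := Nat.le_of_mul_le_mul_right h2 Nat.card_pos
        omega
      subst ht1
      rw [mul_one] at ht
      obtain ⟨K, hK, hKc, hKs⟩ := ih _ hlt (G ⧸ A) rfl m hmd ht
      have hKn : Nat.card (K.comap π) = n := by
        rw [hpre, hKc, hm]
        rw [show Nat.card A = g by omega, mul_comm]
      refine ⟨K.comap π, hK.comap π, hKn, ?_⟩
      refine Set.eq_of_subset_of_ncard_le (fun x hx => ?_) ?_ (Set.toFinite _)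
      · exact hsub x (by
          have : π x ∈ (K : Set (G ⧸ A)) := hx
          rwa [hKs] at this)
      · show Nat.card {x : G | x ^ n = 1} ≤ Nat.card (K.comap π)
        rw [hKn]
        exact hcount.le
    · have hcop : n.Coprime (Nat.card A) := by
        rw [hb]; exact ((Nat.Prime.coprime_iff_not_dvd hp).2 hpn).symm.pow_right b
      have hnd : n ∣ Nat.card (G ⧸ A) := hcop.dvd_of_dvd_mul_right (hcard ▸ hn)
      obtain ⟨t, ht⟩ := Cfsg.Agent.FGS2.frobenius_solutions (Nat.card (G ⧸ A)) (G := G ⧸ A) rfl n hnd
      let f : {x : G // x ^ n = 1} → {z : G ⧸ A // z ^ n = 1} :=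
        fun x => ⟨π x.1, by rw [← map_pow, x.2, map_one]⟩
      have hf : Function.Surjective f := by
        rintro ⟨z, hz⟩
        obtain ⟨x, rfl⟩ := hπ z
        obtain ⟨e, he1, he0⟩ := Nat.chineseRemainder hcop 1 0
        have hxn : (x ^ n) ^ Nat.card A = 1 := by
          rw [← map_pow] at hz
          have h1 := pow_card_eq_one' (G := A) (x := ⟨x ^ n, (QuotientGroup.eq_one_iff _).1 hz⟩)
          exact congrArg Subtype.val h1
        refine ⟨⟨x ^ e, ?_⟩, Subtype.ext ?_⟩
        · obtain ⟨d, hd⟩ := Nat.modEq_zero_iff_dvd.1 he0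
          rw [← pow_mul, hd, show Nat.card A * d * n = n * Nat.card A * d by ring, pow_mul, pow_mul,
            hxn, one_pow]
        · show π (x ^ e) = π x
          rw [map_pow]
          conv_rhs => rw [← pow_one (π x)]
          exact pow_eq_pow_iff_modEq.2 (he1.of_dvd (orderOf_dvd_of_pow_eq_one hz))
      have hle := Nat.card_le_card_of_surjective f hf
      rw [hcount, ht] at hle
      have ht1 : t = 1 := by
        rcases Nat.lt_or_ge t 2 with h | h
        · interval_cases t
          · exfalso
            haveI : Nonempty {z : G ⧸ A // z ^ n = 1} := ⟨⟨1, one_pow _⟩⟩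
            exact Nat.card_pos.ne' (by simpa using ht)
          · rfl
        · exfalso; nlinarith
      subst ht1
      rw [mul_one] at ht
      obtain ⟨K, hK, hKc, -⟩ := ih _ hlt (G ⧸ A) rfl n hnd ht
      set L := K.comap π
      haveI : L.Normal := hK.comap π
      have hAL : A ≤ L := fun x hx => by
        show π x ∈ K
        rw [show π x = 1 from (QuotientGroup.eq_one_iff _).2 hx]; exact one_mem K
      have hcA : Nat.card (A.subgroupOf L) = Nat.card A :=
        Nat.card_congr (subgroupOfEquivOfLe hAL).toEquiv
      have hLc : Nat.card L = n * Nat.card A := by rw [hpre, hKc]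
      have hidx : (A.subgroupOf L).index = n := by
        have h1 := (A.subgroupOf L).index_mul_card
        rw [hcA, hLc] at h1
        exact Nat.eq_of_mul_eq_mul_right Nat.card_pos h1
      obtain ⟨H', hH'⟩ := exists_right_complement'_of_coprime (N := A.subgroupOf L)
        (by rw [hcA, hidx]; exact hcop.symm)
      have hH'c : Nat.card H' = n := by rw [← hidx, hH'.symm.index_eq_card]
      set H := H'.map L.subtype
      have hHc : Nat.card H = n := by
        rw [Nat.card_congr (H'.equivMapOfInjective L.subtype L.subtype_injective).toEquiv.symm, hH'c]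
      have hset : (H : Set G) = {x : G | x ^ n = 1} := by
        refine Set.eq_of_subset_of_ncard_le (fun x hx => ?_) ?_ (Set.toFinite _)
        · have h1 := pow_card_eq_one' (G := H) (x := ⟨x, hx⟩)
          rw [hHc] at h1
          exact congrArg Subtype.val h1
        · show Nat.card {x : G | x ^ n = 1} ≤ Nat.card H
          rw [hHc]; exact hcount.le
      refine ⟨H, ⟨fun x hx g => ?_⟩, hHc, hset⟩
      have hx' : x ∈ (H : Set G) := hx
      show g * x * g⁻¹ ∈ (H : Set G)
      rw [hset] at hx' ⊢
      show (g * x * g⁻¹) ^ n = 1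
      rw [conj_pow, show x ^ n = 1 from hx']; group

/-- If `G` is a finite solvable group and `n` divides the order of `G` and exactly `n` elements `x` of `G` satisfy `x^n = 1`, then these elements form a normal subgroup. -/
theorem result {G : Type*} [Group G] [Finite G] [Group.IsSolvable G] (n : ℕ) (hn : n ∣ Nat.card G) (hcount : Nat.card {x : G // x ^ n = 1} = n) : ∃ H : Subgroup G, H.Normal ∧ (H : Set G) = {x : G | x ^ n = 1} := by
  obtain ⟨H, h1, -, h2⟩ := main (Nat.card G) G rfl n hn hcount
  exact ⟨H, h1, h2⟩

end Cfsg.Agent.S4213
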