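import Cfsg.Statements.S4216
import Mathlib.GroupTheory.Focal
-- import your own Cfsg.Agent.* helpers here

set_option autoImplicit false
open Cfsg

namespace Cfsg.Agent.S4216

open MulAction in
open scoped IsMulCommutative commutatorElement in
/-- Grün's first theorem, the nontrivial inclusion. -/
theorem inf_commutator_le {G : Type*} [Group G] [Finite G] {p : ℕ} [hp : Fact p.Prime] (P : Sylow p G)
    (R : Subgroup G)
    (hP' : ∀ a ∈ ⁅(P : Subgroup G), (P : Subgroup G)⁆, ∀ g : G, g⁻¹ * a * g ∈ (P : Subgroup G) →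
      g⁻¹ * a * g ∈ R)
    (hN : ∀ a ∈ (P : Subgroup G), ∀ n ∈ Subgroup.normalizer ((P : Subgroup G) : Set G),
      a⁻¹ * (n⁻¹ * a * n) ∈ R) :
    ∀ x ∈ (P : Subgroup G), x ∈ commutator G → x ∈ R := by
  classical
  intro x hxP hxG
  induction hd : orderOf x using Nat.strong_induction_on generalizing x with
  | h d ih =>
  subst hd
  by_cases hx1 : x = 1
  · rw [hx1]; exact one_mem _
  set R' := R.subgroupOf (P : Subgroup G)
  have hcomm : _root_.commutator (P : Subgroup G) ≤ R' := by
    rw [commutator_def, Subgroup.commutator_le]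
    intro a _ b _
    rw [Subgroup.mem_subgroupOf]
    have hm : ((⁅a, b⁆ : (P : Subgroup G)) : G) ∈ ⁅(P : Subgroup G), (P : Subgroup G)⁆ :=
      Subgroup.commutator_mem_commutator a.2 b.2
    simpa using hP' _ hm 1 (by simp)
  have hR'n : R'.Normal := by
    refine ⟨fun a ha b => ?_⟩
    have := R'.mul_mem (hcomm (Subgroup.commutator_mem_commutator (Subgroup.mem_top b) (Subgroup.mem_top a))) ha
    rwa [commutatorElement_def, inv_mul_cancel_right] at this
  have hab : IsMulCommutative ((P : Subgroup G) ⧸ R') :=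
    Subgroup.Normal.quotient_commutative_iff_commutator_le.mpr hcomm
  set ϕ := QuotientGroup.mk' R'
  have hϕ1 : ∀ (a : G) (ha : a ∈ (P : Subgroup G)), a ∈ R → ϕ ⟨a, ha⟩ = 1 := fun a ha hR =>
    (QuotientGroup.eq_one_iff _).mpr (Subgroup.mem_subgroupOf.mpr hR)
  have hϕc : ∀ a b : (P : Subgroup G), ϕ (b⁻¹ * a * b) = ϕ a := fun a b => by
    rw [map_mul, map_mul, map_inv, mul_comm, ← mul_assoc, mul_inv_cancel, one_mul]
  let val : G ⧸ (P : Subgroup G) → (P : Subgroup G) ⧸ R' := fun c =>
    if h : c.out⁻¹ * x * c.out ∈ (P : Subgroup G) then ϕ ⟨_, h⟩ else 1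
  have hfix : ∀ g : G, x • (g : G ⧸ (P : Subgroup G)) = g ↔ g⁻¹ * x * g ∈ (P : Subgroup G) := by
    intro g
    rw [MulAction.Quotient.smul_coe, QuotientGroup.eq, smul_eq_mul, ← inv_mem_iff]
    rw [mul_inv_rev, inv_inv, mul_assoc]
  have hval : ∀ (g : G) (h : g⁻¹ * x * g ∈ (P : Subgroup G)),
      val (g : G ⧸ (P : Subgroup G)) = ϕ ⟨_, h⟩ := by
    intro g h
    obtain ⟨u, hu⟩ := QuotientGroup.mk_out_eq_mul (P : Subgroup G) g
    have h' : (QuotientGroup.mk g : G ⧸ (P : Subgroup G)).out⁻¹ * x *
        (QuotientGroup.mk g : G ⧸ (P : Subgroup G)).out ∈ (P : Subgroup G) := by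
      rw [hu, show (g * u)⁻¹ * x * (g * u) = (u : G)⁻¹ * (g⁻¹ * x * g) * u by group]
      exact mul_mem (mul_mem (inv_mem u.2) h) u.2
    simp only [val, dif_pos h']
    rw [← hϕc ⟨_, h⟩ u]
    congr 1
    apply Subtype.ext
    simp only [hu, Subgroup.coe_mul, Subgroup.coe_inv]
    group
  have hval1 : ∀ c : G ⧸ (P : Subgroup G), x • c ≠ c → val c = 1 := by
    intro c hc
    refine dif_neg fun h => hc ?_
    rw [← c.out_eq']
    exact (hfix _).mpr h
  -- conjugates of proper powers of `x` lie in `R`
  have hsmall : ∀ (m : ℕ) (g : G), p ∣ m → g⁻¹ * x ^ m * g ∈ (P : Subgroup G) →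
      g⁻¹ * x ^ m * g ∈ R := by
    intro m g hm hmem
    refine ih _ ?_ _ hmem ?_ rfl
    · have e : orderOf (g⁻¹ * x ^ m * g) = orderOf (x ^ m) := by
        have := MulEquiv.orderOf_eq (MulAut.conj g⁻¹) (x ^ m)
        rwa [MulAut.conj_apply, inv_inv] at this
      rw [e]
      obtain ⟨a, ha⟩ := IsPGroup.iff_orderOf.mp P.2 ⟨x, hxP⟩
      rw [Subgroup.orderOf_mk] at ha
      have ha0 : a ≠ 0 := fun h0 => hx1 (orderOf_eq_one_iff.mp (by rw [ha, h0, pow_zero]))
      rw [orderOf_pow, ha]
      refine Nat.div_lt_self (pow_pos hp.out.pos _) ?_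
      exact lt_of_lt_of_le hp.out.one_lt
        (Nat.le_of_dvd (Nat.gcd_pos_of_pos_left _ (pow_pos hp.out.pos _))
          (Nat.dvd_gcd (dvd_pow_self p ha0) hm))
    · simpa using (inferInstance : (commutator G).Normal).conj_mem _ (pow_mem hxG m) g⁻¹
  have : Fintype (G ⧸ (P : Subgroup G)) := Fintype.ofFinite _
  have : Fintype (Quotient (orbitRel (Subgroup.zpowers x) (G ⧸ (P : Subgroup G)))) := Fintype.ofFinite _
  have : Fintype (Quotient (orbitRel (P : Subgroup G) (G ⧸ (P : Subgroup G)))) := Fintype.ofFinite _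
  -- the transfer in terms of the fixed cosets of `x`
  have hV : MonoidHom.transfer ϕ x = ∏ c, val c := by
    rw [MonoidHom.transfer_eq_prod_quotient_orbitRel_zpowers_quot,
      ← Finset.prod_fiberwise Finset.univ (fun c => Quotient.mk'' c :
        G ⧸ (P : Subgroup G) → Quotient (orbitRel (Subgroup.zpowers x) (G ⧸ (P : Subgroup G)))) val]
    refine Finset.prod_congr rfl fun q _ => ?_
    have hout : ∀ c, (Quotient.mk'' c : Quotient (orbitRel (Subgroup.zpowers x) (G ⧸ (P : Subgroup G)))) = q →
        c ∈ orbit (Subgroup.zpowers x) q.out := by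
      intro c hc
      rw [← hc]
      exact (orbitRel_apply.mp (Quotient.exact' (Quotient.out_eq' _).symm))
    by_cases hf : x • q.out = q.out
    · have hall : ∀ z : Subgroup.zpowers x, z • q.out = q.out := by
        intro z
        have : Subgroup.zpowers x ≤ MulAction.stabilizer G q.out := Subgroup.zpowers_le.mpr hf
        exact this z.2
      rw [Finset.prod_eq_single q.out]
      · have hmp : Function.minimalPeriod (x • ·) q.out = 1 :=
          Function.minimalPeriod_eq_one_iff_isFixedPt.mpr hf
        have h : q.out.out⁻¹ * x * q.out.out ∈ (P : Subgroup G) := by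
          rw [← hfix, QuotientGroup.out_eq']; exact hf
        simp only [val, dif_pos h]
        congr 1
        apply Subtype.ext
        simp [hmp]
      · intro c hc hne
        obtain ⟨z, hz⟩ := hout c (Finset.mem_filter.mp hc).2
        exact absurd (hz.symm.trans (hall z)) hne
      · intro h
        exact absurd (by simp) h
    · rw [Finset.prod_eq_one fun c hc => hval1 c fun hc' => hf ?_]
      · set m := Function.minimalPeriod (x • ·) q.out
        refine hϕ1 _ _ (hsmall m _ ?_ (QuotientGroup.out_conj_pow_minimalPeriod_mem _ x q.out))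
        obtain ⟨a, ha⟩ := IsPGroup.iff_orderOf.mp P.2 ⟨x, hxP⟩
        rw [Subgroup.orderOf_mk] at ha
        have hdvd : m ∣ p ^ a := by
          rw [← ha]
          refine Function.IsPeriodicPt.minimalPeriod_dvd ?_
          rw [Function.IsPeriodicPt, Function.IsFixedPt, smul_iterate_apply, pow_orderOf_eq_one, one_smul]
        obtain ⟨i, -, hi⟩ := (Nat.dvd_prime_pow hp.out).mp hdvd
        have hi0 : i ≠ 0 := fun h0 => hf (Function.minimalPeriod_eq_one_iff_isFixedPt.mp (by rw [h0, pow_zero] at hi; exact hi))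
        rw [hi]
        exact dvd_pow_self p hi0
      · obtain ⟨z, hz⟩ := hout c (Finset.mem_filter.mp hc).2
        simp only at hz
        have hz' : Subgroup.zpowers x ≤ MulAction.stabilizer G c := Subgroup.zpowers_le.mpr hc'
        have : q.out = c := by
          calc q.out = z⁻¹ • (z • q.out) := (inv_smul_smul z _).symm
            _ = z⁻¹ • c := by rw [hz]
            _ = c := hz' (z⁻¹).2
        rw [this]; exact hc'
  -- grouping by the orbits of `P`
  have hW : ∏ c, val c = ∏ c : G ⧸ (P : Subgroup G),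
      if c ∈ fixedPoints (P : Subgroup G) (G ⧸ (P : Subgroup G)) then ϕ ⟨x, hxP⟩ else 1 := by
    rw [← Finset.prod_fiberwise Finset.univ (fun c => Quotient.mk'' c :
        G ⧸ (P : Subgroup G) → Quotient (orbitRel (P : Subgroup G) (G ⧸ (P : Subgroup G)))) val,
      ← Finset.prod_fiberwise Finset.univ (fun c => Quotient.mk'' c :
        G ⧸ (P : Subgroup G) → Quotient (orbitRel (P : Subgroup G) (G ⧸ (P : Subgroup G))))
        (fun c => if c ∈ fixedPoints (P : Subgroup G) (G ⧸ (P : Subgroup G)) then ϕ ⟨x, hxP⟩ else 1)]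
    refine Finset.prod_congr rfl fun q _ => ?_
    set F := Finset.univ.filter fun c : G ⧸ (P : Subgroup G) =>
      (Quotient.mk'' c : Quotient (orbitRel (P : Subgroup G) (G ⧸ (P : Subgroup G)))) = q
    have hF : ∀ c ∈ F, ∀ c' ∈ F, c' ∈ orbit (P : Subgroup G) c := by
      intro c hc c' hc'
      exact orbitRel_apply.mp (Quotient.exact' ((Finset.mem_filter.mp hc').2.trans (Finset.mem_filter.mp hc).2.symm))
    by_cases hq : q.out ∈ fixedPoints (P : Subgroup G) (G ⧸ (P : Subgroup G))
    · -- a fixed coset comes from the normalizer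
      refine Finset.prod_congr rfl fun c hc => ?_
      have hcq : c = q.out := by
        obtain ⟨s, hs⟩ := hF q.out (Finset.mem_filter.mpr ⟨Finset.mem_univ _, Quotient.out_eq' q⟩) c hc
        exact hs.symm.trans (hq s)
      subst hcq
      rw [if_pos hq]
      set g := q.out.out
      have hg : g ∈ Subgroup.normalizer ((P : Subgroup G) : Set G) :=
        Sylow.mem_fixedPoints_mul_left_cosets_iff_mem_normalizer.mp (by
          show ((g : G ⧸ (P : Subgroup G))) ∈ _
          rw [QuotientGroup.out_eq']; exact hq)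
      have h : g⁻¹ * x * g ∈ (P : Subgroup G) :=
        (Subgroup.mem_normalizer_iff''.mp hg x).mp hxP
      have e : val q.out = ϕ ⟨_, h⟩ := by
        rw [← hval g h, QuotientGroup.out_eq']
      rw [e]
      have h1 := hϕ1 (x⁻¹ * (g⁻¹ * x * g)) (mul_mem (inv_mem hxP) h) (hN x hxP g hg)
      rw [show (⟨x⁻¹ * (g⁻¹ * x * g), mul_mem (inv_mem hxP) h⟩ : (P : Subgroup G)) =
        ⟨x, hxP⟩⁻¹ * ⟨g⁻¹ * x * g, h⟩ from rfl, map_mul, map_inv, inv_mul_eq_one] at h1
      exact h1.symm
    · rw [Finset.prod_eq_one (f := fun c => if c ∈ fixedPoints (P : Subgroup G) _ then ϕ ⟨x, hxP⟩ else 1)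
        fun c hc => if_neg fun hcf => hq ?_]
      · by_cases hex : ∃ c ∈ F, x • c = c
        · obtain ⟨c₀, hc₀, hc₀x⟩ := hex
          set g := c₀.out
          have hg : g⁻¹ * x * g ∈ (P : Subgroup G) := by
            rw [← hfix, QuotientGroup.out_eq']; exact hc₀x
          have key : ∀ c ∈ F.filter (fun c => x • c = c), val c = ϕ ⟨_, hg⟩ := by
            intro c hc
            rw [Finset.mem_filter] at hc
            obtain ⟨s, hs⟩ := hF c₀ hc₀ c hc.1
            have hc' : c = (((s : G) * g : G) : G ⧸ (P : Subgroup G)) := by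
              rw [← hs]
              show (s : G) • c₀ = _
              conv_lhs => rw [← c₀.out_eq']
              rw [MulAction.Quotient.smul_coe, smul_eq_mul]
            have h : ((s : G) * g)⁻¹ * x * ((s : G) * g) ∈ (P : Subgroup G) := by
              rw [← hfix, ← hc']; exact hc.2
            rw [hc', hval _ h]
            have hmem : x⁻¹ * ((s : G)⁻¹ * x * s) ∈ ⁅(P : Subgroup G), (P : Subgroup G)⁆ := by
              have := Subgroup.commutator_mem_commutator (inv_mem hxP) (inv_mem s.2)
              rw [commutatorElement_def, inv_inv, inv_inv] at this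
              rwa [show x⁻¹ * ((s : G)⁻¹ * x * s) = x⁻¹ * (s : G)⁻¹ * x * s by group]
            have hd : g⁻¹ * (x⁻¹ * ((s : G)⁻¹ * x * s)) * g ∈ (P : Subgroup G) := by
              rw [show g⁻¹ * (x⁻¹ * ((s : G)⁻¹ * x * s)) * g
                = (g⁻¹ * x * g)⁻¹ * (((s : G) * g)⁻¹ * x * ((s : G) * g)) by group]
              exact mul_mem (inv_mem hg) h
            rw [← mul_one (ϕ ⟨_, hg⟩), ← hϕ1 _ hd (hP' _ hmem g hd), ← map_mul]
            congr 1
            apply Subtype.ext
            simp only [Subgroup.coe_mul]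
            group
          rw [← Finset.prod_filter_of_ne (p := fun c => x • c = c)
            (fun c _ hne => by_contra fun h => hne (hval1 c h)),
            Finset.prod_congr rfl key, Finset.prod_const, ← map_pow]
          have hk : p ∣ (F.filter fun c => x • c = c).card := by
            set O := orbit (P : Subgroup G) c₀
            obtain ⟨i, hi⟩ := P.2.card_orbit c₀
            have hi0 : i ≠ 0 := by
              intro h0
              apply hq
              rw [h0, pow_zero] at hi
              have := Nat.card_eq_one_iff_unique.mp hi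
              have hsub : Subsingleton O := this.1
              have hq' : q.out ∈ O := hF c₀ hc₀ q.out (Finset.mem_filter.mpr ⟨Finset.mem_univ _, Quotient.out_eq' q⟩)
              intro s
              exact congrArg Subtype.val (Subsingleton.elim
                (s • (⟨q.out, hq'⟩ : O)) ⟨q.out, hq'⟩)
            let Z : Subgroup (P : Subgroup G) := Subgroup.zpowers ⟨x, hxP⟩
            have hmod := (P.2.to_subgroup Z).card_modEq_card_fixedPoints O
            have hfp : Nat.card (fixedPoints Z O) = (F.filter fun c => x • c = c).card := by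
              rw [← Nat.card_eq_finsetCard]
              refine Nat.card_congr ⟨fun c => ⟨c.1.1, ?_⟩, fun c => ⟨⟨c.1, ?_⟩, ?_⟩, fun c => rfl,
                fun c => rfl⟩
              · rw [Finset.mem_filter]
                refine ⟨Finset.mem_filter.mpr ⟨Finset.mem_univ _, ?_⟩,
                  congrArg Subtype.val (c.2 ⟨⟨x, hxP⟩, Subgroup.mem_zpowers _⟩)⟩
                exact (Quotient.sound' (orbitRel_apply.mpr c.1.2)).trans (Finset.mem_filter.mp hc₀).2
              · exact hF c₀ hc₀ c.1 (Finset.mem_filter.mp c.2).1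
              · intro z
                apply Subtype.ext
                have hz : Z ≤ MulAction.stabilizer (P : Subgroup G) (c : G ⧸ (P : Subgroup G)) :=
                  Subgroup.zpowers_le.mpr (Finset.mem_filter.mp c.2).2
                exact hz z.2
            rw [hi, hfp] at hmod
            exact Nat.modEq_zero_iff_dvd.mp (hmod.symm.trans (Nat.modEq_zero_iff_dvd.mpr (dvd_pow_self p hi0)))
          have hm : g⁻¹ * x ^ (F.filter fun c => x • c = c).card * g ∈ (P : Subgroup G) := by
            have := pow_mem hg (F.filter fun c => x • c = c).card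
            rwa [show g⁻¹ * x * g = g⁻¹ * x * g⁻¹⁻¹ by rw [inv_inv], conj_pow, inv_inv] at this
          refine (QuotientGroup.eq_one_iff _).mpr (Subgroup.mem_subgroupOf.mpr ?_)
          have e : (g⁻¹ * x * g) ^ (F.filter fun c => x • c = c).card
              = g⁻¹ * x ^ (F.filter fun c => x • c = c).card * g := by
            conv_lhs => rw [show g⁻¹ * x * g = g⁻¹ * x * g⁻¹⁻¹ by rw [inv_inv], conj_pow, inv_inv]
          rw [Subgroup.coe_pow, e]
          exact hsmall _ g hk hm
        · exact Finset.prod_eq_one fun c hc => hval1 c fun h => hex ⟨c, hc, h⟩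
      · obtain ⟨s, hs⟩ := hF c hc q.out (Finset.mem_filter.mpr ⟨Finset.mem_univ _, Quotient.out_eq' q⟩)
        simp only at hs
        rw [← hs, hcf s]
        exact hcf
  rw [hW, ← Finset.prod_filter, Finset.prod_const] at hV
  have h1 : MonoidHom.transfer ϕ x = 1 :=
    Abelianization.commutator_subset_ker (MonoidHom.transfer ϕ) hxG
  rw [h1] at hV
  set n₀ := (Finset.univ.filter fun c => c ∈ fixedPoints (P : Subgroup G) (G ⧸ (P : Subgroup G))).card
  have hn₀ : n₀.Coprime p := by
    rw [Nat.coprime_comm, hp.out.coprime_iff_not_dvd]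
    have hmod := P.2.card_modEq_card_fixedPoints (G ⧸ (P : Subgroup G))
    have hc : Nat.card (fixedPoints (P : Subgroup G) (G ⧸ (P : Subgroup G))) = n₀ := by
      rw [Nat.card_eq_card_toFinset]
      congr 1
      ext c
      simp
    rw [hc, ← Subgroup.index_eq_card] at hmod
    intro hd
    exact P.not_dvd_index (Nat.modEq_zero_iff_dvd.mp (hmod.trans (Nat.modEq_zero_iff_dvd.mpr hd)))
  have hone : ϕ ⟨x, hxP⟩ = 1 := by
    obtain ⟨a, ha⟩ := IsPGroup.iff_orderOf.mp (P.2.to_quotient R') (ϕ ⟨x, hxP⟩)
    refine orderOf_eq_one_iff.mp (Nat.eq_one_of_dvd_coprimes (Nat.Coprime.pow_left a hn₀.symm)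
      ha.dvd (orderOf_dvd_of_pow_eq_one hV.symm))
  exact Subgroup.mem_subgroupOf.mp ((QuotientGroup.eq_one_iff _).mp hone)


/-- Grün's first Theorem: if `P` is a Sylow `p`-subgroup of the finite group `G`, then `P ∩ G'` is the subgroup generated by `P ∩ N_G(P)'` together with the subgroups `P ∩ z P' z⁻¹` for all `z ∈ G`, where `'` denotes the derived subgroup and `N_G(P)` the normalizer of `P`. -/
theorem result {G : Type*} [Group G] [Finite G] {p : ℕ} [Fact p.Prime] (P : Sylow p G) : (P : Subgroup G) ⊓ commutator G = ((P : Subgroup G) ⊓ ⁅Subgroup.normalizer ((P : Subgroup G) : Set G), Subgroup.normalizer ((P : Subgroup G) : Set G)⁆) ⊔ ⨆ z : G, (P : Subgroup G) ⊓ (⁅(P : Subgroup G), (P : Subgroup G)⁆).map (MulAut.conj z).toMonoidHom := by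
  refine le_antisymm ?_ (sup_le (le_inf inf_le_left ?_) (iSup_le fun z => le_inf inf_le_left ?_))
  · rintro x ⟨hxP, hxG⟩
    refine inf_commutator_le P _ ?_ ?_ x hxP hxG
    · intro a ha g hg
      refine Subgroup.mem_sup_right (Subgroup.mem_iSup_of_mem g⁻¹ ⟨hg, a, ha, ?_⟩)
      simp
    · intro a ha n hn
      refine Subgroup.mem_sup_left (Subgroup.mem_inf.mpr
        ⟨mul_mem (inv_mem ha) ((Subgroup.mem_normalizer_iff''.mp hn a).mp ha), ?_⟩)
      have := Subgroup.commutator_mem_commutator
        (inv_mem (Subgroup.le_normalizer (H := (P : Subgroup G)) ha)) (inv_mem hn)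
      rw [commutatorElement_def, inv_inv, inv_inv] at this
      show a⁻¹ * (n⁻¹ * a * n) ∈ _
      rwa [show a⁻¹ * (n⁻¹ * a * n) = a⁻¹ * n⁻¹ * a * n by group]
  · exact inf_le_right.trans (Subgroup.commutator_mono le_top le_top)
  · refine inf_le_right.trans ?_
    rw [Subgroup.map_commutator]
    exact Subgroup.commutator_mono le_top le_top

end Cfsg.Agent.S4216
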