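import Cfsg.Statements.S4217
import Cfsg.Agent.FGS3.GaschutzSplit
-- import your own Cfsg.Agent.* helpers here

set_option autoImplicit false
open Cfsg

namespace Cfsg.Agent.S4217

/-- Let `A` be an abelian normal subgroup of the finite group `G`. Then `A` has a complement in `G` if and only if, for every prime `p` dividing the index of `A`, there are a Sylow `p`-subgroup `S` of `G/A` and a subgroup `K` of `G` with `K ∩ A = 1` and `KA` equal to the preimage of `S` (that is, `A` has a complement in the preimage of a Sylow `p`-subgroup of `G/A`). -/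
theorem result {G : Type*} [Group G] [Finite G] (A : Subgroup G) [A.Normal] (hA : IsMulCommutative A) : (∃ K : Subgroup G, K.IsComplement' A) ↔ ∀ p : ℕ, p.Prime → p ∣ A.index → ∃ (S : Sylow p (G ⧸ A)) (K : Subgroup G), K ⊓ A = ⊥ ∧ K ⊔ A = (S : Subgroup (G ⧸ A)).comap (QuotientGroup.mk' A) := by
  classical
  constructor
  · rintro ⟨K, hK⟩ p hp -
    haveI := Fact.mk hp
    obtain ⟨S⟩ : Nonempty (Sylow p (G ⧸ A)) := inferInstance
    set C := (S : Subgroup (G ⧸ A)).comap (QuotientGroup.mk' A)
    have hAC : A ≤ C := fun a ha => by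
      rw [Subgroup.mem_comap, QuotientGroup.mk'_apply, (QuotientGroup.eq_one_iff a).2 ha]
      exact one_mem _
    refine ⟨S, K ⊓ C, ?_, ?_⟩
    · exact le_bot_iff.1 (le_trans (inf_le_inf_right A inf_le_left) hK.disjoint.eq_bot.le)
    · refine le_antisymm (sup_le inf_le_right hAC) fun g hg => ?_
      obtain ⟨⟨⟨k, hk⟩, ⟨a, ha⟩⟩, rfl⟩ := hK.2 g
      refine Subgroup.mul_mem_sup ⟨hk, ?_⟩ ha
      have h1 := mul_mem hg (inv_mem (hAC ha))
      rwa [mul_inv_cancel_right] at h1
  · intro h
    haveI := hA
    refine Cfsg.Agent.FGS3.GaschutzSplit.exists_complement (A := A) fun p hp hpd => ?_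
    obtain ⟨S, K, hKA, hKS⟩ := h p hp hpd
    haveI := Fact.mk hp
    let f : K →* (S : Subgroup (G ⧸ A)) := ((QuotientGroup.mk' A).comp K.subtype).codRestrict _
      fun x => (hKS.le (Subgroup.mem_sup_left x.2) : _)
    have hf : Function.Bijective f := by
      constructor
      · rw [injective_iff_map_eq_one]
        intro x hx
        have h1 : (x : G) ∈ K ⊓ A :=
          ⟨x.2, (QuotientGroup.eq_one_iff _).1 (congrArg Subtype.val hx)⟩
        rw [hKA, Subgroup.mem_bot] at h1
        exact Subtype.ext h1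
      · rintro ⟨σ, hσ⟩
        obtain ⟨g, rfl⟩ := QuotientGroup.mk'_surjective A σ
        obtain ⟨k, hk, a, ha, rfl⟩ := Subgroup.mem_sup_of_normal_right.1
          (show g ∈ K ⊔ A from hKS.ge hσ)
        refine ⟨⟨k, hk⟩, Subtype.ext ?_⟩
        show QuotientGroup.mk' A k = QuotientGroup.mk' A (k * a)
        rw [map_mul, show QuotientGroup.mk' A a = 1 from (QuotientGroup.eq_one_iff a).2 ha, mul_one]
    refine ⟨S, S.not_dvd_index, K.subtype.comp (MulEquiv.ofBijective f hf).symm.toMonoidHom,
      fun σ => ?_⟩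
    exact congrArg Subtype.val ((MulEquiv.ofBijective f hf).apply_symm_apply σ)

end Cfsg.Agent.S4217
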