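import Cfsg.Statements.S4218
import Cfsg.Agent.FGS3.FrattiniAction
import Cfsg.Agent.Core.PiSeparable
import Cfsg.Agent.Core.PPrimeP
-- import your own Cfsg.Agent.* helpers here

set_option autoImplicit false
open Cfsg

namespace Cfsg.Agent.S4218

/-- Let `G` be a finite `p`-solvable group, `N₀ = O_{p'}(G)`, `P₁ = O_{p',p}(G)`, and let `F ≤ P₁` be the preimage of the Frattini subgroup of `P₁/N₀`. Then an element `g` of `G` induces the identity on `P₁/F` by conjugation (that is, `g x g⁻¹ x⁻¹ ∈ F` for all `x ∈ P₁`) if and only if `g ∈ P₁`: the group `G/P₁` acts faithfully on `P₁/F`. -/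
theorem result {G : Type*} [Group G] [Finite G] {p : ℕ} [Fact p.Prime] (hG : Cfsg.IsPSolvable p G) (g : G) : (∀ x ∈ Cfsg.pPrimePCore p G, g * x * g⁻¹ * x⁻¹ ∈ ((frattini (↥(Cfsg.pPrimePCore p G) ⧸ (Cfsg.pPrimeCore p G).subgroupOf (Cfsg.pPrimePCore p G))).comap (QuotientGroup.mk' ((Cfsg.pPrimeCore p G).subgroupOf (Cfsg.pPrimePCore p G)))).map (Cfsg.pPrimePCore p G).subtype) ↔ g ∈ Cfsg.pPrimePCore p G := by
  classical
  set M := Cfsg.pPrimeCore p G
  set P1 := Cfsg.pPrimePCore p G
  haveI : P1.Normal := Cfsg.Agent.Core.pPrimePCore_normal p G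
  set N := M.subgroupOf P1
  set F := ((frattini (↥P1 ⧸ N)).comap (QuotientGroup.mk' N)).map P1.subtype
  set π := QuotientGroup.mk' M
  have hπ : Function.Surjective π := QuotientGroup.mk'_surjective M
  have hMP : M ≤ P1 := Cfsg.Agent.Core.pPrimeCore_le_pPrimePCore
  set Pb := Cfsg.pCore p (G ⧸ M)
  have hPb : P1.map π = Pb := Cfsg.Agent.Core.map_pPrimePCore p G
  have hPbp : IsPGroup p Pb := Cfsg.Agent.Core.isPGroup_pCore p _
  have hQ : IsPGroup p (↥P1 ⧸ N) := by
    obtain ⟨k, hk⟩ := Cfsg.Agent.Core.relIndex_pPrimeCore_pPrimePCore (p := p) (G := G)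
    exact IsPGroup.of_card (n := k) (by rw [← Subgroup.index_eq_card]; exact hk)
  constructor
  · intro h
    -- every element acting trivially
    let ψ : ↥P1 →* Pb := (π.comp P1.subtype).codRestrict Pb fun x => by
      rw [← hPb]; exact Subgroup.mem_map_of_mem π x.2
    have hψ : Function.Surjective ψ := by
      rintro ⟨y, hy⟩
      rw [← hPb] at hy
      obtain ⟨x, hx, rfl⟩ := hy
      exact ⟨⟨x, hx⟩, rfl⟩
    let e : ↥P1 ⧸ N →* Pb := QuotientGroup.lift N ψ fun x hx =>
      Subtype.ext ((QuotientGroup.eq_one_iff (x : G)).2 (Subgroup.mem_subgroupOf.1 hx))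
    have he : Function.Surjective e := fun y => by
      obtain ⟨x, rfl⟩ := hψ y
      exact ⟨QuotientGroup.mk' N x, rfl⟩
    have hFe : ∀ y ∈ F, π y ∈ (frattini Pb).map Pb.subtype := by
      rintro _ ⟨w, hw, rfl⟩
      exact ⟨e (QuotientGroup.mk' N w),
        Cfsg.Agent.FGS3.map_frattini_le_of_surjective he (Subgroup.mem_map_of_mem _ hw), rfl⟩
    set gb := π g
    -- the set of all elements acting trivially modulo the Frattini subgroup
    let S : Submonoid (G ⧸ M) :=
      { carrier := {y | ∀ x ∈ Pb, y * x * y⁻¹ * x⁻¹ ∈ (frattini Pb).map Pb.subtype}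
        one_mem' := fun x _ => by simp
        mul_mem' := fun {y z} hy hz x hx => by
          have hzx : z * x * z⁻¹ ∈ Pb := (inferInstance : Pb.Normal).conj_mem x hx z
          have : y * z * x * (y * z)⁻¹ * x⁻¹ =
              (y * (z * x * z⁻¹) * y⁻¹ * (z * x * z⁻¹)⁻¹) * (z * x * z⁻¹ * x⁻¹) := by group
          rw [this]
          exact mul_mem (hy _ hzx) (hz x hx) }
    have hgS : gb ∈ S := by
      intro x hx
      rw [← hPb] at hx
      obtain ⟨x', hx', rfl⟩ := hx
      have := hFe _ (h x' hx')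
      simpa using this
    -- the elements acting trivially form a normal subgroup which is a p-group modulo Pb
    let K : Subgroup (G ⧸ M) :=
      { S with
        inv_mem' := fun {y} hy x hx => by
          have hyx : y⁻¹ * x * y ∈ Pb := by
            have h2 := (inferInstance : Pb.Normal).conj_mem x hx y⁻¹
            rwa [inv_inv] at h2
          have h1 := hy _ hyx
          have : y⁻¹ * x * y⁻¹⁻¹ * x⁻¹ = (y * (y⁻¹ * x * y) * y⁻¹ * (y⁻¹ * x * y)⁻¹)⁻¹ := by group
          rw [this]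
          exact inv_mem h1 }
    haveI hFn : ((frattini Pb).map Pb.subtype).Normal :=
      Cfsg.Agent.Core.normal_map_subtype_of_characteristic _
    have hKn : K.Normal := ⟨fun y hy z x hx => by
      have hzx : z⁻¹ * x * z ∈ Pb := by
        have h2 := (inferInstance : Pb.Normal).conj_mem x hx z⁻¹
        rwa [inv_inv] at h2
      have h1 := hFn.conj_mem _ (hy _ hzx) z
      have : z * y * z⁻¹ * x * (z * y * z⁻¹)⁻¹ * x⁻¹ =
          z * (y * (z⁻¹ * x * z) * y⁻¹ * (z⁻¹ * x * z)⁻¹) * z⁻¹ := by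
        simp only [mul_inv_rev, inv_inv, mul_assoc, mul_inv_cancel, mul_one]
      rwa [this]⟩
    have hKp : IsPGroup p K := fun y => by
      set b := (orderOf (y : G ⧸ M)).factorization p
      set m' := orderOf (y : G ⧸ M) / p ^ b
      have hn' : orderOf (y : G ⧸ M) ≠ 0 := (orderOf_pos _).ne'
      have hbm : p ^ b * m' = orderOf (y : G ⧸ M) := Nat.ordProj_mul_ordCompl_eq_self _ p
      have hc := Cfsg.Agent.FGS3.mem_centralizer_of_frattini hPbp (g := (y : G ⧸ M) ^ p ^ b)
        (Subgroup.normalizer_eq_top Pb ▸ Subgroup.mem_top _) (by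
          rw [orderOf_pow, Nat.gcd_eq_right ⟨m', hbm.symm⟩, ← hbm,
            Nat.mul_div_cancel_left _ (pow_pos (Fact.out : p.Prime).pos b)]
          exact (Nat.coprime_ordCompl (Fact.out : p.Prime) hn').symm) (S.pow_mem y.2 _)
      have hP := Cfsg.Agent.Core.centralizer_pCore_le (Cfsg.Agent.Core.isPSolvable_quotient hG M)
        (Cfsg.Agent.Core.pPrimeCore_quotient_pPrimeCore p G) hc
      obtain ⟨k, hk⟩ := hPbp ⟨_, hP⟩
      refine ⟨b + k, Subtype.ext ?_⟩
      rw [Subgroup.coe_pow, Subgroup.coe_one, pow_add, pow_mul]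
      exact congrArg Subtype.val hk
    have hle : K ≤ Pb := Cfsg.Agent.Core.le_pCore hKn hKp
    have : π g ∈ Cfsg.pCore p (G ⧸ M) := hle hgS
    exact this
  · intro hg x hx
    refine ⟨⟨g, hg⟩ * ⟨x, hx⟩ * ⟨g, hg⟩⁻¹ * ⟨x, hx⟩⁻¹, ?_, rfl⟩
    show QuotientGroup.mk' N _ ∈ frattini (↥P1 ⧸ N)
    refine Cfsg.Agent.FGS3.commutator_le_frattini hQ ?_
    simp only [map_mul, map_inv]
    exact Subgroup.commutator_mem_commutator (Subgroup.mem_top _) (Subgroup.mem_top _)

end Cfsg.Agent.S4218
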