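import Cfsg.Statements.S4221
import Cfsg.Agent.FGS3.FourTransOddMain
import Cfsg.Agent.S0415

set_option autoImplicit false
open Cfsg MulAction

namespace Cfsg.Agent.S4221

/-- Let `G` be a `4`-fold transitive permutation group on a finite set of `n` points in which the pointwise stabilizer of some four distinct points has odd order. Then `n = 4` or `n = 5` with `G` the full symmetric group, or `n = 6` or `n = 7` with `G` the alternating group, or `n = 11` and `G` has order `7920`. -/
theorem result {α : Type*} [Fintype α] [DecidableEq α] (G : Subgroup (Equiv.Perm α)) (hG : MulAction.IsMultiplyPretransitive G α 4) (x : Fin 4 ↪ α) (hodd : Odd (Nat.card (MulAction.stabilizer G x))) : ((Fintype.card α = 4 ∨ Fintype.card α = 5) ∧ G = ⊤) ∨ ((Fintype.card α = 6 ∨ Fintype.card α = 7) ∧ G = alternatingGroup α) ∨ (Fintype.card α = 11 ∧ Nat.card G = 7920) := by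
  classical
  have hcard4 : 4 ≤ Fintype.card α := by simpa using Fintype.card_le_of_embedding x
  have hconj : ∀ q : Fin 4 ↪ α, Nat.card (stabilizer G q) = Nat.card (stabilizer G x) := fun q => by
    obtain ⟨g, rfl⟩ := hG.exists_smul_eq x q
    exact (Nat.card_congr (stabilizerEquivStabilizer (G := G) (g := g) (a := x) rfl).toEquiv).symm
  have horder : Nat.card G = (Fintype.card α).descFactorial 4 * Nat.card (stabilizer G x) := by
    have h1 : (stabilizer G x).index = Nat.card (orbit G x) :=
      (index_stabilizer G x).trans (Nat.card_coe_set_eq _).symm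
    have h2 : orbit G x = Set.univ := Set.eq_univ_of_forall fun q => hG.exists_smul_eq x q
    rw [← (stabilizer G x).index_mul_card, h1, h2, Nat.card_univ, Nat.card_eq_fintype_card,
      Fintype.card_embedding_eq, Fintype.card_fin]
  have hdvd : Nat.card G ∣ (Fintype.card α).factorial := by
    have := Subgroup.card_subgroup_dvd_card G
    rwa [Nat.card_perm, Nat.card_eq_fintype_card (α := α)] at this
  set h := Nat.card (stabilizer G x) with hhdef
  have hS : Nat.card (Equiv.Perm α) = (Fintype.card α).factorial := by
    rw [Nat.card_perm, Nat.card_eq_fintype_card]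
  have hidx := G.index_mul_card
  rw [hS] at hidx
  rcases le_or_gt 8 (Fintype.card α) with hn | hn
  · obtain ⟨hn11, X, hX⟩ := FGS3.FourOdd.degree_eleven (G := G) hG (fun q => (congrArg Odd (hconj q)).mpr hodd) hn x
    refine Or.inr (Or.inr ⟨hn11, ?_⟩)
    replace hX : h = X ^ 3 := hhdef.trans hX
    rw [horder, hn11, hX] at hdvd
    have h3 : X ^ 3 ∣ 5040 := by
      refine (Nat.mul_dvd_mul_iff_left (show 0 < 7920 by norm_num)).1 ?_
      rw [show (7920 : ℕ) * 5040 = Nat.factorial 11 from by decide +kernel]
      exact hdvd
    have hXodd : Odd X := (Nat.odd_pow_iff (by norm_num)).1 (hX ▸ hodd)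
    have hle : X ≤ 17 := by
      have := Nat.le_of_dvd (by norm_num) h3
      by_contra hc
      have h18 : 18 ^ 3 ≤ X ^ 3 := Nat.pow_le_pow_left (by omega) 3
      omega
    have hX1 : X = 1 := by
      interval_cases X <;> first | rfl | (exfalso; revert h3 hXodd; decide)
    rw [horder, hn11, hX, hX1]
    decide +kernel
  · have hh0 : 0 < h := Nat.card_pos
    obtain ⟨k, hk⟩ := hodd
    have hle := Nat.le_of_dvd (Nat.factorial_pos _) hdvd
    have htop : G.index = 1 → G = ⊤ := Subgroup.index_eq_one.1
    interval_cases hα : Fintype.card α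
    · refine Or.inl ⟨Or.inl rfl, htop ?_⟩
      norm_num [Nat.descFactorial, Nat.factorial] at horder hidx hle
      rw [horder] at hidx hle
      have : h = 1 := by omega
      rw [this] at hidx
      omega
    · refine Or.inl ⟨Or.inr rfl, htop ?_⟩
      norm_num [Nat.descFactorial, Nat.factorial] at horder hidx hle
      rw [horder] at hidx hle
      have : h = 1 := by omega
      rw [this] at hidx
      omega
    · refine Or.inr (Or.inl ⟨Or.inl rfl, Equiv.Perm.eq_alternatingGroup_of_index_eq_two ?_⟩)
      norm_num [Nat.descFactorial, Nat.factorial] at horder hidx hle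
      rw [horder] at hidx hle
      have : h = 1 := by omega
      rw [this] at hidx
      omega
    · refine Or.inr (Or.inl ⟨Or.inr rfl, Equiv.Perm.eq_alternatingGroup_of_index_eq_two ?_⟩)
      have hne1 : h ≠ 1 := by
        intro h1
        have := hG
        have hsharp : ∀ q : Fin 4 ↪ α, stabilizer G q = ⊥ := fun q =>
          Subgroup.card_eq_one.1 (by rw [hconj]; exact h1)
        have := S0415.result G (by omega) hsharp
        omega
      norm_num [Nat.descFactorial, Nat.factorial] at horder hidx hle
      rw [horder] at hidx hle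
      have hh5 : h ≠ 5 := fun e5 => by rw [e5] at hidx; omega
      have : h = 3 := by omega
      rw [this] at hidx
      omega

end Cfsg.Agent.S4221
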