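import Cfsg.Statements.S4225
import Cfsg.Agent.FGS3.Regular
-- import your own Cfsg.Agent.* helpers here

set_option autoImplicit false
open Cfsg

namespace Cfsg.Agent.S4225

/-- In a regular `p`-group, for every `k` the elements whose `p^k`-th power is `1` form a characteristic subgroup. -/
theorem result {G : Type*} [Group G] [Finite G] {p : ℕ} [Fact p.Prime] (hG : Cfsg.IsRegularPGroup p G) (k : ℕ) : ∃ H : Subgroup G, H.Characteristic ∧ (H : Set G) = {x : G | x ^ p ^ k = 1} := by
  let H : Subgroup G :=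
    { carrier := {x | x ^ p ^ k = 1}
      one_mem' := one_pow _
      mul_mem' := fun {x y} hx hy =>
        Cfsg.Agent.FGS3.Regular.omega_mul hG.1 (fun a b => hG.2 a b k) hx hy
      inv_mem' := fun {x} (hx : x ^ p ^ k = 1) => show x⁻¹ ^ p ^ k = 1 by rw [inv_pow, hx, inv_one] }
  refine ⟨H, Subgroup.characteristic_iff_le_comap.2 fun φ x (hx : x ^ p ^ k = 1) => ?_, rfl⟩
  show (φ x) ^ p ^ k = 1
  rw [← map_pow, hx, map_one]

end Cfsg.Agent.S4225
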