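import Cfsg.Statements.S4227
import Cfsg.Agent.Transfer.Complement
import Cfsg.Agent.Core.Cores
import Cfsg.Agent.Core.PiSeparable
import Cfsg.Agent.Core.BurnsidePQ
import Cfsg.Agent.Coprime.Generation
import Cfsg.Prelude.Def_Local
-- import your own Cfsg.Agent.* helpers here

set_option autoImplicit false
open Cfsg

namespace Cfsg.Agent.S4227

/-- prime divisors of the order of a group of exponent dividing 6 -/
theorem prime_eq_of_dvd_card {K : Type*} [Group K] [Finite K] (h : ∀ x : K, x ^ 6 = 1) {r : ℕ}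
    (hr : r.Prime) (hd : r ∣ Nat.card K) : r = 2 ∨ r = 3 := by
  have := Fact.mk hr
  obtain ⟨x, hx⟩ := exists_prime_orderOf_dvd_card' r hd
  have h6 : r ∣ 2 * 3 := hx ▸ orderOf_dvd_of_pow_eq_one (h x)
  rcases hr.dvd_mul.mp h6 with h2 | h3
  · exact Or.inl ((Nat.prime_dvd_prime_iff_eq hr Nat.prime_two).mp h2)
  · exact Or.inr ((Nat.prime_dvd_prime_iff_eq hr Nat.prime_three).mp h3)

theorem isSolvable_of_exponent_six {K : Type*} [Group K] [Finite K] (h : ∀ x : K, x ^ 6 = 1) :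
    Group.IsSolvable K := by
  apply Cfsg.Agent.Core.isSolvable_of_primeFactors_card_le_two
  refine (Finset.card_le_card (t := {2, 3}) fun r hr => ?_).trans Finset.card_le_two
  rw [Finset.mem_insert, Finset.mem_singleton]
  exact prime_eq_of_dvd_card h (Nat.prime_of_mem_primeFactors hr) (Nat.dvd_of_mem_primeFactors hr)

theorem pLengthLE_one_of_index {K : Type*} [Group K] [Finite K] {p : ℕ} [Fact p.Prime]
    (h : (Cfsg.pCore p (K ⧸ Cfsg.pPrimeCore p K)).index.Coprime p) : Cfsg.PLengthLE p 1 K := by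
  let U₁ : Subgroup K := (Cfsg.upperPSeries p K 1).1
  let U₂ : Subgroup K := (Cfsg.upperPSeries p K 2).1
  have e1 : U₁ = (Cfsg.pPrimeCore p (K ⧸ (Cfsg.upperPSeries p K 0).1)).comap (QuotientGroup.mk' _) :=
    rfl
  have e2 : U₂ = (Cfsg.pCore p (K ⧸ U₁)).comap (QuotientGroup.mk' U₁) := rfl
  have e3 : (Cfsg.upperPSeries p K 3).1 =
      (Cfsg.pPrimeCore p (K ⧸ U₂)).comap (QuotientGroup.mk' U₂) := rfl
  have hU₁ : U₁ = Cfsg.pPrimeCore p K := by
    apply le_antisymm
    · refine Cfsg.Agent.Core.le_pPrimeCore (Cfsg.upperPSeries p K 1).2 ?_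
      rw [e1, Cfsg.Agent.Core.card_comap_mk,
        show Nat.card ↥(Cfsg.upperPSeries p K 0).1 = 1 from Subgroup.card_bot, mul_one]
      exact Cfsg.Agent.Core.card_pPrimeCore_coprime _ _
    · rw [e1, ← Subgroup.map_le_iff_le_comap]
      exact Cfsg.Agent.Core.map_pPrimeCore_le (QuotientGroup.mk'_surjective _)
  show (Cfsg.upperPSeries p K 3).1 = ⊤
  have hidx : U₂.index.Coprime p := by
    have e : U₂ = (Cfsg.pCore p (K ⧸ Cfsg.pPrimeCore p K)).comap
        (QuotientGroup.mk' (Cfsg.pPrimeCore p K)) := by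
      have key : ∀ (M : Subgroup K) (_ : M.Normal), U₁ = M →
          U₂ = (Cfsg.pCore p (K ⧸ M)).comap (QuotientGroup.mk' M) := by
        rintro M _ rfl
        exact e2
      exact key _ inferInstance hU₁
    rw [e, Subgroup.index_comap_of_surjective _ (QuotientGroup.mk'_surjective _)]
    exact h
  rw [e3, Cfsg.Agent.Core.pPrimeCore_eq_top (by rwa [← Subgroup.index_eq_card]), Subgroup.comap_top]

/-- In a group of exponent 6 with `C(U) ≤ U`, `U` a normal 3-group, 3-elements centralize the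
2-subgroups they normalize. -/
theorem mem_centralizer_of_pow_three {K : Type*} [Group K] [Finite K] (h : ∀ x : K, x ^ 6 = 1)
    (U : Subgroup K) [U.Normal] (hU : IsPGroup 3 U)
    (hCU : Subgroup.centralizer (U : Set K) ≤ U)
    (Q : Subgroup K) (hQ : IsPGroup 2 Q) (g : K) (hgN : g ∈ Subgroup.normalizer (Q : Set K))
    (hg : g ^ 3 = 1) : g ∈ Subgroup.centralizer (Q : Set K) := by
  have := Fact.mk Nat.prime_two
  have := Fact.mk Nat.prime_three
  have hsq : ∀ w ∈ Q, w ^ 2 = 1 := by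
    intro w hw
    obtain ⟨a, ha⟩ := IsPGroup.iff_orderOf.mp hQ ⟨w, hw⟩
    rw [Subgroup.orderOf_mk] at ha
    refine orderOf_dvd_iff_pow_eq_one.mp (?_ : orderOf w ∣ 2)
    exact Nat.Coprime.dvd_of_dvd_mul_right (k := orderOf w) (n := 3)
      (by rw [ha]; exact Nat.Coprime.pow_left a (by norm_num)) (orderOf_dvd_of_pow_eq_one (h w))
  have hU3 : ∀ y ∈ U, y ^ 2 = 1 → y = 1 := by
    intro y hy hy2
    obtain ⟨a, ha⟩ := IsPGroup.iff_orderOf.mp hU ⟨y, hy⟩
    rw [Subgroup.orderOf_mk] at ha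
    exact orderOf_eq_one_iff.mp (Nat.eq_one_of_dvd_coprimes (k := orderOf y)
      (Nat.Coprime.pow_right a (by norm_num : Nat.Coprime 2 3)) (orderOf_dvd_of_pow_eq_one hy2)
      (ha ▸ dvd_rfl))
  have hUcube : ∀ y ∈ U, y ^ 3 = 1 := by
    intro y hy
    refine hU3 _ (U.pow_mem hy 3) ?_
    rw [← pow_mul]
    exact h y
  have hprod : ∀ v ∈ U, v * (g * v * g⁻¹) * (g * (g * v * g⁻¹) * g⁻¹) = 1 := by
    intro v hv
    have h1 : (v * g) ^ 3 ∈ U := by
      rw [← QuotientGroup.eq_one_iff]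
      have e : ((v * g : K) : K ⧸ U) = (g : K ⧸ U) := by
        rw [QuotientGroup.mk_mul, (QuotientGroup.eq_one_iff v).mpr hv, one_mul]
      rw [QuotientGroup.mk_pow, e, ← QuotientGroup.mk_pow, hg, QuotientGroup.mk_one]
    have h2 := hU3 _ h1 (by rw [← pow_mul]; exact h _)
    calc v * (g * v * g⁻¹) * (g * (g * v * g⁻¹) * g⁻¹) = (v * g) ^ 3 * (g ^ 3)⁻¹ := by
          simp only [pow_succ, pow_zero, one_mul]
          group
      _ = 1 := by rw [h2, hg, inv_one, mul_one]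
  have hinv : ∀ w ∈ Q, w⁻¹ = w := fun w hw => by
    rw [inv_eq_iff_mul_eq_one, ← pow_two, hsq w hw]
  have hcomm : ∀ a ∈ Q, ∀ b ∈ Q, a * b = b * a := fun a ha b hb => by
    calc a * b = (a * b)⁻¹ := (hinv _ (mul_mem ha hb)).symm
      _ = b⁻¹ * a⁻¹ := mul_inv_rev a b
      _ = b * a := by rw [hinv a ha, hinv b hb]
  by_contra hgc
  obtain ⟨w, hw, hw1⟩ : ∃ w ∈ Q, w⁻¹ * (g * w * g⁻¹) ≠ 1 := by
    by_contra hno
    refine hgc (Subgroup.mem_centralizer_iff.mpr fun w hw => ?_)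
    have : w⁻¹ * (g * w * g⁻¹) = 1 := by_contra fun hne => hno ⟨w, hw, hne⟩
    calc w * g = w * (w⁻¹ * (g * w * g⁻¹)) * g := by rw [this, mul_one]
      _ = g * w := by group
  have hgQ : ∀ z ∈ Q, g * z * g⁻¹ ∈ Q := fun z hz => (Subgroup.mem_normalizer_iff.mp hgN z).mp hz
  set w₁ := w⁻¹ * (g * w * g⁻¹) with hw₁
  have hw₁Q : w₁ ∈ Q := mul_mem (inv_mem hw) (hgQ w hw)
  set w₂ := g * w₁ * g⁻¹ with hw₂
  set w₃ := g * w₂ * g⁻¹ with hw₃
  have hw₂Q : w₂ ∈ Q := hgQ _ hw₁Q
  have hw₃Q : w₃ ∈ Q := hgQ _ hw₂Q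
  have hw₂1 : w₂ ≠ 1 := fun e => hw1 (by rwa [hw₂, conj_eq_one_iff] at e)
  have htel : w₁ * w₂ * w₃ = 1 := by
    calc w₁ * w₂ * w₃ = w⁻¹ * (g ^ 3 * w * (g ^ 3)⁻¹) := by
          rw [hw₃, hw₂, hw₁]
          simp only [pow_succ, pow_zero, one_mul]
          group
      _ = 1 := by rw [hg]; group
  have h31 : g * w₃ * g⁻¹ = w₁ := by
    calc g * w₃ * g⁻¹ = g ^ 3 * w₁ * (g ^ 3)⁻¹ := by
          rw [hw₃, hw₂]
          simp only [pow_succ, pow_zero, one_mul]
          group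
      _ = w₁ := by rw [hg]; group
  have h12 : w₁ * w₂ = w₃ := by rw [eq_inv_of_mul_eq_one_left htel, hinv _ hw₃Q]
  have hne : w₁ ≠ w₂ := fun e => by
    have h3 : w₃ = 1 := by rw [← h12, ← e, ← pow_two, hsq _ hw₁Q]
    rw [h3, mul_one, mul_inv_cancel] at h31
    exact hw1 h31.symm
  -- a fixed point of w₁ moved by w₂
  obtain ⟨u, huU, hu1, hu2⟩ : ∃ u ∈ U, u * w₁ = w₁ * u ∧ u * w₂ ≠ w₂ * u := by
    by_contra hno
    have hC1 : ∀ u ∈ U, u * w₁ = w₁ * u → u * w₂ = w₂ * u := fun u hu e1 =>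
      by_contra fun hne => hno ⟨u, hu, e1, hne⟩
    have conjU : ∀ u ∈ U, g⁻¹ * u * g ∈ U := fun u hu => by
      simpa using (‹U.Normal›).conj_mem u hu g⁻¹
    have step : ∀ {z z' a a' : K}, g * z * g⁻¹ = z' → a' = g⁻¹ * a * g →
        (a * z' = z' * a ↔ a' * z = z * a') := by
      intro z z' a a' hz ha
      subst hz ha
      constructor
      · intro e
        calc g⁻¹ * a * g * z = g⁻¹ * (a * (g * z * g⁻¹)) * g := by group
          _ = _ := by rw [e]; group
      · intro e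
        calc a * (g * z * g⁻¹) = g * (g⁻¹ * a * g * z) * g⁻¹ := by group
          _ = _ := by rw [e]; group
    have hC2 : ∀ u ∈ U, u * w₂ = w₂ * u → u * w₃ = w₃ * u := fun u hu e =>
      (step hw₃.symm rfl).mpr (hC1 _ (conjU u hu) ((step hw₂.symm rfl).mp e))
    have hC3 : ∀ u ∈ U, u * w₃ = w₃ * u → u * w₁ = w₁ * u := fun u hu e =>
      (step h31 rfl).mpr (hC2 _ (conjU u hu) ((step hw₃.symm rfl).mp e))
    set E := Subgroup.closure ({w₁, w₂} : Set K) with hE
    have hEQ : E ≤ Q := (Subgroup.closure_le _).mpr (by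
      rintro x (rfl | rfl)
      exacts [hw₁Q, hw₂Q])
    have hEc : IsMulCommutative E :=
      ⟨⟨fun a b => Subtype.ext (hcomm _ (hEQ a.2) _ (hEQ b.2))⟩⟩
    have hE4 : ∀ e ∈ E, e = 1 ∨ e = w₁ ∨ e = w₂ ∨ e = w₃ := by
      intro e he
      induction he using Subgroup.closure_induction with
      | mem x hx => rcases hx with rfl | rfl <;> simp
      | one => simp
      | mul a b _ _ ha hb =>
        have s1 : w₁ * w₁ = 1 := by rw [← pow_two, hsq _ hw₁Q]
        have s2 : w₂ * w₂ = 1 := by rw [← pow_two, hsq _ hw₂Q]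
        have s3 : w₃ * w₃ = 1 := by rw [← pow_two, hsq _ hw₃Q]
        have h21 : w₂ * w₁ = w₃ := by rw [hcomm _ hw₂Q _ hw₁Q, h12]
        have h13 : w₁ * w₃ = w₂ := by rw [← h12, ← mul_assoc, s1, one_mul]
        have h31' : w₃ * w₁ = w₂ := by rw [hcomm _ hw₃Q _ hw₁Q, h13]
        have h23 : w₂ * w₃ = w₁ := by rw [← h21, ← mul_assoc, s2, one_mul]
        have h32 : w₃ * w₂ = w₁ := by rw [hcomm _ hw₃Q _ hw₂Q, h23]
        rcases ha with rfl | rfl | rfl | rfl <;> rcases hb with rfl | rfl | rfl | rfl <;>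
          simp only [s1, s2, s3, h12, h21, h13, h31', h23, h32, one_mul, mul_one, or_true, true_or]
      | inv a ha' ha =>
        rcases ha with rfl | rfl | rfl | rfl
        · simp
        · simp only [hinv _ hw₁Q, or_true, true_or]
        · simp only [hinv _ hw₂Q, or_true, true_or]
        · simp only [hinv _ hw₃Q, or_true, true_or]
    have hEcyc : ¬ IsCyclic E := by
      intro hcyc
      obtain ⟨c, hc⟩ := hcyc.exists_generator
      have key : ∀ z ∈ E, z = 1 ∨ z = (c : K) := by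
        intro z hz
        obtain ⟨i, hi⟩ := Subgroup.mem_zpowers_iff.mp (hc ⟨z, hz⟩)
        have hi' : (c : K) ^ i = z := congrArg Subtype.val hi
        rcases Int.even_or_odd i with ⟨j, rfl⟩ | ⟨j, rfl⟩
        · left
          rw [← hi', ← two_mul, zpow_mul, zpow_two, ← pow_two, hsq _ (hEQ c.2), one_zpow]
        · right
          rw [← hi', zpow_add, zpow_mul, zpow_two, ← pow_two, hsq _ (hEQ c.2), one_zpow, one_mul,
            zpow_one]
      rcases key w₁ (Subgroup.subset_closure (by simp)) with e | e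
      · exact hw1 e
      rcases key w₂ (Subgroup.subset_closure (by simp)) with e' | e'
      · exact hw₂1 e'
      exact hne (e.trans e'.symm)
    have hEN : E ≤ Subgroup.normalizer (U : Set K) := by
      rw [Subgroup.normalizer_eq_top]; exact le_top
    have hcop : (Nat.card E).Coprime (Nat.card U) := by
      obtain ⟨a, ha⟩ := IsPGroup.iff_card.mp (hQ.to_le hEQ)
      obtain ⟨b, hb⟩ := IsPGroup.iff_card.mp hU
      rw [ha, hb]
      exact Nat.Coprime.pow a b (by norm_num)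
    have hjoin := Cfsg.Agent.Coprime.eq_centralizerJoin hEcyc hEN hcop
    have hw₁C : w₁ ∈ Subgroup.centralizer (U : Set K) := by
      rw [Subgroup.mem_centralizer_iff]
      suffices hle : U ≤ Subgroup.centralizer ({w₁} : Set K) by
        intro u hu
        exact Subgroup.mem_centralizer_singleton_iff.mp (hle hu)
      conv_lhs => rw [← hjoin]
      refine iSup_le fun e => ?_
      rintro x ⟨hxU, hxe⟩
      replace hxe := Subgroup.mem_centralizer_singleton_iff.mp hxe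
      rw [Subgroup.mem_centralizer_singleton_iff]
      rcases hE4 _ e.2.1 with h0 | h0 | h0 | h0
      · exact absurd h0 e.2.2
      · rwa [h0] at hxe
      · rw [h0] at hxe
        exact hC3 x hxU (hC2 x hxU hxe)
      · rw [h0] at hxe
        exact hC3 x hxU hxe
    exact hw1 (hU3 _ (hCU hw₁C) (hsq _ hw₁Q))
  -- the final computation
  set a := u⁻¹ * (w₂ * u * w₂⁻¹) with ha
  have haU : a ∈ U := mul_mem (inv_mem huU) ((‹U.Normal›).conj_mem u huU w₂)
  have ha1 : w₁ * a * w₁⁻¹ = a := by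
    have e1 : Commute w₁ u := hu1.symm
    have e2 : Commute w₁ w₂ := hcomm _ hw₁Q _ hw₂Q
    have e3 : Commute w₁ a := (e1.inv_right).mul_right ((e2.mul_right e1).mul_right e2.inv_right)
    rw [e3.eq, mul_inv_cancel_right]
  have ha2 : w₂ * a * w₂⁻¹ = a⁻¹ := by
    have aux : ∀ z y : K, z * z = 1 → z⁻¹ = z →
        z * (y⁻¹ * (z * y * z⁻¹)) * z⁻¹ = (y⁻¹ * (z * y * z⁻¹))⁻¹ := by
      intro z y h2 hz
      calc z * (y⁻¹ * (z * y * z⁻¹)) * z⁻¹ = z * y⁻¹ * z * y * (z⁻¹ * z⁻¹) := by group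
        _ = z * y⁻¹ * z⁻¹ * y := by rw [hz, h2, mul_one]
        _ = _ := by group
    exact aux w₂ u (by rw [← pow_two, hsq _ hw₂Q]) (hinv _ hw₂Q)
  have ha3 : w₃ * a * w₃⁻¹ = a⁻¹ := by
    calc w₃ * a * w₃⁻¹ = w₁ * (w₂ * a * w₂⁻¹) * w₁⁻¹ := by rw [← h12]; group
      _ = (w₁ * a * w₁⁻¹)⁻¹ := by rw [ha2]; group
      _ = a⁻¹ := by rw [ha1]
  set b := g * a * g⁻¹ with hb
  set c := g * b * g⁻¹ with hc
  have tr : ∀ {z z' x y : K}, g * z * g⁻¹ = z' → z * x * z⁻¹ = y →
      z' * (g * x * g⁻¹) * z'⁻¹ = g * y * g⁻¹ := by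
    intro z z' x y hz hx
    rw [← hz, ← hx]
    group
  have ginv : ∀ x : K, g * x⁻¹ * g⁻¹ = (g * x * g⁻¹)⁻¹ := fun x => by group
  have hb2 : w₂ * b * w₂⁻¹ = b := tr hw₂.symm ha1
  have hb3 : w₃ * b * w₃⁻¹ = b⁻¹ := (tr hw₃.symm ha2).trans (ginv a)
  have hb1 : w₁ * b * w₁⁻¹ = b⁻¹ := (tr h31 ha3).trans (ginv a)
  have hc3 : w₃ * c * w₃⁻¹ = c := tr hw₃.symm hb2
  have hc1 : w₁ * c * w₁⁻¹ = c⁻¹ := (tr h31 hb3).trans (ginv b)
  have hc2 : w₂ * c * w₂⁻¹ = c⁻¹ := (tr hw₂.symm hb1).trans (ginv b)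
  have e0 : a * b * c = 1 := hprod a haU
  have app : ∀ z : K, (z * a * z⁻¹) * (z * b * z⁻¹) * (z * c * z⁻¹) = 1 := fun z => by
    calc _ = z * (a * b * c) * z⁻¹ := by group
      _ = 1 := by rw [e0]; group
  have e1 := app w₁
  rw [ha1, hb1, hc1] at e1
  have e2 := app w₂
  rw [ha2, hb2, hc2] at e2
  have ea : a = c * b := by
    calc a = (a * b⁻¹ * c⁻¹) * c * b := by group
      _ = _ := by rw [e1, one_mul]
  have eb : b = a * c := by
    calc b = a * (a⁻¹ * b * c⁻¹) * c := by group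
      _ = _ := by rw [e2, mul_one]
  have hcU : c ∈ U := (‹U.Normal›).conj_mem _ ((‹U.Normal›).conj_mem a haU g) g
  have eac : a * a * (c * c) = 1 := by
    calc a * a * (c * c) = a * (a * c) * c := by group
      _ = 1 := by rw [← eb]; exact e0
  have ha3' := hUcube a haU
  have hc3' := hUcube c hcU
  have hac : a * c = 1 := by
    have h1 : a * a = a⁻¹ := eq_inv_of_mul_eq_one_left (by rw [← ha3']; simp [pow_succ])
    have h2 : c * c = c⁻¹ := eq_inv_of_mul_eq_one_left (by rw [← hc3']; simp [pow_succ])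
    rw [h1, h2, ← mul_inv_rev, inv_eq_one] at eac
    exact mul_eq_one_comm.mp eac
  have hb' : b = 1 := eb.trans hac
  apply hu2
  have ha' : a = 1 := by rwa [hb, conj_eq_one_iff] at hb'
  rw [ha] at ha'
  calc u * w₂ = u * (u⁻¹ * (w₂ * u * w₂⁻¹)) * w₂ := by rw [ha', mul_one]
    _ = w₂ * u := by group


/-- A finite group in which every element has order dividing `6` has `2`-length at most `1` and `3`-length at most `1`. -/
theorem result {G : Type*} [Group G] [Finite G] (h : ∀ x : G, x ^ 6 = 1) : Cfsg.PLengthLE 2 1 G ∧ Cfsg.PLengthLE 3 1 G := by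
  have hsol := isSolvable_of_exponent_six h
  have hq : ∀ (N : Subgroup G) [N.Normal] (x : G ⧸ N), x ^ 6 = 1 := fun N _ x => by
    obtain ⟨y, rfl⟩ := QuotientGroup.mk_surjective x
    rw [← QuotientGroup.mk_pow, h, QuotientGroup.mk_one]
  constructor
  · have := Fact.mk Nat.prime_two
    refine pLengthLE_one_of_index ?_
    set K := G ⧸ Cfsg.pPrimeCore 2 G
    have hK : ∀ x : K, x ^ 6 = 1 := hq _
    have := isSolvable_of_exponent_six hK
    have hC := Cfsg.Agent.Core.centralizer_pCore_le (Cfsg.Agent.Core.isPSolvable_of_isSolvable (p := 2))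
      (Cfsg.Agent.Core.pPrimeCore_quotient_pPrimeCore 2 G)
    obtain ⟨P⟩ : Nonempty (Sylow 2 K) := inferInstance
    have hP2 : ∀ x ∈ (P : Subgroup K), x ^ 2 = 1 := by
      intro x hx
      obtain ⟨a, ha⟩ := IsPGroup.iff_orderOf.mp P.2 ⟨x, hx⟩
      rw [Subgroup.orderOf_mk] at ha
      refine orderOf_dvd_iff_pow_eq_one.mp (?_ : orderOf x ∣ 2)
      exact Nat.Coprime.dvd_of_dvd_mul_right (k := orderOf x) (n := 3)
        (by rw [ha]; exact Nat.Coprime.pow_left a (by norm_num)) (orderOf_dvd_of_pow_eq_one (hK x))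
    have hle : (P : Subgroup K) ≤ Cfsg.pCore 2 K := by
      refine le_trans (fun x hx => ?_) hC
      rw [Subgroup.mem_centralizer_iff]
      intro y hy
      have hyP := Cfsg.Agent.Core.pCore_le_sylow P hy
      have hinv : ∀ z ∈ (P : Subgroup K), z⁻¹ = z := fun z hz => by
        rw [inv_eq_iff_mul_eq_one, ← pow_two, hP2 z hz]
      calc y * x = (y * x)⁻¹ := (hinv _ (mul_mem hyP hx)).symm
        _ = x⁻¹ * y⁻¹ := mul_inv_rev y x
        _ = x * y := by rw [hinv x hx, hinv y hyP]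
    rw [Nat.coprime_comm, Nat.prime_two.coprime_iff_not_dvd]
    exact fun hd => P.not_dvd_index (hd.trans (Subgroup.index_dvd_of_le hle))
  · have := Fact.mk Nat.prime_two
    have := Fact.mk Nat.prime_three
    refine pLengthLE_one_of_index ?_
    set K := G ⧸ Cfsg.pPrimeCore 3 G
    have hK : ∀ x : K, x ^ 6 = 1 := hq _
    have := isSolvable_of_exponent_six hK
    have hC := Cfsg.Agent.Core.centralizer_pCore_le (Cfsg.Agent.Core.isPSolvable_of_isSolvable (p := 3))
      (Cfsg.Agent.Core.pPrimeCore_quotient_pPrimeCore 3 G)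
    obtain ⟨P⟩ : Nonempty (Sylow 2 K) := inferInstance
    have hnc : Cfsg.HasNormalPComplement 2 K := by
      refine Cfsg.Agent.Transfer.hasNormalPComplement_of_frobenius P fun Q hQP _ g hg hcop => ?_
      refine mem_centralizer_of_pow_three hK _ (Cfsg.Agent.Core.isPGroup_pCore 3 K) hC Q
        (P.2.to_le hQP) g hg (orderOf_dvd_iff_pow_eq_one.mp ?_)
      exact Nat.Coprime.dvd_of_dvd_mul_left (k := orderOf g) (m := 2) hcop
        (orderOf_dvd_of_pow_eq_one (hK g))
    obtain ⟨S, C, hCn, hCS⟩ := hnc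
    have hC3 : IsPGroup 3 C := by
      intro x
      refine ⟨1, ?_⟩
      rw [pow_one]
      refine orderOf_dvd_iff_pow_eq_one.mp (Nat.Coprime.dvd_of_dvd_mul_left (m := 2) ?_ ?_)
      · refine Nat.Coprime.coprime_dvd_left (orderOf_dvd_natCard x) ?_
        rw [← hCS.index_eq_card, Nat.coprime_comm, Nat.prime_two.coprime_iff_not_dvd]
        exact S.not_dvd_index
      · rw [← Subgroup.orderOf_coe]
        exact orderOf_dvd_of_pow_eq_one (hK (x : K))
    have hle : C ≤ Cfsg.pCore 3 K := Cfsg.Agent.Core.le_pCore hCn hC3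
    refine Nat.Coprime.coprime_dvd_left (Subgroup.index_dvd_of_le hle) ?_
    rw [hCS.symm.index_eq_card]
    obtain ⟨a, ha⟩ := IsPGroup.iff_card.mp S.2
    rw [ha]
    exact Nat.Coprime.pow_left a (by norm_num)

end Cfsg.Agent.S4227
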