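import Cfsg.Statements.S4275


set_option autoImplicit false
open Cfsg

namespace Cfsg.Agent.S4275

/-- Let G be a transitive group of permutations of a finite set Ω, let o ∈ Ω, and let α be an automorphism of G. Then α is induced by conjugation by a permutation of Ω normalizing G if and only if the image under α of the stabilizer of o fixes some point of Ω. -/
theorem result {Ω : Type*} [Fintype Ω] (G : Subgroup (Equiv.Perm Ω)) (htr : MulAction.IsPretransitive G Ω) (o : Ω) (α : G ≃* G) : (∃ σ : Equiv.Perm Ω, σ ∈ Subgroup.normalizer (G : Set (Equiv.Perm Ω)) ∧ ∀ g : G, ((α g : G) : Equiv.Perm Ω) = σ * (g : Equiv.Perm Ω) * σ⁻¹) ↔ ∃ ω : Ω, ∀ g ∈ (MulAction.stabilizer G o).map α.toMonoidHom, g • ω = ω := by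
  classical
  constructor
  · rintro ⟨σ, -, hα⟩
    refine ⟨σ o, ?_⟩
    rintro _ ⟨g, hg, rfl⟩
    change ((α g : G) : Equiv.Perm Ω) (σ o) = σ o
    rw [hα, Equiv.Perm.mul_apply, Equiv.Perm.mul_apply]
    simp [show (g : Equiv.Perm Ω) o = o from hg]
  · rintro ⟨ω, hω⟩
    have heq : (MulAction.stabilizer G o).map α.toMonoidHom = MulAction.stabilizer G ω := by
      have hle : (MulAction.stabilizer G o).map α.toMonoidHom ≤ MulAction.stabilizer G ω :=
        fun g hg => hω g hg
      refine Subgroup.eq_of_le_of_card_ge hle (le_of_eq ?_)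
      rw [Nat.card_congr (Subgroup.equivMapOfInjective _ _ α.injective).toEquiv.symm]
      have h1 := (MulAction.stabilizer G o).card_mul_index
      have h2 := (MulAction.stabilizer G ω).card_mul_index
      rw [MulAction.index_stabilizer_of_transitive] at h1 h2
      have : Nonempty Ω := ⟨o⟩
      exact Nat.eq_of_mul_eq_mul_right Nat.card_pos (h2.trans h1.symm)
    choose k hk using fun x : Ω => MulAction.exists_smul_eq G o x
    let f : Ω → Ω := fun x => α (k x) • ω
    have hf : ∀ g : G, f (g • o) = α g • ω := by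
      intro g
      have h1 : g⁻¹ * k (g • o) ∈ MulAction.stabilizer G o := by
        rw [MulAction.mem_stabilizer_iff, mul_smul, hk, inv_smul_smul]
      have h2 : α (g⁻¹ * k (g • o)) ∈ MulAction.stabilizer G ω := heq ▸ Subgroup.mem_map_of_mem _ h1
      rw [MulAction.mem_stabilizer_iff, map_mul, map_inv, mul_smul, inv_smul_eq_iff] at h2
      exact h2
    have hinj : Function.Injective f := by
      intro x y hxy
      change α (k x) • ω = α (k y) • ω at hxy
      have h2 : α ((k y)⁻¹ * k x) ∈ MulAction.stabilizer G ω := by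
        rw [MulAction.mem_stabilizer_iff, map_mul, map_inv, mul_smul, hxy, inv_smul_smul]
      rw [← heq] at h2
      obtain ⟨z, hz, hzx⟩ := h2
      have h3 := α.injective hzx
      rw [h3] at hz
      rw [SetLike.mem_coe, MulAction.mem_stabilizer_iff, mul_smul, hk, inv_smul_eq_iff, hk] at hz
      exact hz
    let σ : Equiv.Perm Ω := Equiv.ofBijective f (Finite.injective_iff_bijective.mp hinj)
    have hσ : ∀ g : G, ((α g : G) : Equiv.Perm Ω) = σ * (g : Equiv.Perm Ω) * σ⁻¹ := by
      intro g
      rw [eq_mul_inv_iff_mul_eq]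
      ext x
      obtain ⟨g', rfl⟩ := MulAction.exists_smul_eq G o x
      change (α g) • f (g' • o) = f (g • (g' • o))
      rw [hf, ← mul_smul g g', hf, map_mul, mul_smul]
    refine ⟨σ, ?_, hσ⟩
    rw [Subgroup.mem_normalizer_iff]
    refine fun n => ⟨fun hn => ?_, fun hn => ?_⟩
    · rw [← hσ ⟨n, hn⟩]; exact Subtype.prop _
    · obtain ⟨g, hg⟩ := α.surjective ⟨_, hn⟩
      have := hσ g
      rw [hg] at this
      have h2 : (g : Equiv.Perm Ω) = n := by simpa using this.symm
      exact h2 ▸ g.2

end Cfsg.Agent.S4275
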