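import Cfsg.Statements.S4276
import Cfsg.Agent.FGS4.TwistedIncidence

set_option autoImplicit false
open Cfsg

namespace Cfsg.Agent.S4276

/-- Let G be a doubly transitive group of permutations of a finite set Ω of size n, let o ∈ Ω, and let α be an automorphism of G of odd order. Suppose that the image under α of the stabilizer of o has an orbit on Ω whose length k is coprime to n. Then α is induced by conjugation by a permutation of Ω normalizing G, and k = 1 or k = n − 1. -/
theorem result {Ω : Type*} [Fintype Ω] (G : Subgroup (Equiv.Perm Ω)) (h2 : MulAction.IsMultiplyPretransitive G Ω 2) (o : Ω) (α : MulAut G) (hα : Odd (orderOf α)) (ω : Ω) (hk : (Nat.card (MulAction.orbit ((MulAction.stabilizer G o).map α.toMonoidHom) ω)).Coprime (Fintype.card Ω)) : (∃ σ : Equiv.Perm Ω, σ ∈ Subgroup.normalizer (G : Set (Equiv.Perm Ω)) ∧ ∀ g : G, ((α g : G) : Equiv.Perm Ω) = σ * (g : Equiv.Perm Ω) * σ⁻¹) ∧ (Nat.card (MulAction.orbit ((MulAction.stabilizer G o).map α.toMonoidHom) ω) = 1 ∨ Nat.card (MulAction.orbit ((MulAction.stabilizer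 G o).map α.toMonoidHom) ω) = Fintype.card Ω - 1) := by
  classical
  exact ⟨Cfsg.Agent.FGS4.TwistedIncidence.induced_by_perm G h2 o α hα ω hk,
    Cfsg.Agent.FGS4.TwistedIncidence.eq_fixed_of_coprime h2 o α hα ω hk⟩

end Cfsg.Agent.S4276
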