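import Cfsg.Statements.S4277
import Cfsg.Agent.FGS4.SchreierPrime

set_option autoImplicit false
open Cfsg

namespace Cfsg.Agent.S4277

/-- A case of the Schreier conjecture: if a finite simple group G has a subgroup of prime index, then the outer automorphism group of G is solvable. -/
theorem result {G : Type*} [Group G] [Finite G] [IsSimpleGroup G] (H : Subgroup G) (hH : H.index.Prime) : Group.IsSolvable (Cfsg.Out G) := by
  exact Cfsg.Agent.FGS4.SchreierPrime.out_solvable H hH

end Cfsg.Agent.S4277
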