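import Cfsg.Statements.S4278
import Cfsg.Agent.Chev.G2Odd.Fusion
-- import your own Cfsg.Agent.* helpers here

set_option autoImplicit false
open Cfsg

namespace Cfsg.Agent.S4278

/-- In the Chevalley group of type G₂ over a finite field of odd order, any two involutions are conjugate. -/
theorem result {F : Type*} [Field F] [Fintype F] (hF : Odd (Fintype.card F)) (s t : ↥(Cfsg.Lie.chevG2.group F)) (hs : orderOf s = 2) (ht : orderOf t = 2) : IsConj s t := by
  have h2 : (2 : F) ≠ 0 := Cfsg.Agent.Chev.G2Odd.two_ne_zero_of_odd hF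
  exact (Cfsg.Agent.Chev.G2Odd.isConj_tG hF h2 hs).trans (Cfsg.Agent.Chev.G2Odd.isConj_tG hF h2 ht).symm

end Cfsg.Agent.S4278
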