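import Cfsg.Statements.S4282
import Cfsg.Agent.Core.HallHigman.Critical
import Cfsg.Agent.Core.HallHigman.TheoremB
import Mathlib.Algebra.BigOperators.Fin
-- import your own Cfsg.Agent.* helpers here

set_option autoImplicit false
open Cfsg

namespace Cfsg.Agent.S4282

open Module

set_option maxSynthPendingDepth 4
set_option maxHeartbeats 1000000 in
/-- The centralizer of `ρ x` has dimension at most `1 + (N² - 1)/P`. -/
theorem cent_bound {G : Type*} [Group G] [Finite G] {p q : ℕ} [hp : Fact p.Prime] [hq : Fact q.Prime] (hpq : p ≠ q)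
    (Q : Subgroup G) [hQn : Q.Normal] (hQ : IsPGroup q Q) (x : G) {k : ℕ} (hk0 : 0 < k) (hk : orderOf x = p ^ k)
    (hC : ∀ y ∈ Subgroup.zpowers x, y ≠ 1 → Subgroup.centralizer ({y} : Set G) = Subgroup.zpowers x ⊔ Subgroup.center G)
    {K : Type*} [Field K] [IsAlgClosed K] [CharP K p] {V : Type*} [AddCommGroup V] [Module K V]
    [FiniteDimensional K V] [Nontrivial V] (ρ : G →* Module.End K V)
    (hirr : ∀ W : Submodule K V, (∀ g : Q, ∀ v ∈ W, ρ g v ∈ W) → W = ⊥ ∨ W = ⊤) :
    p ^ k * finrank K (Agent.Core.HH.cent (ρ x)) + 1 ≤ finrank K V ^ 2 + p ^ k := by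
  classical
  haveI : Fintype Q := Fintype.ofFinite Q
  set P := p ^ k with hP
  have hP0 : 0 < P := pow_pos hp.out.pos k
  have hxP : x ^ P = 1 := hk ▸ pow_orderOf_eq_one x
  have hinv : ∀ g, ρ g * ρ g⁻¹ = 1 ∧ ρ g⁻¹ * ρ g = 1 := fun g => by
    rw [← map_mul, ← map_mul, mul_inv_cancel, inv_mul_cancel, map_one]; exact ⟨rfl, rfl⟩
  let Φ : G →* Module.End K (Module.End K V) :=
    { toFun := fun g => (LinearMap.mulLeft K (ρ g)).comp (LinearMap.mulRight K (ρ g⁻¹))
      map_one' := LinearMap.ext fun S => by simp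
      map_mul' := fun g h => LinearMap.ext fun S => by simp [mul_assoc] }
  have hΦ : ∀ g S, Φ g S = ρ g * (S * ρ g⁻¹) := fun g S => rfl
  have hΦc : ∀ g, g ∈ Subgroup.center G → Φ g = 1 := by
    intro g hg
    obtain ⟨d, hd⟩ := Agent.Core.HH.exists_scalar_of_commute_irreducible (ρ.comp Q.subtype) hirr (ρ g) fun a => by
      rw [MonoidHom.comp_apply, ← map_mul, ← map_mul, Subgroup.coe_subtype, Subgroup.mem_center_iff.mp hg a]
    refine LinearMap.ext fun S => ?_
    rw [hΦ, Module.End.one_apply]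
    calc ρ g * (S * ρ g⁻¹) = S * (ρ g * ρ g⁻¹) := by
          rw [hd, smul_mul_assoc, one_mul, smul_mul_assoc, one_mul, mul_smul_comm]
      _ = S := by rw [(hinv g).1, mul_one]
  have hQK : (Fintype.card Q : K) ≠ 0 := by
    obtain ⟨j, hj⟩ := IsPGroup.iff_card.mp hQ
    rw [Nat.card_eq_fintype_card] at hj
    rw [hj, Nat.cast_pow]
    exact pow_ne_zero _ fun h => hpq
      ((Nat.prime_dvd_prime_iff_eq hp.out hq.out).mp ((CharP.cast_eq_zero_iff K p q).mp h))
  let e : Module.End K (Module.End K V) := (Fintype.card Q : K)⁻¹ • ∑ a : Q, Φ a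
  have he : ∀ (a : Q) S, Φ a (e S) = e S ∧ e (Φ a S) = e S := by
    intro a S
    simp only [e, LinearMap.smul_apply, LinearMap.sum_apply, map_smul, map_sum, ← Module.End.mul_apply,
      ← map_mul, ← Subgroup.coe_mul]
    exact ⟨congrArg _ (Equiv.sum_comp (Equiv.mulLeft a) fun b : Q => Φ b S),
      congrArg _ (Equiv.sum_comp (Equiv.mulRight a) fun b : Q => Φ b S)⟩
  have heS : ∀ S, ∃ d : K, e S = d • 1 := fun S =>
    Agent.Core.HH.exists_scalar_of_commute_irreducible (ρ.comp Q.subtype) hirr (e S) fun a => by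
      have h : ρ (a : G) * (e S * ρ (a : G)⁻¹) = e S := (he a S).1
      calc ρ (a : G) * e S = ρ (a : G) * (e S * ρ (a : G)⁻¹) * ρ (a : G) := by
            rw [mul_assoc, mul_assoc, (hinv _).2, mul_one]
        _ = e S * ρ (a : G) := by rw [h]
  have he1 : e 1 = 1 := by
    have h : ∀ a : Q, Φ (a : G) 1 = 1 := fun a => by rw [hΦ, one_mul, (hinv _).1]
    simp only [e, LinearMap.smul_apply, LinearMap.sum_apply, h, Finset.sum_const, Finset.card_univ,
      ← Nat.cast_smul_eq_nsmul K, smul_smul, inv_mul_cancel₀ hQK, one_smul]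
  set A0 := LinearMap.ker e with hA0
  let σ : MulAut Q := MulAut.conjNormal x
  have hσ : ∀ (i : ℕ) (a : Q), (((σ ^ i) a : Q) : G) = x ^ i * a * (x ^ i)⁻¹ := fun i a => by
    rw [show σ ^ i = MulAut.conjNormal (x ^ i) from (map_pow _ _ _).symm, MulAut.conjNormal_apply]
  have hexC : ∀ S, e (Φ x S) = Φ x (e S) := by
    intro S
    simp only [e, LinearMap.smul_apply, LinearMap.sum_apply, map_smul, map_sum, ← Module.End.mul_apply, ← map_mul]
    refine congrArg _ ?_
    rw [← Equiv.sum_comp σ.toEquiv fun a : Q => Φ ((a : G) * x) S]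
    refine Finset.sum_congr rfl fun a _ => ?_
    congr 2
    have h := hσ 1 a
    rw [pow_one, pow_one] at h
    show ((σ a : Q) : G) * x = x * a
    rw [h, inv_mul_cancel_right]
  have hxA0 : ∀ S ∈ A0, Φ x S ∈ A0 := fun S hS => by
    rw [hA0, LinearMap.mem_ker] at hS ⊢
    rw [hexC, hS, map_zero]
  have hgA0 : ∀ a : Q, ∀ S ∈ A0, Φ a S ∈ A0 := fun a S hS => by
    rw [hA0, LinearMap.mem_ker] at hS ⊢
    rw [(he a S).2, hS]
  -- fixed vectors of `A0` are norms
  let Z0 : Subgroup Q := (Subgroup.center G).subgroupOf Q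
  haveI : Z0.Normal := inferInstance
  have hZ0 : ∀ (i : ℕ) (a : Q), 0 < i → i < P → (σ ^ i) a = a → a ∈ Z0 := by
    intro i a hi hiP ha
    have hne : x ^ i ≠ 1 := pow_ne_one_of_lt_orderOf hi.ne' (hk ▸ hiP)
    have hmem : (a : G) ∈ Subgroup.centralizer ({x ^ i} : Set G) := by
      rw [Subgroup.mem_centralizer_singleton_iff]
      have h := congrArg Subtype.val ha
      rw [hσ, mul_inv_eq_iff_eq_mul] at h
      exact h.symm
    rw [hC _ (Subgroup.pow_mem _ (Subgroup.mem_zpowers x) i) hne] at hmem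
    rw [← SetLike.mem_coe, Subgroup.mul_normal] at hmem
    obtain ⟨y, hy, z, hz, hyz⟩ := hmem
    obtain ⟨j, hj⟩ := IsPGroup.iff_card.mp hQ
    have haq : (a : G) ^ (q ^ j) = 1 := by
      rw [← hj]; exact congrArg Subtype.val (pow_card_eq_one' (x := a))
    have haP : (a : G) ^ P ∈ Subgroup.center G := by
      have hyP : y ^ P = 1 := by
        obtain ⟨i, rfl⟩ := Subgroup.mem_zpowers_iff.mp hy
        rw [← zpow_natCast, ← zpow_mul, mul_comm, zpow_mul, zpow_natCast, hxP, one_zpow]
      have hyz' : y * z = (a : G) := hyz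
      rw [← hyz', (show Commute y z from (Subgroup.mem_center_iff.mp hz y)).mul_pow, hyP, one_mul]
      exact Subgroup.pow_mem _ hz P
    obtain ⟨r, hr⟩ := exists_pow_eq_self_of_coprime (x := (a : G)) (n := P)
      (Nat.Coprime.coprime_dvd_right (orderOf_dvd_of_pow_eq_one haq)
        (((Nat.coprime_primes hp.out hq.out).mpr hpq).pow k j))
    show (a : G) ∈ Subgroup.center G
    rw [← hr]
    exact Subgroup.pow_mem _ haP r
  have hσZ : ∀ (i : ℕ) (a : Q), a ∈ Z0 → (σ ^ i) a = a := fun i a ha => Subtype.ext (by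
    rw [hσ, Subgroup.mem_center_iff.mp (show (a : G) ∈ Subgroup.center G from ha) (x ^ i), mul_inv_cancel_right])
  haveI : Fintype (Q ⧸ Z0) := Fintype.ofFinite _
  haveI : Fintype Z0 := Fintype.ofFinite _
  have hsum : ∀ i, 0 < i → i < P → ∀ v, ∑ a : Q, Φ ((a : G) * ((σ ^ i) a⁻¹ : Q)) v = ∑ a : Q, Φ (a : G) v := by
    intro i hi hiP v
    let F : Q ⧸ Z0 → Module.End K V := fun c => Φ ((Quotient.out c : Q) : G) v
    have hF : ∀ a : Q, F (a : Q ⧸ Z0) = Φ (a : G) v := fun a => by
      obtain ⟨z, hz⟩ := QuotientGroup.mk_out_eq_mul Z0 a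
      show Φ ((Quotient.out (a : Q ⧸ Z0) : Q) : G) v = _
      rw [hz, Subgroup.coe_mul, map_mul, hΦc ((z : Q) : G) z.2, mul_one]
    let ψ : Q ⧸ Z0 → Q ⧸ Z0 := fun c => ((c.out * (σ ^ i) c.out⁻¹ : Q) : Q ⧸ Z0)
    have hψ : ∀ a : Q, ψ a = ((a * (σ ^ i) a⁻¹ : Q) : Q ⧸ Z0) := fun a => by
      obtain ⟨z, hz⟩ := QuotientGroup.mk_out_eq_mul Z0 a
      show ((_ : Q) : Q ⧸ Z0) = _
      congr 1
      rw [hz, mul_inv_rev, map_mul, hσZ i _ (Z0.inv_mem z.2)]
      have hzc : Commute ((z : Q) : Q) ((σ ^ i) a⁻¹) := Subtype.ext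
        ((Subgroup.mem_center_iff.mp (show ((z : Q) : G) ∈ Subgroup.center G from z.2) _).symm)
      group
    have hψinj : Function.Injective ψ := by
      intro c d hcd
      obtain ⟨a, rfl⟩ := QuotientGroup.mk_surjective c
      obtain ⟨b, rfl⟩ := QuotientGroup.mk_surjective d
      rw [hψ, hψ, QuotientGroup.eq] at hcd
      set τ := σ ^ i
      obtain ⟨z, hz⟩ : ∃ z : Z0, b * τ b⁻¹ = a * τ a⁻¹ * z := ⟨⟨_, hcd⟩, by group⟩
      have hzc : ∀ u : Q, (z : Q) * u = u * z := fun u => Subtype.ext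
        ((Subgroup.mem_center_iff.mp (show ((z : Q) : G) ∈ Subgroup.center G from z.2) u).symm)
      have hz' : τ (a⁻¹ * b) = (a⁻¹ * b) * (z : Q)⁻¹ := by
        rw [map_inv, map_inv, mul_inv_eq_iff_eq_mul] at hz
        rw [map_mul, map_inv, eq_mul_inv_iff_mul_eq]
        conv_rhs => rw [hz]
        simp only [mul_assoc, inv_mul_cancel_left]
        rw [hzc]
      have hiter : ∀ m : ℕ, (τ ^ m) (a⁻¹ * b) = (a⁻¹ * b) * ((z : Q)⁻¹) ^ m := by
        intro m
        induction m with
        | zero => simp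
        | succ m ihm =>
          rw [pow_succ', MulAut.mul_apply, ihm, map_mul, hz', map_pow, map_inv, hσZ i _ z.2, pow_succ' (z : Q)⁻¹,
            mul_assoc]
      have hzP : ((z : Q)⁻¹) ^ P = 1 := by
        have h := hiter P
        rw [← pow_mul] at h
        have h2 : (σ ^ (i * P)) (a⁻¹ * b) = a⁻¹ * b := Subtype.ext (by
          rw [hσ, mul_comm i, pow_mul, hxP, one_pow]; simp)
        rw [h2] at h
        exact mul_eq_left.mp h.symm
      obtain ⟨j, hj⟩ := hQ (z : Q)⁻¹
      have hz1 : (z : Q)⁻¹ = 1 := orderOf_eq_one_iff.mp (Nat.eq_one_of_dvd_coprimes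
        (((Nat.coprime_primes hp.out hq.out).mpr hpq).pow k j) (orderOf_dvd_of_pow_eq_one hzP)
        (orderOf_dvd_of_pow_eq_one hj))
      rw [hz1, mul_one] at hz'
      exact QuotientGroup.eq.mpr (hZ0 i _ hi hiP hz')
    have hψbij : Function.Bijective ψ := ⟨hψinj, Finite.surjective_of_injective hψinj⟩
    have hfib : ∀ F' : Q ⧸ Z0 → Module.End K V, ∑ a : Q, F' (a : Q ⧸ Z0) = Fintype.card Z0 • ∑ c, F' c := by
      intro F'
      rw [← Equiv.sum_comp (Subgroup.groupEquivQuotientProdSubgroup (s := Z0)).symm fun a : Q => F' (a : Q ⧸ Z0),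
        Fintype.sum_prod_type, Finset.smul_sum]
      refine Finset.sum_congr rfl fun c _ => ?_
      rw [← Finset.card_univ, ← Finset.sum_const]
      refine Finset.sum_congr rfl fun z _ => ?_
      congr 1
      exact congrArg Prod.fst ((Subgroup.groupEquivQuotientProdSubgroup (s := Z0)).apply_symm_apply (c, z))
    calc ∑ a : Q, Φ ((a : G) * ((σ ^ i) a⁻¹ : Q)) v = ∑ a : Q, (F ∘ ψ) (a : Q ⧸ Z0) := by
          refine Finset.sum_congr rfl fun a _ => ?_
          rw [Function.comp_apply, hψ, hF, Subgroup.coe_mul]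
      _ = ∑ a : Q, Φ (a : G) v := by
          rw [hfib, show (∑ c, (F ∘ ψ) c) = ∑ c, F c from hψbij.sum_comp F, ← hfib]
          exact Finset.sum_congr rfl fun a _ => hF a
  have hnorm : ∀ v ∈ A0, Φ x v = v → ∃ w ∈ A0, ((Φ x - 1) ^ (P - 1)) w = v := by
    intro v hv hfix
    let Nm : Module.End K (Module.End K V) := ∑ i ∈ Finset.range P, Φ x ^ i
    have hNm : Nm = (Φ x - 1) ^ (P - 1) := (Agent.Core.HH.sub_one_pow_eq_geom_sum (K := K) (Φ x) k).symm
    have hfixi : ∀ i : ℕ, Φ (x ^ i) v = v := by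
      intro i
      induction i with
      | zero => rw [pow_zero, map_one, Module.End.one_apply]
      | succ i ih => rw [pow_succ, map_mul, Module.End.mul_apply, hfix, ih]
    let Gf : Q → Module.End K V := fun a => Φ (a : G) (Nm (Φ (a : G)⁻¹ v))
    have hGsum : ∑ a : Q, Gf a = (Fintype.card Q : K) • v := by
      simp only [Gf, Nm, LinearMap.sum_apply, map_sum, ← map_pow]
      rw [Finset.sum_comm, Finset.sum_eq_single 0]
      · simp [← Module.End.mul_apply, ← map_mul, Nat.cast_smul_eq_nsmul, Finset.sum_const]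
      · intro i hi hi0
        have hiP := Finset.mem_range.mp hi
        have h1 : ∀ a : Q, Φ (a : G) (Φ (x ^ i) (Φ (a : G)⁻¹ v)) = Φ ((a : G) * ((σ ^ i) a⁻¹ : Q)) v := fun a => by
          rw [← Module.End.mul_apply, ← map_mul, ← Module.End.mul_apply, ← map_mul, hσ, Subgroup.coe_inv,
            show (a : G) * x ^ i * (a : G)⁻¹ = (a : G) * (x ^ i * (a : G)⁻¹ * (x ^ i)⁻¹) * x ^ i by group,
            map_mul, Module.End.mul_apply, hfixi]
        rw [Finset.sum_congr rfl fun a _ => h1 a, hsum i (by omega) hiP]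
        have hev : e v = 0 := hv
        simp only [e, LinearMap.smul_apply, LinearMap.sum_apply, smul_eq_zero, inv_eq_zero] at hev
        exact hev.resolve_left hQK
      · intro h; exact absurd (Finset.mem_range.mpr hP0) h
    have hNmx : Φ x * Nm = Nm * Φ x := by
      simp only [Nm, Finset.mul_sum, Finset.sum_mul]
      exact Finset.sum_congr rfl fun i _ => ((Commute.refl (Φ x)).pow_right i).eq
    have hGσ : ∀ a : Q, Gf (σ a) = Φ x (Gf a) := by
      intro a
      have h := hσ 1 a
      rw [pow_one, pow_one] at h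
      show Φ ((σ a : Q) : G) (Nm (Φ ((σ a : Q) : G)⁻¹ v)) = _
      have hx' : Φ x⁻¹ v = v := by
        conv_lhs => rw [← hfix, ← Module.End.mul_apply, ← map_mul, inv_mul_cancel, map_one, Module.End.one_apply]
      have hN' : ∀ u, Φ x⁻¹ (Nm (Φ x u)) = Nm u := fun u => by
        rw [← Module.End.mul_apply Nm, ← hNmx, Module.End.mul_apply, ← Module.End.mul_apply, ← map_mul,
          inv_mul_cancel, map_one, Module.End.one_apply]
      rw [h, mul_inv_rev, mul_inv_rev, inv_inv, map_mul, map_mul, map_mul, map_mul]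
      simp only [Module.End.mul_apply, hx', hN']
      rfl
    have hZ : ∀ a ∈ Z0, Gf a = 0 := by
      intro a ha
      have ha1 : Φ (a : G) = 1 := hΦc _ ha
      have ha2 : Φ (a : G)⁻¹ = 1 := hΦc _ (Subgroup.inv_mem _ ha)
      show Φ (a : G) (Nm (Φ (a : G)⁻¹ v)) = 0
      rw [ha1, ha2]
      simp only [Module.End.one_apply, Nm, LinearMap.sum_apply]
      rw [Finset.sum_congr rfl fun i _ => (by rw [← map_pow, hfixi] : (Φ x ^ i) v = v), Finset.sum_const,
        Finset.card_range, ← Nat.cast_smul_eq_nsmul K]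
      rw [show (P : K) = 0 by rw [hP, Nat.cast_pow, CharP.cast_eq_zero, zero_pow hk0.ne'], zero_smul]
    have hσit : ∀ (i : ℕ) (a : Q), (σ : Q → Q)^[i] a = (σ ^ i) a := by
      intro i
      induction i with
      | zero => exact fun a => rfl
      | succ i ih => intro a; rw [Function.iterate_succ_apply', ih, pow_succ']; rfl
    have hσP : σ ^ P = 1 := MulEquiv.ext fun a => Subtype.ext (by rw [hσ, hxP]; simp)
    obtain ⟨R, hR⟩ := Agent.Core.HH.sum_free_orbits (σ : Q → Q) P hP0
      (Finset.univ.filter fun a : Q => a ∉ Z0) (fun a ha => by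
        rw [Finset.mem_filter] at ha ⊢
        refine ⟨Finset.mem_univ _, fun h => ha.2 ?_⟩
        have h1 := hσZ (P - 1) _ h
        have h2 : (σ ^ (P - 1)) (σ a) = (σ ^ P) a := by
          rw [← MulAut.mul_apply, ← pow_succ, Nat.sub_add_cancel hP0]
        rw [h2, hσP, MulAut.one_apply] at h1
        exact h1 ▸ h)
      (fun a _ => by rw [hσit, hσP, MulAut.one_apply])
      (fun a ha i hi hiP h => (Finset.mem_filter.mp ha).2 (hZ0 i a hi hiP (by rw [← hσit]; exact h))) Gf
    rw [Finset.sum_filter_of_ne (p := fun a : Q => a ∉ Z0) (fun a _ h1 h2 => h1 (hZ a h2)), hGsum] at hR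
    have hGi : ∀ (i : ℕ) (a : Q), Gf ((σ : Q → Q)^[i] a) = (Φ x ^ i) (Gf a) := by
      intro i
      induction i with
      | zero => simp
      | succ i ih => intro a; rw [Function.iterate_succ_apply', hGσ, ih, pow_succ', Module.End.mul_apply]
    refine ⟨(Fintype.card Q : K)⁻¹ • ∑ r ∈ R, Gf r, A0.smul_mem _ (A0.sum_mem fun r _ => ?_), ?_⟩
    · have hNmA : ∀ S ∈ A0, Nm S ∈ A0 := by
        intro S hS
        have hpow : ∀ i : ℕ, (Φ x ^ i) S ∈ A0 := by
          intro i
          induction i with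
          | zero => simpa using hS
          | succ i ih => rw [pow_succ', Module.End.mul_apply]; exact hxA0 _ ih
        simp only [Nm, LinearMap.sum_apply]
        exact A0.sum_mem fun i _ => hpow i
      exact hgA0 r _ (hNmA _ (by have := hgA0 r⁻¹ v hv; rwa [Subgroup.coe_inv] at this))
    · rw [map_smul, ← hNm, map_sum]
      have hR' : ∑ r ∈ R, ∑ i ∈ Finset.range P, Gf ((σ : Q → Q)^[i] r) = ∑ r ∈ R, Nm (Gf r) :=
        Finset.sum_congr rfl fun r _ => by simp only [hGi, Nm, LinearMap.sum_apply]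
      rw [hR'] at hR
      rw [← hR, smul_smul, inv_mul_cancel₀ hQK, one_smul]
  -- the free part
  let D : Module.End K A0 := (Φ x - 1).restrict (fun S hS => A0.sub_mem (hxA0 S hS) hS)
  have hDpow : ∀ (i : ℕ) (S : A0), ((D ^ i) S : Module.End K V) = ((Φ x - 1) ^ i) (S : Module.End K V) := by
    intro i
    induction i with
    | zero => simp
    | succ i ih => intro S; rw [pow_succ', Module.End.mul_apply, pow_succ', Module.End.mul_apply, ← ih]; rfl
  have hDP : D ^ P = 0 := LinearMap.ext fun S => Subtype.ext (by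
    rw [hDpow, hP, Agent.Core.HH.sub_one_pow_char_pow (K := K), ← map_pow, ← hP, hxP, map_one, sub_self]
    rfl)
  have hfree := Agent.Core.HH.mul_finrank_ker_eq D P hDP (by
    intro S hS
    have h : Φ x (S : Module.End K V) - S = 0 := congrArg Subtype.val (show D S = 0 from hS)
    obtain ⟨w, hw, hwe⟩ := hnorm S S.2 (sub_eq_zero.mp h)
    exact ⟨⟨w, hw⟩, Subtype.ext (by rw [hDpow]; exact hwe)⟩)
  -- dimensions
  have hrange : LinearMap.range e = K ∙ (1 : Module.End K V) := by
    refine le_antisymm ?_ ?_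
    · rintro _ ⟨S, rfl⟩
      obtain ⟨d, hd⟩ := heS S
      exact hd ▸ Submodule.smul_mem _ d (Submodule.mem_span_singleton_self _)
    · rw [Submodule.span_singleton_le_iff_mem]
      exact ⟨1, he1⟩
  have hdimA : finrank K A0 + 1 = finrank K V ^ 2 := by
    have h := LinearMap.finrank_range_add_finrank_ker e
    rw [hrange, finrank_span_singleton one_ne_zero, finrank_linearMap] at h
    rw [sq, ← h, add_comm]
  let Ψ : Agent.Core.HH.cent (ρ x) →ₗ[K] LinearMap.ker D :=
    LinearMap.codRestrict _ (LinearMap.codRestrict A0 ((1 - e).comp (Agent.Core.HH.cent (ρ x)).subtype) (fun S => by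
      show e ((S : Module.End K V) - e S) = 0
      obtain ⟨d, hd⟩ := heS (S : Module.End K V)
      rw [map_sub, hd, map_smul, he1, sub_self])) (fun S => by
      refine Subtype.ext ?_
      show Φ x ((S : Module.End K V) - e S) - ((S : Module.End K V) - e S) = 0
      have hfixS : Φ x (S : Module.End K V) = S := by
        rw [hΦ, ← mul_assoc, ← Agent.Core.HH.mem_cent.mp S.2, mul_assoc, (hinv x).1, mul_one]
      rw [map_sub, ← hexC, hfixS, sub_self])
  have hker : finrank K (LinearMap.ker Ψ) ≤ 1 := by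
    let ι : LinearMap.ker Ψ →ₗ[K] LinearMap.range e :=
      LinearMap.codRestrict _ ((Agent.Core.HH.cent (ρ x)).subtype.comp (LinearMap.ker Ψ).subtype) (fun S => by
        refine ⟨(S.1 : Module.End K V), (sub_eq_zero.mp ?_).symm⟩
        exact congrArg (fun z => ((z : A0) : Module.End K V)) (congrArg Subtype.val (show Ψ S.1 = 0 from S.2)))
    have hinj : Function.Injective ι := fun a b h => Subtype.ext (Subtype.ext
      (congrArg (fun z : LinearMap.range e => (z : Module.End K V)) h))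
    have h2 : finrank K (LinearMap.range e) = 1 := by rw [hrange, finrank_span_singleton one_ne_zero]
    exact h2 ▸ LinearMap.finrank_le_finrank_of_injective hinj
  have hsum' := LinearMap.finrank_range_add_finrank_ker Ψ
  have hle := Submodule.finrank_le (LinearMap.range Ψ)
  have h3 : P * finrank K (Agent.Core.HH.cent (ρ x)) ≤ P * (finrank K (LinearMap.ker D) + 1) :=
    Nat.mul_le_mul_left P (by omega)
  rw [Nat.mul_add, hfree, mul_one] at h3
  omega

/-- A critical case behind the Hall–Higman theorem. Let p ≠ q be primes and G a finite group generated by a normal q-subgroup Q and a cyclic p-subgroup generated by x, such that the centralizer of every non-identity element of that cyclic subgroup is its product with the centre of G. Let K be an algebraically closed field of characteristic p and ρ a faithful representation of G on a nonzero finite-dimensional K-space whose restriction to Q is irreducible. If s is the least exponent with (ρ(x) − 1)^s = 0, then |⟨x⟩| − 1 ≤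 s ≤ |⟨x⟩|; and if s = |⟨x⟩| − 1 then |⟨x⟩| − 1 is a power of q and Q is non-abelian. -/
theorem result {G : Type*} [Group G] [Finite G] (p q : ℕ) [Fact p.Prime] [Fact q.Prime] (hpq : p ≠ q) (Q : Subgroup G) [Q.Normal] (hQ : IsPGroup q Q) (x : G) (hx : IsPGroup p (Subgroup.zpowers x)) (hgen : Q ⊔ Subgroup.zpowers x = ⊤) (hC : ∀ y ∈ Subgroup.zpowers x, y ≠ 1 → Subgroup.centralizer ({y} : Set G) = Subgroup.zpowers x ⊔ Subgroup.center G) {K : Type*} [Field K] [IsAlgClosed K] [CharP K p] {V : Type*} [AddCommGroup V] [Module K V] [FiniteDimensional K V] [Nontrivial V] (ρ : Representation K G V) (hfaith : Function.Injective ρ) (hirr : ∀ W : Submodule K V, (∀ g ∈ Q, Submodule.map (ρ g) W ≤ W) → W = ⊥ ∨ W = ⊤) (s : ℕ) (hs : (ρ x - 1) ^ s = 0) (hmin : ∀ k < s, (ρ x - 1) ^ k ≠ 0) : Nat.card (Subgroup.zpowers x) - 1 ≤ s ∧ s ≤ Nat.card (Subgroup.zpowers x) ∧ (s = Nat.card (Subgroup.zpowers x) - 1 → (∃ b : ℕ, Nat.card (Subgroup.zpowers x) - 1 = q ^ b) ∧ ¬ IsMulCommutative Q) := by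
  have hinvρ : ∀ g, ρ g * ρ g⁻¹ = 1 := fun g => by rw [← map_mul, mul_inv_cancel, map_one]
  obtain ⟨k, hk⟩ := IsPGroup.iff_card.mp hx
  have hord : orderOf x = p ^ k := by rw [← Nat.card_zpowers, hk]
  rw [hk]
  have hpp := (Fact.out : p.Prime)
  have hle : s ≤ p ^ k := by
    by_contra h
    refine hmin (p ^ k) (by omega) ?_
    rw [Agent.Core.HH.sub_one_pow_char_pow (K := K), ← map_pow, ← hord, pow_orderOf_eq_one, map_one, sub_self]
  rcases Nat.eq_zero_or_pos k with hk0 | hk0
  · subst hk0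
    rw [pow_zero] at hle ⊢
    refine ⟨Nat.zero_le _, hle, fun h => ?_⟩
    rw [show s = 0 by omega, pow_zero] at hs
    exact absurd hs one_ne_zero
  rcases Nat.lt_or_ge s (p ^ k) with hlt | hge
  swap
  · exact ⟨by omega, hle, fun h => by have := Nat.one_le_pow k p hpp.pos; omega⟩
  have hirr' : ∀ W : Submodule K V, (∀ g : Q, ∀ v ∈ W, ρ g v ∈ W) → W = ⊥ ∨ W = ⊤ := fun W hW =>
    hirr W fun g hg => by rintro _ ⟨v, hv, rfl⟩; exact hW ⟨g, hg⟩ v hv
  have hcb := cent_bound hpq Q hQ x hk0 hord hC (ρ : G →* Module.End K V) hirr'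
  have hNpos : 0 < Module.finrank K V := Module.finrank_pos
  have hN2 : 2 ≤ Module.finrank K V := by
    by_contra hlt2
    obtain ⟨v, hv, hspan⟩ := finrank_eq_one_iff'.mp (show Module.finrank K V = 1 by omega)
    obtain ⟨c, hc⟩ := hspan (ρ x v)
    have hρx : ρ x = c • 1 := LinearMap.ext fun w => by
      obtain ⟨d, rfl⟩ := hspan w
      rw [map_smul, ← hc, LinearMap.smul_apply, Module.End.one_apply, smul_comm]
    have hz : (c - 1) ^ s = 0 := by
      have h2 : ((c - 1) • (1 : Module.End K V)) ^ s = 0 := by rw [sub_smul, one_smul, ← hρx]; exact hs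
      rw [smul_pow, one_pow] at h2
      exact (smul_eq_zero.mp h2).resolve_right one_ne_zero
    rw [sub_eq_zero.mp (pow_eq_zero_iff'.mp hz).1, one_smul, ← map_one ρ] at hρx
    have h1 : p ^ k = 1 := by rw [← hord, hfaith hρx, orderOf_one]
    exact (Nat.one_lt_pow hk0.ne' hpp.one_lt).ne' h1
  have hsN : s ≤ Module.finrank K V := by
    by_contra h
    refine hmin (Module.finrank K V) (by omega) (LinearMap.ext fun v => ?_)
    exact Module.End.ker_pow_le_ker_pow_finrank (ρ x - 1) s (show v ∈ LinearMap.ker ((ρ x - 1) ^ s) by simp [hs])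
  have hcent : Agent.Core.HH.cent (ρ x - 1) = Agent.Core.HH.cent (ρ x) := by
    ext S
    rw [Agent.Core.HH.mem_cent, Agent.Core.HH.mem_cent, mul_sub, sub_mul, mul_one, one_mul, sub_left_inj]
  have hsq := Agent.Core.HH.sq_finrank_le_of_nilpotent _ (ρ x - 1) s rfl hs
  rw [hcent] at hsq
  obtain ⟨hNP, hsP⟩ := Agent.Core.HH.hh_arith hN2 hsN hlt hcb hsq
  refine ⟨by omega, hle, fun _ => ⟨?_, fun hcomm => ?_⟩⟩
  · obtain ⟨j, hj⟩ := Agent.Core.HH.finrank_irreducible_qGroup _ rfl hQ
      ((ρ : G →* Module.End K V).comp Q.subtype) hirr'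
    exact ⟨j, by omega⟩
  · obtain ⟨v, hv⟩ := exists_ne (0 : V)
    rcases hirr' (K ∙ v) (fun g w hw => by
      obtain ⟨c, hc⟩ := Agent.Core.HH.exists_scalar_of_commute_irreducible
        ((ρ : G →* Module.End K V).comp Q.subtype) hirr' (ρ g) (fun a => by
          show ρ a * ρ g = ρ g * ρ a
          rw [← map_mul, ← map_mul]
          exact congrArg _ (congrArg Subtype.val (hcomm.is_comm.comm a g)))
      rw [hc, LinearMap.smul_apply, Module.End.one_apply]
      exact Submodule.smul_mem _ c hw) with h | h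
    · exact hv (Submodule.span_singleton_eq_bot.mp h)
    · have h1 : Module.finrank K V = 1 := by rw [← finrank_top K V, ← h, finrank_span_singleton hv]
      omega

end Cfsg.Agent.S4282
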