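import Cfsg.Statements.S4283
import Cfsg.Agent.FGS4.FrobeniusBasic

set_option autoImplicit false
open Cfsg

namespace Cfsg.Agent.S4283

/-- Let G be a finite group with centre Z and let K, H be abelian subgroups of G containing Z such that G/Z is a Frobenius group with complement H/Z and kernel K/Z. Then the conjugacy class sizes of G are exactly 1, [G : K] and [G : H], and these two indices are coprime. (This is the converse half of the characterization of finite groups whose conjugacy class sizes are exactly 1, m and n with m and n coprime.) -/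
theorem result {G : Type*} [Group G] [Finite G] (K H : Subgroup G) (hZK : Subgroup.center G ≤ K) (hZH : Subgroup.center G ≤ H) (hK : IsMulCommutative K) (hH : IsMulCommutative H) (hFrob : Cfsg.IsFrobeniusComplement (H.map (QuotientGroup.mk' (Subgroup.center G)))) (hker : Cfsg.frobeniusKernel (H.map (QuotientGroup.mk' (Subgroup.center G))) = (K.map (QuotientGroup.mk' (Subgroup.center G)) : Set (G ⧸ Subgroup.center G))) : Set.range (fun x : G => (Subgroup.centralizer ({x} : Set G)).index) = ({1, K.index, H.index} : Set ℕ) ∧ K.index.Coprime H.index := by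
  classical
  let π := QuotientGroup.mk' (Subgroup.center G)
  set Hb := H.map π with hHb
  set Kb := K.map π with hKb
  have hπ : Function.Surjective π := QuotientGroup.mk'_surjective _
  have hcm : ∀ L : Subgroup G, Subgroup.center G ≤ L → (L.map π).comap π = L := fun L hL =>
    Subgroup.comap_map_eq_self (by rwa [QuotientGroup.ker_mk'])
  have hidx : ∀ L : Subgroup G, Subgroup.center G ≤ L → (L.map π).index = L.index := fun L hL =>
    Subgroup.index_map_eq _ hπ (by rwa [QuotientGroup.ker_mk'])
  have hKcard : Nat.card Kb = Hb.index := by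
    rw [← FGS4.ncard_frobeniusKernel hFrob, hker]; rfl
  have hcentral : ∀ x : G, π x = 1 ↔ x ∈ Subgroup.center G := QuotientGroup.eq_one_iff
  have hnk : ∀ z : G ⧸ Subgroup.center G, z ∉ Kb → ∃ a, a⁻¹ * z * a ∈ Hb := by
    intro z hz
    have h' : z ∉ Cfsg.frobeniusKernel Hb := hker ▸ hz
    rw [FGS4.mem_frobeniusKernel_iff] at h'
    push Not at h'
    exact h'.2
  have hCK : ∀ x ∈ K, x ∉ Subgroup.center G → Subgroup.centralizer ({x} : Set G) = K := by
    intro x hx hxz
    refine le_antisymm (fun y hy => ?_) (fun y hy => ?_)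
    · rw [← hcm K hZK, Subgroup.mem_comap]
      by_contra hyK
      obtain ⟨a, ha⟩ := hnk (π y) hyK
      rw [Subgroup.mem_centralizer_singleton_iff] at hy
      have hyne : π y ≠ 1 := fun h => hyK (by rw [h]; exact Subgroup.one_mem _)
      have hxH : a⁻¹ * π x * a ∈ Hb := by
        refine FGS4.mem_of_commute hFrob ha (fun h => hyne ?_) ?_
        · calc π y = a * (a⁻¹ * π y * a) * a⁻¹ := by group
            _ = 1 := by rw [h]; group
        · have : π x * π y = π y * π x := by rw [← map_mul, ← map_mul, hy]
          calc a⁻¹ * π x * a * (a⁻¹ * π y * a) = a⁻¹ * (π x * π y) * a := by group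
            _ = a⁻¹ * π y * a * (a⁻¹ * π x * a) := by rw [this]; group
      have hxk : π x ∈ Cfsg.frobeniusKernel Hb := hker ▸ Subgroup.mem_map_of_mem _ hx
      rw [FGS4.mem_frobeniusKernel_iff] at hxk
      exact (hxk.resolve_left fun h => hxz ((hcentral x).mp h)) a hxH
    · rw [Subgroup.mem_centralizer_singleton_iff]
      exact congrArg Subtype.val (hK.is_comm.comm ⟨x, hx⟩ ⟨y, hy⟩) |>.symm
  have hCH : ∀ x ∈ H, x ∉ Subgroup.center G → Subgroup.centralizer ({x} : Set G) = H := by
    intro x hx hxz
    refine le_antisymm (fun y hy => ?_) (fun y hy => ?_)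
    · rw [← hcm H hZH, Subgroup.mem_comap]
      rw [Subgroup.mem_centralizer_singleton_iff] at hy
      exact FGS4.mem_of_commute hFrob (Subgroup.mem_map_of_mem _ hx) (fun h => hxz ((hcentral x).mp h))
        (by rw [← map_mul, ← map_mul, hy])
    · rw [Subgroup.mem_centralizer_singleton_iff]
      exact congrArg Subtype.val (hH.is_comm.comm ⟨x, hx⟩ ⟨y, hy⟩) |>.symm
  have hindex_conj : ∀ a x : G, (Subgroup.centralizer ({a * x * a⁻¹} : Set G)).index =
      (Subgroup.centralizer ({x} : Set G)).index := by
    intro a x
    rw [← Subgroup.index_map_equiv (Subgroup.centralizer ({x} : Set G)) (MulAut.conj a)]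
    congr 1
    ext y
    change _ ↔ y ∈ (Subgroup.centralizer ({x} : Set G)).map (MulAut.conj a).toMonoidHom
    rw [Subgroup.mem_map_equiv, Subgroup.mem_centralizer_singleton_iff, Subgroup.mem_centralizer_singleton_iff,
      MulAut.conj_symm_apply]
    constructor
    · intro h
      calc a⁻¹ * y * a * x = a⁻¹ * (y * (a * x * a⁻¹)) * a := by group
        _ = x * (a⁻¹ * y * a) := by rw [h]; group
    · intro h
      calc y * (a * x * a⁻¹) = a * (a⁻¹ * y * a * x) * a⁻¹ := by group
        _ = a * x * a⁻¹ * y := by rw [h]; group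
  have hHb1 : Hb ≠ ⊥ := hFrob.1
  have hKb1 : Kb ≠ ⊥ := by
    intro h
    rw [h, Subgroup.card_bot] at hKcard
    exact hFrob.2.1 (Subgroup.index_eq_one.mp hKcard.symm)
  constructor
  · ext n
    simp only [Set.mem_range, Set.mem_insert_iff, Set.mem_singleton_iff]
    constructor
    · rintro ⟨x, rfl⟩
      by_cases hxz : x ∈ Subgroup.center G
      · left
        rw [Subgroup.index_eq_one, eq_top_iff]
        intro y _
        rw [Subgroup.mem_centralizer_singleton_iff]
        exact Subgroup.mem_center_iff.mp hxz y
      · right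
        by_cases hxK : π x ∈ Kb
        · left
          rw [hCK x (by rw [← hcm K hZK]; exact hxK) hxz]
        · right
          obtain ⟨a, ha⟩ := hnk _ hxK
          obtain ⟨a, rfl⟩ := hπ a
          have hmem : a⁻¹ * x * a ∈ H := by
            rw [← hcm H hZH, Subgroup.mem_comap, map_mul, map_mul, map_inv]; exact ha
          have hnz : a⁻¹ * x * a ∉ Subgroup.center G := fun h => hxz (by
            have := (inferInstance : (Subgroup.center G).Normal).conj_mem _ h a
            simpa [mul_assoc] using this)
          rw [← hCH _ hmem hnz]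
          conv_lhs => rw [show x = a * (a⁻¹ * x * a) * a⁻¹ by group]
          exact hindex_conj a _
    · rintro (rfl | rfl | rfl)
      · exact ⟨1, by
          rw [Subgroup.index_eq_one, eq_top_iff]
          intro y _
          rw [Subgroup.mem_centralizer_singleton_iff]
          simp⟩
      · obtain ⟨z, hz, hz1⟩ := (Subgroup.bot_or_exists_ne_one Kb).resolve_left hKb1
        obtain ⟨x, hx, rfl⟩ := hz
        exact ⟨x, by rw [hCK x hx fun h => hz1 ((hcentral x).mpr h)]⟩
      · obtain ⟨z, hz, hz1⟩ := (Subgroup.bot_or_exists_ne_one Hb).resolve_left hHb1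
        obtain ⟨x, hx, rfl⟩ := hz
        exact ⟨x, by rw [hCH x hx fun h => hz1 ((hcentral x).mpr h)]⟩
  · rw [← hidx K hZK, ← hidx H hZH]
    have h1 := Kb.card_mul_index
    have h2 := Hb.card_mul_index
    rw [hKcard] at h1
    have : Kb.index = Nat.card Hb :=
      Nat.eq_of_mul_eq_mul_left (Nat.pos_of_ne_zero Subgroup.index_ne_zero_of_finite)
        (by rw [h1, mul_comm, h2])
    rw [this]
    exact FGS4.coprime_card_index hFrob

end Cfsg.Agent.S4283
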