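import Cfsg.Statements.S4292
import Cfsg.Agent.FGS4.FPFModule
import Cfsg.Agent.FGS4.FrobeniusFPF
import Mathlib.Data.Nat.Prime.Infinite

set_option autoImplicit false
open Cfsg

namespace Cfsg.Agent.S4292

open FGS4.FPFMod Finset
open scoped Matrix

theorem restrict_complement {G C L : Type*} [Group G] [Finite G] [Group C] [Finite C] [Nontrivial C]
    [Group L] [Finite L] {H : Subgroup L} (hF : Cfsg.IsFrobeniusComplement H) (e : G ≃* H)
    (f : C →* G) (hf : Function.Injective f) :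
    ∃ (L : Type) (_ : Group L) (_ : Finite L) (H : Subgroup L),
      Cfsg.IsFrobeniusComplement H ∧ Nonempty (C ≃* H) := by
  obtain ⟨p, n, hp, ρ, hn, -, hρ⟩ := exists_rep_of_complement hF e
  haveI := hp
  haveI : Nonempty (Fin n) := ⟨⟨0, hn⟩⟩
  refine FGS4.exists_complement_of_fpf_add (fun c v => ρ (f c) *ᵥ v) (fun v => by simp)
    (fun a b v => by rw [map_mul, map_mul, Matrix.mulVec_mulVec]) (fun a v w => Matrix.mulVec_add _ _ _)
    fun c hc v hv => hρ (f c) (fun h => hc (hf (h.trans f.map_one.symm))) v hv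

theorem coprime_of_sumZero {A B : Type*} [Group A] [Finite A] [Group B] [Finite B] {m : ℕ}
    (hm : 0 < m) {τ : A × B →* Matrix (Fin m) (Fin m) ℤ} (h : SumZero τ) :
    (Nat.card A).Coprime (Nat.card B) := by
  refine Nat.coprime_of_dvd fun q hq hA hB => ?_
  haveI := Fact.mk hq
  obtain ⟨a, ha⟩ := exists_prime_orderOf_dvd_card' q hA
  obtain ⟨b, hb⟩ := exists_prime_orderOf_dvd_card' q hB
  have hord : ∀ c : A × B, c ≠ 1 → c ^ q = 1 → orderOf c = q := fun c hc hcq =>
    orderOf_eq_prime hcq hc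
  have hb1 : b ≠ 1 := fun h0 => by rw [h0, orderOf_one] at hb; exact hq.ne_one hb.symm
  have haq : a ^ q = 1 := ha ▸ pow_orderOf_eq_one a
  have hbq : b ^ q = 1 := hb ▸ pow_orderOf_eq_one b
  have h1 : ∀ j : ℕ, ∑ i ∈ range q, τ (a ^ j, b) ^ i = 0 := fun j => by
    have hne : ((a ^ j, b) : A × B) ≠ 1 := fun h0 => hb1 (congrArg Prod.snd h0)
    have ho := hord _ hne (Prod.ext
      (show (a ^ j) ^ q = 1 by rw [← pow_mul, mul_comm, pow_mul, haq, one_pow]) hbq)
    have := h _ hne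
    rwa [ho] at this
  have h2 : ∀ i ∈ range q, i ≠ 0 → ∑ j ∈ range q, τ (a ^ j, b) ^ i = 0 := fun i hi hi0 => by
    have hne : ((a ^ i, 1) : A × B) ≠ 1 := fun h0 => by
      have := orderOf_dvd_of_pow_eq_one (congrArg Prod.fst h0 : a ^ i = 1)
      rw [ha] at this
      exact Nat.not_lt.mpr (Nat.le_of_dvd (Nat.pos_of_ne_zero hi0) this) (mem_range.mp hi)
    have ho := hord _ hne (Prod.ext
      (show (a ^ i) ^ q = 1 by rw [← pow_mul, mul_comm, pow_mul, haq, one_pow]) (one_pow _))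
    have := h _ hne
    rw [ho] at this
    have e : ∀ j, τ (a ^ j, b) ^ i = τ (a ^ i, 1) ^ j * τ (1, b ^ i) := fun j => by
      rw [← map_pow, ← map_pow, ← map_mul]
      exact congrArg τ (Prod.ext (show (a ^ j) ^ i = (a ^ i) ^ j * 1 by
        rw [mul_one, ← pow_mul, ← pow_mul, mul_comm]) (show b ^ i = (1 : B) ^ j * b ^ i by
        rw [one_pow, one_mul]))
    simp only [e, ← Finset.sum_mul, this, zero_mul]
  have h0 : ∑ j ∈ range q, ∑ i ∈ range q, τ (a ^ j, b) ^ i = 0 := by simp [h1]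
  rw [Finset.sum_comm, Finset.sum_eq_single 0 h2 (fun h0 => absurd (mem_range.mpr hq.pos) h0)] at h0
  have h3 := congrFun (congrFun h0 ⟨0, hm⟩) ⟨0, hm⟩
  simp [Matrix.natCast_apply] at h3
  exact hq.ne_zero h3

theorem tensor {A B : Type*} [Group A] [Finite A] [Nontrivial A] [Group B] [Finite B]
    (hcop : (Nat.card A).Coprime (Nat.card B)) {mA mB : ℕ} (hmA : 0 < mA)
    {τA : A →* Matrix (Fin mA) (Fin mA) ℤ} (hA : SumZero τA) (hmB : 0 < mB)
    {τB : B →* Matrix (Fin mB) (Fin mB) ℤ} (hB : SumZero τB) :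
    ∃ (L : Type) (_ : Group L) (_ : Finite L) (H : Subgroup L),
      Cfsg.IsFrobeniusComplement H ∧ Nonempty ((A × B) ≃* H) := by
  obtain ⟨r, hr, hrp⟩ := Nat.exists_infinite_primes (Nat.card A * Nat.card B + 1)
  haveI := Fact.mk hrp
  let f : ℤ →+* ZMod r := Int.castRingHom (ZMod r)
  let ρA := (f.mapMatrix (m := Fin mA)).toMonoidHom.comp τA
  let ρB := (f.mapMatrix (m := Fin mB)).toMonoidHom.comp τB
  have hA' : SumZero ρA := hA.map (f.mapMatrix (m := Fin mA))
  have hB' : SumZero ρB := hB.map (f.mapMatrix (m := Fin mB))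
  have hunit : ∀ k : ℕ, 0 < k → k < r → IsUnit (k : ZMod r) := fun k hk hkr => by
    refine (Ne.isUnit fun h0 => ?_)
    exact Nat.not_lt.mpr (Nat.le_of_dvd hk ((ZMod.natCast_eq_zero_iff _ _).mp h0)) hkr
  have hA0 : 0 < Nat.card A := Nat.card_pos
  have hB0 : 0 < Nat.card B := Nat.card_pos
  let act : A × B → Matrix (Fin mA) (Fin mB) (ZMod r) → Matrix (Fin mA) (Fin mB) (ZMod r) :=
    fun c X => ρA c.1 * X * ρB c.2⁻¹
  have hmul : ∀ c d X, act (c * d) X = act c (act d X) := fun c d X => by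
    simp only [act, Prod.fst_mul, Prod.snd_mul, mul_inv_rev, map_mul, Matrix.mul_assoc]
  haveI : Nonempty (Fin mA) := ⟨⟨0, hmA⟩⟩
  haveI : Nonempty (Fin mB) := ⟨⟨0, hmB⟩⟩
  refine FGS4.exists_complement_of_fpf_add act (fun X => by simp [act]) hmul
    (fun c X Y => by simp only [act, Matrix.mul_add, Matrix.add_mul]) fun c hc X hX => ?_
  have key : ∀ (k : ℕ) (Y : Matrix (Fin mA) (Fin mB) (ZMod r)), 0 < k → k < r → k • Y = 0 → Y = 0 :=
    fun k Y h1 h2 hY => Matrix.ext fun i j => by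
      have := congrFun (congrFun hY i) j
      rw [Matrix.smul_apply, nsmul_eq_mul] at this
      exact (hunit k h1 h2).mul_right_eq_zero.mp this
  by_cases ha : c.1 = 1
  · have hb : c.2⁻¹ ≠ 1 := fun h0 => hc (Prod.ext ha (inv_eq_one.mp h0))
    have h1 : X * ρB c.2⁻¹ = X := by simpa [act, ha] using hX
    have h2 : ∀ i, X * ρB c.2⁻¹ ^ i = X := fun i => by
      induction i with
      | zero => simp
      | succ i ih => rw [pow_succ, ← Matrix.mul_assoc, ih, h1]
    have h3 := congrArg (X * ·) (hB' _ hb)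
    simp only [Matrix.mul_sum, h2, Finset.sum_const, Finset.card_range, Matrix.mul_zero] at h3
    refine key _ X (orderOf_pos _) ?_ h3
    have := Nat.le_of_dvd hB0 (orderOf_dvd_natCard (c.2⁻¹))
    have := Nat.le_mul_of_pos_left (Nat.card B) hA0
    omega
  · have hfix : ∀ n, act (c ^ n) X = X := fun n => by
      induction n with
      | zero => simp [act]
      | succ n ih => rw [pow_succ, hmul, hX, ih]
    have h1 : ρA (c.1 ^ Nat.card B) * X = X := by
      simpa [act, Prod.pow_fst, Prod.pow_snd, pow_card_eq_one'] using hfix (Nat.card B)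
    have hne : c.1 ^ Nat.card B ≠ 1 := fun h0 => ha (orderOf_eq_one_iff.mp
      (Nat.eq_one_of_dvd_coprimes hcop (orderOf_dvd_natCard _) (orderOf_dvd_of_pow_eq_one h0)))
    have h2 : ∀ i, ρA (c.1 ^ Nat.card B) ^ i * X = X := fun i => by
      induction i with
      | zero => simp
      | succ i ih => rw [pow_succ, Matrix.mul_assoc, h1, ih]
    have h3 := congrArg (· * X) (hA' _ hne)
    simp only [Matrix.sum_mul, h2, Finset.sum_const, Finset.card_range, Matrix.zero_mul] at h3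
    refine key _ X (orderOf_pos _) ?_ h3
    have := Nat.le_of_dvd hA0 (orderOf_dvd_natCard (c.1 ^ Nat.card B))
    have := Nat.le_mul_of_pos_right (Nat.card A) hB0
    omega


/-- Let A and B be nontrivial finite groups. Then the direct product A × B occurs as a Frobenius complement if and only if A and B both occur as Frobenius complements and the orders of A and B are coprime. -/
theorem result {A B : Type*} [Group A] [Finite A] [Nontrivial A] [Group B] [Finite B] [Nontrivial B] :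
    (∃ (L : Type) (_ : Group L) (_ : Finite L) (H : Subgroup L), Cfsg.IsFrobeniusComplement H ∧ Nonempty ((A × B) ≃* H)) ↔
    ((∃ (L : Type) (_ : Group L) (_ : Finite L) (H : Subgroup L), Cfsg.IsFrobeniusComplement H ∧ Nonempty (A ≃* H)) ∧
     (∃ (L : Type) (_ : Group L) (_ : Finite L) (H : Subgroup L), Cfsg.IsFrobeniusComplement H ∧ Nonempty (B ≃* H)) ∧
     (Nat.card A).Coprime (Nat.card B)) := by
  constructor
  · rintro ⟨L, _, _, H, hF, ⟨e⟩⟩
    refine ⟨restrict_complement hF e (MonoidHom.inl A B) fun a b h => congrArg Prod.fst h,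
      restrict_complement hF e (MonoidHom.inr A B) fun a b h => congrArg Prod.snd h, ?_⟩
    obtain ⟨m, τ, hm, hτ⟩ := FGS4.FPFMod.exists_int_rep hF e
    exact coprime_of_sumZero hm hτ
  · rintro ⟨⟨L₁, _, _, H₁, hF₁, ⟨e₁⟩⟩, ⟨L₂, _, _, H₂, hF₂, ⟨e₂⟩⟩, hcop⟩
    obtain ⟨mA, τA, hmA, hA⟩ := FGS4.FPFMod.exists_int_rep hF₁ e₁
    obtain ⟨mB, τB, hmB, hB⟩ := FGS4.FPFMod.exists_int_rep hF₂ e₂
    exact tensor hcop hmA hA hmB hB

end Cfsg.Agent.S4292
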