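import Cfsg.Statements.S4297
import Cfsg.Agent.FGS4.FrobeniusFPF
import Mathlib.NumberTheory.PrimesCongruentOne

set_option autoImplicit false
open Cfsg

namespace Cfsg.Agent.S4297

lemma exists_unit_orderOf (k : ℕ) (hk : k ≠ 0) :
    ∃ (p : ℕ) (_ : Fact p.Prime) (ζ : (ZMod p)ˣ), 2 < p ∧ orderOf ζ = k := by
  obtain ⟨p, hp, hlt, hmod⟩ := Nat.exists_prime_gt_modEq_one (k := k) 2 hk
  have := Fact.mk hp
  obtain ⟨g, hg⟩ := IsCyclic.exists_ofOrder_eq_natCard (α := (ZMod p)ˣ)
  rw [Nat.card_eq_fintype_card, ZMod.card_units] at hg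
  have hd : k ∣ p - 1 := (Nat.modEq_iff_dvd' hp.one_le).mp hmod.symm
  refine ⟨p, this, g ^ ((p - 1) / k), hlt, ?_⟩
  rw [orderOf_pow_of_dvd (by
      have := hp.two_le
      exact (Nat.div_pos (Nat.le_of_dvd (by omega) hd) (Nat.pos_of_ne_zero hk)).ne')
    (by rw [hg]; exact Nat.div_dvd_of_dvd hd), hg, Nat.div_div_self hd (by have := hp.two_le; omega)]

/-- For every n ≥ 2 the dicyclic group of order 4n (generated by an element a of order 2n and an element x with x² = aⁿ and x a x⁻¹ = a⁻¹) occurs as a Frobenius complement of some finite Frobenius group. -/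
theorem result (n : ℕ) (hn : 2 ≤ n) :
    ∃ (L : Type) (_ : Group L) (_ : Finite L) (H : Subgroup L), Cfsg.IsFrobeniusComplement H ∧ Nonempty (H ≃* QuaternionGroup n) := by
  obtain ⟨p, hp, ζ, hp2, hζ⟩ := exists_unit_orderOf (2 * n) (by omega)
  have : NeZero n := ⟨by omega⟩
  have : NeZero (2 * n) := ⟨by omega⟩
  have hp0 : (2 : ZMod p) ≠ 0 := by
    intro h
    have h' : ((2 : ℕ) : ZMod p) = 0 := h
    rw [ZMod.natCast_eq_zero_iff] at h'
    exact absurd (Nat.le_of_dvd (by norm_num) h') (by omega)
  let z : ZMod (2 * n) → ZMod p := fun i => ((ζ ^ i.val : (ZMod p)ˣ) : ZMod p)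
  have zadd : ∀ i j, z (i + j) = z i * z j := by
    intro i j
    simp only [z, ← Units.val_mul, ← pow_add, ZMod.val_add]
    have h1 : ζ ^ (2 * n) = 1 := by rw [← hζ]; exact pow_orderOf_eq_one ζ
    exact congrArg Units.val (pow_eq_pow_mod _ h1).symm
  have z0 : z 0 = 1 := by simp [z]
  have zn : z (n : ZMod (2 * n)) = -1 := by
    have hn2 : (n : ZMod (2 * n)).val = n := by rw [ZMod.val_natCast, Nat.mod_eq_of_lt (by omega)]
    simp only [z, hn2]
    have h1 : ((ζ ^ n : (ZMod p)ˣ) : ZMod p) * ((ζ ^ n : (ZMod p)ˣ) : ZMod p) = 1 := by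
      rw [← Units.val_mul, ← pow_add, ← two_mul, ← hζ, pow_orderOf_eq_one, Units.val_one]
    rcases mul_self_eq_one_iff.mp h1 with h | h
    · exfalso
      have := orderOf_dvd_of_pow_eq_one (Units.ext h : ζ ^ n = 1)
      rw [hζ] at this
      exact absurd (Nat.le_of_dvd (by omega) this) (by omega)
    · exact h
  have zneg : ∀ i, z i * z (-i) = 1 := fun i => by rw [← zadd, add_neg_cancel, z0]
  have zsub : ∀ i j, z (i - j) = z i * z (-j) := fun i j => by rw [← zadd, sub_eq_add_neg]
  let ρ : QuaternionGroup n → ZMod p × ZMod p → ZMod p × ZMod p := fun g v =>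
    match g with
    | .a i => (z i * v.1, z (-i) * v.2)
    | .xa i => (-(z (-i) * v.2), z i * v.1)
  have : Nontrivial (QuaternionGroup n) := ⟨⟨.xa 0, 1, fun h => by cases h⟩⟩
  obtain ⟨L, i1, i2, C, hC, ⟨e⟩⟩ := FGS4.exists_complement_of_fpf_add ρ
    (fun m => by
      change (z 0 * m.1, z (-0) * m.2) = m
      simp [z0])
    (fun a b m => by
      cases a with
      | a i =>
        cases b with
        | a j =>
          simp only [ρ, QuaternionGroup.a_mul_a, neg_add_rev, zadd]
          exact Prod.ext (by ring) (by ring)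
        | xa j =>
          simp only [ρ, QuaternionGroup.a_mul_xa, neg_sub, zsub]
          exact Prod.ext (by ring) (by ring)
      | xa i =>
        cases b with
        | a j =>
          simp only [ρ, QuaternionGroup.xa_mul_a, neg_add_rev, zadd]
          exact Prod.ext (by ring) (by ring)
        | xa j =>
          simp only [ρ, QuaternionGroup.xa_mul_xa]
          have e1 : (n : ZMod (2 * n)) + j - i = (n : ZMod (2 * n)) + (j + -i) := by ring
          have e2 : -((n : ZMod (2 * n)) + (j + -i)) = (n : ZMod (2 * n)) + (i + -j) := by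
            have : ((n : ZMod (2 * n)) + n) = 0 := by
              rw [← Nat.cast_add, ← two_mul, ZMod.natCast_self]
            linear_combination -this
          rw [e1, e2, zadd, zadd, zadd, zn, zadd]
          exact Prod.ext (by ring) (by ring))
    (fun a m m' => by
      cases a <;> simp only [ρ, Prod.fst_add, Prod.snd_add, Prod.mk_add_mk]
      · exact Prod.ext (by ring) (by ring)
      · exact Prod.ext (by ring) (by ring))
    (fun h hh v hv => by
      cases h with
      | a i =>
        have hz : z i ≠ 1 := by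
          intro h1
          apply hh
          have := orderOf_dvd_of_pow_eq_one (Units.ext h1 : ζ ^ i.val = 1)
          rw [hζ] at this
          have hlt := ZMod.val_lt i
          have h0 : i.val = 0 := Nat.eq_zero_of_dvd_of_lt this hlt
          rw [QuaternionGroup.one_def, (ZMod.val_eq_zero i).mp h0]
        obtain ⟨h1, h2⟩ := Prod.ext_iff.mp hv
        have hz' : z (-i) ≠ 1 := fun h => hz (by simpa [h] using zneg i)
        exact Prod.ext (by_contra fun h => hz (mul_eq_right₀ h |>.mp h1))
          (by_contra fun h => hz' (mul_eq_right₀ h |>.mp h2))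
      | xa i =>
        obtain ⟨h1, h2⟩ := Prod.ext_iff.mp hv
        simp only [ρ] at h1 h2
        have hd : (2 : ZMod p) * v.1 = 0 := by
          linear_combination -h1 + z (-i) * h2 - v.1 * zneg i
        have hv1 : v.1 = 0 := (mul_eq_zero.mp hd).resolve_left hp0
        refine Prod.ext hv1 ?_
        rw [← h2, hv1, mul_zero]
        rfl)
  exact ⟨L, i1, i2, C, hC, ⟨e.symm⟩⟩

end Cfsg.Agent.S4297
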