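import Cfsg.Statements.S4298
import Cfsg.Agent.FGS4.FrobeniusFPF

set_option autoImplicit false
open Cfsg

namespace Cfsg.Agent.S4298

def code : List ℕ :=
  [0, 0, 0, 0, 0, 0, 0, 0, 0, 0, 0, 0, 0, 0, 0, 105, 369, 431, 0, 0, 0, 45, 349, 411, 0, 0, 0,
   0, 126, 0, 0, 183, 0, 0, 471, 0, 0, 163, 0, 0, 0, 60, 557, 0, 0, 0, 491, 0, 537, 0, 0, 0, 0,
   377, 0, 0, 504, 0, 0, 309, 0, 0, 597, 0, 0, 289, 0, 253, 0, 243, 0, 0, 0, 0, 617, 223, 0, 0,
   0, 90, 0]

/-- The image in the 2x2 matrices over ZMod 5. -/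
def img (g : Matrix.SpecialLinearGroup (Fin 2) (ZMod 3)) : ZMod 5 × ZMod 5 × ZMod 5 × ZMod 5 :=
  let c := code.getD (27 * (g.1 0 0).val + 9 * (g.1 0 1).val + 3 * (g.1 1 0).val + (g.1 1 1).val) 0
  (((c / 125 : ℕ) : ZMod 5), ((c / 25 : ℕ) : ZMod 5), ((c / 5 : ℕ) : ZMod 5), (c : ZMod 5))

def comp (u v : ZMod 5 × ZMod 5 × ZMod 5 × ZMod 5) : ZMod 5 × ZMod 5 × ZMod 5 × ZMod 5 :=
  (u.1 * v.1 + u.2.1 * v.2.2.1, u.1 * v.2.1 + u.2.1 * v.2.2.2,
   u.2.2.1 * v.1 + u.2.2.2 * v.2.2.1, u.2.2.1 * v.2.1 + u.2.2.2 * v.2.2.2)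

set_option maxRecDepth 100000 in
lemma img_one : img 1 = (1, 0, 0, 1) := by decide +kernel

set_option maxRecDepth 100000 in
lemma img_mul : ∀ a b : Matrix.SpecialLinearGroup (Fin 2) (ZMod 3),
    img (a * b) = comp (img a) (img b) := by decide +kernel

set_option maxRecDepth 100000 in
lemma det_ne : ∀ g : Matrix.SpecialLinearGroup (Fin 2) (ZMod 3), g ≠ 1 →
    ((img g).1 - 1) * ((img g).2.2.2 - 1) - (img g).2.1 * (img g).2.2.1 ≠ 0 := by decide +kernel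

/-- The group SL(2,3) of order 24 (the binary tetrahedral group) occurs as a Frobenius complement of some finite Frobenius group. -/
theorem result :
    ∃ (L : Type) (_ : Group L) (_ : Finite L) (H : Subgroup L), Cfsg.IsFrobeniusComplement H ∧ Nonempty (H ≃* Matrix.SpecialLinearGroup (Fin 2) (ZMod 3)) := by
  have : Nontrivial (Matrix.SpecialLinearGroup (Fin 2) (ZMod 3)) :=
    ⟨⟨⟨!![0, 2; 1, 0], by decide⟩, 1, fun h => zero_ne_one (α := ZMod 3)
      (congrArg (fun g : Matrix.SpecialLinearGroup (Fin 2) (ZMod 3) => g.1 0 0) h)⟩⟩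
  have : Fact (Nat.Prime 5) := ⟨by norm_num⟩
  obtain ⟨L, i1, i2, C, hC, ⟨e⟩⟩ := FGS4.exists_complement_of_fpf_add
    (H := Matrix.SpecialLinearGroup (Fin 2) (ZMod 3)) (M := ZMod 5 × ZMod 5)
    (fun g v => ((img g).1 * v.1 + (img g).2.1 * v.2,
      (img g).2.2.1 * v.1 + (img g).2.2.2 * v.2))
    (fun m => by rw [img_one]; simp)
    (fun a b m => by rw [img_mul]; exact Prod.ext (by dsimp only [comp]; ring) (by dsimp only [comp]; ring))
    (fun a m m' => Prod.ext (by simp only [Prod.fst_add, Prod.snd_add]; ring)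
      (by simp only [Prod.fst_add, Prod.snd_add]; ring))
    (fun g hg m hm => by
      have h := det_ne g hg
      obtain ⟨h1, h2⟩ := Prod.ext_iff.mp hm
      dsimp only at h1 h2
      refine Prod.ext ((mul_eq_zero.mp ?_).resolve_left h) ((mul_eq_zero.mp ?_).resolve_left h)
      · linear_combination ((img g).2.2.2 - 1) * h1 - (img g).2.1 * h2
      · linear_combination ((img g).1 - 1) * h2 - (img g).2.2.1 * h1)
  exact ⟨L, i1, i2, C, hC, ⟨e.symm⟩⟩

end Cfsg.Agent.S4298
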