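import Cfsg.Statements.S4299
import Cfsg.Agent.FGS4.FrobeniusFPF
import Mathlib.NumberTheory.PrimesCongruentOne

set_option autoImplicit false
open Cfsg

namespace Cfsg.Agent.S4299

lemma exists_unit_orderOf (k : ℕ) (hk : k ≠ 0) :
    ∃ (p : ℕ) (_ : Fact p.Prime) (ζ : (ZMod p)ˣ), 2 < p ∧ orderOf ζ = k := by
  obtain ⟨p, hp, hlt, hmod⟩ := Nat.exists_prime_gt_modEq_one (k := k) 2 hk
  have := Fact.mk hp
  obtain ⟨g, hg⟩ := IsCyclic.exists_ofOrder_eq_natCard (α := (ZMod p)ˣ)
  rw [Nat.card_eq_fintype_card, ZMod.card_units] at hg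
  have hd : k ∣ p - 1 := (Nat.modEq_iff_dvd' hp.one_le).mp hmod.symm
  refine ⟨p, this, g ^ ((p - 1) / k), hlt, ?_⟩
  rw [orderOf_pow_of_dvd (by
      have := hp.two_le
      exact (Nat.div_pos (Nat.le_of_dvd (by omega) hd) (Nat.pos_of_ne_zero hk)).ne')
    (by rw [hg]; exact Nat.div_dvd_of_dvd hd), hg, Nat.div_div_self hd (by have := hp.two_le; omega)]

/-- Every nontrivial finite cyclic group occurs as a Frobenius complement of some finite Frobenius group. -/
theorem result {C : Type*} [Group C] [Finite C] [IsCyclic C] [Nontrivial C] :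
    ∃ (L : Type) (_ : Group L) (_ : Finite L) (H : Subgroup L), Cfsg.IsFrobeniusComplement H ∧ Nonempty (C ≃* H) := by
  obtain ⟨p, hp, ζ, hp2, hζ⟩ := exists_unit_orderOf (Nat.card C) Nat.card_pos.ne'
  obtain ⟨g, hg⟩ := IsCyclic.exists_generator (α := C)
  have hgo : orderOf g = Nat.card C := orderOf_eq_card_of_forall_mem_zpowers hg
  let f : C →* (ZMod p)ˣ := monoidHomOfForallMemZpowers hg (g' := ζ) (by rw [hζ, hgo])
  have hf : Function.Injective f := by
    rw [← MonoidHom.ker_eq_bot_iff, eq_bot_iff]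
    intro x hx
    obtain ⟨m, rfl⟩ := Subgroup.mem_zpowers_iff.mp (hg x)
    rw [MonoidHom.mem_ker, map_zpow, monoidHomOfForallMemZpowers_apply_gen] at hx
    rw [Subgroup.mem_bot]
    apply orderOf_dvd_iff_zpow_eq_one.mp
    rw [hgo, ← hζ]; exact orderOf_dvd_iff_zpow_eq_one.mpr hx
  refine FGS4.exists_complement_of_fpf_add (H := C) (M := ZMod p)
    (fun c m => (f c : ZMod p) * m) (by simp) (by simp [mul_assoc]) (by simp [mul_add]) ?_
  intro c hc m hm
  by_contra hm0
  exact hc (hf (by rw [map_one]; exact Units.ext (mul_eq_right₀ hm0 |>.mp hm)))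

end Cfsg.Agent.S4299
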