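import Cfsg.Statements.S4300


set_option autoImplicit false
open Cfsg

namespace Cfsg.Agent.S4300

/-- Let G act faithfully and primitively on a set X, and suppose the stabilizer of some point is a simple group. Then either G is simple, or G has a normal subgroup, neither trivial nor the whole group, that acts regularly on X (transitively with trivial point stabilizers). -/
theorem result {G : Type*} [Group G] {X : Type*} [MulAction G X] [FaithfulSMul G X]
    (hprim : MulAction.IsPreprimitive G X) (x : X) (hsimple : IsSimpleGroup (MulAction.stabilizer G x)) :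
    IsSimpleGroup G ∨ ∃ N : Subgroup G, N.Normal ∧ N ≠ ⊥ ∧ N ≠ ⊤ ∧
      MulAction.IsPretransitive N X ∧ ∀ y : X, MulAction.stabilizer N y = ⊥ := by
  rw [or_iff_not_imp_left]
  intro hns
  have hnt : Nontrivial G := by
    obtain ⟨a, ha⟩ := exists_ne (1 : MulAction.stabilizer G x)
    exact ⟨⟨a, 1, fun h => ha (Subtype.ext h)⟩⟩
  obtain ⟨N, hN, hN0, hN1⟩ : ∃ N : Subgroup G, N.Normal ∧ N ≠ ⊥ ∧ N ≠ ⊤ := by
    by_contra h
    push Not at h
    exact hns ⟨fun N hN => or_iff_not_imp_left.mpr (h N hN)⟩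
  have hfix : MulAction.fixedPoints N X ≠ Set.univ := by
    intro h
    obtain ⟨n, hn, hn1⟩ := (Subgroup.bot_or_exists_ne_one N).resolve_left hN0
    exact hn1 (FaithfulSMul.eq_of_smul_eq_smul fun y : X => by
      rw [one_smul]; exact MulAction.mem_fixedPoints.mp (h ▸ Set.mem_univ y) ⟨n, hn⟩)
  have htr : MulAction.IsPretransitive N X := MulAction.IsQuasiPreprimitive.isPretransitive_of_normal hfix
  have hbot : N.subgroupOf (MulAction.stabilizer G x) = ⊥ := by
    refine ((inferInstance : (N.subgroupOf (MulAction.stabilizer G x)).Normal).eq_bot_or_eq_top).resolve_right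
      fun h => hN1 ?_
    rw [Subgroup.subgroupOf_eq_top] at h
    rw [eq_top_iff]
    intro g _
    obtain ⟨⟨n, hn⟩, hnx⟩ := MulAction.exists_smul_eq N x (g • x)
    have hs : n⁻¹ * g ∈ MulAction.stabilizer G x := by
      rw [MulAction.mem_stabilizer_iff, mul_smul, inv_smul_eq_iff]
      exact hnx.symm
    simpa using N.mul_mem hn (h hs)
  refine ⟨N, hN, hN0, hN1, htr, fun y => ?_⟩
  rw [eq_bot_iff]
  rintro ⟨n, hn⟩ hny
  obtain ⟨⟨a, ha⟩, hax⟩ := MulAction.exists_smul_eq N x y
  have hy : n • y = y := hny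
  have hax' : a • x = y := hax
  have hs : a⁻¹ * n * a ∈ MulAction.stabilizer G x := by
    rw [MulAction.mem_stabilizer_iff, mul_smul, mul_smul, hax', hy, inv_smul_eq_iff, hax']
  have h2 : (⟨_, hs⟩ : MulAction.stabilizer G x) ∈ N.subgroupOf (MulAction.stabilizer G x) :=
    N.mul_mem (N.mul_mem (N.inv_mem ha) hn) ha
  rw [hbot, Subgroup.mem_bot] at h2
  rw [Subgroup.mem_bot]
  apply Subtype.ext
  change n = 1
  have h3 : a⁻¹ * n * a = 1 := congrArg Subtype.val h2
  calc n = a * (a⁻¹ * n * a) * a⁻¹ := by group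
    _ = 1 := by rw [h3]; group

end Cfsg.Agent.S4300
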