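import Cfsg.Statements.S4301


set_option autoImplicit false
open Cfsg

namespace Cfsg.Agent.S4301

/-- One-point extension of a multiply transitive group. Let X be a set and G a group of permutations of Option X (the set X with one extra point ∗ = none) all of whose elements fix ∗, such that G is k-transitive on the points of X for some k ≥ 2, X having at least k points. Suppose a permutation h of Option X and an element g of G satisfy: h interchanges ∗ with a point x of X and fixes a point y of X; g interchanges x and y; (g h)³ and h² lie in G; and for every f in G fixing x, the product h f h lies in G and fixes x. Then an element of the group generated by G and h fixes ∗ exactly when it lies in G, and that group acts (k+1)-transitively on Option X. -/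
theorem result {X : Type*} (G : Subgroup (Equiv.Perm (Option X))) (hfix : ∀ f ∈ G, f none = none)
    (k : ℕ) (hk : 2 ≤ k) (hkX : Nonempty (Fin k ↪ X))
    (htrans : ∀ a b : Fin k ↪ X, ∃ f ∈ G, ∀ i, f (some (a i)) = some (b i))
    (h g : Equiv.Perm (Option X)) (hg : g ∈ G) (x y : X)
    (h1 : h none = some x) (h2 : h (some x) = none) (h3 : h (some y) = some y)
    (h4 : g (some x) = some y) (h5 : g (some y) = some x)
    (h6 : (g * h) ^ 3 ∈ G) (h7 : h ^ 2 ∈ G)
    (h8 : ∀ f ∈ G, f (some x) = some x → h * f * h ∈ G ∧ (h * f * h) (some x) = some x) :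
    (∀ f ∈ Subgroup.closure ((G : Set (Equiv.Perm (Option X))) ∪ {h}), f none = none ↔ f ∈ G) ∧
      MulAction.IsMultiplyPretransitive (Subgroup.closure ((G : Set (Equiv.Perm (Option X))) ∪ {h})) (Option X) (k + 1) := by
  have hGS : ∀ f ∈ G, f none = none := hfix
  obtain ⟨e₀⟩ := hkX
  have hemb : ∀ u v : X, u ≠ v → ∃ e : Fin k ↪ X, e ⟨0, by omega⟩ = u ∧ e ⟨1, by omega⟩ = v := by
    classical
    intro u v huv
    let e1 := e₀.trans (Equiv.swap (e₀ ⟨0, by omega⟩) u).toEmbedding
    have h10 : e1 ⟨0, by omega⟩ = u := by simp [e1]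
    have h11 : e1 ⟨1, by omega⟩ ≠ u := fun h => by
      have := e1.injective (h.trans h10.symm)
      simp at this
    refine ⟨e1.trans (Equiv.swap (e1 ⟨1, by omega⟩) v).toEmbedding, ?_, by simp⟩
    simp [h10, Equiv.swap_apply_of_ne_of_ne h11.symm huv]
  have htwo : ∀ u v u' v' : X, u ≠ v → u' ≠ v' → ∃ f ∈ G, f (some u) = some u' ∧ f (some v) = some v' := by
    intro u v u' v' huv huv'
    obtain ⟨a, ha0, ha1⟩ := hemb u v huv
    obtain ⟨b, hb0, hb1⟩ := hemb u' v' huv'
    obtain ⟨f, hf, hfa⟩ := htrans a b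
    exact ⟨f, hf, by rw [← ha0, hfa, hb0], by rw [← ha1, hfa, hb1]⟩
  have hxy : x ≠ y := fun e => by
    rw [← e, h2] at h3
    exact Option.some_ne_none x h3.symm
  let D : Set (Equiv.Perm (Option X)) := {u | ∃ a ∈ G, ∃ b ∈ G, u = a * h * b}
  have hinvD : h⁻¹ ∈ D := ⟨1, G.one_mem, (h ^ 2)⁻¹, G.inv_mem h7, by rw [pow_two]; group⟩
  have hDmul : ∀ a ∈ G, ∀ u ∈ D, a * u ∈ D := fun a ha u ⟨c, hc, d, hd, e⟩ =>
    ⟨a * c, G.mul_mem ha hc, d, hd, by rw [e]; group⟩
  have hDmul' : ∀ a ∈ G, ∀ u ∈ D, u * a ∈ D := fun a ha u ⟨c, hc, d, hd, e⟩ =>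
    ⟨c, hc, d * a, G.mul_mem hd ha, by rw [e]; group⟩
  have hhfh : ∀ f ∈ G, h * f * h ∈ (G : Set (Equiv.Perm (Option X))) ∪ D := by
    intro f hf
    by_cases hfx : f (some x) = some x
    · exact Or.inl (h8 f hf hfx).1
    · right
      obtain ⟨z, hz⟩ : ∃ z, f (some x) = some z := by
        rcases hv : f (some x) with _ | z
        · exact absurd (f.injective (hv.trans (hGS f hf).symm)) (Option.some_ne_none x)
        · exact ⟨z, rfl⟩
      have hzx : z ≠ x := fun e => hfx (by rw [hz, e])
      obtain ⟨a, ha, hax, hay⟩ := htwo x y x z hxy hzx.symm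
      let b := g⁻¹ * a⁻¹ * f
      have hb : b ∈ G := G.mul_mem (G.mul_mem (G.inv_mem hg) (G.inv_mem ha)) hf
      have hbx : b (some x) = some x := by
        have : a * g * b = f := by simp [b, mul_assoc]
        have h' := congrArg (fun u : Equiv.Perm (Option X) => u (some x)) this
        simp only [Equiv.Perm.mul_apply, hz, ← hay, ← h4] at h'
        exact g.injective (a.injective h')
      have hhgh : h * g * h ∈ D := ⟨g⁻¹ * ((g * h) ^ 3 * (h ^ 2)⁻¹),
        G.mul_mem (G.inv_mem hg) (G.mul_mem h6 (G.inv_mem h7)), g⁻¹, G.inv_mem hg,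
        by rw [pow_three, pow_two]; group⟩
      have e : h * f * h = (h * a * h) * ((h ^ 2)⁻¹ * (h * g * h) * (h ^ 2)⁻¹) * (h * b * h) := by
        simp only [b, pow_two]; group
      rw [e]
      exact hDmul' _ (h8 b hb hbx).1 _ (hDmul _ (h8 a ha hax).1 _
        (hDmul' _ (G.inv_mem h7) _ (hDmul _ (G.inv_mem h7) _ hhgh)))
  let K : Subgroup (Equiv.Perm (Option X)) :=
    { carrier := (G : Set (Equiv.Perm (Option X))) ∪ D
      one_mem' := Or.inl G.one_mem
      mul_mem' := by
        rintro u v (hu | hu) (hv | hv)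
        · exact Or.inl (G.mul_mem hu hv)
        · exact Or.inr (hDmul u hu v hv)
        · exact Or.inr (hDmul' v hv u hu)
        · obtain ⟨a, ha, b, hb, rfl⟩ := hu
          obtain ⟨c, hc, d, hd, rfl⟩ := hv
          have e : a * h * b * (c * h * d) = a * (h * (b * c) * h) * d := by group
          rw [e]
          rcases hhfh _ (G.mul_mem hb hc) with h' | h'
          · exact Or.inl (G.mul_mem (G.mul_mem ha h') hd)
          · exact Or.inr (hDmul' d hd _ (hDmul a ha _ h'))
      inv_mem' := by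
        rintro u (hu | hu)
        · exact Or.inl (G.inv_mem hu)
        · obtain ⟨a, ha, b, hb, rfl⟩ := hu
          refine Or.inr ?_
          rw [mul_inv_rev, mul_inv_rev, ← mul_assoc]
          exact hDmul' _ (G.inv_mem ha) _ (hDmul _ (G.inv_mem hb) _ hinvD) }
  have hle : Subgroup.closure ((G : Set (Equiv.Perm (Option X))) ∪ {h}) ≤ K := by
    rw [Subgroup.closure_le]
    rintro u (hu | hu)
    · exact Or.inl hu
    · exact Or.inr ⟨1, G.one_mem, 1, G.one_mem, by simpa using hu⟩
  set H := Subgroup.closure ((G : Set (Equiv.Perm (Option X))) ∪ {h}) with hH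
  have hGH : ∀ f ∈ G, f ∈ H := fun f hf => Subgroup.subset_closure (Or.inl hf)
  have hhH : h ∈ H := Subgroup.subset_closure (Or.inr rfl)
  refine ⟨fun f hf => ⟨fun hfn => ?_, hfix f⟩, ⟨fun a b => ?_⟩⟩
  · rcases hle hf with h' | ⟨c, hc, d, hd, rfl⟩
    · exact h'
    · exfalso
      rw [Equiv.Perm.mul_apply, Equiv.Perm.mul_apply, hGS d hd, h1] at hfn
      exact Option.some_ne_none x (c.injective (hfn.trans (hGS c hc).symm))
  · have hred : ∀ a : Fin (k + 1) ↪ Option X, ∃ u : H, ∃ a' : Fin k ↪ X,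
        (u • a) 0 = none ∧ ∀ i : Fin k, (u • a) i.succ = some (a' i) := by
      intro a
      obtain ⟨u, hu⟩ : ∃ u : H, (u : Equiv.Perm (Option X)) (a 0) = none := by
        rcases hv : a 0 with _ | z
        · exact ⟨1, rfl⟩
        · by_cases hzx : z = x
          · exact ⟨⟨h, hhH⟩, by rw [hzx]; exact h2⟩
          · obtain ⟨f, hf, hfz, -⟩ := htwo z x x z hzx (Ne.symm hzx)
            exact ⟨⟨h * f, H.mul_mem hhH (hGH f hf)⟩, by simp [hfz, h2]⟩
      have hs : ∀ i : Fin k, ∃ z, (u • a) i.succ = some z := by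
        intro i
        rcases hv : (u • a) i.succ with _ | z
        · exact absurd ((u • a).injective (hv.trans hu.symm)) (Fin.succ_ne_zero i)
        · exact ⟨z, rfl⟩
      choose a' ha' using hs
      refine ⟨u, ⟨a', fun i j hij => ?_⟩, hu, ha'⟩
      exact Fin.succ_injective _ ((u • a).injective (by rw [ha', ha', hij]))
    obtain ⟨u, a', hu0, hus⟩ := hred a
    obtain ⟨v, b', hv0, hvs⟩ := hred b
    obtain ⟨f, hf, hfab⟩ := htrans a' b'
    refine ⟨v⁻¹ * ⟨f, hGH f hf⟩ * u, ?_⟩
    ext1 i
    change (↑v : Equiv.Perm (Option X))⁻¹ (f ((u : Equiv.Perm (Option X)) (a i))) = b i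
    rw [Equiv.Perm.inv_def, Equiv.symm_apply_eq]
    refine Fin.cases ?_ (fun j => ?_) i
    · change f ((u • a) 0) = (v • b) 0
      rw [hu0, hv0, hGS f hf]
    · change f ((u • a) j.succ) = (v • b) j.succ
      rw [hus, hvs, hfab]

end Cfsg.Agent.S4301
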