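import Cfsg.Statements.S4303
import Cfsg.Agent.FGS4.SylowNumber
import Cfsg.Agent.Coprime.Action

set_option autoImplicit false
universe u
open Cfsg

namespace Cfsg.Agent.S4303

open Subgroup

theorem relIndex_sup_normal {G : Type*} [Group G] [Finite G] (H N : Subgroup G) [N.Normal] :
    H.relIndex (H ⊔ N) = H.relIndex N := by
  have h1 := relIndex_mul_relIndex ⊥ (H ⊓ N) H bot_le inf_le_left
  have h2 := relIndex_mul_relIndex ⊥ (H ⊓ N) N bot_le inf_le_right
  have h3 := relIndex_mul_relIndex ⊥ N (H ⊔ N) bot_le le_sup_right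
  have h4 := relIndex_mul_relIndex ⊥ H (H ⊔ N) bot_le le_sup_left
  rw [relIndex_bot_left, relIndex_bot_left, inf_relIndex_left] at h1
  rw [relIndex_bot_left, relIndex_bot_left, inf_relIndex_right] at h2
  rw [relIndex_bot_left, relIndex_bot_left, relIndex_sup_right] at h3
  rw [relIndex_bot_left, relIndex_bot_left] at h4
  apply mul_left_cancel₀ (Nat.card_pos (α := H)).ne'
  calc Nat.card H * H.relIndex (H ⊔ N) = Nat.card (H ⊔ N : Subgroup G) := h4
    _ = Nat.card N * N.relIndex H := h3.symm
    _ = Nat.card H * H.relIndex N := by rw [← h2, ← h1]; ring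

/-- If `L` is generated by `P` and a subgroup `R` that `P` normalizes, then
`n_p(L) = [R : N_R(P)]`. -/
theorem card_sylow_sup {G : Type*} [Group G] [Finite G] {p : ℕ} [Fact p.Prime] (P : Sylow p G)
    (R : Subgroup G) (hR : (P : Subgroup G) ≤ Subgroup.normalizer (R : Set G)) :
    Nat.card (Sylow p ↥((P : Subgroup G) ⊔ R)) =
      (Subgroup.normalizer ((P : Subgroup G) : Set G)).relIndex R := by
  set L := (P : Subgroup G) ⊔ R with hL
  haveI : (R.subgroupOf L).Normal :=
    normal_subgroupOf_of_le_normalizer (sup_le hR Subgroup.le_normalizer)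
  set H := (Subgroup.normalizer ((P : Subgroup G) : Set G)).subgroupOf L with hH
  have htop : H ⊔ R.subgroupOf L = ⊤ := by
    rw [eq_top_iff]
    have h : (P : Subgroup G).subgroupOf L ⊔ R.subgroupOf L = ⊤ := by
      rw [← subgroupOf_sup le_sup_left le_sup_right, subgroupOf_self]
    rw [← h]
    exact sup_le_sup_right (comap_mono Subgroup.le_normalizer) _
  have h1 : Nat.card (Sylow p L) = H.index := by
    rw [(P.subtype (le_sup_left (b := R))).card_eq_index_normalizer]
    congr 1
    exact (subgroupOf_normalizer_eq le_sup_left).symm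
  rw [h1, ← relIndex_top_right, ← htop, relIndex_sup_normal, hH,
    relIndex_subgroupOf le_sup_right]

theorem coprime_case {G : Type*} [Group G] [Finite G] {p : ℕ} [hp : Fact p.Prime] (P : Sylow p G)
    (K : Subgroup G) [K.Normal] (hQ : (P : Subgroup G) ⊓ K = ⊥) (hL : (P : Subgroup G) ⊔ K = ⊤)
    (r : ℕ) [hr : Fact r.Prime] :
    r ^ (Nat.card (Sylow p G)).factorization r ≡ 1 [MOD p] := by
  set NP := Subgroup.normalizer ((P : Subgroup G) : Set G) with hNP
  have hPK : (P : Subgroup G) ≤ Subgroup.normalizer (K : Set G) := by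
    rw [normalizer_eq_top]; exact le_top
  have hn : Nat.card (Sylow p G) = NP.relIndex K := by
    rw [← card_sylow_sup P K hPK, hL]
    exact ((FGS4.card_sylow_le ⊤ P le_top).symm.trans
      (Nat.card_congr (Equiv.subtypeUnivEquiv fun _ => le_top))).symm
  have hcopK : ¬ p ∣ Nat.card K := by
    have h := FGS4.not_dvd_index_subgroupOf_normal K P
    rwa [show ((P : Subgroup G).subgroupOf K).index = Nat.card K by
      rw [← relIndex_bot_left (H := K), ← hQ, inf_relIndex_right]; rfl] at h
  obtain ⟨k, hk⟩ := IsPGroup.iff_card.mp P.2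
  have hcop : (Nat.card (P : Subgroup G)).Coprime (Nat.card K) := by
    rw [hk]; exact Nat.Coprime.pow_left _ (hp.out.coprime_iff_not_dvd.mpr hcopK)
  haveI := P.2.isNilpotent
  set C := K ⊓ NP with hC
  have hcent : ∀ a ∈ (P : Subgroup G), ∀ c ∈ C, a * c * a⁻¹ = c := by
    rintro a ha c ⟨hcK, hcN⟩
    have h1 : a * c * a⁻¹ * c⁻¹ ∈ K :=
      K.mul_mem (‹K.Normal›.conj_mem c hcK a) (K.inv_mem hcK)
    have h2 : a * c * a⁻¹ * c⁻¹ ∈ (P : Subgroup G) := by
      have := (Subgroup.mem_normalizer_iff.mp hcN a⁻¹).mp (inv_mem ha)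
      have := mul_mem ha this
      simpa [mul_assoc] using this
    have : a * c * a⁻¹ * c⁻¹ ∈ (P : Subgroup G) ⊓ K := ⟨h2, h1⟩
    rwa [hQ, mem_bot, mul_inv_eq_one] at this
  obtain ⟨S⟩ := (inferInstance : Nonempty (Sylow r C))
  set R₀ := (S : Subgroup C).map C.subtype with hR₀
  have hR₀C : R₀ ≤ C := map_subtype_le _
  have hR₀i : ¬ r ∣ R₀.relIndex C := by
    rw [Subgroup.relIndex, show R₀.subgroupOf C = (S : Subgroup C) from
      comap_map_eq_self_of_injective C.subtype_injective _]
    exact S.not_dvd_index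
  have hPR₀ : (P : Subgroup G) ≤ Subgroup.normalizer (R₀ : Set G) := fun a ha =>
    Coprime.mem_normalizer_of_conj_mem fun y hy => by rwa [hcent a ha y (hR₀C hy)]
  obtain ⟨R, hR₀R, hRK, hR, hRi, hPR⟩ := Coprime.exists_invariant_sylow_ge hPK hcop
    (hR₀C.trans inf_le_left) (S.2.map _) hPR₀
  -- `R ⊓ C` is `R₀`
  have hRC : R ⊓ C = R₀ := by
    refine le_antisymm ?_ (le_inf hR₀R hR₀C)
    have hpg : IsPGroup r ((R ⊓ C).subgroupOf C) := (hR.to_le inf_le_left).comap_subtype
    have hle : (S : Subgroup C) ≤ (R ⊓ C).subgroupOf C := fun x hx =>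
      ⟨hR₀R ⟨x, hx, rfl⟩, x.2⟩
    have heq := S.is_maximal' hpg hle
    intro x hx
    have hxs : (⟨x, hx.2⟩ : C) ∈ (R ⊓ C).subgroupOf C := hx
    rw [heq] at hxs
    exact ⟨_, hxs, rfl⟩
  have hm : NP.relIndex R = R₀.relIndex R := by
    rw [← hRC, inf_relIndex_left, ← inf_relIndex_right C, hC, inf_assoc, inf_comm NP R,
      ← inf_assoc, inf_eq_right.mpr hRK, inf_comm, inf_relIndex_right]
  obtain ⟨j, hj⟩ := IsPGroup.iff_card.mp hR
  obtain ⟨b, -, hb⟩ := (Nat.dvd_prime_pow hr.out).mp
    (hj ▸ relIndex_dvd_card R₀ R : R₀.relIndex R ∣ r ^ j)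
  have hb1 : r ^ b ≡ 1 [MOD p] := by
    rw [← hb, ← hm, ← card_sylow_sup P R hPR]; exact card_sylow_modEq_one p _
  -- the `r`-part of `n_p` is `r ^ b`
  have e1 := relIndex_mul_relIndex R₀ C K hR₀C inf_le_left
  have e2 := relIndex_mul_relIndex R₀ R K hR₀R hRK
  have hCK : C.relIndex K = Nat.card (Sylow p G) := by
    rw [hn, hC, inf_relIndex_left]
  have h0 : ∀ A B : Subgroup G, A.relIndex B ≠ 0 := fun A B => Nat.card_pos.ne'
  have e3 := congrArg (fun x => Nat.factorization x r) (e1.trans e2.symm)
  simp only [Nat.factorization_mul (h0 _ _) (h0 _ _), Finsupp.add_apply] at e3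
  rw [Nat.factorization_eq_zero_of_not_dvd hR₀i, Nat.factorization_eq_zero_of_not_dvd hRi,
    hb, hr.out.factorization_pow, Finsupp.single_eq_same, zero_add, add_zero, hCK] at e3
  rwa [e3]

universe v

theorem factors : ∀ (n : ℕ) (G : Type v) [Group G] [Finite G], Nat.card G ≤ n →
    ∀ (p : ℕ) [Fact p.Prime], ∃ l : List ℕ, l.prod = Nat.card (Sylow p G) ∧
      ∀ m ∈ l, (IsPrimePow m ∧ m % p = 1) ∨
        ∃ (S : Type v) (_ : Group S) (_ : Finite S),
          IsSimpleGroup S ∧ m = Nat.card (Sylow p S) := by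
  intro n
  induction n with
  | zero => intro G _ _ h; exact absurd h (Nat.card_pos (α := G)).not_ge
  | succ n ih =>
    intro G _ _ hn p hp
    obtain ⟨P⟩ := (inferInstance : Nonempty (Sylow p G))
    cases subsingleton_or_nontrivial G with
    | inl h =>
      haveI : Subsingleton (Sylow p G) := ⟨fun a b => Sylow.ext (Subsingleton.elim _ _)⟩
      exact ⟨[], by rw [Nat.card_of_subsingleton P]; rfl, by simp⟩
    | inr h =>
      by_cases hs : ∀ K : Subgroup G, K.Normal → K = ⊥ ∨ K = ⊤
      · refine ⟨[Nat.card (Sylow p G)], by simp, fun m hm => Or.inr ⟨G, inferInstance, inferInstance,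
          { eq_bot_or_eq_top_of_normal := hs }, by simpa using hm⟩⟩
      · push Not at hs
        obtain ⟨K, hK, hK0, hK1⟩ := hs
        by_cases hhard : (P : Subgroup G) ⊓ K = ⊥ ∧ (P : Subgroup G) ⊔ K = ⊤
        · set m := Nat.card (Sylow p G) with hm
          refine ⟨m.primeFactors.toList.map fun r => r ^ m.factorization r, ?_, ?_⟩
          · rw [Finset.prod_map_toList]
            exact Nat.prod_factorization_pow_eq_self Nat.card_pos.ne'
          · intro x hx
            obtain ⟨r, hr, rfl⟩ := List.mem_map.mp hx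
            rw [Finset.mem_toList] at hr
            have hrp := Nat.prime_of_mem_primeFactors hr
            haveI := Fact.mk hrp
            refine Or.inl ⟨hrp.prime.isPrimePow.pow (Finsupp.mem_support_iff.mp
              (by rwa [Nat.support_factorization])), ?_⟩
            have := coprime_case P K hhard.1 hhard.2 r
            rwa [Nat.ModEq, Nat.mod_eq_of_lt hp.out.one_lt] at this
        · set N := ((P : Subgroup G) ⊔ K) ⊓
            Subgroup.normalizer (((P : Subgroup G) ⊓ K : Subgroup G) : Set G) with hN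
          haveI : (((P : Subgroup G) ⊓ K).subgroupOf N).Normal :=
            normal_subgroupOf_of_le_normalizer inf_le_right
          have hGK := card_eq_card_quotient_mul_card_subgroup K
          have hKpos := Nat.card_pos (α := G ⧸ K)
          have hK2 : 1 < Nat.card K := (one_lt_card_iff_ne_bot K).mpr hK0
          have hKlt : Nat.card K < Nat.card G :=
            lt_of_le_of_ne (card_le_card_group K) fun e => hK1 (eq_top_of_card_eq K e)
          have hlt : Nat.card (N ⧸ ((P : Subgroup G) ⊓ K).subgroupOf N) < Nat.card G := by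
            have h1 := card_eq_card_quotient_mul_card_subgroup (((P : Subgroup G) ⊓ K).subgroupOf N)
            have h2 := card_le_card_group N
            have hQpos := Nat.card_pos (α := (((P : Subgroup G) ⊓ K).subgroupOf N))
            have hpos := Nat.card_pos (α := N ⧸ ((P : Subgroup G) ⊓ K).subgroupOf N)
            rcases not_and_or.mp hhard with hQ | hL
            · have h3 : 1 < Nat.card (((P : Subgroup G) ⊓ K).subgroupOf N) := by
                rw [Nat.card_congr (subgroupOfEquivOfLe (show (P : Subgroup G) ⊓ K ≤ N from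
                  le_inf (inf_le_left.trans le_sup_left) Subgroup.le_normalizer)).toEquiv]
                exact (one_lt_card_iff_ne_bot _).mpr hQ
              calc _ < Nat.card (N ⧸ ((P : Subgroup G) ⊓ K).subgroupOf N) *
                    Nat.card (((P : Subgroup G) ⊓ K).subgroupOf N) := lt_mul_of_one_lt_right hpos h3
                _ ≤ _ := h1 ▸ h2
            · have h3 : Nat.card N < Nat.card G :=
                lt_of_le_of_ne h2 fun e => hL (top_le_iff.mp ((eq_top_of_card_eq N e).ge.trans inf_le_left))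
              exact lt_of_le_of_lt (h1 ▸ Nat.le_mul_of_pos_right _ hQpos) h3
          obtain ⟨l1, e1, p1⟩ := ih (G ⧸ K)
            (Nat.lt_succ_iff.mp (lt_of_lt_of_le (by rw [hGK]; exact lt_mul_of_one_lt_right hKpos hK2) hn)) p
          obtain ⟨l2, e2, p2⟩ := ih K (Nat.lt_succ_iff.mp (lt_of_lt_of_le hKlt hn)) p
          obtain ⟨l3, e3, p3⟩ := ih _ (Nat.lt_succ_iff.mp (lt_of_lt_of_le hlt hn)) p
          refine ⟨l1 ++ l2 ++ l3, ?_, fun m hm => ?_⟩
          · rw [FGS4.card_sylow_product_formula K P N hN, List.prod_append, List.prod_append,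
              e1, e2, e3]
          · rcases List.mem_append.mp hm with hm | hm
            · exact (List.mem_append.mp hm).elim (p1 m) (p2 m)
            · exact p3 m hm


/-- For a finite group `G` and a prime `p`, the number of Sylow `p`-subgroups of `G` is a product of natural numbers each of which is either a prime power congruent to 1 modulo `p` or the number of Sylow `p`-subgroups of some finite simple group. -/
theorem result {G : Type u} [Group G] [Finite G]
    (p : ℕ) [Fact p.Prime] :
    ∃ l : List ℕ, l.prod = Nat.card (Sylow p G) ∧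
      ∀ m ∈ l, (IsPrimePow m ∧ m % p = 1) ∨
        ∃ (S : Type u) (_ : Group S) (_ : Finite S), IsSimpleGroup S ∧ m = Nat.card (Sylow p S) := by
  exact factors (Nat.card G) G le_rfl p

end Cfsg.Agent.S4303
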