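import Cfsg.Statements.S4305
import Cfsg.Agent.Transfer.S3Main

set_option autoImplicit false
open Cfsg

namespace Cfsg.Agent.S4305

/-- Let the symmetric group of degree 3 act by automorphisms on a finite solvable group `G` of order prime to 6, so that only the identity of `G` is fixed by all of it. Then the derived subgroup of `G` is nilpotent. -/
theorem result {G : Type*} [Group G] [Finite G] [Group.IsSolvable G]
    [MulDistribMulAction (Equiv.Perm (Fin 3)) G] (hcop : (Nat.card G).Coprime 6)
    (hfpf : ∀ g : G, (∀ a : Equiv.Perm (Fin 3), a • g = g) → g = 1) :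
    Group.IsNilpotent ↥(commutator G) := by
  classical
  have hcard : Nat.card (Equiv.Perm (Fin 3)) = 3 * 2 := by
    rw [Nat.card_perm, Nat.card_eq_fintype_card, Fintype.card_fin]; rfl
  obtain ⟨σ, hσ⟩ := Transfer.PQ.exists_isPQ (A := Equiv.Perm (Fin 3)) Nat.prime_three Nat.prime_two (by norm_num)
    hcard (fun hc => absurd (hc.1.1 (Equiv.swap 0 1) (Equiv.swap 1 2)) (by decide))
  refine Transfer.S3.derived_nilpotent hσ inferInstance (MulDistribMulAction.toMulAut _ G) (fun h => ?_) (fun h => ?_)
    (fun g hg => hfpf g hg)
  · exact absurd (Nat.eq_one_of_dvd_coprimes hcop h (by norm_num)) (by norm_num)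
  · exact absurd (Nat.eq_one_of_dvd_coprimes hcop h (by norm_num)) (by norm_num)

end Cfsg.Agent.S4305
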