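import Cfsg.Statements.S4306
import Cfsg.Agent.Transfer.PQMain

set_option autoImplicit false
open Cfsg

namespace Cfsg.Agent.S4306

/-- Let `A` be a non-abelian group of order `pq` with `p, q` distinct primes, acting by automorphisms on a finite solvable group `G` of order prime to `pq`, so that only the identity of `G` is fixed by all of `A`. Then `G` has Fitting height at most 2: there is a normal nilpotent subgroup `F` of `G` with `G/F` nilpotent. -/
theorem result {G A : Type*} [Group G] [Finite G]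
    [Group.IsSolvable G] [Group A] [Finite A] [MulDistribMulAction A G] (p q : ℕ) (hp : p.Prime) (hq : q.Prime) (hpq : p ≠ q)
    (hA : Nat.card A = p * q) (hAna : ¬ IsMulCommutative A) (hcop : (Nat.card G).Coprime (p * q))
    (hfpf : ∀ g : G, (∀ a : A, a • g = g) → g = 1) :
    ∃ F : Subgroup G, ∃ hF : F.Normal, Group.IsNilpotent ↥F ∧ Group.IsNilpotent (G ⧸ F) := by
  classical
  have key : ∀ {P O : ℕ} {σ : A}, Transfer.PQ.IsPQ P O σ → ¬ P ∣ Nat.card G → ¬ O ∣ Nat.card G →
      ∃ F : Subgroup G, ∃ hF : F.Normal, Group.IsNilpotent ↥F ∧ Group.IsNilpotent (G ⧸ F) := by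
    intro P O σ h hP hO
    obtain ⟨k, hk⟩ := h.fitting_height_le_two (G := G) inferInstance (MulDistribMulAction.toMulAut A G) hP hO
      (fun g hg => hfpf g hg)
    refine ⟨(⊤ : Subgroup G).lowerCentralSeries k, inferInstance, hk, ?_⟩
    refine Subgroup.nilpotent_iff_lowerCentralSeries.mpr ⟨k, ?_⟩
    rw [← Subgroup.map_top_of_surjective _ (QuotientGroup.mk'_surjective _), ← Subgroup.map_lowerCentralSeries,
      QuotientGroup.map_mk'_self]
  have hnp : ¬ p ∣ Nat.card G := fun h => hp.ne_one
    (Nat.eq_one_of_dvd_coprimes hcop h (dvd_mul_right p q))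
  have hnq : ¬ q ∣ Nat.card G := fun h => hq.ne_one
    (Nat.eq_one_of_dvd_coprimes hcop h (dvd_mul_left q p))
  rcases lt_or_gt_of_ne hpq with h | h
  · obtain ⟨σ, hσ⟩ := Transfer.PQ.exists_isPQ hq hp h (by rw [hA, mul_comm]) hAna
    exact key hσ hnq hnp
  · obtain ⟨σ, hσ⟩ := Transfer.PQ.exists_isPQ hp hq h hA hAna
    exact key hσ hnp hnq

end Cfsg.Agent.S4306
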