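import Cfsg.Statements.S4314


set_option autoImplicit false
open Cfsg

namespace Cfsg.Agent.S4314

open Subgroup

variable {G : Type*} [Group G] [Finite G]

local notation "C(" x ")" => Subgroup.centralizer ({x} : Set _)

theorem eq_of_le_of_index_prime {H K : Subgroup G} (hle : H ≤ K) (hH : H.index.Prime)
    (hK : K ≠ ⊤) : H = K := by
  rw [← relIndex_mul_index hle] at hH
  rcases Nat.prime_mul_iff.mp hH with ⟨-, h⟩ | ⟨-, h⟩
  · exact absurd (index_eq_one.mp h) hK
  · exact le_antisymm hle (relIndex_eq_one.mp h)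

theorem self_mem_C {H : Type*} [Group H] (x : H) : x ∈ C(x) :=
  Subgroup.mem_centralizer_singleton_iff.mpr rfl

theorem prime_classes (h : ∀ x : G, (C(x)).index = 1 ∨ ((C(x)).index).Prime) :
    Subgroup.upperCentralSeries G 2 = ⊤ ∨
      ∃ p q : ℕ, p.Prime ∧ q.Prime ∧ p ≠ q ∧ Nat.card (G ⧸ Subgroup.center G) = p * q ∧
        ¬ IsMulCommutative (G ⧸ Subgroup.center G) := by
  by_cases hall : ∀ x : G, (C(x)).Normal
  · left
    have hcomm : ∀ a b : G, a⁻¹ * b⁻¹ * a * b ∈ Subgroup.center G := by
      intro a b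
      rw [Subgroup.mem_center_iff]
      intro x
      suffices hx : a⁻¹ * b⁻¹ * a * b ∈ C(x) from
        (Subgroup.mem_centralizer_singleton_iff.mp hx).symm
      haveI := hall x
      rcases h x with h1 | h1
      · rw [index_eq_one.mp h1]; exact mem_top _
      · haveI : Fact (Nat.card (G ⧸ C(x))).Prime := ⟨by rw [← index_eq_card]; exact h1⟩
        haveI : IsCyclic (G ⧸ C(x)) := isCyclic_of_prime_card rfl
        letI : CommGroup (G ⧸ C(x)) := IsCyclic.commGroup
        rw [← QuotientGroup.eq_one_iff]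
        simp only [QuotientGroup.mk_mul, QuotientGroup.mk_inv]
        rw [mul_comm (a : G ⧸ C(x))⁻¹, mul_assoc (b : G ⧸ C(x))⁻¹, inv_mul_cancel, mul_one,
          inv_mul_cancel]
    rw [eq_top_iff]
    intro a _
    rw [Subgroup.mem_upperCentralSeries_succ_iff]
    intro b
    rw [Subgroup.upperCentralSeries_one]
    have := hcomm a⁻¹ b⁻¹
    simpa [mul_assoc, commutatorElement_def] using this
  right
  push Not at hall
  obtain ⟨x, hxn⟩ := hall
  set p := (C(x)).index with hpdef
  have hp : p.Prime := (h x).resolve_left fun h1 => hxn (by rw [index_eq_one.mp h1]; infer_instance)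
  haveI := Fact.mk hp
  set M := (C(x)).normalCore with hM
  haveI : M.Normal := normalCore_normal _
  set π := QuotientGroup.mk' M with hπ
  set Cb := (C(x)).map π with hCb
  have hMC : M ≤ C(x) := normalCore_le _
  have hcomap : Cb.comap π = C(x) := by
    rw [hCb, comap_map_eq, hπ, QuotientGroup.ker_mk', sup_eq_left.mpr hMC]
  have hCbi : Cb.index = p := by
    rw [hpdef, ← hcomap, index_comap_of_surjective _ (QuotientGroup.mk'_surjective M)]
  have hcore : ∀ c : G ⧸ M, (∀ t : G ⧸ M, t * c * t⁻¹ ∈ Cb) → c = 1 := by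
    intro c hc
    obtain ⟨y, rfl⟩ := QuotientGroup.mk'_surjective M c
    refine (QuotientGroup.eq_one_iff y).mpr fun b => ?_
    rw [← hcomap, mem_comap, map_mul, map_mul, map_inv]
    exact hc _
  -- the order of `G/M` divides `p!`
  have hfact : Nat.card (G ⧸ M) ∣ p.factorial := by
    rw [← index_eq_card, hM, normalCore_eq_ker, index_ker, hpdef, index_eq_card, ← Nat.card_perm]
    exact card_subgroup_dvd_card _
  have hp2 : ¬ p ^ 2 ∣ Nat.card (G ⧸ M) := by
    intro hd
    have h1 : p ^ 2 ∣ p * (p - 1).factorial := by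
      rw [Nat.mul_factorial_pred hp.ne_zero]; exact hd.trans hfact
    rw [pow_two] at h1
    have := (hp.dvd_factorial).mp (Nat.dvd_of_mul_dvd_mul_left hp.pos h1)
    have := hp.two_le
    omega
  obtain ⟨gb, hgb⟩ := exists_prime_orderOf_dvd_card' (G := G ⧸ M) p (hCbi ▸ Cb.index_dvd_card)
  have hCbp : ¬ p ∣ Nat.card Cb := fun hd => hp2 (by
    rw [← card_mul_index Cb, hCbi, pow_two]; exact Nat.mul_dvd_mul_right hd p)
  have hgprod : ∀ t : G ⧸ M, ∃ i : ℕ, ∃ c ∈ Cb, t = gb ^ i * c := by
    intro t
    have hinj : Function.Injective (fun i : Fin p => ((gb ^ (i : ℕ) : G ⧸ M) : (G ⧸ M) ⧸ Cb)) := by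
      intro i j hij
      have hmem := QuotientGroup.eq.mp hij
      by_contra hne
      set d := (gb ^ (i : ℕ))⁻¹ * gb ^ (j : ℕ) with hd
      have hdz : d ∈ zpowers gb := mul_mem (inv_mem (npow_mem_zpowers gb _)) (npow_mem_zpowers gb _)
      have h1 : orderOf d ∣ p := hgb ▸ orderOf_dvd_of_mem_zpowers hdz
      rcases (Nat.dvd_prime hp).mp h1 with h2 | h2
      · rw [orderOf_eq_one_iff, hd, inv_mul_eq_one] at h2
        exact hne (Fin.ext (pow_injOn_Iio_orderOf (by rw [hgb]; exact i.2) (by rw [hgb]; exact j.2) h2))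
      · exact hCbp (h2 ▸ Subgroup.orderOf_dvd_natCard _ hmem)
    obtain ⟨i, hi⟩ := (hinj.bijective_of_nat_card_le (by
      rw [Nat.card_fin, ← index_eq_card, hCbi])).2 (t : (G ⧸ M) ⧸ Cb)
    exact ⟨i, _, QuotientGroup.eq.mp hi, (mul_inv_cancel_left _ _).symm⟩
  have hcent : Nat.card C(gb) ∣ p := by
    have hinf : C(gb) ⊓ Cb = ⊥ := by
      rw [eq_bot_iff]
      rintro c ⟨hc, hcC⟩
      rw [Subgroup.mem_bot]
      refine hcore c fun t => ?_
      obtain ⟨i, d, hd, ht⟩ := hgprod t⁻¹
      have ht' : t = d⁻¹ * (gb ^ i)⁻¹ := by rw [← mul_inv_rev, ← ht, inv_inv]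
      have hgc : (gb ^ i)⁻¹ * c * gb ^ i = c := by
        have hcm : c * gb ^ i = gb ^ i * c :=
          ((show Commute c gb from Subgroup.mem_centralizer_singleton_iff.mp hc).pow_right i).eq
        rw [mul_assoc, hcm, inv_mul_cancel_left]
      rw [ht', show d⁻¹ * (gb ^ i)⁻¹ * c * (d⁻¹ * (gb ^ i)⁻¹)⁻¹ =
        d⁻¹ * ((gb ^ i)⁻¹ * c * gb ^ i) * d by group, hgc]
      exact mul_mem (mul_mem (inv_mem hd) hcC) hd
    have h1 : Nat.card C(gb) ≤ p := by
      have h2 : Cb.relIndex C(gb) ≤ p := by
        rw [← hCbi, ← relIndex_top_right]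
        exact relIndex_le_of_le_right le_top (by rw [relIndex_top_right, hCbi]; exact hp.ne_zero)
      have h3 : Cb.relIndex C(gb) = Nat.card C(gb) := by
        rw [← inf_relIndex_left, hinf, relIndex_bot_left]
      omega
    have h4 : p ∣ Nat.card C(gb) := hgb ▸ Subgroup.orderOf_dvd_natCard _ (self_mem_C gb)
    exact (le_antisymm h1 (Nat.le_of_dvd Nat.card_pos h4)).dvd
  obtain ⟨g, hgg⟩ := QuotientGroup.mk'_surjective M gb
  -- centralizers of lifts
  have hlift : ∀ y : G, C(y) ≤ (C(π y)).comap π := fun y z hz => by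
    rw [mem_comap, Subgroup.mem_centralizer_singleton_iff, ← map_mul, ← map_mul,
      Subgroup.mem_centralizer_singleton_iff.mp hz]
  have hgbne : gb ∉ Subgroup.center (G ⧸ M) := by
    intro hz
    have htop : C(gb) = ⊤ := eq_top_iff.mpr fun t _ => Subgroup.mem_centralizer_singleton_iff.mpr
      (Subgroup.mem_center_iff.mp hz t)
    rw [htop, Subgroup.card_top, ← card_mul_index Cb, hCbi] at hcent
    have hCb1 : Cb = ⊥ := Subgroup.eq_bot_of_card_eq _ (Nat.eq_one_of_dvd_one
      (Nat.dvd_of_mul_dvd_mul_right hp.pos (by rwa [one_mul])))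
    apply hxn
    rw [← hcomap, hCb1, MonoidHom.comap_bot, hπ, QuotientGroup.ker_mk']
    infer_instance
  have hC1 : (C(gb)).comap π ≠ ⊤ := by
    intro e
    apply hgbne
    rw [Subgroup.mem_center_iff]
    intro t
    obtain ⟨t, rfl⟩ := QuotientGroup.mk'_surjective M t
    exact Subgroup.mem_centralizer_singleton_iff.mp (e.symm ▸ mem_top t : t ∈ (C(gb)).comap π)
  have hprime_of : ∀ y : G, C(y) ≠ ⊤ → (C(y)).index.Prime := fun y hy =>
    (h y).resolve_left fun h1 => hy (index_eq_one.mp h1)
  have hKg : ∀ y : G, C(π y) = C(gb) → C(y) = (C(gb)).comap π := by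
    intro y hy
    have hle := hy ▸ hlift y
    exact eq_of_le_of_index_prime hle (hprime_of y fun e => hC1 (top_le_iff.mp (e.ge.trans hle))) hC1
  set r := ((C(gb)).comap π).index with hr
  have hrp : r.Prime := by
    have e := hKg g (by rw [hπ, hgg])
    rw [hr, ← e]
    exact hprime_of g fun e' => hC1 (by rw [← e, e'])
  have hcardC : Nat.card C(gb) = p :=
    ((Nat.dvd_prime hp).mp hcent).resolve_left fun e => by
      have := hgb ▸ Subgroup.orderOf_dvd_natCard _ (self_mem_C gb)
      rw [e, Nat.dvd_one] at this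
      exact hp.ne_one this
  have hcardG : Nat.card (G ⧸ M) = p * r := by
    rw [hr, index_comap_of_surjective _ (QuotientGroup.mk'_surjective M), ← hcardC, card_mul_index]
  have hrne : p ≠ r := fun e => hp2 (by rw [hcardG, ← e, pow_two])
  have hCbr : Nat.card Cb = r := by
    have h1 := card_mul_index Cb
    rw [hCbi, hcardG, mul_comm p] at h1
    exact Nat.eq_of_mul_eq_mul_right hp.pos h1
  have hMcomm : ∀ m ∈ M, m ∈ Subgroup.center G := by
    intro m hm
    have hA : (C(gb)).comap π ≤ C(m) := by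
      have hg : g ∈ C(m) := by
        have : m ∈ C(g) := (hKg g (by rw [hπ, hgg])).ge (by
          rw [mem_comap, hπ, QuotientGroup.mk'_apply, (QuotientGroup.eq_one_iff m).mpr hm]
          exact one_mem _)
        rw [Subgroup.mem_centralizer_singleton_iff] at this ⊢
        exact this.symm
      intro y hy
      by_cases hy1 : π y = 1
      · have hyM : y ∈ M := (QuotientGroup.eq_one_iff y).mp hy1
        -- `y * g` centralizes `m`
        have hyg : C(π (y * g)) = C(gb) := by rw [map_mul, hy1, one_mul, hπ, hgg]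
        have hm' : m ∈ C(y * g) := (hKg _ hyg).ge (by
          rw [mem_comap, hπ, QuotientGroup.mk'_apply, (QuotientGroup.eq_one_iff m).mpr hm]
          exact one_mem _)
        have hyg' : y * g ∈ C(m) := by
          rw [Subgroup.mem_centralizer_singleton_iff] at hm' ⊢; exact hm'.symm
        simpa using mul_mem hyg' (inv_mem hg)
      · have hgen : C(π y) = C(gb) := by
          refine le_antisymm (fun t ht => ?_) (fun t ht => ?_)
          · have hz : zpowers (π y) = C(gb) := by
              refine eq_of_le_of_card_ge (zpowers_le.mpr hy) ?_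
              rw [hcardC, Nat.card_zpowers]
              rcases (Nat.dvd_prime hp).mp (hcardC ▸ Subgroup.orderOf_dvd_natCard C(gb) (show π y ∈ C(gb) from hy)) with e | e
              · exact absurd (orderOf_eq_one_iff.mp e) hy1
              · rw [e]
            obtain ⟨i, hi⟩ := (hz.symm ▸ self_mem_C gb : gb ∈ zpowers (π y))
            rw [Subgroup.mem_centralizer_singleton_iff, ← hi]
            exact ((show Commute t (π y) from Subgroup.mem_centralizer_singleton_iff.mp ht).zpow_right i).eq
          · haveI : IsCyclic C(gb) := isCyclic_of_prime_card hcardC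
            letI : CommGroup C(gb) := IsCyclic.commGroup
            rw [Subgroup.mem_centralizer_singleton_iff]
            exact congrArg Subtype.val (mul_comm (⟨t, ht⟩ : C(gb)) ⟨π y, hy⟩)
        have hm' : m ∈ C(y) := (hKg y hgen).ge (by
          rw [mem_comap, hπ, QuotientGroup.mk'_apply, (QuotientGroup.eq_one_iff m).mpr hm]
          exact one_mem _)
        rw [Subgroup.mem_centralizer_singleton_iff] at hm' ⊢
        exact hm'.symm
    have hB : ∀ y ∈ C(x), π y ≠ 1 → y ∈ C(m) := by
      intro y hy hy1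
      have hyb : π y ∈ Cb := ⟨y, hy, rfl⟩
      haveI : Fact r.Prime := ⟨hrp⟩
      haveI : IsCyclic Cb := isCyclic_of_prime_card hCbr
      letI : CommGroup Cb := IsCyclic.commGroup
      have hle : Cb ≤ C(π y) := fun c hc => by
        rw [Subgroup.mem_centralizer_singleton_iff]
        exact congrArg Subtype.val (mul_comm (⟨c, hc⟩ : Cb) ⟨π y, hyb⟩)
      have hne : C(π y) ≠ ⊤ := fun e => hy1 (hcore _ fun t => by
        have : t ∈ C(π y) := e ▸ mem_top t
        rw [Subgroup.mem_centralizer_singleton_iff] at this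
        rw [this, mul_inv_cancel_right]
        exact hyb)
      have e : Cb = C(π y) := eq_of_le_of_index_prime hle (hCbi ▸ hp) hne
      have hle2 : C(y) ≤ C(x) := hcomap ▸ e ▸ hlift y
      have hx1 : C(x) ≠ ⊤ := fun e' => hp.ne_one (by rw [hpdef, e', index_top])
      have e2 := eq_of_le_of_index_prime hle2
        (hprime_of y fun e' => hx1 (top_le_iff.mp (e'.ge.trans hle2))) hx1
      have hm' : m ∈ C(y) := e2.ge (hMC hm)
      rw [Subgroup.mem_centralizer_singleton_iff] at hm' ⊢
      exact hm'.symm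
    have htop : C(m) = ⊤ := by
      by_contra hne
      have h1 := eq_of_le_of_index_prime hA (hr ▸ hrp) hne
      obtain ⟨cb, hcb⟩ := exists_prime_orderOf_dvd_card' (G := Cb) r (hp := ⟨hrp⟩) (hCbr ▸ dvd_rfl)
      obtain ⟨y, hy, hyc⟩ := cb.2
      have hy1 : π y ≠ 1 := fun e => hrp.ne_one (by
        rw [← hcb, orderOf_eq_one_iff]
        exact Subtype.ext (hyc ▸ e))
      have h2 : π y ∈ C(gb) := h1.ge (hB y hy hy1)
      have h3 : orderOf (π y) ∣ p := hcardC ▸ Subgroup.orderOf_dvd_natCard _ h2
      rw [hyc, Subgroup.orderOf_coe, hcb] at h3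
      exact hrne ((Nat.prime_dvd_prime_iff_eq hrp hp).mp h3).symm
    rw [Subgroup.mem_center_iff]
    exact fun t => Subgroup.mem_centralizer_singleton_iff.mp (htop ▸ mem_top t : t ∈ C(m))
  have hMZ : M = Subgroup.center G := by
    refine le_antisymm hMcomm fun z hz b => ?_
    rw [show b * z * b⁻¹ = z by rw [Subgroup.mem_center_iff.mp hz b, mul_inv_cancel_right]]
    exact Subgroup.mem_centralizer_singleton_iff.mpr (Subgroup.mem_center_iff.mp hz x).symm
  refine ⟨p, r, hp, hrp, hrne, ?_, fun hc => ?_⟩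
  · rw [← hcardG, hMZ]
  · apply hgbne
    rw [Subgroup.mem_center_iff]
    intro t
    obtain ⟨t, rfl⟩ := QuotientGroup.mk'_surjective M t
    rw [← hgg, ← map_mul, ← map_mul]
    refine (QuotientGroup.eq).mpr ?_
    rw [hMZ]
    exact (QuotientGroup.eq).mp (hc.1.1 (t : G ⧸ Subgroup.center G) (g : G ⧸ Subgroup.center G))


/-- Let `G` be a finite group every conjugacy class of which has size 1 or a prime. Then either `G` is nilpotent of class at most 2, or `G/Z(G)` is a non-abelian group of order `pq` for distinct primes `p, q` (a Frobenius group of order `pq`). -/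
theorem result {G : Type*} [Group G] [Finite G]
    (h : ∀ x : G, (Subgroup.centralizer ({x} : Set G)).index = 1 ∨ ((Subgroup.centralizer ({x} : Set G)).index).Prime) :
    Subgroup.upperCentralSeries G 2 = ⊤ ∨
      ∃ p q : ℕ, p.Prime ∧ q.Prime ∧ p ≠ q ∧ Nat.card (G ⧸ Subgroup.center G) = p * q ∧ ¬ IsMulCommutative (G ⧸ Subgroup.center G) := by
  exact prime_classes h

end Cfsg.Agent.S4314
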