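import Cfsg.Statements.S4316
import Cfsg.Agent.FGS4.BFC.Main
import Mathlib.GroupTheory.SemidirectProduct

set_option autoImplicit false
universe u
open Cfsg

namespace Cfsg.Agent.S4316

/-- There is a function `f` of two natural-number arguments with the following property. Let `q` be a prime and `A` an elementary abelian group of order `q³` acting by automorphisms on a finite group `G` of order prime to `q`, and suppose that for every non-identity `a ∈ A` the derived subgroup of the fixed-point subgroup `C_G(a)` has order at most `m`. Then the derived subgroup of `G` has order at most `f(q, m)`. -/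
theorem result :
    ∃ f : ℕ → ℕ → ℕ, ∀ (q m : ℕ) (A G : Type u) [Group A] [Finite A] [Group G] [Finite G] [MulDistribMulAction A G],
      q.Prime → Nat.card A = q ^ 3 → (∀ a b : A, a * b = b * a) → (∀ a : A, a ^ q = 1) → ¬ q ∣ Nat.card G →
      (∀ a : A, a ≠ 1 → Nat.card ↥(commutator ↥(FixedPoints.subgroup (Subgroup.zpowers a) G)) ≤ m) →
      Nat.card ↥(commutator G) ≤ f q m := by
  refine ⟨Cfsg.Agent.FGS4.BFC.mainBound, ?_⟩
  intro q m A G _ _ _ _ _ hq hA hab he hcop hm
  haveI := Fact.mk hq
  let φ : A →* MulAut G := MulDistribMulAction.toMulAut A G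
  haveI : Finite (G ⋊[φ] A) := Finite.of_equiv _ SemidirectProduct.equivProd.symm
  set M : Subgroup (G ⋊[φ] A) := (SemidirectProduct.inl : G →* G ⋊[φ] A).range with hM
  set A' : Subgroup (G ⋊[φ] A) := (SemidirectProduct.inr : A →* G ⋊[φ] A).range with hA'
  have eA : A ≃* A' := MonoidHom.ofInjective SemidirectProduct.inr_injective
  let eM : G ≃* M := MonoidHom.ofInjective SemidirectProduct.inl_injective
  have hMn : M.Normal := by
    rw [hM, SemidirectProduct.range_inl_eq_ker_rightHom]
    infer_instance
  have hcardM : Nat.card M = Nat.card G := (Nat.card_congr eM.toEquiv).symm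
  have hfix : ∀ (a : A) (x : G), (SemidirectProduct.inl x : G ⋊[φ] A) ∈
      Subgroup.centralizer {(SemidirectProduct.inr a : G ⋊[φ] A)} ↔ a • x = x := by
    intro a x
    rw [Subgroup.mem_centralizer_singleton_iff]
    constructor
    · intro h
      have h1 : (SemidirectProduct.inl (φ a x) : G ⋊[φ] A) = SemidirectProduct.inl x := by
        rw [SemidirectProduct.inl_aut, ← h, map_inv, mul_inv_cancel_right]
      exact SemidirectProduct.inl_injective h1
    · intro h
      have h1 : φ a x = x := h
      conv_lhs => rw [← h1, SemidirectProduct.inl_aut, map_inv, inv_mul_cancel_right]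
  have key : Nat.card (commutator M) ≤ Cfsg.Agent.FGS4.BFC.mainBound q m := by
    refine Cfsg.Agent.FGS4.BFC.derived_bound (q := q) (A := A') (M := M) ?_ ?_ ?_ ?_ ?_ m ?_
    · rw [← Nat.card_congr eA.toEquiv, hA]
    · rintro _ ⟨a, rfl⟩ _ ⟨b, rfl⟩
      rw [← map_mul, ← map_mul, hab]
    · rintro _ ⟨a, rfl⟩
      rw [← map_pow, he, map_one]
    · rw [Subgroup.normalizer_eq_top]; exact le_top
    · rwa [hcardM]
    · rintro _ ⟨a, rfl⟩ ha1
      have ha : a ≠ 1 := fun h => ha1 (by rw [h, map_one])
      refine le_trans (le_of_eq ?_) (hm a ha)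
      set F := FixedPoints.subgroup (Subgroup.zpowers a) G
      have hmem : ∀ x : G, x ∈ F ↔ a • x = x := by
        intro x
        constructor
        · intro h; exact h ⟨a, Subgroup.mem_zpowers a⟩
        · rintro h ⟨b, hb⟩
          show b • x = x
          have hle : Subgroup.zpowers a ≤ MulAction.stabilizer A x := Subgroup.zpowers_le.2 h
          exact hle hb
      have himg : (M ⊓ Subgroup.centralizer {(SemidirectProduct.inr a : G ⋊[φ] A)} : Subgroup (G ⋊[φ] A)) =
          F.map (SemidirectProduct.inl : G →* G ⋊[φ] A) := by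
        ext g
        constructor
        · rintro ⟨⟨x, rfl⟩, hx⟩
          exact ⟨x, (hmem x).2 ((hfix a x).1 hx), rfl⟩
        · rintro ⟨x, hx, rfl⟩
          exact ⟨⟨x, rfl⟩, (hfix a x).2 ((hmem x).1 hx)⟩
      rw [himg]
      let e := (Subgroup.equivMapOfInjective F _ (SemidirectProduct.inl_injective (φ := φ)))
      have h2 : commutator _ = (commutator F).map e.toMonoidHom := by
        rw [_root_.commutator_def, _root_.commutator_def, Subgroup.map_commutator, ← MonoidHom.range_eq_map,
          MonoidHom.range_eq_top.2 e.surjective]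
      rw [h2, Subgroup.card_map_of_injective e.injective]
  refine le_trans (le_of_eq ?_) key
  have h2 : commutator M = (commutator G).map eM.toMonoidHom := by
    rw [_root_.commutator_def, _root_.commutator_def, Subgroup.map_commutator, ← MonoidHom.range_eq_map,
      (MonoidHom.range_eq_top (f := eM.toMonoidHom)).2 eM.surjective]
  rw [h2, Subgroup.card_map_of_injective (f := eM.toMonoidHom) eM.injective]

end Cfsg.Agent.S4316
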