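import Cfsg.Statements.S4320
import Cfsg.Agent.FGS4.PrincipalIdeal
import Mathlib.GroupTheory.GroupAction.Quotient
import Mathlib.Tactic.Group

set_option autoImplicit false
open Cfsg

namespace Cfsg.Agent.S4320

/-- Functions, without the convolution action. -/
def Coind (Q A : Type*) : Type _ := Q → A

instance coindAddCommGroup {Q A : Type*} [AddCommGroup A] : AddCommGroup (Coind Q A) :=
  inferInstanceAs (AddCommGroup (Q → A))

open MonoidAlgebra in
/-- The transfer into an abelian group from the derived group vanishes. -/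
theorem transfer_eq_one {G A : Type*} [Group G] [Finite G] [CommGroup A]
    (ϕ : ↥(commutator G) →* A) (g₀ : G) : MonoidHom.transfer ϕ g₀ = 1 := by
  classical
  letI : Fintype (G ⧸ commutator G) := Fintype.ofFinite _
  letI : Fintype (Abelianization G) := Fintype.ofFinite _
  let T : (commutator G).LeftTransversal := default
  let W := Coind (Abelianization G) (Additive A)
  let act : Abelianization G →* AddMonoid.End W :=
    { toFun := fun q =>
        { toFun := fun f x => f (q⁻¹ * x)
          map_zero' := rfl
          map_add' := fun _ _ => rfl }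
      map_one' := by
        refine DFunLike.ext _ _ fun f => funext fun x => ?_
        show f ((1 : Abelianization G)⁻¹ * x) = f x
        rw [inv_one, one_mul]
      map_mul' := fun p q => by
        refine DFunLike.ext _ _ fun f => funext fun x => ?_
        show f ((p * q)⁻¹ * x) = f (q⁻¹ * (p⁻¹ * x))
        rw [mul_inv_rev, mul_assoc] }
  letI : Module (MonoidAlgebra ℤ (Abelianization G)) W :=
    Module.compHom W (MonoidAlgebra.lift ℤ (AddMonoid.End W) (Abelianization G) act).toRingHom
  have hsmul : ∀ (q : Abelianization G) (f : W) (x : Abelianization G),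
      (of ℤ (Abelianization G) q • f) x = f (q⁻¹ * x) := by
    intro q f x
    change _ = f (q⁻¹ * x)
    show (MonoidAlgebra.lift ℤ (AddMonoid.End W) (Abelianization G) act (of ℤ _ q)) f x = _
    rw [MonoidAlgebra.lift_of]
    rfl
  let t : G ⧸ commutator G → G := fun q => T.2.leftQuotientEquiv q
  have ht : ∀ q, (QuotientGroup.mk (t q) : G ⧸ commutator G) = q := fun q =>
    T.2.quotientGroupMk_leftQuotientEquiv q
  have hmem : ∀ (g : G) (q : G ⧸ commutator G),
      (t q)⁻¹ * (g * t (g⁻¹ • q)) ∈ commutator G := by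
    intro g q
    rw [← QuotientGroup.eq_one_iff, QuotientGroup.mk_mul, QuotientGroup.mk_inv, QuotientGroup.mk_mul,
      ht, ht]
    obtain ⟨x, rfl⟩ := QuotientGroup.mk_surjective q
    rw [MulAction.Quotient.smul_mk, smul_eq_mul, QuotientGroup.mk_mul, QuotientGroup.mk_inv,
      mul_inv_cancel_left, inv_mul_cancel]
  let d : G → W := fun g (q : G ⧸ commutator G) => Additive.ofMul (ϕ ⟨_, hmem g q⟩)
  have hd : ∀ g h, d (g * h) = d g + of ℤ (Abelianization G) (Abelianization.of g) • d h := by
    intro g h
    refine funext fun (q : G ⧸ commutator G) => ?_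
    show d (g * h) q = d g q + (of ℤ (Abelianization G) (Abelianization.of g) • d h) q
    refine Eq.trans ?_ (congrArg (fun z => d g q + z) (hsmul (Abelianization.of g) (d h) q)).symm
    show Additive.ofMul (ϕ ⟨_, hmem (g * h) q⟩) =
      Additive.ofMul (ϕ ⟨_, hmem g q⟩) + Additive.ofMul (ϕ ⟨_, hmem h _⟩)
    rw [← ofMul_mul, ← map_mul]
    refine congrArg (fun z => Additive.ofMul (ϕ z)) (Subtype.ext ?_)
    have hq : ((QuotientGroup.mk g : G ⧸ commutator G)⁻¹ * q : G ⧸ commutator G) = g⁻¹ • q := by
      obtain ⟨x, rfl⟩ := QuotientGroup.mk_surjective q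
      rw [MulAction.Quotient.smul_mk, smul_eq_mul, QuotientGroup.mk_mul, QuotientGroup.mk_inv]
    show (t q)⁻¹ * (g * h * t ((g * h)⁻¹ • q)) = (t q)⁻¹ * (g * t (g⁻¹ • q)) *
      ((t (((QuotientGroup.mk g : G ⧸ commutator G)⁻¹ * q : G ⧸ commutator G)))⁻¹ *
        (h * t (h⁻¹ • ((QuotientGroup.mk g : G ⧸ commutator G)⁻¹ * q : G ⧸ commutator G))))
    rw [hq, mul_inv_rev, mul_smul]
    group
  have key := Cfsg.Agent.FGS4.PrincipalIdeal.norm_smul_eq_zero (Abelianization.of (G := G))
    (QuotientGroup.mk'_surjective _) (le_of_eq (QuotientGroup.ker_mk' _)) d hd g₀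
  have h1 := congrFun key 1
  have happ : ∀ (s : Finset (Abelianization G)) (F : Abelianization G → W) (x : Abelianization G),
      (∑ q ∈ s, F q) x = ∑ q ∈ s, F q x := fun s F x => Finset.sum_apply (M := fun _ => Additive A) x s F
  rw [Finset.sum_smul, happ] at h1
  simp only [hsmul, mul_one] at h1
  rw [MonoidHom.transfer_def ϕ T g₀]
  have h2 : ∏ q : G ⧸ commutator G, ϕ ⟨_, hmem g₀ q⟩ = 1 := by
    have h3 := congrArg Additive.toMul h1
    change Additive.toMul (∑ q, d g₀ q⁻¹) = Additive.toMul (0 : Additive A) at h3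
    rw [toMul_sum, toMul_zero] at h3
    rw [← h3]
    exact (Fintype.prod_equiv (Equiv.inv (Abelianization G)) _ _ fun q => rfl).symm
  rw [← h2]
  unfold Subgroup.leftTransversals.diff
  refine Fintype.prod_equiv (Equiv.refl _) _ _ fun q => ?_
  refine congrArg ϕ (Subtype.ext ?_)
  show (t q)⁻¹ * _ = (t q)⁻¹ * (g₀ * t (g₀⁻¹ • q))
  rw [Subgroup.smul_apply_eq_smul_apply_inv_smul, smul_eq_mul]

/-- The Principal Ideal Theorem of class field theory in its group-theoretic form: for every finite group `G`, the transfer homomorphism from `G` into the abelianization `G'/G''` of its derived subgroup `G'` is the trivial homomorphism. -/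
theorem result {G : Type*} [Group G] [Finite G] :
    MonoidHom.transfer (Abelianization.of : ↥(commutator G) →* Abelianization ↥(commutator G)) =
      (1 : G →* Abelianization ↥(commutator G)) := by
  exact MonoidHom.ext fun g => transfer_eq_one _ g

end Cfsg.Agent.S4320
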