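import Cfsg.Statements.S4416
import Cfsg.Agent.FGS4.ExtraTwo

set_option autoImplicit false
open Cfsg

namespace Cfsg.Agent.S4416

/-- Classification of extraspecial 2-groups in intrinsic form. An extraspecial 2-group has order 2^(2m+1) for some m ≥ 1, and the number of its elements squaring to the identity is either 2^(2m) + 2^m or 2^(2m) − 2^m; two extraspecial 2-groups of the same order with the same number of such elements are isomorphic. (The two cases are the central products of m dihedral groups of order 8, and of m − 1 dihedral groups with one quaternion group.) -/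
theorem result (E : Type*) [Group E] [Finite E] (hE : Cfsg.IsExtraspecial 2 E) :
    (∃ m : ℕ, 1 ≤ m ∧ Nat.card E = 2 ^ (2 * m + 1) ∧
      (Nat.card {x : E // x ^ 2 = 1} = 2 ^ (2 * m) + 2 ^ m ∨ Nat.card {x : E // x ^ 2 = 1} = 2 ^ (2 * m) - 2 ^ m)) ∧
    ∀ (E' : Type*) [Group E'] [Finite E'], Cfsg.IsExtraspecial 2 E' → Nat.card E' = Nat.card E →
      Nat.card {x : E' // x ^ 2 = 1} = Nat.card {x : E // x ^ 2 = 1} → Nonempty (E ≃* E') := by
  obtain ⟨b, n, hn, hcard, ⟨e⟩⟩ := Cfsg.Agent.FGS4.ExtraTwo.exists_model E hE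
  have hcount := (Cfsg.Agent.FGS4.ExtraTwo.card_congr_sq e).trans
    (Cfsg.Agent.FGS4.ExtraTwo.count_model b n hn)
  refine ⟨⟨n, hn, hcard, ?_⟩, ?_⟩
  · cases b
    · exact Or.inl (by simpa using hcount)
    · exact Or.inr (by simpa using hcount)
  · intro E' _ _ hE' hc hs
    obtain ⟨b', n', hn', hcard', ⟨e'⟩⟩ := Cfsg.Agent.FGS4.ExtraTwo.exists_model E' hE'
    have hcount' := (Cfsg.Agent.FGS4.ExtraTwo.card_congr_sq e').trans
      (Cfsg.Agent.FGS4.ExtraTwo.count_model b' n' hn')
    obtain rfl : n' = n := by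
      rw [hcard', hcard] at hc
      have := Nat.pow_right_injective le_rfl hc
      omega
    have hp1 : (2 : ℕ) ^ n' ≤ 2 ^ (2 * n') := Nat.pow_le_pow_right two_pos (by omega)
    have hp2 : 0 < (2 : ℕ) ^ n' := Nat.two_pow_pos n'
    obtain rfl : b' = b := by
      rw [hcount, hcount'] at hs
      cases b <;> cases b' <;> simp at hs ⊢ <;> omega
    exact ⟨e.trans e'.symm⟩

end Cfsg.Agent.S4416
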