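import Cfsg.Statements.S4421


set_option autoImplicit false
open Cfsg

namespace Cfsg.Agent.S4421

/-- A factorization of a normalizer from two-step control of fusion. Let `G` be a finite group and `A ≤ S ≤ H` subgroups of `G` such that: (i) `S` controls the `G`-fusion of `A` in the sense that every `G`-conjugate of `A` lying in `S` is an `S`-conjugate of `A`; (ii) `H` controls the `G`-fusion of `S` in the same sense; (iii) every conjugate of `S` by an element of the normalizer of `A` lies in `H`. Then `N_G(A) = N_H(A) · (N_G(S) ∩ N_G(A))`: every element of the normalizer of `A` is a product of an element of `H` normalizing `A` and an element normalizing both `S` and `A`. -/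
theorem result {G : Type*} [Group G] [Finite G] (A S H : Subgroup G)
    (hAS : A ≤ S) (hSH : S ≤ H)
    (h1 : ∀ g : G, A.map (MulAut.conj g).toMonoidHom ≤ S → ∃ s ∈ S, A.map (MulAut.conj g).toMonoidHom = A.map (MulAut.conj s).toMonoidHom)
    (h2 : ∀ g : G, S.map (MulAut.conj g).toMonoidHom ≤ H → ∃ y ∈ H, S.map (MulAut.conj g).toMonoidHom = S.map (MulAut.conj y).toMonoidHom)
    (h3 : ∀ x ∈ Subgroup.normalizer (A : Set G), S.map (MulAut.conj x).toMonoidHom ≤ H) :
    ∀ x ∈ Subgroup.normalizer (A : Set G), ∃ y ∈ H ⊓ Subgroup.normalizer (A : Set G),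
      ∃ z ∈ Subgroup.normalizer (S : Set G) ⊓ Subgroup.normalizer (A : Set G), x = y * z := by
  intro x hx
  obtain ⟨y, hy, hyx⟩ := h2 x (h3 x hx)
  -- w = y⁻¹ x normalizes S
  have hw : ∀ s, s ∈ S ↔ (y⁻¹ * x) * s * (y⁻¹ * x)⁻¹ ∈ S := by
    intro s
    have h1 : x * s * x⁻¹ ∈ S.map (MulAut.conj x).toMonoidHom ↔ s ∈ S := by
      simp [Subgroup.mem_map]
    rw [hyx] at h1
    rw [← h1]
    constructor
    · rintro ⟨u, hu, h⟩
      have : y * u * y⁻¹ = x * s * x⁻¹ := by simpa using h
      have e : u = (y⁻¹ * x) * s * (y⁻¹ * x)⁻¹ := by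
        calc u = y⁻¹ * (y * u * y⁻¹) * y := by group
          _ = _ := by rw [this]; group
      exact e ▸ hu
    · intro h
      exact ⟨_, h, by simp [mul_assoc]⟩
  set w := y⁻¹ * x with hwdef
  obtain ⟨s, hs, hsA⟩ := h1 w (by
    rintro _ ⟨a, ha, rfl⟩
    simpa using (hw a).mp (hAS ha))
  refine ⟨y * s, ⟨H.mul_mem hy (hSH hs), ?_⟩, s⁻¹ * w, ⟨?_, ?_⟩, by rw [hwdef]; group⟩
  rotate_left
  · exact Subgroup.mul_mem _ (Subgroup.inv_mem _ (Subgroup.le_normalizer hs))
      (Subgroup.mem_normalizer_iff.mpr hw)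
  all_goals
    have hz : s⁻¹ * w ∈ Subgroup.normalizer (A : Set G) := by
      rw [Subgroup.mem_normalizer_iff]
      intro a
      have : w * a * w⁻¹ ∈ A.map (MulAut.conj w).toMonoidHom ↔ a ∈ A := by
        simp [Subgroup.mem_map]
      rw [hsA] at this
      rw [← this]
      constructor
      · rintro ⟨u, hu, h⟩
        have h' : s * u * s⁻¹ = w * a * w⁻¹ := by simpa using h
        have e : u = (s⁻¹ * w) * a * (s⁻¹ * w)⁻¹ := by
          calc u = s⁻¹ * (s * u * s⁻¹) * s := by group
            _ = _ := by rw [h']; group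
        exact e ▸ hu
      · intro h
        exact ⟨_, h, by simp [mul_assoc]⟩
  · exact hz
  · have : y * s = x * (s⁻¹ * w)⁻¹ := by rw [hwdef]; group
    rw [this]
    exact Subgroup.mul_mem _ hx (Subgroup.inv_mem _ hz)

end Cfsg.Agent.S4421
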