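import Cfsg.Statements.S4422


set_option autoImplicit false
open Cfsg

namespace Cfsg.Agent.S4422

/-- Primitive divisors of `q^e - 1` are congruent to 1 modulo `e`. Let `q ≥ 2` and `e ≥ 1` be natural numbers and let `m` be a divisor of `q^e - 1` that is coprime to `q^i - 1` for every `1 ≤ i < e` (so `m` divides the primitive part of `q^e - 1`, the largest such divisor). Then `m ≡ 1 (mod e)`. -/
theorem result (q e m : ℕ) (hq : 2 ≤ q) (he : 1 ≤ e)
    (hm : m ∣ q ^ e - 1) (hcop : ∀ i : ℕ, 1 ≤ i → i < e → Nat.Coprime m (q ^ i - 1)) :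
    m % e = 1 % e := by
  have key : ∀ p : ℕ, p.Prime → p ∣ m → p ≡ 1 [MOD e] := by
    intro p hp hpm
    have := Fact.mk hp
    have hpe : p ∣ q ^ e - 1 := hpm.trans hm
    have h1 : (q : ZMod p) ^ e = 1 := by
      have : ((q ^ e - 1 : ℕ) : ZMod p) = 0 := (ZMod.natCast_eq_zero_iff _ _).mpr hpe
      rw [Nat.cast_sub (Nat.one_le_pow _ _ (by omega)), sub_eq_zero] at this
      simpa using this
    have hq0 : (q : ZMod p) ≠ 0 := fun h => by simp [h, zero_pow (by omega : e ≠ 0)] at h1
    have hord : orderOf (q : ZMod p) = e := by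
      refine (orderOf_eq_iff (by omega)).mpr ⟨h1, fun i hi hi0 hc => ?_⟩
      have hd : p ∣ q ^ i - 1 := by
        rw [← ZMod.natCast_eq_zero_iff, Nat.cast_sub (Nat.one_le_pow _ _ (by omega)), Nat.cast_pow, hc]
        simp
      exact hp.ne_one (Nat.eq_one_of_dvd_coprimes (hcop i hi0 hi) hpm hd)
    have : e ∣ p - 1 := hord ▸ ZMod.orderOf_dvd_card_sub_one hq0
    exact ((Nat.modEq_iff_dvd' hp.one_le).mpr this).symm
  have hm0 : m ≠ 0 := by
    rintro rfl
    have := Nat.one_lt_pow (by omega : e ≠ 0) (by omega : 1 < q)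
    simp at hm
    omega
  have : m ≡ 1 [MOD e] := by
    rw [← Nat.prod_primeFactorsList hm0]
    have : ∀ l : List ℕ, (∀ p ∈ l, p ≡ 1 [MOD e]) → l.prod ≡ 1 [MOD e] := by
      intro l
      induction l with
      | nil => intro _; rfl
      | cons a l ih =>
        intro h
        simpa using (h a (by simp)).mul (ih fun p hp => h p (by simp [hp]))
    exact this _ fun p hp => key p (Nat.prime_of_mem_primeFactorsList hp) (Nat.dvd_of_mem_primeFactorsList hp)
  exact this

end Cfsg.Agent.S4422
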