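import Cfsg.Statements.S4423
import Cfsg.Agent.FGS4.Zsigmondy.Main
import Mathlib.Tactic.NormNum.Prime

set_option autoImplicit false
open Cfsg

namespace Cfsg.Agent.S4423

/-- Size of the primitive part of `q^e - 1`. For a prime power `q` and `e ≥ 3`, call a divisor of `q^e - 1` primitive when it is coprime to `q^i - 1` for every `1 ≤ i < e`; the primitive part is the largest primitive divisor. Apart from thirteen exceptional pairs, the primitive part is at least `3e + 1`: there is a primitive divisor `m ≥ 3e + 1` unless `(q, e)` is `(2, 6)` (where every primitive divisor is 1), one of `(2,4), (2,10), (2,12), (2,18), (3,4), (3,6), (5,6)` (where the primitive part is exactly `e + 1`), or one of `(2,3), (2,8), (2,20), (4,3), (4,6)` (where it is exactly `2e + 1`). The statement asserts the existence of a primitive divisor `m ≥ 3e + 1` outside the thirteen pairs, and that every primitive divisor is at most `2e + 1` for the thirteen pairs. -/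
theorem result (q e : ℕ) (hq : IsPrimePow q) (he : 3 ≤ e) :
    ((q, e) ∉ [(2, 6), (2, 4), (2, 10), (2, 12), (2, 18), (3, 4), (3, 6), (5, 6), (2, 3), (2, 8), (2, 20), (4, 3), (4, 6)] →
      ∃ m : ℕ, m ∣ q ^ e - 1 ∧ (∀ i : ℕ, 1 ≤ i → i < e → Nat.Coprime m (q ^ i - 1)) ∧ 3 * e + 1 ≤ m) ∧
    ((q, e) ∈ [(2, 6), (2, 4), (2, 10), (2, 12), (2, 18), (3, 4), (3, 6), (5, 6), (2, 3), (2, 8), (2, 20), (4, 3), (4, 6)] →
      ∀ m : ℕ, m ∣ q ^ e - 1 → (∀ i : ℕ, 1 ≤ i → i < e → Nat.Coprime m (q ^ i - 1)) → m ≤ 2 * e + 1) := by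
  have hq2 : 2 ≤ q := hq.two_le
  refine ⟨fun hx => Cfsg.Agent.FGS4.Zsigmondy.exists_primitive_part hq2 he hx, fun hx m hm hc => ?_⟩
  obtain ⟨L, hL0, hL, R, hR, K, hK⟩ : ∃ L, 0 < L ∧ L ≤ 2 * e + 1 ∧ ∃ R, q ^ e - 1 = L * R ∧
      ∃ K, R ∣ (∏ i ∈ Finset.Ico 1 e, (q ^ i - 1)) ^ K := by
    simp only [List.mem_cons, List.not_mem_nil, or_false, Prod.mk.injEq] at hx
    rcases hx with ⟨rfl, rfl⟩ | ⟨rfl, rfl⟩ | ⟨rfl, rfl⟩ | ⟨rfl, rfl⟩ | ⟨rfl, rfl⟩ | ⟨rfl, rfl⟩ |
      ⟨rfl, rfl⟩ | ⟨rfl, rfl⟩ | ⟨rfl, rfl⟩ | ⟨rfl, rfl⟩ | ⟨rfl, rfl⟩ | ⟨rfl, rfl⟩ | ⟨rfl, rfl⟩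
    · exact ⟨1, by norm_num, by norm_num, 63, by norm_num, 2, by decide +kernel⟩
    · exact ⟨5, by norm_num, by norm_num, 3, by norm_num, 1, by decide +kernel⟩
    · exact ⟨11, by norm_num, by norm_num, 93, by norm_num, 1, by decide +kernel⟩
    · exact ⟨13, by norm_num, by norm_num, 315, by norm_num, 2, by decide +kernel⟩
    · exact ⟨19, by norm_num, by norm_num, 13797, by norm_num, 3, by decide +kernel⟩
    · exact ⟨5, by norm_num, by norm_num, 16, by norm_num, 4, by decide +kernel⟩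
    · exact ⟨7, by norm_num, by norm_num, 104, by norm_num, 3, by decide +kernel⟩
    · exact ⟨7, by norm_num, by norm_num, 2232, by norm_num, 3, by decide +kernel⟩
    · exact ⟨7, by norm_num, by norm_num, 1, by norm_num, 1, by decide +kernel⟩
    · exact ⟨17, by norm_num, by norm_num, 15, by norm_num, 1, by decide +kernel⟩
    · exact ⟨41, by norm_num, by norm_num, 25575, by norm_num, 2, by decide +kernel⟩
    · exact ⟨7, by norm_num, by norm_num, 9, by norm_num, 2, by decide +kernel⟩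
    · exact ⟨13, by norm_num, by norm_num, 315, by norm_num, 2, by decide +kernel⟩
  refine le_trans (Nat.le_of_dvd hL0 ?_) hL
  have hco : Nat.Coprime m R := Nat.Coprime.coprime_dvd_right hK (Nat.Coprime.pow_right K
    (Nat.Coprime.prod_right fun i hi => hc i (Finset.mem_Ico.mp hi).1 (Finset.mem_Ico.mp hi).2))
  exact hco.dvd_of_dvd_mul_right (hR ▸ hm)

end Cfsg.Agent.S4423
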