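import Cfsg.Statements.S4424
import Cfsg.Agent.Chars.BlockRegular
import Cfsg.Agent.OddChar.Virtual

set_option autoImplicit false
set_option linter.style.haveILetI false
open Cfsg

namespace Cfsg.Agent.S4424

/-- Let χ be an irreducible character of the finite group G lying in the p-block B (relative to a maximal ideal M of the algebraic integers containing p), and let p^a be the p-part of the order of G. Then the class function that equals p^a · χ on the p-regular elements and vanishes on the p-singular elements is an integer combination of the irreducible characters in B: there are integers a_ψ, zero for ψ outside B, with that function equal to Σ a_ψ ψ. -/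
theorem result {G : Type*} [Group G] [Finite G] (p : ℕ) [Fact p.Prime] (M : Ideal Cfsg.AlgInt) (hM : Cfsg.IsPModular p M) (B : Set (Cfsg.IrrCharacter G)) (hB : Cfsg.IsPBlock M B) (χ : Cfsg.IrrCharacter G) (hχ : χ ∈ B) : ∃ a : Cfsg.IrrCharacter G → ℤ, (∀ ψ, ψ ∉ B → a ψ = 0) ∧ (fun x : G => if p ∣ orderOf x then (0 : ℂ) else ((p ^ (Nat.card G).factorization p : ℕ) : ℂ) * (χ : G → ℂ) x) = fun x => ∑ᶠ ψ : Cfsg.IrrCharacter G, (a ψ : ℂ) * (ψ : G → ℂ) x := by
  classical
  haveI := Fintype.ofFinite G
  haveI : M.IsMaximal := hM.2.1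
  have hgen := Cfsg.Agent.Chars.isGen_regularPart_full (p := p) (Fact.out : p.Prime)
    (θ := (χ : G → ℂ)) ⟨(χ : G → ℂ), 0, Cfsg.Agent.Chars.irr_isCharacter χ,
      Cfsg.Agent.Chars.isCharacter_zero, (sub_zero _).symm⟩
  obtain ⟨a, ha, hsum, -⟩ := Cfsg.Agent.OddChar.exists_eq_sum_zsmul hgen
  refine ⟨a, fun ψ hψ => ?_, hsum.trans ?_⟩
  · have h := ha ψ
    rw [show Cfsg.Agent.Chars.regularPart p ((p ^ (Nat.card G).factorization p : ℕ) : ℂ) (χ : G → ℂ) =
        fun x : G => if p ∣ orderOf x then (0 : ℂ)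
          else ((p ^ (Nat.card G).factorization p : ℕ) : ℂ) * (χ : G → ℂ) x from rfl,
      Cfsg.Agent.Chars.classInner_regPart, Cfsg.Agent.Blocks.regInner_eq_zero hM.2.2
        (fun hs => hψ (Cfsg.Agent.Blocks.mem_of_sameBlock hB hχ hs)), mul_zero] at h
    exact_mod_cast h.symm
  · funext x
    rw [Finset.sum_apply, finsum_eq_sum_of_fintype]
    exact Finset.sum_congr rfl fun ψ _ => by rw [Pi.smul_apply, zsmul_eq_mul]

end Cfsg.Agent.S4424
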