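import Cfsg.Statements.S4425
import Cfsg.Agent.Chars.RegularPart

set_option autoImplicit false
set_option linter.style.haveILetI false
open Cfsg

namespace Cfsg.Agent.S4425

/-- Let χ be an irreducible character of the finite group G, p a prime, p^a the p-part of the order of G and p^b the p-part of the degree χ(1). Let χ̃ be the class function equal to p^a · χ on p-regular elements and zero on p-singular elements. Then p^(−b) · χ̃ is a generalized character of G, while p^(−(b+1)) · χ̃ is not. -/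
theorem result {G : Type*} [Group G] [Finite G] (p : ℕ) [Fact p.Prime] (χ : Cfsg.IrrCharacter G) : Cfsg.IsGeneralizedCharacter G (fun x : G => if p ∣ orderOf x then (0 : ℂ) else ((p ^ ((Nat.card G).factorization p - (Cfsg.charDegree (χ : G → ℂ)).factorization p) : ℕ) : ℂ) * (χ : G → ℂ) x) ∧ ¬ Cfsg.IsGeneralizedCharacter G (fun x : G => if p ∣ orderOf x then (0 : ℂ) else ((p ^ (Nat.card G).factorization p : ℕ) : ℂ) / ((p ^ ((Cfsg.charDegree (χ : G → ℂ)).factorization p + 1) : ℕ) : ℂ) * (χ : G → ℂ) x) := by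
  haveI := Fintype.ofFinite G
  have hp : p.Prime := Fact.out
  obtain ⟨n, hn0, hn, hdvd⟩ := Cfsg.Agent.Chars.irr_degree_dvd_card χ.2
  have hdeg : Cfsg.charDegree (χ : G → ℂ) = n := by
    rw [Cfsg.charDegree, hn, Complex.natCast_re, Nat.floor_natCast]
  rw [hdeg]
  refine ⟨Cfsg.Agent.Chars.isGen_regularPart_defect hp χ.2 hn, fun hgen => ?_⟩
  obtain ⟨P⟩ : Nonempty (Sylow p G) := inferInstance
  obtain ⟨k, hk⟩ := Cfsg.Agent.Chars.gen_degree_dvd_of_vanish hgen P (fun g hg hg1 => by
    show (if p ∣ orderOf g then (0 : ℂ) else _) = 0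
    rw [if_pos]
    haveI := Fact.mk hp
    obtain ⟨j, hj⟩ := P.2 ⟨g, hg⟩
    obtain ⟨i, -, hi⟩ := (Nat.dvd_prime_pow hp).1
      (orderOf_dvd_of_pow_eq_one (show g ^ p ^ j = 1 from congrArg Subtype.val hj))
    rw [hi]
    refine dvd_pow_self p ?_
    rintro rfl
    exact hg1 (orderOf_eq_one_iff.1 (by simpa using hi)))
  simp only [orderOf_one, Nat.dvd_one, hp.ne_one, if_false, hn] at hk
  rw [P.card_eq_multiplicity] at hk
  set a := (Nat.card G).factorization p
  set b := n.factorization p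
  have hp0 : (p : ℂ) ≠ 0 := by exact_mod_cast hp.ne_zero
  push_cast at hk
  field_simp at hk
  have h2 : ((n : ℤ) : ℂ) = (((p : ℤ) ^ (b + 1) * k : ℤ) : ℂ) := by
    push_cast
    linear_combination hk
  have h3 : ((p ^ (b + 1) : ℕ) : ℤ) ∣ (n : ℤ) := ⟨k, by push_cast; exact_mod_cast h2⟩
  exact Nat.pow_succ_factorization_not_dvd hn0.ne' hp (Int.natCast_dvd_natCast.1 h3)

end Cfsg.Agent.S4425
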