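import Cfsg.Statements.S4426
import Cfsg.Agent.Chars.BlockRegular
import Cfsg.Agent.OddChar.Virtual

set_option autoImplicit false
set_option linter.style.haveILetI false
open Cfsg

namespace Cfsg.Agent.S4426

/-- Let χ be an irreducible character in the p-block B of the finite group G (relative to a maximal ideal M of the algebraic integers containing p), let p^a be the p-part of the order of G, and let χ̃ be the class function equal to p^a · χ on p-regular elements and zero elsewhere. For ξ ∈ B the inner product [χ̃, ξ] is an integer. The following are equivalent: (a) χ has height zero in B; (b) for some ξ ∈ B the integer [χ̃, ξ] is nonzero and the exact power of p dividing it equals the exact power of p dividing ξ(1); (c) the same holds for every ξ ∈ B. -/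
theorem result {G : Type*} [Group G] [Fintype G] (p : ℕ) [Fact p.Prime] (M : Ideal Cfsg.AlgInt) (hM : Cfsg.IsPModular p M) (B : Set (Cfsg.IrrCharacter G)) (hB : Cfsg.IsPBlock M B) (χ : Cfsg.IrrCharacter G) (hχ : χ ∈ B) : (Cfsg.blockHeight p B (χ : G → ℂ) = 0 ↔ ∃ ξ ∈ B, ∃ n : ℤ, Cfsg.classInner (fun x : G => if p ∣ orderOf x then (0 : ℂ) else ((p ^ (Nat.card G).factorization p : ℕ) : ℂ) * (χ : G → ℂ) x) (ξ : G → ℂ) = (n : ℂ) ∧ n ≠ 0 ∧ padicValInt p n = (Cfsg.charDegree (ξ : G → ℂ)).factorization p) ∧ (Cfsg.blockHeight p B (χ : G → ℂ) = 0 ↔ ∀ ξ ∈ B, ∃ n : ℤ, Cfsg.classInner (fun x : G => if p ∣ orderOf x then (0 : ℂ) else ((p ^ (Nat.card G).factorization p : ℕ) : ℂ) * (χ : G → ℂ) x) (ξ : G → ℂ) = (n : ℂ) ∧ n ≠ 0 ∧ padicValInt p n = (Cfsg.charDegree (ξ : G → ℂ)).factorization p) := by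
  classical
  haveI : M.IsMaximal := hM.2.1
  have hpM : (p : Cfsg.AlgInt) ∈ M := hM.2.2
  have hgen := Cfsg.Agent.Chars.isGen_regularPart_full (p := p) (Fact.out : p.Prime)
    (θ := (χ : G → ℂ)) ⟨(χ : G → ℂ), 0, Cfsg.Agent.Chars.irr_isCharacter χ,
      Cfsg.Agent.Chars.isCharacter_zero, (sub_zero _).symm⟩
  obtain ⟨a, ha, -, -⟩ := Cfsg.Agent.OddChar.exists_eq_sum_zsmul hgen
  unfold Cfsg.Agent.Chars.regularPart at ha
  have key : ∀ ξ ∈ B, (Cfsg.blockHeight p B (χ : G → ℂ) = 0 → a ξ ≠ 0 ∧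
      padicValInt p (a ξ) = (Cfsg.charDegree (ξ : G → ℂ)).factorization p) ∧
      (a ξ ≠ 0 ∧ padicValInt p (a ξ) = (Cfsg.charDegree (ξ : G → ℂ)).factorization p →
        Cfsg.blockHeight p B (χ : G → ℂ) = 0) := by
    intro ξ hξ
    obtain ⟨hd, hd0⟩ := Cfsg.Agent.Blocks.charDegree_eq ξ.2
    obtain ⟨m, hm, h⟩ := Cfsg.Agent.Chars.classInner_regPart_div (p := p)
      (Cfsg.Agent.Chars.irr_isCharacter χ) ξ
    rw [ha ξ, hd] at h
    have hclR := Cfsg.Agent.Blocks.omega_memR hpM ξ.2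
      (Cfsg.Agent.Blocks.isClassFunction_regConj (p := p)
        (Cfsg.Agent.Chars.isClassFunction_irr χ)) (Cfsg.Agent.Blocks.rFun_regConj χ)
    have habs : ((a ξ).natAbs : ℂ) = (a ξ : ℂ) ∨ ((a ξ).natAbs : ℂ) = -(a ξ : ℂ) := by
      rcases Int.natAbs_eq (a ξ) with e | e
      · left; conv_rhs => rw [e]
        rw [Int.cast_natCast]
      · right; conv_rhs => rw [e]
        rw [Int.cast_neg, Int.cast_natCast, neg_neg]
    have hI : Cfsg.MemLocalIdeal M (((a ξ).natAbs : ℂ) / Cfsg.charDegree (ξ : G → ℂ)) ↔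
        Cfsg.MemLocalIdeal M
          (Cfsg.Agent.Blocks.omega (ξ : G → ℂ) (Cfsg.Agent.Blocks.regConj p (χ : G → ℂ))) := by
      rw [← Cfsg.Agent.Chars.memI_div_iff hpM hm (x := Cfsg.Agent.Blocks.omega _ _), ← h]
      rcases habs with e | e <;> rw [e]
      rw [neg_div]
      exact ⟨fun e => by simpa using Cfsg.Agent.Blocks.memI_neg e, Cfsg.Agent.Blocks.memI_neg⟩
    have hR : Cfsg.MemLocalRing M (((a ξ).natAbs : ℂ) / Cfsg.charDegree (ξ : G → ℂ)) := by
      have h1 := Cfsg.Agent.Blocks.memR_mul hclR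
        (Cfsg.Agent.Blocks.memR_inv_natCast hpM hm)
      rw [← div_eq_mul_inv, ← h] at h1
      rcases habs with e | e <;> rw [e]
      · exact h1
      · rw [neg_div]; exact Cfsg.Agent.Blocks.memR_neg h1
    have hval : padicValInt p (a ξ) = (a ξ).natAbs.factorization p :=
      (Nat.factorization_def _ (Fact.out : p.Prime)).symm
    constructor
    · intro h0
      obtain ⟨h1, h2⟩ := Cfsg.Agent.Chars.nat_ratio_unit hpM hd0.ne' hR fun e =>
        Cfsg.Agent.Blocks.not_memI_omega_regConj hpM hB hχ h0 hξ (hI.1 e)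
      exact ⟨fun e => h1 (by rw [e]; rfl), hval.trans h2⟩
    · rintro ⟨h1, h2⟩
      by_contra h0
      rcases Cfsg.Agent.Chars.nat_ratio_ideal hpM hd0.ne'
          (hI.2 (Cfsg.Agent.Blocks.memI_omega_regConj hpM hB hχ h0 ξ)) with e | e
      · exact h1 (Int.natAbs_eq_zero.1 e)
      · omega
  refine ⟨⟨fun h0 => ⟨χ, hχ, a χ, ha χ, (key χ hχ).1 h0⟩, ?_⟩,
    ⟨fun h0 ξ hξ => ⟨a ξ, ha ξ, (key ξ hξ).1 h0⟩, ?_⟩⟩
  · rintro ⟨ξ, hξ, n, hn, h⟩
    have e : n = a ξ := by exact_mod_cast hn.symm.trans (ha ξ)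
    exact (key ξ hξ).2 (e ▸ h)
  · intro hall
    obtain ⟨n, hn, h⟩ := hall χ hχ
    have e : n = a χ := by exact_mod_cast hn.symm.trans (ha χ)
    exact (key χ hχ).2 (e ▸ h)

end Cfsg.Agent.S4426
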