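import Cfsg.Statements.S4429
import Cfsg.Agent.Chars.Order7920

set_option autoImplicit false
open Cfsg Cfsg.Agent

namespace Cfsg.Agent.S4429

/-- Let G be a simple group of order 7920. Then G has exactly ten irreducible complex characters, and their degrees, listed with multiplicity, are 1, 10, 10, 10, 11, 16, 16, 44, 45, 55: for every natural number n, the number of irreducible characters of degree n is 1 if n ∈ {1, 11, 44, 45, 55}, 3 if n = 10, 2 if n = 16, and 0 otherwise. -/
theorem result {G : Type*} [Group G] [Finite G] [IsSimpleGroup G] (hG : Nat.card G = 7920) : Nat.card (Cfsg.IrrCharacter G) = 10 ∧ ∀ n : ℕ, Nat.card {χ : Cfsg.IrrCharacter G // Cfsg.charDegree (χ : G → ℂ) = n} = (if n = 1 ∨ n = 11 ∨ n = 44 ∨ n = 45 ∨ n = 55 then 1 else if n = 10 then 3 else if n = 16 then 2 else 0) := by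
  classical
  haveI := Fintype.ofFinite G
  obtain ⟨o, a, b, c, f, θ, θ', r, s, q, hall, hnd, hdeg⟩ := Chars.Order7920.degrees hG
  have huniv : (Finset.univ : Finset (IrrCharacter G)) =
      ([o, a, b, c, f, θ, θ', r, s, q] : List (IrrCharacter G)).toFinset :=
    Finset.ext fun χ => iff_of_true (Finset.mem_univ _) (List.mem_toFinset.2 (hall χ))
  refine ⟨?_, fun n => ?_⟩
  · rw [Nat.card_eq_fintype_card, ← Finset.card_univ, huniv, List.toFinset_card_of_nodup hnd]
    rfl
  · rw [Nat.card_eq_fintype_card, Fintype.card_subtype, Finset.card_filter, huniv,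
      List.sum_toFinset _ hnd,
      show ([o, a, b, c, f, θ, θ', r, s, q] : List (IrrCharacter G)).map
          (fun χ : IrrCharacter G => if charDegree (χ : G → ℂ) = n then 1 else 0) =
        (([o, a, b, c, f, θ, θ', r, s, q] : List (IrrCharacter G)).map
          (fun χ : IrrCharacter G => charDegree (χ : G → ℂ))).map (fun d => if d = n then 1 else 0) by
        rw [List.map_map]; rfl, hdeg]
    simp only [List.map_cons, List.map_nil, List.sum_cons, List.sum_nil]
    split_ifs <;> omega

end Cfsg.Agent.S4429
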