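import Cfsg.Statements.S4430
import Cfsg.Agent.Chars.BlockRegular
import Cfsg.Agent.Chars.FongReynolds

set_option autoImplicit false
set_option linter.style.haveILetI false
open Cfsg

namespace Cfsg.Agent.S4430

/-- Let H be a subgroup of the finite group G, b a block of H whose induced block B₀ in G is defined (relative to a maximal ideal M of the algebraic integers containing p), and ξ ∈ b. For a block B of G let n_B be the value at 1 of the B-part of the induced character ξ^G (a natural number: the sum over χ ∈ B of the multiplicity of χ in ξ^G times χ(1)). Then for B = B₀ the exact power of p dividing n_B equals the exact power of p dividing ξ^G(1), while for every other block B either n_B = 0 or n_B is divisible by a strictly higher power of p than ξ^G(1). -/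
theorem result {G : Type*} [Group G] [Fintype G] (p : ℕ) [Fact p.Prime] (M : Ideal Cfsg.AlgInt) (hM : Cfsg.IsPModular p M) (H : Subgroup G) [Fintype H] (b : Set (Cfsg.IrrCharacter H)) (B₀ : Set (Cfsg.IrrCharacter G)) (hind : Cfsg.IsInducedBlock M H b B₀) (ξ : Cfsg.IrrCharacter H) (hξ : ξ ∈ b) : (∃ n : ℕ, Cfsg.blockPart B₀ (Cfsg.indFun H (ξ : H → ℂ)) 1 = (n : ℂ) ∧ n ≠ 0 ∧ n.factorization p = (Cfsg.charDegree (Cfsg.indFun H (ξ : H → ℂ))).factorization p) ∧ ∀ B : Set (Cfsg.IrrCharacter G), Cfsg.IsPBlock M B → B ≠ B₀ → ∃ n : ℕ, Cfsg.blockPart B (Cfsg.indFun H (ξ : H → ℂ)) 1 = (n : ℂ) ∧ (n = 0 ∨ (Cfsg.charDegree (Cfsg.indFun H (ξ : H → ℂ))).factorization p < n.factorization p) := by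
  classical
  haveI : M.IsMaximal := hM.2.1
  have hpM : (p : Cfsg.AlgInt) ∈ M := hM.2.2
  obtain ⟨χ₀, hχ₀⟩ := Cfsg.Agent.Blocks.block_nonempty hind.2.1
  obtain ⟨hd, hd0⟩ := Cfsg.Agent.Blocks.charDegree_eq ξ.2
  set d := Cfsg.charDegree (ξ : H → ℂ) with hddef
  have hidx : H.index ≠ 0 := Subgroup.index_ne_zero_of_finite
  set θ := Cfsg.indFun H (ξ : H → ℂ) with hθ
  have hθ1 : θ 1 = ((H.index * d : ℕ) : ℂ) := by
    rw [hθ, Cfsg.Agent.Chars.indFun_apply_one, hd, Nat.cast_mul]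
  have hdeg : Cfsg.charDegree θ = H.index * d := by
    rw [Cfsg.charDegree, hθ1, Complex.natCast_re, Nat.floor_natCast]
  obtain ⟨l, hl, -⟩ := Cfsg.Agent.Chars.exists_eq_sum_nsmul
    (Cfsg.Agent.Chars.isCharacter_indFun H (Cfsg.Agent.Chars.irr_isCharacter ξ))
  have hnat : ∀ B : Set (Cfsg.IrrCharacter G), ∃ n : ℕ, Cfsg.blockPart B θ 1 = n := by
    intro B
    refine ⟨∑ χ ∈ Finset.univ.filter (· ∈ B), l χ * Cfsg.charDegree (χ : G → ℂ), ?_⟩
    simp only [Cfsg.blockPart]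
    rw [Cfsg.Agent.Blocks.finsum_mem_eq_filter, Nat.cast_sum]
    refine Finset.sum_congr rfl fun χ _ => ?_
    rw [Nat.cast_mul, ← hl χ, (Cfsg.Agent.Blocks.charDegree_eq χ.2).1]
    congr 2
    exact Subsingleton.elim _ _
  have hratio : ∀ (B : Set (Cfsg.IrrCharacter G)) (n : ℕ), Cfsg.blockPart B θ 1 = n →
      (n : ℂ) / ((H.index * d : ℕ) : ℂ) = Cfsg.Agent.Blocks.omega (ξ : H → ℂ)
        (Cfsg.Agent.Blocks.resFun H (Cfsg.blockCoeff B)) := by
    intro B n hn
    rw [← hn, Cfsg.Agent.Blocks.blockPart_eq_sum B (Cfsg.Agent.Chars.isClassFunction_indFun H _)]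
    simp only [mul_one]
    rw [Finset.sum_congr rfl (fun k _ => mul_comm (Cfsg.blockCoeff B k) (θ k)), hθ,
      Cfsg.Agent.Chars.FongReynolds.sum_indFun_mul _ (Cfsg.Agent.Blocks.isClassFunction_blockCoeff B),
      Cfsg.Agent.Blocks.omega, hd, Nat.cast_mul, mul_div_mul_left _ _ (Nat.cast_ne_zero.2 hidx)]
    congr 1
    exact Finset.sum_congr rfl fun h _ => mul_comm _ _
  have hcong : ∀ B : Set (Cfsg.IrrCharacter G), Cfsg.IsPBlock M B →
      Cfsg.MemLocalIdeal M (Cfsg.Agent.Blocks.omega (ξ : H → ℂ)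
        (Cfsg.Agent.Blocks.resFun H (Cfsg.blockCoeff B)) -
          Cfsg.Agent.Blocks.omega (χ₀ : G → ℂ) (Cfsg.blockCoeff B)) := fun B hB =>
    Cfsg.Agent.Blocks.isInducedBlock_apply H hpM hind hξ hχ₀
      (Cfsg.Agent.Blocks.isClassFunction_blockCoeff B) (Cfsg.Agent.Blocks.rFun_blockCoeff hpM hB)
  constructor
  · obtain ⟨n, hn⟩ := hnat B₀
    have h := hcong B₀ hind.2.1
    rw [Cfsg.Agent.Blocks.omega_blockCoeff_mem hχ₀, ← hratio B₀ n hn] at h
    have hR : Cfsg.MemLocalRing M ((n : ℂ) / ((H.index * d : ℕ) : ℂ)) := by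
      simpa using Cfsg.Agent.Blocks.memR_add (Cfsg.Agent.Blocks.memI_memR h)
        (Cfsg.Agent.Blocks.memR_one)
    obtain ⟨h1, h2⟩ := Cfsg.Agent.Chars.nat_ratio_unit hpM (mul_ne_zero hidx hd0.ne') hR fun e =>
      Cfsg.Agent.Blocks.not_memI_one ((Cfsg.Agent.Blocks.memI_iff_of_sub h).1 e)
    exact ⟨n, hn, h1, by rw [hdeg]; exact h2⟩
  · intro B hB hne
    obtain ⟨n, hn⟩ := hnat B
    have h := hcong B hB
    rw [Cfsg.Agent.Blocks.omega_blockCoeff_not_mem
      (fun e => hne (Cfsg.Agent.Blocks.blocks_eq_of_inter hB hind.2.1 e hχ₀)), sub_zero,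
      ← hratio B n hn] at h
    refine ⟨n, hn, ?_⟩
    rw [hdeg]
    exact Cfsg.Agent.Chars.nat_ratio_ideal hpM (mul_ne_zero hidx hd0.ne') h

end Cfsg.Agent.S4430
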