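import Cfsg.Statements.S4431
import Cfsg.Agent.Chars.BlockRegular
import Cfsg.Agent.Blocks.Brauer

set_option autoImplicit false
set_option linter.style.haveILetI false
open Cfsg

namespace Cfsg.Agent.S4431

/-- Let H be a subgroup of the finite group G and b a block of H whose induced block B₀ in G is defined (relative to a maximal ideal M of the algebraic integers containing p). Let χ be an irreducible character of G, ψ ∈ b, and let η be the class function on H equal to p^a · χ on the p-regular elements of H and zero elsewhere, p^a being the p-part of the order of H. Then (a) if χ ∉ B₀, the number [η, ψ]/ψ(1) lies in the local ideal at M; (b) if χ ∈ B₀ has height zero, it does not. -/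
theorem result {G : Type*} [Group G] [Fintype G] (p : ℕ) [Fact p.Prime] (M : Ideal Cfsg.AlgInt) (hM : Cfsg.IsPModular p M) (H : Subgroup G) [Fintype H] (b : Set (Cfsg.IrrCharacter H)) (B₀ : Set (Cfsg.IrrCharacter G)) (hind : Cfsg.IsInducedBlock M H b B₀) (χ : Cfsg.IrrCharacter G) (ψ : Cfsg.IrrCharacter H) (hψ : ψ ∈ b) : (χ ∉ B₀ → Cfsg.MemLocalIdeal M (Cfsg.classInner (fun h : H => if p ∣ orderOf h then (0 : ℂ) else ((p ^ (Nat.card H).factorization p : ℕ) : ℂ) * (χ : G → ℂ) h) (ψ : H → ℂ) / (ψ : H → ℂ) 1)) ∧ (χ ∈ B₀ → Cfsg.blockHeight p B₀ (χ : G → ℂ) = 0 → ¬ Cfsg.MemLocalIdeal M (Cfsg.classInner (fun h : H => if p ∣ orderOf h then (0 : ℂ) else ((p ^ (Nat.card H).factorization p : ℕ) : ℂ) * (χ : G → ℂ) h) (ψ : H → ℂ) / (ψ : H → ℂ) 1)) := by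
  classical
  haveI : M.IsMaximal := hM.2.1
  have hpM : (p : Cfsg.AlgInt) ∈ M := hM.2.2
  obtain ⟨χ₀, hχ₀⟩ := Cfsg.Agent.Blocks.block_nonempty hind.2.1
  obtain ⟨m, hm, h⟩ := Cfsg.Agent.Chars.classInner_regPart_div (p := p)
    (Cfsg.Agent.Chars.isCharacter_restrict (Cfsg.Agent.Chars.irr_isCharacter χ) H) ψ
  rw [show Cfsg.Agent.Blocks.regConj p (fun h : H => (χ : G → ℂ) h) =
    Cfsg.Agent.Blocks.resFun H (Cfsg.Agent.Blocks.regConj p (χ : G → ℂ)) from
      (Cfsg.Agent.Blocks.resFun_regConj (p := p) H (χ : G → ℂ)).symm] at h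
  have hc := Cfsg.Agent.Blocks.isInducedBlock_apply H hpM hind hψ hχ₀
    (Cfsg.Agent.Blocks.isClassFunction_regConj (p := p) (Cfsg.Agent.Chars.isClassFunction_irr χ))
    (Cfsg.Agent.Blocks.rFun_regConj χ)
  rw [h, Cfsg.Agent.Chars.memI_div_iff hpM hm, Cfsg.Agent.Blocks.memI_iff_of_sub hc]
  refine ⟨fun hn => ?_, fun hmem h0 =>
    Cfsg.Agent.Blocks.not_memI_omega_regConj hpM hind.2.1 hmem h0 hχ₀⟩
  rw [Cfsg.Agent.Blocks.omega_regConj_of_not_sameBlock hpM
    (fun hs => hn (Cfsg.Agent.Blocks.mem_of_sameBlock hind.2.1 hχ₀ hs))]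
  exact Cfsg.Agent.Blocks.memI_zero

end Cfsg.Agent.S4431
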