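import Cfsg.Statements.S4434
import Cfsg.Agent.Chars.QuotientBlocks

set_option autoImplicit false
set_option linter.style.haveILetI false
open Cfsg

namespace Cfsg.Agent.S4434

/-- Let N be a normal p-subgroup of the finite group G and write Ḡ = G/N; fix a maximal ideal M of the algebraic integers containing p. Then every block B of G contains a block B̄ of Ḡ (the inflation of every member of B̄ lies in B) whose defect groups are exactly the images in Ḡ of the defect groups of B. -/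
theorem result {G : Type*} [Group G] [Finite G] (p : ℕ) [Fact p.Prime] (M : Ideal Cfsg.AlgInt) (hM : Cfsg.IsPModular p M) (N : Subgroup G) [N.Normal] (hN : IsPGroup p N) (B : Set (Cfsg.IrrCharacter G)) (hB : Cfsg.IsPBlock M B) : ∃ Bbar : Set (Cfsg.IrrCharacter (G ⧸ N)), Cfsg.IsPBlock M Bbar ∧ (∀ χ ∈ Bbar, ∀ ψ : Cfsg.IrrCharacter G, (ψ : G → ℂ) = (χ : G ⧸ N → ℂ) ∘ QuotientGroup.mk → ψ ∈ B) ∧ ∀ Dbar : Subgroup (G ⧸ N), Cfsg.IsDefectGroup p M Bbar Dbar ↔ ∃ P : Subgroup G, Cfsg.IsDefectGroup p M B P ∧ Dbar = P.map (QuotientGroup.mk' N) := by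
  classical
  letI := Fintype.ofFinite G
  haveI : Fintype (G ⧸ N) := Fintype.ofFinite _
  haveI : M.IsMaximal := hM.2.1
  have hpM : (p : Cfsg.AlgInt) ∈ M := hM.2.2
  haveI := Cfsg.Agent.BlockChar.charP_res (p := p) hpM
  have he := Cfsg.Agent.BlockChar.isBlk_idemG hpM hB
  obtain ⟨P, hP⟩ := Cfsg.Agent.BlockChar.exists_isDef (p := p) he
  obtain ⟨b, hb, hle, hD⟩ := Cfsg.Agent.Chars.Quot.exists_blk_image_def N hpM hB hN hP
  obtain ⟨Bbar, hBbar, rfl⟩ := Cfsg.Agent.BlockChar.exists_idemG_eq hpM hb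
  refine ⟨Bbar, hBbar, fun χ hχ ψ hψ => ?_, fun Dbar => ?_⟩
  · rw [show ψ = Cfsg.Agent.Chars.Quot.infl N χ from Subtype.ext hψ]
    exact (Cfsg.Agent.Chars.Quot.pi_mul_iff N hpM hB hBbar hχ).1 hle
  · rw [Cfsg.Agent.BlockChar.isDefectGroup_iff_idemG hpM hBbar]
    constructor
    · intro h
      obtain ⟨x, -, rfl⟩ := hD.exists_conj h
      obtain ⟨y, rfl⟩ := QuotientGroup.mk_surjective x
      exact ⟨_, (Cfsg.Agent.BlockChar.isDefectGroup_iff_idemG hpM hB _).2
        (hP.conj he (Subgroup.mem_top y)), (Cfsg.Agent.Chars.Quot.map_conjS N y P).symm⟩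
    · rintro ⟨P', hP', rfl⟩
      obtain ⟨y, -, rfl⟩ :=
        hP.exists_conj ((Cfsg.Agent.BlockChar.isDefectGroup_iff_idemG hpM hB P').1 hP')
      rw [Cfsg.Agent.Chars.Quot.map_conjS]
      exact hD.conj hb (Subgroup.mem_top _)

end Cfsg.Agent.S4434
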