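import Cfsg.Statements.S4435
import Cfsg.Agent.Chars.FongReynolds
import Cfsg.Agent.Blocks.Brauer

set_option autoImplicit false
set_option linter.style.haveILetI false
open Cfsg

namespace Cfsg.Agent.S4435

/-- Let N be a normal subgroup of the finite group G, b a block of N (relative to a maximal ideal M of the algebraic integers containing p), and T the stabilizer of b in G (the elements g such that conjugating any member of b by g gives a member of b); N ≤ T. Say that a block of T (or of G) covers b when some member has a constituent in b on restriction to N. Then: (i) every block B′ of T covering b induces a block B of G, B covers b, every ψ ∈ B′ induces to an irreducible character of G, and B consists exactly of the characters induced from members of B′; (ii) distinct blocks of T covering b induce distinct blocks of G; (iii) every block of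 G covering b is induced by some block of T covering b. -/
theorem result {G : Type*} [Group G] [Fintype G] (p : ℕ) [Fact p.Prime] (M : Ideal Cfsg.AlgInt) (hM : Cfsg.IsPModular p M) (N : Subgroup G) [hN : N.Normal] [Fintype N] (b : Set (Cfsg.IrrCharacter N)) (hb : Cfsg.IsPBlock M b) (T : Subgroup G) [Fintype T] (hT : ∀ g : G, g ∈ T ↔ ∀ θ ∈ b, ∀ θ' : Cfsg.IrrCharacter N, (∀ n : N, (θ' : N → ℂ) n = (θ : N → ℂ) ⟨g * n * g⁻¹, hN.conj_mem n n.2 g⟩) → θ' ∈ b) (hNT : N ≤ T) : (∀ B' : Set (Cfsg.IrrCharacter T), Cfsg.IsPBlock M B' → (∃ ψ ∈ B', ∃ θ ∈ b, Cfsg.classInner (fun n : N => (ψ : T → ℂ) ⟨(n : G), hNT n.2⟩) (θ : N → ℂ) ≠ 0) → ∃ B : Set (Cfsg.IrrCharacter G), Cfsg.IsInducedBlock M T B' B ∧ (∃ χ ∈ B, ∃ θ ∈ b, Cfsg.classInner (fun n : N => (χ : G → ℂ) n) (θ : N → ℂ) ≠ 0) ∧ (∀ ψ ∈ B', Cfsg.IsIrrCharacter G (Cfsg.indFun T (ψ : T → ℂ))) ∧ ∀ χ : Cfsg.IrrCharacter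 G, χ ∈ B ↔ ∃ ψ ∈ B', (χ : G → ℂ) = Cfsg.indFun T (ψ : T → ℂ)) ∧ (∀ B'₁ B'₂ : Set (Cfsg.IrrCharacter T), Cfsg.IsPBlock M B'₁ → Cfsg.IsPBlock M B'₂ → (∃ ψ ∈ B'₁, ∃ θ ∈ b, Cfsg.classInner (fun n : N => (ψ : T → ℂ) ⟨(n : G), hNT n.2⟩) (θ : N → ℂ) ≠ 0) → (∃ ψ ∈ B'₂, ∃ θ ∈ b, Cfsg.classInner (fun n : N => (ψ : T → ℂ) ⟨(n : G), hNT n.2⟩) (θ : N → ℂ) ≠ 0) → ∀ B : Set (Cfsg.IrrCharacter G), Cfsg.IsInducedBlock M T B'₁ B → Cfsg.IsInducedBlock M T B'₂ B → B'₁ = B'₂) ∧ (∀ B : Set (Cfsg.IrrCharacter G), Cfsg.IsPBlock M B → (∃ χ ∈ B, ∃ θ ∈ b, Cfsg.classInner (fun n : N => (χ : G → ℂ) n) (θ : N → ℂ) ≠ 0) → ∃ B' : Set (Cfsg.IrrCharacter T), Cfsg.IsPBlock M B' ∧ (∃ ψ ∈ B', ∃ θ ∈ b, Cfsg.classInner (fun n : N => (ψ : T → ℂ) ⟨(n : G), hNT n.2⟩) (θ : N → ℂ) ≠ 0) ∧ Cfsg.IsInducedBlock M T B' B) := by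
  classical
  haveI : M.IsMaximal := hM.2.1
  have hpM : (p : Cfsg.AlgInt) ∈ M := hM.2.2
  have hs : Cfsg.Agent.Chars.FongReynolds.IsStab T b := by
    intro g
    have e : ∀ (g : G) (θ : Cfsg.IrrCharacter N) (n : N),
        (Cfsg.Agent.Blocks.conjIrr θ g⁻¹ : N → ℂ) n =
          (θ : N → ℂ) ⟨g * n * g⁻¹, hN.conj_mem n n.2 g⟩ := fun g θ n => by
      show Cfsg.Agent.Chars2.conjFun (θ : N → ℂ) g⁻¹ n = _
      rw [Cfsg.Agent.Chars2.conjFun_apply]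
      simp only [inv_inv]
    rw [← T.inv_mem_iff, hT]
    refine ⟨fun h θ hθ => h θ hθ _ fun n => ?_, fun h θ hθ θ' hθ' => ?_⟩
    · simpa using e g⁻¹ θ n
    · rw [show θ' = Cfsg.Agent.Blocks.conjIrr θ g from Subtype.ext (funext fun n => by
        rw [hθ' n, ← e g⁻¹ θ n, inv_inv])]
      exact h θ hθ
  have hblk : ∀ (B' : Set (Cfsg.IrrCharacter T)), Cfsg.IsPBlock M B' →
      ∀ ψ ∈ B', Cfsg.Agent.Chars.FongReynolds.Over hNT b (ψ : T → ℂ) →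
      ∀ χ : Cfsg.IrrCharacter G, Cfsg.indFun T (ψ : T → ℂ) = (χ : G → ℂ) →
      Cfsg.IsInducedBlock M T B' (Cfsg.blockOf M (χ : G → ℂ)) := by
    intro B' hB' ψ hψ _ χ hχ
    refine Cfsg.Agent.Blocks.isInducedBlock_of_omega T hB' (Cfsg.Agent.Blocks.isPBlock_blockOf χ) hψ
      (Cfsg.Agent.Blocks.mem_blockOf_self χ) fun g => ?_
    rw [Cfsg.Agent.Blocks.omega_clsFun (Cfsg.Agent.Chars.isClassFunction_irr χ), ← hχ,
      Cfsg.Agent.Blocks.centralChar_indFun, sub_self]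
    exact Cfsg.Agent.Blocks.memI_zero
  have hall : ∀ (B' : Set (Cfsg.IrrCharacter T)), Cfsg.IsPBlock M B' →
      (∃ ψ ∈ B', ∃ θ ∈ b, Cfsg.classInner (fun n : N => (ψ : T → ℂ) ⟨(n : G), hNT n.2⟩)
        (θ : N → ℂ) ≠ 0) → ∀ ψ ∈ B', Cfsg.Agent.Chars.FongReynolds.Over hNT b (ψ : T → ℂ) := by
    rintro B' hB' ⟨ψ₀, hψ₀, hov⟩ ψ hψ
    exact Cfsg.Agent.Chars.FongReynolds.over_of_sameBlock hpM hNT hb hs
      (Cfsg.Agent.Blocks.sameBlock_of_mem hB' hψ₀ hψ) hov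
  refine ⟨fun B' hB' hcov => ?_, fun B'₁ B'₂ hB₁ hB₂ hc₁ hc₂ B hi₁ hi₂ => ?_, fun B hB hcov => ?_⟩
  · obtain ⟨ψ, hψ, hov⟩ := hcov
    obtain ⟨χ, hχ, -, hθ⟩ := Cfsg.Agent.Chars.FongReynolds.exists_induced hpM hNT hb hs hov
    have hover := hall B' hB' ⟨ψ, hψ, hov⟩
    refine ⟨Cfsg.blockOf M (χ : G → ℂ), hblk B' hB' ψ hψ hov χ hχ,
      ⟨χ, Cfsg.Agent.Blocks.mem_blockOf_self χ, hθ⟩, fun ψ' hψ' => ?_, fun χ' => ⟨fun hχ' => ?_, ?_⟩⟩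
    · obtain ⟨χ', h', -⟩ :=
        Cfsg.Agent.Chars.FongReynolds.exists_induced hpM hNT hb hs (hover ψ' hψ')
      exact h' ▸ χ'.2
    · obtain ⟨θ, hθb, hθc⟩ := hθ
      obtain ⟨θ', hθ'b, hθ'c⟩ :=
        Cfsg.Agent.Chars.FongReynolds.covers_of_sameBlock hpM hb hχ' hθb hθc
      obtain ⟨ψ', ho', hm'⟩ :=
        Cfsg.Agent.Chars.FongReynolds.exists_over_of_constituent hNT hθ'b hθ'c
      have h' := (Cfsg.Agent.Chars.FongReynolds.correspondence hpM hNT hb hs ho' hm').1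
      exact ⟨ψ', Cfsg.Agent.Blocks.mem_of_sameBlock hB' hψ
        (Cfsg.Agent.Chars.FongReynolds.sameBlock_of_induced hpM hNT hb hs hov ho' hχ h' hχ'), h'.symm⟩
    · rintro ⟨ψ', hψ', h'⟩
      exact Cfsg.Agent.Chars.FongReynolds.sameBlock_induced
        (Cfsg.Agent.Blocks.sameBlock_of_mem hB' hψ hψ') hχ h'.symm
  · obtain ⟨ψ₁, hψ₁, ho₁⟩ := hc₁
    obtain ⟨ψ₂, hψ₂, ho₂⟩ := hc₂
    obtain ⟨χ₁, hχ₁, -⟩ := Cfsg.Agent.Chars.FongReynolds.exists_induced hpM hNT hb hs ho₁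
    obtain ⟨χ₂, hχ₂, -⟩ := Cfsg.Agent.Chars.FongReynolds.exists_induced hpM hNT hb hs ho₂
    have e₁ := Cfsg.Agent.Blocks.isInducedBlock_unique T hpM (hblk _ hB₁ ψ₁ hψ₁ ho₁ χ₁ hχ₁) hi₁
    have e₂ := Cfsg.Agent.Blocks.isInducedBlock_unique T hpM (hblk _ hB₂ ψ₂ hψ₂ ho₂ χ₂ hχ₂) hi₂
    have hmem : χ₂ ∈ Cfsg.blockOf M (χ₁ : G → ℂ) := by
      rw [e₁, ← e₂]; exact Cfsg.Agent.Blocks.mem_blockOf_self χ₂
    exact Cfsg.Agent.Blocks.blocks_eq_of_inter hB₁ hB₂ (Cfsg.Agent.Blocks.mem_of_sameBlock hB₁ hψ₁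
      (Cfsg.Agent.Chars.FongReynolds.sameBlock_of_induced hpM hNT hb hs ho₁ ho₂ hχ₁ hχ₂ hmem)) hψ₂
  · obtain ⟨χ, hχ, θ, hθ, hθc⟩ := hcov
    obtain ⟨ψ, ho, hm⟩ := Cfsg.Agent.Chars.FongReynolds.exists_over_of_constituent hNT hθ hθc
    have h := (Cfsg.Agent.Chars.FongReynolds.correspondence hpM hNT hb hs ho hm).1
    refine ⟨Cfsg.blockOf M (ψ : T → ℂ), Cfsg.Agent.Blocks.isPBlock_blockOf ψ,
      ⟨ψ, Cfsg.Agent.Blocks.mem_blockOf_self ψ, ho⟩, ?_⟩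
    rw [Cfsg.Agent.Blocks.block_eq_of_mem hB hχ]
    exact hblk _ (Cfsg.Agent.Blocks.isPBlock_blockOf ψ) ψ (Cfsg.Agent.Blocks.mem_blockOf_self ψ) ho χ h

end Cfsg.Agent.S4435
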