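import Cfsg.Statements.S4436
import Cfsg.Agent.Chars.FongReynolds
import Cfsg.Agent.Blocks.DefectMore

set_option autoImplicit false
set_option linter.style.haveILetI false
open Cfsg

namespace Cfsg.Agent.S4436

/-- Let N be a normal subgroup of the finite group G, b a block of N (relative to a maximal ideal M of the algebraic integers containing p), T the stabilizer of b in G, N ≤ T, and B′ a block of T covering b (some member of B′ has a constituent in b on restriction to N) that induces the block B of G. Then every defect group of B′ is a defect group of B, and for every ψ ∈ B′ the induced character ψ^G is an irreducible character of G lying in B with the same height as ψ. -/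
theorem result {G : Type*} [Group G] [Fintype G] (p : ℕ) [Fact p.Prime] (M : Ideal Cfsg.AlgInt) (hM : Cfsg.IsPModular p M) (N : Subgroup G) [hN : N.Normal] [Fintype N] (b : Set (Cfsg.IrrCharacter N)) (hb : Cfsg.IsPBlock M b) (T : Subgroup G) [Fintype T] (hT : ∀ g : G, g ∈ T ↔ ∀ θ ∈ b, ∀ θ' : Cfsg.IrrCharacter N, (∀ n : N, (θ' : N → ℂ) n = (θ : N → ℂ) ⟨g * n * g⁻¹, hN.conj_mem n n.2 g⟩) → θ' ∈ b) (hNT : N ≤ T) (B' : Set (Cfsg.IrrCharacter T)) (hB' : Cfsg.IsPBlock M B') (hcov : (∃ ψ ∈ B', ∃ θ ∈ b, Cfsg.classInner (fun n : N => (ψ : T → ℂ) ⟨(n : G), hNT n.2⟩) (θ : N → ℂ) ≠ 0)) (B : Set (Cfsg.IrrCharacter G)) (hind : Cfsg.IsInducedBlock M T B' B) : (∀ D : Subgroup T, Cfsg.IsDefectGroup p M B' D → Cfsg.IsDefectGroup p M B (D.map T.subtype)) ∧ ∀ ψ ∈ B', ∃ χ ∈ B, (χ : G → ℂ) = Cfsg.indFun T (ψ : T → ℂ) ∧ Cfsg.blockHeight p B (χ : G → ℂ) = Cfsg.blockHeight p B' (ψ : T → ℂ) := by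
  classical
  haveI : M.IsMaximal := hM.2.1
  have hpM : (p : Cfsg.AlgInt) ∈ M := hM.2.2
  have hs : Cfsg.Agent.Chars.FongReynolds.IsStab T b := by
    intro g
    have e : ∀ (g : G) (θ : Cfsg.IrrCharacter N) (n : N),
        (Cfsg.Agent.Blocks.conjIrr θ g⁻¹ : N → ℂ) n =
          (θ : N → ℂ) ⟨g * n * g⁻¹, hN.conj_mem n n.2 g⟩ := fun g θ n => by
      show Cfsg.Agent.Chars2.conjFun (θ : N → ℂ) g⁻¹ n = _
      rw [Cfsg.Agent.Chars2.conjFun_apply]
      simp only [inv_inv]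
    rw [← T.inv_mem_iff, hT]
    refine ⟨fun h θ hθ => h θ hθ _ fun n => ?_, fun h θ hθ θ' hθ' => ?_⟩
    · simpa using e g⁻¹ θ n
    · rw [show θ' = Cfsg.Agent.Blocks.conjIrr θ g from Subtype.ext (funext fun n => by
        rw [hθ' n, ← e g⁻¹ θ n, inv_inv])]
      exact h θ hθ
  obtain ⟨ψ₀, hψ₀, hov⟩ := hcov
  have hover : ∀ ψ ∈ B', Cfsg.Agent.Chars.FongReynolds.Over hNT b (ψ : T → ℂ) := fun ψ hψ =>
    Cfsg.Agent.Chars.FongReynolds.over_of_sameBlock hpM hNT hb hs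
      (Cfsg.Agent.Blocks.sameBlock_of_mem hB' hψ₀ hψ) hov
  obtain ⟨χ₀, hχ₀, -, θ₀, hθ₀, hθc₀⟩ :=
    Cfsg.Agent.Chars.FongReynolds.exists_induced hpM hNT hb hs hov
  have hχ₀B : χ₀ ∈ B := by
    have h : Cfsg.IsInducedBlock M T B' (Cfsg.blockOf M (χ₀ : G → ℂ)) := by
      refine Cfsg.Agent.Blocks.isInducedBlock_of_omega T hB'
        (Cfsg.Agent.Blocks.isPBlock_blockOf χ₀) hψ₀ (Cfsg.Agent.Blocks.mem_blockOf_self χ₀) fun g => ?_
      rw [Cfsg.Agent.Blocks.omega_clsFun (Cfsg.Agent.Chars.isClassFunction_irr χ₀), ← hχ₀,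
        Cfsg.Agent.Blocks.centralChar_indFun, sub_self]
      exact Cfsg.Agent.Blocks.memI_zero
    rw [← Cfsg.Agent.Blocks.isInducedBlock_unique T hpM h hind]
    exact Cfsg.Agent.Blocks.mem_blockOf_self χ₀
  have hiff : ∀ ψ ∈ B', ∃ χ ∈ B, Cfsg.indFun T (ψ : T → ℂ) = (χ : G → ℂ) := by
    intro ψ hψ
    obtain ⟨χ, hχ, -⟩ := Cfsg.Agent.Chars.FongReynolds.exists_induced hpM hNT hb hs (hover ψ hψ)
    exact ⟨χ, Cfsg.Agent.Blocks.mem_of_sameBlock hind.2.1 hχ₀B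
      (Cfsg.Agent.Chars.FongReynolds.sameBlock_induced
        (Cfsg.Agent.Blocks.sameBlock_of_mem hB' hψ₀ hψ) hχ₀ hχ), hχ⟩
  have hback : ∀ χ ∈ B, ∃ ψ ∈ B', Cfsg.indFun T (ψ : T → ℂ) = (χ : G → ℂ) := by
    intro χ hχ
    have hsb := Cfsg.Agent.Blocks.sameBlock_of_mem hind.2.1 hχ₀B hχ
    obtain ⟨θ, hθ, hθc⟩ :=
      Cfsg.Agent.Chars.FongReynolds.covers_of_sameBlock hpM hb hsb hθ₀ hθc₀
    obtain ⟨ψ, ho, hm⟩ := Cfsg.Agent.Chars.FongReynolds.exists_over_of_constituent hNT hθ hθc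
    have h := (Cfsg.Agent.Chars.FongReynolds.correspondence hpM hNT hb hs ho hm).1
    exact ⟨ψ, Cfsg.Agent.Blocks.mem_of_sameBlock hB' hψ₀
      (Cfsg.Agent.Chars.FongReynolds.sameBlock_of_induced hpM hNT hb hs hov ho hχ₀ h hsb), h⟩
  set f : Cfsg.IrrCharacter T → ℕ := fun ψ => (Cfsg.charDegree (ψ : T → ℂ)).factorization p
  set F : Cfsg.IrrCharacter G → ℕ := fun χ => (Cfsg.charDegree (χ : G → ℂ)).factorization p
  set r := T.index.factorization p with hr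
  have hidx : T.index ≠ 0 := Subgroup.index_ne_zero_of_finite
  have hF : ∀ (ψ : Cfsg.IrrCharacter T) (χ : Cfsg.IrrCharacter G),
      Cfsg.indFun T (ψ : T → ℂ) = (χ : G → ℂ) → F χ = r + f ψ := by
    intro ψ χ h
    obtain ⟨hd, hd0⟩ := Cfsg.Agent.Blocks.charDegree_eq ψ.2
    have h1 : ((Cfsg.charDegree (χ : G → ℂ) : ℕ) : ℂ) =
        ((T.index * Cfsg.charDegree (ψ : T → ℂ) : ℕ) : ℂ) := by
      rw [← (Cfsg.Agent.Blocks.charDegree_eq χ.2).1, ← h, Cfsg.Agent.Chars.indFun_apply_one, hd,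
        Nat.cast_mul]
    show (Cfsg.charDegree (χ : G → ℂ)).factorization p = _
    rw [Nat.cast_injective h1, Nat.factorization_mul hidx hd0.ne']
    rfl
  have hne' : (f '' B').Nonempty := ⟨_, ψ₀, hψ₀, rfl⟩
  have hne : (F '' B).Nonempty := ⟨_, χ₀, hχ₀B, rfl⟩
  have hinf : sInf (F '' B) = r + sInf (f '' B') := by
    refine le_antisymm ?_ ?_
    · obtain ⟨ψ, hψ, he⟩ := Nat.sInf_mem hne'
      obtain ⟨χ, hχ, h⟩ := hiff ψ hψ
      exact (Nat.sInf_le (show F χ ∈ F '' B from ⟨χ, hχ, rfl⟩)).trans (by rw [hF ψ χ h, he])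
    · obtain ⟨χ, hχ, he⟩ := Nat.sInf_mem hne
      obtain ⟨ψ, hψ, h⟩ := hback χ hχ
      rw [← he, hF ψ χ h]
      exact Nat.add_le_add_left (Nat.sInf_le (show f ψ ∈ f '' B' from ⟨ψ, hψ, rfl⟩)) r
  have hdef : Cfsg.blockDefect p B = Cfsg.blockDefect p B' := by
    have hG : (Nat.card G).factorization p = (Nat.card T).factorization p + r := by
      rw [← Subgroup.card_mul_index T, Nat.factorization_mul Nat.card_pos.ne' hidx]; rfl
    show _ - sInf (F '' B) = _ - sInf (f '' B')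
    rw [hinf, hG]
    omega
  refine ⟨fun D hD => ?_, fun ψ hψ => ?_⟩
  · obtain ⟨E, hE, hle⟩ := Cfsg.Agent.Blocks.map_defect_le hpM T hind hD
    have hc : Nat.card (D.map T.subtype) = Nat.card E := by
      rw [Nat.card_congr (D.equivMapOfInjective T.subtype T.subtype_injective).toEquiv.symm,
        Cfsg.Agent.Blocks.card_defectGroup hpM hB' hD,
        Cfsg.Agent.Blocks.card_defectGroup hpM hind.2.1 hE, hdef]
    rw [Subgroup.eq_of_le_of_card_ge hle hc.ge]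
    exact hE
  · obtain ⟨χ, hχ, h⟩ := hiff ψ hψ
    refine ⟨χ, hχ, h.symm, ?_⟩
    show F χ - sInf (F '' B) = f ψ - sInf (f '' B')
    rw [hinf, hF ψ χ h]
    omega

end Cfsg.Agent.S4436
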