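import Cfsg.Statements.S4437
import Cfsg.Agent.Chars.MaxPairCriterion
import Cfsg.Agent.BlockChar.PairDict
import Cfsg.Agent.BlockChar.LocalBlock

set_option autoImplicit false
set_option linter.style.haveILetI false
open Cfsg

namespace Cfsg.Agent.S4437

/-- Let P be a p-subgroup of the finite group G, H = P·C_G(P), and b a block of H (relative to a maximal ideal M of the algebraic integers containing p) having P as a defect group; let B be the block of G induced by b. Let T be the stabilizer of b in N_G(P): the elements g of N_G(P) such that the g-conjugate of every member of b is again a member of b. Then B has defect group P if and only if p does not divide the index of H in T. -/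
theorem result {G : Type*} [Group G] [Fintype G] (p : ℕ) [Fact p.Prime] (M : Ideal Cfsg.AlgInt) (hM : Cfsg.IsPModular p M) (P : Subgroup G) (hP : IsPGroup p P) (H : Subgroup G) [Fintype H] (hH : H = P ⊔ Subgroup.centralizer (P : Set G)) (b : Set (Cfsg.IrrCharacter H)) (hb : Cfsg.IsPBlock M b) (hbP : Cfsg.IsDefectGroup p M b (P.subgroupOf H)) (B : Set (Cfsg.IrrCharacter G)) (hind : Cfsg.IsInducedBlock M H b B) (T : Subgroup G) (hT : ∀ g : G, g ∈ T ↔ (g ∈ Subgroup.normalizer (P : Set G) ∧ ∀ θ ∈ b, ∀ θ' : Cfsg.IrrCharacter H, (∀ h h' : H, (h' : G) = g * h * g⁻¹ → (θ' : H → ℂ) h' = (θ : H → ℂ) h) → θ' ∈ b)) : Cfsg.IsDefectGroup p M B P ↔ ¬ p ∣ H.relIndex T := by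
  classical
  haveI : M.IsMaximal := hM.2.1
  have hpM : (p : Cfsg.AlgInt) ∈ M := hM.2.2
  haveI := Cfsg.Agent.BlockChar.charP_res (p := p) hpM
  have hPH : P ≤ H := hH ▸ le_sup_left
  have hCH : Subgroup.centralizer (P : Set G) ≤ H := hH ▸ le_sup_right
  have hHN : H ≤ Subgroup.normalizer (P : Set G) := hH ▸
    sup_le Subgroup.le_normalizer (Cfsg.Agent.BlockChar.centralizer_le_normalizer P)
  have hNH : ∀ x ∈ Subgroup.normalizer (P : Set G), x ∈ Subgroup.normalizer (H : Set G) := by
    intro x hx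
    refine Cfsg.Agent.BlockChar.mem_normalizer_of_conjS_eq ?_
    subst hH
    show Subgroup.map (MulAut.conj x).toMonoidHom (P ⊔ Subgroup.centralizer (P : Set G)) = _
    rw [Subgroup.map_sup]
    exact congrArg₂ (· ⊔ ·) (Cfsg.Agent.BlockChar.conjS_eq_self_of_mem_normalizer hx)
      (Cfsg.Agent.BlockChar.conjS_eq_self_of_mem_normalizer
        (Cfsg.Agent.BlockChar.normalizer_le_normalizer_centralizer P hx))
  set β := Cfsg.Agent.BlockChar.idemS M b with hβdef
  have hβ := Cfsg.Agent.BlockChar.isBlk_idemS hpM hb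
  have hDβ := (Cfsg.Agent.BlockChar.isDefectGroup_subgroupOf_iff hpM hPH hb).1 hbP
  obtain ⟨e, he, heo, hbe⟩ := Cfsg.Agent.Blocks.exists_pair_under hpM hP hPH hCH hHN hβ
  have hbr : Cfsg.Agent.BlockChar.br P β = β :=
    Cfsg.Agent.BlockChar.br_blk_eq_self (p := p) hP hPH hHN hβ
  have hBe := (Cfsg.Agent.Blocks.induced_iff_pair hpM hPH hCH hb hind.2.1 he heo).1 hind
  have hiff : Cfsg.IsDefectGroup p M B P ↔ Cfsg.Agent.BlockChar.IsMaxPair p P e := by
    rw [Cfsg.Agent.BlockChar.isDefectGroup_iff_idemG hpM hind.2.1]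
    exact ⟨fun h => Cfsg.Agent.BlockChar.isMaxPair_of_isDef
        (Cfsg.Agent.BlockChar.isBlk_idemG hpM hind.2.1) h he hBe,
      fun h => h.isDef (Cfsg.Agent.BlockChar.isBlk_idemG hpM hind.2.1) hBe⟩
  have hmemT : ∀ x : G, x ∈ T ↔ x ∈ Subgroup.normalizer (P : Set G) ∧
      Cfsg.Agent.BlockChar.cj x β = β := by
    intro x
    rw [hT]
    refine and_congr_right fun hx => ?_
    have hst := Cfsg.Agent.BlockChar.stabilizesBlock_iff hpM hb x
    constructor
    · intro h
      refine (hst.1 ⟨hNH x hx, fun θ hθ => ?_⟩).2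
      let θ' := (Cfsg.Agent.BlockChar.irrEquiv
        (Cfsg.Agent.BlockChar.normEquiv (hNH x hx))).symm θ
      have hc : ∀ k k' : H, (k' : G) = x * k * x⁻¹ → (θ' : H → ℂ) k' = (θ : H → ℂ) k := by
        intro k k' hk
        rw [show k' = Cfsg.Agent.BlockChar.normEquiv (hNH x hx) k from Subtype.ext hk,
          ← Cfsg.Agent.BlockChar.irrEquiv_apply, Equiv.apply_symm_apply]
      exact ⟨θ', h θ hθ θ' hc, hc⟩
    · intro h θ hθ θ' hθ'
      obtain ⟨χ', hχ', hconj⟩ := (hst.2 ⟨hNH x hx, h⟩).2 θ hθ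
      have heq : θ' = χ' := by
        apply Subtype.ext
        funext k'
        obtain ⟨k, rfl⟩ := (Cfsg.Agent.BlockChar.normEquiv (hNH x hx)).surjective k'
        rw [hθ' k _ (Cfsg.Agent.BlockChar.coe_normEquiv _ k),
          hconj k _ (Cfsg.Agent.BlockChar.coe_normEquiv _ k)]
      exact heq ▸ hχ'
  have hHT : H ≤ T := fun x hx => (hmemT x).2 ⟨hHN hx, hβ.fixed x hx⟩
  haveI hHn : (H.subgroupOf T).Normal := ⟨fun n hn t =>
    (Subgroup.mem_normalizer_iff.1 (hNH t ((hmemT t).1 t.2).1) n).1 hn⟩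
  rw [hiff]
  constructor
  · intro hmax hdvd
    let S : Sylow p T := default
    set R := (S : Subgroup T).map T.subtype with hR
    have hRT : R ≤ T := Subgroup.map_subtype_le _
    have hnle : ¬ R ≤ H := by
      intro hle
      refine S.not_dvd_index (hdvd.trans (Subgroup.index_dvd_of_le fun t ht => ?_))
      exact hle ⟨t, ht, rfl⟩
    obtain ⟨Q, hQ, hlt, hQN, hQfix, hQne⟩ := Cfsg.Agent.Chars.exists_larger_brauer hβ hPH hP hHN
      (S.isPGroup'.map T.subtype) (fun x hx => hNH x ((hmemT x).1 (hRT hx)).1)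
      (fun x hx => ((hmemT x).1 (hRT hx)).1) (fun x hx => ((hmemT x).1 (hRT hx)).2) hbr hnle
    have hCQ : Subgroup.centralizer (Q : Set G) ≤ H :=
      (Cfsg.Agent.BlockChar.centralizer_anti hlt.le).trans hCH
    obtain ⟨g', hg', hgb⟩ := Cfsg.Agent.BlockChar.exists_blk_mul_eq
      (Cfsg.Agent.BlockChar.br_centralIn hβ.fixed hCQ)
      (Cfsg.Agent.BlockChar.br_idem hQ hQfix hβ.idem) hQne
    obtain ⟨f, hf, -⟩ := Cfsg.Agent.BlockChar.existsUnique_nstep (p := p)
      (⟨hQ, hg'⟩ : Cfsg.Agent.BlockChar.IsPair p Q g') hlt.le hQN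
    have hbf : β * f = f := by
      have hcen : Cfsg.Agent.BlockChar.CentralIn (Subgroup.centralizer (P : Set G)) β := by
        refine ⟨?_, hβ.fixed.mono hCH⟩
        rw [← hbr]
        exact Cfsg.Agent.BlockChar.supportedIn_br P β
      rcases hf.left.blk.prim β hcen hβ.idem with h0 | h1
      · exfalso
        apply hg'.ne_zero
        calc g' = Cfsg.Agent.BlockChar.br Q β * (Cfsg.Agent.BlockChar.br Q f * g') := by
              rw [hf.occ, hgb]
          _ = 0 := by
            rw [← mul_assoc, Cfsg.Agent.BlockChar.br_zero_mul hQ hQfix hf.stable h0, zero_mul]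
      · exact h1
    obtain ⟨n, hn, rfl⟩ := Cfsg.Agent.BlockChar.exists_cj_of_blk_above hCH hHN he.blk hf.left.blk
      hβ hbe hbf
    have hmax' := hmax.cj n
    rw [Cfsg.Agent.BlockChar.conjS_eq_self_of_mem_normalizer (hHN hn)] at hmax'
    exact hlt.ne' (hmax'.max Q g' hf)
  · intro hdvd
    refine ⟨he, fun R g hs => ?_⟩
    have hRH : R ≤ H := by
      intro r hr
      have hrN := hs.norm hr
      have hrfix : Cfsg.Agent.BlockChar.cj r β = β := by
        by_contra hne
        have hblk : Cfsg.Agent.BlockChar.IsBlk H (Cfsg.Agent.BlockChar.cj r β) := by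
          have h := hβ.cj r
          rwa [Cfsg.Agent.BlockChar.conjS_eq_self_of_mem_normalizer (hNH r hrN)] at h
        apply he.blk.ne_zero
        have h1 : Cfsg.Agent.BlockChar.cj r β * e = e := by
          have h := congrArg (Cfsg.Agent.BlockChar.cj r) hbe
          rwa [map_mul, hs.stable r hr] at h
        calc e = Cfsg.Agent.BlockChar.cj r β * (β * e) := by rw [hbe, h1]
          _ = 0 := by rw [← mul_assoc, hblk.orth hβ hne, zero_mul]
      have hrT : r ∈ T := (hmemT r).2 ⟨hrN, hrfix⟩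
      obtain ⟨n, hn⟩ := hs.right.pgroup ⟨r, hr⟩
      have hn' : r ^ p ^ n = 1 := congrArg Subtype.val hn
      have hi : r ^ H.relIndex T ∈ H :=
        Subgroup.pow_index_mem (H := H.subgroupOf T) (⟨r, hrT⟩ : T)
      exact Cfsg.Agent.BlockChar.mem_of_pow_mem_coprime
        (Nat.Coprime.pow_left n (((Fact.out : p.Prime).coprime_iff_not_dvd).2 hdvd))
        (hn'.symm ▸ H.one_mem) hi
    have hne : Cfsg.Agent.BlockChar.br R β ≠ 0 := by
      intro h0
      apply hs.right.blk.ne_zero
      show g = 0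
      have h1 : Cfsg.Agent.BlockChar.br R e * g = g := hs.occ
      rw [← hbe] at h1
      rw [← h1, Cfsg.Agent.BlockChar.br_mul hs.right.pgroup (hβ.fixed.mono hRH) hs.stable, h0,
        zero_mul, zero_mul]
    obtain ⟨x, -, hle⟩ := hDβ.maximal R hRH hs.right.pgroup hne
    exact (Subgroup.eq_of_le_of_card_ge hs.le ((Subgroup.card_le_of_le hle).trans
      (le_of_eq (Cfsg.Agent.BlockChar.card_conjS x P)))).symm

end Cfsg.Agent.S4437
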