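import Cfsg.Statements.S4438
import Cfsg.Agent.Chars.CoveringBlocks
import Cfsg.Agent.BlockChar.LocalBlock
import Cfsg.Agent.BlockChar.PairDict

set_option autoImplicit false
set_option linter.style.haveILetI false
open Cfsg

namespace Cfsg.Agent.S4438

/-- Let N be a normal subgroup of the finite group G, b a block of N with defect group Q, and B a block of G covering b (some member of B has a constituent in b on restriction to N), all relative to a maximal ideal M of the algebraic integers containing p. Then B has a defect group P with P ⊓ N = Q. -/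
theorem result {G : Type*} [Group G] [Fintype G] (p : ℕ) [Fact p.Prime] (M : Ideal Cfsg.AlgInt) (hM : Cfsg.IsPModular p M) (N : Subgroup G) [hN : N.Normal] [Fintype N] (b : Set (Cfsg.IrrCharacter N)) (hb : Cfsg.IsPBlock M b) (Q : Subgroup G) (hQN : Q ≤ N) (hQ : Cfsg.IsDefectGroup p M b (Q.subgroupOf N)) (B : Set (Cfsg.IrrCharacter G)) (hB : Cfsg.IsPBlock M B) (hcov : (∃ χ ∈ B, ∃ θ ∈ b, Cfsg.classInner (fun n : N => (χ : G → ℂ) n) (θ : N → ℂ) ≠ 0)) : ∃ P : Subgroup G, Cfsg.IsDefectGroup p M B P ∧ P ⊓ N = Q := by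
  classical
  haveI : M.IsMaximal := hM.2.1
  have hpM : (p : Cfsg.AlgInt) ∈ M := hM.2.2
  haveI := Cfsg.Agent.BlockChar.charP_res (p := p) hpM
  set β := Cfsg.Agent.BlockChar.idemS M b with hβdef
  have hβ := Cfsg.Agent.BlockChar.isBlk_idemS hpM hb
  have hBblk := Cfsg.Agent.BlockChar.isBlk_idemG hpM hB
  have hQd := (Cfsg.Agent.BlockChar.isDefectGroup_subgroupOf_iff hpM hQN hb).1 hQ
  have hne := Cfsg.Agent.Chars.Coset.idemG_mul_idemS_ne_zero hpM hB hb hcov
  have hcomm : β * Cfsg.Agent.BlockChar.idemG M B = Cfsg.Agent.BlockChar.idemG M B * β :=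
    Cfsg.Agent.Chars.Coset.supported_fixed_comm hβ.supp (hBblk.fixed.mono le_top)
  have hzf : Cfsg.Agent.BlockChar.Fixed N (Cfsg.Agent.BlockChar.idemG M B * β) :=
    (hBblk.fixed.mono le_top).mul hβ.fixed
  have hz := Cfsg.Agent.Chars.Coset.br_ne_zero (p := p) hβ
    (z := Cfsg.Agent.BlockChar.idemG M B * β)
    (by rw [mul_assoc, ← mul_assoc β, hcomm, mul_assoc, hβ.idem, ← mul_assoc, hBblk.idem])
    hne hzf (by rw [mul_assoc, hβ.idem]) hQN hQd.pgroup hQd.ne_zero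
  have hBQ : Cfsg.Agent.BlockChar.br Q (Cfsg.Agent.BlockChar.idemG M B) ≠ 0 := by
    intro h
    rw [Cfsg.Agent.BlockChar.br_mul hQd.pgroup (hBblk.fixed.mono le_top) (hβ.fixed.mono hQN), h,
      zero_mul] at hz
    exact hz rfl
  obtain ⟨D, hD⟩ := Cfsg.Agent.BlockChar.exists_isDef (p := p) hBblk
  obtain ⟨x, hx, hQP⟩ := hD.maximal Q le_top hQd.pgroup hBQ
  have hP := hD.conj hBblk hx
  set P := Cfsg.Agent.BlockChar.conjS x D
  refine ⟨P, (Cfsg.Agent.BlockChar.isDefectGroup_iff_idemG hpM hB P).2 hP, ?_⟩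
  refine (Subgroup.eq_of_le_of_card_ge (le_inf hQP hQN) ?_).symm
  have hR : IsPGroup p (P ⊓ N : Subgroup G) := hP.pgroup.to_le inf_le_left
  have hBR : Cfsg.Agent.BlockChar.br (P ⊓ N) (Cfsg.Agent.BlockChar.idemG M B) ≠ 0 := fun h =>
    hP.ne_zero (by rw [← Cfsg.Agent.BlockChar.br_br (inf_le_left : P ⊓ N ≤ P), h, map_zero])
  obtain ⟨χ, hχ, θ, hθ, hcon⟩ := hcov
  rw [← Cfsg.Agent.Chars.Coset.idemG_mul_orbit hpM hB hb hχ hθ hcon,
    Cfsg.Agent.BlockChar.br_mul hR (hBblk.fixed.mono le_top)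
      (Cfsg.Agent.Chars.Coset.central_orbit.fixed.mono inf_le_right),
    Cfsg.Agent.BlockChar.eq_sum_blks (Cfsg.Agent.Chars.Coset.central_orbit (M := M) (b := b))
      (Cfsg.Agent.Chars.Coset.idem_orbit hpM hb), map_sum, Finset.mul_sum] at hBR
  obtain ⟨c, hc, hcne⟩ := Finset.exists_ne_zero_of_sum_ne_zero hBR
  obtain ⟨hc1, hc2⟩ := Finset.mem_filter.1 hc
  obtain ⟨g, hg⟩ :=
    Cfsg.Agent.Chars.Coset.exists_cj_eq hpM hb (Cfsg.Agent.BlockChar.mem_blks.1 hc1) hc2
  have hgN := Cfsg.Agent.BlockChar.conjS_eq_self_of_mem_normalizer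
    ((Subgroup.normalizer_eq_top N).ge (Subgroup.mem_top g))
  obtain ⟨n, -, hle⟩ := hQd.maximal (Cfsg.Agent.BlockChar.conjS g (P ⊓ N))
    ((Cfsg.Agent.BlockChar.conjS_le inf_le_right).trans hgN.le)
    (Cfsg.Agent.BlockChar.isPGroup_conjS g hR) (by
      rw [hg, ← Cfsg.Agent.BlockChar.br_cj]
      intro h
      exact right_ne_zero_of_mul hcne
        ((Cfsg.Agent.BlockChar.cj g).injective (by rw [h, map_zero])))
  have := Subgroup.card_le_of_le hle
  rwa [Cfsg.Agent.BlockChar.card_conjS, Cfsg.Agent.BlockChar.card_conjS] at this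

end Cfsg.Agent.S4438
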