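import Cfsg.Statements.S4442
import Cfsg.Agent.Chars2.DefectOneApps

set_option autoImplicit false
open Cfsg Cfsg.Agent Cfsg.Agent.Blocks Cfsg.Agent.BlockChar Cfsg.Agent.Chars2.Cyc Function

namespace Cfsg.Agent.S4442

/-- Blocks of defect one. Let p be an odd prime and G a finite group whose Sylow p-subgroup P has order p; let C = C_G(P) and N = N_G(P), and fix a maximal ideal M of the algebraic integers containing p. Let B be a block of G with defect group P, b a block of C inducing B, and θ the member of b having P in its kernel (there is exactly one). Let T be the stabilizer of θ in N (the elements g ∈ N with θ(g c g⁻¹) = θ(c) for all c ∈ C) and e the index of C in T. Then e divides p − 1 and B contains exactly e + (p − 1)/e irreducible characters. Moreover B is the disjoint union of a set X of e characters and a set Y of (p − 1)/e characters such that, with f the index of C in N: every χ ∈ X has χ(1) ≡ ±(f/e)·θ(1) (mod p), there is one sign ε with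 ψ(1) ≡ ε f θ(1) (mod p) for all ψ ∈ Y, and all members of Y agree on the p-regular elements of G. -/
theorem result {G : Type*} [Group G] [Finite G] (p : ℕ) [Fact p.Prime] (M : Ideal Cfsg.AlgInt) (hM : Cfsg.IsPModular p M) (hodd : p ≠ 2) (P : Sylow p G) (hP : Nat.card P = p) (B : Set (Cfsg.IrrCharacter G)) (hB : Cfsg.IsPBlock M B) (hBP : Cfsg.IsDefectGroup p M B P) (b : Set (Cfsg.IrrCharacter (Subgroup.centralizer ((P : Subgroup G) : Set G)))) (hind : Cfsg.IsInducedBlock M (Subgroup.centralizer ((P : Subgroup G) : Set G)) b B) (θ : Cfsg.IrrCharacter (Subgroup.centralizer ((P : Subgroup G) : Set G))) (hθ : θ ∈ b) (hθP : ∀ x : Subgroup.centralizer ((P : Subgroup G) : Set G), (x : G) ∈ (P : Subgroup G) → (θ : Subgroup.centralizer ((P : Subgroup G) : Set G) → ℂ) x = (θ : Subgroup.centralizer ((P : Subgroup G) : Set G) → ℂ) 1) (T : Subgroup G) (hT : ∀ g : G, g ∈ T ↔ (g ∈ Subgroup.normalizer ((P : Subgroup G) : Set G) ∧ ∀ c c' : Subgroup.centralizer ((P : Subgroup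 G) : Set G), (c' : G) = g * c * g⁻¹ → (θ : Subgroup.centralizer ((P : Subgroup G) : Set G) → ℂ) c' = (θ : Subgroup.centralizer ((P : Subgroup G) : Set G) → ℂ) c)) (e f : ℕ) (he : (Subgroup.centralizer ((P : Subgroup G) : Set G)).relIndex T = e) (hf : (Subgroup.centralizer ((P : Subgroup G) : Set G)).relIndex (Subgroup.normalizer ((P : Subgroup G) : Set G)) = f) : e ∣ p - 1 ∧ Nat.card B = e + (p - 1) / e ∧ ∃ X Y : Set (Cfsg.IrrCharacter G), B = X ∪ Y ∧ Disjoint X Y ∧ Nat.card X = e ∧ Nat.card Y = (p - 1) / e ∧ (∀ χ ∈ X, (Cfsg.charDegree (χ : G → ℂ) : ℤ) ≡ ((f / e * Cfsg.charDegree (θ : Subgroup.centralizer ((P : Subgroup G) : Set G) → ℂ) : ℕ) : ℤ) [ZMOD p] ∨ (Cfsg.charDegree (χ : G → ℂ) : ℤ) ≡ -((f / e * Cfsg.charDegree (θ : Subgroup.centralizer ((P : Subgroup G) : Set G) → ℂ) : ℕ) : ℤ) [ZMOD p]) ∧ (∃ ε : ℤ, (ε = 1 ∨ ε = -1) ∧ ∀ ψ ∈ Y, (Cfsg.charDegree (ψ : G → ℂ) : ℤ) ≡ ε * ((f * Cfsg.charDegree (θ : Subgroup.centralizer ((P : Subgroup G) : Set G) → ℂ)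 : ℕ) : ℤ) [ZMOD p]) ∧ ∀ ψ ∈ Y, ∀ ψ' ∈ Y, ∀ g : G, ¬ p ∣ orderOf g → (ψ : G → ℂ) g = (ψ' : G → ℂ) g := by
  classical
  haveI := hM.2.1
  haveI := Fintype.ofFinite G
  have hpM := hM.2.2
  obtain ⟨x, hx, hPx, hdiv, hsq, hC⟩ := exists_sylow_gen p P hP
  obtain ⟨K, σ, S₀⟩ := exists_once hpM hdiv hsq hx
  have S : Once M p (Nat.card G / p) K x σ (Subgroup.centralizer ((P : Subgroup G) : Set G)) :=
    { S₀ with hH := hC }
  haveI : Fintype (Subgroup.centralizer ((P : Subgroup G) : Set G)) := Fintype.ofFinite _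
  have hd : 0 < blockDefect p B := by
    have h := card_defectGroup hpM hB hBP
    have h' : Nat.card (P : Subgroup G) = p := hP
    rcases Nat.eq_zero_or_pos (blockDefect p B) with e0 | e0
    · rw [e0, pow_zero] at h
      exact absurd (h'.symm.trans h) (Fact.out : p.Prime).ne_one
    · exact e0
  have hθx : (θ : Subgroup.centralizer ((P : Subgroup G) : Set G) → ℂ) ⟨x, S.mem⟩ = (θ : Subgroup.centralizer ((P : Subgroup G) : Set G) → ℂ) 1 :=
    hθP _ (by show x ∈ (P : Subgroup G); rw [hPx]; exact Subgroup.mem_zpowers x)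
  have hN : Subgroup.normalizer ((P : Subgroup G) : Set G) =
      Subgroup.normalizer ((Subgroup.zpowers x : Subgroup G) : Set G) := by rw [hPx]
  have hT' : ∀ g : G, g ∈ T ↔ g ∈ Subgroup.normalizer ((Subgroup.zpowers x : Subgroup G) : Set G) ∧
      ∀ c c' : Subgroup.centralizer ((P : Subgroup G) : Set G), (c' : G) = g * c * g⁻¹ →
        (θ : Subgroup.centralizer ((P : Subgroup G) : Set G) → ℂ) c' = (θ : Subgroup.centralizer ((P : Subgroup G) : Set G) → ℂ) c := fun g => by
    rw [hT g, hN]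
  obtain ⟨O⟩ : Nonempty (OneShape M p x σ B b
      (T.relIndex (Subgroup.normalizer ((P : Subgroup G) : Set G)) *
        charDegree (θ : Subgroup.centralizer ((P : Subgroup G) : Set G) → ℂ))) := by
    have h := S.exists_shape hd hind hθ
    rwa [S.card_inducing hd hind hθ hθx hT', ← hPx] at h
  have hidx := S.relIndex_inertia hind hθ hθx hT' O.t_dvd O.period
  rw [he] at hidx
  have hTN : T ≤ Subgroup.normalizer ((P : Subgroup G) : Set G) := fun g hg => ((hT g).1 hg).1
  have hHT : Subgroup.centralizer ((P : Subgroup G) : Set G) ≤ T := fun g hg => (hT g).2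
    ⟨centralizer_le_normalizer _ hg, fun c c' hc => by
      rw [show c' = (⟨g, hg⟩ : Subgroup.centralizer ((P : Subgroup G) : Set G)) * c *
        (⟨g, hg⟩ : Subgroup.centralizer ((P : Subgroup G) : Set G))⁻¹ from Subtype.ext hc]
      exact Chars.isClassFunction_irr θ c ⟨g, hg⟩⟩
  have hfe : e * T.relIndex (Subgroup.normalizer ((P : Subgroup G) : Set G)) = f := by
    rw [← he, ← hf, Subgroup.relIndex_mul_relIndex _ _ _ hHT hTN]
  have hdvd : e ∣ p - 1 := ⟨O.t, by rw [hidx, Nat.div_mul_cancel O.t_dvd]⟩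
  have hp1 : 0 < p - 1 := by have := (Fact.out : p.Prime).two_le; omega
  have he0 : 0 < e := Nat.pos_of_dvd_of_pos hdvd hp1
  have ht : (p - 1) / e = O.t := by
    rw [hidx, Nat.div_div_self O.t_dvd hp1.ne']
  have hfe' : f / e = T.relIndex (Subgroup.normalizer ((P : Subgroup G) : Set G)) := by
    rw [← hfe, Nat.mul_div_cancel_left _ he0]
  have hsplit := Set.ncard_sdiff_add_ncard_of_subset O.Y_sub (Set.toFinite B)
  rw [← Nat.card_coe_set_eq, ← Nat.card_coe_set_eq, ← Nat.card_coe_set_eq, O.card_X, O.card_Y,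
    ← hidx] at hsplit
  refine ⟨hdvd, by rw [ht]; exact hsplit.symm, B \ O.Y, O.Y, (Set.sdiff_union_of_subset O.Y_sub).symm,
    Set.disjoint_sdiff_left, by rw [O.card_X, hidx], by rw [O.card_Y, ht], fun χ hχ => ?_, ?_, ?_⟩
  · have h := O.degree_X χ hχ.1 hχ.2
    rw [hfe']
    rcases O.sign χ hχ.1 with hW | hW <;> rw [hW] at h
    · exact Or.inl (by rw [mul_one] at h; exact h)
    · exact Or.inr (by rw [mul_neg, mul_one] at h; exact h)
  · obtain ⟨θ₁, hθ₁⟩ : O.Y.Nonempty := Set.nonempty_of_ncard_ne_zero (by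
      rw [← Nat.card_coe_set_eq, O.card_Y]; exact O.t_pos.ne')
    refine ⟨-O.W θ₁, ?_, fun ψ hψ => ?_⟩
    · rcases O.sign θ₁ (O.Y_sub hθ₁) with hW | hW <;> rw [hW] <;> simp
    · have h := O.degree_Y ψ hψ
      rw [← hidx, O.sign_Y ψ hψ θ₁ hθ₁] at h
      refine Eq.subst (motive := fun z : ℤ => _ ≡ z [ZMOD (p : ℤ)]) ?_ h
      rw [← hfe]
      push_cast
      ring
  · intro ψ hψ ψ' hψ' g hg
    obtain ⟨r, rfl⟩ := (O.orbit ψ hψ ψ').2 hψ'
    exact (S.gal_reg ψ r hg).symm

end Cfsg.Agent.S4442
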