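import Cfsg.Statements.S4444
import Cfsg.Agent.Chars.Glauberman
import Cfsg.Agent.Chars.Transport

set_option autoImplicit false
set_option linter.style.haveILetI false
open Cfsg

namespace Cfsg.Agent.S4444

/-- The Glauberman correspondence for a p-group of operators. Inside a finite group Γ let S normalise G with the orders of G and S coprime, S a p-group, and let C = G ⊓ C(S) be the fixed points. Call an irreducible character χ of G S-invariant when χ(s g s⁻¹) = χ(g) for s ∈ S, g ∈ G. Then: (i) for every S-invariant χ there is exactly one irreducible character β of C whose multiplicity [χ_C, β] in the restriction of χ is not divisible by p; (ii) that multiplicity is ≡ 1 or ≡ −1 (mod p); (iii) distinct S-invariant χ give distinct β; (iv) every irreducible character of C arises in this way. So χ ↦ β is a bijection from the S-invariant irreducible characters of G onto the irreducible characters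 of C. -/
theorem result {Γ : Type*} [Group Γ] [Fintype Γ] (G S : Subgroup Γ) [Fintype G] (hnorm : ∀ s ∈ S, ∀ g ∈ G, s * g * s⁻¹ ∈ G) (hcop : (Nat.card G).Coprime (Nat.card S)) (p : ℕ) (hp : p.Prime) (hS : IsPGroup p S) (C : Subgroup Γ) [Fintype C] (hC : C = G ⊓ Subgroup.centralizer (S : Set Γ)) (hCG : C ≤ G) : (∀ χ : Cfsg.IrrCharacter G, (∀ s ∈ S, ∀ g g' : G, (g' : Γ) = s * g * s⁻¹ → (χ : G → ℂ) g' = (χ : G → ℂ) g) → ∃! β : Cfsg.IrrCharacter C, ∃ m : ℕ, Cfsg.classInner (fun c : C => (χ : G → ℂ) ⟨c, hCG c.2⟩) (β : C → ℂ) = (m : ℂ) ∧ ¬ p ∣ m) ∧ (∀ χ : Cfsg.IrrCharacter G, (∀ s ∈ S, ∀ g g' : G, (g' : Γ) = s * g * s⁻¹ → (χ : G → ℂ) g' = (χ : G → ℂ) g) → ∀ β : Cfsg.IrrCharacter C, ∀ m : ℕ, Cfsg.classInner (fun c : C => (χ : G → ℂ) ⟨c, hCG c.2⟩) (β : C → ℂ) = (m : ℂ) → ¬ p ∣ m → ((m : ℤ) ≡ 1 [ZMOD p] ∨ (m : ℤ) ≡ -1 [ZMOD p])) ∧ (∀ χ χ' : Cfsg.IrrCharacter G, (∀ s ∈ S, ∀ g g' : G, (g' : Γ) = s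 * g * s⁻¹ → (χ : G → ℂ) g' = (χ : G → ℂ) g) → (∀ s ∈ S, ∀ g g' : G, (g' : Γ) = s * g * s⁻¹ → (χ' : G → ℂ) g' = (χ' : G → ℂ) g) → ∀ β : Cfsg.IrrCharacter C, ∀ m m' : ℕ, Cfsg.classInner (fun c : C => (χ : G → ℂ) ⟨c, hCG c.2⟩) (β : C → ℂ) = (m : ℂ) → ¬ p ∣ m → Cfsg.classInner (fun c : C => (χ' : G → ℂ) ⟨c, hCG c.2⟩) (β : C → ℂ) = (m' : ℂ) → ¬ p ∣ m' → χ = χ') ∧ (∀ β : Cfsg.IrrCharacter C, ∃ χ : Cfsg.IrrCharacter G, (∀ s ∈ S, ∀ g g' : G, (g' : Γ) = s * g * s⁻¹ → (χ : G → ℂ) g' = (χ : G → ℂ) g) ∧ ∃ m : ℕ, Cfsg.classInner (fun c : C => (χ : G → ℂ) ⟨c, hCG c.2⟩) (β : C → ℂ) = (m : ℂ) ∧ ¬ p ∣ m) := by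
  classical
  haveI := Fact.mk hp
  have hinvφ : ∀ χ : Cfsg.IrrCharacter G,
      (∀ s ∈ S, ∀ g g' : G, (g' : Γ) = s * g * s⁻¹ → (χ : G → ℂ) g' = (χ : G → ℂ) g) ↔
        Cfsg.Agent.Chars.InvFun (Cfsg.Agent.Chars.conjHom G S hnorm) (χ : G → ℂ) := fun χ =>
    ⟨fun h a g => h a a.2 g _ rfl, fun h s hs g g' he =>
      (congrArg (χ : G → ℂ) (Subtype.ext he)).trans (h ⟨s, hs⟩ g)⟩
  by_cases hpG : p ∣ Nat.card G
  · have hS1 : ∀ s ∈ S, s = 1 := by
      intro s hs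
      obtain ⟨k, hk⟩ := IsPGroup.iff_card.1 hS
      rcases Nat.eq_zero_or_pos k with rfl | hk0
      · rw [pow_zero, Subgroup.card_eq_one] at hk
        rw [hk, Subgroup.mem_bot] at hs
        exact hs
      · refine absurd (Nat.dvd_gcd hpG (hk ▸ dvd_pow_self p hk0.ne')) ?_
        rw [hcop]
        exact hp.not_dvd_one
    have hGC : ∀ g, g ∈ C ↔ g ∈ G := by
      intro g
      rw [hC]
      refine ⟨fun h => h.1, fun h => ⟨h, Subgroup.mem_centralizer_iff.2 fun s hs => ?_⟩⟩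
      rw [hS1 s hs, one_mul, mul_one]
    let e : C ≃* G :=
      { toFun := fun c => ⟨c, (hGC c).1 c.2⟩
        invFun := fun g => ⟨g, (hGC g).2 g.2⟩
        left_inv := fun _ => rfl
        right_inv := fun _ => rfl
        map_mul' := fun _ _ => rfl }
    have hm : ∀ (χ : Cfsg.IrrCharacter G) (β : Cfsg.IrrCharacter C) (m : ℕ),
        Cfsg.classInner (fun c : C => (χ : G → ℂ) ⟨c, hCG c.2⟩) (β : C → ℂ) = (m : ℂ) →
        ¬ p ∣ m → β = Cfsg.Agent.Chars.irrEquiv e χ ∧ m = 1 := by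
      intro χ β m h hmp
      rw [show (fun c : C => (χ : G → ℂ) ⟨c, hCG c.2⟩) =
        (Cfsg.Agent.Chars.irrEquiv e χ : C → ℂ) from rfl,
        Cfsg.Agent.Chars.classInner_irrCharacter] at h
      split_ifs at h with hb
      · exact ⟨hb.symm, by exact_mod_cast h.symm⟩
      · have : m = 0 := by exact_mod_cast h.symm
        exact absurd (this ▸ dvd_zero p) hmp
    have hone : ∀ χ : Cfsg.IrrCharacter G, Cfsg.classInner (fun c : C => (χ : G → ℂ) ⟨c, hCG c.2⟩)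
        (Cfsg.Agent.Chars.irrEquiv e χ : C → ℂ) = ((1 : ℕ) : ℂ) := fun χ => by
      rw [Nat.cast_one]
      exact Cfsg.Agent.Chars.classInner_self_irr (Cfsg.Agent.Chars.irrEquiv e χ).2
    refine ⟨fun χ _ => ⟨_, ⟨1, hone χ, hp.not_dvd_one⟩, fun β hβ => ?_⟩,
      fun χ _ β m h hmp => Or.inl ?_,
      fun χ χ' _ _ β m m' h hmp h' hmp' => ?_, fun β => ?_⟩
    · obtain ⟨m, h, hmp⟩ := hβ
      exact (hm χ β m h hmp).1
    · rw [(hm χ β m h hmp).2]; rfl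
    · exact (Cfsg.Agent.Chars.irrEquiv e).injective
        ((hm χ β m h hmp).1.symm.trans (hm χ' β m' h' hmp').1)
    · refine ⟨(Cfsg.Agent.Chars.irrEquiv e).symm β, fun s hs g g' he => ?_, 1, ?_, hp.not_dvd_one⟩
      · rw [hS1 s hs, one_mul, inv_one, mul_one] at he
        rw [Subtype.ext he]
      · have := hone ((Cfsg.Agent.Chars.irrEquiv e).symm β)
        rwa [Equiv.apply_symm_apply] at this
  · haveI : Finite S := inferInstance
    let φ := Cfsg.Agent.Chars.conjHom G S hnorm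
    haveI := Fintype.ofFinite (Cfsg.Agent.Chars.fixSub φ)
    have hmem : ∀ g : G, g ∈ Cfsg.Agent.Chars.fixSub φ ↔ (g : Γ) ∈ C := by
      intro g
      rw [hC, Subgroup.mem_inf, and_iff_right g.2, Subgroup.mem_centralizer_iff,
        Cfsg.Agent.Chars.mem_fixSub]
      constructor
      · intro h s hs
        have := congrArg Subtype.val (h ⟨s, hs⟩)
        exact mul_inv_eq_iff_eq_mul.1 this
      · intro h a
        exact Subtype.ext (mul_inv_eq_iff_eq_mul.2 (h a a.2))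
    let e : C ≃* Cfsg.Agent.Chars.fixSub φ :=
      { toFun := fun c => ⟨⟨c, hCG c.2⟩, (hmem _).2 c.2⟩
        invFun := fun g => ⟨g.1.1, (hmem g.1).1 g.2⟩
        left_inv := fun _ => rfl
        right_inv := fun _ => rfl
        map_mul' := fun _ _ => rfl }
    have htr : ∀ (χ : Cfsg.IrrCharacter G) (β : Cfsg.IrrCharacter (Cfsg.Agent.Chars.fixSub φ)),
        Cfsg.classInner (fun c : C => (χ : G → ℂ) ⟨c, hCG c.2⟩)
          (Cfsg.Agent.Chars.irrEquiv e β : C → ℂ) =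
        Cfsg.Agent.Chars.restrMult (Cfsg.Agent.Chars.fixSub φ) (χ : G → ℂ)
          (β : Cfsg.Agent.Chars.fixSub φ → ℂ) := fun χ β =>
      Cfsg.Agent.Chars.classInner_comp_equiv e (fun c => (χ : G → ℂ) c)
        (β : Cfsg.Agent.Chars.fixSub φ → ℂ)
    obtain ⟨Φ, m, hΦ⟩ := Cfsg.Agent.Chars.glauberman_pgroup hp hS φ hpG
    have hnd : ∀ χ, ¬ p ∣ m χ := fun χ hd => by
      have h0 : (m χ : ℤ) ≡ 0 [ZMOD p] := Int.modEq_zero_iff_dvd.2 (Int.natCast_dvd_natCast.2 hd)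
      have h1 : (p : ℤ) ∣ 1 := by
        rcases (hΦ χ).2.1 with h | h
        · exact Int.modEq_zero_iff_dvd.1 (h.symm.trans h0)
        · exact dvd_neg.1 (Int.modEq_zero_iff_dvd.1 (h.symm.trans h0))
      exact hp.not_dvd_one (Int.natCast_dvd_natCast.1 (by simpa using h1))
    have huniq : ∀ (χ : Cfsg.IrrCharacter G) (hχ : Cfsg.Agent.Chars.InvFun φ (χ : G → ℂ))
        (β : Cfsg.IrrCharacter C) (k : ℕ),
        Cfsg.classInner (fun c : C => (χ : G → ℂ) ⟨c, hCG c.2⟩) (β : C → ℂ) = (k : ℂ) → ¬ p ∣ k →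
        β = Cfsg.Agent.Chars.irrEquiv e (Φ ⟨χ, hχ⟩) ∧ k = m ⟨χ, hχ⟩ := by
      intro χ hχ β k hk hkp
      obtain ⟨β', rfl⟩ := (Cfsg.Agent.Chars.irrEquiv e).surjective β
      rw [htr] at hk
      have := (hΦ ⟨χ, hχ⟩).2.2 β' k hk hkp
      subst this
      exact ⟨rfl, by exact_mod_cast hk.symm.trans (hΦ ⟨χ, hχ⟩).1⟩
    refine ⟨fun χ hχ => ⟨Cfsg.Agent.Chars.irrEquiv e (Φ ⟨χ, (hinvφ χ).1 hχ⟩),
        ⟨m ⟨χ, (hinvφ χ).1 hχ⟩, (htr _ _).trans (hΦ ⟨χ, (hinvφ χ).1 hχ⟩).1, hnd _⟩, fun β hβ => ?_⟩,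
      fun χ hχ β k hk hkp => ?_, fun χ χ' hχ hχ' β k k' hk hkp hk' hkp' => ?_, fun β => ?_⟩
    · obtain ⟨k, hk, hkp⟩ := hβ
      exact (huniq χ ((hinvφ χ).1 hχ) β k hk hkp).1
    · rw [(huniq χ ((hinvφ χ).1 hχ) β k hk hkp).2]
      exact (hΦ _).2.1
    · have h1 := (huniq χ ((hinvφ χ).1 hχ) β k hk hkp).1
      have h2 := (huniq χ' ((hinvφ χ').1 hχ') β k' hk' hkp').1
      exact congrArg Subtype.val (Φ.injective
        ((Cfsg.Agent.Chars.irrEquiv e).injective (h1.symm.trans h2)))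
    · obtain ⟨β', rfl⟩ := (Cfsg.Agent.Chars.irrEquiv e).surjective β
      refine ⟨(Φ.symm β').1, (hinvφ _).2 (Φ.symm β').2, m (Φ.symm β'), ?_, hnd _⟩
      have := (hΦ (Φ.symm β')).1
      rw [Φ.apply_symm_apply] at this
      rw [htr]
      exact this

end Cfsg.Agent.S4444
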