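import Cfsg.Statements.S4445
import Cfsg.Agent.Chars.GlaubermanSolvable

set_option autoImplicit false
set_option linter.style.haveILetI false
open Cfsg

namespace Cfsg.Agent.S4445

/-- Inside a finite group Γ let the solvable subgroup S normalise G with the orders of G and S coprime. Then the number of S-invariant irreducible characters of G (χ(s g s⁻¹) = χ(g) for all s ∈ S, g ∈ G) equals the number of conjugacy classes of G mapped to themselves by conjugation by every element of S. -/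
theorem result {Γ : Type*} [Group Γ] [Fintype Γ] (G S : Subgroup Γ) [Fintype G] (hnorm : ∀ s ∈ S, ∀ g ∈ G, s * g * s⁻¹ ∈ G) (hcop : (Nat.card G).Coprime (Nat.card S)) (hsolv : Group.IsSolvable S) : Nat.card {χ : Cfsg.IrrCharacter G // (∀ s ∈ S, ∀ g g' : G, (g' : Γ) = s * g * s⁻¹ → (χ : G → ℂ) g' = (χ : G → ℂ) g)} = Nat.card {K : ConjClasses G // ∀ s ∈ S, ∀ g g' : G, (g' : Γ) = s * g * s⁻¹ → ConjClasses.mk g = K → ConjClasses.mk g' = K} := by
  haveI : Finite S := inferInstance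
  let φ := Cfsg.Agent.Chars.conjHom G S hnorm
  haveI := Fintype.ofFinite (Cfsg.Agent.Chars.fixSub φ)
  obtain ⟨E⟩ := Cfsg.Agent.Chars.glauberman_solvable_equiv hsolv φ hcop
  have h1 : ∀ χ : Cfsg.IrrCharacter G,
      (∀ s ∈ S, ∀ g g' : G, (g' : Γ) = s * g * s⁻¹ → (χ : G → ℂ) g' = (χ : G → ℂ) g) ↔
        Cfsg.Agent.Chars.InvFun φ (χ : G → ℂ) := fun χ =>
    ⟨fun h a g => h a a.2 g _ rfl, fun h s hs g g' he =>
      (congrArg (χ : G → ℂ) (Subtype.ext he)).trans (h ⟨s, hs⟩ g)⟩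
  have h2 : ∀ K : ConjClasses G,
      (∀ s ∈ S, ∀ g g' : G, (g' : Γ) = s * g * s⁻¹ → ConjClasses.mk g = K → ConjClasses.mk g' = K) ↔
        ∀ a : S, ConjClasses.map (φ a).toMonoidHom K = K := by
    intro K
    obtain ⟨g₀, rfl⟩ := ConjClasses.mk_surjective K
    constructor
    · intro h a
      exact h a a.2 g₀ (φ a g₀) rfl rfl
    · intro h s hs g g' he hg
      rw [show g' = φ ⟨s, hs⟩ g from Subtype.ext he, ← h ⟨s, hs⟩, ← hg]
      rfl
  rw [Nat.card_congr (Equiv.subtypeEquivRight h1), Nat.card_congr (Equiv.subtypeEquivRight h2),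
    Cfsg.Agent.Chars.card_fixed_classes hsolv φ hcop, Nat.card_congr E,
    Cfsg.Agent.Chars.card_irr_eq_card_conjClasses]

end Cfsg.Agent.S4445
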