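import Cfsg.Statements.S4446
import Cfsg.Agent.Chars.CyclicGlauberman
import Cfsg.Agent.Chars.GlaubermanSolvable

set_option autoImplicit false
set_option linter.style.haveILetI false
open Cfsg

namespace Cfsg.Agent.S4446


universe u

open Cfsg.Agent.Chars in
/-- The sign and the character attached to a canonical extension. -/
theorem core {Γ : Type u} [Group Γ] [Fintype Γ] {G S C : Subgroup Γ} [G.Normal] [Fintype G]
    [Fintype C] {s : Γ} (hs : Subgroup.zpowers s = S) (hC : ∀ c, c ∈ C ↔ c ∈ G ∧ c * s = s * c)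
    (hcop : (Nat.card G).Coprime (orderOf s)) (hidx : G.index = orderOf s)
    {χ : Γ → ℂ} (hχ : IsIrrCharacter Γ χ) (hχG : IsIrrCharacter G (fun k => χ k))
    (hinv : Chars2.inertiaSub (fun k : G => χ k) = ⊤) (hdet : (detOrder χ).Coprime G.index)
    (hab : ∀ a b : Γ ⧸ G, a * b = b * a) :
    ∃ (β : IrrCharacter C) (ε : ℤ), (ε = 1 ∨ ε = -1) ∧
      ∀ c : C, ∀ t : Γ, Subgroup.zpowers t = S → χ ((c : Γ) * t) = (ε : ℂ) * (β : C → ℂ) c := by
  have hgen := twisted_isGen hC (hidx.symm ▸ hcop) hidx.symm.dvd hχ hχG hinv hdet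
  have h1 : classInner (fun c : C => χ (c * s)) (fun c : C => χ (c * s)) = 1 := by
    rw [twisted_inner hC hcop hab hχ hχ hχG hinv (Or.inl rfl), classInner_self_irr hχ]
  have hpow : ∀ (c : C) (t : Γ), Subgroup.zpowers t = S → χ (c * t) = χ (c * s) := by
    intro c t ht
    have hmem : t ∈ Subgroup.zpowers s := by rw [hs, ← ht]; exact Subgroup.mem_zpowers t
    obtain ⟨k, rfl⟩ := (IsOfFinOrder.mem_powers_iff_mem_zpowers (isOfFinOrder_of_finite s)).2 hmem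
    simp only at ht
    have hk : k.Coprime (orderOf s) := by
      have h : orderOf (s ^ k) = orderOf s := by
        rw [← Nat.card_zpowers, ht, ← hs, Nat.card_zpowers]
      rcases Nat.eq_zero_or_pos k with rfl | hk0
      · rw [pow_zero, orderOf_one] at h
        rw [← h]
        exact Nat.coprime_one_right _
      · rw [orderOf_pow' s hk0.ne'] at h
        exact Nat.Coprime.symm ((Nat.div_eq_self.1 h).resolve_left (orderOf_pos s).ne')
    exact canonical_pow hC (hidx.symm ▸ hcop) hidx.symm.dvd hχ hχG hinv hdet hk c.2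
  rcases OddChar.virt_norm_one hgen h1 with h | h
  · refine ⟨⟨_, h⟩, 1, Or.inl rfl, fun c t ht => ?_⟩
    rw [hpow c t ht, Int.cast_one, one_mul]
  · refine ⟨⟨_, h⟩, -1, Or.inr rfl, fun c t ht => ?_⟩
    rw [hpow c t ht]
    simp

open Cfsg.Agent.Chars in
/-- A sign times an irreducible character determines both. -/
theorem sign_unique {G : Type u} [Group G] [Fintype G] (β β' : IrrCharacter G) {ε ε' : ℤ}
    (hε : ε = 1 ∨ ε = -1) (hε' : ε' = 1 ∨ ε' = -1)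
    (h : ∀ g, (ε : ℂ) * (β : G → ℂ) g = (ε' : ℂ) * (β' : G → ℂ) g) : β = β' ∧ ε = ε' := by
  obtain ⟨d, hd, hd'⟩ := exists_irr_apply_one_eq β.2
  obtain ⟨e, he, he'⟩ := exists_irr_apply_one_eq β'.2
  have h1 := h 1
  rw [hd', he'] at h1
  have h2 : ε * (d : ℤ) = ε' * (e : ℤ) := by exact_mod_cast h1
  have hee : ε = ε' := by rcases hε with rfl | rfl <;> rcases hε' with rfl | rfl <;> omega
  subst hee
  refine ⟨Subtype.ext (funext fun g => mul_left_cancel₀ ?_ (h g)), rfl⟩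
  rcases hε with rfl | rfl <;> simp

/-- Let the finite group Γ be generated by a normal subgroup G and a cyclic subgroup S of coprime orders, C = G ⊓ C(S), and let χ be an S-invariant irreducible character of G with canonical extension χ̂ to Γ (the extension whose determinantal order is coprime to the order of S). Then there are exactly one irreducible character β of C and one sign ε such that χ̂(c s) = ε β(c) for every c ∈ C and every generator s of S; this β is a constituent of the restriction of χ to C; distinct S-invariant χ give distinct β; and every irreducible character of C arises in this way. -/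
theorem result {Γ : Type*} [Group Γ] [Fintype Γ] (G S : Subgroup Γ) [Fintype G] (hnorm : ∀ s ∈ S, ∀ g ∈ G, s * g * s⁻¹ ∈ G) (hcop : (Nat.card G).Coprime (Nat.card S)) (htop : G ⊔ S = ⊤) (hcyc : IsCyclic S) (C : Subgroup Γ) [Fintype C] (hC : C = G ⊓ Subgroup.centralizer (S : Set Γ)) (hCG : C ≤ G) : (∀ (χ : Cfsg.IrrCharacter G) (χh : Cfsg.IrrCharacter Γ), (∀ s ∈ S, ∀ g g' : G, (g' : Γ) = s * g * s⁻¹ → (χ : G → ℂ) g' = (χ : G → ℂ) g) → (∀ g : G, (χh : Γ → ℂ) g = (χ : G → ℂ) g) → (Cfsg.detOrder (χh : Γ → ℂ)).Coprime (Nat.card S) → (∃! βε : Cfsg.IrrCharacter C × ℤ, (βε.2 = 1 ∨ βε.2 = -1) ∧ ∀ c : C, ∀ s : Γ, Subgroup.zpowers s = S → (χh : Γ → ℂ) ((c : Γ) * s) = (βε.2 : ℂ) * (βε.1 : C → ℂ) c) ∧ ∀ β : Cfsg.IrrCharacter C, ∀ ε : ℤ, (ε = 1 ∨ ε = -1) → (∀ c : C, ∀ s : Γ, Subgroup.zpowers s = S → (χh : Γ → ℂ) ((c : Γ) * s) = (ε : ℂ) * (β : C → ℂ) c) → Cfsg.classInner (fun c : C => (χ : G → ℂ)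 ⟨c, hCG c.2⟩) (β : C → ℂ) ≠ 0) ∧ (∀ (χ χ' : Cfsg.IrrCharacter G) (χh χh' : Cfsg.IrrCharacter Γ), (∀ s ∈ S, ∀ g g' : G, (g' : Γ) = s * g * s⁻¹ → (χ : G → ℂ) g' = (χ : G → ℂ) g) → (∀ s ∈ S, ∀ g g' : G, (g' : Γ) = s * g * s⁻¹ → (χ' : G → ℂ) g' = (χ' : G → ℂ) g) → (∀ g : G, (χh : Γ → ℂ) g = (χ : G → ℂ) g) → (∀ g : G, (χh' : Γ → ℂ) g = (χ' : G → ℂ) g) → (Cfsg.detOrder (χh : Γ → ℂ)).Coprime (Nat.card S) → (Cfsg.detOrder (χh' : Γ → ℂ)).Coprime (Nat.card S) → ∀ β : Cfsg.IrrCharacter C, ∀ ε ε' : ℤ, (ε = 1 ∨ ε = -1) → (ε' = 1 ∨ ε' = -1) → (∀ c : C, ∀ s : Γ, Subgroup.zpowers s = S → (χh : Γ → ℂ) ((c : Γ) * s) = (ε : ℂ) * (β : C → ℂ) c) → (∀ c : C, ∀ s : Γ, Subgroup.zpowers s = S → (χh' : Γ → ℂ) ((c : Γ) * s) = (ε' : ℂ) * (β : C → ℂ) c) → χ = χ') ∧ (∀ β : Cfsg.IrrCharacter C, ∃ (χ : Cfsg.IrrCharacter G) (χh : Cfsg.IrrCharacter Γ) (ε : ℤ), (∀ s ∈ S, ∀ g g' : G, (g' : Γ) = s * g * s⁻¹ → (χ : G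 → ℂ) g' = (χ : G → ℂ) g) ∧ (∀ g : G, (χh : Γ → ℂ) g = (χ : G → ℂ) g) ∧ (Cfsg.detOrder (χh : Γ → ℂ)).Coprime (Nat.card S) ∧ (ε = 1 ∨ ε = -1) ∧ ∀ c : C, ∀ s : Γ, Subgroup.zpowers s = S → (χh : Γ → ℂ) ((c : Γ) * s) = (ε : ℂ) * (β : C → ℂ) c) := by
  classical
  obtain ⟨hGn, s, hs, hord, hidx, hmem⟩ := Cfsg.Agent.Chars.cyclic_setup hnorm hcop htop hcyc hC
  have hcop' : (Nat.card G).Coprime (orderOf s) := hord ▸ hcop
  have hab := Cfsg.Agent.Chars.quotient_comm (G := G) (s := s) (hs.symm ▸ htop)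
  have hI : ∀ χ : Cfsg.IrrCharacter G, (∀ s ∈ S, ∀ g g' : G, (g' : Γ) = s * g * s⁻¹ →
      (χ : G → ℂ) g' = (χ : G → ℂ) g) → Cfsg.Agent.Chars2.inertiaSub (χ : G → ℂ) = ⊤ := fun χ h =>
    Cfsg.Agent.Chars.inertia_top_of_invariant htop
      (Cfsg.Agent.Chars.isClassFunction_of_isCharacter (Cfsg.Agent.Chars.irr_isCharacter χ)) h
  have hprep : ∀ (χ : Cfsg.IrrCharacter G) (χh : Cfsg.IrrCharacter Γ),
      (∀ g : G, (χh : Γ → ℂ) g = (χ : G → ℂ) g) → (fun k : G => (χh : Γ → ℂ) k) = (χ : G → ℂ) :=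
    fun χ χh h => funext h
  have hmain : ∀ (χ : Cfsg.IrrCharacter G) (χh : Cfsg.IrrCharacter Γ),
      (∀ s ∈ S, ∀ g g' : G, (g' : Γ) = s * g * s⁻¹ → (χ : G → ℂ) g' = (χ : G → ℂ) g) →
      (∀ g : G, (χh : Γ → ℂ) g = (χ : G → ℂ) g) →
      (Cfsg.detOrder (χh : Γ → ℂ)).Coprime (Nat.card S) →
      ∃ (β : Cfsg.IrrCharacter C) (ε : ℤ), (ε = 1 ∨ ε = -1) ∧
        ∀ c : C, ∀ t : Γ, Subgroup.zpowers t = S →
          (χh : Γ → ℂ) ((c : Γ) * t) = (ε : ℂ) * (β : C → ℂ) c := by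
    intro χ χh hi he hd
    exact core hs hmem hcop' hidx χh.2 (by rw [hprep χ χh he]; exact χ.2)
      (by rw [hprep χ χh he]; exact hI χ hi) (by rw [hidx, hord]; exact hd) hab
  have hcoef : ∀ (χh : Cfsg.IrrCharacter Γ) (β : Cfsg.IrrCharacter C) (ε : ℤ),
      (∀ c : C, ∀ t : Γ, Subgroup.zpowers t = S →
        (χh : Γ → ℂ) ((c : Γ) * t) = (ε : ℂ) * (β : C → ℂ) c) →
      (fun c : C => (χh : Γ → ℂ) (c * s)) = (ε : ℂ) • (β : C → ℂ) :=
    fun χh β ε h => funext fun c => h c s hs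
  have hinj : ∀ (χ χ' : Cfsg.IrrCharacter G) (χh χh' : Cfsg.IrrCharacter Γ),
      (∀ s ∈ S, ∀ g g' : G, (g' : Γ) = s * g * s⁻¹ → (χ : G → ℂ) g' = (χ : G → ℂ) g) →
      (∀ s ∈ S, ∀ g g' : G, (g' : Γ) = s * g * s⁻¹ → (χ' : G → ℂ) g' = (χ' : G → ℂ) g) →
      (∀ g : G, (χh : Γ → ℂ) g = (χ : G → ℂ) g) → (∀ g : G, (χh' : Γ → ℂ) g = (χ' : G → ℂ) g) →
      (Cfsg.detOrder (χh : Γ → ℂ)).Coprime (Nat.card S) →
      (Cfsg.detOrder (χh' : Γ → ℂ)).Coprime (Nat.card S) →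
      ∀ β : Cfsg.IrrCharacter C, ∀ ε ε' : ℤ, (ε = 1 ∨ ε = -1) → (ε' = 1 ∨ ε' = -1) →
      (∀ c : C, ∀ t : Γ, Subgroup.zpowers t = S →
        (χh : Γ → ℂ) ((c : Γ) * t) = (ε : ℂ) * (β : C → ℂ) c) →
      (∀ c : C, ∀ t : Γ, Subgroup.zpowers t = S →
        (χh' : Γ → ℂ) ((c : Γ) * t) = (ε' : ℂ) * (β : C → ℂ) c) → χ = χ' := by
    intro χ χ' χh χh' hi hi' he he' _ _ β ε ε' hε hε' hb hb'
    by_contra hne
    have hr : (fun k : G => (χh : Γ → ℂ) k) ≠ fun k : G => (χh' : Γ → ℂ) k := by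
      rw [hprep χ χh he, hprep χ' χh' he']
      exact fun h => hne (Subtype.ext h)
    have h := Cfsg.Agent.Chars.twisted_inner hmem hcop' hab χh.2 χh'.2
      (by rw [hprep χ' χh' he']; exact χ'.2) (by rw [hprep χ' χh' he']; exact hI χ' hi') (Or.inr hr)
    rw [Cfsg.Agent.Chars.classInner_irr_of_ne χh.2 χh'.2 (fun e => hr (by rw [e])), hcoef χh β ε hb,
      hcoef χh' β ε' hb', Cfsg.Agent.Chars.classInner_smul_left,
      Cfsg.Agent.Chars.classInner_smul_right, Cfsg.Agent.Chars.classInner_self_irr β.2] at h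
    rcases hε with rfl | rfl <;> rcases hε' with rfl | rfl <;> norm_num at h
  refine ⟨fun χ χh hi he hd => ⟨?_, ?_⟩, hinj, ?_⟩
  · obtain ⟨β, ε, hε, hb⟩ := hmain χ χh hi he hd
    refine ⟨(β, ε), ⟨hε, hb⟩, fun p ⟨hp, hp'⟩ => ?_⟩
    obtain ⟨h1, h2⟩ := sign_unique p.1 β hp hε fun c => (hp' c s hs).symm.trans (hb c s hs)
    exact Prod.ext h1 h2
  · intro β ε hε hb h0
    have h := (Cfsg.Agent.Chars.twisted_coeff (K := G) hmem
      (Cfsg.Agent.Chars.irr_isCharacter χh) β.2).2 (by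
        rw [← h0]
        exact congrArg (fun f => Cfsg.classInner f (β : C → ℂ)) (funext fun c => he ⟨c, hCG c.2⟩))
    rw [hcoef χh β ε hb, Cfsg.Agent.Chars.classInner_smul_left,
      Cfsg.Agent.Chars.classInner_self_irr β.2] at h
    rcases hε with rfl | rfl <;> norm_num at h
  · let φ := Cfsg.Agent.Chars.conjHom G S hnorm
    haveI := Fintype.ofFinite (Cfsg.Agent.Chars.fixSub φ)
    haveI := hcyc
    obtain ⟨E⟩ := Cfsg.Agent.Chars.glauberman_solvable_equiv (A := S)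
      inferInstance φ hcop
    have h1 : ∀ χ : Cfsg.IrrCharacter G,
        (∀ s ∈ S, ∀ g g' : G, (g' : Γ) = s * g * s⁻¹ → (χ : G → ℂ) g' = (χ : G → ℂ) g) ↔
          Cfsg.Agent.Chars.InvFun φ (χ : G → ℂ) := fun χ =>
      ⟨fun h a g => h a a.2 g _ rfl, fun h t ht g g' he =>
        (congrArg (χ : G → ℂ) (Subtype.ext he)).trans (h ⟨t, ht⟩ g)⟩
    let e : Cfsg.Agent.Chars.fixSub φ ≃* C :=
      { toFun := fun x => ⟨((x : G) : Γ), (hmem _).2 ⟨(x : G).2, by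
          have hsS : s ∈ S := hs ▸ Subgroup.mem_zpowers s
          have := congrArg Subtype.val (x.2 ⟨s, hsS⟩)
          exact (mul_inv_eq_iff_eq_mul.1 this).symm⟩⟩
        invFun := fun c => ⟨⟨c, hCG c.2⟩, fun a => Subtype.ext (by
          have hc : (c : Γ) ∈ Subgroup.centralizer (S : Set Γ) :=
            ((SetLike.ext_iff.1 hC (c : Γ)).1 c.2).2
          show (a : Γ) * c * (a : Γ)⁻¹ = c
          rw [Subgroup.mem_centralizer_iff.1 hc a a.2, mul_inv_cancel_right])⟩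
        left_inv := fun _ => rfl
        right_inv := fun _ => rfl
        map_mul' := fun _ _ => rfl }
    let X := {χ : Cfsg.IrrCharacter G //
      ∀ s ∈ S, ∀ g g' : G, (g' : Γ) = s * g * s⁻¹ → (χ : G → ℂ) g' = (χ : G → ℂ) g}
    have hext : ∀ χ : X, ∃ χh : Cfsg.IrrCharacter Γ, (∀ g : G, (χh : Γ → ℂ) g = (χ.1 : G → ℂ) g) ∧
        (Cfsg.detOrder (χh : Γ → ℂ)).Coprime (Nat.card S) := by
      intro χ
      obtain ⟨f, ⟨hf, hfr, hfd⟩, -⟩ := Cfsg.Agent.Chars.existsUnique_ext_coprime G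
        (hidx.symm ▸ hcop') χ.1.2 (hI χ.1 χ.2)
      exact ⟨⟨f, hf⟩, hfr, by rw [← hord, ← hidx]; exact hfd⟩
    choose χh he hd using hext
    choose F ε hε hF using fun χ : X => hmain χ.1 (χh χ) χ.2 (he χ) (hd χ)
    have hFi : Function.Injective F := fun χ χ' h => Subtype.ext
      (hinj χ.1 χ'.1 (χh χ) (χh χ') χ.2 χ'.2 (he χ) (he χ') (hd χ) (hd χ') (F χ) (ε χ) (ε χ')
        (hε χ) (hε χ') (hF χ) (h ▸ hF χ'))
    have hcard : Nat.card X = Nat.card (Cfsg.IrrCharacter C) := by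
      rw [Nat.card_congr ((Equiv.subtypeEquivRight h1).trans E)]
      exact Nat.card_congr (Cfsg.Agent.Chars.irrEquiv e.symm)
    intro β
    obtain ⟨χ, hχ⟩ := (hFi.bijective_of_nat_card_le hcard.ge).2 β
    exact ⟨χ.1, χh χ, ε χ, χ.2, he χ, hd χ, hε χ, hχ ▸ hF χ⟩

end Cfsg.Agent.S4446
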