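import Cfsg.Statements.S4447
import Cfsg.Agent.Chars.InvariantAbove
import Cfsg.Agent.Core.CoprimeAction
import Mathlib.GroupTheory.SemidirectProduct

set_option autoImplicit false
set_option linter.style.haveILetI false
open Cfsg

namespace Cfsg.Agent.S4447

/-- Inside a finite group Γ let S normalise G and also normalise a normal subgroup N of G, with the order of S coprime to the index of N in G and S or G/N solvable. Then for every S-invariant irreducible character χ of G, the restriction of χ to N has an S-invariant irreducible constituent. -/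
theorem result {Γ : Type*} [Group Γ] [Fintype Γ] (G S N : Subgroup Γ) [Fintype G] [Fintype N] (hnorm : ∀ s ∈ S, ∀ g ∈ G, s * g * s⁻¹ ∈ G) (hNG : N ≤ G) [hNn : (N.subgroupOf G).Normal] (hNS : ∀ s ∈ S, ∀ n ∈ N, s * n * s⁻¹ ∈ N) (hcop : (N.relIndex G).Coprime (Nat.card S)) (hsolv : Group.IsSolvable S ∨ Group.IsSolvable (G ⧸ N.subgroupOf G)) (χ : Cfsg.IrrCharacter G) (hinv : (∀ s ∈ S, ∀ g g' : G, (g' : Γ) = s * g * s⁻¹ → (χ : G → ℂ) g' = (χ : G → ℂ) g)) : ∃ θ : Cfsg.IrrCharacter N, Cfsg.classInner (fun n : N => (χ : G → ℂ) ⟨n, hNG n.2⟩) (θ : N → ℂ) ≠ 0 ∧ (∀ s ∈ S, ∀ g g' : N, (g' : Γ) = s * g * s⁻¹ → (θ : N → ℂ) g' = (θ : N → ℂ) g) := by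
  classical
  let N' := N.subgroupOf G
  haveI : Fintype N' := Fintype.ofFinite _
  haveI : Finite (Cfsg.IrrCharacter N') := inferInstance
  let e : N' ≃* N := Subgroup.subgroupOfEquivOfLe hNG
  let φ := Cfsg.Agent.Chars.conjHom G S hnorm
  have hN' : ∀ s : S, ∀ n ∈ N', φ s n ∈ N' := fun s n hn => hNS s s.2 n hn
  let μG : G →* MulAut N' := MulAut.conjNormal
  let μS : S →* MulAut N' := Cfsg.Agent.Chars.subAct φ N' hN'
  letI := Cfsg.Agent.Chars.irrAction μG
  let pG0 : G →* Equiv.Perm (Cfsg.IrrCharacter N') := MulAction.toPermHom G (Cfsg.IrrCharacter N')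
  have hker : N' ≤ pG0.ker := by
    intro n hn
    refine Equiv.ext fun θ => Subtype.ext (funext fun x => ?_)
    show (θ : N' → ℂ) (μG n⁻¹ x) = (θ : N' → ℂ) x
    rw [show μG n⁻¹ x = (⟨n, hn⟩ : N')⁻¹ * x * (⟨n, hn⟩ : N')⁻¹⁻¹ from Subtype.ext (by simp [μG])]
    exact Cfsg.Agent.Chars.isClassFunction_irr θ x _
  let pG : G ⧸ N' →* Equiv.Perm (Cfsg.IrrCharacter N') := QuotientGroup.lift N' pG0 hker
  let pS : S →* Equiv.Perm (Cfsg.IrrCharacter N') :=
    letI := Cfsg.Agent.Chars.irrAction μS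
    MulAction.toPermHom S (Cfsg.IrrCharacter N')
  let φQ : S →* MulAut (G ⧸ N') :=
    { toFun := fun s => QuotientGroup.congr N' N' (φ s) (by
        refine le_antisymm (Subgroup.map_le_iff_le_comap.2 fun n hn => hN' s n hn) fun n hn => ?_
        refine ⟨φ s⁻¹ n, hN' s⁻¹ n hn, ?_⟩
        show φ s (φ s⁻¹ n) = n
        rw [← MulAut.mul_apply, ← map_mul, mul_inv_cancel, map_one, MulAut.one_apply])
      map_one' := MulEquiv.ext fun y => by
        obtain ⟨g, rfl⟩ := QuotientGroup.mk'_surjective N' y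
        show QuotientGroup.mk' N' (φ 1 g) = QuotientGroup.mk' N' g
        rw [map_one, MulAut.one_apply]
      map_mul' := fun s t => MulEquiv.ext fun y => by
        obtain ⟨g, rfl⟩ := QuotientGroup.mk'_surjective N' y
        show QuotientGroup.mk' N' (φ (s * t) g) = QuotientGroup.mk' N' (φ s (φ t g))
        rw [map_mul, MulAut.mul_apply] }
  have hcompat : ∀ s : S, pG.comp (φQ s).toMonoidHom = (MulAut.conj (pS s)).toMonoidHom.comp pG := by
    intro s
    refine MonoidHom.ext fun y => ?_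
    obtain ⟨g, rfl⟩ := QuotientGroup.mk'_surjective N' y
    show pG0 (φ s g) = pS s * pG0 g * (pS s)⁻¹
    rw [← map_inv]
    refine Equiv.ext fun θ => Subtype.ext (funext fun x => ?_)
    show (θ : N' → ℂ) (μG (φ s g)⁻¹ x) = (θ : N' → ℂ) (μS s⁻¹⁻¹ (μG g⁻¹ (μS s⁻¹ x)))
    refine congrArg (θ : N' → ℂ) (Subtype.ext (Subtype.ext ?_))
    simp [μG, μS, Cfsg.Agent.Chars.subAct, φ, mul_assoc]
  let Φ : (G ⧸ N') ⋊[φQ] S →* Equiv.Perm (Cfsg.IrrCharacter N') :=
    SemidirectProduct.lift pG pS hcompat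
  letI := MulAction.compHom (Cfsg.IrrCharacter N') Φ
  -- the constituents
  obtain ⟨θ₀, hθ₀⟩ : ∃ θ : Cfsg.IrrCharacter N',
      Cfsg.classInner (fun n : N' => (χ : G → ℂ) n) (θ : N' → ℂ) ≠ 0 := by
    by_contra hc0
    push Not at hc0
    have h0 : (fun k : N' => (χ : G → ℂ) k) = 0 := by
      rw [Cfsg.Agent.Chars.eq_sum_classInner (Cfsg.Agent.Chars.isClassFunction_of_isCharacter
        (Cfsg.Agent.Chars.isCharacter_restrict (Cfsg.Agent.Chars.irr_isCharacter χ) N'))]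
      simp [hc0]
    exact Cfsg.Agent.Chars.irr_apply_one_ne_zero χ.2 (by simpa using congrFun h0 1)
  let K := (SemidirectProduct.inl : G ⧸ N' →* (G ⧸ N') ⋊[φQ] S).range
  let A := (SemidirectProduct.inr : S →* (G ⧸ N') ⋊[φQ] S).range
  haveI : Finite ((G ⧸ N') ⋊[φQ] S) :=
    Finite.of_equiv _ SemidirectProduct.equivProd.symm
  have hKn : K.Normal := by
    show (SemidirectProduct.inl : G ⧸ N' →* (G ⧸ N') ⋊[φQ] S).range.Normal
    rw [SemidirectProduct.range_inl_eq_ker_rightHom]; infer_instance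
  have hA : A ≤ Subgroup.normalizer (K : Set ((G ⧸ N') ⋊[φQ] S)) := by
    rw [Subgroup.normalizer_eq_top (H := K)]; exact le_top
  have hs : Group.IsSolvable A ∨ Group.IsSolvable K := by
    rcases hsolv with h | h
    · haveI := h
      exact Or.inl (Group.isSolvable_of_surjective
        (f := (SemidirectProduct.inr : S →* (G ⧸ N') ⋊[φQ] S).rangeRestrict)
        (MonoidHom.rangeRestrict_surjective _))
    · haveI := h
      exact Or.inr (Group.isSolvable_of_surjective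
        (f := (SemidirectProduct.inl : G ⧸ N' →* (G ⧸ N') ⋊[φQ] S).rangeRestrict)
        (MonoidHom.rangeRestrict_surjective _))
  have hcop' : (Nat.card A).Coprime (Nat.card K) := by
    rw [show Nat.card A = Nat.card S from
        (Nat.card_congr (MonoidHom.ofInjective SemidirectProduct.inr_injective).toEquiv).symm,
      show Nat.card K = Nat.card (G ⧸ N') from
        (Nat.card_congr (MonoidHom.ofInjective SemidirectProduct.inl_injective).toEquiv).symm,
      ← Subgroup.index_eq_card]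
    exact hcop.symm
  obtain ⟨x, ⟨y, rfl⟩, hfix⟩ := Cfsg.Agent.Core.exists_conj_le hA hs hcop'
    (S := MulAction.stabilizer ((G ⧸ N') ⋊[φQ] S) θ₀) (fun a ha => by
      obtain ⟨s, rfl⟩ := ha
      let θ₁ : Cfsg.IrrCharacter N' := pS s θ₀
      have hθ₁ : Cfsg.classInner (fun n : N' => (χ : G → ℂ) n) (θ₁ : N' → ℂ) ≠ 0 := by
        show Cfsg.classInner (fun n : N' => (χ : G → ℂ) n)
          (fun n => (θ₀ : N' → ℂ) (μS s⁻¹ n)) ≠ 0
        have hinv' : (fun n : N' => (χ : G → ℂ) n) = fun n : N' => (χ : G → ℂ) (μS s⁻¹ n : N') :=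
          funext fun n => (hinv _ (s⁻¹).2 (n : G) _ rfl).symm
        rw [hinv', Cfsg.Agent.Chars.classInner_comp_equiv (μS s⁻¹)
          (fun n : N' => (χ : G → ℂ) n) (θ₀ : N' → ℂ)]
        exact hθ₀
      obtain ⟨g, hg⟩ := Cfsg.Agent.Chars2.clifford_constituent χ.2 θ₁.2 hθ₁ θ₀.2 hθ₀
      refine ⟨SemidirectProduct.inl (QuotientGroup.mk' N' g), ⟨_, rfl⟩, ?_⟩
      rw [MulAction.mem_stabilizer_iff]
      show Φ (_ * _) θ₀ = θ₀
      rw [map_mul, SemidirectProduct.lift_inl, SemidirectProduct.lift_inr]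
      exact Subtype.ext hg.symm)
  obtain ⟨g, rfl⟩ := QuotientGroup.mk'_surjective N' y
  let θ' : Cfsg.IrrCharacter N' := (pG0 g)⁻¹ θ₀
  have hθ' : Cfsg.classInner (fun n : N' => (χ : G → ℂ) n) (θ' : N' → ℂ) ≠ 0 := by
    have h : θ' = pG0 g⁻¹ θ₀ := by rw [map_inv]
    rw [h]
    show Cfsg.classInner (fun n : N' => (χ : G → ℂ) n)
      (Cfsg.Agent.Chars2.conjFun (θ₀ : N' → ℂ) g⁻¹) ≠ 0
    rw [Cfsg.Agent.Chars2.classInner_restrict_conjFun (Cfsg.Agent.Chars.isClassFunction_irr χ)]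
    exact hθ₀
  have hfix' : ∀ s : S, pS s θ' = θ' := by
    intro s
    have h := MulAction.mem_stabilizer_iff.1 (hfix (SemidirectProduct.inr s) ⟨s, rfl⟩)
    change Φ (_ * _ * _) θ₀ = θ₀ at h
    rw [map_mul, map_mul, map_inv, SemidirectProduct.lift_inl, SemidirectProduct.lift_inr] at h
    show pS s ((pG0 g)⁻¹ θ₀) = (pG0 g)⁻¹ θ₀
    exact (Equiv.Perm.eq_inv_iff_eq).2 h
  refine ⟨Cfsg.Agent.Chars.irrEquiv e.symm θ', ?_, fun s hs n n' h => ?_⟩
  · rw [← Cfsg.Agent.Chars.classInner_comp_equiv e]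
    refine fun h0 => hθ' (Eq.trans ?_ h0)
    congr 1
  · have h1 := congrFun (congrArg Subtype.val (hfix' ⟨s⁻¹, S.inv_mem hs⟩)) (e.symm n)
    change (θ' : N' → ℂ) (μS (⟨s⁻¹, S.inv_mem hs⟩ : S)⁻¹ (e.symm n)) = _ at h1
    rw [show (⟨s⁻¹, S.inv_mem hs⟩ : S)⁻¹ = ⟨s, hs⟩ from Subtype.ext (inv_inv s)] at h1
    rw [Cfsg.Agent.Chars.irrEquiv_apply, Cfsg.Agent.Chars.irrEquiv_apply, ← h1]
    refine congrArg (θ' : N' → ℂ) (Subtype.ext (Subtype.ext ?_))
    exact h

end Cfsg.Agent.S4447
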