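import Cfsg.Statements.S4448
import Cfsg.Agent.Chars.InvariantAbove

set_option autoImplicit false
set_option linter.style.haveILetI false
open Cfsg

namespace Cfsg.Agent.S4448

/-- Inside a finite group Γ let S normalise G and also normalise a normal subgroup N of G, with the order of S coprime to the index of N in G and G/N solvable. Then for every S-invariant irreducible character ϑ of N, the induced character ϑ^G has an S-invariant irreducible constituent. -/
theorem result {Γ : Type*} [Group Γ] [Fintype Γ] (G S N : Subgroup Γ) [Fintype G] [Fintype N] (hnorm : ∀ s ∈ S, ∀ g ∈ G, s * g * s⁻¹ ∈ G) (hNG : N ≤ G) [hNn : (N.subgroupOf G).Normal] (hNS : ∀ s ∈ S, ∀ n ∈ N, s * n * s⁻¹ ∈ N) (hcop : (N.relIndex G).Coprime (Nat.card S)) (hsolv : Group.IsSolvable (G ⧸ N.subgroupOf G)) (θ : Cfsg.IrrCharacter N) (hinv : (∀ s ∈ S, ∀ g g' : N, (g' : Γ) = s * g * s⁻¹ → (θ : N → ℂ) g' = (θ : N → ℂ) g)) : ∃ χ : Cfsg.IrrCharacter G, Cfsg.classInner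 (fun n : N => (χ : G → ℂ) ⟨n, hNG n.2⟩) (θ : N → ℂ) ≠ 0 ∧ (∀ s ∈ S, ∀ g g' : G, (g' : Γ) = s * g * s⁻¹ → (χ : G → ℂ) g' = (χ : G → ℂ) g) := by
  classical
  let φ := Cfsg.Agent.Chars.conjHom G S hnorm
  let e : N.subgroupOf G ≃* N := Subgroup.subgroupOfEquivOfLe hNG
  haveI : Fintype (N.subgroupOf G) := Fintype.ofFinite _
  have hcop' : (N.subgroupOf G).index.Coprime (⊥ : Subgroup S).index := by
    rw [Subgroup.index_bot]; exact hcop
  obtain ⟨χ, hχi, hχ⟩ := Cfsg.Agent.Chars.exists_invariant_above_coprime φ (N.subgroupOf G)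
    (fun s n hn => hNS s s.2 n hn) ⊥
    (fun t ht => ⟨1, one_mem _, fun g => by rw [Subgroup.mem_bot.1 ht, map_one]; simp⟩)
    hcop' (Or.inr hsolv) (θ := fun n => (θ : N → ℂ) (e n))
    (Cfsg.Agent.Chars.isIrrCharacter_comp_equiv θ.2 e)
    (fun s n => hinv s s.2 (e n) _ rfl)
  refine ⟨χ, ?_, fun s hs g g' h => ?_⟩
  · rw [← Cfsg.Agent.Chars.classInner_comp_equiv e]
    exact hχ
  · have : g' = φ ⟨s, hs⟩ g := Subtype.ext h
    rw [this]
    exact hχi ⟨s, hs⟩ g

end Cfsg.Agent.S4448
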