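import Cfsg.Statements.S4449
import Cfsg.Agent.Chars.GlaubermanSolvable

set_option autoImplicit false
set_option linter.style.haveILetI false
open Cfsg

namespace Cfsg.Agent.S4449

/-- Inside a finite group Γ let the solvable subgroup S normalise G with the orders of G and S coprime, and let N be a normal subgroup of G normalised by S. Then for every S-invariant irreducible character ϑ of N, the induced character ϑ^G has an S-invariant irreducible constituent. -/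
theorem result {Γ : Type*} [Group Γ] [Fintype Γ] (G S N : Subgroup Γ) [Fintype G] [Fintype N] (hnorm : ∀ s ∈ S, ∀ g ∈ G, s * g * s⁻¹ ∈ G) (hNG : N ≤ G) (hNnormal : ∀ g ∈ G, ∀ n ∈ N, g * n * g⁻¹ ∈ N) (hNS : ∀ s ∈ S, ∀ n ∈ N, s * n * s⁻¹ ∈ N) (hcop : (Nat.card G).Coprime (Nat.card S)) (hsolv : Group.IsSolvable S) (θ : Cfsg.IrrCharacter N) (hinv : (∀ s ∈ S, ∀ g g' : N, (g' : Γ) = s * g * s⁻¹ → (θ : N → ℂ) g' = (θ : N → ℂ) g)) : ∃ χ : Cfsg.IrrCharacter G, Cfsg.classInner (fun n : N => (χ : G → ℂ) ⟨n, hNG n.2⟩) (θ : N → ℂ) ≠ 0 ∧ (∀ s ∈ S, ∀ g g' : G, (g' : Γ) = s * g * s⁻¹ → (χ : G → ℂ) g' = (χ : G → ℂ) g) := by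
  haveI : Finite S := inferInstance
  let φ := Cfsg.Agent.Chars.conjHom G S hnorm
  haveI : (N.subgroupOf G).Normal := ⟨fun n hn g => hNnormal g g.2 n hn⟩
  haveI := Fintype.ofFinite (N.subgroupOf G)
  let e : N.subgroupOf G ≃* N := Subgroup.subgroupOfEquivOfLe hNG
  obtain ⟨χ, hχi, hχ⟩ := Cfsg.Agent.Chars.exists_invariant_above hsolv φ hcop (N.subgroupOf G)
    (fun a n hn => hNS a a.2 n hn)
    (θ := fun x => (θ : N → ℂ) (e x)) (Cfsg.Agent.Chars.isIrrCharacter_comp_equiv θ.2 e)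
    (fun a x => hinv a a.2 (e x) _ rfl)
  refine ⟨χ, ?_, fun s hs g g' he => (congrArg (χ : G → ℂ) (Subtype.ext he)).trans (hχi ⟨s, hs⟩ g)⟩
  rw [← Cfsg.Agent.Chars.classInner_comp_equiv e]
  exact hχ

end Cfsg.Agent.S4449
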