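import Cfsg.Statements.S4450
import Cfsg.Agent.Chars.InvariantAbove
import Mathlib.GroupTheory.SchurZassenhaus

set_option autoImplicit false
set_option linter.style.haveILetI false
open Cfsg

namespace Cfsg.Agent.S4450

/-- Let N ≤ G be normal subgroups of the finite group Γ with the index of G in Γ coprime to the index of N in G, and Γ/G or G/N solvable. Then for every irreducible character ϑ of N invariant under conjugation by Γ, the induced character ϑ^G has an irreducible constituent invariant under conjugation by Γ. -/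
theorem result {Γ : Type*} [Group Γ] [Fintype Γ] (G N : Subgroup Γ) [hG : G.Normal] [hN : N.Normal] [Fintype G] [Fintype N] (hNG : N ≤ G) (hcop : (G.index).Coprime (N.relIndex G)) (hsolv : Group.IsSolvable (Γ ⧸ G) ∨ Group.IsSolvable (G ⧸ N.subgroupOf G)) (θ : Cfsg.IrrCharacter N) (hinv : ∀ (x : Γ) (n : N), (θ : N → ℂ) ⟨x * n * x⁻¹, hN.conj_mem n n.2 x⟩ = (θ : N → ℂ) n) : ∃ χ : Cfsg.IrrCharacter G, Cfsg.classInner (fun n : N => (χ : G → ℂ) ⟨n, hNG n.2⟩) (θ : N → ℂ) ≠ 0 ∧ ∀ (x : Γ) (g : G), (χ : G → ℂ) ⟨x * g * x⁻¹, hG.conj_mem g g.2 x⟩ = (χ : G → ℂ) g := by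
  classical
  let e : N.subgroupOf G ≃* N := Subgroup.subgroupOfEquivOfLe hNG
  haveI : Fintype (N.subgroupOf G) := Fintype.ofFinite _
  let π := QuotientGroup.mk' N
  haveI : (G.map π).Normal := hG.map π (QuotientGroup.mk'_surjective N)
  have hidx : (G.map π).index = G.index :=
    Subgroup.index_map_eq G (QuotientGroup.mk'_surjective N) (by rw [QuotientGroup.ker_mk']; exact hNG)
  have hcard : Nat.card (G.map π) = N.relIndex G := by
    have h1 := (G.map π).card_mul_index
    rw [hidx, ← Subgroup.index_eq_card, ← Subgroup.relIndex_mul_index hNG] at h1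
    exact Nat.eq_of_mul_eq_mul_right (Nat.pos_of_ne_zero Subgroup.index_ne_zero_of_finite) h1
  obtain ⟨K, hK⟩ := Subgroup.exists_left_complement'_of_coprime
    (N := G.map π) (by rw [hcard, hidx]; exact hcop.symm)
  let S : Subgroup Γ := K.comap π
  have hNS : N ≤ S := fun n hn => by
    show π n ∈ K
    rw [show π n = 1 from (QuotientGroup.eq_one_iff n).2 hn]; exact K.one_mem
  have hSG : ∀ x : Γ, ∃ s ∈ S, ∃ g ∈ G, x = s * g := by
    intro x
    obtain ⟨⟨⟨k, hk⟩, ⟨_, g, hg, rfl⟩⟩, hx⟩ := hK.2 (π x)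
    refine ⟨x * g⁻¹, ?_, g, hg, by group⟩
    show π (x * g⁻¹) ∈ K
    have hx' : k * π g = π x := hx
    rw [map_mul, map_inv, ← hx', mul_inv_cancel_right]
    exact hk
  have hTidx : (N.subgroupOf S).index = G.index := by
    have h1 : (N.subgroupOf S).index = Nat.card K := by
      let f : S →* K := π.subgroupComap K
      have hf : Function.Surjective f :=
        π.subgroupComap_surjective_of_surjective K (QuotientGroup.mk'_surjective N)
      have hker : f.ker = N.subgroupOf S := by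
        ext x
        rw [MonoidHom.mem_ker, Subgroup.mem_subgroupOf, ← QuotientGroup.eq_one_iff]
        exact Subtype.ext_iff
      rw [← hker, Subgroup.index_ker, MonoidHom.range_eq_top.2 hf, Subgroup.card_top]
    rw [h1, ← hidx]
    exact (hK.index_eq_card).symm
  let φ : S →* MulAut G := (MulAut.conjNormal (H := G)).comp S.subtype
  have hsolv' : Group.IsSolvable (S ⧸ N.subgroupOf S) ∨ Group.IsSolvable (G ⧸ N.subgroupOf G) := by
    refine hsolv.imp (fun h => ?_) id
    haveI := h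
    refine Group.isSolvable_of_isSolvable_injective
      (f := QuotientGroup.map (N.subgroupOf S) G S.subtype (fun x hx => hNG hx)) ?_
    refine (MonoidHom.ker_eq_bot_iff _).1 (eq_bot_iff.2 fun y hy => ?_)
    obtain ⟨x, rfl⟩ := QuotientGroup.mk'_surjective _ y
    have hxG : (x : Γ) ∈ G := (QuotientGroup.eq_one_iff (x : Γ)).1 hy
    refine (QuotientGroup.eq_one_iff x).2 ?_
    show (x : Γ) ∈ N
    rw [← QuotientGroup.eq_one_iff]
    have hmem : π (x : Γ) ∈ K ⊓ G.map π := ⟨x.2, x, hxG, rfl⟩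
    rw [hK.disjoint.eq_bot, Subgroup.mem_bot] at hmem
    exact hmem
  have hcop' : (N.subgroupOf G).index.Coprime (N.subgroupOf S).index := by
    rw [hTidx]; exact hcop.symm
  obtain ⟨χ, hχi, hχ⟩ := Cfsg.Agent.Chars.exists_invariant_above_coprime φ (N.subgroupOf G)
    (fun s n hn => hN.conj_mem n hn s) (N.subgroupOf S)
    (fun t ht => ⟨⟨t, hNG ht⟩, ht, fun g => Subtype.ext (by simp [φ])⟩)
    hcop' hsolv' (θ := fun n => (θ : N → ℂ) (e n))
    (Cfsg.Agent.Chars.isIrrCharacter_comp_equiv θ.2 e)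
    (fun s n => by
      refine Eq.trans ?_ (hinv (s : Γ) (e n))
      exact congrArg (θ : N → ℂ) (Subtype.ext (by simp [φ, e])))
  refine ⟨χ, ?_, fun x g => ?_⟩
  · rw [← Cfsg.Agent.Chars.classInner_comp_equiv e]
    exact hχ
  · obtain ⟨s, hs, h, hh, rfl⟩ := hSG x
    rw [← Cfsg.Agent.Chars.isClassFunction_irr χ g ⟨h, hh⟩, ← hχi ⟨s, hs⟩ (⟨h, hh⟩ * g * ⟨h, hh⟩⁻¹)]
    refine congrArg (χ : G → ℂ) (Subtype.ext ?_)
    simp [φ, mul_assoc]

end Cfsg.Agent.S4450
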