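import Cfsg.Statements.S4451
import Cfsg.Agent.Chars.CyclicGlauberman
import Cfsg.Agent.Chars.CyclicValues
import Cfsg.Agent.Chars.Linear
import Cfsg.Agent.S0188

set_option autoImplicit false
set_option linter.style.haveILetI false
open Cfsg

namespace Cfsg.Agent.S4451


universe u

open Cfsg.Agent.Chars in
/-- The coefficient of a character of `C` in the twisted restrictions is a character of `S`. -/
theorem isCharacter_twisted {Γ : Type u} [Group Γ] [Fintype Γ] {C S : Subgroup Γ} [Fintype C]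
    [Fintype S] (hcomm : ∀ (c : C) (x : S), (c : Γ) * x = x * c)
    (hab : ∀ x y : S, x * y = y * x) {χ : Γ → ℂ} (hχ : IsCharacter Γ χ) {γ : C → ℂ}
    (hγ : IsIrrCharacter C γ) :
    IsCharacter S (fun x : S => classInner (fun c : C => χ (c * x)) γ) := by
  classical
  let f : C × S →* Γ := MonoidHom.noncommCoprod C.subtype S.subtype fun c x => hcomm c x
  refine isCharacter_of_classInner_nat (fun a b => by rw [hab b a, mul_inv_cancel_right])
    fun ψ hψ => ?_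
  have hη := (Cfsg.Agent.S0188.result (G := C) (H := S)
    (fun p => γ p.1 * ψ p.2)).2 ⟨γ, ψ, hγ, hψ, rfl⟩
  obtain ⟨m, hm, -⟩ := exists_eq_sum_nsmul (isCharacter_comp hχ f)
  refine ⟨m ⟨_, hη⟩, ?_⟩
  rw [← hm ⟨_, hη⟩]
  simp only [classInner_def, Nat.card_prod, Nat.cast_mul, mul_inv, Fintype.sum_prod_type,
    Function.comp_apply, map_mul, Finset.mul_sum, Finset.sum_mul]
  rw [Finset.sum_comm]
  refine Finset.sum_congr rfl fun a _ => Finset.sum_congr rfl fun b _ => ?_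
  rw [show f (a, b) = (a : Γ) * b from rfl]
  ring

/-- Let the finite group Γ be generated by a normal subgroup G and a cyclic subgroup S of coprime orders such that every non-identity element of S has the same centraliser C = G ⊓ C(S) in G. Let χ be an S-invariant irreducible character of G, χ̂ its canonical extension to Γ (determinantal order coprime to the order of S), and β the irreducible character of C with χ̂(c s) = ε₀ β(c) for c ∈ C and generators s of S (ε₀ = ±1). Then there are a sign ε = ±1, which may differ from ε₀, and a linear character μ of S with μ² = 1, such that: (a) χ̂(c x) = ε β(c) μ(x) for all c ∈ C and all x ∈ S other than 1; (b) the restriction of χ to C equals |S|·ϑ + ε β for some character ϑ of C or ϑ = 0; (c) |S| divides χ(1) − ε β(1). -/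
theorem result {Γ : Type*} [Group Γ] [Fintype Γ] (G S : Subgroup Γ) [Fintype G] (hnorm : ∀ s ∈ S, ∀ g ∈ G, s * g * s⁻¹ ∈ G) (hcop : (Nat.card G).Coprime (Nat.card S)) (htop : G ⊔ S = ⊤) (hcyc : IsCyclic S) (C : Subgroup Γ) [Fintype C] (hC : C = G ⊓ Subgroup.centralizer (S : Set Γ)) (hCG : C ≤ G) (hfpf : ∀ x ∈ S, x ≠ 1 → G ⊓ Subgroup.centralizer ({x} : Set Γ) = C) (χ : Cfsg.IrrCharacter G) (hinv : (∀ s ∈ S, ∀ g g' : G, (g' : Γ) = s * g * s⁻¹ → (χ : G → ℂ) g' = (χ : G → ℂ) g)) (χh : Cfsg.IrrCharacter Γ) (hext : (∀ g : G, (χh : Γ → ℂ) g = (χ : G → ℂ) g)) (hdet : (Cfsg.detOrder (χh : Γ → ℂ)).Coprime (Nat.card S)) (β : Cfsg.IrrCharacter C) (ε₀ : ℤ) (hε₀ : ε₀ = 1 ∨ ε₀ = -1) (hβ : ∀ c : C, ∀ s : Γ, Subgroup.zpowers s = S → (χh : Γ → ℂ) ((c : Γ) * s) = (ε₀ : ℂ) * (β : C → ℂ) c) : ∃ ε : ℤ, (ε = 1 ∨ ε = -1) ∧ (∃ μ : S → ℂ, Cfsg.IsCharacter S μ ∧ μ 1 = 1 ∧ (∀ x : S, μ x * μ x = 1) ∧ ∀ c : C, ∀ x : S, x ≠ 1 → (χh : Γ → ℂ) ((c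 : Γ) * x) = (ε : ℂ) * (β : C → ℂ) c * μ x) ∧ (∃ ϑ : C → ℂ, Cfsg.IsCharacter C ϑ ∧ (fun c : C => (χ : G → ℂ) ⟨c, hCG c.2⟩) = fun c => (Nat.card S : ℂ) * ϑ c + (ε : ℂ) * (β : C → ℂ) c) ∧ (Nat.card S : ℤ) ∣ (Cfsg.charDegree (χ : G → ℂ) : ℤ) - ε * (Cfsg.charDegree (β : C → ℂ) : ℤ) := by
  classical
  obtain ⟨hGn, s, hs, hord, hidx, hmem⟩ := Cfsg.Agent.Chars.cyclic_setup hnorm hcop htop hcyc hC
  haveI := hGn
  have hKi : (Nat.card G).Coprime G.index := by rw [hidx, hord]; exact hcop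
  have hab := Cfsg.Agent.Chars.quotient_comm (G := G) (s := s) (hs.symm ▸ htop)
  have hres : (fun k : G => (χh : Γ → ℂ) k) = (χ : G → ℂ) := funext hext
  have hI : Cfsg.Agent.Chars2.inertiaSub (fun k : G => (χh : Γ → ℂ) k) = ⊤ := by
    rw [hres]
    exact Cfsg.Agent.Chars.inertia_top_of_invariant htop
      (Cfsg.Agent.Chars.isClassFunction_of_isCharacter (Cfsg.Agent.Chars.irr_isCharacter χ)) hinv
  have hirr : Cfsg.IsIrrCharacter G (fun k => (χh : Γ → ℂ) k) := hres.symm ▸ χ.2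
  have hsS : s ∈ S := hs ▸ Subgroup.mem_zpowers s
  let s₀ : S := ⟨s, hsS⟩
  have hgen : ∀ x : S, x ∈ Subgroup.zpowers s₀ := by
    intro x
    obtain ⟨i, hi⟩ := (hs.symm ▸ x.2 : (x : Γ) ∈ Subgroup.zpowers s)
    exact ⟨i, Subtype.ext (by rw [← hi]; simp [s₀])⟩
  have habS : ∀ x y : S, x * y = y * x := fun x y => by
    obtain ⟨i, rfl⟩ := hgen x
    obtain ⟨j, rfl⟩ := hgen y
    exact (Commute.zpow_zpow_self s₀ i j).eq
  have hcomm : ∀ (c : C) (x : S), (c : Γ) * x = x * c := fun c x =>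
    (Subgroup.mem_centralizer_iff.1 ((SetLike.ext_iff.1 hC (c : Γ)).1 c.2).2 x x.2).symm
  let F : Cfsg.IrrCharacter C → S → ℂ := fun γ x =>
    Cfsg.classInner (fun c : C => (χh : Γ → ℂ) (c * x)) (γ : C → ℂ)
  have hF : ∀ γ, Cfsg.IsCharacter S (F γ) := fun γ =>
    isCharacter_twisted hcomm habS (Cfsg.Agent.Chars.irr_isCharacter χh) γ.2
  have hloc : ∀ x : S, x ≠ 1 → ∃ (b : Cfsg.IrrCharacter C) (e : ℤ), (e = 1 ∨ e = -1) ∧
      ∀ c : C, (χh : Γ → ℂ) (c * x) = (e : ℂ) * (b : C → ℂ) c := by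
    intro x hx
    have hx1 : (x : Γ) ≠ 1 := fun h => hx (Subtype.ext h)
    have hmx : ∀ c, c ∈ C ↔ c ∈ G ∧ c * (x : Γ) = x * c := fun c => by
      rw [← hfpf x x.2 hx1, Subgroup.mem_inf, Subgroup.mem_centralizer_singleton_iff, eq_comm]
    have hdvd : orderOf (x : Γ) ∣ G.index := by
      rw [hidx, hord]; exact Subgroup.orderOf_dvd_natCard S x.2
    have hgx := Cfsg.Agent.Chars.twisted_isGen hmx hKi hdvd χh.2 hirr hI
      (by rw [hidx, hord]; exact hdet)
    have h1 := Cfsg.Agent.Chars.twisted_inner hmx (hKi.coprime_dvd_right hdvd) hab χh.2 χh.2 hirr hI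
      (Or.inl rfl)
    rw [Cfsg.Agent.Chars.classInner_self_irr χh.2] at h1
    rcases Cfsg.Agent.OddChar.virt_norm_one hgx h1 with h | h
    · exact ⟨⟨_, h⟩, 1, Or.inl rfl, fun c => by simp⟩
    · exact ⟨⟨_, h⟩, -1, Or.inr rfl, fun c => by simp⟩
  have hlin : ∀ (x : S) (b : Cfsg.IrrCharacter C) (e : ℤ),
      (∀ c : C, (χh : Γ → ℂ) (c * x) = (e : ℂ) * (b : C → ℂ) c) →
      ∀ γ, F γ x = if b = γ then (e : ℂ) else 0 := by
    intro x b e h γ
    show Cfsg.classInner (fun c : C => (χh : Γ → ℂ) (c * x)) (γ : C → ℂ) = _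
    rw [show (fun c : C => (χh : Γ → ℂ) (c * x)) = (e : ℂ) • (b : C → ℂ) from funext h,
      Cfsg.Agent.Chars.classInner_smul_left, Cfsg.Agent.Chars.classInner_irrCharacter]
    split_ifs <;> simp
  have hgensp : ∀ (γ : Cfsg.IrrCharacter C), Cfsg.IsGeneralizedCharacter S (F γ) := fun γ =>
    ⟨F γ, 0, hF γ, Cfsg.Agent.Chars.isCharacter_zero, (sub_zero _).symm⟩
  have hFs : F β s₀ = (ε₀ : ℂ) := by
    rw [hlin s₀ β ε₀ (fun c => hβ c s hs) β, if_pos rfl]
  have hFs0 : F β s₀ = 1 ∨ F β s₀ = -1 := by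
    rcases hε₀ with rfl | rfl <;> simp [hFs]
  have hval : ∀ x : S, x ≠ 1 → F β x = 1 ∨ F β x = -1 := by
    intro x hx
    have h0 : F β x ≠ 0 := by
      obtain ⟨i, rfl⟩ : x ∈ Submonoid.powers s₀ :=
        (IsOfFinOrder.mem_powers_iff_mem_zpowers (isOfFinOrder_of_finite s₀)).2 (hgen x)
      refine Cfsg.Agent.Chars.gen_ne_zero (hgensp β) s₀ (fun y hy => ?_) ?_ hx
      · obtain ⟨b, e, he, hb⟩ := hloc y hy
        rw [hlin y b e hb]
        rcases he with rfl | rfl <;> split_ifs <;> simp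
      · rcases hFs0 with h | h <;> rw [h] <;> norm_num
    obtain ⟨b, e, he, hb⟩ := hloc x hx
    rw [hlin x b e hb] at h0 ⊢
    rcases he with rfl | rfl <;> split_ifs at h0 ⊢ <;> simp_all
  obtain ⟨e, μ, he, hμ2, hμs, hμ⟩ :=
    Cfsg.Agent.Chars.gen_pm_one_cyclic (hgensp β) hgen hFs0 hval
  have hμc : ∀ x : S, (μ x : ℂ) * (μ x : ℂ) = 1 := fun x => by
    rw [← Units.val_mul, hμ2, Units.val_one]
  have ha : ∀ (c : C) (x : S), x ≠ 1 →
      (χh : Γ → ℂ) ((c : Γ) * x) = (e : ℂ) * (β : C → ℂ) c * (μ x : ℂ) := by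
    intro c x hx
    obtain ⟨b, e', he', hb⟩ := hloc x hx
    have h := hμ x hx
    rw [hlin x b e' hb] at h
    by_cases hbb : b = β
    · rw [if_pos hbb] at h
      rw [hb c, hbb, h]; ring
    · rw [if_neg hbb] at h
      exfalso
      have h2 : (e : ℂ) ≠ 0 := by rcases he with rfl | rfl <;> simp
      exact mul_ne_zero h2 (Units.ne_zero _) h.symm
  have hzero : ∀ (γ : Cfsg.IrrCharacter C) (x : S), x ≠ 1 →
      F γ x - (if γ = β then (e : ℂ) * (μ x : ℂ) else 0) = 0 := by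
    intro γ x hx
    obtain ⟨b, e', he', hb⟩ := hloc x hx
    have h := hμ x hx
    rw [hlin x b e' hb] at h ⊢
    have hbb : b = β := by
      by_contra hne
      rw [if_neg hne] at h
      have h2 : (e : ℂ) ≠ 0 := by rcases he with rfl | rfl <;> simp
      exact mul_ne_zero h2 (Units.ne_zero _) h.symm
    rw [if_pos hbb] at h
    subst hbb
    by_cases hg : γ = b
    · subst hg; simp [h]
    · simp [hg, Ne.symm hg]
  have hm : ∀ γ : Cfsg.IrrCharacter C, ∃ m : ℕ,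
      Cfsg.classInner (fun c : C => (χ : G → ℂ) ⟨c, hCG c.2⟩) (γ : C → ℂ) = m ∧ F γ 1 = m := by
    intro γ
    obtain ⟨k, ρ, hρ⟩ := hF γ
    have he1 : F γ 1 = (k : ℂ) := by
      rw [← hρ, Representation.char_one, Module.finrank_fin_fun]
    refine ⟨k, ?_, he1⟩
    rw [← he1]
    exact congrArg (fun f => Cfsg.classInner f (γ : C → ℂ)) (funext fun c => by
      simp only [Subgroup.coe_one, mul_one]
      exact (hext ⟨c, hCG c.2⟩).symm)
  choose m hm hFm using hm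
  have hdiv : ∀ γ, ∃ t : ℕ, (m γ : ℤ) - (if γ = β then e else 0) = (Nat.card S : ℤ) * t := by
    intro γ
    let D : S → ℂ := fun x => F γ x - (if γ = β then (e : ℂ) * (μ x : ℂ) else 0)
    have hD : Cfsg.IsGeneralizedCharacter S D := by
      by_cases hg : γ = β
      · rcases he with rfl | rfl
        · exact ⟨F γ, _, hF γ, Cfsg.Agent.Chars.isCharacter_hom μ, by funext x; simp [D, hg]⟩
        · exact ⟨F γ + fun x => (μ x : ℂ), 0,
            Cfsg.Agent.Chars.isCharacter_add (hF γ) (Cfsg.Agent.Chars.isCharacter_hom μ),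
            Cfsg.Agent.Chars.isCharacter_zero, by funext x; simp [D, hg]⟩
      · exact ⟨F γ, 0, hF γ, Cfsg.Agent.Chars.isCharacter_zero, by funext x; simp [D, hg]⟩
    obtain ⟨z, hz, -⟩ := Cfsg.Agent.OddChar.exists_eq_sum_zsmul hD
    have h1 := hz ⟨fun _ => 1, Cfsg.Agent.Chars.isIrrCharacter_one⟩
    have hn0 : (Nat.card S : ℂ) ≠ 0 := Cfsg.Agent.Chars.subgroup_card_ne_zero S
    rw [Cfsg.Agent.Chars.classInner_def,
      Finset.sum_eq_single (1 : S) (fun x _ hx => by rw [show D x = 0 from hzero γ x hx, zero_mul])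
        (fun h => absurd (Finset.mem_univ _) h), map_one, mul_one,
      inv_mul_eq_iff_eq_mul₀ hn0] at h1
    set w := z ⟨fun _ => 1, Cfsg.Agent.Chars.isIrrCharacter_one⟩
    have h2 : (m γ : ℤ) - (if γ = β then e else 0) = (Nat.card S : ℤ) * w := by
      have h3 : ((m γ : ℤ) : ℂ) - ((if γ = β then e else 0 : ℤ) : ℂ) =
          ((Nat.card S : ℤ) : ℂ) * (w : ℂ) := by
        simp only [Int.cast_natCast]
        rw [← h1]
        simp only [D, map_one, Units.val_one, mul_one, hFm]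
        split_ifs <;> simp
      exact_mod_cast h3
    have hw : 0 ≤ w := by
      by_contra hneg
      have hnpos : (1 : ℤ) ≤ Nat.card S := by exact_mod_cast Nat.card_pos
      split_ifs at h2 with hg
      · rcases he with rfl | rfl
        · have h3 : (m γ : ℤ) = 0 ∧ (Nat.card S : ℤ) = 1 := by constructor <;> nlinarith
          have hs1 : s₀ = 1 := (Nat.card_eq_one_iff_unique.1 (by exact_mod_cast h3.2)).1.elim _ _
          have h4 := hμs
          rw [hs1, map_one, Units.val_one, mul_one, ← hg, hFm] at h4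
          rw [show (m γ : ℕ) = 0 by exact_mod_cast h3.1] at h4
          norm_num at h4
        · nlinarith
      · nlinarith
    exact ⟨w.toNat, by rw [Int.toNat_of_nonneg hw]; exact h2⟩
  choose t ht using hdiv
  let ϑ : C → ℂ := ∑ γ : Cfsg.IrrCharacter C, t γ • (γ : C → ℂ)
  have hϑ : Cfsg.IsCharacter C ϑ := Cfsg.Agent.Chars.isCharacter_sum _ _ fun γ _ =>
    Cfsg.Agent.Chars.isCharacter_nsmul (Cfsg.Agent.Chars.irr_isCharacter γ) _
  have hb : (fun c : C => (χ : G → ℂ) ⟨c, hCG c.2⟩) =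
      fun c => (Nat.card S : ℂ) * ϑ c + (e : ℂ) * (β : C → ℂ) c := by
    have hcl : Cfsg.IsClassFunction C (fun c : C => (χ : G → ℂ) ⟨c, hCG c.2⟩) := fun a b =>
      (Cfsg.Agent.Chars.isClassFunction_of_isCharacter (Cfsg.Agent.Chars.irr_isCharacter χ))
        ⟨a, hCG a.2⟩ ⟨b, hCG b.2⟩
    rw [Cfsg.Agent.Chars.eq_sum_classInner hcl]
    funext c
    have h1 : (e : ℂ) * (β : C → ℂ) c =
        ∑ γ : Cfsg.IrrCharacter C, ((if γ = β then e else 0 : ℤ) : ℂ) * (γ : C → ℂ) c := by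
      rw [Finset.sum_eq_single β (fun γ _ h => by simp [h]) (fun h => absurd (Finset.mem_univ _) h)]
      simp
    rw [h1]
    simp only [ϑ, Finset.sum_apply, Pi.smul_apply, smul_eq_mul, nsmul_eq_mul, Finset.mul_sum,
      Pi.mul_apply, Pi.natCast_apply]
    rw [← Finset.sum_add_distrib]
    refine Finset.sum_congr rfl fun γ _ => ?_
    have h2 : ((m γ : ℤ) : ℂ) - ((if γ = β then e else 0 : ℤ) : ℂ) =
        ((Nat.card S : ℤ) : ℂ) * ((t γ : ℤ) : ℂ) := by
      rw [← Int.cast_mul, ← ht γ, Int.cast_sub]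
    rw [hm γ]
    push_cast at h2 ⊢
    linear_combination ((γ : C → ℂ) c) * h2
  refine ⟨e, he, ⟨fun x => (μ x : ℂ), Cfsg.Agent.Chars.isCharacter_hom μ, by simp, hμc, ha⟩,
    ⟨ϑ, hϑ, hb⟩, ?_⟩
  obtain ⟨k, ρ, hρ⟩ := hϑ
  obtain ⟨a, -, ha1⟩ := Cfsg.Agent.Chars.exists_irr_apply_one_eq χ.2
  obtain ⟨b, -, hb1⟩ := Cfsg.Agent.Chars.exists_irr_apply_one_eq β.2
  have h := congrFun hb 1
  rw [show ϑ 1 = (k : ℂ) by rw [← hρ, Representation.char_one, Module.finrank_fin_fun], hb1,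
    show (⟨((1 : C) : Γ), hCG (1 : C).2⟩ : G) = 1 from rfl, ha1] at h
  refine ⟨k, ?_⟩
  simp only [Cfsg.charDegree, ha1, hb1, Complex.natCast_re, Nat.floor_natCast]
  have h' : ((a : ℤ) : ℂ) = ((Nat.card S : ℤ) : ℂ) * ((k : ℤ) : ℂ) + (e : ℂ) * ((b : ℤ) : ℂ) := by
    push_cast; exact h
  have h'' : (a : ℤ) = (Nat.card S : ℤ) * k + e * b := by exact_mod_cast h'
  linarith

end Cfsg.Agent.S4451
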