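import Cfsg.Statements.S4452
import Cfsg.Agent.Chars.CoprimeExt
import Cfsg.Agent.Chars.GlaubermanSolvable

set_option autoImplicit false
set_option linter.style.haveILetI false
open Cfsg

namespace Cfsg.Agent.S4452

universe u

/-- The count of characters of degree prime to the complement. -/
theorem count_eq {G : Type u} [Group G] [Finite G] (K H : Subgroup G) [hK : K.Normal]
    (hc : Subgroup.IsComplement' H K) (hcop : (Nat.card K).Coprime (Nat.card H))
    (hsolv : Group.IsSolvable H) :
    Nat.card {χ : Cfsg.IrrCharacter G // (Cfsg.charDegree (χ : G → ℂ)).Coprime (Nat.card H)} =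
      Nat.card (Cfsg.IrrCharacter ↥(K ⊓ Subgroup.centralizer (H : Set G))) * Nat.card (H →* ℂˣ) := by
  classical
  haveI := Fintype.ofFinite G
  rw [Cfsg.Agent.Chars.card_coprime_degree K H hc hcop]
  congr 1
  let φ : H →* MulAut K := (MulAut.conjNormal).comp H.subtype
  obtain ⟨Φ⟩ := Cfsg.Agent.Chars.glauberman_solvable_equiv hsolv φ hcop
  have hiff : ∀ θ : Cfsg.IrrCharacter K, Cfsg.Agent.Chars2.inertiaSub (θ : K → ℂ) = ⊤ ↔
      Cfsg.Agent.Chars.InvFun φ (θ : K → ℂ) := by
    intro θ
    constructor
    · intro h a k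
      exact Cfsg.Agent.Chars2.inv_conjNormal (θ : K → ℂ)
        (Cfsg.Agent.Chars.inv_of_inertia_top h) (a : G) k
    · intro h
      refine Cfsg.Agent.Chars2.inertiaSub_eq_top fun g k => ?_
      obtain ⟨⟨a, b⟩, rfl⟩ := hc.2 g
      have h1 := h a (MulAut.conjNormal (b : G) k)
      have h2 : (θ : K → ℂ) (MulAut.conjNormal (b : G) k) = (θ : K → ℂ) k := by
        rw [show MulAut.conjNormal (b : G) k = b * k * b⁻¹ by ext; simp]
        exact (Cfsg.Agent.Chars.isClassFunction_of_isCharacter
          (Cfsg.Agent.Chars.irr_isCharacter θ)) k b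
      rw [← h2, ← h1]
      refine congrArg (θ : K → ℂ) (Subtype.ext ?_)
      simp [φ, mul_assoc]
  rw [Nat.card_congr ((Equiv.subtypeEquivRight hiff).trans Φ)]
  have e : ↥(Cfsg.Agent.Chars.fixSub φ) ≃* ↥(K ⊓ Subgroup.centralizer (H : Set G)) :=
    { toFun := fun x => ⟨((x : K) : G), (x : K).2, Subgroup.mem_centralizer_iff.2 fun h hh => by
        have := congrArg Subtype.val (x.2 ⟨h, hh⟩)
        simp [φ] at this
        exact mul_inv_eq_iff_eq_mul.1 this⟩
      invFun := fun x => ⟨⟨x.1, x.2.1⟩, fun h => Subtype.ext (by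
        have := Subgroup.mem_centralizer_iff.1 x.2.2 h h.2
        simp [φ, this])⟩
      left_inv := fun _ => rfl
      right_inv := fun _ => rfl
      map_mul' := fun _ _ => rfl }
  exact Nat.card_congr (Cfsg.Agent.Chars.irrEquiv e.symm)

/-- Let the finite group G be the product of a normal subgroup K and a solvable subgroup H of coprime orders, and let N = N_G(H). Then the number of irreducible characters of G of degree coprime to the order of H equals the number of irreducible characters of N of degree coprime to the order of H. (The two sets are in fact in a canonical bijection; only the equality of their sizes is stated here.) -/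
theorem result {G : Type*} [Group G] [Finite G] (K H : Subgroup G) [K.Normal] (hKH : K ⊔ H = ⊤) (hcop : (Nat.card K).Coprime (Nat.card H)) (hsolv : Group.IsSolvable H) : Nat.card {χ : Cfsg.IrrCharacter G // (Cfsg.charDegree (χ : G → ℂ)).Coprime (Nat.card H)} = Nat.card {η : Cfsg.IrrCharacter (Subgroup.normalizer (H : Set G)) // (Cfsg.charDegree (η : Subgroup.normalizer (H : Set G) → ℂ)).Coprime (Nat.card H)} := by
  classical
  have hc : Subgroup.IsComplement' H K := Subgroup.isComplement'_of_disjoint_and_mul_eq_univ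
    (Subgroup.disjoint_of_coprime_natCard hcop.symm)
    (by rw [← Subgroup.mul_normal, sup_comm, hKH, Subgroup.coe_top])
  rw [count_eq K H hc hcop hsolv]
  set N := Subgroup.normalizer (H : Set G)
  have hHN : H ≤ N := Subgroup.le_normalizer
  let H' := H.subgroupOf N
  let K' := K.subgroupOf N
  have eH : ↥H' ≃* ↥H := Subgroup.subgroupOfEquivOfLe hHN
  have hcardH : Nat.card H' = Nat.card H := Nat.card_congr eH.toEquiv
  have hcop' : (Nat.card K').Coprime (Nat.card H') := by
    rw [hcardH]
    exact hcop.coprime_dvd_left (Subgroup.card_comap_dvd_of_injective K N.subtype Subtype.val_injective)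
  have hc' : Subgroup.IsComplement' H' K' := by
    refine Subgroup.isComplement'_of_disjoint_and_mul_eq_univ
      (Subgroup.disjoint_of_coprime_natCard hcop'.symm) (Set.eq_univ_iff_forall.2 fun n => ?_)
    obtain ⟨⟨h, k⟩, hn⟩ := hc.2 (n : G)
    have hn' : (h : G) * k = (n : G) := hn
    refine ⟨⟨h, hHN h.2⟩, h.2, ⟨k, ?_⟩, k.2, Subtype.ext hn'⟩
    rw [show (k : G) = (h : G)⁻¹ * n by rw [← hn']; simp]
    exact N.mul_mem (N.inv_mem (hHN h.2)) n.2
  haveI := hsolv
  have hsolv' : Group.IsSolvable H' := Group.isSolvable_of_isSolvable_injective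
    (f := eH.toMonoidHom) eH.injective
  rw [← hcardH, count_eq K' H' hc' hcop' hsolv']
  have eK : ↥(K' ⊓ Subgroup.centralizer (H' : Set N)) ≃* ↥(K ⊓ Subgroup.centralizer (H : Set G)) :=
    { toFun := fun x => ⟨((x : N) : G), x.2.1, Subgroup.mem_centralizer_iff.2 fun h hh =>
        congrArg Subtype.val (Subgroup.mem_centralizer_iff.1 x.2.2 ⟨h, hHN hh⟩ hh)⟩
      invFun := fun x => ⟨⟨x.1, Subgroup.centralizer_le_normalizer _ x.2.2⟩, x.2.1,
        Subgroup.mem_centralizer_iff.2 fun h hh =>
          Subtype.ext (Subgroup.mem_centralizer_iff.1 x.2.2 h hh)⟩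
      left_inv := fun _ => rfl
      right_inv := fun _ => rfl
      map_mul' := fun _ _ => rfl }
  rw [Nat.card_congr (Cfsg.Agent.Chars.irrEquiv eK),
    Nat.card_congr (eH.monoidHomCongrLeft (N := ℂˣ)).toEquiv]

end Cfsg.Agent.S4452
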