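import Cfsg.Statements.S4453
import Cfsg.Agent.Chars.OddReduction

set_option autoImplicit false
open Cfsg Cfsg.Agent
open scoped commutatorElement

namespace Cfsg.Agent.S4453

/-- Inside a finite group Γ let S normalise the solvable subgroup G of odd order with the orders of G and S coprime, let C = G ⊓ C(S), and let L ≤ K be S-invariant normal subgroups of G with K/L abelian, G = KC and H = LC (so C ≤ H ≤ G). Then for each S-invariant irreducible character χ of G there is exactly one S-invariant irreducible character ψ of H whose multiplicity in the restriction of χ to H is odd, and χ ↦ ψ is a bijection from the S-invariant irreducible characters of G onto those of H (distinct χ give distinct ψ, and every S-invariant ψ arises). -/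
theorem result {Γ : Type*} [Group Γ] [Fintype Γ] (G S : Subgroup Γ) [Fintype G] (hnorm : ∀ s ∈ S, ∀ g ∈ G, s * g * s⁻¹ ∈ G) (hcop : (Nat.card G).Coprime (Nat.card S)) (hGsolv : Group.IsSolvable G) (hodd : Odd (Nat.card G)) (C : Subgroup Γ) [Fintype C] (hC : C = G ⊓ Subgroup.centralizer (S : Set Γ)) (hCG : C ≤ G) (K L H : Subgroup Γ) [Fintype H] (hLK : L ≤ K) (hKG : K ≤ G) (hKn : ∀ g ∈ G, ∀ k ∈ K, g * k * g⁻¹ ∈ K) (hLn : ∀ g ∈ G, ∀ l ∈ L, g * l * g⁻¹ ∈ L) (hKS : ∀ s ∈ S, ∀ k ∈ K, s * k * s⁻¹ ∈ K) (hLS : ∀ s ∈ S, ∀ l ∈ L, s * l * s⁻¹ ∈ L) (hab : ∀ a ∈ K, ∀ b ∈ K, a * b * a⁻¹ * b⁻¹ ∈ L) (hGKC : K ⊔ C = G) (hH : H = L ⊔ C) (hHG : H ≤ G) : (∀ χ : Cfsg.IrrCharacter G, (∀ s ∈ S, ∀ g g' : G, (g' : Γ) = s * g * s⁻¹ → (χ : G → ℂ) g' = (χ : G → ℂ) g) → ∃! ψ : Cfsg.IrrCharacter H, (∀ s ∈ S, ∀ g g' : H, (g' : Γ) = s * g * s⁻¹ → (ψ : H → ℂ) g' = (ψ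 : H → ℂ) g) ∧ ∃ m : ℕ, Cfsg.classInner (fun h : H => (χ : G → ℂ) ⟨h, hHG h.2⟩) (ψ : H → ℂ) = (m : ℂ) ∧ Odd m) ∧ (∀ χ χ' : Cfsg.IrrCharacter G, (∀ s ∈ S, ∀ g g' : G, (g' : Γ) = s * g * s⁻¹ → (χ : G → ℂ) g' = (χ : G → ℂ) g) → (∀ s ∈ S, ∀ g g' : G, (g' : Γ) = s * g * s⁻¹ → (χ' : G → ℂ) g' = (χ' : G → ℂ) g) → ∀ ψ : Cfsg.IrrCharacter H, (∀ s ∈ S, ∀ g g' : H, (g' : Γ) = s * g * s⁻¹ → (ψ : H → ℂ) g' = (ψ : H → ℂ) g) → ∀ m m' : ℕ, Cfsg.classInner (fun h : H => (χ : G → ℂ) ⟨h, hHG h.2⟩) (ψ : H → ℂ) = (m : ℂ) → Odd m → Cfsg.classInner (fun h : H => (χ' : G → ℂ) ⟨h, hHG h.2⟩) (ψ : H → ℂ) = (m' : ℂ) → Odd m' → χ = χ') ∧ (∀ ψ : Cfsg.IrrCharacter H, (∀ s ∈ S, ∀ g g' : H, (g' : Γ) = s * g * s⁻¹ → (ψ : H → ℂ) g' = (ψ : H → ℂ) g) → ∃ χ : Cfsg.IrrCharacter G, (∀ s ∈ S, ∀ g g' : G, (g' : Γ) = s * g * s⁻¹ → (χ : G → ℂ) g' = (χ : G → ℂ) g) ∧ ∃ m : ℕ, Cfsg.classInner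 (fun h : H => (χ : G → ℂ) ⟨h, hHG h.2⟩) (ψ : H → ℂ) = (m : ℂ) ∧ Odd m) := by
  classical
  let φ := Chars.conjHom G S hnorm
  letI : Fintype (H.subgroupOf G) := Fintype.ofFinite _
  have hfix : Chars.fixSub φ = C.subgroupOf G := by
    ext g
    rw [Chars.mem_fixSub, Subgroup.mem_subgroupOf, hC, Subgroup.mem_inf,
      Subgroup.mem_centralizer_iff]
    constructor
    · refine fun h => ⟨g.2, fun s hs => ?_⟩
      have h1 : s * (g : Γ) * s⁻¹ = g := congrArg Subtype.val (h ⟨s, hs⟩)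
      exact mul_inv_eq_iff_eq_mul.1 h1
    · intro h s
      exact Subtype.ext (mul_inv_eq_iff_eq_mul.2 (h.2 s s.2))
  have hLG : L ≤ G := hLK.trans hKG
  have hKL : K.subgroupOf G ⊔ Chars.fixSub φ = ⊤ := by
    rw [hfix, ← Subgroup.subgroupOf_sup hKG hCG, hGKC, Subgroup.subgroupOf_self]
  have hH' : H.subgroupOf G = L.subgroupOf G ⊔ Chars.fixSub φ := by
    rw [hfix, ← Subgroup.subgroupOf_sup hLG hCG, hH]
  have hHinv : ∀ s : S, ∀ h ∈ H.subgroupOf G, φ s h ∈ H.subgroupOf G := by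
    intro s h hh
    have h2 : H.subgroupOf G ≤ (H.subgroupOf G).comap (φ s).toMonoidHom := by
      rw [hH']
      refine sup_le (fun l hl => Subgroup.mem_sup_left (hLS s s.2 _ hl)) fun c hc => ?_
      show φ s c ∈ L.subgroupOf G ⊔ Chars.fixSub φ
      rw [hc s]
      exact Subgroup.mem_sup_right hc
    exact h2 hh
  haveI : (K.subgroupOf G).Normal := ⟨fun k hk g => hKn g g.2 k hk⟩
  haveI : (L.subgroupOf G).Normal := ⟨fun l hl g => hLn g g.2 l hl⟩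
  obtain ⟨P1, P2, P3⟩ := Chars.OddReduction.correspondence φ hodd hcop hGsolv (K.subgroupOf G)
    (L.subgroupOf G) (H.subgroupOf G) (fun x hx => hLK hx) (fun s k hk => hKS s s.2 _ hk)
    (fun s l hl => hLS s s.2 _ hl) (fun x hx y hy => hab _ hx _ hy) hKL hH' hHinv
  let e : H.subgroupOf G ≃* H := Subgroup.subgroupOfEquivOfLe hHG
  let E := Chars.irrEquiv e
  have hI : ∀ χ : IrrCharacter G, (∀ s ∈ S, ∀ g g' : G, (g' : Γ) = s * g * s⁻¹ →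
      (χ : G → ℂ) g' = (χ : G → ℂ) g) ↔ Chars.InvFun φ (χ : G → ℂ) := fun χ =>
    ⟨fun h s g => h s s.2 g _ rfl, fun h s hs g g' hg =>
      (congrArg (χ : G → ℂ) (Subtype.ext hg : g' = φ ⟨s, hs⟩ g)).trans (h ⟨s, hs⟩ g)⟩
  have hJ : ∀ ψ : IrrCharacter H, (∀ s ∈ S, ∀ g g' : H, (g' : Γ) = s * g * s⁻¹ →
      (ψ : H → ℂ) g' = (ψ : H → ℂ) g) ↔
      Chars.InvFun (Chars.subAct φ (H.subgroupOf G) hHinv) (E ψ : H.subgroupOf G → ℂ) := fun ψ => by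
    refine ⟨fun h s x => h s s.2 (e x) (e _) rfl, fun h s hs g g' hg => ?_⟩
    have h1 := h ⟨s, hs⟩ (e.symm g)
    change (ψ : H → ℂ) (e _) = (ψ : H → ℂ) (e (e.symm g)) at h1
    rw [e.apply_symm_apply] at h1
    exact (congrArg (ψ : H → ℂ) (Subtype.ext hg)).trans h1
  have hM : ∀ (χ : IrrCharacter G) (ψ : IrrCharacter H),
      (∃ m : ℕ, classInner (fun h : H => (χ : G → ℂ) ⟨h, hHG h.2⟩) (ψ : H → ℂ) = (m : ℂ) ∧ Odd m) ↔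
      Chars.OddReduction.OddMult (H.subgroupOf G) (χ : G → ℂ) (E ψ : H.subgroupOf G → ℂ) := by
    intro χ ψ
    unfold Chars.OddReduction.OddMult
    rw [Chars.OddReduction.classInner_congr e (f := fun x : H.subgroupOf G => (χ : G → ℂ) x)
      (g := (E ψ : H.subgroupOf G → ℂ)) (f' := fun h : H => (χ : G → ℂ) ⟨h, hHG h.2⟩)
      (g' := (ψ : H → ℂ)) (fun x => rfl) fun x => rfl]
  refine ⟨fun χ hχ => ?_, fun χ χ' hχ hχ' ψ hψ m m' hm ho hm' ho' => ?_, fun ψ hψ => ?_⟩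
  · obtain ⟨ψ, ⟨h1, h2⟩, h3⟩ := P1 χ ((hI χ).1 hχ)
    obtain ⟨ψ, rfl⟩ := E.surjective ψ
    exact ⟨ψ, ⟨(hJ ψ).2 h1, (hM χ ψ).2 h2⟩, fun ψ' hψ' =>
      E.injective (h3 _ ⟨(hJ ψ').1 hψ'.1, (hM χ ψ').1 hψ'.2⟩)⟩
  · exact P2 χ χ' ((hI χ).1 hχ) ((hI χ').1 hχ') (E ψ) ((hJ ψ).1 hψ) ((hM χ ψ).1 ⟨m, hm, ho⟩)
      ((hM χ' ψ).1 ⟨m', hm', ho'⟩)
  · obtain ⟨χ, h1, h2⟩ := P3 (E ψ) ((hJ ψ).1 hψ)
    exact ⟨χ, (hI χ).2 h1, (hM χ ψ).2 h2⟩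

end Cfsg.Agent.S4453
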