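import Cfsg.Statements.S4454
import Cfsg.Agent.Chars.RamifiedSection

set_option autoImplicit false
set_option linter.style.haveILetI false
open Cfsg

namespace Cfsg.Agent.S4454

/-- Let N ≤ G be normal subgroups of the finite group Γ with Γ/G cyclic and Γ/N a Frobenius group with kernel G/N: G ≠ Γ, N ≠ G, and no element of Γ outside G fixes a non-identity coset of N in G under conjugation. Let ϑ be an irreducible character of N invariant under conjugation by Γ and suppose ϑ is fully ramified in G: the character of G induced from ϑ equals e·χ for an irreducible character χ of G and a natural number e. Then the index of G in Γ divides e − 1 or e + 1. -/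
theorem result {Γ : Type*} [Group Γ] [Fintype Γ] (G N : Subgroup Γ) [hG : G.Normal] [hN : N.Normal] [Fintype G] [Fintype N] (hNG : N ≤ G) (hGlt : G ≠ ⊤) (hNlt : N ≠ G) (hcyc : IsCyclic (Γ ⧸ G)) (hfrob : ∀ x : Γ, x ∉ G → ∀ g : Γ, g ∈ G → x * g * x⁻¹ * g⁻¹ ∈ N → g ∈ N) (θ : Cfsg.IrrCharacter N) (hinv : ∀ (x : Γ) (n : N), (θ : N → ℂ) ⟨x * n * x⁻¹, hN.conj_mem n n.2 x⟩ = (θ : N → ℂ) n) (χ : Cfsg.IrrCharacter G) (e : ℕ) (hram : Cfsg.indFun (N.subgroupOf G) (fun n : N.subgroupOf G => (θ : N → ℂ) ⟨(n : G), n.2⟩) = fun g => (e : ℂ) * (χ : G → ℂ) g) : (G.index : ℤ) ∣ (e : ℤ) - 1 ∨ (G.index : ℤ) ∣ (e : ℤ) + 1 := by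
  classical
  haveI : Fintype (N.subgroupOf G) := Fintype.ofFinite _
  obtain ⟨q₀, hq₀⟩ := hcyc.exists_generator
  obtain ⟨x₀, rfl⟩ := QuotientGroup.mk_surjective q₀
  have hx₀ : x₀ ∉ G := by
    intro h
    refine hGlt (eq_top_iff.2 fun y _ => ?_)
    obtain ⟨k, hk⟩ := hq₀ (y : Γ ⧸ G)
    rw [(QuotientGroup.eq_one_iff x₀).2 h] at hk
    simp only [one_zpow] at hk
    exact (QuotientGroup.eq_one_iff y).1 hk.symm
  have hab : ∀ a b : Γ ⧸ G, a * b = b * a := fun a b => by
    haveI := hcyc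
    letI := IsCyclic.commGroup (α := Γ ⧸ G); exact mul_comm a b
  set eN := Subgroup.subgroupOfEquivOfLe hNG
  have hθ' : Cfsg.IsIrrCharacter (N.subgroupOf G)
      (fun n : N.subgroupOf G => (θ : N → ℂ) ⟨(n : G), n.2⟩) :=
    Cfsg.Agent.Chars.isIrrCharacter_comp_equiv θ.2 eN
  have he : Cfsg.classInner (fun n : N.subgroupOf G => (χ : G → ℂ) n)
      (fun n : N.subgroupOf G => (θ : N → ℂ) ⟨(n : G), n.2⟩) = (e : ℂ) := by
    rw [← Cfsg.Agent.Chars.classInner_indFun_right (N.subgroupOf G) _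
      (Cfsg.Agent.Chars.isClassFunction_irr χ), hram,
      show (fun g => (e : ℂ) * (χ : G → ℂ) g) = (e : ℂ) • (χ : G → ℂ) from rfl,
      Cfsg.Agent.Chars.classInner_smul_right, Cfsg.Agent.Chars.classInner_self_irr χ.2,
      map_natCast, mul_one]
  have he0 : (e : ℂ) ≠ 0 := by
    intro h
    have h1 := congrFun hram 1
    rw [h, zero_mul, Cfsg.Agent.Chars.indFun_apply_one] at h1
    rcases mul_eq_zero.1 h1 with h2 | h2
    · exact Nat.cast_ne_zero.2 Subgroup.index_ne_zero_of_finite h2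
    · exact Cfsg.Agent.Chars.irr_apply_one_ne_zero hθ' h2
  -- restriction of χ to N
  have hres : ∀ (n : N) (hn : (n : Γ) ∈ G), (χ : G → ℂ) ⟨n, hn⟩ = (e : ℂ) * (θ : N → ℂ) n := by
    have hc : ∀ n : N.subgroupOf G, (e : ℂ) * (χ : G → ℂ) n =
        ((N.subgroupOf G).index : ℂ) * (θ : N → ℂ) ⟨(n : G), n.2⟩ := by
      intro n
      rw [← congrFun hram (n : G), Cfsg.Agent.Chars.indFun_coe_normal]
      have e1 : ∀ x : G, (θ : N → ℂ) ⟨((x⁻¹ * (n : G) * x : G) : Γ),
          (show ((x⁻¹ * (n : G) * x : G) : Γ) ∈ N by simpa using hN.conj_mem' _ n.2 (x : Γ))⟩ =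
          (θ : N → ℂ) ⟨(n : G), n.2⟩ := by
        intro x
        conv_rhs => rw [← hinv (x : Γ)⁻¹ ⟨(n : G), n.2⟩]
        simp
      rw [Finset.sum_congr rfl fun x _ => e1 x, Finset.sum_const, Finset.card_univ, nsmul_eq_mul,
        ← Nat.card_eq_fintype_card, ← Subgroup.card_mul_index (N.subgroupOf G)]
      push_cast
      field_simp [Cfsg.Agent.Chars.subgroup_card_ne_zero (N.subgroupOf G)]
    have hidx : ((N.subgroupOf G).index : ℂ) = (e : ℂ) * e := by
      have h2 : (fun n : N.subgroupOf G => (e : ℂ) * (χ : G → ℂ) n) =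
          fun n : N.subgroupOf G =>
            ((N.subgroupOf G).index : ℂ) * (θ : N → ℂ) ⟨(n : G), n.2⟩ := funext hc
      have h3 := congrArg (fun f => Cfsg.classInner f
        (fun n : N.subgroupOf G => (θ : N → ℂ) ⟨(n : G), n.2⟩)) h2
      simp only [show ∀ (c : ℂ) (f : N.subgroupOf G → ℂ), (fun n => c * f n) = c • f from
        fun _ _ => rfl, Cfsg.Agent.Chars.classInner_smul_left, he,
        Cfsg.Agent.Chars.classInner_self_irr hθ', mul_one] at h3
      exact h3.symm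
    intro n hn
    have := hc ⟨⟨n, hn⟩, n.2⟩
    rw [hidx, mul_assoc] at this
    exact mul_left_cancel₀ he0 this
  -- extension of χ to the whole group
  have hχinv : ∀ (y : Γ) (g : G), (χ : G → ℂ) ⟨y * g * y⁻¹, hG.conj_mem g g.2 y⟩ =
      (χ : G → ℂ) g := by
    intro y g
    apply mul_left_cancel₀ he0
    have h1 := congrFun hram (⟨y * g * y⁻¹, hG.conj_mem g g.2 y⟩ : G)
    have h2 := congrFun hram g
    rw [← h1, ← h2, Cfsg.Agent.Chars.indFun_apply, Cfsg.Agent.Chars.indFun_apply]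
    congr 1
    let φ : G → G := fun x => ⟨y⁻¹ * x * y, hG.conj_mem' x x.2 y⟩
    refine Fintype.sum_equiv
      { toFun := φ
        invFun := fun x => ⟨y * x * y⁻¹, hG.conj_mem x x.2 y⟩
        left_inv := fun x => Subtype.ext (by simp only [φ]; group)
        right_inv := fun x => Subtype.ext (by simp only [φ]; group) } _ _ fun x => ?_
    show Cfsg.extendByZero _ _ _ = Cfsg.extendByZero _ _ ((φ x)⁻¹ * g * φ x)
    set z : G := (φ x)⁻¹ * g * φ x with hz
    have hzval : ((x⁻¹ * ⟨y * g * y⁻¹, hG.conj_mem g g.2 y⟩ * x : G) : Γ) =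
        y * (z : Γ) * y⁻¹ := by
      simp only [hz, φ, Subgroup.coe_mul, Subgroup.coe_inv]; group
    by_cases hzN : z ∈ N.subgroupOf G
    · have hzN' : (x⁻¹ * ⟨y * g * y⁻¹, hG.conj_mem g g.2 y⟩ * x : G) ∈ N.subgroupOf G := by
        rw [Subgroup.mem_subgroupOf, hzval]; exact hN.conj_mem _ hzN y
      rw [Cfsg.Agent.Chars.extendByZero_of_mem _ _ hzN,
        Cfsg.Agent.Chars.extendByZero_of_mem _ _ hzN']
      rw [← hinv y ⟨(z : Γ), hzN⟩]
      exact congrArg _ (Subtype.ext hzval)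
    · rw [Cfsg.Agent.Chars.extendByZero_of_not_mem _ _ hzN,
        Cfsg.Agent.Chars.extendByZero_of_not_mem]
      intro h
      apply hzN
      rw [Subgroup.mem_subgroupOf, hzval] at h
      have := hN.conj_mem _ h y⁻¹
      rw [Subgroup.mem_subgroupOf]
      simpa [mul_assoc] using this
  haveI := hcyc
  obtain ⟨F, hF, hFG⟩ := Cfsg.Agent.Chars2.extends_of_cyclic (χ : G → ℂ) χ.2 hχinv
  have hFc := Cfsg.Agent.Chars.isClassFunction_of_isCharacter
    (Cfsg.Agent.Chars.isCharacter_of_isIrr hF)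
  have hFK : Cfsg.IsIrrCharacter G (fun g => F g) := by
    rw [show (fun g : G => F g) = (χ : G → ℂ) from funext hFG]; exact χ.2
  have hFinv : Cfsg.Agent.Chars2.inertiaSub (fun g : G => F g) = ⊤ :=
    Cfsg.Agent.Chars2.inertiaSub_eq_top fun y g => hFc g y
  have hcoset : ∀ x : Γ, x ∉ G → ∑ n : N, F (n * x) * (starRingEnd ℂ) (F (n * x)) =
      (Nat.card N : ℂ) := by
    intro x hx
    have h1 := Cfsg.Agent.Chars.sum_coset_frobenius G N hNG (x := x) (hfrob x hx)
      (F := fun a => F a * (starRingEnd ℂ) (F a)) fun a y => by simp only [hFc a y]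
    rw [Cfsg.Agent.Chars.coset_orth G hab hF hF hFK hFinv (Or.inl rfl) x,
      Cfsg.Agent.Chars.classInner_self_irr hF, mul_one,
      mul_comm (Nat.card N : ℂ)] at h1
    exact mul_left_cancel₀ (Cfsg.Agent.Chars.subgroup_card_ne_zero G) h1
  -- the complement
  set H := N ⊔ Subgroup.zpowers x₀
  haveI : Fintype H := Fintype.ofFinite _
  haveI : Fintype (N.subgroupOf H) := Fintype.ofFinite _
  let f : H →* Γ ⧸ G := (QuotientGroup.mk' G).comp H.subtype
  have hfs : Function.Surjective f := by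
    intro q
    obtain ⟨k, hk⟩ := hq₀ q
    refine ⟨⟨x₀ ^ k, Subgroup.mem_sup_right ⟨k, rfl⟩⟩, ?_⟩
    rw [← hk]
    exact QuotientGroup.mk_zpow G x₀ k
  have hker : f.ker = N.subgroupOf H := by
    ext ⟨h, hh⟩
    rw [MonoidHom.mem_ker, Subgroup.mem_subgroupOf]
    refine ⟨fun h1 => ?_, fun h1 => (QuotientGroup.eq_one_iff h).2 (hNG h1)⟩
    have h2 : h ∈ G := (QuotientGroup.eq_one_iff h).1 h1
    obtain ⟨n, hn, _, ⟨k, rfl⟩, rfl⟩ := Subgroup.mem_sup_of_normal_left.1 hh
    have h3 : x₀ ^ k ∈ G := by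
      have := G.mul_mem (G.inv_mem (hNG hn)) h2
      simpa using this
    refine N.mul_mem hn (hfrob x₀ hx₀ _ h3 ?_)
    rw [(Commute.self_zpow x₀ k).eq, mul_inv_cancel_right, mul_inv_cancel]
    exact N.one_mem
  haveI : IsCyclic (H ⧸ N.subgroupOf H) := by
    haveI := isCyclic_of_surjective (QuotientGroup.quotientKerEquivOfSurjective f hfs).symm
      (MulEquiv.surjective _)
    exact isCyclic_of_surjective (QuotientGroup.quotientMulEquivOfEq hker)
      (MulEquiv.surjective _)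
  have hidx : (N.subgroupOf H).index = G.index := by
    rw [← hker, Subgroup.index_ker f, MonoidHom.range_eq_top.2 hfs, Subgroup.card_top,
      Subgroup.index_eq_card]
  have h2 : 2 ≤ G.index := by
    have h0 := Subgroup.index_ne_zero_of_finite (H := G)
    have h1 : G.index ≠ 1 := fun h => hGlt (Subgroup.index_eq_one.1 h)
    omega
  have hle : N ≤ H := le_sup_left
  have := Cfsg.Agent.Chars.congr_of_coset_norm (N.subgroupOf H) (by omega)
    (θ := fun n : N.subgroupOf H => (θ : N → ℂ) ⟨(n : H), n.2⟩)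
    (Cfsg.Agent.Chars.isIrrCharacter_comp_equiv θ.2 (Subgroup.subgroupOfEquivOfLe hle))
    (fun g n => hinv (g : Γ) ⟨(n : H), n.2⟩)
    (F := fun h : H => F h)
    (Cfsg.Agent.Chars.isCharacter_restrict (Cfsg.Agent.Chars.isCharacter_of_isIrr hF) H)
    (e := e) (fun n => by
      rw [← hres ⟨(n : H), n.2⟩ (hNG n.2)]
      exact hFG ⟨((n : H) : Γ), hNG n.2⟩)
    (fun h hh => by
      have hx : (h : Γ) ∉ G := by
        intro hG'
        apply hh
        rw [← hker, MonoidHom.mem_ker]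
        exact (QuotientGroup.eq_one_iff _).2 hG'
      rw [show Nat.card (N.subgroupOf H) = Nat.card N from
        Nat.card_congr (Subgroup.subgroupOfEquivOfLe hle).toEquiv, ← hcoset (h : Γ) hx]
      exact Fintype.sum_equiv (Subgroup.subgroupOfEquivOfLe hle).toEquiv _ _ fun n => rfl)
  rwa [hidx] at this

end Cfsg.Agent.S4454
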