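import Cfsg.Statements.S4459
import Cfsg.Agent.Chars.TwoDegreesPrime
import Cfsg.Agent.Chars2.SmallDegree
import Cfsg.Agent.Chars2.DegreeInherit

set_option autoImplicit false
set_option linter.style.haveILetI false
open Cfsg

namespace Cfsg.Agent.S4459

/-- Let G be a non-abelian finite group and p a prime. Then the irreducible character degrees of G are exactly 1 and p if and only if either G has an abelian normal subgroup of index p or the centre of G has index p³. -/
theorem result {G : Type*} [Group G] [Finite G] (hG : ∃ a b : G, a * b ≠ b * a) (p : ℕ) (hp : p.Prime) : ((∀ χ : Cfsg.IrrCharacter G, Cfsg.charDegree (χ : G → ℂ) = 1 ∨ Cfsg.charDegree (χ : G → ℂ) = p) ∧ ∃ χ : Cfsg.IrrCharacter G, Cfsg.charDegree (χ : G → ℂ) = p) ↔ ((∃ A : Subgroup G, A.Normal ∧ (∀ a ∈ A, ∀ b ∈ A, a * b = b * a) ∧ A.index = p) ∨ (Subgroup.center G).index = p ^ 3) := by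
  classical
  haveI := Fintype.ofFinite G
  constructor
  · rintro ⟨hcd, hm⟩
    exact Cfsg.Agent.Chars.TwoDeg.structure_prime_degree hp hcd hm
  intro h
  have key : ∀ χ : Cfsg.IrrCharacter G,
      Cfsg.charDegree (χ : G → ℂ) = 1 ∨ Cfsg.charDegree (χ : G → ℂ) = p := by
    intro χ
    rcases h with ⟨A, hA, hab, hi⟩ | hZ
    · haveI := hA
      exact (Nat.dvd_prime hp).1 (hi ▸ Chars2.charDegree_dvd_index hab χ)
    · have hdvd := Chars2.charDegree_dvd_index (A := Subgroup.center G)
        (fun a ha b _ => ((Subgroup.mem_center_iff.1 ha) b).symm) χ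
      rw [hZ] at hdvd
      obtain ⟨i, -, hi⟩ := (Nat.dvd_prime_pow hp).1 hdvd
      have h1 := (Blocks.charDegree_eq χ.2).1
      have hsum := Chars2.sum_normSq_of_classInner (f := (χ : G → ℂ)) (r := 1)
        (by rw [Chars.classInner_self_irr χ.2, Complex.ofReal_one])
      have hle : ∑ g ∈ Finset.univ.filter (fun g : G => g ∈ Subgroup.center G),
          Complex.normSq ((χ : G → ℂ) g) ≤ ∑ g : G, Complex.normSq ((χ : G → ℂ) g) :=
        Finset.sum_le_sum_of_subset_of_nonneg (Finset.filter_subset _ _)
          fun g _ _ => Complex.normSq_nonneg _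
      rw [hsum, mul_one, Finset.sum_congr rfl fun g hg =>
          Chars2.normSq_central χ.2 (Finset.mem_filter.1 hg).2, Finset.sum_const, nsmul_eq_mul,
        h1, hi, ← Fintype.card_subtype, ← Nat.card_eq_fintype_card, Complex.normSq_natCast] at hle
      have hle' : Nat.card (Subgroup.center G) * (p ^ i * p ^ i) ≤ Nat.card G := by
        exact_mod_cast hle
      rw [← Subgroup.card_mul_index (Subgroup.center G), hZ, ← pow_add] at hle'
      have := (Nat.pow_le_pow_iff_right hp.one_lt).1 (Nat.le_of_mul_le_mul_left hle' Nat.card_pos)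
      have : i ≤ 1 := by omega
      interval_cases i
      · exact Or.inl (hi.trans (pow_zero p))
      · exact Or.inr (hi.trans (pow_one p))
  refine ⟨key, ?_⟩
  by_contra hne
  push Not at hne
  obtain ⟨a, b, hab⟩ := hG
  exact hab (Chars2.comm_of_degree_one (fun χ => (key χ).resolve_right (hne χ)) a b)

end Cfsg.Agent.S4459
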