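import Cfsg.Statements.S4460
import Cfsg.Agent.Chars.ThreeDegFinal

set_option autoImplicit false
open Cfsg

namespace Cfsg.Agent.S4460

/-- A finite group with exactly three distinct irreducible character degrees is solvable of derived length at most 3: its third derived subgroup is trivial. -/
theorem result {G : Type*} [Group G] [Finite G] (hcd : Nat.card {n : ℕ // ∃ χ : Cfsg.IrrCharacter G, Cfsg.charDegree (χ : G → ℂ) = n} = 3) : derivedSeries G 3 = ⊥ := by
  classical
  have hfin : Set.Finite {n : ℕ | ∃ χ : Cfsg.IrrCharacter G, Cfsg.charDegree (χ : G → ℂ) = n} := by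
    haveI := Cfsg.Agent.Chars.irr_finite (G := G)
    exact Set.finite_range fun χ : Cfsg.IrrCharacter G => Cfsg.charDegree (χ : G → ℂ)
  refine Cfsg.Agent.Chars.ThreeDeg.derived_three hfin.toFinset (le_of_eq ?_) fun χ =>
    hfin.mem_toFinset.2 ⟨χ, rfl⟩
  rw [← Set.ncard_eq_toFinset_card _ hfin, ← Nat.card_coe_set_eq]
  exact hcd

end Cfsg.Agent.S4460
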