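import Cfsg.Statements.S4467
import Cfsg.Agent.Chars.PrimePowerDivisor

set_option autoImplicit false
set_option linter.style.haveILetI false
open Cfsg

namespace Cfsg.Agent.S4467

/-- Let the finite solvable group G have a faithful irreducible character of degree n, and suppose that for the prime p a Sylow p-subgroup of G is not normal. Then n is divisible by a prime power q > 1 with q congruent to −1, 0 or 1 modulo p. -/
theorem result {G : Type*} [Group G] [Finite G] (χ : Cfsg.IrrCharacter G) (hfaith : ∀ g : G, (χ : G → ℂ) g = (χ : G → ℂ) 1 → g = 1) (n : ℕ) (hn : Cfsg.charDegree (χ : G → ℂ) = n) (hsolv : Group.IsSolvable G) (p : ℕ) (hp : p.Prime) (P : Sylow p G) (hP : ¬ (P : Subgroup G).Normal) : ∃ q : ℕ, IsPrimePow q ∧ q ∣ n ∧ ((q : ℤ) ≡ -1 [ZMOD p] ∨ (q : ℤ) ≡ 0 [ZMOD p] ∨ (q : ℤ) ≡ 1 [ZMOD p]) := by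
  haveI := Fact.mk hp
  haveI := Fintype.ofFinite G
  have h1 : (χ : G → ℂ) 1 = n := by rw [(Blocks.charDegree_eq χ.2).1, hn]
  obtain ⟨q, hq, hqn, hm⟩ := Cfsg.Agent.Chars.PrimePower.exists_prime_pow (p := p) (Nat.card G) G
    rfl hsolv χ χ.2 hfaith n h1 (by
      rintro ⟨S, hS, hSp, hSi⟩
      haveI := hS
      refine hP ?_
      have hle := Cfsg.Agent.Chars.PrimePower.le_of_isPGroup hSi P.isPGroup'
      have : (P : Subgroup G) = S := (P.is_maximal' hSp hle).symm
      rw [this]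
      exact hS)
  refine ⟨q, hq, hqn, ?_⟩
  rcases hm with h | h | h
  · exact Or.inl (Int.modEq_iff_dvd.2 (by rw [← dvd_neg]; ring_nf; ring_nf at h; exact h))
  · exact Or.inr (Or.inl (Int.modEq_zero_iff_dvd.2 h))
  · exact Or.inr (Or.inr (Int.modEq_iff_dvd.2 (by rw [← dvd_neg]; ring_nf; ring_nf at h; exact h)))

end Cfsg.Agent.S4467
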