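import Cfsg.Statements.S4470
import Cfsg.Agent.Chars.SmallEigenBox

set_option autoImplicit false
set_option linter.style.haveILetI false
open Cfsg

namespace Cfsg.Agent.S4470

/-- Let the finite group G have a faithful character of degree n. Then G has an abelian normal subgroup A such that every abelian subgroup H of G satisfies [H : H ⊓ A] ≤ 12^n. -/
theorem result {G : Type*} [Group G] [Finite G] (χ : G → ℂ) (hχ : Cfsg.IsCharacter G χ) (hfaith : ∀ g : G, χ g = χ 1 → g = 1) (n : ℕ) (hn : Cfsg.charDegree χ = n) : ∃ A : Subgroup G, A.Normal ∧ (∀ x ∈ A, ∀ y ∈ A, x * y = y * x) ∧ ∀ H : Subgroup G, (∀ x ∈ H, ∀ y ∈ H, x * y = y * x) → (A.subgroupOf H).index ≤ 12 ^ n := by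
  obtain ⟨d, ρ, hρ⟩ := hχ
  have hdn : d = n := by
    rw [← hn, Cfsg.charDegree, ← hρ, Representation.char_one, Module.finrank_fin_fun,
      Complex.natCast_re, Nat.floor_natCast]
  obtain ⟨U, hU, hker⟩ := Cfsg.Agent.Chars.exists_unitary_hom ρ
  have hinj : Function.Injective U := by
    intro a b hab
    have h1 : U (a⁻¹ * b) = 1 := by rw [map_mul, ← hab, ← map_mul, inv_mul_cancel, map_one]
    have h2 := (hker _).1 h1
    refine inv_mul_eq_one.1 (hfaith _ ?_)
    rw [← hρ, Representation.char_one]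
    exact (Cfsg.Agent.Chars.rep_char_eq_finrank_iff ρ _).2 h2
  obtain ⟨A, hA, hAc, hAb⟩ := Cfsg.Agent.Chars.exists_normal_abelian_small hU hinj
  exact ⟨A, hA, hAc, fun H hH => hdn ▸ hAb H hH⟩

end Cfsg.Agent.S4470
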