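import Cfsg.Statements.S4469
import Cfsg.Agent.Chars.Blichfeldt
import Cfsg.Agent.Chars.Monomial
import Cfsg.Agent.S4470
import Mathlib.NumberTheory.PrimeCounting

set_option autoImplicit false
set_option linter.style.haveILetI false
open Cfsg

namespace Cfsg.Agent.S4469

/-- The classical bound for finite linear groups, in explicit form. Let the finite group G have a faithful character of degree n. Then G has an abelian normal subgroup whose index is at most n! · 12^(n·(π(n+1)+1)), π(k) denoting the number of primes not exceeding k. -/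
theorem result {G : Type*} [Group G] [Finite G] (χ : G → ℂ) (hχ : Cfsg.IsCharacter G χ) (hfaith : ∀ g : G, χ g = χ 1 → g = 1) (n : ℕ) (hn : Cfsg.charDegree χ = n) : ∃ A : Subgroup G, A.Normal ∧ (∀ x ∈ A, ∀ y ∈ A, x * y = y * x) ∧ A.index ≤ Nat.factorial n * 12 ^ (n * (Nat.primeCounting (n + 1) + 1)) := by
  classical
  haveI := Fintype.ofFinite G
  obtain ⟨A, hAn, hAc, hA⟩ := Cfsg.Agent.S4470.result χ hχ hfaith n hn
  refine ⟨A, hAn, hAc, ?_⟩
  have hχ1 : χ 1 = n := by
    obtain ⟨d, hd⟩ := Cfsg.Agent.Chars.exists_apply_one_eq hχ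
    have : d = n := by rw [← hn]; simp [Cfsg.charDegree, hd]
    rw [hd, this]
  have hI0 : A.index ≠ 0 := Subgroup.index_ne_zero_of_finite
  have hdiv : ∀ X : Subgroup G, A.index ∣ A.relIndex X * X.index := fun X => by
    have e1 := Subgroup.relIndex_mul_index (inf_le_right : A ⊓ X ≤ X)
    rw [Subgroup.inf_relIndex_right] at e1
    rw [e1]
    exact Subgroup.index_dvd_of_le inf_le_left
  let Sm := A.index.primeFactors.filter fun p => p ≤ n + 1
  let Lg := A.index.primeFactors.filter fun p => ¬ p ≤ n + 1
  have hprod : A.index = (∏ p ∈ Sm, p ^ A.index.factorization p) *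
      ∏ p ∈ Lg, p ^ A.index.factorization p := by
    rw [Finset.prod_filter_mul_prod_filter_not]
    exact (Nat.prod_factorization_pow_eq_self hI0).symm
  -- the large primes
  have hlarge : ∏ p ∈ Lg, p ^ A.index.factorization p ≤ 12 ^ n := by
    obtain ⟨H, hH1, -, hH3⟩ := Cfsg.Agent.Chars.blichfeldt n hχ hfaith hχ1 le_rfl
    refine le_trans (Nat.le_of_dvd (Nat.pos_of_ne_zero Subgroup.index_ne_zero_of_finite) ?_)
      (hA H hH1)
    refine Finset.prod_dvd_of_isRelPrime (fun p hp q hq hpq => ?_) fun p hp => ?_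
    · have h1 := Nat.prime_of_mem_primeFactors (Finset.mem_filter.1 hp).1
      have h2 := Nat.prime_of_mem_primeFactors (Finset.mem_filter.1 hq).1
      exact Nat.coprime_iff_isRelPrime.1 (((Nat.coprime_primes h1 h2).2 hpq).pow _ _)
    · have h1 := Nat.prime_of_mem_primeFactors (Finset.mem_filter.1 hp).1
      refine Nat.Coprime.dvd_of_dvd_mul_right ?_ ((Nat.ordProj_dvd _ p).trans (hdiv H))
      exact Nat.Coprime.pow_left _ ((h1.coprime_iff_not_dvd).2 fun h =>
        (Finset.mem_filter.1 hp).2 (hH3 p h1 h))
  -- the small primes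
  have hsmall : ∀ p ∈ Sm, p ^ A.index.factorization p ≤ p ^ n.factorial.factorization p * 12 ^ n := by
    intro p hp
    have hpp := Nat.prime_of_mem_primeFactors (Finset.mem_filter.1 hp).1
    haveI := Fact.mk hpp
    obtain ⟨P⟩ : Nonempty (Sylow p G) := inferInstance
    obtain ⟨B, hB1, hB2⟩ := Cfsg.Agent.Chars.exists_abelian_index_dvd_factorial P.isPGroup'
      (Cfsg.Agent.Chars.isCharacter_restrict hχ (P : Subgroup G))
      (fun g hg => Subtype.ext (hfaith g (by simpa using hg))) (n := n) (by simpa using hχ1)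
    let B' : Subgroup G := B.map (P : Subgroup G).subtype
    have hB'P : B' ≤ (P : Subgroup G) := Subgroup.map_subtype_le B
    have hB'c : ∀ x ∈ B', ∀ y ∈ B', x * y = y * x := by
      rintro _ ⟨x, hx, rfl⟩ _ ⟨y, hy, rfl⟩
      rw [← map_mul, ← map_mul, hB1 x hx y hy]
    have hrel : A.relIndex (P : Subgroup G) ∣ A.relIndex B' * B'.relIndex (P : Subgroup G) := by
      have e1 := Subgroup.relIndex_mul_relIndex (A ⊓ B') B' (P : Subgroup G) inf_le_right hB'P
      rw [Subgroup.inf_relIndex_right] at e1
      rw [e1]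
      exact Subgroup.relIndex_dvd_of_le_left _ inf_le_left
    have hB'idx : B'.relIndex (P : Subgroup G) = B.index := by
      rw [Subgroup.relIndex, Subgroup.subgroupOf,
        Subgroup.comap_map_eq_self_of_injective (P : Subgroup G).subtype_injective]
    rw [hB'idx] at hrel
    have hI : p ^ A.index.factorization p ∣ A.relIndex B' * B.index :=
      (Nat.Coprime.dvd_of_dvd_mul_right
        (Nat.Coprime.pow_left _ ((hpp.coprime_iff_not_dvd).2 P.not_dvd_index))
        ((Nat.ordProj_dvd _ p).trans (hdiv (P : Subgroup G)))).trans hrel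
    have hR : (A.relIndex B') ≠ 0 := Subgroup.index_ne_zero_of_finite
    have h2 : A.index.factorization p ≤
        (A.relIndex B').factorization p + n.factorial.factorization p := by
      have h3 := (hpp.pow_dvd_iff_le_factorization
        (mul_ne_zero hR Subgroup.index_ne_zero_of_finite)).1 hI
      rw [Nat.factorization_mul hR Subgroup.index_ne_zero_of_finite, Finsupp.add_apply] at h3
      have h4 := (Nat.factorization_le_iff_dvd Subgroup.index_ne_zero_of_finite
        n.factorial_ne_zero).2 hB2 p
      omega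
    calc p ^ A.index.factorization p
        ≤ p ^ ((A.relIndex B').factorization p + n.factorial.factorization p) :=
          Nat.pow_le_pow_right hpp.pos h2
      _ = p ^ n.factorial.factorization p * p ^ (A.relIndex B').factorization p := by
          rw [pow_add, mul_comm]
      _ ≤ p ^ n.factorial.factorization p * 12 ^ n :=
          Nat.mul_le_mul_left _ ((Nat.ordProj_le p hR).trans (hA B' hB'c))
  have hfact : ∏ p ∈ Sm, p ^ n.factorial.factorization p ≤ n.factorial := by
    refine Nat.le_of_dvd n.factorial_pos (Finset.prod_dvd_of_isRelPrime (fun p hp q hq hpq => ?_)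
      fun p _ => Nat.ordProj_dvd _ p)
    have h1 := Nat.prime_of_mem_primeFactors (Finset.mem_filter.1 hp).1
    have h2 := Nat.prime_of_mem_primeFactors (Finset.mem_filter.1 hq).1
    exact Nat.coprime_iff_isRelPrime.1 (((Nat.coprime_primes h1 h2).2 hpq).pow _ _)
  have hcard : Sm.card ≤ Nat.primeCounting (n + 1) := by
    rw [Nat.primeCounting_eq_primeCounting'_succ, ← Nat.primesBelow_card_eq_primeCounting']
    refine Finset.card_le_card fun p hp => Nat.mem_primesBelow.2 ⟨?_, ?_⟩
    · have := (Finset.mem_filter.1 hp).2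
      omega
    · exact Nat.prime_of_mem_primeFactors (Finset.mem_filter.1 hp).1
  calc A.index = (∏ p ∈ Sm, p ^ A.index.factorization p) *
        ∏ p ∈ Lg, p ^ A.index.factorization p := hprod
    _ ≤ (∏ p ∈ Sm, p ^ n.factorial.factorization p * 12 ^ n) * 12 ^ n :=
        Nat.mul_le_mul (Finset.prod_le_prod' hsmall) hlarge
    _ = (∏ p ∈ Sm, p ^ n.factorial.factorization p) * 12 ^ (n * (Sm.card + 1)) := by
        rw [Finset.prod_mul_distrib, Finset.prod_const, ← pow_mul, mul_add, mul_one, pow_add, mul_assoc]
    _ ≤ Nat.factorial n * 12 ^ (n * (Nat.primeCounting (n + 1) + 1)) :=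
        Nat.mul_le_mul hfact (Nat.pow_le_pow_right (by norm_num)
          (Nat.mul_le_mul_left n (Nat.add_le_add_right hcard 1)))

end Cfsg.Agent.S4469
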