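import Cfsg.Statements.S4471
import Cfsg.Agent.Chars.TwoEigenMonomial
import Cfsg.Agent.Core.Cores
-- import your own Cfsg.Agent.* helpers here

set_option autoImplicit false
open Cfsg

namespace Cfsg.Agent.S4471

/-- Let p ≥ 7 be a prime and let the finite group G have a faithful irreducible character of degree n with n < 2p and n ≠ p. If the Sylow p-subgroups of G are non-abelian then p² does not divide the index of O_p(G) in G; consequently, in every case G/O_p(G) has abelian Sylow p-subgroups. -/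
theorem result {G : Type*} [Group G] [Finite G] (χ : Cfsg.IrrCharacter G) (hfaith : ∀ g : G, (χ : G → ℂ) g = (χ : G → ℂ) 1 → g = 1) (n : ℕ) (hn : Cfsg.charDegree (χ : G → ℂ) = n) (p : ℕ) (hp : p.Prime) (h7 : 7 ≤ p) (hn2 : n < 2 * p) (hnp : n ≠ p) : ((∃ P : Sylow p G, ∃ x ∈ (P : Subgroup G), ∃ y ∈ (P : Subgroup G), x * y ≠ y * x) → ¬ p ^ 2 ∣ (Cfsg.pCore p G).index) ∧ ∀ Q : Sylow p (G ⧸ Cfsg.pCore p G), ∀ x ∈ (Q : Subgroup (G ⧸ Cfsg.pCore p G)), ∀ y ∈ (Q : Subgroup (G ⧸ Cfsg.pCore p G)), x * y = y * x := by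
  classical
  haveI := Fintype.ofFinite G
  haveI := Fact.mk hp
  have hn' : (χ : G → ℂ) 1 = (n : ℂ) := by
    obtain ⟨d, hd⟩ := Agent.Chars.exists_apply_one_eq (Agent.Chars.irr_isCharacter χ)
    rw [← hn, charDegree, hd, Complex.natCast_re, Nat.floor_natCast]
  have main : (∃ P : Sylow p G, ∃ x ∈ (P : Subgroup G), ∃ y ∈ (P : Subgroup G),
      x * y ≠ y * x) → ¬ p ^ 2 ∣ (Cfsg.pCore p G).index := by
    rintro ⟨P, x, hx, y, hy, hxy⟩ hdvd
    obtain ⟨hpn, z, hz⟩ := Agent.Chars.TwoEigen.exists_element (Agent.Chars.irr_isCharacter χ)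
      hfaith hn' hn2 (P : Subgroup G) P.isPGroup' hx hy hxy
    obtain ⟨C, hCn, hCc, hC⟩ :=
      Agent.Chars.TwoEigen.exists_abelian_normal χ.2 hfaith hn' h7 hpn hn2 hnp hz
    let R : Subgroup G :=
      { carrier := {g | g ∈ C ∧ ∃ k : ℕ, g ^ p ^ k = 1}
        one_mem' := ⟨C.one_mem, 0, by simp⟩
        mul_mem' := by
          rintro a b ⟨ha, i, hi⟩ ⟨hb, j, hj⟩
          refine ⟨C.mul_mem ha hb, i + j, ?_⟩
          rw [Commute.mul_pow (hCc a ha b hb), pow_add, pow_mul, hi, one_pow, one_mul,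
            mul_comm (p ^ i), pow_mul, hj, one_pow]
        inv_mem' := by
          rintro a ⟨ha, i, hi⟩
          exact ⟨C.inv_mem ha, i, by rw [inv_pow, hi, inv_one]⟩ }
    have hRn : R.Normal := ⟨fun a ha g => ⟨hCn.conj_mem a ha.1 g, by
      obtain ⟨k, hk⟩ := ha.2
      exact ⟨k, by rw [conj_pow, hk, mul_one, mul_inv_cancel]⟩⟩⟩
    have hRp : IsPGroup p R := fun a => by
      obtain ⟨k, hk⟩ := a.2.2
      exact ⟨k, Subtype.ext hk⟩
    have hRC : R ≤ C := fun a ha => ha.1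
    have h1 : p ^ 2 ∣ R.relIndex C * C.index := by
      rw [Subgroup.relIndex_mul_index hRC]
      exact hdvd.trans (Subgroup.index_dvd_of_le (Agent.Core.le_pCore hRn hRp))
    have h2 : ¬ p ∣ R.relIndex C := by
      intro hd
      let Q : Sylow p C := default
      have hQ : (Q : Subgroup C) ≤ R.subgroupOf C := fun a ha => ⟨a.2, by
        obtain ⟨k, hk⟩ := Q.isPGroup' ⟨a, ha⟩
        exact ⟨k, congrArg (fun u : Q => ((u : C) : G)) hk⟩⟩
      exact Q.not_dvd_index (hd.trans (Subgroup.index_dvd_of_le hQ))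
    exact hC ((((hp.coprime_iff_not_dvd).2 h2).pow_left 2).dvd_of_dvd_mul_left h1)
  refine ⟨main, fun Q x hx y hy => ?_⟩
  by_cases hnab : ∃ P : Sylow p G, ∃ x ∈ (P : Subgroup G), ∃ y ∈ (P : Subgroup G), x * y ≠ y * x
  · have h1 := main hnab
    obtain ⟨k, hk⟩ := IsPGroup.iff_card.1 Q.isPGroup'
    have h2 : Nat.card (Q : Subgroup (G ⧸ Cfsg.pCore p G)) ∣ (Cfsg.pCore p G).index :=
      Subgroup.card_subgroup_dvd_card (Q : Subgroup (G ⧸ Cfsg.pCore p G))
    rw [hk] at h2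
    have hk1 : k ≤ 1 := by
      by_contra hlt
      exact h1 ((pow_dvd_pow p (by omega)).trans h2)
    haveI : IsCyclic (Q : Subgroup (G ⧸ Cfsg.pCore p G)) := by
      interval_cases k
      · haveI := (Nat.card_eq_one_iff_unique.1 (hk.trans (pow_zero p))).1
        infer_instance
      · exact isCyclic_of_prime_card (p := p) (hk.trans (pow_one p))
    exact congrArg Subtype.val ((IsCyclic.commGroup (α := (Q : Subgroup (G ⧸ Cfsg.pCore p G)))).mul_comm
      ⟨x, hx⟩ ⟨y, hy⟩)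
  · push Not at hnab
    obtain ⟨P, rfl⟩ := Sylow.mapSurjective_surjective
      (QuotientGroup.mk'_surjective (Cfsg.pCore p G)) p Q
    obtain ⟨a, ha, rfl⟩ := hx
    obtain ⟨b, hb, rfl⟩ := hy
    rw [← map_mul, ← map_mul, hnab P a ha b hb]

end Cfsg.Agent.S4471
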