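import Cfsg.Statements.S4473
import Cfsg.Agent.Chars.DegreeTwo

set_option autoImplicit false
set_option linter.style.haveILetI false
open Cfsg

namespace Cfsg.Agent.S4473

/-- Let the finite group G have a faithful irreducible character χ of degree 2 that is primitive: χ is not induced from a character of any proper subgroup. Then the centre of G has index 12, 24 or 60. -/
theorem result {G : Type*} [Group G] [Fintype G] (χ : Cfsg.IrrCharacter G) (hfaith : ∀ g : G, (χ : G → ℂ) g = (χ : G → ℂ) 1 → g = 1) (h2 : Cfsg.charDegree (χ : G → ℂ) = 2) (hprim : ∀ H : Subgroup G, H ≠ ⊤ → ∀ θ : H → ℂ, Cfsg.IsCharacter H θ → (χ : G → ℂ) ≠ Cfsg.indFun H θ) : (Subgroup.center G).index = 12 ∨ (Subgroup.center G).index = 24 ∨ (Subgroup.center G).index = 60 := by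
  obtain ⟨n, ρ, hirr, hρ⟩ := χ.2
  haveI := hirr
  have hd : (n : ℂ) = 2 := by
    have h1 : (χ : G → ℂ) 1 = (n : ℂ) := by
      rw [← hρ, Representation.char_one, Module.finrank_fin_fun]
    unfold Cfsg.charDegree at h2
    rw [h1, Complex.natCast_re, Nat.floor_natCast] at h2
    exact_mod_cast h2
  obtain rfl : n = 2 := by exact_mod_cast hd
  refine Cfsg.Agent.Chars.index_center_of_primitive_degree_two ρ (fun g hg => hfaith g ?_)
    (fun H hH θ hθ => ?_)
  · rw [← hρ, Representation.char_one, (Cfsg.Agent.Chars.rep_char_eq_finrank_iff ρ g).2 hg]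
  · rw [hρ]; exact hprim H hH θ hθ

end Cfsg.Agent.S4473
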