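import Cfsg.Statements.S4474
import Cfsg.Agent.Chars.RealForm
import Cfsg.Agent.DegreeGraph.Indicator

set_option autoImplicit false
set_option linter.style.haveILetI false
open Cfsg

namespace Cfsg.Agent.S4474

/-- Let χ be an irreducible character of the finite group G. Then the Frobenius–Schur indicator of χ (the average over s ∈ G of χ(s²)) equals 1 if and only if χ is afforded by a real representation: there is a representation of G on a real coordinate space whose trace function, viewed in ℂ, is χ. -/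
theorem result {G : Type*} [Group G] [Fintype G] (χ : Cfsg.IrrCharacter G) : ((Nat.card G : ℂ)⁻¹ * ∑ s : G, (χ : G → ℂ) (s * s)) = 1 ↔ ∃ (n : ℕ) (ρ : Representation ℝ G (Fin n → ℝ)), ∀ g : G, ((LinearMap.trace ℝ (Fin n → ℝ) (ρ g) : ℝ) : ℂ) = (χ : G → ℂ) g := by
  classical
  obtain ⟨n, ρ, htr⟩ := Cfsg.Agent.Blocks.exists_matrixRep χ.2
  have hirr : IsIrrCharacter G (fun g => (ρ g).trace) := by rw [funext htr]; exact χ.2
  constructor
  · intro hν
    have hreal := Cfsg.Agent.DegreeGraph.real_of_indicator_ne_zero χ.2 (fun h0 => by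
      rw [h0, mul_zero] at hν; exact zero_ne_one hν)
    obtain ⟨B, hB0, hB, hsym⟩ := Cfsg.Agent.Chars2.exists_form_of_real hirr
      (fun g => by rw [htr]; exact Complex.conj_eq_iff_im.1 (congrFun hreal g))
    simp only [htr] at hsym
    rw [hν, one_smul] at hsym
    obtain ⟨R, hR⟩ := Cfsg.Agent.Chars.exists_real_conjugate ρ hirr B hB0 hB hsym
    refine ⟨n, (Matrix.toLinAlgEquiv' : Matrix (Fin n) (Fin n) ℝ ≃ₐ[ℝ] _).toMonoidHom.comp R, fun g => ?_⟩
    rw [← htr g, ← hR g]
    exact congrArg Complex.ofReal (Matrix.trace_toLin'_eq (R g))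
  · rintro ⟨m, σ, hσ⟩
    let S : G →* Matrix (Fin m) (Fin m) ℝ :=
      (Matrix.toLinAlgEquiv' : Matrix (Fin m) (Fin m) ℝ ≃ₐ[ℝ] _).symm.toMonoidHom.comp σ
    let A : G →* Matrix (Fin m) (Fin m) ℂ := (Complex.ofRealHom.mapMatrix).toMonoidHom.comp S
    have hAtr : ∀ g, (A g).trace = (χ : G → ℂ) g := fun g => by
      rw [← hσ g]
      have e : LinearMap.trace ℝ (Fin m → ℝ) (σ g) = (S g).trace := by
        rw [LinearMap.trace_eq_matrix_trace ℝ (Pi.basisFun ℝ (Fin m))]; rfl
      rw [e]
      show ((S g).map Complex.ofRealHom).trace = _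
      simp [Matrix.trace]
    have hAirr : IsIrrCharacter G (fun g => (A g).trace) := by rw [funext hAtr]; exact χ.2
    have hreal : ∀ g, ((χ : G → ℂ) g).im = 0 := fun g => by rw [← hσ g]; exact Complex.ofReal_im _
    obtain ⟨B, hB0, hB, hsym⟩ := Cfsg.Agent.Chars2.exists_form_of_real hAirr
      (fun g => by rw [hAtr]; exact hreal g)
    simp only [hAtr] at hsym
    let H : Matrix (Fin m) (Fin m) ℂ := ∑ g, (A g).transpose * A g
    have hH : ∀ h, (A h).transpose * H * A h = H := fun h => by
      show (A h).transpose * (∑ g, (A g).transpose * A g) * A h = _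
      rw [Finset.mul_sum, Finset.sum_mul]
      refine Fintype.sum_equiv (Equiv.mulRight h) _ _ fun g => ?_
      simp only [Equiv.coe_mulRight, map_mul, Matrix.transpose_mul, mul_assoc]
    have hHs : H.transpose = H := by
      show (∑ g, (A g).transpose * A g).transpose = _
      rw [Matrix.transpose_sum]
      simp [H, Matrix.transpose_mul]
    have hH0 : H ≠ 0 := by
      intro h0
      have hm : 0 < m := by
        obtain ⟨k, hk, hk1⟩ := Cfsg.Agent.Chars.exists_irr_apply_one_eq χ.2
        have h1 := hAtr 1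
        rw [map_one, Matrix.trace_one, Fintype.card_fin, hk1] at h1
        exact (show m = k by exact_mod_cast h1) ▸ hk
      have h1 := congrFun (congrFun h0 ⟨0, hm⟩) ⟨0, hm⟩
      have e : H ⟨0, hm⟩ ⟨0, hm⟩ = ((∑ g, ∑ k, (S g k ⟨0, hm⟩) ^ 2 : ℝ) : ℂ) := by
        simp [H, A, Matrix.sum_apply, Matrix.mul_apply, sq]
      rw [e, Matrix.zero_apply, Complex.ofReal_eq_zero, Finset.sum_eq_zero_iff_of_nonneg
        (fun g _ => Finset.sum_nonneg fun k _ => sq_nonneg _)] at h1
      have h2 := (Finset.sum_eq_zero_iff_of_nonneg (fun k _ => sq_nonneg _)).1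
        (h1 1 (Finset.mem_univ _)) ⟨0, hm⟩ (Finset.mem_univ _)
      rw [map_one] at h2
      simp at h2
    obtain ⟨c, hc⟩ := Cfsg.Agent.Chars2.exists_smul_invariant hAirr hH hH0 hB
    have hBs : B.transpose = B := by rw [hc, Matrix.transpose_smul, hHs]
    rw [hBs] at hsym
    by_contra hne
    apply hB0
    have : (1 - (Nat.card G : ℂ)⁻¹ * ∑ s : G, (χ : G → ℂ) (s * s)) • B = 0 := by
      rw [sub_smul, one_smul, ← hsym, sub_self]
    exact (smul_eq_zero.1 this).resolve_left (sub_ne_zero.2 (Ne.symm hne))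

end Cfsg.Agent.S4474
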