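import Cfsg.Statements.S4475
import Cfsg.Agent.Chars2.FSIndicator

set_option autoImplicit false
open Cfsg

namespace Cfsg.Agent.S4475

/-- Let ρ be an irreducible representation of the finite group G on the coordinate space Fin n → ℂ whose character χ is real-valued, and let ν be the Frobenius–Schur indicator of χ (the average of χ(s²)). Writing X(g) for the matrix of ρ(g), there is a nonzero matrix M with X(g)ᵀ M X(g) = M for all g ∈ G; and every such M (zero or not) satisfies Mᵀ = ν·M. -/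
theorem result {G : Type*} [Group G] [Fintype G] (n : ℕ) (ρ : Representation ℂ G (Fin n → ℂ)) (hirr : ρ.IsIrreducible) (hreal : ∀ g : G, (ρ.character g).im = 0) : (∃ M : Matrix (Fin n) (Fin n) ℂ, M ≠ 0 ∧ ∀ g : G, (LinearMap.toMatrix' (ρ g)).transpose * M * LinearMap.toMatrix' (ρ g) = M) ∧ ∀ M : Matrix (Fin n) (Fin n) ℂ, (∀ g : G, (LinearMap.toMatrix' (ρ g)).transpose * M * LinearMap.toMatrix' (ρ g) = M) → M.transpose = ((Nat.card G : ℂ)⁻¹ * ∑ s : G, ρ.character (s * s)) • M := by
  classical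
  let X : G →* Matrix (Fin n) (Fin n) ℂ :=
    (Matrix.toLinAlgEquiv' : Matrix (Fin n) (Fin n) ℂ ≃ₐ[ℂ] _).symm.toMonoidHom.comp ρ
  have hX : ∀ g, X g = LinearMap.toMatrix' (ρ g) := fun g => rfl
  have htr : ∀ g, (X g).trace = ρ.character g := fun g => by
    show (Matrix.toLinAlgEquiv'.symm (ρ g) : Matrix (Fin n) (Fin n) ℂ).trace = _
    conv_rhs => rw [Representation.character,
      ← (Matrix.toLinAlgEquiv' : Matrix (Fin n) (Fin n) ℂ ≃ₐ[ℂ] _).apply_symm_apply (ρ g)]
    exact (Matrix.trace_toLin'_eq _).symm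
  have hchar : Cfsg.IsIrrCharacter G (fun g => (X g).trace) := by
    rw [funext htr]
    haveI := hirr
    exact Chars.isIrrCharacter_of_rep ρ
  obtain ⟨M, hM0, hM, hsym⟩ :=
    Chars2.exists_form_of_real hchar (fun g => by rw [htr]; exact hreal g)
  simp only [htr] at hsym
  simp only [← hX]
  refine ⟨⟨M, hM0, hM⟩, fun M' hM' => ?_⟩
  obtain ⟨c, rfl⟩ := Chars2.exists_smul_invariant hchar hM hM0 hM'
  rw [Matrix.transpose_smul, hsym, smul_comm]

end Cfsg.Agent.S4475
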