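import Cfsg.Statements.S4476
import Cfsg.Agent.S0159
import Cfsg.Agent.DegreeGraph.Indicator
import Mathlib.Algebra.Order.Chebyshev
import Mathlib.Algebra.Order.BigOperators.Ring.Finset

set_option autoImplicit false
set_option linter.style.haveILetI false
open Cfsg

namespace Cfsg.Agent.S4476

/-- Let G be a finite group of even order g with exactly t involutions, and put α = (g − 1)/t (a rational number). Then (a) some non-identity element x of G has at most α² conjugates; and (b) some non-principal real-valued irreducible character of G has degree at most α. -/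
theorem result {G : Type*} [Group G] [Fintype G] (heven : Even (Nat.card G)) (t : ℕ) (ht : Nat.card {x : G // orderOf x = 2} = t) : (∃ x : G, x ≠ 1 ∧ ((Subgroup.centralizer ({x} : Set G)).index : ℚ) ≤ (((Nat.card G : ℚ) - 1) / t) ^ 2) ∧ ∃ χ : Cfsg.IrrCharacter G, (χ : G → ℂ) ≠ (fun _ => 1) ∧ (∀ g : G, ((χ : G → ℂ) g).im = 0) ∧ (Cfsg.charDegree (χ : G → ℂ) : ℚ) ≤ ((Nat.card G : ℚ) - 1) / t := by
  classical
  haveI := Fintype.ofFinite (ConjClasses G)
  choose d hd0 hd using fun χ : IrrCharacter G => Cfsg.Agent.Chars.exists_irr_apply_one_eq χ.2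
  let one : IrrCharacter G := ⟨fun _ => 1, Cfsg.Agent.Chars.isIrrCharacter_one⟩
  have hd1 : d one = 1 := by exact_mod_cast (show (1 : ℂ) = (d one : ℂ) from hd one).symm
  set R : Finset (IrrCharacter G) := (Finset.univ.erase one).filter
    (fun χ => ∀ g, ((χ : G → ℂ) g).im = 0) with hR
  have htsum : (t : ℝ) ≤ ∑ χ ∈ R, (d χ : ℝ) := by
    have h := Cfsg.Agent.S0159.result (G := G)
    rw [finsum_eq_sum_of_fintype] at h
    have hinv : Nat.card {s : G // s * s = 1} = t + 1 := by
      rw [← ht, Nat.card_eq_fintype_card, Nat.card_eq_fintype_card, Fintype.card_subtype, Fintype.card_subtype]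
      rw [show Finset.univ.filter (fun s : G => s * s = 1) =
          insert 1 (Finset.univ.filter fun s : G => orderOf s = 2) from ?_,
        Finset.card_insert_of_notMem (by simp)]
      ext s
      simp only [Finset.mem_filter, Finset.mem_univ, true_and, Finset.mem_insert]
      constructor
      · intro hs
        by_cases h1 : s = 1
        · exact Or.inl h1
        · exact Or.inr (orderOf_eq_prime (by rw [sq, hs]) h1)
      · rintro (rfl | hs)
        · exact one_mul 1
        · rw [← sq, ← hs, pow_orderOf_eq_one]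
    rw [hinv] at h
    let ν : IrrCharacter G → ℂ := fun χ => (Nat.card G : ℂ)⁻¹ * ∑ s : G, (χ : G → ℂ) (s * s)
    have hν1 : ν one = 1 := by
      simp [ν, one, Nat.card_eq_fintype_card]
    have hle : ∀ χ : IrrCharacter G, χ ≠ one → (ν χ * (χ : G → ℂ) 1).re ≤ if χ ∈ R then (d χ : ℝ) else 0 := by
      intro χ hχ
      by_cases hr : ∀ g, ((χ : G → ℂ) g).im = 0
      · rw [if_pos (Finset.mem_filter.2 ⟨Finset.mem_erase.2 ⟨hχ, Finset.mem_univ _⟩, hr⟩), hd]
        rcases Cfsg.Agent.DegreeGraph.indicator_of_real χ.2 (funext fun g => Complex.conj_eq_iff_im.2 (hr g))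
          with e | e
        · rw [show ν χ = 1 from e]; simp
        · rw [show ν χ = -1 from e]; simp
      · rw [if_neg (fun h => hr (Finset.mem_filter.1 h).2)]
        have e : ν χ = 0 := by
          by_contra hne
          apply hr
          have := Cfsg.Agent.DegreeGraph.real_of_indicator_ne_zero χ.2 (fun h0 => hne (by
            simp [ν, h0]))
          exact fun g => Complex.conj_eq_iff_im.1 (congrFun this g)
        simp [e]
    rw [← Finset.add_sum_erase _ _ (Finset.mem_univ one)] at h
    have h2 := congrArg Complex.re h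
    rw [Complex.add_re, Complex.re_sum] at h2
    simp only [show (((t + 1 : ℕ) : ℂ)).re = (t : ℝ) + 1 by simp,
      show (ν one * (one : G → ℂ) 1).re = 1 by rw [hν1]; simp [one]] at h2
    have h3 := Finset.sum_le_sum (s := Finset.univ.erase one) fun χ hχ => hle χ (Finset.ne_of_mem_erase hχ)
    rw [Finset.sum_ite_mem, Finset.inter_eq_right.2 (Finset.filter_subset _ _)] at h3
    have e1 : ∀ χ : IrrCharacter G, ((Nat.card G : ℂ)⁻¹ * ∑ s : G, (χ : G → ℂ) (s * s)) = ν χ := fun _ => rfl
    simp only [e1] at h2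
    rw [show (ν one * (one : G → ℂ) 1).re = 1 by rw [hν1]; simp [one]] at h2
    linarith
  have hsq : ∑ χ ∈ R, (d χ : ℝ) ^ 2 ≤ (Nat.card G : ℝ) - 1 := by
    have h : ((∑ χ, d χ ^ 2 : ℕ) : ℂ) = (Nat.card G : ℂ) := by
      push_cast; simp only [← hd]; exact Cfsg.Agent.Chars.sum_sq_apply_one
    have h' : ∑ χ, (d χ : ℝ) ^ 2 = (Nat.card G : ℝ) := by exact_mod_cast h
    rw [← h', ← Finset.add_sum_erase _ _ (Finset.mem_univ one), hd1, Nat.cast_one, one_pow, add_sub_cancel_left]
    exact Finset.sum_le_sum_of_subset_of_nonneg (Finset.filter_subset _ _) fun _ _ _ => sq_nonneg _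
  have htpos : 0 < t := by
    rw [← ht]
    obtain ⟨x, hx⟩ := exists_prime_orderOf_dvd_card' 2 heven.two_dvd
    haveI : Nonempty {x : G // orderOf x = 2} := ⟨⟨x, hx⟩⟩
    exact Nat.card_pos
  have htR : (0 : ℝ) < t := Nat.cast_pos.2 htpos
  set α : ℝ := ((Nat.card G : ℝ) - 1) / t with hα
  refine ⟨?_, ?_⟩
  · obtain ⟨C, hC, hCle⟩ : ∃ C : ConjClasses G, C ≠ ConjClasses.mk 1 ∧
        (Nat.card C.carrier : ℝ) ≤ α ^ 2 := by
      by_contra hall
      push Not at hall
      have hcs := sq_sum_le_card_mul_sum_sq (s := R) (f := fun χ => (d χ : ℝ))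
      have hcard : R.card ≤ ((Finset.univ : Finset (ConjClasses G)).erase (ConjClasses.mk 1)).card := by
        rw [Finset.card_erase_of_mem (Finset.mem_univ _), Finset.card_univ, ← Nat.card_eq_fintype_card,
          ← Cfsg.Agent.Chars.card_irr_eq_card_conjClasses, Nat.card_eq_fintype_card, ← Finset.card_univ,
          ← Finset.card_erase_of_mem (Finset.mem_univ one)]
        exact Finset.card_le_card (Finset.filter_subset _ _)
      set K := ((Finset.univ : Finset (ConjClasses G)).erase (ConjClasses.mk 1))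
      have htot : ∑ C ∈ K, (Nat.card C.carrier : ℝ) = (Nat.card G : ℝ) - 1 := by
        have h : ∑ C : ConjClasses G, Nat.card C.carrier = Nat.card G := by
          rw [← Nat.card_sigma]
          exact Nat.card_congr ((Equiv.sigmaFiberEquiv (ConjClasses.mk (α := G))).symm.trans
            (Equiv.sigmaCongrRight fun C => Equiv.subtypeEquivRight fun x =>
              ConjClasses.mem_carrier_iff_mk_eq.symm)).symm
        have h' : ∑ C : ConjClasses G, (Nat.card C.carrier : ℝ) = (Nat.card G : ℝ) := by exact_mod_cast h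
        rw [← h', ← Finset.add_sum_erase _ _ (Finset.mem_univ (ConjClasses.mk (1 : G)))]
        have h1 : Nat.card (ConjClasses.mk (1 : G)).carrier = 1 := by
          rw [Nat.card_eq_one_iff_exists]
          refine ⟨⟨1, ConjClasses.mem_carrier_mk⟩, fun y => Subtype.ext ?_⟩
          exact isConj_one_left.1 (ConjClasses.mk_eq_mk_iff_isConj.1
            (ConjClasses.mem_carrier_iff_mk_eq.1 y.2))
        rw [h1, Nat.cast_one, add_sub_cancel_left]
      have hR0 : 0 < R.card := by
        refine Finset.card_pos.2 (Finset.nonempty_of_sum_ne_zero (f := fun χ => (d χ : ℝ)) ?_)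
        linarith
      have hlt : (K.card : ℝ) * α ^ 2 < (Nat.card G : ℝ) - 1 := by
        rw [← htot, ← nsmul_eq_mul, ← Finset.sum_const]
        exact Finset.sum_lt_sum_of_nonempty (Finset.card_pos.1 (lt_of_lt_of_le hR0 hcard))
          fun C hC => hall C (Finset.ne_of_mem_erase hC)
      have h1 : (t : ℝ) ^ 2 ≤ (K.card : ℝ) * ((Nat.card G : ℝ) - 1) := by
        refine le_trans (le_trans (pow_le_pow_left₀ htR.le htsum 2) hcs) ?_
        exact mul_le_mul (by exact_mod_cast hcard) hsq (Finset.sum_nonneg fun _ _ => sq_nonneg _)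
          (Nat.cast_nonneg _)
      have h2 : (K.card : ℝ) * ((Nat.card G : ℝ) - 1) ^ 2 < ((Nat.card G : ℝ) - 1) * t ^ 2 := by
        have := mul_lt_mul_of_pos_right hlt (pow_pos htR 2)
        rwa [hα, div_pow, mul_assoc, div_mul_cancel₀ _ (pow_ne_zero 2 htR.ne')] at this
      have hG1 : (1 : ℝ) ≤ Nat.card G := by exact_mod_cast Nat.card_pos
      have h3 := mul_le_mul_of_nonneg_left h1 (sub_nonneg.2 hG1)
      nlinarith
    obtain ⟨x, rfl⟩ := ConjClasses.mk_surjective C
    refine ⟨x, fun e => hC (by rw [e]), ?_⟩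
    have hidx : (Subgroup.centralizer ({x} : Set G)).index = Nat.card (ConjClasses.mk x).carrier := by
      rw [ConjAct.orbit_eq_carrier_conjClasses x |>.symm, Nat.card_coe_set_eq,
        ← MulAction.index_stabilizer]
      rw [ConjAct.stabilizer_eq_centralizer]
      rfl
    rw [hidx]
    have : ((Nat.card (ConjClasses.mk x).carrier : ℚ) : ℝ) ≤
        (((((Nat.card G : ℚ) - 1) / t) ^ 2 : ℚ) : ℝ) := by
      push_cast; exact hCle
    exact_mod_cast this
  · obtain ⟨χ, hχ, hle⟩ : ∃ χ ∈ R, (d χ : ℝ) ≤ α := by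
      by_contra hall
      push Not at hall
      have hne : R.Nonempty := Finset.nonempty_of_sum_ne_zero (f := fun χ => (d χ : ℝ)) (by linarith)
      have h1 : α * ∑ χ ∈ R, (d χ : ℝ) < ∑ χ ∈ R, (d χ : ℝ) ^ 2 := by
        rw [Finset.mul_sum]
        exact Finset.sum_lt_sum_of_nonempty hne fun χ hχ => by
          rw [sq]; exact mul_lt_mul_of_pos_right (hall χ hχ) (Nat.cast_pos.2 (hd0 χ))
      have hG1 : (1 : ℝ) ≤ Nat.card G := by exact_mod_cast Nat.card_pos
      have h2 : (Nat.card G : ℝ) - 1 ≤ α * ∑ χ ∈ R, (d χ : ℝ) := by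
        calc (Nat.card G : ℝ) - 1 = α * t := by rw [hα, div_mul_cancel₀ _ htR.ne']
          _ ≤ _ := mul_le_mul_of_nonneg_left htsum (div_nonneg (by linarith) htR.le)
      linarith
    obtain ⟨hχ1, hχr⟩ := Finset.mem_filter.1 hχ
    refine ⟨χ, fun e => Finset.ne_of_mem_erase hχ1 (Subtype.ext e), hχr, ?_⟩
    have hcd : charDegree (χ : G → ℂ) = d χ := by simp [charDegree, hd]
    rw [hcd]
    have : ((d χ : ℚ) : ℝ) ≤ ((((Nat.card G : ℚ) - 1) / t : ℚ) : ℝ) := by push_cast; exact hle
    exact_mod_cast this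

end Cfsg.Agent.S4476
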