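import Cfsg.Statements.S4478
import Cfsg.Agent.S0165
import Cfsg.Agent.DegreeGraph.Indicator
import Cfsg.Agent.Blocks.Orth

set_option autoImplicit false
open Cfsg

namespace Cfsg.Agent.S4478

theorem vanish {G : Type*} [Group G] [Fintype G] (χ : Cfsg.IrrCharacter G) {p : ℕ} (hp : p.Prime)
    (hd : p ^ (Nat.card G).factorization p ∣ Cfsg.charDegree (χ : G → ℂ)) {g : G} (hg : p ∣ orderOf g) :
    (χ : G → ℂ) g = 0 := by
  obtain ⟨n, ρ, hi, he⟩ := χ.2
  haveI := hi
  have h1 := (Blocks.charDegree_eq χ.2).1
  have hfin : Module.finrank ℂ (Fin n → ℂ) = Cfsg.charDegree (χ : G → ℂ) := by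
    refine Nat.cast_injective (R := ℂ) ?_
    rw [← h1, ← he]
    exact (Representation.char_one ρ).symm
  rw [← he]
  exact S0165.result ρ p _ hp (Nat.ordProj_dvd _ p) (Nat.pow_succ_factorization_not_dvd Nat.card_pos.ne' hp)
    (hfin ▸ hd) g hg


/-- Let G be a finite group of even order and χ an irreducible character of G whose degree x is divisible by the full power of 2 dividing the order of G and, for every odd prime p such that G has an element of order 2p, by the full power of p dividing the order of G. Then all involutions of G are conjugate, the centralizer of every involution has order exactly x with x coprime to its index, and the Frobenius–Schur indicator of χ equals 1. -/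
theorem result {G : Type*} [Group G] [Fintype G] (heven : Even (Nat.card G)) (χ : Cfsg.IrrCharacter G) (h2 : 2 ^ (Nat.card G).factorization 2 ∣ Cfsg.charDegree (χ : G → ℂ)) (hp : ∀ p : ℕ, p.Prime → p ≠ 2 → (∃ g : G, orderOf g = 2 * p) → p ^ (Nat.card G).factorization p ∣ Cfsg.charDegree (χ : G → ℂ)) : (∀ s t : G, orderOf s = 2 → orderOf t = 2 → IsConj s t) ∧ (∀ s : G, orderOf s = 2 → Nat.card (Subgroup.centralizer ({s} : Set G)) = Cfsg.charDegree (χ : G → ℂ) ∧ (Nat.card (Subgroup.centralizer ({s} : Set G))).Coprime (Subgroup.centralizer ({s} : Set G)).index) ∧ (Nat.card G : ℂ)⁻¹ * ∑ g : G, (χ : G → ℂ) (g * g) = 1 := by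
  classical
  haveI : Fact (Nat.Prime 2) := ⟨Nat.prime_two⟩
  set x := Cfsg.charDegree (χ : G → ℂ) with hx
  obtain ⟨h1, hxpos⟩ := Blocks.charDegree_eq χ.2
  have hxdvd : x ∣ Nat.card G := Blocks.charDegree_dvd χ.2
  set e2 := (Nat.card G).factorization 2 with he2
  have he2pos : 0 < e2 := Nat.prime_two.factorization_pos_of_dvd Nat.card_pos.ne' (even_iff_two_dvd.1 heven)
  have hx2 : 2 ∣ x := (dvd_pow_self 2 he2pos.ne').trans h2
  -- primes meeting an involution centralizer divide the degree fully
  have hC : ∀ s : G, orderOf s = 2 → ∀ q : ℕ, q.Prime → q ∣ Nat.card (Subgroup.centralizer ({s} : Set G)) →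
      q ^ (Nat.card G).factorization q ∣ x := by
    intro s hs q hq hqd
    by_cases hq2 : q = 2
    · subst hq2; exact h2
    haveI : Fact q.Prime := ⟨hq⟩
    obtain ⟨c, hc⟩ := exists_prime_orderOf_dvd_card' q hqd
    have hcs : Commute s (c : G) := (Subgroup.mem_centralizer_singleton_iff.1 c.2).symm
    refine hp q hq hq2 ⟨s * (c : G), ?_⟩
    rw [hcs.orderOf_mul_eq_mul_orderOf_of_coprime ?_, hs, Subgroup.orderOf_coe, hc]
    rw [hs, Subgroup.orderOf_coe, hc]
    exact (Nat.coprime_primes Nat.prime_two hq).2 (Ne.symm hq2)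
  have hCdvd : ∀ s : G, orderOf s = 2 → Nat.card (Subgroup.centralizer ({s} : Set G)) ∣ x := by
    intro s hs
    rw [← Nat.factorization_le_iff_dvd Nat.card_pos.ne' hxpos.ne']
    intro q
    by_cases hq : q.Prime ∧ q ∣ Nat.card (Subgroup.centralizer ({s} : Set G))
    · exact ((Nat.factorization_le_iff_dvd Nat.card_pos.ne' Nat.card_pos.ne').2
        (Subgroup.card_subgroup_dvd_card _) q).trans
        ((hq.1.pow_dvd_iff_le_factorization hxpos.ne').1 (hC s hs q hq.1 hq.2))
    · rw [not_and_or] at hq
      rcases hq with hq | hq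
      · rw [Nat.factorization_eq_zero_of_not_prime _ hq]; exact Nat.zero_le _
      · rw [Nat.factorization_eq_zero_of_not_dvd hq]; exact Nat.zero_le _
  -- square roots
  set I := Finset.univ.filter fun g : G => orderOf g = 2 with hI
  have hsupp : ∀ g : G, (χ : G → ℂ) g ≠ 0 → Odd (orderOf g) ∧
      ∀ u : G, orderOf u = 2 → Commute u g → g = 1 := by
    intro g hg
    have hod : Odd (orderOf g) := by
      rw [← Nat.not_even_iff_odd, even_iff_two_dvd]
      exact fun hd => hg (vanish χ Nat.prime_two h2 hd)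
    refine ⟨hod, fun u hu huc => ?_⟩
    by_contra hne
    obtain ⟨q, hq, hqd⟩ := Nat.exists_prime_and_dvd (fun h' => hne (orderOf_eq_one_iff.1 h'))
    refine hg (vanish χ hq (hC u hu q hq ?_) hqd)
    exact hqd.trans (Subgroup.orderOf_dvd_natCard _ (Subgroup.mem_centralizer_singleton_iff.2 huc.symm.eq))
  have hroot : ∀ g : G, (χ : G → ℂ) g ≠ 0 →
      ((Finset.univ.filter fun s : G => s * s = g).card : ℂ) = if g = 1 then (1 : ℂ) + I.card else 1 := by
    intro g hg
    obtain ⟨hod, hfree⟩ := hsupp g hg
    split_ifs with h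
    · subst h
      have he : (Finset.univ.filter fun s : G => s * s = 1) = insert 1 I := by
        ext s
        simp only [hI, Finset.mem_filter, Finset.mem_univ, true_and, Finset.mem_insert]
        constructor
        · intro hs
          by_cases hs1 : s = 1
          · exact Or.inl hs1
          · exact Or.inr (orderOf_eq_prime (by rw [pow_two, hs]) hs1)
        · rintro (rfl | hs)
          · exact one_mul 1
          · rw [← pow_two, ← hs, pow_orderOf_eq_one]
      rw [he, Finset.card_insert_of_notMem (by simp [hI]), Nat.cast_succ]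
      ring
    · obtain ⟨m, hm⟩ := hod
      set r := g ^ (m + 1) with hr
      have hrr : r * r = g := by
        rw [hr, ← pow_add, show m + 1 + (m + 1) = (2 * m + 1) + 1 by ring, pow_succ, ← hm, pow_orderOf_eq_one,
          one_mul]
      suffices (Finset.univ.filter fun s : G => s * s = g) = {r} by rw [this, Finset.card_singleton, Nat.cast_one]
      ext s
      simp only [Finset.mem_filter, Finset.mem_univ, true_and, Finset.mem_singleton]
      refine ⟨fun hs => ?_, fun hs => hs ▸ hrr⟩
      have hsg : Commute s g := hs ▸ (Commute.refl s).mul_right (Commute.refl s)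
      have hsr : Commute s r := hsg.pow_right _
      have hu2 : (s * r⁻¹) * (s * r⁻¹) = 1 := by
        rw [hsr.inv_right.symm.mul_mul_mul_comm, hs, ← mul_inv_rev, hrr, mul_inv_cancel]
      by_contra hne
      exact h (hfree (s * r⁻¹) (orderOf_eq_prime (by rw [pow_two, hu2]) fun e => hne (mul_inv_eq_one.1 e))
        (hsg.mul_left ((Commute.refl g).pow_left _).inv_left))
  have hne1 : (χ : G → ℂ) ≠ fun _ => 1 := by
    intro he
    rw [hx, show Cfsg.charDegree (χ : G → ℂ) = 1 by simp [Cfsg.charDegree, he]] at hx2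
    norm_num at hx2
  have hzero : ∑ g : G, (χ : G → ℂ) g = 0 := by
    have h0 := Chars.classInner_irr_of_ne χ.2 (Blocks.oneChar G).2 hne1
    rw [Chars.classInner_def] at h0
    simpa [Blocks.coe_oneChar] using h0
  have hsum : ∑ g : G, (χ : G → ℂ) (g * g) = (I.card : ℂ) * x := by
    rw [← Finset.sum_fiberwise Finset.univ (fun s => s * s) (fun s => (χ : G → ℂ) (s * s)),
      Finset.sum_congr rfl (g := fun g => (χ : G → ℂ) g + if g = 1 then (I.card : ℂ) * x else 0) (fun g _ => ?_),
      Finset.sum_add_distrib, hzero, Finset.sum_ite_eq', if_pos (Finset.mem_univ _), zero_add]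
    rw [Finset.sum_congr rfl (g := fun _ => (χ : G → ℂ) g) (fun s hs => by rw [(Finset.mem_filter.1 hs).2]),
      Finset.sum_const, nsmul_eq_mul]
    by_cases hg : (χ : G → ℂ) g = 0
    · rw [hg, mul_zero, if_neg, add_zero]
      rintro rfl
      rw [h1] at hg
      exact hxpos.ne' (by exact_mod_cast hg)
    · rw [hroot g hg]
      split_ifs with h
      · subst h; rw [h1]; ring
      · ring
  obtain ⟨s₀, hs₀⟩ := exists_prime_orderOf_dvd_card' (G := G) 2 (even_iff_two_dvd.1 heven)
  have hIpos : 0 < I.card := Finset.card_pos.2 ⟨s₀, Finset.mem_filter.2 ⟨Finset.mem_univ _, hs₀⟩⟩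
  have hS : ∑ g : G, (χ : G → ℂ) (g * g) ≠ 0 := by
    rw [hsum]
    exact mul_ne_zero (Nat.cast_ne_zero.2 hIpos.ne') (Nat.cast_ne_zero.2 hxpos.ne')
  have hind : (Nat.card G : ℂ)⁻¹ * ∑ g : G, (χ : G → ℂ) (g * g) = 1 := by
    refine (DegreeGraph.indicator_of_real χ.2 (DegreeGraph.real_of_indicator_ne_zero χ.2 hS)).resolve_right fun h' => ?_
    rw [hsum, inv_mul_eq_iff_eq_mul₀ (Nat.cast_ne_zero.2 Nat.card_pos.ne')] at h'
    have : ((I.card * x + Nat.card G : ℕ) : ℂ) = 0 := by push_cast; rw [h']; ring
    rw [Nat.cast_eq_zero] at this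
    have := Nat.card_pos (α := G)
    omega
  have hNx : I.card * x = Nat.card G := by
    have h' := hind
    rw [hsum, inv_mul_eq_iff_eq_mul₀ (Nat.cast_ne_zero.2 Nat.card_pos.ne'), mul_one] at h'
    exact_mod_cast h'
  have hcl : ∀ s : G, orderOf s = 2 → (∀ t, orderOf t = 2 → IsConj s t) ∧
      Nat.card (Subgroup.centralizer ({s} : Set G)) = x := by
    intro s hs
    set K := Finset.univ.image fun k : G => k * s * k⁻¹ with hK
    have hKI : K ⊆ I := by
      intro v hv
      obtain ⟨k, -, rfl⟩ := Finset.mem_image.1 hv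
      exact Finset.mem_filter.2 ⟨Finset.mem_univ _, ((MulAut.conj k).orderOf_eq s).trans hs⟩
    have hKc : K.card * Nat.card (Subgroup.centralizer ({s} : Set G)) = Nat.card G := by
      rw [Nat.card_eq_fintype_card (α := G), ← Finset.card_univ,
        Finset.card_eq_sum_card_image (fun k : G => k * s * k⁻¹) Finset.univ, Finset.sum_const_nat]
      intro v hv
      obtain ⟨k₀, -, rfl⟩ := Finset.mem_image.1 hv
      rw [Nat.card_eq_fintype_card, Fintype.card_subtype]
      refine Finset.card_bij' (fun k _ => k₀⁻¹ * k) (fun w _ => k₀ * w) ?_ ?_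
        (fun k _ => mul_inv_cancel_left k₀ k) (fun w _ => inv_mul_cancel_left k₀ w)
      · intro k hk
        simp only [Finset.mem_filter, Finset.mem_univ, true_and] at hk ⊢
        refine Subgroup.mem_centralizer_singleton_iff.2 ?_
        calc k₀⁻¹ * k * s = k₀⁻¹ * (k * s * k⁻¹) * k := by group
          _ = s * (k₀⁻¹ * k) := by rw [hk]; group
      · intro w hw
        simp only [Finset.mem_filter, Finset.mem_univ, true_and] at hw ⊢
        have := Subgroup.mem_centralizer_singleton_iff.1 hw
        calc k₀ * w * s * (k₀ * w)⁻¹ = k₀ * (w * s) * w⁻¹ * k₀⁻¹ := by group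
          _ = k₀ * s * k₀⁻¹ := by rw [this]; group
    set c := Nat.card (Subgroup.centralizer ({s} : Set G))
    have hcx : c ≤ x := Nat.le_of_dvd hxpos (hCdvd s hs)
    have hle : K.card ≤ I.card := Finset.card_le_card hKI
    have hKeq : K.card = I.card := by
      refine le_antisymm hle ?_
      by_contra hlt
      have : K.card * c < I.card * x := by
        calc K.card * c ≤ K.card * x := Nat.mul_le_mul_left _ hcx
          _ < I.card * x := Nat.mul_lt_mul_of_pos_right (not_le.1 hlt) hxpos
      omega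
    refine ⟨fun t ht => ?_, ?_⟩
    · have : t ∈ K := by
        rw [Finset.eq_of_subset_of_card_le hKI hKeq.ge]; exact Finset.mem_filter.2 ⟨Finset.mem_univ _, ht⟩
      obtain ⟨k, -, hk⟩ := Finset.mem_image.1 this
      exact isConj_iff.2 ⟨k, hk⟩
    · rw [hKeq, ← hNx] at hKc
      exact Nat.eq_of_mul_eq_mul_left hIpos hKc
  refine ⟨fun s t hs ht => (hcl s hs).1 t ht, fun s hs => ⟨(hcl s hs).2, ?_⟩, hind⟩
  refine Nat.coprime_of_dvd fun q hq hqc hqi => ?_
  have hfull := hC s hs q hq hqc
  rw [← (hcl s hs).2] at hfull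
  refine Nat.pow_succ_factorization_not_dvd (Nat.card_pos (α := G)).ne' hq ?_
  rw [pow_succ]
  exact (Nat.mul_dvd_mul hfull hqi).trans (dvd_of_eq (Subgroup.card_mul_index _))

end Cfsg.Agent.S4478
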