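import Cfsg.Statements.S4479
import Cfsg.Agent.Screen.KleinOrder
-- import your own Cfsg.Agent.* helpers here

set_option autoImplicit false
open Cfsg

namespace Cfsg.Agent.S4479

/-- An order formula from the principal 2-block. Let G be a finite group of order 4·g₀ with g₀ odd having no normal 2-complement (no normal subgroup of order g₀); let P be a Sylow 2-subgroup, J an involution of P, and fix a maximal ideal M of the algebraic integers containing 2. Suppose the principal 2-block consists of the principal character and three further distinct characters χ₁, χ₂, χ₃ of degrees x₁, x₂, x₃, with χ_i(J) = ε_i = ±1. Then, writing c(J) and c(P) for the orders of the centralizers of J and of P, the order of G equals 8·α·c(J)³/c(P)² with α = x₁x₂x₃ / ((x₁ + ε₁)(x₂ + ε₂)(x₃ + ε₃)). -/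
theorem result {G : Type*} [Group G] [Finite G] (M : Ideal Cfsg.AlgInt) (hM : Cfsg.IsPModular 2 M) (g₀ : ℕ) (hg₀ : Odd g₀) (hG : Nat.card G = 4 * g₀) (hnc : ¬ ∃ N : Subgroup G, N.Normal ∧ Nat.card N = g₀) (P : Sylow 2 G) (J : G) (hJ : J ∈ (P : Subgroup G)) (hJ2 : orderOf J = 2) (χ₁ χ₂ χ₃ : Cfsg.IrrCharacter G) (ε₁ ε₂ ε₃ : ℤ) (hB : Cfsg.principalBlock M G = {χ : Cfsg.IrrCharacter G | (χ : G → ℂ) = (fun _ => 1) ∨ χ = χ₁ ∨ χ = χ₂ ∨ χ = χ₃}) (hdist : (χ₁ : G → ℂ) ≠ (fun _ => 1) ∧ (χ₂ : G → ℂ) ≠ (fun _ => 1) ∧ (χ₃ : G → ℂ) ≠ (fun _ => 1) ∧ χ₁ ≠ χ₂ ∧ χ₁ ≠ χ₃ ∧ χ₂ ≠ χ₃) (hε : (ε₁ = 1 ∨ ε₁ = -1) ∧ (ε₂ = 1 ∨ ε₂ = -1) ∧ (ε₃ = 1 ∨ ε₃ = -1)) (hval : (χ₁ : G → ℂ) J = ε₁ ∧ (χ₂ : G → ℂ) J = ε₂ ∧ (χ₃ : G → ℂ) J = ε₃) : (Nat.card G : ℚ) = 8 * (((Cfsg.charDegree (χ₁ : G → ℂ) : ℚ) * Cfsg.charDegree (χ₂ : G → ℂ) * Cfsg.charDegree (χ₃ : G → ℂ)) / ((Cfsg.charDegree (χ₁ : G → ℂ) + ε₁)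 * (Cfsg.charDegree (χ₂ : G → ℂ) + ε₂) * (Cfsg.charDegree (χ₃ : G → ℂ) + ε₃))) * (Nat.card (Subgroup.centralizer ({J} : Set G)) : ℚ) ^ 3 / (Nat.card (Subgroup.centralizer ((P : Subgroup G) : Set G)) : ℚ) ^ 2 := by
  classical
  haveI := Fintype.ofFinite G
  haveI := hM.2.1
  haveI : Fact (Nat.Prime 2) := ⟨Nat.prime_two⟩
  have hP : Nat.card P = 4 := by
    rw [Sylow.card_eq_multiplicity, hG, Nat.factorization_mul (by norm_num) (fun h => by simp [h] at hg₀),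
      Finsupp.add_apply, show (4 : ℕ) = 2 ^ 2 by norm_num, Nat.Prime.factorization_pow Nat.prime_two,
      Finsupp.single_eq_same, Nat.factorization_eq_zero_of_not_dvd (by rw [Nat.odd_iff] at hg₀; omega)]
  obtain ⟨hexp, hone⟩ := Screen.KleinOrder.exp_and_one P hP (fun ⟨N, hN, hc⟩ => hnc ⟨N, hN, by omega⟩)
  obtain ⟨id1, id2, id3, hodd⟩ := Screen.KleinOrder.identities (M := M) hM.2.2 P hP hexp hone hJ hJ2
  set one := Blocks.oneChar G with hone'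
  have hne : one ≠ χ₁ ∧ one ≠ χ₂ ∧ one ≠ χ₃ := by
    refine ⟨fun h => hdist.1 ?_, fun h => hdist.2.1 ?_, fun h => hdist.2.2.1 ?_⟩ <;> rw [← h] <;> rfl
  have hS : Screen.KleinOrder.blockFinset (G := G) M = {one, χ₁, χ₂, χ₃} := by
    ext χ
    rw [Screen.KleinOrder.mem_blockFinset, hB, Set.mem_ofPred_eq]
    simp only [Finset.mem_insert, Finset.mem_singleton]
    exact or_congr ⟨fun h => Subtype.ext h, fun h => by rw [h]; rfl⟩ Iff.rfl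
  have hsplit : ∀ F : Cfsg.IrrCharacter G → ℂ,
      ∑ χ ∈ Screen.KleinOrder.blockFinset (G := G) M, F χ = F one + F χ₁ + F χ₂ + F χ₃ := by
    intro F
    rw [hS, Finset.sum_insert (by simp [hne.1, hne.2.1, hne.2.2]),
      Finset.sum_insert (by simp [hdist.2.2.2.1, hdist.2.2.2.2.1]), Finset.sum_insert (by simp [hdist.2.2.2.2.2]),
      Finset.sum_singleton]
    ring
  rw [hsplit, hval.1, hval.2.1, hval.2.2] at id1 id2
  obtain ⟨ea, la⟩ := Blocks.charDegree_eq χ₁.2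
  obtain ⟨eb, lb⟩ := Blocks.charDegree_eq χ₂.2
  obtain ⟨ec, lc⟩ := Blocks.charDegree_eq χ₃.2
  simp only [show ∀ g : G, (one : G → ℂ) g = 1 from fun g => rfl, ea, eb, ec, div_one, one_mul] at id1 id2
  set a := Cfsg.charDegree (χ₁ : G → ℂ) with hadef
  set b := Cfsg.charDegree (χ₂ : G → ℂ) with hbdef
  set c := Cfsg.charDegree (χ₃ : G → ℂ) with hcdef
  set cp := Nat.card (Subgroup.centralizer ((P : Subgroup G) : Set G)) with hcp
  set cj := Nat.card (Subgroup.centralizer ({J} : Set G)) with hcj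
  have ha0 : (a : ℂ) ≠ 0 := Nat.cast_ne_zero.2 la.ne'
  have hb0 : (b : ℂ) ≠ 0 := Nat.cast_ne_zero.2 lb.ne'
  have hc0 : (c : ℂ) ≠ 0 := Nat.cast_ne_zero.2 lc.ne'
  have hp0 : (cp : ℂ) ≠ 0 := Nat.cast_ne_zero.2 Nat.card_pos.ne'
  have hj0 : (cj : ℂ) ≠ 0 := Nat.cast_ne_zero.2 Nat.card_pos.ne'
  have e1 : (ε₁ : ℂ) * ε₁ = 1 := by rcases hε.1 with h | h <;> simp [h]
  have e2 : (ε₂ : ℂ) * ε₂ = 1 := by rcases hε.2.1 with h | h <;> simp [h]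
  have e3 : (ε₃ : ℂ) * ε₃ = 1 := by rcases hε.2.2 with h | h <;> simp [h]
  field_simp at id1
  set D := ((a : ℂ) + ε₁) * ((b : ℂ) + ε₂) * ((c : ℂ) + ε₃) with hD
  have hkey : (cp : ℂ) ^ 2 * (Nat.card G : ℂ) * D = 8 * (cj : ℂ) ^ 3 * ((a : ℂ) * b * c) := by
    rw [hD]
    linear_combination id1 + (cp : ℂ) ^ 2 * (Nat.card G : ℂ) * ((ε₁ : ℂ) * ε₂ * ε₃ * id2 - (a : ℂ) * ε₂ * ε₃ * e1
      - (b : ℂ) * ε₁ * ε₃ * e2 - (c : ℂ) * ε₁ * ε₂ * e3)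
  have hD0 : D ≠ 0 := fun h => by
    rw [h, mul_zero] at hkey
    exact mul_ne_zero (mul_ne_zero (by norm_num) (pow_ne_zero 3 hj0)) (mul_ne_zero (mul_ne_zero ha0 hb0) hc0) hkey.symm
  refine Rat.cast_injective (α := ℂ) ?_
  push_cast
  rw [← hD]
  field_simp
  linear_combination hkey


end Cfsg.Agent.S4479
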