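import Cfsg.Statements.S4480
import Cfsg.Agent.Screen.KleinOrder
-- import your own Cfsg.Agent.* helpers here

set_option autoImplicit false
open Cfsg

namespace Cfsg.Agent.S4480

/-- Same setting as the Klein-four order formula: G of order 4·g₀ (g₀ odd) with no normal 2-complement, P a Sylow 2-subgroup, J an involution of P, M over 2, principal 2-block {1, χ₁, χ₂, χ₃} with χ_i(J) = ε_i = ±1. Suppose ε₁ε₂ε₃ = −1 and ε₃ = −1, and put q = x₃ = χ₃(1). Then there is a natural number m with 4·c(J) = m·c(P)·(q + 1), and the order of G equals (m³·c(P)/4)·(q³ − q)/2, that is 8·#G = m³·c(P)·(q³ − q). -/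
theorem result {G : Type*} [Group G] [Finite G] (M : Ideal Cfsg.AlgInt) (hM : Cfsg.IsPModular 2 M) (g₀ : ℕ) (hg₀ : Odd g₀) (hG : Nat.card G = 4 * g₀) (hnc : ¬ ∃ N : Subgroup G, N.Normal ∧ Nat.card N = g₀) (P : Sylow 2 G) (J : G) (hJ : J ∈ (P : Subgroup G)) (hJ2 : orderOf J = 2) (χ₁ χ₂ χ₃ : Cfsg.IrrCharacter G) (ε₁ ε₂ ε₃ : ℤ) (hB : Cfsg.principalBlock M G = {χ : Cfsg.IrrCharacter G | (χ : G → ℂ) = (fun _ => 1) ∨ χ = χ₁ ∨ χ = χ₂ ∨ χ = χ₃}) (hdist : (χ₁ : G → ℂ) ≠ (fun _ => 1) ∧ (χ₂ : G → ℂ) ≠ (fun _ => 1) ∧ (χ₃ : G → ℂ) ≠ (fun _ => 1) ∧ χ₁ ≠ χ₂ ∧ χ₁ ≠ χ₃ ∧ χ₂ ≠ χ₃) (hε : (ε₁ = 1 ∨ ε₁ = -1) ∧ (ε₂ = 1 ∨ ε₂ = -1) ∧ (ε₃ = 1 ∨ ε₃ = -1)) (hval : (χ₁ : G → ℂ) J = ε₁ ∧ (χ₂ : G → ℂ) J = ε₂ ∧ (χ₃ : G → ℂ) J = ε₃) (hprod : ε₁ * ε₂ * ε₃ = -1) (hε₃ : ε₃ = -1) : ∃ m : ℕ, 4 * Nat.card (Subgroup.centralizer ({J} : Set G)) = m * Nat.card (Subgroup.centralizer ((P : Subgroup G) : Set G)) * (Cfsg.charDegree (χ₃ : G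 → ℂ) + 1) ∧ 8 * Nat.card G = m ^ 3 * Nat.card (Subgroup.centralizer ((P : Subgroup G) : Set G)) * (Cfsg.charDegree (χ₃ : G → ℂ) ^ 3 - Cfsg.charDegree (χ₃ : G → ℂ)) := by
  classical
  haveI := Fintype.ofFinite G
  haveI := hM.2.1
  haveI : Fact (Nat.Prime 2) := ⟨Nat.prime_two⟩
  have hP : Nat.card P = 4 := by
    rw [Sylow.card_eq_multiplicity, hG, Nat.factorization_mul (by norm_num) (fun h => by simp [h] at hg₀),
      Finsupp.add_apply, show (4 : ℕ) = 2 ^ 2 by norm_num, Nat.Prime.factorization_pow Nat.prime_two,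
      Finsupp.single_eq_same, Nat.factorization_eq_zero_of_not_dvd (by rw [Nat.odd_iff] at hg₀; omega)]
  obtain ⟨hexp, hone⟩ := Screen.KleinOrder.exp_and_one P hP (fun ⟨N, hN, hc⟩ => hnc ⟨N, hN, by omega⟩)
  obtain ⟨id1, id2, id3, hodd⟩ := Screen.KleinOrder.identities (M := M) hM.2.2 P hP hexp hone hJ hJ2
  set one := Blocks.oneChar G with hone'
  have hne : one ≠ χ₁ ∧ one ≠ χ₂ ∧ one ≠ χ₃ := by
    refine ⟨fun h => hdist.1 ?_, fun h => hdist.2.1 ?_, fun h => hdist.2.2.1 ?_⟩ <;> rw [← h] <;> rfl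
  have hS : Screen.KleinOrder.blockFinset (G := G) M = {one, χ₁, χ₂, χ₃} := by
    ext χ
    rw [Screen.KleinOrder.mem_blockFinset, hB, Set.mem_ofPred_eq]
    simp only [Finset.mem_insert, Finset.mem_singleton]
    exact or_congr ⟨fun h => Subtype.ext h, fun h => by rw [h]; rfl⟩ Iff.rfl
  have hsplit : ∀ F : Cfsg.IrrCharacter G → ℂ,
      ∑ χ ∈ Screen.KleinOrder.blockFinset (G := G) M, F χ = F one + F χ₁ + F χ₂ + F χ₃ := by
    intro F
    rw [hS, Finset.sum_insert (by simp [hne.1, hne.2.1, hne.2.2]),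
      Finset.sum_insert (by simp [hdist.2.2.2.1, hdist.2.2.2.2.1]), Finset.sum_insert (by simp [hdist.2.2.2.2.2]),
      Finset.sum_singleton]
    ring
  rw [hsplit, hval.1, hval.2.1, hval.2.2] at id1 id2
  obtain ⟨ea, la⟩ := Blocks.charDegree_eq χ₁.2
  obtain ⟨eb, lb⟩ := Blocks.charDegree_eq χ₂.2
  obtain ⟨ec, lc⟩ := Blocks.charDegree_eq χ₃.2
  simp only [show ∀ g : G, (one : G → ℂ) g = 1 from fun g => rfl, ea, eb, ec, div_one, one_mul] at id1 id2
  set a := Cfsg.charDegree (χ₁ : G → ℂ) with hadef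
  set b := Cfsg.charDegree (χ₂ : G → ℂ) with hbdef
  set c := Cfsg.charDegree (χ₃ : G → ℂ) with hcdef
  set cp := Nat.card (Subgroup.centralizer ((P : Subgroup G) : Set G)) with hcp
  set cj := Nat.card (Subgroup.centralizer ({J} : Set G)) with hcj
  have ha0 : (a : ℂ) ≠ 0 := Nat.cast_ne_zero.2 la.ne'
  have hb0 : (b : ℂ) ≠ 0 := Nat.cast_ne_zero.2 lb.ne'
  have hc0 : (c : ℂ) ≠ 0 := Nat.cast_ne_zero.2 lc.ne'
  have hp0 : (cp : ℂ) ≠ 0 := Nat.cast_ne_zero.2 Nat.card_pos.ne'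
  have hj0 : (cj : ℂ) ≠ 0 := Nat.cast_ne_zero.2 Nat.card_pos.ne'
  subst hε₃
  obtain ⟨rfl, rfl⟩ : ε₁ = 1 ∧ ε₂ = 1 := by
    rcases hε.1 with h1 | h1 <;> rcases hε.2.1 with h2 | h2 <;> rw [h1, h2] at hprod <;>
      first
        | exact ⟨h1, h2⟩
        | (norm_num at hprod; done)
        | skip
    exfalso
    rw [h1, h2] at id2
    push_cast at id2
    have h : ((1 : ℕ) : ℂ) = ((a + b + c : ℕ) : ℂ) := by push_cast; linear_combination id2
    have := Nat.cast_injective h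
    omega
  push_cast at id1 id2
  have hdeg : c = a + b + 1 := by
    refine Nat.cast_injective (R := ℂ) ?_
    push_cast
    linear_combination -id2
  -- indicators: the two characters with sign `+` are complex conjugates
  have hmem : ∀ χ, χ ∈ Screen.KleinOrder.blockFinset (G := G) M ↔ χ ∈ Cfsg.principalBlock M G :=
    fun χ => Screen.KleinOrder.mem_blockFinset
  set ν := fun χ : Cfsg.IrrCharacter G => (Nat.card G : ℂ)⁻¹ * ∑ g : G, (χ : G → ℂ) (g * g) with hνdef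
  have hν : ∀ χ ∈ Screen.KleinOrder.blockFinset (G := G) M, ((∀ g, ((χ : G → ℂ) g).im = 0) ∧ ν χ = 1) ∨
      ((¬ ∀ g, ((χ : G → ℂ) g).im = 0) ∧ ν χ = 0) := by
    intro χ hχ
    by_cases hr : ∀ g, ((χ : G → ℂ) g).im = 0
    · exact Or.inl ⟨hr, Chars2.indicator_eq_one_of_odd χ.2 hr (Blocks.charDegree_eq χ.2).1 (hodd χ ((hmem χ).1 hχ))⟩
    · refine Or.inr ⟨hr, ?_⟩
      by_contra h0
      refine hr fun g => Complex.conj_eq_iff_im.1 (congrFun (DegreeGraph.real_of_indicator_ne_zero χ.2 fun h => ?_) g)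
      exact h0 (by simp only [hνdef]; rw [h, mul_zero])
  have h1S : χ₁ ∈ Screen.KleinOrder.blockFinset (G := G) M := by rw [hS]; simp
  have h2S : χ₂ ∈ Screen.KleinOrder.blockFinset (G := G) M := by rw [hS]; simp
  have h3S : χ₃ ∈ Screen.KleinOrder.blockFinset (G := G) M := by rw [hS]; simp
  have hν1 : ν one = 1 := by
    simp only [hνdef, show ∀ g : G, (one : G → ℂ) g = 1 from fun g => rfl, Finset.sum_const, Finset.card_univ,
      nsmul_eq_mul, mul_one, Nat.card_eq_fintype_card]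
    rw [inv_mul_cancel₀ (Nat.cast_ne_zero.2 Fintype.card_ne_zero)]
  rw [hsplit, hval.1, hval.2.1, hval.2.2] at id3
  simp only [show (one : G → ℂ) J = 1 from rfl, one_mul] at id3
  change ν one + ((1 : ℤ) : ℂ) * ν χ₁ + ((1 : ℤ) : ℂ) * ν χ₂ + ((-1 : ℤ) : ℂ) * ν χ₃ = 0 at id3
  rw [hν1] at id3
  push_cast at id3
  have hnr : ¬ ∀ g, ((χ₁ : G → ℂ) g).im = 0 := by
    intro hr
    rcases hν χ₁ h1S with ⟨-, h1⟩ | ⟨h1, -⟩
    swap
    · exact h1 hr
    rw [h1] at id3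
    rcases hν χ₂ h2S with ⟨-, h2⟩ | ⟨-, h2⟩ <;> rcases hν χ₃ h3S with ⟨-, h3⟩ | ⟨-, h3⟩ <;>
      rw [h2, h3] at id3 <;> norm_num at id3
  let χb : Cfsg.IrrCharacter G := ⟨_, Chars.isIrrCharacter_star χ₁.2⟩
  have hbJ : (χb : G → ℂ) J = 1 := by
    show (starRingEnd ℂ) ((χ₁ : G → ℂ) J) = 1
    rw [hval.1]; simp
  have hbS : χb ∈ Screen.KleinOrder.blockFinset (G := G) M :=
    (hmem _).2 (Blocks.star_mem_principal ((hmem _).1 h1S))
  rw [hS] at hbS
  simp only [Finset.mem_insert, Finset.mem_singleton] at hbS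
  have hab : a = b := by
    rcases hbS with h | h | h | h
    · refine absurd (funext fun g => ?_) hdist.1
      have := congrFun (congrArg Subtype.val h) g
      change (starRingEnd ℂ) ((χ₁ : G → ℂ) g) = 1 at this
      rw [← Complex.conj_conj ((χ₁ : G → ℂ) g), this, map_one]
    · exact absurd (fun g => Complex.conj_eq_iff_im.1 (congrFun (congrArg Subtype.val h) g)) hnr
    · refine Nat.cast_injective (R := ℂ) ?_
      have := congrFun (congrArg Subtype.val h) 1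
      change (starRingEnd ℂ) ((χ₁ : G → ℂ) 1) = (χ₂ : G → ℂ) 1 at this
      rw [ea, eb, Complex.conj_natCast] at this
      exact this
    · rw [h, hval.2.2] at hbJ
      norm_num at hbJ
  -- arithmetic
  field_simp at id1
  have hkeyC : (cp : ℂ) ^ 2 * (Nat.card G : ℂ) * ((a : ℂ) + 1) ^ 2 = 4 * (cj : ℂ) ^ 3 * ((a : ℂ) * c) := by
    rw [hdeg, ← hab] at id1
    push_cast at id1
    rw [hdeg, ← hab]
    push_cast
    refine mul_left_cancel₀ (mul_ne_zero (two_ne_zero) ha0) ?_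
    linear_combination id1
  have hkey : cp ^ 2 * Nat.card G * (a + 1) ^ 2 = 4 * cj ^ 3 * (a * c) := by exact_mod_cast hkeyC
  obtain ⟨r, hr⟩ : cp ∣ cj := Subgroup.card_dvd_of_le (Subgroup.centralizer_le (Set.singleton_subset_iff.2 hJ))
  obtain ⟨k, hk⟩ : cj ∣ Nat.card G := Subgroup.card_subgroup_dvd_card _
  have hpp : 0 < cp := Nat.card_pos
  have hr0 : 0 < r := by
    have : 0 < cj := Nat.card_pos
    rw [hr] at this
    exact Nat.pos_of_mul_pos_left this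
  have hk2 : k * (a + 1) ^ 2 = (2 * r) ^ 2 * (a * c) := by
    rw [hk, hr] at hkey
    refine Nat.eq_of_mul_eq_mul_left (show 0 < cp ^ 3 * r by positivity) ?_
    linear_combination hkey
  have hcop : ((a + 1) ^ 2).Coprime (a * c) := by
    refine Nat.Coprime.pow_left 2 (Nat.Coprime.mul_right (by simp) ?_)
    rw [hdeg, ← hab, Nat.add_right_comm, Nat.coprime_self_add_right]
    simp
  obtain ⟨m, hm⟩ : a + 1 ∣ 2 * r :=
    (Nat.pow_dvd_pow_iff two_ne_zero).1 (hcop.dvd_of_dvd_mul_right ⟨k, by rw [← hk2, mul_comm]⟩)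
  have hkm : k = m ^ 2 * (a * c) := by
    rw [hm] at hk2
    refine Nat.eq_of_mul_eq_mul_right (show 0 < (a + 1) ^ 2 by positivity) ?_
    linear_combination hk2
  refine ⟨m, ?_, ?_⟩
  · show 4 * cj = m * cp * (c + 1)
    rw [hr, hdeg, ← hab]
    linear_combination 2 * cp * hm
  · show 8 * Nat.card G = m ^ 3 * cp * (c ^ 3 - c)
    have hc3 : c ^ 3 - c = 4 * c * a * (a + 1) := by
      have : c ^ 3 = 4 * c * a * (a + 1) + c := by rw [hdeg, ← hab]; ring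
      omega
    rw [hc3, hk, hr, hkm]
    linear_combination 4 * cp * m ^ 2 * (a * c) * hm


end Cfsg.Agent.S4480
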