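import Cfsg.Statements.S4481
import Cfsg.Agent.Screen.DihedralBlock

set_option autoImplicit false
open Cfsg

namespace Cfsg.Agent.S4481

/-- The principal 2-block of a group with dihedral Sylow 2-subgroups. Let G be a finite group whose Sylow 2-subgroup P is dihedral of order 2^n ≥ 8, let σ be an element of P of order 2^(n−1), ζ a primitive 2^(n−1)-th root of unity, and M a maximal ideal of the algebraic integers containing 2. Then the principal 2-block consists of exactly 3 + 2^(n−2) irreducible characters, which can be labelled 1, χ₁, χ₂, χ₃ and χ^(j) for 1 ≤ j ≤ 2^(n−2) − 1 (all distinct), with signs δ₁, δ₂, δ₃ such that for 0 < λ < 2^(n−1): χ₁(σ^λ) = δ₁, χ₂(σ^λ) = δ₂(−1)^(λ+1), χ₃(σ^λ) = δ₃(−1)^(λ+1) and χ^(j)(σ^λ) = δ₁(ζ^(jλ) + ζ^(−jλ)); and for every element ρ of odd order and every j: 1 + δ₁χ₁(ρ) = −δ₂χ₂(ρ) − δ₃χ₃(ρ) = δ₁χ^(j)(ρ). -/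
theorem result {G : Type*} [Group G] [Finite G] (M : Ideal Cfsg.AlgInt) (hM : Cfsg.IsPModular 2 M) (n : ℕ) (hn : 3 ≤ n) (P : Sylow 2 G) (hP : Nonempty ((P : Subgroup G) ≃* DihedralGroup (2 ^ (n - 1)))) (σ : G) (hσ : σ ∈ (P : Subgroup G)) (hσo : orderOf σ = 2 ^ (n - 1)) (ζ : ℂ) (hζ : IsPrimitiveRoot ζ (2 ^ (n - 1))) : Nat.card (Cfsg.principalBlock M G) = 3 + 2 ^ (n - 2) ∧ ∃ (χ₁ χ₂ χ₃ : Cfsg.IrrCharacter G) (χ' : Fin (2 ^ (n - 2) - 1) → Cfsg.IrrCharacter G) (δ₁ δ₂ δ₃ : ℤ), (δ₁ = 1 ∨ δ₁ = -1) ∧ (δ₂ = 1 ∨ δ₂ = -1) ∧ (δ₃ = 1 ∨ δ₃ = -1) ∧ Function.Injective χ' ∧ (χ₁ : G → ℂ) ≠ (fun _ => 1) ∧ (χ₂ : G → ℂ) ≠ (fun _ => 1) ∧ (χ₃ : G → ℂ) ≠ (fun _ => 1) ∧ χ₁ ≠ χ₂ ∧ χ₁ ≠ χ₃ ∧ χ₂ ≠ χ₃ ∧ (∀ j, χ' j ≠ χ₁ ∧ χ' j ≠ χ₂ ∧ χ' j ≠ χ₃ ∧ (χ' j : G → ℂ) ≠ (fun _ => 1)) ∧ Cfsg.principalBlock M G = {χ : Cfsg.IrrCharacter G | (χ : G → ℂ) = (fun _ => 1) ∨ χ = χ₁ ∨ χ = χ₂ ∨ χ = χ₃ ∨ ∃ j, χ = χ' j} ∧ (∀ l : ℕ, 0 < l → l < 2 ^ (n - 1) → (χ₁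 : G → ℂ) (σ ^ l) = δ₁ ∧ (χ₂ : G → ℂ) (σ ^ l) = δ₂ * (-1) ^ (l + 1) ∧ (χ₃ : G → ℂ) (σ ^ l) = δ₃ * (-1) ^ (l + 1) ∧ ∀ j : Fin (2 ^ (n - 2) - 1), (χ' j : G → ℂ) (σ ^ l) = δ₁ * (ζ ^ (((j : ℕ) + 1) * l) + (ζ ^ (((j : ℕ) + 1) * l))⁻¹)) ∧ ∀ ρ : G, Odd (orderOf ρ) → ∀ j : Fin (2 ^ (n - 2) - 1), 1 + δ₁ * (χ₁ : G → ℂ) ρ = -δ₂ * (χ₂ : G → ℂ) ρ - δ₃ * (χ₃ : G → ℂ) ρ ∧ 1 + δ₁ * (χ₁ : G → ℂ) ρ = δ₁ * (χ' j : G → ℂ) ρ := by
  classical
  haveI := Fintype.ofFinite G
  haveI := hM.2.1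
  have h2M := hM.2.2
  obtain ⟨e, rfl⟩ : ∃ e, n = e + 2 := ⟨n - 2, by omega⟩
  have hpow : 2 ^ (e + 2 - 1) = 2 * 2 ^ e := by rw [show e + 2 - 1 = e + 1 by omega, pow_succ']
  have hsub : e + 2 - 2 = e := by omega
  have hq' : (2 : ℕ) ^ (e + 2 - 2) = 2 ^ e := by rw [hsub]
  rw [hpow] at hP hσo hζ
  simp only [hpow, hsub]
  obtain ⟨eP⟩ := hP
  obtain ⟨τ, h⟩ := Screen.DihedralBlock.exists_setup eP (by omega) hσ hσo
  set k := 2 ^ e with hkdef
  have hk2 : 2 ≤ k := h.k_two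
  set S := Finset.univ.filter (· ∈ Cfsg.principalBlock M G) with hSdef
  have hroot : ∀ j : ℕ, (ζ ^ j) ^ (2 * k) = 1 := fun j => by
    rw [← pow_mul, mul_comm, pow_mul, hζ.pow_eq_one, one_pow]
  have hζne : ∀ j, 0 < j → j < 2 * k → ζ ^ j ≠ 1 := fun j h0 hj h1 => by
    have := Nat.le_of_dvd h0 ((hζ.pow_eq_one_iff_dvd j).1 h1)
    omega
  choose A hA using fun (j : ℕ) (χ : Cfsg.IrrCharacter G) => Screen.DihedralBlock.coef_int' h (hroot j) χ
  have hqC : ((2 * k : ℕ) : ℂ) ≠ 0 := Nat.cast_ne_zero.2 (by omega)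
  have hgeo : ∀ x : ℂ, x ^ (2 * k) = 1 →
      ∑ l ∈ Finset.range (2 * k), x ^ l = if x = 1 then ((2 * k : ℕ) : ℂ) else 0 :=
    fun x hx => Screen.DihedralBlock.geom hx
  have hone : ∀ j, 0 < j → j < 2 * k → A j (Blocks.oneChar G) = 1 := by
    intro j h0 hj
    have e1 := hA j (Blocks.oneChar G)
    simp only [Screen.DihedralOrder.Setup.coef, Blocks.coe_oneChar, mul_one, Finset.sum_sub_distrib, one_pow,
      Finset.sum_const, Finset.card_range, nsmul_eq_mul, ← hkdef, hgeo _ (hroot j), if_neg (hζne j h0 hj),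
      sub_zero, inv_mul_cancel₀ hqC] at e1
    exact_mod_cast e1.symm
  have hodd : ∀ j ρ, Odd (orderOf ρ) → ∑ χ ∈ S, (A j χ : ℂ) * (χ : G → ℂ) ρ = 0 := by
    intro j ρ hρ
    rw [← h.phiFun_odd (M := M) h2M (ζ ^ j) (g := ρ) (fun h2 => Nat.not_even_iff_odd.2 hρ (even_iff_two_dvd.2 h2))]
    exact Finset.sum_congr rfl fun χ _ => by rw [hA]
  -- the Gram matrix
  have hgram : ∀ i j, 1 ≤ i → i ≤ k → 1 ≤ j → j ≤ k → ∑ χ ∈ S, A i χ * A j χ =
      2 + (if i = j then (1 : ℤ) else 0) + (if i = k ∧ j = k then 1 else 0) := by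
    intro i j hi1 hik hj1 hjk
    refine Int.cast_injective (α := ℂ) ?_
    simp only [Int.cast_sum, Int.cast_mul, Int.cast_add, Int.cast_ofNat, Int.cast_ite, Int.cast_one, Int.cast_zero]
    set X := ζ ^ i with hX
    set Y := ζ ^ j with hY
    have hY0 : Y ≠ 0 := pow_ne_zero _ (hζ.ne_zero (by omega))
    have hX1 : X ≠ 1 := hζne i (by omega) (by omega)
    have hY1 : Y ≠ 1 := hζne j (by omega) (by omega)
    have hXp : X ^ (2 * k) = 1 := hroot i
    have hYp : Y ^ (2 * k) = 1 := hroot j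
    have hYi : (Y⁻¹) ^ (2 * k) = 1 := by rw [inv_pow, hYp, inv_one]
    have step : ∀ χ : Cfsg.IrrCharacter G, (A i χ : ℂ) * (A j χ : ℂ) = ((2 * k : ℕ) : ℂ)⁻¹ *
        ∑ l ∈ Finset.range (2 * k), (1 - X ^ l) * ((A j χ : ℂ) * (χ : G → ℂ) (σ ^ l)) := by
      intro χ
      rw [← hA i χ, Screen.DihedralOrder.Setup.coef, mul_assoc, Finset.sum_mul]
      congr 1
      exact Finset.sum_congr rfl fun l _ => by ring
    rw [Finset.sum_congr rfl fun χ _ => step χ, ← Finset.mul_sum, Finset.sum_comm,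
      Finset.sum_congr rfl (g := fun l => (2 : ℂ) - Y ^ l - (Y⁻¹) ^ l - 2 * X ^ l + (X * Y) ^ l + (X * Y⁻¹) ^ l)
        (fun l hl => ?_)]
    · simp only [Finset.sum_add_distrib, Finset.sum_sub_distrib, Finset.sum_const, Finset.card_range, nsmul_eq_mul,
        ← Finset.mul_sum]
      rw [hgeo Y hYp, hgeo _ hYi, hgeo X hXp, hgeo _ (by rw [mul_pow, hXp, hYp, one_mul]),
        hgeo _ (by rw [mul_pow, hXp, hYi, one_mul]), if_neg hY1, if_neg (by rwa [inv_eq_one]), if_neg hX1]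
      have c1 : X * Y = 1 ↔ (i = k ∧ j = k) := by
        rw [hX, hY, ← pow_add, hζ.pow_eq_one_iff_dvd]
        constructor
        · intro hd
          have := Nat.le_of_dvd (by omega) hd
          omega
        · rintro ⟨rfl, rfl⟩; exact ⟨1, by ring⟩
      have c2 : X * Y⁻¹ = 1 ↔ i = j := by
        rw [mul_inv_eq_one₀ hY0, hX, hY]
        exact ⟨fun hh => hζ.pow_inj (by omega) (by omega) hh, fun hh => by rw [hh]⟩
      simp only [c1, c2]
      split_ifs <;> field_simp <;> ring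
    · rcases Nat.eq_zero_or_pos l with rfl | hl0
      · simp; norm_num
      · have hΦ := Screen.DihedralBlock.phiFun_rot' h (M := M) h2M (hroot j) hl0 (Finset.mem_range.1 hl)
        rw [← Finset.mul_sum, show ∑ χ ∈ S, (A j χ : ℂ) * (χ : G → ℂ) (σ ^ l) = 2 - Y ^ l - (Y⁻¹) ^ l from by
          rw [← hΦ]; exact Finset.sum_congr rfl fun χ _ => by rw [hA]]
        rw [mul_pow, mul_pow]
        ring
  set one := Blocks.oneChar G with honedef
  have honeS : one ∈ S := Finset.mem_filter.2 ⟨Finset.mem_univ _, Blocks.one_mem_principal⟩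
  set T := S.erase one with hT
  have hTgram : ∀ i j, 1 ≤ i → i ≤ k → 1 ≤ j → j ≤ k → ∑ χ ∈ T, A i χ * A j χ =
      1 + (if i = j then (1 : ℤ) else 0) + (if i = k ∧ j = k then 1 else 0) := by
    intro i j hi1 hik hj1 hjk
    have := hgram i j hi1 hik hj1 hjk
    rw [← Finset.add_sum_erase S _ honeS, hone i (by omega) (by omega), hone j (by omega) (by omega)] at this
    linarith
  have hTodd : ∀ j, 1 ≤ j → j ≤ k → ∀ ρ, Odd (orderOf ρ) →
      ∑ χ ∈ T, (A j χ : ℂ) * (χ : G → ℂ) ρ = -1 := by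
    intro j hj1 hjk ρ hρ
    have := hodd j ρ hρ
    rw [← Finset.add_sum_erase S _ honeS, hone j (by omega) (by omega), honedef, Blocks.coe_oneChar] at this
    push_cast at this
    linear_combination this
  have hdeg : ∀ j, 1 ≤ j → j ≤ k → ∑ χ ∈ T, A j χ * (Cfsg.charDegree (χ : G → ℂ) : ℤ) = -1 := by
    intro j hj1 hjk
    refine Int.cast_injective (α := ℂ) ?_
    push_cast
    rw [← hTodd j hj1 hjk 1 (by rw [orderOf_one]; exact odd_one)]
    exact Finset.sum_congr rfl fun χ _ => by rw [(Blocks.charDegree_eq χ.2).1]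
  have hk3 : k ≠ 3 := by
    intro h3
    rcases e with _ | e
    · simp [hkdef] at h3
    · rw [hkdef, pow_succ] at h3; omega
  obtain ⟨α, γ, η, β, δ, c, d, hαT, hγT, hηT, hγη, hαγ, hαη, hδ, hc, hd, hkα, hkγ, hkη, hk0, hβ⟩ :=
    Screen.DihedralBlock.star_structure T (fun χ => (Cfsg.charDegree (χ : G → ℂ) : ℤ))
      (fun χ _ => by exact_mod_cast (Blocks.charDegree_eq χ.2).2) hk2 A hk3
      (fun j hj1 hjk => by rw [hTgram j j hj1 hjk.le hj1 hjk.le, if_pos rfl, if_neg (by omega)]; norm_num)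
      (by rw [hTgram k k (by omega) le_rfl (by omega) le_rfl, if_pos rfl, if_pos ⟨rfl, rfl⟩]; norm_num)
      (fun i j hi1 hik hj1 hjk hij => by rw [hTgram i j hi1 hik.le hj1 hjk, if_neg hij, if_neg (by omega)]; norm_num)
      hdeg
  -- the coefficients beyond `k`
  have hsymm : ∀ j, j ≤ 2 * k → ∀ χ, A (2 * k - j) χ = A j χ := by
    intro j hj χ
    refine Int.cast_injective (α := ℂ) ?_
    rw [← hA, ← hA, pow_sub₀ ζ (hζ.ne_zero (by omega)) hj, hζ.pow_eq_one, one_mul]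
    exact Screen.DihedralBlock.coef_inv h (hroot j) χ
  have hzero : ∀ χ, A 0 χ = 0 := by
    intro χ
    refine Int.cast_injective (α := ℂ) ?_
    rw [← hA, Screen.DihedralOrder.Setup.coef]
    simp
  have hfull : ∀ (χ : Cfsg.IrrCharacter G) (F : ℕ → ℤ), (∀ j, 1 ≤ j → j ≤ k → A j χ = F j) → F 0 = 0 →
      ∀ l, 0 < l → l < 2 * k → (χ : G → ℂ) (σ ^ l) =
        -∑ j ∈ Finset.range (2 * k), (F (if j ≤ k then j else 2 * k - j) : ℂ) * (ζ ^ j) ^ l := by
    intro χ F hF hF0 l hl0 hl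
    rw [Screen.DihedralBlock.inversion h hζ χ hl0 hl]
    refine congrArg Neg.neg (Finset.sum_congr rfl fun j hj => ?_)
    have hj' := Finset.mem_range.1 hj
    rw [hA]
    split
    · rcases Nat.eq_zero_or_pos j with rfl | hj0
      · rw [hzero, hF0]
      · rw [hF j hj0 (by assumption)]
    · rw [← hF (2 * k - j) (by omega) (by omega), hsymm j hj'.le]
  have vα : ∀ l, 0 < l → l < 2 * k → (α : G → ℂ) (σ ^ l) = δ := by
    intro l hl0 hl
    rw [hfull α (fun j => if j = 0 then 0 else δ) (fun j hj1 hjk => by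
      rw [if_neg (by omega)]
      rcases hjk.lt_or_eq with hlt | rfl
      · exact (hβ j hj1 hlt).2.2.2.2.1
      · exact hkα) (if_pos rfl) l hl0 hl]
    rw [Finset.sum_congr rfl (g := fun j => (δ : ℂ) * (ζ ^ l) ^ j - if j = 0 then (δ : ℂ) else 0) (fun j hj => ?_),
      Finset.sum_sub_distrib, ← Finset.mul_sum, hgeo _ (hroot l), if_neg (hζne l hl0 hl), Finset.sum_ite_eq',
      if_pos (Finset.mem_range.2 (by omega))]
    · ring
    · rw [pow_right_comm]
      rcases Nat.eq_zero_or_pos j with rfl | hj0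
      · simp
      · have : (if j ≤ k then j else 2 * k - j) ≠ 0 := by
          have := Finset.mem_range.1 hj
          split <;> omega
        rw [if_neg this, if_neg (by omega), sub_zero]
  have vside : ∀ (χ : Cfsg.IrrCharacter G) (a : ℤ), A k χ = a → (∀ j, 1 ≤ j → j < k → A j χ = 0) →
      ∀ l, 0 < l → l < 2 * k → (χ : G → ℂ) (σ ^ l) = a * (-1) ^ (l + 1) := by
    intro χ a ha hz l hl0 hl
    rw [hfull χ (fun j => if j = k then a else 0) (fun j hj1 hjk => by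
      rcases hjk.lt_or_eq with hlt | rfl
      · rw [if_neg (by omega), hz j hj1 hlt]
      · rw [if_pos rfl, ha]) (if_neg (by omega)) l hl0 hl]
    rw [Finset.sum_eq_single k]
    · have hζk : ζ ^ k = -1 := by
        have h2 : ζ ^ k * ζ ^ k = 1 := by rw [← pow_add, ← two_mul, hζ.pow_eq_one]
        exact (mul_self_eq_one_iff.1 h2).resolve_left (hζne k (by omega) (by omega))
      rw [if_pos le_rfl, if_pos rfl, hζk, pow_succ]
      ring
    · intro j hj hjne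
      have : (if j ≤ k then j else 2 * k - j) ≠ k := by
        have := Finset.mem_range.1 hj
        split <;> omega
      rw [if_neg this]; simp
    · intro hh; exact absurd (Finset.mem_range.2 (by omega)) hh
  have hzA : ∀ χ ∈ T, χ ≠ α → ∀ j, 1 ≤ j → j < k → χ ≠ β j → A j χ = 0 :=
    fun χ hχ hne j hj1 hjk hnb => (hβ j hj1 hjk).2.2.2.2.2.2.1 χ hχ hne hnb
  have vβ : ∀ i, 1 ≤ i → i < k → ∀ l, 0 < l → l < 2 * k →
      (β i : G → ℂ) (σ ^ l) = δ * (ζ ^ (i * l) + (ζ ^ (i * l))⁻¹) := by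
    intro i hi1 hik l hl0 hl
    obtain ⟨hbT, hbα, hbγ, hbη, -, hbb, -, hbinj⟩ := hβ i hi1 hik
    rw [hfull (β i) (fun j => if j = i then -δ else 0) (fun j hj1 hjk => by
      rcases hjk.lt_or_eq with hlt | rfl
      · by_cases hji : j = i
        · rw [if_pos hji, hji, hbb]
        · rw [if_neg hji, hzA _ hbT hbα j hj1 hlt fun e' => hbinj j hj1 hlt hji e'.symm]
      · rw [if_neg (by omega), hk0 _ hbT hbα hbγ hbη]) (if_neg (by omega)) l hl0 hl]
    have hne : i ≠ 2 * k - i := by omega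
    rw [← Finset.sum_subset (s₁ := ({i, 2 * k - i} : Finset ℕ)) (fun j hj => by
        simp only [Finset.mem_insert, Finset.mem_singleton] at hj
        rw [Finset.mem_range]; omega) (fun j hj hnj => by
        simp only [Finset.mem_insert, Finset.mem_singleton, not_or] at hnj
        have : (if j ≤ k then j else 2 * k - j) ≠ i := by
          have := Finset.mem_range.1 hj
          split <;> omega
        rw [if_neg this]; simp),
      Finset.sum_pair hne, if_pos (by omega : i ≤ k), if_pos rfl, if_neg (by omega : ¬ 2 * k - i ≤ k),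
      if_pos (by omega : 2 * k - (2 * k - i) = i), pow_sub₀ ζ (hζ.ne_zero (by omega)) (by omega : i ≤ 2 * k),
      hζ.pow_eq_one, one_mul, inv_pow, ← pow_mul]
    push_cast
    ring
  have hexh : ∀ χ ∈ T, χ ≠ α → χ ≠ γ → χ ≠ η → ∃ i, 1 ≤ i ∧ i < k ∧ χ = β i := by
    intro χ hχ h1 h2 h3
    by_contra hne
    push Not at hne
    refine Screen.DihedralBlock.value_J_ne_zero h h2M (Finset.mem_filter.1 (Finset.mem_of_mem_erase hχ)).2 ?_
    rw [vside χ 0 (hk0 χ hχ h1 h2 h3) (fun j hj1 hjk => hzA χ hχ h1 j hj1 hjk (hne j hj1 hjk)) k (by omega) (by omega)]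
    simp
  let χ' : Fin (k - 1) → Cfsg.IrrCharacter G := fun j => β ((j : ℕ) + 1)
  have hj : ∀ j : Fin (k - 1), 1 ≤ (j : ℕ) + 1 ∧ (j : ℕ) + 1 < k := fun j => ⟨by omega, by have := j.2; omega⟩
  have hinj : Function.Injective χ' := by
    intro a b hab
    by_contra hne
    exact (hβ _ (hj b).1 (hj b).2).2.2.2.2.2.2.2 _ (hj a).1 (hj a).2
      (fun e' => hne (Fin.ext (by omega))) hab
  have hT1 : ∀ χ ∈ T, (χ : G → ℂ) ≠ fun _ => 1 := fun χ hχ he =>
    (Finset.mem_erase.1 hχ).1 (Subtype.ext he)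
  have hTB : ∀ χ ∈ T, χ ∈ Cfsg.principalBlock M G := fun χ hχ =>
    (Finset.mem_filter.1 (Finset.mem_of_mem_erase hχ)).2
  have hset : S = insert one (insert α (insert γ (insert η (Finset.univ.image χ')))) := by
    ext χ
    simp only [Finset.mem_insert, Finset.mem_image, Finset.mem_univ, true_and]
    constructor
    · intro hχ
      by_cases h1 : χ = one
      · exact Or.inl h1
      have hχT : χ ∈ T := Finset.mem_erase.2 ⟨h1, hχ⟩
      by_cases h2 : χ = α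
      · exact Or.inr (Or.inl h2)
      by_cases h3 : χ = γ
      · exact Or.inr (Or.inr (Or.inl h3))
      by_cases h4 : χ = η
      · exact Or.inr (Or.inr (Or.inr (Or.inl h4)))
      obtain ⟨i, hi1, hik, rfl⟩ := hexh χ hχT h2 h3 h4
      exact Or.inr (Or.inr (Or.inr (Or.inr ⟨⟨i - 1, by omega⟩, by
        show β (i - 1 + 1) = β i
        rw [show i - 1 + 1 = i by omega]⟩)))
    · rintro (rfl | rfl | rfl | rfl | ⟨j, rfl⟩)
      exacts [honeS, Finset.mem_of_mem_erase hαT, Finset.mem_of_mem_erase hγT, Finset.mem_of_mem_erase hηT,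
        Finset.mem_of_mem_erase (hβ _ (hj j).1 (hj j).2).1]
  have hcard : S.card = 3 + k := by
    rw [hset, Finset.card_insert_of_notMem, Finset.card_insert_of_notMem, Finset.card_insert_of_notMem,
      Finset.card_insert_of_notMem, Finset.card_image_of_injective _ hinj, Finset.card_univ, Fintype.card_fin]
    · omega
    · simp only [Finset.mem_image, Finset.mem_univ, true_and, not_exists]
      exact fun j => (hβ _ (hj j).1 (hj j).2).2.2.2.1
    · simp only [Finset.mem_insert, Finset.mem_image, Finset.mem_univ, true_and, not_or, not_exists]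
      exact ⟨hγη, fun j => (hβ _ (hj j).1 (hj j).2).2.2.1⟩
    · simp only [Finset.mem_insert, Finset.mem_image, Finset.mem_univ, true_and, not_or, not_exists]
      exact ⟨hαγ, hαη, fun j => (hβ _ (hj j).1 (hj j).2).2.1⟩
    · simp only [Finset.mem_insert, Finset.mem_image, Finset.mem_univ, true_and, not_or, not_exists]
      exact ⟨fun e' => (Finset.mem_erase.1 hαT).1 e'.symm, fun e' => (Finset.mem_erase.1 hγT).1 e'.symm,
        fun e' => (Finset.mem_erase.1 hηT).1 e'.symm,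
        fun j => (Finset.mem_erase.1 (hβ _ (hj j).1 (hj j).2).1).1⟩
  refine ⟨by rw [Nat.card_eq_fintype_card, Fintype.card_subtype, ← hSdef, hcard], α, γ, η, χ', δ, c, d,
    mul_self_eq_one_iff.1 hδ, mul_self_eq_one_iff.1 hc, mul_self_eq_one_iff.1 hd, hinj, hT1 α hαT, hT1 γ hγT,
    hT1 η hηT, hαγ, hαη, hγη, fun j => ⟨(hβ _ (hj j).1 (hj j).2).2.1, (hβ _ (hj j).1 (hj j).2).2.2.1,
      (hβ _ (hj j).1 (hj j).2).2.2.2.1, hT1 _ (hβ _ (hj j).1 (hj j).2).1⟩, ?_, ?_, ?_⟩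
  · ext χ
    have hm : χ ∈ Cfsg.principalBlock M G ↔ χ ∈ S := by simp [hSdef]
    rw [hm, hset, Set.mem_ofPred_eq]
    simp only [Finset.mem_insert, Finset.mem_image, Finset.mem_univ, true_and, eq_comm (a := χ) (b := χ' _)]
    exact or_congr ⟨fun e' => by rw [e']; rfl, fun e' => Subtype.ext e'⟩ Iff.rfl
  · intro l hl0 hl
    exact ⟨vα l hl0 hl,
      vside γ c hkγ (fun j hj1 hjk => hzA γ hγT hαγ.symm j hj1 hjk (hβ j hj1 hjk).2.2.1.symm) l hl0 hl,
      vside η d hkη (fun j hj1 hjk => hzA η hηT hαη.symm j hj1 hjk (hβ j hj1 hjk).2.2.2.1.symm) l hl0 hl,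
      fun j => vβ _ (hj j).1 (hj j).2 l hl0 hl⟩
  · intro ρ hρ j
    have ek : ∑ χ ∈ T, (A k χ : ℂ) * (χ : G → ℂ) ρ = (δ : ℂ) * (α : G → ℂ) ρ + (c : ℂ) * (γ : G → ℂ) ρ +
        (d : ℂ) * (η : G → ℂ) ρ := by
      rw [← Finset.sum_subset (s₁ := ({α, γ, η} : Finset _)) (fun x hx => by
          simp only [Finset.mem_insert, Finset.mem_singleton] at hx
          rcases hx with rfl | rfl | rfl
          exacts [hαT, hγT, hηT]) (fun x hx hnx => by
          simp only [Finset.mem_insert, Finset.mem_singleton, not_or] at hnx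
          rw [hk0 x hx hnx.1 hnx.2.1 hnx.2.2]; simp),
        Finset.sum_insert (by simp [hαγ, hαη]), Finset.sum_pair hγη, hkα, hkγ, hkη, add_assoc]
    obtain ⟨hbT, hbα, -, -, hjα, hjb, hjz, -⟩ := hβ _ (hj j).1 (hj j).2
    have ej : ∑ χ ∈ T, (A ((j : ℕ) + 1) χ : ℂ) * (χ : G → ℂ) ρ = (δ : ℂ) * (α : G → ℂ) ρ -
        (δ : ℂ) * (χ' j : G → ℂ) ρ := by
      rw [← Finset.sum_subset (s₁ := ({α, β ((j : ℕ) + 1)} : Finset _)) (fun x hx => by
          simp only [Finset.mem_insert, Finset.mem_singleton] at hx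
          rcases hx with rfl | rfl
          exacts [hαT, hbT]) (fun x hx hnx => by
          simp only [Finset.mem_insert, Finset.mem_singleton, not_or] at hnx
          rw [hjz x hx hnx.1 hnx.2]; simp),
        Finset.sum_pair hbα.symm, hjα, hjb]
      push_cast
      ring
    rw [hTodd k (by omega) le_rfl ρ hρ] at ek
    rw [hTodd _ (hj j).1 (hj j).2.le ρ hρ] at ej
    exact ⟨by linear_combination -ek, by linear_combination -ej⟩

end Cfsg.Agent.S4481
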