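import Cfsg.Statements.S4482
import Cfsg.Agent.Screen.DihedralOrder
-- import your own Cfsg.Agent.* helpers here

set_option autoImplicit false
open Cfsg

namespace Cfsg.Agent.S4482

/-- An order formula for groups with dihedral Sylow 2-subgroups and one class of involutions. Let G be a finite group whose Sylow 2-subgroup P = ⟨σ, τ⟩ is dihedral of order 2^n ≥ 8 (σ of order 2^(n−1), τ an involution inverting σ), let J be the central involution σ^(2^(n−2)), and suppose J, τ and στ are conjugate in G. Fix M over 2 and let χ₁ be an irreducible character in the principal 2-block taking one constant value δ₁ = ±1 at every non-identity power of σ, with χ₁ ≠ 1. Then, with x₁ = χ₁(1) and c(·) denoting orders of centralizers, x₁ ≠ δ₁ and #G · (x₁ − δ₁)² = 2·x₁(x₁ + δ₁)·c(J)³·(1/c(J, τ) + 1/c(J, στ))², where c(J, y) is the order of the joint centralizer of J and y. -/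
theorem result {G : Type*} [Group G] [Finite G] (M : Ideal Cfsg.AlgInt) (hM : Cfsg.IsPModular 2 M) (n : ℕ) (hn : 3 ≤ n) (P : Sylow 2 G) (σ τ : G) (hσ : σ ∈ (P : Subgroup G)) (hτ : τ ∈ (P : Subgroup G)) (hσo : orderOf σ = 2 ^ (n - 1)) (hτo : orderOf τ = 2) (hrel : τ * σ * τ⁻¹ = σ⁻¹) (hgen : Subgroup.closure ({σ, τ} : Set G) = (P : Subgroup G)) (hconj : IsConj (σ ^ (2 ^ (n - 2))) τ ∧ IsConj (σ ^ (2 ^ (n - 2))) (σ * τ)) (χ₁ : Cfsg.IrrCharacter G) (hχ₁ : χ₁ ∈ Cfsg.principalBlock M G) (h1 : (χ₁ : G → ℂ) ≠ (fun _ => 1)) (δ₁ : ℤ) (hδ₁ : δ₁ = 1 ∨ δ₁ = -1) (hval : ∀ l : ℕ, 0 < l → l < 2 ^ (n - 1) → (χ₁ : G → ℂ) (σ ^ l) = δ₁) : (Cfsg.charDegree (χ₁ : G → ℂ) : ℤ) ≠ δ₁ ∧ (Nat.card G : ℚ) * ((Cfsg.charDegree (χ₁ : G → ℂ) : ℚ) - δ₁) ^ 2 = 2 * (Cfsg.charDegree (χ₁ : G → ℂ) : ℚ) * ((Cfsg.charDegree (χ₁ : G → ℂ) : ℚ) + δ₁) * (Nat.card (Subgroup.centralizer ({σ ^ (2 ^ (n - 2))} : Set G)) : ℚ) ^ 3 * (1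 / (Nat.card (Subgroup.centralizer ({σ ^ (2 ^ (n - 2)), τ} : Set G)) : ℚ) + 1 / (Nat.card (Subgroup.centralizer ({σ ^ (2 ^ (n - 2)), σ * τ} : Set G)) : ℚ)) ^ 2 := by
  classical
  haveI := Fintype.ofFinite G
  haveI := hM.2.1
  haveI : Fact (Nat.Prime 2) := ⟨Nat.prime_two⟩
  obtain ⟨e, rfl⟩ : ∃ e, n = e + 2 := ⟨n - 2, by omega⟩
  rw [show e + 2 - 1 = e + 1 by omega, pow_succ'] at hσo hval
  rw [show e + 2 - 2 = e by omega] at hconj ⊢
  have h : Screen.DihedralOrder.Setup P σ τ e := ⟨by omega, hσ, hτ, hσo, hτo, hrel, hgen⟩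
  refine h.formula hM.2.2 (fun u hu => ?_) hχ₁ h1 hδ₁ hval
  have hQ : IsPGroup 2 (Subgroup.zpowers u) := IsPGroup.of_card (n := 1) (by rw [Nat.card_zpowers, hu, pow_one])
  obtain ⟨T, hT⟩ := hQ.exists_le_sylow
  obtain ⟨c, hc⟩ := MulAction.exists_smul_eq G P T
  have huT : u ∈ ((c • P : Sylow 2 G) : Subgroup G) := hc.symm ▸ hT (Subgroup.mem_zpowers u)
  obtain ⟨p, hp, hpu⟩ := huT
  change c * p * c⁻¹ = u at hpu
  have hpu' : IsConj p u := isConj_iff.2 ⟨c, hpu⟩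
  have hpo : orderOf p = 2 := by
    rw [← hu, ← hpu]; exact (orderOf_injective (MulAut.conj c).toMonoidHom (MulAut.conj c).injective p).symm
  refine IsConj.trans ?_ hpu'
  obtain ⟨i, hi | hi⟩ := h.mem_eq hp
  · have hsq : σ ^ i * σ ^ i = 1 := by rw [← hi, ← pow_two, ← hpo, pow_orderOf_eq_one]
    rcases h.rot_sq hsq with h1' | h1'
    · rw [hi, h1', orderOf_one] at hpo; omega
    · rw [hi, h1']
  · rw [hi]
    rcases Int.even_or_odd i with ⟨j, hj⟩ | ⟨j, hj⟩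
    · refine hconj.1.trans (isConj_iff.2 ⟨σ ^ j, ?_⟩)
      have e1 := h.conj_refl 0 j
      rw [zpow_zero, one_mul] at e1
      rw [e1, show 0 + 2 * j = i by omega]
    · refine hconj.2.trans (isConj_iff.2 ⟨σ ^ j, ?_⟩)
      have e1 := h.conj_refl 1 j
      rw [zpow_one] at e1
      rw [e1, show 1 + 2 * j = i by omega]

end Cfsg.Agent.S4482
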