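import Cfsg.Statements.S4483
import Cfsg.Agent.Blocks.Orth
import Cfsg.Agent.Chars.RegularPart
import Cfsg.Agent.Chars.FixedPoints

set_option autoImplicit false
set_option linter.style.haveILetI false
open Cfsg

namespace Cfsg.Agent.S4483

/-- Let G be a finite group of order 2^n·g₀ with g₀ odd, and M a maximal ideal of the algebraic integers containing 2. Every real-valued irreducible character of G of odd degree lies in the principal 2-block; consequently G has at most 2^(2n) real-valued irreducible characters of odd degree. -/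
theorem result {G : Type*} [Group G] [Finite G] (M : Ideal Cfsg.AlgInt) (hM : Cfsg.IsPModular 2 M) : (∀ χ : Cfsg.IrrCharacter G, (∀ g : G, ((χ : G → ℂ) g).im = 0) → Odd (Cfsg.charDegree (χ : G → ℂ)) → χ ∈ Cfsg.principalBlock M G) ∧ Nat.card {χ : Cfsg.IrrCharacter G // (∀ g : G, ((χ : G → ℂ) g).im = 0) ∧ Odd (Cfsg.charDegree (χ : G → ℂ))} ≤ 2 ^ (2 * (Nat.card G).factorization 2) := by
  classical
  haveI := Fintype.ofFinite G
  haveI : Fact (Nat.Prime 2) := ⟨Nat.prime_two⟩
  haveI : M.IsMaximal := hM.2.1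
  set a := (Nat.card G).factorization 2
  obtain ⟨f, hfdef⟩ : ∃ f : G → ℂ,
      f = Cfsg.Agent.Chars.regularPart 2 ((2 ^ a : ℕ) : ℂ) (fun _ : G => (1 : ℂ)) := ⟨_, rfl⟩
  have hfg : Cfsg.IsGeneralizedCharacter G f :=
    hfdef ▸ Cfsg.Agent.Chars.isGen_regularPart_full Nat.prime_two Cfsg.Agent.Chars.isGen_one
  -- the sum over the odd order elements of a real odd degree character is odd
  have hodd : ∀ χ : Cfsg.IrrCharacter G, (∀ g : G, ((χ : G → ℂ) g).im = 0) →
      Odd (Cfsg.charDegree (χ : G → ℂ)) →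
      ¬ Cfsg.Agent.Chars.CongrP 2
        (∑ g ∈ Finset.univ.filter (fun g : G => ¬ 2 ∣ orderOf g), (χ : G → ℂ) g) 0 := by
    intro χ hreal hd h0
    have hinv : ∀ g : G, (χ : G → ℂ) g⁻¹ = (χ : G → ℂ) g := fun g => by
      rw [Cfsg.Agent.Chars.char_inv_eq_conj (Cfsg.Agent.Chars.irr_isCharacter χ)]
      exact Complex.conj_eq_iff_im.2 (hreal g)
    let A := Subgroup.zpowers (Equiv.inv G : Equiv.Perm G)
    have hsq : (Equiv.inv G : Equiv.Perm G) ^ 2 = 1 := by
      ext g; simp [sq]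
    have hA : IsPGroup 2 A := by
      rintro ⟨_, j, rfl⟩
      exact ⟨1, Subtype.ext (show ((Equiv.inv G : Equiv.Perm G) ^ j) ^ (2 ^ 1) = 1 by
        rw [← zpow_natCast, ← zpow_mul, mul_comm, zpow_mul, zpow_natCast, pow_one, hsq, one_zpow])⟩
    have hmove : ∀ (s : A) (g : G), s • g = g ∨ s • g = g⁻¹ := by
      rintro ⟨_, j, rfl⟩ g
      show ((Equiv.inv G : Equiv.Perm G) ^ j) g = g ∨ ((Equiv.inv G : Equiv.Perm G) ^ j) g = g⁻¹
      obtain ⟨i, rfl | rfl⟩ := Int.even_or_odd' j
      · left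
        rw [zpow_mul, zpow_ofNat, hsq, one_zpow]; rfl
      · right
        rw [zpow_add, zpow_mul, zpow_ofNat, hsq, one_zpow, one_mul, zpow_one]; rfl
    have hkey := Cfsg.Agent.Chars.congrP_sum_fixed Nat.prime_two hA
      (Finset.univ.filter fun g : G => g⁻¹ = g)
      (fun g => by
        simp only [Finset.mem_filter, Finset.mem_univ, true_and]
        constructor
        · intro hg s
          rcases hmove s g with h | h
          · exact h
          · rw [h, hg]
        · intro h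
          exact h ⟨Equiv.inv G, Subgroup.mem_zpowers _⟩)
      (fun g => if 2 ∣ orderOf g then (0 : ℂ) else (χ : G → ℂ) g)
      (fun g => by
        split_ifs
        · exact isIntegral_zero
        · exact Cfsg.Agent.Chars.isIntegral_of_isCharacter (Cfsg.Agent.Chars.irr_isCharacter χ) g)
      (fun s g => by
        rcases hmove s g with h | h
        · rw [h]
        · rw [h, orderOf_inv, hinv])
    have h1 : ∑ g ∈ Finset.univ.filter (fun g : G => g⁻¹ = g),
        (if 2 ∣ orderOf g then (0 : ℂ) else (χ : G → ℂ) g) = (χ : G → ℂ) 1 := by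
      rw [Finset.sum_eq_single (1 : G)]
      · simp
      · intro g hg hg1
        rw [if_pos]
        have h2 : g ^ 2 = 1 := by
          have := (Finset.mem_filter.1 hg).2
          rw [sq]
          nth_rewrite 1 [← this]
          exact inv_mul_cancel g
        rcases (Nat.dvd_prime Nat.prime_two).1 (orderOf_dvd_of_pow_eq_one h2) with h3 | h3
        · exact absurd (orderOf_eq_one_iff.1 h3) hg1
        · rw [h3]
      · simp
    have h2 : ∑ g : G, (if 2 ∣ orderOf g then (0 : ℂ) else (χ : G → ℂ) g) =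
        ∑ g ∈ Finset.univ.filter (fun g : G => ¬ 2 ∣ orderOf g), (χ : G → ℂ) g := by
      rw [Finset.sum_filter]
      exact Finset.sum_congr rfl fun g _ => by by_cases h : 2 ∣ orderOf g <;> simp [h]
    rw [h1, h2, (Cfsg.Agent.Blocks.charDegree_eq χ.2).1] at hkey
    have h3 := Cfsg.Agent.Chars.congrP_trans (Cfsg.Agent.Chars.congrP_symm h0) hkey
    have h4 := (Cfsg.Agent.Chars.congrP_nat Nat.prime_two (a := 0)).1 (by simpa using h3)
    have h5 : 2 ∣ Cfsg.charDegree (χ : G → ℂ) := by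
      simpa [Int.modEq_iff_dvd, Int.natCast_dvd_natCast] using Int.natCast_dvd_natCast.1
        (show ((2 : ℕ) : ℤ) ∣ ((Cfsg.charDegree (χ : G → ℂ) : ℕ) : ℤ) by
          simpa [Int.modEq_iff_dvd] using h4)
    exact (Nat.not_even_iff_odd.2 hd) (even_iff_two_dvd.2 h5)
  constructor
  · intro χ hreal hd
    have hM' : (2 : AlgInt) ∈ M := by exact_mod_cast hM.2.2
    rw [Cfsg.Agent.Blocks.principalBlock_eq]
    by_contra hc
    have hne : ¬ Cfsg.SameBlock M (χ : G → ℂ) ((Cfsg.Agent.Blocks.oneChar G : Cfsg.IrrCharacter G) : G → ℂ) :=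
      fun h => hc (Cfsg.Agent.Blocks.sameBlock_symm h)
    have h0 := Cfsg.Agent.Blocks.regInner_eq_zero (p := 2) hM.2.2 hne
    rw [Cfsg.Agent.Blocks.regInner, mul_eq_zero, inv_eq_zero,
      or_iff_right Cfsg.Agent.Chars.card_ne_zero] at h0
    refine hodd χ hreal hd ?_
    have : ∑ g ∈ Finset.univ.filter (fun g : G => ¬ 2 ∣ orderOf g), (χ : G → ℂ) g = 0 := by
      rw [← h0]
      refine Finset.sum_congr (by ext g; simp [Cfsg.Agent.Blocks.mem_regs]) fun g _ => ?_
      rw [Cfsg.Agent.Blocks.coe_oneChar]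
      simp
    rw [this]
    exact Cfsg.Agent.Chars.congrP_refl 0
  · choose k hk using fun χ : Cfsg.IrrCharacter G => Cfsg.Agent.Chars.exists_classInner_eq_int hfg
      (Cfsg.Agent.Chars.isGen_of_isCharacter (Cfsg.Agent.Chars.irr_isCharacter χ))
    let R : Finset (Cfsg.IrrCharacter G) := Finset.univ.filter fun χ =>
      (∀ g : G, ((χ : G → ℂ) g).im = 0) ∧ Odd (Cfsg.charDegree (χ : G → ℂ))
    have hcard : Nat.card {χ : Cfsg.IrrCharacter G //
        (∀ g : G, ((χ : G → ℂ) g).im = 0) ∧ Odd (Cfsg.charDegree (χ : G → ℂ))} = R.card := by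
      rw [Nat.card_eq_fintype_card, Fintype.card_subtype]
    have hne : ∀ χ ∈ R, k χ ≠ 0 := by
      intro χ hχ hk0
      obtain ⟨hreal, hd⟩ := (Finset.mem_filter.1 hχ).2
      have h := hk χ
      rw [hfdef, Cfsg.Agent.Chars.classInner_regularPart, hk0, Int.cast_zero] at h
      have hp0 : ((2 ^ a : ℕ) : ℂ) ≠ 0 := Nat.cast_ne_zero.2 (pow_ne_zero _ two_ne_zero)
      rw [mul_eq_zero, inv_eq_zero, or_iff_right Cfsg.Agent.Chars.card_ne_zero, mul_eq_zero,
        or_iff_right hp0] at h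
      refine hodd χ hreal hd ?_
      have h1 : ∑ g ∈ Finset.univ.filter (fun g : G => ¬ 2 ∣ orderOf g), (χ : G → ℂ) g = 0 := by
        rw [← h]
        refine Finset.sum_congr rfl fun g _ => ?_
        rw [one_mul]
        exact (Complex.conj_eq_iff_im.2 (hreal g)).symm
      rw [h1]
      exact Cfsg.Agent.Chars.congrP_refl 0
    have hsum : ((∑ χ : Cfsg.IrrCharacter G, k χ * k χ : ℤ) : ℂ) = Cfsg.classInner f f := by
      rw [Cfsg.Agent.Chars.classInner_eq_sum (Cfsg.Agent.Chars.isClassFunction_of_isGen hfg) f]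
      push_cast
      refine Finset.sum_congr rfl fun χ _ => ?_
      rw [← Cfsg.Agent.Chars.classInner_conj_symm f (χ : G → ℂ), hk]
      simp
    have hff : Cfsg.classInner f f = ((2 ^ a : ℕ) : ℂ) * ((2 ^ a : ℕ) : ℂ) *
        ((Finset.univ.filter (fun g : G => ¬ 2 ∣ orderOf g)).card : ℂ) / (Nat.card G : ℂ) := by
      nth_rewrite 1 [hfdef]
      rw [Cfsg.Agent.Chars.classInner_regularPart,
        Finset.sum_congr rfl (g := fun _ => ((2 ^ a : ℕ) : ℂ)) (fun g hg => ?_), Finset.sum_const,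
        nsmul_eq_mul]
      · field_simp
      · have := (Finset.mem_filter.1 hg).2
        simp [hfdef, Cfsg.Agent.Chars.regularPart, this, map_pow, Complex.conj_ofNat]
    have hle : ((∑ χ : Cfsg.IrrCharacter G, k χ * k χ : ℤ) : ℝ) ≤ ((2 ^ a * 2 ^ a : ℕ) : ℝ) := by
      have h := hsum.trans hff
      have h' : ((∑ χ : Cfsg.IrrCharacter G, k χ * k χ : ℤ) : ℝ) = ((2 ^ a : ℕ) : ℝ) * ((2 ^ a : ℕ) : ℝ) *
          ((Finset.univ.filter (fun g : G => ¬ 2 ∣ orderOf g)).card : ℝ) / (Nat.card G : ℝ) := by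
        have h'' : ((((∑ χ : Cfsg.IrrCharacter G, k χ * k χ : ℤ) : ℝ)) : ℂ) =
            (((((2 ^ a : ℕ) : ℝ) * ((2 ^ a : ℕ) : ℝ) *
          ((Finset.univ.filter (fun g : G => ¬ 2 ∣ orderOf g)).card : ℝ) / (Nat.card G : ℝ)) : ℝ) : ℂ) := by
          push_cast at h ⊢
          exact h
        exact Complex.ofReal_inj.1 h''
      rw [h', div_le_iff₀ (by exact_mod_cast Nat.card_pos)]
      push_cast
      gcongr
      rw [Nat.card_eq_fintype_card]
      exact Finset.card_le_univ _
    have hle' : ∑ χ : Cfsg.IrrCharacter G, k χ * k χ ≤ ((2 ^ a * 2 ^ a : ℕ) : ℤ) := by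
      exact_mod_cast hle
    have h1 : (R.card : ℤ) ≤ ∑ χ ∈ R, k χ * k χ := by
      simpa using Finset.card_nsmul_le_sum R (fun χ => k χ * k χ) (1 : ℤ) (fun χ hχ => by
        rcases lt_or_gt_of_ne (hne χ hχ) with h | h <;> nlinarith)
    have h2 := Finset.sum_le_sum_of_subset_of_nonneg (f := fun χ => k χ * k χ)
      (Finset.subset_univ R) (fun χ _ _ => mul_self_nonneg (k χ))
    rw [hcard, two_mul, pow_add]
    exact_mod_cast h1.trans (h2.trans hle')

end Cfsg.Agent.S4483
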