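import Cfsg.Statements.S4484
import Cfsg.Agent.PermGroups.ArcSpread
import Cfsg.Agent.PermGroups.CycCongr
import Cfsg.Agent.Blocks.Orth
import Cfsg.Agent.FGS4.Kazarin
import Cfsg.Agent.FGS2.BurnsideClass
import Mathlib.Analysis.SpecialFunctions.Trigonometric.Basic

set_option autoImplicit false
open Cfsg

namespace Cfsg.Agent.S4484

open scoped ComplexConjugate

/-- The real part of a root of unity near one. -/
theorem re_gt_half {p : ℕ} (hp : 0 < p) (s : ℤ) (hs : 6 * |s| < p) :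
    1 / 2 < ((Complex.exp (2 * Real.pi * Complex.I / p)) ^ s).re := by
  rw [← Complex.exp_int_mul]
  rw [show (s : ℂ) * (2 * Real.pi * Complex.I / p) =
    ((s * (2 * Real.pi) / p : ℝ) : ℂ) * Complex.I by push_cast; ring,
    Complex.exp_ofReal_mul_I_re, ← Real.cos_abs, ← Real.cos_pi_div_three]
  have hp' : (0 : ℝ) < p := by exact_mod_cast hp
  have hs' : 6 * |(s : ℝ)| < p := by exact_mod_cast hs
  have hval : |(s : ℝ) * (2 * Real.pi) / p| = |(s : ℝ)| * (2 * Real.pi) / p := by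
    rw [abs_div, abs_mul, abs_of_pos (by positivity : (0 : ℝ) < 2 * Real.pi), abs_of_pos hp']
  rw [hval]
  refine Real.cos_lt_cos_of_nonneg_of_le_pi (by positivity) (by linarith [Real.pi_pos]) ?_
  rw [div_lt_iff₀ hp']
  nlinarith [Real.pi_pos]

/-- Pigeonhole on the torus. -/
theorem exists_multiplier {p : ℕ} (hp : 0 < p) (T : Finset ℕ) (hT : 6 ^ T.card < p) :
    ∃ j : ℕ, 0 < j ∧ j < p ∧ ∀ t ∈ T, ∃ s : ℤ, 6 * |s| < p ∧ (p : ℤ) ∣ (j * t : ℕ) - s := by
  classical
  let f : Fin p → (T → Fin 6) := fun k t => ⟨6 * ((k.1 * t.1) % p) / p, by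
    rw [Nat.div_lt_iff_lt_mul hp]
    have := Nat.mod_lt (k.1 * t.1) hp
    omega⟩
  obtain ⟨k, k', hne, hkk⟩ := Fintype.exists_ne_map_eq_of_card_lt f (by simpa using hT)
  wlog hlt : k.1 < k'.1 generalizing k k'
  · exact this k' k (Ne.symm hne) hkk.symm
      (lt_of_le_of_ne (not_lt.1 hlt) fun h => hne (Fin.ext h.symm))
  refine ⟨k'.1 - k.1, by omega, by have := k'.2; omega, fun t ht => ?_⟩
  have h1 := congrArg Fin.val (congrFun hkk ⟨t, ht⟩)
  simp only [f] at h1
  set u := (k.1 * t) % p with hu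
  set u' := (k'.1 * t) % p with hu'
  refine ⟨(u' : ℤ) - u, ?_, ?_⟩
  · have a1 := Nat.div_add_mod (6 * u) p
    have a2 := Nat.div_add_mod (6 * u') p
    have b1 := Nat.mod_lt (6 * u) hp
    have b2 := Nat.mod_lt (6 * u') hp
    rw [← h1] at a2
    rcases abs_choice ((u' : ℤ) - u) with h | h <;> rw [h] <;> omega
  · refine ⟨(k'.1 * t / p : ℕ) - (k.1 * t / p : ℕ), ?_⟩
    have a1 := Nat.div_add_mod (k.1 * t) p
    have a2 := Nat.div_add_mod (k'.1 * t) p
    rw [← hu] at a1
    rw [← hu'] at a2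
    have e1 : (p : ℤ) * ((k.1 * t / p : ℕ) : ℤ) + u = ((k.1 * t : ℕ) : ℤ) := by exact_mod_cast a1
    have e2 : (p : ℤ) * ((k'.1 * t / p : ℕ) : ℤ) + u' = ((k'.1 * t : ℕ) : ℤ) := by exact_mod_cast a2
    rw [Nat.sub_mul, Nat.cast_sub (Nat.mul_le_mul_right t hlt.le)]
    linear_combination e1 - e2

open Cfsg.Agent in
/-- An element of prime order `p` with a small number of eigenvalues, against Blichfeldt. -/
theorem small_prime_bound {G : Type*} [Group G] [Finite G] [IsSimpleGroup G]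
    (hc : Subgroup.center G = ⊥) {p : ℕ} (hp : p.Prime) (g₀ : ℕ) (hle : 6 ^ (g₀ - 1) < p)
    {d : ℕ} (ρ : Representation ℂ G (Fin d → ℂ)) [ρ.IsIrreducible]
    (hρ : ρ.character ≠ fun _ => 1) {x : G} (hx : orderOf x = p)
    (b : Module.Basis (Fin d) ℂ (Fin d → ℂ)) (e : Fin d → ℕ) (hd : 0 < d)
    (hb : ∀ i, ρ x (b i) = (Complex.exp (2 * Real.pi * Complex.I / p)) ^ e i • b i)
    (he : ∀ i, e i < p) (hcard : (Finset.univ.image e).card ≤ g₀) : False := by
  classical
  set ζ := Complex.exp (2 * Real.pi * Complex.I / p) with hζdef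
  have hζ : IsPrimitiveRoot ζ p := Complex.isPrimitiveRoot_exp p hp.ne_zero
  have hζ0 : ζ ≠ 0 := Complex.exp_ne_zero _
  have hzn : ‖ζ‖ = 1 := Complex.norm_eq_one_of_pow_eq_one hζ.pow_eq_one hp.ne_zero
  let i₀ : Fin d := ⟨0, hd⟩
  set T := ((Finset.univ.image e).erase (e i₀)).image fun t => t + p - e i₀ with hT
  have hTc : 6 ^ T.card < p := by
    refine lt_of_le_of_lt (Nat.pow_le_pow_right (by norm_num) ?_) hle
    refine Finset.card_image_le.trans ?_
    rw [Finset.card_erase_of_mem (Finset.mem_image_of_mem e (Finset.mem_univ i₀))]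
    omega
  obtain ⟨j, hj0, hjp, hj⟩ := exists_multiplier hp.pos T hTc
  have hbj : ∀ (k : ℕ) (i : Fin d), ρ (x ^ k) (b i) = (ζ ^ e i) ^ k • b i := by
    intro k i
    induction k with
    | zero => simp
    | succ k ih => rw [pow_succ', map_mul, Module.End.mul_apply, ih, map_smul, hb, smul_smul, ← pow_succ]
  have key : x ^ j = 1 := by
    refine PermGroups.eq_one_of_arc hc ρ hρ (x ^ j) b (fun i => (ζ ^ e i) ^ j) (hbj j)
      (fun i => by rw [norm_pow, norm_pow, hzn, one_pow, one_pow]) i₀ fun i => ?_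
    have hconj : ∀ k : ℕ, conj (ζ ^ k) = ζ ^ (-(k : ℤ)) := fun k => by
      rw [zpow_neg, zpow_natCast, map_pow, ← inv_pow]
      congr 1
      exact (Complex.inv_eq_conj hzn).symm
    have hexp : conj ((ζ ^ e i₀) ^ j) * (ζ ^ e i) ^ j = ζ ^ ((j : ℤ) * ((e i : ℤ) - e i₀)) := by
      rw [← pow_mul, ← pow_mul, hconj, ← zpow_natCast ζ (e i * j), ← zpow_add₀ hζ0]
      congr 1; push_cast; ring
    rw [hexp]
    by_cases heq : e i = e i₀
    · rw [heq, sub_self, mul_zero, zpow_zero]; norm_num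
    obtain ⟨s, hs, q, hq⟩ := hj (e i + p - e i₀) (Finset.mem_image.2
      ⟨e i, Finset.mem_erase.2 ⟨heq, Finset.mem_image_of_mem e (Finset.mem_univ i)⟩, rfl⟩)
    have : (j : ℤ) * ((e i : ℤ) - e i₀) = s + (p : ℤ) * (q - j) := by
      rw [Nat.cast_mul, Nat.cast_sub (by have := he i₀; omega)] at hq
      push_cast at hq
      linear_combination hq
    rw [this, zpow_add₀ hζ0, zpow_mul, zpow_natCast, hζ.pow_eq_one, one_zpow, mul_one]
    exact re_gt_half hp.pos s hs
  exact pow_ne_one_of_lt_orderOf hj0.ne' (hx ▸ hjp) key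


/-- A refinement of Burnside's result on simple groups of order divisible by only two primes. Let G be a finite simple group of order p^a · q^b · g₀ with p, q distinct primes, a > 0, g₀ coprime to p and q, and the order of G different from p. Then g₀ − 1 > log p / log 6, that is 6^(g₀ − 1) > p. -/
theorem result {G : Type*} [Group G] [Finite G] [IsSimpleGroup G] (p q a b g₀ : ℕ) (hp : p.Prime) (hq : q.Prime) (hpq : p ≠ q) (ha : 0 < a) (hg : Nat.card G = p ^ a * q ^ b * g₀) (hcop : ¬ p ∣ g₀) (hcoq : ¬ q ∣ g₀) (hne : Nat.card G ≠ p) : p < 6 ^ (g₀ - 1) := by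
  classical
  haveI := Fintype.ofFinite G
  revert hne hg ha
  generalize a = aa, b = bb
  intro ha hg hne
  haveI : Fact p.Prime := ⟨hp⟩
  by_contra hbound
  push Not at hbound
  have hpdvd : p ∣ Nat.card G := hg ▸ ((dvd_pow_self p ha.ne').mul_right _).mul_right _
  have hg0 : 0 < g₀ := Nat.pos_of_ne_zero fun h => hcop (h ▸ dvd_zero p)
  have hlt : 6 ^ (g₀ - 1) < p := by
    refine lt_of_le_of_ne hbound fun h => ?_
    rcases Nat.eq_zero_or_pos (g₀ - 1) with h0 | h0
    · rw [h0, pow_zero] at h; exact hp.one_lt.ne h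
    · have h2 : 2 ∣ p := h ▸ (dvd_pow (by norm_num : 2 ∣ 6) h0.ne')
      have h3 : 3 ∣ p := h ▸ (dvd_pow (by norm_num : 3 ∣ 6) h0.ne')
      rcases (Nat.dvd_prime hp).1 h2 with h4 | h4 <;> rcases (Nat.dvd_prime hp).1 h3 with h5 | h5 <;>
        omega
  have hg0p : g₀ < p := by
    have h6 : g₀ - 1 < 6 ^ (g₀ - 1) := Nat.lt_pow_self (by norm_num)
    omega
  -- the group is not abelian
  have hc : Subgroup.center G = ⊥ := by
    rcases (inferInstance : (Subgroup.center G).Normal).eq_bot_or_eq_top with h | h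
    · exact h
    · exfalso
      letI : CommGroup G := { (inferInstance : Group G) with
        mul_comm := fun a b => (Subgroup.mem_center_iff.1 (h ▸ Subgroup.mem_top a) b).symm }
      exact hne ((Nat.prime_dvd_prime_iff_eq hp IsSimpleGroup.prime_card).1 hpdvd).symm
  -- a central element of a Sylow subgroup
  obtain ⟨P⟩ : Nonempty (Sylow p G) := inferInstance
  haveI : Nontrivial (P : Subgroup G) := (Subgroup.nontrivial_iff_ne_bot _).2 (P.ne_bot_of_dvd_card hpdvd)
  have hZ : p ∣ Nat.card (Subgroup.center (P : Subgroup G)) := by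
    haveI := P.isPGroup'.center_nontrivial
    obtain ⟨k, hk0, hk⟩ := (P.isPGroup'.to_subgroup (Subgroup.center (P : Subgroup G))).nontrivial_iff_card.1 inferInstance
    exact hk ▸ dvd_pow_self p hk0.ne'
  obtain ⟨⟨⟨x, hxP⟩, hxc⟩, hxo⟩ := exists_prime_orderOf_dvd_card' (G := Subgroup.center (P : Subgroup G)) p hZ
  have hx : orderOf x = p := by
    rw [Subgroup.orderOf_mk, Subgroup.orderOf_mk] at hxo; exact hxo
  set C := Subgroup.centralizer ({x} : Set G)
  have hK : ¬ p ∣ C.index := by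
    intro hd
    have hle : (P : Subgroup G) ≤ C := fun y hy => Subgroup.mem_centralizer_singleton_iff.2 (by
      have := Subgroup.mem_center_iff.1 hxc ⟨y, hy⟩
      simpa using congrArg Subtype.val this)
    exact P.not_dvd_index (hd.trans (Subgroup.index_dvd_of_le hle))
  -- a character of the principal block
  obtain ⟨M, hMmax, hpM⟩ := FGS4.Kazarin.exists_maximal_mem p hp
  haveI := hMmax
  obtain ⟨χ, hχB, hχ1, hχq, hχx⟩ : ∃ χ : Cfsg.IrrCharacter G, χ ∈ Cfsg.principalBlock M G ∧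
      (χ : G → ℂ) ≠ (fun _ => 1) ∧ ¬ q ∣ Cfsg.charDegree (χ : G → ℂ) ∧ (χ : G → ℂ) x ≠ 0 := by
    by_contra hno
    simp only [not_exists, not_and, not_not] at hno
    have horth := Blocks.block_orth_weak hpM (Blocks.isPBlock_principal (M := M) (G := G))
      (x := (1 : G)) (y := x) (by simpa using hp.ne_one) (dvd_of_eq hx.symm)
    rw [← Finset.add_sum_erase _ _ (Finset.mem_filter.mpr ⟨Finset.mem_univ _, Blocks.one_mem_principal⟩)]
      at horth
    have hall : ∀ χ ∈ (Finset.univ.filter (· ∈ Cfsg.principalBlock M G)).erase (Blocks.oneChar G),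
        ∃ w : ℂ, IsIntegral ℤ w ∧
        (χ : G → ℂ) 1 * conj ((χ : G → ℂ) x) = (q : ℂ) * w := by
      intro χ hχ
      obtain ⟨hne', hχB⟩ := Finset.mem_erase.mp hχ
      by_cases hqd : q ∣ Cfsg.charDegree (χ : G → ℂ)
      · obtain ⟨m, hm⟩ := hqd
        refine ⟨(m : ℂ) * conj ((χ : G → ℂ) x), (isIntegral_natCast m).mul ?_, ?_⟩
        · obtain ⟨k, ρ, -, hρ⟩ := χ.2
          rw [← hρ]
          exact (Chars.rep_char_isIntegral ρ x).map (starRingEnd ℂ).toIntAlgHom
        · rw [(Blocks.charDegree_eq χ.2).1, hm, Nat.cast_mul]; ring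
      · refine ⟨0, isIntegral_zero, ?_⟩
        rw [hno χ (Finset.mem_filter.mp hχB).2 (fun h => hne' (Subtype.ext h)) hqd, map_zero,
          mul_zero, mul_zero]
    choose! w hwi hwe using hall
    rw [Blocks.coe_oneChar, Finset.sum_congr rfl hwe, ← Finset.mul_sum] at horth
    exact FGS2.isIntegral_not_neg_inv q hq _ (IsIntegral.sum _ hwi) (by simpa using horth)
  obtain ⟨d, ρ, hirr, hρ⟩ := χ.2
  haveI := hirr
  have hdeg : Cfsg.charDegree (χ : G → ℂ) = d := by
    have h1 := (Blocks.charDegree_eq χ.2).1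
    rw [← hρ, Representation.char_one, Module.finrank_fin_fun] at h1
    rw [hρ] at h1
    exact_mod_cast h1.symm
  have hd0 : 0 < d := hdeg ▸ (Blocks.charDegree_eq χ.2).2
  obtain ⟨b', z', hb', hz'⟩ := Chars.exists_eigenbasis ρ x
  set ζ := Complex.exp (2 * Real.pi * Complex.I / p) with hζdef
  have hζ : IsPrimitiveRoot ζ p := Complex.isPrimitiveRoot_exp p hp.ne_zero
  haveI : NeZero p := ⟨hp.ne_zero⟩
  have hez : ∀ i, ∃ k, k < p ∧ ζ ^ k = z' i := fun i => by
    obtain ⟨k, hk, h⟩ := hζ.eq_pow_of_pow_eq_one (hx ▸ hz' i)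
    exact ⟨k, hk, h⟩
  choose e' he' hze' using hez
  let σ := finCongr (Module.finrank_fin_fun ℂ (n := d))
  set b := b'.reindex σ
  set e := fun i => e' (σ.symm i) with hedef
  have hb : ∀ i, ρ x (b i) = ζ ^ e i • b i := fun i => by
    simp only [b, e, Module.Basis.reindex_apply, hze', hb']
  have htr : (χ : G → ℂ) x = ∑ i, ζ ^ e i := by
    rw [← hρ, Representation.character, LinearMap.trace_eq_matrix_trace ℂ b]
    simp only [Matrix.trace, Matrix.diag, LinearMap.toMatrix_apply, hb]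
    simp
  refine small_prime_bound hc hp g₀ hlt ρ (by rw [hρ]; exact hχ1) hx b e hd0 hb
    (fun i => he' _) ?_
  -- the number of eigenvalues
  let a : ℕ → ℕ := fun k => g₀ * (Finset.univ.filter fun i => e i = k).card
  have hmem : ∀ i ∈ (Finset.univ : Finset (Fin d)), e i ∈ Finset.range p := fun i _ =>
    Finset.mem_range.2 (he' _)
  have htot : ∑ k ∈ Finset.range p, a k = d * g₀ := by
    simp only [a]
    rw [← Finset.mul_sum, ← Finset.card_eq_sum_card_fiberwise hmem, Finset.card_univ,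
      Fintype.card_fin, mul_comm]
  set K := C.index with hKdef
  set ω := Cfsg.centralChar (χ : G → ℂ) x with hωdef
  have hωval : ω = (K : ℂ) * (χ : G → ℂ) x / d := by
    rw [hωdef, Cfsg.centralChar, (Blocks.charDegree_eq χ.2).1, hdeg]
  have hωi : IsIntegral ℤ ω := Chars.centralChar_isIntegral_irr χ.2 x
  set β := (g₀ : ℂ) * (χ : G → ℂ) x / d with hβdef
  have hdC : (d : ℂ) ≠ 0 := by exact_mod_cast hd0.ne'
  have hxi : IsIntegral ℤ ((χ : G → ℂ) x) := by rw [← hρ]; exact Chars.rep_char_isIntegral ρ x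
  have hβi : IsIntegral ℤ β := by
    have hKd : K ∣ q ^ bb * g₀ := by
      have h1 : K ∣ p ^ aa * (q ^ bb * g₀) := by
        rw [← mul_assoc, ← hg]; exact Subgroup.index_dvd_card C
      exact ((hp.coprime_iff_not_dvd.2 hK).symm.pow_right aa).dvd_of_dvd_mul_left h1
    obtain ⟨l, hl⟩ := hKd
    have hcopd : (q ^ bb).Coprime d :=
      (hq.coprime_iff_not_dvd.2 (hdeg ▸ hχq)).pow_left bb
    obtain ⟨u, v, huv⟩ := Int.isCoprime_iff_nat_coprime.2
      (show (q ^ bb : ℤ).natAbs.Coprime (d : ℤ).natAbs by simpa using hcopd)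
    have huv' : (u : ℂ) * (q : ℂ) ^ bb + (v : ℂ) * d = 1 := by exact_mod_cast huv
    have hl' : (q : ℂ) ^ bb * g₀ = K * l := by exact_mod_cast hl
    have : β = (u : ℂ) * l * ω + (v : ℂ) * g₀ * (χ : G → ℂ) x := by
      rw [hβdef, hωval]
      field_simp
      linear_combination -(g₀ : ℂ) * huv' + (u : ℂ) * hl'
    rw [this]
    exact (((isIntegral_algebraMap (x := u)).mul (isIntegral_natCast l)).mul hωi).add
      (((isIntegral_algebraMap (x := v)).mul (isIntegral_natCast g₀)).mul hxi)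
  have hsum : ∑ k ∈ Finset.range p, (a k : ℂ) * ζ ^ k = d * β := by
    rw [hβdef, mul_div_cancel₀ _ hdC, htr, ← Finset.sum_fiberwise_of_maps_to hmem, Finset.mul_sum]
    refine Finset.sum_congr rfl fun k _ => ?_
    rw [Finset.sum_congr rfl fun i hi => by rw [(Finset.mem_filter.1 hi).2], Finset.sum_const,
      nsmul_eq_mul]
    simp only [a]; push_cast; ring
  have hsupp := PermGroups.card_support_le hp hζ a d g₀ hd0 hg0p htot hβi hsum (by
    intro c hcβ
    haveI : CharP (AlgInt ⧸ M) p := (CharP.charP_iff_prime_eq_zero hp).2 (by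
      rw [← map_natCast (Ideal.Quotient.mk M), Ideal.Quotient.eq_zero_iff_mem]; exact hpM)
    haveI : Fact p.Prime := ⟨hp⟩
    let π := Ideal.Quotient.mk M
    let ζA : AlgInt := ⟨ζ, hζ.isIntegral hp.pos⟩
    have hζA : π ζA = 1 := by
      have h1 : ζA ^ p = 1 := Subtype.ext (by simpa [ζA] using hζ.pow_eq_one)
      have h2 : (π ζA - 1) ^ p = 0 := by rw [sub_pow_char, ← map_pow, h1, map_one, one_pow, sub_self]
      exact sub_eq_zero.1 (eq_zero_of_pow_eq_zero h2)
    let ωA : AlgInt := ⟨ω, hωi⟩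
    have hωK : π ωA = (K : AlgInt ⧸ M) := by
      have h1 := hχB x
      have h2 : Cfsg.centralChar (fun _ : G => (1 : ℂ)) x = K := by
        simp [Cfsg.centralChar, hKdef, C]
      rw [h2] at h1
      have h3 : ((K : AlgInt) - ωA) ∈ M := (Blocks.memI_algInt_iff _).1 (by
        push_cast; exact h1)
      rw [← Ideal.Quotient.eq_zero_iff_mem, map_sub, map_natCast, sub_eq_zero] at h3
      exact h3.symm
    let cA : AlgInt := ∑ k ∈ Finset.range p, (c k : AlgInt) * ζA ^ k
    have hrel : (g₀ : AlgInt) * ωA = (K : AlgInt) * cA := Subtype.ext (by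
      simp only [cA, ωA, ζA]
      push_cast
      rw [← hcβ, hωval, hβdef]; ring)
    have h4 := congrArg π hrel
    simp only [map_mul, map_natCast, cA, map_sum, map_pow, hζA, hωK, one_pow, mul_one] at h4
    have hK0 : (K : AlgInt ⧸ M) ≠ 0 := fun h => hK ((CharP.cast_eq_zero_iff _ p K).1 h)
    rw [mul_comm, ← Nat.cast_sum] at h4
    have h5 := mul_left_cancel₀ hK0 h4
    rw [← CharP.intCast_eq_zero_iff (AlgInt ⧸ M) p]
    push_cast
    rw [h5, Nat.cast_sum, sub_self])
  refine le_trans (Finset.card_le_card ?_) hsupp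
  intro k hk
  obtain ⟨i, -, rfl⟩ := Finset.mem_image.1 hk
  refine Finset.mem_filter.2 ⟨hmem i (Finset.mem_univ i), ?_⟩
  exact mul_ne_zero hg0.ne' (Finset.card_ne_zero.2 ⟨i, Finset.mem_filter.2 ⟨Finset.mem_univ i, rfl⟩⟩)

end Cfsg.Agent.S4484
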