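import Cfsg.Statements.S4488
import Cfsg.Agent.Chars2.SchurBound
import Cfsg.Agent.BlockChar.CharCount

set_option autoImplicit false
open Cfsg

namespace Cfsg.Agent.S4488

/-- Let the finite group G have a faithful p-rational character χ of degree n (all values of χ lie in the field generated over ℚ by a root of unity of order prime to p), and let p^a be the order of a Sylow p-subgroup of G. Then a ≤ Σ_{i ≥ 0} ⌊n / ((p − 1)·p^i)⌋ (a finite sum; the terms vanish once (p − 1)p^i > n). -/
theorem result {G : Type*} [Group G] [Finite G] (p : ℕ) (hp : p.Prime) (χ : G → ℂ) (hχ : Cfsg.IsCharacter G χ) (hfaith : ∀ g : G, χ g = χ 1 → g = 1) (hrat : (∃ r : ℕ, 0 < r ∧ ¬ p ∣ r ∧ ∀ g : G, χ g ∈ IntermediateField.adjoin ℚ ({Complex.exp (2 * Real.pi * Complex.I / r)} : Set ℂ))) (n : ℕ) (hn : Cfsg.charDegree χ = n) : (Nat.card G).factorization p ≤ ∑ i ∈ Finset.range (n + 1), n / ((p - 1) * p ^ i) := by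
  classical
  have : Fact p.Prime := ⟨hp⟩
  have : Fintype G := Fintype.ofFinite G
  obtain ⟨r, hr0, hr, hr'⟩ := hrat
  obtain ⟨P⟩ : Nonempty (Sylow p G) := inferInstance
  have h1 : χ 1 = (n : ℂ) := by rw [← hn, Cfsg.Agent.BlockChar.charDegree_cast hχ]
  have h := Chars2.schur_bound (P : Subgroup G) P.2 hχ hfaith h1 hr0.ne' hr hr'
  rw [Sylow.card_eq_multiplicity] at h
  set N := n / (p - 1) with hN
  have h2 : (Nat.card G).factorization p ≤ (p ^ N * N.factorial).factorization p := by
    have := Nat.factorization_le_iff_dvd (pow_ne_zero _ hp.ne_zero)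
      (mul_ne_zero (pow_ne_zero _ hp.ne_zero) N.factorial_ne_zero) |>.2 h p
    rwa [Nat.Prime.factorization_pow hp, Finsupp.single_eq_same] at this
  rw [Nat.factorization_mul (pow_ne_zero _ hp.ne_zero) N.factorial_ne_zero, Finsupp.add_apply,
    Nat.Prime.factorization_pow hp, Finsupp.single_eq_same,
    Nat.factorization_factorial hp (b := n + 1) (by
      refine Nat.lt_succ_of_le ((Nat.log_le_self p N).trans ?_)
      exact Nat.div_le_self _ _)] at h2
  refine h2.trans ?_
  rw [Finset.range_eq_Ico, Finset.sum_eq_sum_Ico_succ_bot (Nat.succ_pos n), pow_zero, mul_one,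
    zero_add]
  refine Nat.add_le_add_left (le_of_eq (Finset.sum_congr rfl fun i _ => ?_)) _
  rw [hN, Nat.div_div_eq_div_mul]

end Cfsg.Agent.S4488
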