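import Cfsg.Statements.S4490
import Cfsg.Agent.Chars2.RealFull

set_option autoImplicit false
open Cfsg

namespace Cfsg.Agent.S4490

/-- Let G be a finite group and M a maximal ideal of the algebraic integers containing 2. Every 2-block B of G whose defect groups are the Sylow 2-subgroups of G (a block of full defect) and which is not the principal block is different from its complex-conjugate block, the block formed by the complex conjugates of the members of B. -/
theorem result {G : Type*} [Group G] [Finite G] (M : Ideal Cfsg.AlgInt) (hM : Cfsg.IsPModular 2 M) (B : Set (Cfsg.IrrCharacter G)) (hB : Cfsg.IsPBlock M B) (P : Sylow 2 G) (hfull : Cfsg.IsDefectGroup 2 M B (P : Subgroup G)) (hnp : B ≠ Cfsg.principalBlock M G) : {ψ : Cfsg.IrrCharacter G | ∃ χ ∈ B, (ψ : G → ℂ) = fun g => (starRingEnd ℂ) ((χ : G → ℂ) g)} ≠ B := by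
  classical
  haveI := Fintype.ofFinite G
  haveI := hM.2.1
  intro heq
  obtain ⟨g, hg, hP⟩ := Blocks.isDefectGroup_iff.1 hfull
  have hdef : Cfsg.blockDefect 2 B = (Nat.card G).factorization 2 := by
    have h := Blocks.card_defectGroup hM.2.2 hB hfull
    rw [P.card_eq_multiplicity] at h
    exact (Nat.pow_right_injective le_rfl h).symm
  obtain ⟨χ, hχ, hodd⟩ := Chars2.exists_odd_of_full_defect hB hdef
  have hmem : (⟨_, Chars.isIrrCharacter_star χ.2⟩ : Cfsg.IrrCharacter G) ∈ B := by
    rw [← heq]; exact ⟨χ, hχ, rfl⟩
  have h1 : χ ∈ Cfsg.principalBlock M G := by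
    refine Chars2.mem_principal_of_real_regular hM.2.2 χ hodd fun y _ => ?_
    have h := Blocks.sameBlock_of_mem hB hmem hχ y
    rw [Blocks.centralChar_inv]
    exact h
  exact hnp (Blocks.blocks_eq_of_inter hB Blocks.isPBlock_principal hχ h1)

end Cfsg.Agent.S4490
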