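import Cfsg.Statements.S4495
import Cfsg.Agent.OddChar.SelfCentPrime

set_option autoImplicit false
open Cfsg

namespace Cfsg.Agent.S4495

/-- Let the finite group G contain an element x of prime order p with C_G(x) = ⟨x⟩, and let t be the number of conjugacy classes of elements of order p. If t ≠ p − 1 then the commutator subgroup has index at most (p − 1)/t; if t = p − 1 it has index exactly p. -/
theorem result {G : Type*} [Group G] [Finite G] (p : ℕ) (hp : p.Prime) (x : G) (hx : orderOf x = p) (hC : Subgroup.centralizer ({x} : Set G) = Subgroup.zpowers x) (t : ℕ) (ht : Nat.card {C : ConjClasses G // ∃ g ∈ C.carrier, orderOf g = p} = t) : (t ≠ p - 1 → (commutator G).index * t ≤ p - 1) ∧ (t = p - 1 → (commutator G).index = p) := by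
  haveI := Fact.mk hp
  obtain ⟨P, hP⟩ := OddChar.SelfCent.exists_sylow hx hC
  have hte := OddChar.SelfCent.count_classes hx hC hP
  rw [ht] at hte
  have he0 := OddChar.SelfCent.e_pos hx hC hP
  have hp1 := hp.two_le
  refine ⟨fun hne => ?_, fun heq => ?_⟩
  · have he1 : OddChar.SelfCent.e P ≠ 1 := fun h => hne (by rw [h, mul_one] at hte; exact hte)
    rw [← hte, mul_comm t]
    exact Nat.mul_le_mul_right t (Nat.le_of_dvd he0 (OddChar.SelfCent.index_dvd hx hC hP he1))
  · subst heq
    have he1 : OddChar.SelfCent.e P = 1 := Nat.eq_of_mul_eq_mul_left (show 0 < p - 1 by omega) (by omega)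
    exact (OddChar.SelfCent.commutator_eq_core hx hC hP he1).2

end Cfsg.Agent.S4495
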