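import Cfsg.Statements.S4496
import Mathlib.GroupTheory.Sylow

set_option autoImplicit false
open Cfsg

namespace Cfsg.Agent.S4496

/-- Let the finite group G contain an element x of prime order p with C_G(x) = ⟨x⟩. Then: (a) every normal subgroup of order divisible by p contains the commutator subgroup; (b) every normal subgroup S of order prime to p has order dividing the number of subgroups of order p of G and congruent to 1 modulo p, and in G/S the image of x again has prime order p and commutes only with its own powers. -/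
theorem result {G : Type*} [Group G] [Finite G] (p : ℕ) (hp : p.Prime) (x : G) (hx : orderOf x = p) (hC : Subgroup.centralizer ({x} : Set G) = Subgroup.zpowers x) (S : Subgroup G) [S.Normal] : (p ∣ Nat.card S → commutator G ≤ S) ∧ (¬ p ∣ Nat.card S → Nat.card S ∣ Nat.card {H : Subgroup G // Nat.card H = p} ∧ Nat.card S % p = 1 ∧ orderOf (QuotientGroup.mk x : G ⧸ S) = p ∧ Subgroup.centralizer ({(QuotientGroup.mk x : G ⧸ S)} : Set (G ⧸ S)) = Subgroup.zpowers (QuotientGroup.mk x : G ⧸ S)) := by
  classical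
  haveI := Fact.mk hp
  set Z := Subgroup.zpowers x with hZ
  have hZc : Nat.card Z = p := by rw [hZ, Nat.card_zpowers, hx]
  have hxZ : x ∈ Z := Subgroup.mem_zpowers x
  have hp2 : ¬ p ^ 2 ∣ Nat.card G := by
    intro h2
    obtain ⟨Q, hQc, hQ⟩ := Sylow.exists_subgroup_card_pow_succ (p := p) (n := 1) h2 (H := Z)
      (by rw [hZc, pow_one])
    haveI : IsMulCommutative Q := IsPGroup.isMulCommutative_of_card_eq_prime_sq (p := p) (by simpa using hQc)
    have hle : Q ≤ Z := by
      intro q hq
      rw [← hC, Subgroup.mem_centralizer_singleton_iff]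
      exact congrArg Subtype.val (mul_comm' (⟨q, hq⟩ : Q) ⟨x, hQ hxZ⟩)
    have := Subgroup.card_dvd_of_le hle
    rw [hQc, hZc] at this
    have h3 : p ^ 2 ≤ p ^ 1 := Nat.le_of_dvd (by simpa using hp.pos) (by simpa using this)
    exact absurd ((Nat.pow_le_pow_iff_right hp.one_lt).1 h3) (by norm_num)
  have hfac : (Nat.card G).factorization p = 1 := by
    have h1 : p ∣ Nat.card G := hx ▸ orderOf_dvd_natCard x
    have h2 := (hp.dvd_iff_one_le_factorization Nat.card_pos.ne').1 h1
    have h3 : ¬ 2 ≤ (Nat.card G).factorization p := fun h =>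
      hp2 ((hp.pow_dvd_iff_le_factorization Nat.card_pos.ne').2 h)
    omega
  let P : Sylow p G := Sylow.ofCard Z (by rw [hfac, pow_one, hZc])
  have hP : (P : Subgroup G) = Z := Sylow.coe_ofCard _ _
  have hxcomm : ∀ g, g * x = x * g → g ∈ Z := fun g h => by
    rw [← hC, Subgroup.mem_centralizer_singleton_iff]; exact h
  constructor
  · intro hdvd
    obtain ⟨⟨y, hyS⟩, hy⟩ := exists_prime_orderOf_dvd_card' p hdvd
    have hy' : orderOf y = p := by rwa [Subgroup.orderOf_mk] at hy
    have hxS : x ∈ S := by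
      obtain ⟨Q, hQ⟩ : ∃ Q : Sylow p G, (Q : Subgroup G) = Subgroup.zpowers y :=
        ⟨Sylow.ofCard (Subgroup.zpowers y) (by rw [hfac, pow_one, Nat.card_zpowers, hy']),
          Sylow.coe_ofCard _ _⟩
      obtain ⟨g, hg⟩ := MulAction.exists_smul_eq G Q P
      have hxP : x ∈ ((g • Q : Sylow p G) : Subgroup G) := by rw [hg, hP]; exact hxZ
      rw [Sylow.coe_subgroup_smul, Subgroup.mem_pointwise_smul_iff_inv_smul_mem, hQ] at hxP
      have h1 := (Subgroup.zpowers_le.2 hyS) hxP
      simp only [MulAut.smul_def, MulAut.inv_apply, MulAut.conj_symm_apply] at h1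
      have := ‹S.Normal›.conj_mem _ h1 g
      simpa [mul_assoc] using this
    have hZS : Z ≤ S := Subgroup.zpowers_le.2 hxS
    have htop := Sylow.normalizer_sup_eq_top' P (hP.symm ▸ hZS)
    rw [show (P : Set G) = (Z : Set G) from by rw [← hP]; rfl] at htop
    rw [commutator_def, Subgroup.commutator_le]
    intro a _ c _
    obtain ⟨n, hn, s, hs, rfl⟩ := Subgroup.mem_sup_of_normal_right.1 (htop.symm ▸ Subgroup.mem_top a)
    obtain ⟨m, hm, t, ht, rfl⟩ := Subgroup.mem_sup_of_normal_right.1 (htop.symm ▸ Subgroup.mem_top c)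
    rw [← QuotientGroup.eq_one_iff, commutatorElement_def]
    simp only [QuotientGroup.mk_mul, QuotientGroup.mk_inv, (QuotientGroup.eq_one_iff _).2 hs,
      (QuotientGroup.eq_one_iff _).2 ht, mul_one, inv_one, one_mul, mul_inv_rev]
    have hnm : n * m * n⁻¹ * m⁻¹ ∈ S := by
      refine hZS (hxcomm _ ?_)
      have hexp : ∀ u ∈ Subgroup.normalizer (Z : Set G), ∃ i : ℤ, u * x * u⁻¹ = x ^ i := fun u hu => by
        obtain ⟨i, hi⟩ := Subgroup.mem_zpowers_iff.1 ((Subgroup.mem_normalizer_iff.1 hu x).1 hxZ)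
        exact ⟨i, hi.symm⟩
      obtain ⟨i, hi⟩ := hexp n hn
      obtain ⟨j, hj⟩ := hexp m hm
      have e1 : n * m * x = x ^ (i * j) * (n * m) := by
        have : n * m * x * (n * m)⁻¹ = x ^ (i * j) := by
          rw [zpow_mul, ← hi, conj_zpow, ← hj]
          group
        rw [← this]; group
      have e2 : m * n * x = x ^ (i * j) * (m * n) := by
        have : m * n * x * (m * n)⁻¹ = x ^ (i * j) := by
          rw [mul_comm i j, zpow_mul, ← hj, conj_zpow, ← hi]
          group
        rw [← this]; group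
      calc n * m * n⁻¹ * m⁻¹ * x
          = n * m * (n⁻¹ * m⁻¹ * x * (m * n)) * (m * n)⁻¹ := by group
        _ = n * m * ((m * n)⁻¹ * x * (m * n)) * (m * n)⁻¹ := by group
        _ = x * (n * m * n⁻¹ * m⁻¹) := by
            have e3 : (m * n)⁻¹ * x * (m * n) * x⁻¹ * x = (m * n)⁻¹ * x * (m * n) := by group
            have hmem : (m * n)⁻¹ * x * (m * n) ∈ Z := by
              have := (Subgroup.mem_normalizer_iff.1
                ((Subgroup.normalizer (Z : Set G)).inv_mem ((Subgroup.normalizer (Z : Set G)).mul_mem hm hn)) x).1 hxZ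
              simpa using this
            obtain ⟨k, hk⟩ := Subgroup.mem_zpowers_iff.1 hmem
            rw [← hk]
            have e4 : n * m * x ^ k = x * (n * m) := by
              have h5 : n * m * x * (n * m)⁻¹ = m * n * x * (m * n)⁻¹ := by rw [e1, e2]; group
              have h6 : n * m * x ^ k * (n * m)⁻¹ = m * n * x ^ k * (m * n)⁻¹ := by
                rw [← conj_zpow, ← conj_zpow, h5]
              have h7 : m * n * x ^ k * (m * n)⁻¹ = x := by rw [hk]; group
              rw [h7] at h6
              calc n * m * x ^ k = n * m * x ^ k * (n * m)⁻¹ * (n * m) := by group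
                _ = _ := by rw [h6]
            rw [e4]; group
    have := (QuotientGroup.eq_one_iff (n * m * n⁻¹ * m⁻¹)).2 hnm
    simpa only [QuotientGroup.mk_mul, QuotientGroup.mk_inv] using this
  · intro hndvd
    have hCS : ∀ s ∈ S, s * x = x * s → s = 1 := fun s hs h => by
      have h1 : orderOf s ∣ Nat.card S := S.orderOf_dvd_natCard hs
      have h2 : orderOf s ∣ p := hZc ▸ Z.orderOf_dvd_natCard (hxcomm s h)
      rcases (Nat.dvd_prime hp).1 h2 with h3 | h3
      · exact orderOf_eq_one_iff.1 h3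
      · exact absurd (h3 ▸ h1) hndvd
    let φ : S → S := fun s => ⟨x⁻¹ * s * x * (s : G)⁻¹,
      S.mul_mem (by simpa using ‹S.Normal›.conj_mem _ s.2 x⁻¹) (S.inv_mem s.2)⟩
    have hφ : Function.Bijective φ := by
      refine Finite.injective_iff_bijective.1 fun s t h => ?_
      have h1 : x⁻¹ * s * x * (s : G)⁻¹ = x⁻¹ * t * x * (t : G)⁻¹ := congrArg Subtype.val h
      have h2 : (t : G)⁻¹ * s * x = x * ((t : G)⁻¹ * s) := by
        calc (t : G)⁻¹ * s * x = (t : G)⁻¹ * x * (x⁻¹ * s * x * (s : G)⁻¹) * s := by group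
          _ = x * ((t : G)⁻¹ * s) := by rw [h1]; group
      have h3 := hCS _ (S.mul_mem (S.inv_mem t.2) s.2) h2
      exact Subtype.ext (inv_mul_eq_one.1 h3).symm
    refine ⟨?_, ?_, ?_, ?_⟩
    · have e : {H : Subgroup G // Nat.card H = p} ≃ Sylow p G :=
        { toFun := fun H => Sylow.ofCard (p := p) H.1 (by rw [hfac, pow_one, H.2])
          invFun := fun Q => ⟨(Q : Subgroup G), by rw [Q.card_eq_multiplicity, hfac, pow_one]⟩
          left_inv := fun H => Subtype.ext (Sylow.coe_ofCard (p := p) H.1 (by rw [hfac, pow_one, H.2]))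
          right_inv := fun Q => Sylow.ext (Sylow.coe_ofCard (p := p) (Q : Subgroup G) Q.card_eq_multiplicity) }
      rw [Nat.card_congr e, Sylow.card_eq_index_normalizer P, show (P : Set G) = (Z : Set G) from by rw [← hP]; rfl]
      set N := Subgroup.normalizer (Z : Set G)
      let ψ : N →* G ⧸ S := (QuotientGroup.mk' S).comp N.subtype
      have hψ : Function.Injective ψ := by
        rw [injective_iff_map_eq_one]
        rintro ⟨n, hn⟩ h
        have hnS : n ∈ S := (QuotientGroup.eq_one_iff n).1 h
        have h1 : n * x * n⁻¹ * x⁻¹ ∈ S := by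
          have := ‹S.Normal›.conj_mem _ (S.inv_mem hnS) x
          simpa [mul_assoc] using S.mul_mem hnS this
        have h2 : n * x * n⁻¹ * x⁻¹ ∈ Z :=
          Z.mul_mem ((Subgroup.mem_normalizer_iff.1 hn x).1 hxZ) (Z.inv_mem hxZ)
        have h3 : n * x * n⁻¹ * x⁻¹ = 1 := by
          refine hCS _ h1 ?_
          obtain ⟨i, hi⟩ := Subgroup.mem_zpowers_iff.1 h2
          rw [← hi]; exact (Commute.zpow_self x i).eq
        refine Subtype.ext (hCS n hnS ?_)
        rwa [mul_inv_eq_one, mul_inv_eq_iff_eq_mul] at h3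
      have hd := Subgroup.card_dvd_of_injective ψ hψ
      rw [← Subgroup.index_eq_card] at hd
      have h5 := Nat.mul_dvd_mul_left (Nat.card S) hd
      rw [Subgroup.card_mul_index, ← N.card_mul_index, mul_comm (Nat.card S)] at h5
      exact Nat.dvd_of_mul_dvd_mul_left Nat.card_pos h5
    · letI : MulAction Z S :=
        MulAction.compHom S ((MulAut.conjNormal (H := S)).comp Z.subtype)
      have hfix : Nat.card (MulAction.fixedPoints Z S) = 1 := by
        rw [Nat.card_eq_one_iff_unique]
        refine ⟨⟨fun a b => ?_⟩, ⟨⟨1, fun z => map_one (MulAut.conjNormal (H := S) (z : G))⟩⟩⟩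
        have key : ∀ a : MulAction.fixedPoints Z S, ((a : S) : G) = 1 := fun a => by
          refine hCS _ (a : S).2 ?_
          have h := congrArg Subtype.val (a.2 ⟨x, hxZ⟩)
          change ((MulAut.conjNormal x (a : S) : S) : G) = _ at h
          rw [MulAut.conjNormal_apply, mul_inv_eq_iff_eq_mul] at h
          exact h.symm
        exact Subtype.ext (Subtype.ext ((key a).trans (key b).symm))
      have h := (IsPGroup.of_card (n := 1) (by rw [hZc, pow_one]) : IsPGroup p Z).card_modEq_card_fixedPoints S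
      rw [hfix] at h
      have := h
      rw [Nat.ModEq, Nat.one_mod_eq_one.2 hp.ne_one] at this
      exact this
    · refine orderOf_eq_prime ?_ ?_
      · rw [← QuotientGroup.mk_pow, ← hx, pow_orderOf_eq_one, QuotientGroup.mk_one]
      · rw [Ne, QuotientGroup.eq_one_iff]
        intro hxS
        exact hndvd (hx ▸ S.orderOf_dvd_natCard hxS)
    · refine le_antisymm (fun q hq => ?_) (Subgroup.zpowers_le.2 ?_)
      · obtain ⟨y, rfl⟩ := QuotientGroup.mk_surjective q
        rw [Subgroup.mem_centralizer_singleton_iff, ← QuotientGroup.mk_mul,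
          ← QuotientGroup.mk_mul, QuotientGroup.eq] at hq
        have hz : x⁻¹ * y * x * y⁻¹ ∈ S := by
          have := ‹S.Normal›.conj_mem _ (S.inv_mem hq) y
          have e : y * ((y * x)⁻¹ * (x * y))⁻¹ * y⁻¹ = y * (y⁻¹ * x⁻¹ * y * x) * y⁻¹ := by group
          rw [e] at this
          simpa [mul_assoc] using this
        obtain ⟨s, hs⟩ := hφ.2 ⟨_, hz⟩
        have h1 : x⁻¹ * s * x * (s : G)⁻¹ = x⁻¹ * y * x * y⁻¹ := congrArg Subtype.val hs
        have h2 : (s : G)⁻¹ * y * x = x * ((s : G)⁻¹ * y) := by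
          calc (s : G)⁻¹ * y * x = (s : G)⁻¹ * x * (x⁻¹ * y * x * y⁻¹) * y := by group
            _ = x * ((s : G)⁻¹ * y) := by rw [← h1]; group
        obtain ⟨i, hi⟩ := Subgroup.mem_zpowers_iff.1 (hxcomm _ h2)
        refine ⟨i, ?_⟩
        show (QuotientGroup.mk x : G ⧸ S) ^ i = QuotientGroup.mk y
        rw [← QuotientGroup.mk_zpow, hi, QuotientGroup.mk_mul, QuotientGroup.mk_inv,
          (QuotientGroup.eq_one_iff _).2 s.2, inv_one, one_mul]
      · rw [Subgroup.mem_centralizer_singleton_iff]

end Cfsg.Agent.S4496
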