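import Cfsg.Statements.S4497
import Cfsg.Agent.OddChar.SelfCentPrime

set_option autoImplicit false
open Cfsg

open scoped commutatorElement
namespace Cfsg.Agent.S4497

/-- Let the finite group G contain an element x of prime order p with C_G(x) = ⟨x⟩, let t be the number of conjugacy classes of elements of order p, and let S* = O_{p′}(G) be the largest normal subgroup of order prime to p. Then S* ≤ G′; if t ≠ p − 1 the quotient G′/S* is simple (in particular non-trivial); if t = p − 1 then G′ = S*. -/
theorem result {G : Type*} [Group G] [Finite G] (p : ℕ) (hp : p.Prime) (x : G) (hx : orderOf x = p) (hC : Subgroup.centralizer ({x} : Set G) = Subgroup.zpowers x) (t : ℕ) (ht : Nat.card {C : ConjClasses G // ∃ g ∈ C.carrier, orderOf g = p} = t) : Cfsg.pPrimeCore p G ≤ commutator G ∧ (t ≠ p - 1 → ∀ h : ((Cfsg.pPrimeCore p G).subgroupOf (commutator G)).Normal, IsSimpleGroup (↥(commutator G) ⧸ (Cfsg.pPrimeCore p G).subgroupOf (commutator G))) ∧ (t = p - 1 → commutator G = Cfsg.pPrimeCore p G) := by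
  haveI := Fact.mk hp
  obtain ⟨P, hP⟩ := OddChar.SelfCent.exists_sylow hx hC
  have hte := OddChar.SelfCent.count_classes hx hC hP
  rw [ht] at hte
  have hp1 := hp.two_le
  refine ⟨OddChar.SelfCent.core_le hx hC hP, fun hne hn => ?_, fun heq => ?_⟩
  · have he1 : OddChar.SelfCent.e P ≠ 1 := fun h => hne (by rw [h, mul_one] at hte; exact hte)
    have hxG := OddChar.SelfCent.x_mem_commutator hx hC hP he1
    haveI : Nontrivial (↥(commutator G) ⧸ (Cfsg.pPrimeCore p G).subgroupOf (commutator G)) := by
      rw [QuotientGroup.nontrivial_iff, Ne, Subgroup.subgroupOf_eq_top]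
      exact fun h => OddChar.SelfCent.x_not_mem_core hx hC hP (h hxG)
    refine ⟨fun Q hQ => ?_⟩
    set π := QuotientGroup.mk' ((Cfsg.pPrimeCore p G).subgroupOf (commutator G))
    set M := (Q.comap π).map (commutator G).subtype
    rcases OddChar.SelfCent.simple_mod_core hx hC hP he1 M (Subgroup.map_subtype_le _) (fun g hg m hm => by
        obtain ⟨m', hm', rfl⟩ := hm
        exact ⟨⟨g, hg⟩ * m' * ⟨g, hg⟩⁻¹, (inferInstance : (Q.comap π).Normal).conj_mem m' hm' _, rfl⟩)
      (fun s hs => ⟨⟨s, OddChar.SelfCent.core_le hx hC hP hs⟩, Subgroup.mem_comap.mpr (by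
        rw [show π ⟨s, OddChar.SelfCent.core_le hx hC hP hs⟩ = 1 from (QuotientGroup.eq_one_iff _).mpr hs]
        exact one_mem Q), rfl⟩) with h | h
    · left
      rw [Subgroup.eq_bot_iff_forall]
      intro q hq
      obtain ⟨y, rfl⟩ := QuotientGroup.mk'_surjective _ q
      exact (QuotientGroup.eq_one_iff y).mpr (show (y : G) ∈ Cfsg.pPrimeCore p G from h ▸ ⟨y, hq, rfl⟩)
    · right
      rw [eq_top_iff]
      intro q _
      obtain ⟨y, rfl⟩ := QuotientGroup.mk'_surjective _ q
      obtain ⟨z, hz, hzy⟩ : (y : G) ∈ M := h.symm ▸ y.2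
      obtain rfl : z = y := Subtype.ext hzy
      exact hz
  · subst heq
    have he1 : OddChar.SelfCent.e P = 1 := Nat.eq_of_mul_eq_mul_left (show 0 < p - 1 by omega) (by omega)
    exact (OddChar.SelfCent.commutator_eq_core hx hC hP he1).1

end Cfsg.Agent.S4497
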