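import Cfsg.Statements.S4498
import Cfsg.Agent.Blocks.Orth

set_option autoImplicit false
open Cfsg

namespace Cfsg.Agent.S4498

/-- Let p and q be distinct primes dividing the order of the finite group G, and suppose G has no element of order p·q. Fix maximal ideals M_p over p and M_q over q of the algebraic integers. Then the principal p-block and the principal q-block of G have a non-principal irreducible character in common. -/
theorem result {G : Type*} [Group G] [Finite G] (p q : ℕ) [Fact p.Prime] [Fact q.Prime] (hpq : p ≠ q) (hp : p ∣ Nat.card G) (hq : q ∣ Nat.card G) (hno : ∀ g : G, orderOf g ≠ p * q) (Mp Mq : Ideal Cfsg.AlgInt) (hMp : Cfsg.IsPModular p Mp) (hMq : Cfsg.IsPModular q Mq) : ∃ χ : Cfsg.IrrCharacter G, (χ : G → ℂ) ≠ (fun _ => 1) ∧ χ ∈ Cfsg.principalBlock Mp G ∧ χ ∈ Cfsg.principalBlock Mq G := by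
  classical
  haveI := Fintype.ofFinite G
  haveI := hMp.2.1
  haveI := hMq.2.1
  obtain ⟨x, hx⟩ := exists_prime_orderOf_dvd_card' p hp
  obtain ⟨y, hy⟩ := exists_prime_orderOf_dvd_card' q hq
  set Bp := Finset.univ.filter (· ∈ Cfsg.principalBlock Mp G) with hBp
  set Bq := Finset.univ.filter (· ∈ Cfsg.principalBlock Mq G) with hBq
  by_contra hnone
  push Not at hnone
  set Fp : G → ℂ := ∑ χ ∈ Bp, (starRingEnd ℂ) ((χ : G → ℂ) x) • (χ : G → ℂ) with hFp
  set Fq : G → ℂ := ∑ χ ∈ Bq, (starRingEnd ℂ) ((χ : G → ℂ) y) • (χ : G → ℂ) with hFq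
  have hzero : Cfsg.classInner Fp Fq = 0 := by
    rw [Chars.classInner_def, Finset.sum_eq_zero (fun g _ => ?_), mul_zero]
    by_cases hgp : p ∣ orderOf g
    · have hgq : ¬ q ∣ orderOf g := fun hgq => by
        have hcp : Nat.Coprime p q := (Nat.coprime_primes Fact.out Fact.out).2 hpq
        have hd : p * q ∣ orderOf g := hcp.mul_dvd_of_dvd_of_dvd hgp hgq
        exact hno _ (orderOf_pow_orderOf_div (orderOf_pos g).ne' hd)
      have h : Fq g = 0 := by
        have h1 := Blocks.block_orth_weak (M := Mq) hMq.2.2 Blocks.isPBlock_principal (x := g) hgq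
          (y := y) (by rw [hy])
        rw [hFq, Finset.sum_apply, ← h1]
        exact Finset.sum_congr rfl fun χ _ => mul_comm _ _
      rw [h, map_zero, mul_zero]
    · have h : Fp g = 0 := by
        have h1 := Blocks.block_orth_weak (M := Mp) hMp.2.2 Blocks.isPBlock_principal (x := g) hgp
          (y := x) (by rw [hx])
        rw [hFp, Finset.sum_apply, ← h1]
        exact Finset.sum_congr rfl fun χ _ => mul_comm _ _
      rw [h, zero_mul]
  have hone : Cfsg.classInner Fp Fq = 1 := by
    simp only [hFp, hFq, Chars.classInner_sum_left, Chars.classInner_sum_right,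
      Chars.classInner_smul_left, Chars.classInner_smul_right, Chars.classInner_irrCharacter]
    have hmem1 : Blocks.oneChar G ∈ Bp := by
      simp only [hBp, Finset.mem_filter, Finset.mem_univ, true_and]; exact Blocks.one_mem_principal
    have hmem2 : Blocks.oneChar G ∈ Bq := by
      simp only [hBq, Finset.mem_filter, Finset.mem_univ, true_and]; exact Blocks.one_mem_principal
    have hz : ∀ χ ∈ Bp, χ ≠ Blocks.oneChar G → χ ∉ Bq := fun χ hχ hne hχq => by
      simp only [hBp, hBq, Finset.mem_filter, Finset.mem_univ, true_and] at hχ hχq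
      exact hnone χ (fun h => hne (Subtype.ext h)) hχ hχq
    rw [Finset.sum_eq_single_of_mem _ hmem2, Finset.sum_eq_single_of_mem _ hmem1]
    · simp [Blocks.coe_oneChar]
    · intro χ hχ hne; rw [if_neg hne]; simp
    · intro ψ hψ hne
      rw [Finset.sum_eq_zero fun χ hχ => ?_, mul_zero]
      rw [if_neg (fun (h : χ = ψ) => hz χ hχ (by rw [h]; exact hne) (by rw [h]; exact hψ))]; simp
  rw [hzero] at hone
  exact zero_ne_one hone

end Cfsg.Agent.S4498
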