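import Cfsg.Statements.S4500
import Cfsg.Agent.S0144
import Cfsg.Agent.S4710
import Cfsg.Agent.Chars2.DefectOneApps
import Cfsg.Agent.FGS4.Kazarin
import Cfsg.Agent.Blocks.Orth
import Cfsg.Agent.OddChar.FeitCoherent
import Cfsg.Agent.Chars.Eigen
import Cfsg.Agent.FGS2.BurnsideClass

set_option autoImplicit false
open Cfsg Cfsg.Agent Cfsg.Agent.Blocks
open scoped ComplexConjugate

namespace Cfsg.Agent.S4500

/-- The principal block gives a non-principal character of degree prime to `p` and `r`. -/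
theorem exists_prime_to {G : Type*} [Group G] [Finite G] (p r : ℕ) (hp : p.Prime) (hr : r.Prime)
    (hd : p ∣ Nat.card G) (hp3 : (Nat.card G).factorization p ≤ 2) :
    ∃ χ : Cfsg.IrrCharacter G, (χ : G → ℂ) ≠ (fun _ => 1) ∧ ¬ p ∣ Cfsg.charDegree (χ : G → ℂ) ∧
      ¬ r ∣ Cfsg.charDegree (χ : G → ℂ) := by
  classical
  haveI := Fintype.ofFinite G
  haveI : Fact p.Prime := ⟨hp⟩
  obtain ⟨M, hM, hpM⟩ := FGS4.Kazarin.exists_maximal_mem p hp
  haveI := hM
  set B := principalBlock M G with hBdef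
  have hB : IsPBlock M B := isPBlock_principal
  have hdef := Chars2.Cyc.blockDefect_principal (G := G) p M
  have hh : ∀ χ ∈ B, (charDegree (χ : G → ℂ)).factorization p = 0 := by
    intro χ hχ
    have h := (S4710.result p M ⟨hp, hM, hpM⟩ B hB _ hdef).2 χ hχ
    have h0 : blockHeight p B (χ : G → ℂ) = 0 := by
      rcases Nat.lt_or_ge ((Nat.card G).factorization p) 2 with h1 | h1
      · exact h.1 (by omega)
      · have := h.2 h1
        omega
    have hinf : sInf ((fun ψ : IrrCharacter G => (charDegree (ψ : G → ℂ)).factorization p) '' B) = 0 :=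
      Nat.eq_zero_of_le_zero (Nat.sInf_le ⟨oneChar G, one_mem_principal, by simp [coe_oneChar, charDegree]⟩)
    rw [blockHeight, hinf, Nat.sub_zero] at h0
    exact h0
  by_contra hno
  simp only [not_exists, not_and, not_not] at hno
  obtain ⟨x, hx⟩ := exists_prime_orderOf_dvd_card' p hd
  have horth := block_orth_weak hpM hB (x := (1 : G)) (y := x) (by simpa using hp.ne_one) (dvd_of_eq hx.symm)
  rw [← Finset.add_sum_erase _ _ (Finset.mem_filter.mpr ⟨Finset.mem_univ _, one_mem_principal⟩)] at horth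
  have hall : ∀ χ ∈ (Finset.univ.filter (· ∈ B)).erase (oneChar G), ∃ w : ℂ, IsIntegral ℤ w ∧
      (χ : G → ℂ) 1 * conj ((χ : G → ℂ) x) = (r : ℂ) * w := by
    intro χ hχ
    obtain ⟨hne, hχB⟩ := Finset.mem_erase.mp hχ
    have hpd : ¬ p ∣ charDegree (χ : G → ℂ) := fun hdvd => by
      have := (hp.dvd_iff_one_le_factorization (charDegree_eq χ.2).2.ne').mp hdvd
      rw [hh χ (Finset.mem_filter.mp hχB).2] at this
      omega
    obtain ⟨m, hm⟩ := hno χ (fun h => hne (Subtype.ext h)) hpd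
    obtain ⟨n, ρ, -, hρ⟩ := χ.2
    refine ⟨(m : ℂ) * conj ((χ : G → ℂ) x), (isIntegral_natCast m).mul ?_, ?_⟩
    · rw [← hρ]
      exact (Chars.rep_char_isIntegral ρ x).map (starRingEnd ℂ).toIntAlgHom
    · rw [(charDegree_eq χ.2).1, hm, Nat.cast_mul]; ring
  choose! w hwi hwe using hall
  rw [coe_oneChar, Finset.sum_congr rfl hwe, ← Finset.mul_sum] at horth
  exact FGS2.isIntegral_not_neg_inv r hr _ (IsIntegral.sum _ hwi) (by simpa using horth)

theorem exists_power_degree {G : Type*} [Group G] [Finite G] [Nontrivial G] (p q r a b c : ℕ) (hp : p.Prime)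
    (hq : q.Prime) (hr : r.Prime) (hpq : p ≠ q) (hpr : p ≠ r) (ha : a ≤ 2)
    (hG : Nat.card G = p ^ a * q ^ b * r ^ c) :
    ∃ χ : Cfsg.IrrCharacter G, (χ : G → ℂ) ≠ (fun _ => 1) ∧ ∃ k : ℕ, Cfsg.charDegree (χ : G → ℂ) = q ^ k := by
  classical
  haveI := Fintype.ofFinite G
  rcases Nat.eq_zero_or_pos a with rfl | ha0
  · have hsol := S0144.result (G := G) q r b c hq hr (by rw [hG, pow_zero, one_mul])
    obtain ⟨μ, hμ, hne, h1⟩ := OddChar.exists_linear_ne_one hsol
    refine ⟨⟨μ, hμ⟩, hne, 0, ?_⟩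
    have := (charDegree_eq hμ).1
    rw [h1] at this
    rw [pow_zero]
    exact_mod_cast this.symm
  have hfac : (Nat.card G).factorization p ≤ 2 := by
    have hq1 : q.factorization p = 0 := by simp [hq.factorization, Ne.symm hpq]
    have hr1 : r.factorization p = 0 := by simp [hr.factorization, Ne.symm hpr]
    rw [hG, Nat.factorization_mul (mul_ne_zero (pow_ne_zero _ hp.ne_zero) (pow_ne_zero _ hq.ne_zero)) (pow_ne_zero _ hr.ne_zero),
      Nat.factorization_mul (pow_ne_zero _ hp.ne_zero) (pow_ne_zero _ hq.ne_zero)]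
    simp [Nat.factorization_pow, hq1, hr1, hp.factorization_self, ha]
  obtain ⟨χ, hne, hp', hr'⟩ := exists_prime_to p r hp hr (hG ▸ ((dvd_pow_self p ha0.ne').mul_right _).mul_right _) hfac
  refine ⟨χ, hne, ?_⟩
  have hd := charDegree_dvd χ.2
  rw [hG] at hd
  have h1 : (charDegree (χ : G → ℂ)).Coprime (p ^ a) := ((hp.coprime_iff_not_dvd.mpr hp').symm).pow_right a
  have h2 : (charDegree (χ : G → ℂ)).Coprime (r ^ c) := ((hr.coprime_iff_not_dvd.mpr hr').symm).pow_right c
  obtain ⟨k, -, hk⟩ := (Nat.dvd_prime_pow hq).mp (h1.dvd_of_dvd_mul_left (h2.dvd_of_dvd_mul_right hd))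
  exact ⟨k, hk⟩

/-- Let G be a non-trivial finite group of order p^a · q^b · r^c with p, q, r distinct primes and a ≤ 2. Then G has a non-principal irreducible character whose degree is a power of q, and a non-principal irreducible character whose degree is a power of r; the power may be the zeroth, so a non-principal linear character serves for both. -/
theorem result {G : Type*} [Group G] [Finite G] [Nontrivial G] (p q r a b c : ℕ) (hp : p.Prime) (hq : q.Prime) (hr : r.Prime) (hpq : p ≠ q) (hpr : p ≠ r) (hqr : q ≠ r) (ha : a ≤ 2) (hG : Nat.card G = p ^ a * q ^ b * r ^ c) : (∃ χ : Cfsg.IrrCharacter G, (χ : G → ℂ) ≠ (fun _ => 1) ∧ ∃ k : ℕ, Cfsg.charDegree (χ : G → ℂ) = q ^ k) ∧ ∃ χ : Cfsg.IrrCharacter G, (χ : G → ℂ) ≠ (fun _ => 1) ∧ ∃ k : ℕ, Cfsg.charDegree (χ : G → ℂ) = r ^ k := by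
  exact ⟨exists_power_degree p q r a b c hp hq hr hpq hpr ha hG,
    exists_power_degree p r q a c b hp hr hq hpr hpq ha (by rw [hG]; ring)⟩

end Cfsg.Agent.S4500
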