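import Cfsg.Statements.S4502
import Cfsg.Agent.Chars2.McKayOnceTransfer
import Cfsg.Agent.DegreeGraph.AbelianNormal

set_option autoImplicit false
open Cfsg Cfsg.Agent Cfsg.Agent.Chars2.Cyc

namespace Cfsg.Agent.S4502

/-- Let G be a finite group whose order is divisible by the prime p exactly once, and let P be a Sylow p-subgroup. Then the number of irreducible characters of G of degree not divisible by p equals the number of conjugacy classes of the normalizer of P. -/
theorem result {G : Type*} [Group G] [Finite G] (p : ℕ) [Fact p.Prime] (hdiv : p ∣ Nat.card G) (hsq : ¬ p ^ 2 ∣ Nat.card G) (P : Sylow p G) : Nat.card {χ : Cfsg.IrrCharacter G // ¬ p ∣ Cfsg.charDegree (χ : G → ℂ)} = Nat.card (ConjClasses (Subgroup.normalizer ((P : Subgroup G) : Set G))) := by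
  classical
  haveI := Fintype.ofFinite G
  obtain ⟨M, hMax, hpM⟩ : ∃ M : Ideal Cfsg.AlgInt, M.IsMaximal ∧ (p : Cfsg.AlgInt) ∈ M :=
    DegreeGraph.exists_isMaximal_mem p
  have hv : (Nat.card G).factorization p = 1 := by
    have hp := Fact.out (p := p.Prime)
    have h1 := hp.factorization_pos_of_dvd Nat.card_pos.ne' hdiv
    by_contra hne
    exact hsq ((hp.pow_dvd_iff_le_factorization Nat.card_pos.ne').2 (by omega))
  have hP : Nat.card (P : Subgroup G) = p := by rw [P.card_eq_multiplicity, hv, pow_one]
  obtain ⟨x, hx, hPx, -, -, -⟩ := exists_sylow_gen p P hP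
  set N := Subgroup.normalizer ((P : Subgroup G) : Set G) with hN
  rw [count_eq_normalizer (N := N) hpM hdiv hsq hx (by rw [hN, hPx])]
  haveI : Fintype N := Fintype.ofFinite N
  rw [← Chars.card_irr_eq_card_conjClasses]
  refine Nat.card_congr (Equiv.subtypeUnivEquiv fun χ => fun hdvd => ?_)
  haveI : ((P : Subgroup G).subgroupOf N).Normal := Subgroup.normal_in_normalizer
  have hcardP : Nat.card ((P : Subgroup G).subgroupOf N) = p := by
    rw [Nat.card_congr (Subgroup.subgroupOfEquivOfLe Subgroup.le_normalizer).toEquiv, hP]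
  haveI : IsCyclic ((P : Subgroup G).subgroupOf N) := isCyclic_of_prime_card hcardP
  letI := IsCyclic.commGroup (α := ((P : Subgroup G).subgroupOf N))
  have h := Chars2.charDegree_dvd_index (A := (P : Subgroup G).subgroupOf N)
    (fun a ha b hb => congrArg Subtype.val (mul_comm (⟨a, ha⟩ : (P : Subgroup G).subgroupOf N) ⟨b, hb⟩)) χ
  have h2 := mul_dvd_mul_left p (dvd_trans hdvd h)
  have h3 := Subgroup.card_mul_index ((P : Subgroup G).subgroupOf N)
  rw [hcardP] at h3
  rw [h3] at h2
  exact hsq ((pow_two p).symm ▸ h2.trans (Subgroup.card_subgroup_dvd_card N))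

end Cfsg.Agent.S4502
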