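import Cfsg.Statements.S4508
import Cfsg.Agent.OddChar.SelfCentChar

set_option autoImplicit false
open Cfsg

namespace Cfsg.Agent.S4508

/-- Let the finite group G contain an element x of prime order p with C_G(x) = ⟨x⟩, and let t be the number of conjugacy classes of elements of order p. If G has an irreducible character of degree p − 1, then t is even or the commutator subgroup has even index. -/
theorem result {G : Type*} [Group G] [Finite G] (p : ℕ) (hp : p.Prime) (x : G) (hx : orderOf x = p) (hC : Subgroup.centralizer ({x} : Set G) = Subgroup.zpowers x) (t : ℕ) (ht : Nat.card {C : ConjClasses G // ∃ g ∈ C.carrier, orderOf g = p} = t) (χ : Cfsg.IrrCharacter G) (hχ : Cfsg.charDegree (χ : G → ℂ) + 1 = p) : Even t ∨ Even (commutator G).index := by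
  classical
  haveI := Fintype.ofFinite G
  haveI := Fact.mk hp
  obtain ⟨P, hP⟩ := OddChar.SelfCent.exists_sylow hx hC
  have hte := OddChar.SelfCent.count_classes hx hC hP
  rw [ht] at hte
  by_cases hp2 : p = 2
  · refine Or.inr ?_
    have he : OddChar.SelfCent.e P = 1 := by
      subst hp2
      exact Nat.eq_one_of_mul_eq_one_left (show t * OddChar.SelfCent.e P = 1 from hte)
    rw [(OddChar.SelfCent.commutator_eq_core hx hC hP he).2, hp2]
    exact even_two
  rcases Nat.even_or_odd t with h | h
  · exact Or.inl h
  refine Or.inr ?_
  have he : Even (OddChar.SelfCent.e P) := by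
    rcases Nat.even_or_odd (OddChar.SelfCent.e P) with h' | h'
    · exact h'
    · exfalso
      have h1 : Odd (p - 1) := hte ▸ h.mul h'
      have h2 := hp.odd_of_ne_two hp2
      rcases h1 with ⟨a, ha⟩
      rcases h2 with ⟨b, hb⟩
      omega
  refine OddChar.SelfCent.index_even_of_degree hx hC hP he hte h χ ?_
  rw [OddChar.deg_spec (Chars.isCharacter_of_isIrr χ.2)]
  congr 1
  change Cfsg.charDegree (χ : G → ℂ) = p - 1
  omega

end Cfsg.Agent.S4508
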