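import Cfsg.Statements.S4509
import Cfsg.Agent.OddChar.SelfCentPrime

set_option autoImplicit false
open Cfsg

open scoped commutatorElement
namespace Cfsg.Agent.S4509

/-- Let the finite group G contain an element x of prime order p with C_G(x) = ⟨x⟩; let t be the number of conjugacy classes of elements of order p and 1 + n·p the number of subgroups of order p. Then G has a normal subgroup of order 1 + n·p if and only if either t = p − 1, or t < p − 1 and G″ ≠ G′. Moreover, if t = p − 1 then G′ has order 1 + n·p and G/G′ is cyclic of order p; and if t < p − 1 and G″ ≠ G′ then G″ has order 1 + n·p and G′ has order p·(1 + n·p). -/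
theorem result {G : Type*} [Group G] [Finite G] (p : ℕ) (hp : p.Prime) (x : G) (hx : orderOf x = p) (hC : Subgroup.centralizer ({x} : Set G) = Subgroup.zpowers x) (t : ℕ) (ht : Nat.card {C : ConjClasses G // ∃ g ∈ C.carrier, orderOf g = p} = t) (n : ℕ) (hn : Nat.card {H : Subgroup G // Nat.card H = p} = 1 + n * p) : ((∃ S : Subgroup G, S.Normal ∧ Nat.card S = 1 + n * p) ↔ (t = p - 1 ∨ (t < p - 1 ∧ derivedSeries G 2 ≠ derivedSeries G 1))) ∧ (t = p - 1 → Nat.card (commutator G) = 1 + n * p ∧ IsCyclic (G ⧸ commutator G) ∧ (commutator G).index = p) ∧ (t < p - 1 → derivedSeries G 2 ≠ derivedSeries G 1 → Nat.card (derivedSeries G 2) = 1 + n * p ∧ Nat.card (commutator G) = p * (1 + n * p)) := by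
  haveI := Fact.mk hp
  obtain ⟨P, hP⟩ := OddChar.SelfCent.exists_sylow hx hC
  have hte := OddChar.SelfCent.count_classes hx hC hP
  rw [ht] at hte
  have hp1 := hp.two_le
  have he0 := OddChar.SelfCent.e_pos hx hC hP
  have hG := OddChar.SelfCent.card_G_eq hx hC hP hn
  have h1 : derivedSeries G 1 = commutator G := derivedSeries_one G
  have h2 : derivedSeries G 2 = ⁅commutator G, commutator G⁆ := by rw [← h1]; rfl
  rw [h1, h2]
  have hiff : t = p - 1 ↔ OddChar.SelfCent.e P = 1 := by
    constructor
    · intro h; subst h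
      exact Nat.eq_of_mul_eq_mul_left (show 0 < p - 1 by omega) (by omega)
    · intro h; rw [h, mul_one] at hte; exact hte
  have htle : t ≤ p - 1 := hte ▸ Nat.le_mul_of_pos_right t he0
  have case1 : t = p - 1 → Nat.card (commutator G) = 1 + n * p ∧ IsCyclic (G ⧸ commutator G) ∧
      (commutator G).index = p := by
    intro h
    obtain ⟨-, hi⟩ := OddChar.SelfCent.commutator_eq_core hx hC hP (hiff.mp h)
    refine ⟨?_, isCyclic_of_prime_card (α := G ⧸ commutator G) (p := p) hi, hi⟩
    have := (commutator G).card_mul_index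
    rw [hi, hG, hiff.mp h, mul_one, mul_comm] at this
    exact Nat.eq_of_mul_eq_mul_left hp.pos this
  have case2 : t < p - 1 → ⁅commutator G, commutator G⁆ ≠ commutator G →
      Nat.card ↥⁅commutator G, commutator G⁆ = 1 + n * p ∧ Nat.card (commutator G) = p * (1 + n * p) := by
    intro h hne
    obtain ⟨a, b, c⟩ := OddChar.SelfCent.card_of_second_derived hx hC hP
      (fun he => h.ne (hiff.mpr he)) hne hn
    exact ⟨by rw [a]; exact b, c⟩
  refine ⟨⟨fun ⟨S, hS, hcard⟩ => ?_, ?_⟩, case1, case2⟩
  · rcases eq_or_lt_of_le htle with h | h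
    · exact Or.inl h
    · haveI := hS
      exact Or.inr ⟨h, OddChar.SelfCent.second_derived_lt_of_sup hx hC hP
        (OddChar.SelfCent.eq_core_of_card hx hC hP hn S hcard).2 (fun he => h.ne (hiff.mpr he))⟩
  · rintro (h | ⟨h, hne⟩)
    · exact ⟨commutator G, inferInstance, (case1 h).1⟩
    · exact ⟨⁅commutator G, commutator G⁆, inferInstance, (case2 h hne).1⟩

end Cfsg.Agent.S4509
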