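import Cfsg.Statements.S4636
-- import your own Cfsg.Agent.* helpers here

set_option autoImplicit false
open scoped Pointwise
open Cfsg

namespace Cfsg.Agent.S4636

theorem le_of_card_prime {G : Type*} [Group G] [Finite G] {p : ℕ} [hpf : Fact p.Prime] {P Z Q : Subgroup G}
    (hP : IsPGroup p P) (hcyc : IsCyclic P) (hZ : Z ≤ P) (hZc : Nat.card Z = p)
    (hQ : Q ≤ P) (hQ1 : Q ≠ ⊥) : Z ≤ Q := by
  have hQp : IsPGroup p Q := hP.to_le hQ
  have hdvd : p ∣ Nat.card Q := by
    obtain ⟨n, hn⟩ := IsPGroup.iff_card.mp hQp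
    rcases n with _ | n
    · exact absurd (Subgroup.card_eq_one.mp (by simpa using hn)) hQ1
    · exact hn ▸ dvd_pow_self p n.succ_ne_zero
  obtain ⟨a, ha⟩ := exists_prime_orderOf_dvd_card' p hdvd
  have hA : (Subgroup.zpowers (a : G)) ≤ Q := by simp [Subgroup.zpowers_le]
  have hcard : Nat.card (Subgroup.zpowers (a : G)) = p := by
    rw [Nat.card_zpowers, Subgroup.orderOf_coe, ha]
  classical
  haveI := hcyc
  letI := Fintype.ofFinite P
  set A := Subgroup.zpowers (a : G) with hAdef
  have hbound := IsCyclic.card_pow_eq_one_le (α := P) (Fact.out : p.Prime).pos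
  set T := Finset.univ.filter (fun x : P => x ^ p = 1) with hT
  have hmem : ∀ R : Subgroup G, R ≤ P → Nat.card R = p →
      Finset.univ.filter (fun x : P => (x : G) ∈ R) = T := by
    intro R hR hRc
    apply Finset.eq_of_subset_of_card_le
    · intro x hx
      simp only [Finset.mem_filter, Finset.mem_univ, true_and, hT] at hx ⊢
      apply Subtype.ext
      have := congrArg Subtype.val (pow_card_eq_one' (x := (⟨x, hx⟩ : R)))
      rw [hRc] at this
      simpa using this
    · refine le_trans hbound (le_of_eq ?_)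
      rw [← Fintype.card_subtype, ← Nat.card_eq_fintype_card]
      rw [← hRc]
      exact (Nat.card_congr ⟨fun x => ⟨x.1.1, x.2⟩, fun x => ⟨⟨x.1, hR x.2⟩, x.2⟩,
        fun x => rfl, fun x => rfl⟩).symm
  have h2 : Z = A := by
    ext x
    constructor <;> intro hx
    · have := Finset.ext_iff.mp ((hmem Z hZ hZc).trans (hmem A (hA.trans hQ) hcard).symm) ⟨x, hZ hx⟩
      simp only [Finset.mem_filter, Finset.mem_univ, true_and] at this
      exact this.mp hx
    · have := Finset.ext_iff.mp ((hmem Z hZ hZc).trans (hmem A (hA.trans hQ) hcard).symm) ⟨x, (hA.trans hQ) hx⟩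
      simp only [Finset.mem_filter, Finset.mem_univ, true_and] at this
      exact this.mpr hx
  exact h2 ▸ hA

/-- Let P be a nontrivial cyclic p-subgroup of the finite group G and Z its subgroup of order p. For every x outside N_G(Z), P meets its conjugate xPx⁻¹ trivially; consequently N_G(Q) ≤ N_G(Z) for every nontrivial subgroup Q of P. -/
theorem result {G : Type*} [Group G] [Finite G] (p : ℕ) [Fact p.Prime] (P : Subgroup G) (hP : IsPGroup p P) (hP1 : P ≠ ⊥) (hcyc : IsCyclic P) (Z : Subgroup G) (hZ : Z ≤ P) (hZcard : Nat.card Z = p) : (∀ x : G, x ∉ Subgroup.normalizer (Z : Set G) → P ⊓ MulAut.conj x • P = ⊥) ∧ ∀ Q : Subgroup G, Q ≤ P → Q ≠ ⊥ → Subgroup.normalizer (Q : Set G) ≤ Subgroup.normalizer (Z : Set G) := by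
  have key : ∀ x : G, x ∉ Subgroup.normalizer (Z : Set G) → P ⊓ MulAut.conj x • P = ⊥ := by
    intro x hx
    by_contra hne
    apply hx
    have hle : Z ≤ MulAut.conj x • P :=
      (le_of_card_prime hP hcyc hZ hZcard inf_le_left hne).trans inf_le_right
    have hback : (MulAut.conj x)⁻¹ • Z ≤ P := Subgroup.subset_pointwise_smul_iff.mp hle
    have hc : Nat.card ((MulAut.conj x)⁻¹ • Z : Subgroup G) = p := by
      rw [← hZcard]; exact (Nat.card_congr (Subgroup.equivSMul _ Z).toEquiv).symm
    have hb : ((MulAut.conj x)⁻¹ • Z : Subgroup G) ≠ ⊥ := by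
      intro h; rw [h, Subgroup.card_bot] at hc; exact (Fact.out : p.Prime).ne_one hc.symm
    have heq : Z = (MulAut.conj x)⁻¹ • Z :=
      Subgroup.eq_of_le_of_card_ge (le_of_card_prime hP hcyc hZ hZcard hback hb) (by rw [hc, hZcard])
    rw [Subgroup.mem_normalizer_iff]
    intro h
    have h2 : MulAut.conj x • Z = Z := by
      conv_lhs => rw [heq]
      exact smul_inv_smul _ _
    conv_rhs => rw [← h2]
    exact (Subgroup.smul_mem_pointwise_smul_iff (a := MulAut.conj x)).symm
  refine ⟨key, fun Q hQ hQ1 x hx => ?_⟩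
  by_contra hxn
  apply hQ1
  rw [eq_bot_iff, ← key x hxn]
  intro q hq
  refine ⟨hQ hq, ?_⟩
  have : MulAut.conj x⁻¹ q ∈ Q := by
    have := (Subgroup.mem_normalizer_iff.mp ((Subgroup.normalizer (Q : Set G)).inv_mem hx) q).mp hq
    simpa [MulAut.conj_apply] using this
  refine Subgroup.mem_pointwise_smul_iff_inv_smul_mem.mpr (hQ ?_)
  simpa [MulAut.smul_def] using this

end Cfsg.Agent.S4636
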