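import Cfsg.Statements.S4639
import Cfsg.Agent.BlockChar.FreeBlockCount
import Cfsg.Agent.Blocks.CyclicLocal
-- import your own Cfsg.Agent.* helpers here

set_option autoImplicit false
open Cfsg
open Cfsg.Agent Cfsg.Agent.BlockChar Cfsg.Agent.Blocks

namespace Cfsg.Agent.S4639

/-- Let B be a block of the finite group G relative to a maximal ideal M of the algebraic integers containing the prime p, with a nontrivial commutative defect group P. Let c be a block of C_G(P) inducing B, T the stabilizer of c in N_G(P) and e the index of C_G(P) in T. Suppose that T/C_G(P) is commutative (all commutators of elements of T lie in C_G(P)) and acts freely on the non-identity elements of P (an element of T fixing a non-identity element of P under conjugation lies in C_G(P)). Then B has at most e + (#P − 1)/e irreducible characters and p-regular rank at most e; equality holds in the first bound exactly when it holds in the second; and both equalities hold when e ≤ 3. -/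
theorem result {G : Type*} [Group G] [Finite G] (p : ℕ) [Fact p.Prime] (M : Ideal Cfsg.AlgInt) (hM : Cfsg.IsPModular p M) (B : Set (Cfsg.IrrCharacter G)) (hB : Cfsg.IsPBlock M B) (P : Subgroup G) (hPD : Cfsg.IsDefectGroup p M B P) (hP1 : P ≠ ⊥) (hPab : ∀ x ∈ P, ∀ y ∈ P, x * y = y * x) (c : Set (Cfsg.IrrCharacter (Subgroup.centralizer (P : Set G)))) (hc : Cfsg.IsInducedBlock M (Subgroup.centralizer (P : Set G)) c B) (T : Subgroup G) (hT : ∀ g : G, g ∈ T ↔ (g ∈ Subgroup.normalizer (P : Set G) ∧ Cfsg.StabilizesBlock (Subgroup.centralizer (P : Set G)) c g)) (e : ℕ) (he : (Subgroup.centralizer (P : Set G)).relIndex T = e) (hEab : ∀ g ∈ T, ∀ h ∈ T, g * h * g⁻¹ * h⁻¹ ∈ Subgroup.centralizer (P : Set G)) (hfree : ∀ g ∈ T, ∀ x ∈ P, x ≠ 1 → g * x * g⁻¹ = x → g ∈ Subgroup.centralizer (P : Set G)) : Nat.card B ≤ e + (Nat.card P - 1) / e ∧ Cfsg.blockRank p B ≤ e ∧ (Nat.card B = e + (Nat.card P - 1) / e ↔ Cfsg.blockRank p B = e) ∧ (e ≤ 3 → Nat.card B = e + (Nat.card P - 1) / e ∧ Cfsg.blockRank p B = e) := by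
  classical
  haveI := Fintype.ofFinite G
  obtain ⟨-, hmax0, hpM⟩ := hM
  haveI := hmax0
  haveI := charP_res (p := p) hpM
  have hPC : P ≤ Subgroup.centralizer (P : Set G) := fun x hx =>
    Subgroup.mem_centralizer_iff.mpr fun y hy => hPab y hy x hx
  obtain ⟨hmax, ho⟩ := maxPair_of_induced hpM hPD hPC hc
  have hTeq : T = stab P (idemS M c) := eq_stab hpM hc.1 hT
  subst hTeq
  subst he
  have D : FreePair p B P (idemS M c) := ⟨hpM, ⟨hmax, hc.2.1, ho⟩, hPab, hfree⟩
  obtain ⟨-, hcount⟩ := card_eq_of_free hpM hPD hPab hc hfree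
  set E := (Subgroup.centralizer (P : Set G)).relIndex (stab P (idemS M c)) with hE
  have hE1 : 1 ≤ E := Nat.one_le_iff_ne_zero.mpr Subgroup.index_ne_zero_of_finite
  have hge : blockRank p B ≤ Nat.card B := by
    by_contra h
    have := Nat.mul_lt_mul_of_pos_left (not_le.mp h) (show 0 < E by omega)
    omega
  obtain ⟨r, hk⟩ := Nat.exists_eq_add_of_le hge
  have hr : E * r = Nat.card P - 1 := by
    rw [hk, mul_add] at hcount
    omega
  have hdiv : (Nat.card P - 1) / E = r := by rw [← hr, Nat.mul_div_cancel_left r (by omega)]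
  obtain ⟨hle, hsmall⟩ := D.count hP1 hk hr
  rw [hdiv]
  refine ⟨by omega, hle, by omega, fun he3 => ?_⟩
  suffices h : blockRank p B = E by exact ⟨by omega, h⟩
  rcases hsmall he3 with h | hexc
  · exact h
  have hcases : Nat.card P = 7 ∨ Nat.card P = 10 ∨ Nat.card P = 13 := by
    have h1 : 1 ≤ Nat.card P := Nat.card_pos
    rcases hexc with ⟨h2, h3⟩ | ⟨h2, h3 | h3⟩ <;> rw [← hE] at h2 <;> rw [h2, h3] at hr <;> omega
  obtain ⟨a, ha⟩ := (IsPGroup.iff_card).mp hmax.pair.pgroup
  have hprime : (Nat.card P).Prime := by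
    rcases hcases with h | h | h
    · rw [h]; norm_num
    · exfalso
      have h5 : (5 : ℕ) ∣ p ^ a := ⟨2, by omega⟩
      have h2 : (2 : ℕ) ∣ p ^ a := ⟨5, by omega⟩
      have e5 := (Nat.prime_dvd_prime_iff_eq (by norm_num) (Fact.out : p.Prime)).mp
        ((by norm_num : Nat.Prime 5).dvd_of_dvd_pow h5)
      have e2 := (Nat.prime_dvd_prime_iff_eq (by norm_num) (Fact.out : p.Prime)).mp
        (Nat.prime_two.dvd_of_dvd_pow h2)
      omega
    · rw [h]; norm_num
  haveI : Fact (Nat.card P).Prime := ⟨hprime⟩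
  exact (CyclicStructure.cyclic_structure hpM hPD (isCyclic_of_prime_card rfl) hP1 ha hc
    (CyclicLocal.low_bound hpM hPD (isCyclic_of_prime_card rfl) hP1 hc)).1

end Cfsg.Agent.S4639
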