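import Cfsg.Statements.S4640
import Cfsg.Agent.Blocks.AbelianExtend
import Cfsg.Agent.Blocks.StableCover
import Cfsg.Agent.BlockChar.PPowerIndex
-- import your own Cfsg.Agent.* helpers here

set_option autoImplicit false
open Cfsg

namespace Cfsg.Agent.S4640

/-- Let N be a normal subgroup of the finite group G of index a power of the prime p, M a maximal ideal of the algebraic integers containing p, b a block of N stabilized by every element of G, and B a block of G covering b (some member of B has a member of b as a constituent of its restriction to N). Suppose that B has a commutative defect group P. Then G = NP and P ∩ N is a defect group of b; every member of B restricts to a member of b; every member of b is the restriction of exactly [G : N] members of B; B contains exactly [G : N] times as many irreducible characters as b; and B and b have the same p-regular rank. -/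
theorem result {G : Type*} [Group G] [Fintype G] (p : ℕ) [Fact p.Prime] (M : Ideal Cfsg.AlgInt) (hM : Cfsg.IsPModular p M) (N : Subgroup G) [N.Normal] [Fintype N] (hNi : ∃ k : ℕ, N.index = p ^ k) (b : Set (Cfsg.IrrCharacter N)) (hb : Cfsg.IsPBlock M b) (hstab : ∀ g : G, Cfsg.StabilizesBlock N b g) (B : Set (Cfsg.IrrCharacter G)) (hB : Cfsg.IsPBlock M B) (hcov : ∃ χ ∈ B, ∃ θ ∈ b, Cfsg.classInner (fun n : N => (χ : G → ℂ) n) (θ : N → ℂ) ≠ 0) (P : Subgroup G) (hPD : Cfsg.IsDefectGroup p M B P) (hPab : ∀ x ∈ P, ∀ y ∈ P, x * y = y * x) : N ⊔ P = ⊤ ∧ Cfsg.IsDefectGroup p M b ((P ⊓ N).subgroupOf N) ∧ (∀ χ ∈ B, ∃ θ ∈ b, ∀ n : N, (χ : G → ℂ) n = (θ : N → ℂ) n) ∧ (∀ θ ∈ b, Nat.card {χ : Cfsg.IrrCharacter G // χ ∈ B ∧ ∀ n : N, (χ : G → ℂ) n = (θ : N → ℂ) n} = N.index) ∧ Nat.card B = N.index * Nat.card b ∧ Cfsg.blockRank p B = Cfsg.blockRank p b := by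
  classical
  haveI : M.IsMaximal := hM.2.1
  have hpM : (p : Cfsg.AlgInt) ∈ M := hM.2.2
  obtain ⟨k, hk⟩ := hNi
  obtain ⟨⟨B', hB', hco⟩, hall⟩ := Cfsg.Agent.BlockChar.exists_block_of_stable hpM hk hb hstab
  have hidem := Cfsg.Agent.BlockChar.idemG_of_coeff hpM (N := N) hco
  have hblk := Cfsg.Agent.BlockChar.isBlk_idemS hpM hb
  have hcov' := Cfsg.Agent.Blocks.covers_of_idem_mul_ne_zero hpM hB' hb
    (by rw [hidem, hblk.idem]; exact hblk.ne_zero)
  obtain rfl : B = B' := (Cfsg.Agent.Blocks.existsUnique_covering hpM hk hb).unique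
    ⟨hB, hcov⟩ ⟨hB', hcov'⟩
  obtain ⟨hsup, hdef⟩ := hall B hB hco P hPD
  have hinv : Cfsg.Agent.Blocks.ConjInv b := by
    intro φ g hφ
    obtain ⟨χ', hχ', hconj⟩ := (hstab g).2 φ hφ
    have : Cfsg.Agent.Blocks.conjIrr φ g = χ' := by
      apply Subtype.ext
      funext n
      show (φ : N → ℂ) ((MulAut.conjNormal g⁻¹ : MulAut N) n) = _
      exact (hconj _ n (by simp [MulAut.conjNormal_apply, mul_assoc])).symm
    rwa [this]
  obtain ⟨hres, hcnt⟩ :=
    Cfsg.Agent.Blocks.restrict_extend hpM hk hb hinv hB hcov hPD hsup hPab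
  choose r hrb hr using hres
  refine ⟨hsup, hdef, fun χ hχ => ⟨_, hrb χ hχ, hr χ hχ⟩, hcnt, ?_, ?_⟩
  · let F : B → b := fun χ => ⟨r χ.1 χ.2, hrb χ.1 χ.2⟩
    rw [Nat.card_congr (Equiv.sigmaFiberEquiv F).symm, Nat.card_sigma]
    have hfib : ∀ θ : b, Nat.card {χ : B // F χ = θ} = N.index := by
      intro θ
      rw [← hcnt θ.1 θ.2]
      refine Nat.card_congr
        { toFun := fun χ => ⟨χ.1.1, χ.1.2, fun n =>
            (hr _ χ.1.2 n).trans (congrArg (fun t : b => (t.1 : N → ℂ) n) χ.2)⟩
          invFun := fun χ => ⟨⟨χ.1, χ.2.1⟩, Subtype.ext (Subtype.ext (funext fun n =>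
            ((hr _ χ.2.1 n).symm.trans (χ.2.2 n))))⟩
          left_inv := fun χ => rfl
          right_inv := fun χ => rfl }
    simp only [hfib, Finset.sum_const, Finset.card_univ, smul_eq_mul, ← Nat.card_eq_fintype_card]
    exact mul_comm _ _
  · let E : (N → ℂ) →ₗ[ℂ] (G → ℂ) :=
      { toFun := Cfsg.extendByZero N
        map_add' := fun f g => by
          funext x
          by_cases hx : x ∈ N
          · simp [Cfsg.Agent.Chars.extendByZero_of_mem N _ hx]
          · simp [Cfsg.Agent.Chars.extendByZero_of_not_mem N _ hx]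
        map_smul' := fun a f => by
          funext x
          by_cases hx : x ∈ N
          · simp [Cfsg.Agent.Chars.extendByZero_of_mem N _ hx]
          · simp [Cfsg.Agent.Chars.extendByZero_of_not_mem N _ hx] }
    have hE : Function.Injective E := fun f g h => funext fun n => by
      have := congrFun h n
      simpa [E, Cfsg.Agent.Chars.extendByZero_coe] using this
    have hreg : ∀ (χ : Cfsg.IrrCharacter G) (θ : Cfsg.IrrCharacter N),
        (∀ n : N, (χ : G → ℂ) n = (θ : N → ℂ) n) →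
        Cfsg.pRegularPart p (χ : G → ℂ) = E (Cfsg.pRegularPart p (θ : N → ℂ)) := by
      intro χ θ h
      funext x
      show _ = Cfsg.extendByZero N _ x
      by_cases hx : x ∈ N
      · rw [Cfsg.Agent.Chars.extendByZero_of_mem N _ hx, Cfsg.pRegularPart, Cfsg.pRegularPart]
        have : Cfsg.IsPRegular p (⟨x, hx⟩ : N) ↔ Cfsg.IsPRegular p x := by
          rw [Cfsg.IsPRegular, Cfsg.IsPRegular, Subgroup.orderOf_mk]
        simp only [this]
        split_ifs
        · exact h ⟨x, hx⟩
        · rfl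
      · rw [Cfsg.Agent.Chars.extendByZero_of_not_mem N _ hx, Cfsg.pRegularPart]
        exact if_neg fun hr => hx (Cfsg.Agent.BlockChar.mem_of_isPRegular_of_index hk hr)
    have himg : (fun χ : Cfsg.IrrCharacter G => Cfsg.pRegularPart p (χ : G → ℂ)) '' B =
        E '' ((fun θ : Cfsg.IrrCharacter N => Cfsg.pRegularPart p (θ : N → ℂ)) '' b) := by
      rw [Set.image_image]
      ext f
      constructor
      · rintro ⟨χ, hχ, rfl⟩
        exact ⟨r χ hχ, hrb χ hχ, (hreg _ _ (hr χ hχ)).symm⟩
      · rintro ⟨θ, hθ, rfl⟩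
        have hne : Nat.card {χ : Cfsg.IrrCharacter G //
            χ ∈ B ∧ ∀ n : N, (χ : G → ℂ) n = (θ : N → ℂ) n} ≠ 0 := by
          rw [hcnt θ hθ]; exact Subgroup.index_ne_zero_of_finite
        obtain ⟨⟨χ, hχ, hχθ⟩⟩ := (Nat.card_ne_zero.1 hne).1
        exact ⟨χ, hχ, hreg _ _ hχθ⟩
    rw [Cfsg.blockRank, Cfsg.blockRank, himg, Submodule.span_image]
    exact (Submodule.equivMapOfInjective E hE _).finrank_eq.symm

end Cfsg.Agent.S4640
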