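import Cfsg.Statements.S4641
import Cfsg.Agent.Blocks.BrauerBlock
-- import your own Cfsg.Agent.* helpers here

set_option autoImplicit false
open Cfsg Cfsg.Agent Cfsg.Agent.BlockChar Cfsg.Agent.Blocks

namespace Cfsg.Agent.S4641

/-- Let B be a block of the finite group G relative to a maximal ideal M of the algebraic integers containing the prime p, let p^a be the p-part of the order of G and p^d the order of a defect group D of B, and let g be the greatest common divisor of the degrees of the members of B. Then the p-part of g is exactly p^(a−d), and writing g = p^(a−d)·u there is a positive integer v, prime to p and at least the p-regular rank of B (its number of irreducible Brauer characters), with Σ_{χ ∈ B} χ(1)² = p^(2a−d)·u²·v. -/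
theorem result {G : Type*} [Group G] [Finite G] (p : ℕ) [Fact p.Prime] (M : Ideal Cfsg.AlgInt) (hM : Cfsg.IsPModular p M) (B : Set (Cfsg.IrrCharacter G)) (hB : Cfsg.IsPBlock M B) (D : Subgroup G) (hD : Cfsg.IsDefectGroup p M B D) (a d : ℕ) (ha : (Nat.card G).factorization p = a) (hd : Nat.card D = p ^ d) (g : ℕ) (hg1 : ∀ χ ∈ B, g ∣ Cfsg.charDegree (χ : G → ℂ)) (hg2 : ∀ g' : ℕ, (∀ χ ∈ B, g' ∣ Cfsg.charDegree (χ : G → ℂ)) → g' ∣ g) : g.factorization p = a - d ∧ ∃ v : ℕ, 0 < v ∧ ¬ p ∣ v ∧ Cfsg.blockRank p B ≤ v ∧ ∑ᶠ χ ∈ B, Cfsg.charDegree (χ : G → ℂ) ^ 2 = p ^ (2 * a - d) * (g / p ^ (a - d)) ^ 2 * v := by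
  classical
  haveI := Fintype.ofFinite G
  haveI := hM.2.1
  have hpM : (p : Cfsg.AlgInt) ∈ M := hM.2.2
  obtain ⟨φ, dφ, m, z, hφ0, hφ1, hφc, hφi, hdec, hz⟩ := BrauerBlock.exists_ibr hpM hB
  set D' := Cfsg.blockDefect p B with hD'
  have hdd : d = D' := Nat.pow_right_injective (Fact.out : p.Prime).two_le
    (show p ^ d = p ^ D' by rw [← hd, Blocks.card_defectGroup hpM hB hD])
  subst hdd
  have hle : D' ≤ a := ha ▸ Blocks.blockDefect_le B
  obtain ⟨χ₀, hχ₀, hh0⟩ := Blocks.exists_height_zero (p := p) hB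
  have hdeg : ∀ χ ∈ B, (Cfsg.charDegree (χ : G → ℂ)).factorization p =
      a - D' + Cfsg.blockHeight p B (χ : G → ℂ) := fun χ hχ => by
    have := Blocks.degree_eq_height hpM hB hχ
    omega
  have hpos : ∀ χ : Cfsg.IrrCharacter G, 0 < Cfsg.charDegree (χ : G → ℂ) := fun χ =>
    (Blocks.charDegree_eq χ.2).2
  have hone : ∀ χ : Cfsg.IrrCharacter G,
      (χ : G → ℂ) 1 = (Cfsg.charDegree (χ : G → ℂ) : ℂ) := fun χ => (Blocks.charDegree_eq χ.2).1
  have hg0 : g ≠ 0 := fun h => by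
    have := hg1 χ₀ hχ₀
    rw [h, zero_dvd_iff] at this
    exact (hpos χ₀).ne' this
  have hgfac : g.factorization p = a - D' := by
    refine le_antisymm ?_ ?_
    · have h1 := (Nat.factorization_le_iff_dvd hg0 (hpos χ₀).ne').2 (hg1 χ₀ hχ₀) p
      rw [hdeg χ₀ hχ₀, hh0, add_zero] at h1
      exact h1
    · refine ((Fact.out : p.Prime).pow_dvd_iff_le_factorization hg0).1 (hg2 _ fun χ hχ => ?_)
      exact ((Fact.out : p.Prime).pow_dvd_iff_le_factorization (hpos χ).ne').2
        (by rw [hdeg χ hχ]; omega)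
  refine ⟨hgfac, ?_⟩
  set u := g / p ^ (a - D') with hu
  have hgu : g = p ^ (a - D') * u := by
    rw [hu, ← hgfac, Nat.ordProj_mul_ordCompl_eq_self]
  have hpu : ¬ p ∣ u := by
    rw [hu, ← hgfac]; exact Nat.not_dvd_ordCompl Fact.out hg0
  -- the projective indecomposable combinations
  set Φ : Fin (Cfsg.blockRank p B) → G → ℂ :=
    fun i => ∑ χ ∈ bf B, (m χ i : ℂ) • (χ : G → ℂ) with hΦ
  have hvan : ∀ i x, p ∣ orderOf x → Φ i x = 0 := by
    intro i x hx
    have hsum : ∑ j, starRingEnd ℂ (Φ j x) • φ j = 0 := by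
      funext s
      rw [Finset.sum_apply, Pi.zero_apply]
      by_cases hs : p ∣ orderOf s
      · exact Finset.sum_eq_zero fun j _ => by rw [Pi.smul_apply, hφ0 j s hs, smul_zero]
      · have horth := Blocks.block_orth_weak hpM hB hs hx
        rw [filter_eq_bf] at horth
        rw [← horth]
        simp only [hΦ, Finset.sum_apply, Pi.smul_apply, smul_eq_mul, map_sum, map_mul,
          map_natCast, Finset.sum_mul]
        rw [Finset.sum_comm]
        refine Finset.sum_congr rfl fun χ hχ => ?_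
        have h1 := congrFun (hdec χ (mem_bf.1 hχ)) s
        simp only [Cfsg.pRegularPart, Cfsg.IsPRegular, hs, not_false_eq_true, if_true,
          Finset.sum_apply, Pi.smul_apply, smul_eq_mul] at h1
        rw [h1, Finset.sum_mul]
        exact Finset.sum_congr rfl fun j _ => by ring
    have := Fintype.linearIndependent_iff.1 hφi _ hsum i
    simpa using this
  have hgenΦ : ∀ i, Cfsg.IsGeneralizedCharacter G (Φ i) := fun i =>
    Chars.isGen_sum _ _ fun χ _ => Chars.isGen_natCast_smul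
      (Chars.isGen_of_isCharacter (Chars.irr_isCharacter χ)) _
  set c : Fin (Cfsg.blockRank p B) → ℕ :=
    fun i => ∑ χ ∈ bf B, m χ i * Cfsg.charDegree (χ : G → ℂ) with hc
  have hΦ1 : ∀ i, Φ i 1 = (c i : ℂ) := fun i => by
    simp only [hΦ, hc, Finset.sum_apply, Pi.smul_apply, smul_eq_mul, hone]
    push_cast
    rfl
  have hcdvd : ∀ i, p ^ a * u ∣ c i := by
    intro i
    refine Nat.Coprime.mul_dvd_of_dvd_of_dvd
      (Nat.Coprime.pow_left a ((Fact.out : p.Prime).coprime_iff_not_dvd.2 hpu)) ?_ ?_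
    · obtain ⟨k, hk⟩ := pow_dvd_degree_of_vanish (p := p) (hgenΦ i) (hvan i)
      rw [hΦ1, ha] at hk
      have hk' : ((c i : ℕ) : ℤ) = (p : ℤ) ^ a * k := by exact_mod_cast hk
      exact Int.natCast_dvd_natCast.1 ⟨k, by push_cast; exact hk'⟩
    · refine Finset.dvd_sum fun χ hχ => Dvd.dvd.mul_left ?_ _
      exact (Dvd.intro_left _ hgu.symm).trans (hg1 χ (mem_bf.1 hχ))
  have hddvd : ∀ i, g ∣ dφ i := by
    intro i
    have h1 := congrFun (hz i) 1
    rw [(hφ1 i).1, Finset.sum_apply] at h1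
    have h2 : ((dφ i : ℕ) : ℤ) = ∑ χ ∈ bf B, z i χ * (Cfsg.charDegree (χ : G → ℂ) : ℤ) := by
      apply Int.cast_injective (α := ℂ)
      push_cast
      rw [h1]
      refine Finset.sum_congr rfl fun χ _ => ?_
      simp [Cfsg.pRegularPart, Cfsg.IsPRegular, (Fact.out : p.Prime).ne_one, hone]
    refine Int.natCast_dvd_natCast.1 (h2 ▸ Finset.dvd_sum fun χ hχ => Dvd.dvd.mul_left ?_ _)
    exact Int.natCast_dvd_natCast.2 (hg1 χ (mem_bf.1 hχ))
  choose c' hc' using hcdvd
  choose d' hd' using hddvd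
  choose w hw using hg1
  let W : Cfsg.IrrCharacter G → ℕ := fun χ => if h : χ ∈ B then w χ h else 0
  have hW : ∀ χ ∈ B, Cfsg.charDegree (χ : G → ℂ) = g * W χ := fun χ hχ => by
    simp only [W, dif_pos hχ]; exact hw χ hχ
  have hzm : ∀ i, ∑ χ ∈ bf B, (z i χ : ℂ) * (m χ i : ℂ) = 1 := by
    intro i
    have h1 : φ i = ∑ j, (∑ χ ∈ bf B, (z i χ : ℂ) * (m χ j : ℂ)) • φ j := by
      conv_lhs => rw [hz i]
      simp only [Finset.sum_smul, mul_smul]
      rw [Finset.sum_comm]
      refine Finset.sum_congr rfl fun χ hχ => ?_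
      rw [hdec χ (mem_bf.1 hχ), Finset.smul_sum]
    have h2 : ∑ j, ((∑ χ ∈ bf B, (z i χ : ℂ) * (m χ j : ℂ)) - if j = i then 1 else 0) • φ j = 0 := by
      simp only [sub_smul, Finset.sum_sub_distrib, ite_smul, one_smul, zero_smul,
        Finset.sum_ite_eq', Finset.mem_univ, if_true, ← h1, sub_self]
    have := Fintype.linearIndependent_iff.1 hφi _ h2 i
    rwa [if_pos rfl, sub_eq_zero] at this
  have hcpos : ∀ i, 0 < c i := by
    intro i
    obtain ⟨χ, hχ, hne⟩ := Finset.exists_ne_zero_of_sum_ne_zero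
      (show ∑ χ ∈ bf B, (z i χ : ℂ) * (m χ i : ℂ) ≠ 0 by rw [hzm i]; exact one_ne_zero)
    refine lt_of_lt_of_le (Nat.mul_pos (Nat.pos_of_ne_zero fun h => hne ?_) (hpos χ))
      (Finset.single_le_sum (f := fun χ : Cfsg.IrrCharacter G =>
        m χ i * Cfsg.charDegree (χ : G → ℂ)) (fun _ _ => Nat.zero_le _) hχ)
    rw [h, Nat.cast_zero, mul_zero]
  set v := ∑ i, d' i * c' i with hv
  have hdegsum : ∀ χ ∈ B, Cfsg.charDegree (χ : G → ℂ) = ∑ i, m χ i * dφ i := by
    intro χ hχ
    have h1 := congrFun (hdec χ hχ) 1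
    simp only [Cfsg.pRegularPart, Cfsg.IsPRegular, orderOf_one, Nat.dvd_one,
      (Fact.out : p.Prime).ne_one, not_false_eq_true, if_true, Finset.sum_apply, Pi.smul_apply,
      smul_eq_mul, hone, fun i => (hφ1 i).1] at h1
    exact_mod_cast h1
  have hgg : g * (p ^ a * u) = p ^ (2 * a - D') * u ^ 2 := by
    rw [hgu, show 2 * a - D' = (a - D') + a by omega, pow_add]; ring
  have hS : ∑ χ ∈ bf B, Cfsg.charDegree (χ : G → ℂ) ^ 2 = p ^ (2 * a - D') * u ^ 2 * v := by
    calc ∑ χ ∈ bf B, Cfsg.charDegree (χ : G → ℂ) ^ 2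
        = ∑ χ ∈ bf B, ∑ i, m χ i * dφ i * Cfsg.charDegree (χ : G → ℂ) :=
          Finset.sum_congr rfl fun χ hχ => by
            rw [← Finset.sum_mul, ← hdegsum χ (mem_bf.1 hχ), sq]
      _ = ∑ i, dφ i * c i := by
          rw [Finset.sum_comm]
          refine Finset.sum_congr rfl fun i _ => ?_
          rw [hc, Finset.mul_sum]
          exact Finset.sum_congr rfl fun χ _ => by ring
      _ = ∑ i, g * (p ^ a * u) * (d' i * c' i) :=
          Finset.sum_congr rfl fun i _ => by rw [hd' i, hc' i]; ring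
      _ = _ := by rw [← Finset.mul_sum, hgg, hv]
  have hd'pos : ∀ i, 0 < d' i := fun i => Nat.pos_of_ne_zero fun h => by
    have := (hφ1 i).2; rw [hd' i, h, mul_zero] at this; exact lt_irrefl 0 this
  have hc'pos : ∀ i, 0 < c' i := fun i => Nat.pos_of_ne_zero fun h => by
    have := hcpos i; rw [hc' i, h, mul_zero] at this; exact lt_irrefl 0 this
  have hlv : Cfsg.blockRank p B ≤ v := by
    calc Cfsg.blockRank p B = ∑ _i : Fin (Cfsg.blockRank p B), 1 := by simp
      _ ≤ v := Finset.sum_le_sum fun i _ => Nat.mul_pos (hd'pos i) (hc'pos i)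
  -- not divisible by p
  have hndvd : ¬ p ∣ v := by
    intro hpv
    obtain ⟨A, hA, hsym, -, -⟩ := exists_contribution hpM hB
    set X : Cfsg.IrrCharacter G → ℤ := fun ψ => ∑ i, (c' i : ℤ) * z i ψ with hX
    set F : G → ℂ := ∑ i, (c' i : ℂ) • φ i with hF
    have hρF : ∀ χ ∈ B, Blocks.regInner p (χ : G → ℂ) ((p : ℂ) ^ D' • F) = (W χ : ℂ) := by
      intro χ hχ
      have h1 : ∀ x, ((p : ℂ) ^ D' • F) x =
          Cfsg.pRegularPart p (∑ ψ ∈ bf B, (W ψ : ℂ) • (ψ : G → ℂ)) x := by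
        intro x
        have hWc : ∀ i, ∑ ψ ∈ bf B, W ψ * m ψ i = p ^ D' * c' i := by
          intro i
          refine Nat.eq_of_mul_eq_mul_left (Nat.pos_of_ne_zero hg0) ?_
          rw [Finset.mul_sum, show g * (p ^ D' * c' i) = c i by
            rw [hc' i, hgu, show p ^ a = p ^ (a - D') * p ^ D' by
              rw [← pow_add, Nat.sub_add_cancel hle]]
            ring]
          refine Finset.sum_congr rfl fun ψ hψ => ?_
          rw [hW ψ (mem_bf.1 hψ)]; ring
        by_cases hx : p ∣ orderOf x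
        · simp [hF, Cfsg.pRegularPart, Cfsg.IsPRegular, hx, hφ0 _ x hx]
        · simp only [hF, Cfsg.pRegularPart, Cfsg.IsPRegular, hx, not_false_eq_true, if_true,
            Finset.sum_apply, Pi.smul_apply, smul_eq_mul, Finset.mul_sum]
          rw [Finset.sum_congr rfl fun i _ => (mul_assoc _ _ _).symm]
          have hx' : ∀ ψ ∈ bf B, (ψ : G → ℂ) x = ∑ i, (m ψ i : ℂ) * φ i x := fun ψ hψ => by
            have h2 := congrFun (hdec ψ (mem_bf.1 hψ)) x
            simpa [Cfsg.pRegularPart, Cfsg.IsPRegular, hx] using h2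
          refine Eq.symm ?_
          rw [Finset.sum_congr rfl fun ψ hψ => by rw [hx' ψ hψ, Finset.mul_sum],
            Finset.sum_comm]
          refine Finset.sum_congr rfl fun i _ => ?_
          rw [← Nat.cast_pow, ← Nat.cast_mul, ← hWc i]
          push_cast
          rw [Finset.sum_mul]
          exact Finset.sum_congr rfl fun ψ _ => by ring
      have hvan' : ∀ x, p ∣ orderOf x → (∑ ψ ∈ bf B, (W ψ : ℂ) • (ψ : G → ℂ)) x = 0 := by
        intro x hx
        have h2 : (g : ℂ) * (∑ ψ ∈ bf B, (W ψ : ℂ) • (ψ : G → ℂ)) x =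
            ∑ i, (dφ i : ℂ) * Φ i x := by
          simp only [hΦ, Finset.sum_apply, Pi.smul_apply, smul_eq_mul, Finset.mul_sum]
          rw [Finset.sum_comm]
          refine Finset.sum_congr rfl fun ψ hψ => ?_
          rw [← mul_assoc, ← Nat.cast_mul, ← hW ψ (mem_bf.1 hψ), hdegsum ψ (mem_bf.1 hψ)]
          push_cast
          rw [Finset.sum_mul]
          exact Finset.sum_congr rfl fun i _ => by ring
        have hz0 : ∑ i, (dφ i : ℂ) * Φ i x = 0 :=
          Finset.sum_eq_zero fun i _ => by rw [hvan i x hx, mul_zero]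
        rw [hz0] at h2
        exact (mul_eq_zero.1 h2).resolve_left (Nat.cast_ne_zero.2 hg0)
      have h3 : Blocks.regInner p (χ : G → ℂ) ((p : ℂ) ^ D' • F) =
          Cfsg.classInner (χ : G → ℂ) (∑ ψ ∈ bf B, (W ψ : ℂ) • (ψ : G → ℂ)) := by
        rw [Blocks.regInner, Chars.classInner_def, Blocks.regs, Finset.sum_filter]
        congr 1
        refine Finset.sum_congr rfl fun x _ => ?_
        rw [h1]
        split_ifs with hx
        · rw [hvan' x hx, map_zero, mul_zero]
        · simp [Cfsg.pRegularPart, Cfsg.IsPRegular, hx]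
      rw [h3, Chars.classInner_def]
      simp only [Finset.sum_apply, Pi.smul_apply, smul_eq_mul, map_sum, map_mul, map_natCast,
        Finset.mul_sum]
      rw [Finset.sum_comm, Finset.sum_eq_single χ]
      · have := Chars.classInner_irrCharacter χ χ
        rw [Chars.classInner_def, if_pos rfl, Finset.mul_sum] at this
        conv_rhs => rw [← mul_one (W χ : ℂ), ← this, Finset.mul_sum]
        exact Finset.sum_congr rfl fun x _ => by ring
      · intro ψ _ hne
        have := Chars.classInner_irrCharacter χ ψ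
        rw [Chars.classInner_def, if_neg (Ne.symm hne), Finset.mul_sum] at this
        conv_rhs => rw [← mul_zero (W ψ : ℂ), ← this, Finset.mul_sum]
        exact Finset.sum_congr rfl fun x _ => by ring
      · exact fun h => absurd (mem_bf.2 hχ) h
    have hAX : ∀ χ ∈ B, ∑ ψ ∈ bf B, A χ ψ * X ψ = (W χ : ℤ) := by
      intro χ hχ
      apply Int.cast_injective (α := ℂ)
      push_cast
      rw [← hρF χ hχ]
      have hFX : F = ∑ ψ ∈ bf B, (X ψ : ℂ) • Cfsg.pRegularPart p (ψ : G → ℂ) := by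
        simp only [hF, hX]
        rw [Finset.sum_congr rfl fun i _ => by rw [hz i, Finset.smul_sum], Finset.sum_comm]
        refine Finset.sum_congr rfl fun ψ _ => ?_
        push_cast
        rw [Finset.sum_smul]
        exact Finset.sum_congr rfl fun i _ => by rw [smul_smul]
      simp only [hA χ hχ, Blocks.regInner, hFX, Pi.smul_apply, Finset.sum_apply, smul_eq_mul,
        map_mul, map_sum, map_pow, map_natCast, map_intCast, Finset.mul_sum, Finset.sum_mul]
      rw [Finset.sum_comm]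
      refine Finset.sum_congr rfl fun x hx => Finset.sum_congr rfl fun ψ _ => ?_
      simp only [Cfsg.pRegularPart, Cfsg.IsPRegular, Blocks.mem_regs.1 hx, not_false_eq_true,
        if_true]
      ring
    -- rank one modulo M
    have hwt : Blocks.RFun M (Blocks.regConj p (χ₀ : G → ℂ)) := Blocks.rFun_regConj χ₀
    have hcl := Blocks.isClassFunction_regConj (p := p) (Chars.isClassFunction_irr χ₀)
    set mm := Nat.card G / p ^ a with hmm
    have hm' : ¬ p ∣ mm := by rw [hmm, ← ha]; exact Nat.not_dvd_ordCompl Fact.out Nat.card_pos.ne'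
    have hGC : (Nat.card G : ℂ) = (p : ℂ) ^ a * (mm : ℂ) := by
      rw [hmm, ← ha, ← Nat.cast_pow, ← Nat.cast_mul, Nat.ordProj_mul_ordCompl_eq_self]
    have hmm0 : (mm : ℂ) ≠ 0 := Nat.cast_ne_zero.2 fun h => hm' (h ▸ dvd_zero p)
    set K := (u : ℂ) * (mm : ℂ)⁻¹ * Blocks.omega (χ₀ : G → ℂ) (Blocks.regConj p (χ₀ : G → ℂ))
      with hKdef
    have hKR : Cfsg.MemLocalRing M K := Blocks.memR_mul (Blocks.memR_mul (Blocks.memR_natCast _)
      (Blocks.memR_inv_natCast hpM hm')) (Blocks.omega_memR hpM χ₀.2 hcl hwt)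
    have hAmod : ∀ ψ ∈ B, Cfsg.MemLocalIdeal M ((A ψ χ₀ : ℂ) - (W ψ : ℂ) * K) := by
      intro ψ hψ
      have h1 : (A ψ χ₀ : ℂ) = (W ψ : ℂ) * ((u : ℂ) * (mm : ℂ)⁻¹) *
          Blocks.omega (ψ : G → ℂ) (Blocks.regConj p (χ₀ : G → ℂ)) := by
        rw [hA ψ hψ, Blocks.omega_regConj, hone ψ, hW ψ hψ, hGC,
          Nat.cast_mul, show (g : ℂ) = (p : ℂ) ^ (a - D') * (u : ℂ) by rw [hgu]; push_cast; ring]
        have hsplit : (p : ℂ) ^ a = (p : ℂ) ^ (a - D') * (p : ℂ) ^ D' := by
          rw [← pow_add, Nat.sub_add_cancel hle]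
        have h0 : (W ψ : ℂ) ≠ 0 := Nat.cast_ne_zero.2 fun h => by
          have := hpos ψ; rw [hW ψ hψ, h, mul_zero] at this; exact lt_irrefl 0 this
        have hu0 : (u : ℂ) ≠ 0 := Nat.cast_ne_zero.2 fun h => hpu (h ▸ dvd_zero p)
        have hp0 : (p : ℂ) ≠ 0 := Nat.cast_ne_zero.2 (Fact.out : p.Prime).ne_zero
        rw [hsplit]
        field_simp
        rw [← hD']; ring
      rw [h1, hKdef, show (W ψ : ℂ) * ((u : ℂ) * (mm : ℂ)⁻¹) *
          Blocks.omega (ψ : G → ℂ) (Blocks.regConj p (χ₀ : G → ℂ)) -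
        (W ψ : ℂ) * ((u : ℂ) * (mm : ℂ)⁻¹ *
          Blocks.omega (χ₀ : G → ℂ) (Blocks.regConj p (χ₀ : G → ℂ))) =
        (W ψ : ℂ) * ((u : ℂ) * (mm : ℂ)⁻¹) *
          (Blocks.omega (ψ : G → ℂ) (Blocks.regConj p (χ₀ : G → ℂ)) -
           Blocks.omega (χ₀ : G → ℂ) (Blocks.regConj p (χ₀ : G → ℂ))) by ring]
      exact Blocks.memI_mul_left (Blocks.memR_mul (Blocks.memR_natCast _) (Blocks.memR_mul
        (Blocks.memR_natCast _) (Blocks.memR_inv_natCast hpM hm')))
        (Blocks.omega_congr (Blocks.sameBlock_of_mem hB hψ hχ₀) hcl hwt)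
    have hvX : (v : ℤ) = ∑ ψ ∈ bf B, (W ψ : ℤ) * X ψ := by
      have h1 : ∀ i, (d' i : ℤ) = ∑ ψ ∈ bf B, (W ψ : ℤ) * z i ψ := by
        intro i
        have h2 := congrFun (hz i) 1
        rw [(hφ1 i).1, Finset.sum_apply] at h2
        refine mul_left_cancel₀ (Int.natCast_ne_zero.2 hg0) ?_
        apply Int.cast_injective (α := ℂ)
        push_cast
        rw [show (g : ℂ) * (d' i : ℂ) = (dφ i : ℂ) by rw [hd' i]; push_cast; ring, h2,
          Finset.mul_sum]
        refine Finset.sum_congr rfl fun ψ hψ => ?_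
        simp only [Pi.smul_apply, smul_eq_mul, Cfsg.pRegularPart, Cfsg.IsPRegular, orderOf_one,
          Nat.dvd_one, (Fact.out : p.Prime).ne_one, not_false_eq_true, if_true, hone,
          hW ψ (mem_bf.1 hψ)]
        push_cast
        ring
      simp only [hv, hX, Nat.cast_sum, Nat.cast_mul, h1, Finset.sum_mul, Finset.mul_sum]
      rw [Finset.sum_comm]
      exact Finset.sum_congr rfl fun ψ _ => Finset.sum_congr rfl fun i _ => by ring
    have hkey : Cfsg.MemLocalIdeal M ((W χ₀ : ℂ) - (v : ℂ) * K) := by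
      have e1 : (W χ₀ : ℂ) - (v : ℂ) * K =
          ∑ ψ ∈ bf B, (X ψ : ℂ) * ((A ψ χ₀ : ℂ) - (W ψ : ℂ) * K) := by
        have h2 := hAX χ₀ hχ₀
        rw [Finset.sum_congr rfl fun ψ hψ => by
          rw [hsym χ₀ hχ₀ ψ (mem_bf.1 hψ)]] at h2
        rw [show (W χ₀ : ℂ) = ((W χ₀ : ℤ) : ℂ) by push_cast; rfl, ← h2,
          show (v : ℂ) = ((v : ℤ) : ℂ) by push_cast; rfl, hvX]
        push_cast
        rw [Finset.sum_mul, ← Finset.sum_sub_distrib]
        exact Finset.sum_congr rfl fun ψ _ => by ring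
      rw [e1]
      exact Blocks.memI_sum _ _ fun ψ hψ =>
        Blocks.memI_mul_left (Blocks.memR_intCast _) (hAmod ψ (mem_bf.1 hψ))
    have hW0 : Cfsg.MemLocalIdeal M ((W χ₀ : ℂ)) := by
      have := Blocks.memI_add hkey
        (Blocks.memI_mul_right ((Blocks.memI_natCast_iff hpM v).2 hpv) hKR)
      rwa [sub_add_cancel] at this
    have hpW : p ∣ W χ₀ := (Blocks.memI_natCast_iff hpM _).1 hW0
    have h5 : p ^ (a - D' + 1) ∣ Cfsg.charDegree (χ₀ : G → ℂ) := by
      rw [hW χ₀ hχ₀, hgu, pow_succ, mul_assoc]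
      exact mul_dvd_mul_left _ (Dvd.dvd.mul_left hpW u)
    have h6 := ((Fact.out : p.Prime).pow_dvd_iff_le_factorization (hpos χ₀).ne').1 h5
    rw [hdeg χ₀ hχ₀, hh0] at h6
    omega
  exact ⟨v, Nat.pos_of_ne_zero fun h => hndvd (h ▸ dvd_zero p), hndvd, hlv, by
    rw [finsum_mem_bf]; exact hS⟩

end Cfsg.Agent.S4641
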