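import Cfsg.Statements.S4642
import Cfsg.Agent.Chars2.PrincipalType

set_option autoImplicit false
open Cfsg

namespace Cfsg.Agent.S4642

/-- Let G be a finite group, p a prime, M a maximal ideal of the algebraic integers containing p, K the largest normal subgroup of G of order prime to p, and L the preimage in G of the largest normal p-subgroup of G/K. Let Q be a Sylow p-subgroup of L and suppose C_G(Q) ≤ L. Let θ be an irreducible character of K invariant under conjugation by every element of G, and let B be the set of irreducible characters of G whose restriction to K contains θ. Then B is a block of G, every Sylow p-subgroup of G is a defect group of B, and B is of principal type: for every p-subgroup R of G exactly one block of C_G(R) induces B. -/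
theorem result {G : Type*} [Group G] [Fintype G] (p : ℕ) [Fact p.Prime] (M : Ideal Cfsg.AlgInt) (hM : Cfsg.IsPModular p M) (K : Subgroup G) (hK : K = Cfsg.pPrimeCore p G) [Fintype K] (L : Subgroup G) (hL : L = Cfsg.pPrimePCore p G) (Q : Subgroup G) (hQL : Q ≤ L) (hQp : IsPGroup p Q) (hQS : ¬ p ∣ Q.relIndex L) (hCQ : Subgroup.centralizer (Q : Set G) ≤ L) (θ : Cfsg.IrrCharacter K) (hθ : ∀ g : G, Cfsg.IsConjCharOf K g (θ : K → ℂ) (θ : K → ℂ)) (B : Set (Cfsg.IrrCharacter G)) (hBdef : ∀ χ : Cfsg.IrrCharacter G, χ ∈ B ↔ Cfsg.classInner (fun k : K => (χ : G → ℂ) k) (θ : K → ℂ) ≠ 0) : Cfsg.IsPBlock M B ∧ (∀ S : Sylow p G, Cfsg.IsDefectGroup p M B S) ∧ ∀ R : Subgroup G, IsPGroup p R → ∃! f : Set (Cfsg.IrrCharacter (Subgroup.centralizer (R : Set G))), Cfsg.IsInducedBlock M (Subgroup.centralizer (R : Set G)) f B := by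
  classical
  haveI := hM.2.1
  subst hK hL
  have hN : ¬ p ∣ Nat.card (Cfsg.pPrimeCore p G) := fun hd =>
    (Fact.out : p.Prime).ne_one (Nat.eq_one_of_dvd_coprimes
      (Cfsg.Agent.Core.card_pPrimeCore_coprime p G) hd dvd_rfl)
  have hmap : (Cfsg.pPrimePCore p G).map (QuotientGroup.mk' (Cfsg.pPrimeCore p G)) =
      Cfsg.pCore p (G ⧸ Cfsg.pPrimeCore p G) := by
    rw [Cfsg.pPrimePCore, Subgroup.map_comap_eq_self_of_surjective (QuotientGroup.mk'_surjective _)]
  haveI : (Cfsg.pPrimePCore p G).Normal := Subgroup.Normal.comap inferInstance _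
  have hNL : Cfsg.pPrimeCore p G ≤ Cfsg.pPrimePCore p G := fun m hm => by
    rw [Cfsg.pPrimePCore, Subgroup.mem_comap, QuotientGroup.mk'_apply,
      (QuotientGroup.eq_one_iff m).2 hm]
    exact Subgroup.one_mem _
  have hLp : IsPGroup p ((Cfsg.pPrimePCore p G).map (QuotientGroup.mk' (Cfsg.pPrimeCore p G))) :=
    hmap ▸ Cfsg.Agent.Core.isPGroup_pCore p _
  have hLQ : Cfsg.pPrimePCore p G ≤ Cfsg.pPrimeCore p G ⊔ Q := by
    set J := Cfsg.pPrimeCore p G ⊔ Q with hJ
    have h1 : J.relIndex (Cfsg.pPrimePCore p G) ∣ Q.relIndex (Cfsg.pPrimePCore p G) :=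
      Subgroup.relIndex_dvd_of_le_left _ le_sup_right
    have h2 : J.relIndex (Cfsg.pPrimePCore p G) ∣
        (Cfsg.pPrimeCore p G).relIndex (Cfsg.pPrimePCore p G) :=
      Subgroup.relIndex_dvd_of_le_left _ le_sup_left
    obtain ⟨a, ha⟩ := hLp.exists_card_eq
    have h3 : (Cfsg.pPrimeCore p G).relIndex (Cfsg.pPrimePCore p G) ∣ p ^ a := by
      rw [← ha]
      have h := Subgroup.relIndex_map_map (f := QuotientGroup.mk' (Cfsg.pPrimeCore p G))
        (Cfsg.pPrimeCore p G) (Cfsg.pPrimePCore p G)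
      rw [QuotientGroup.ker_mk', sup_idem, sup_eq_left.2 hNL] at h
      rw [← h]
      exact Subgroup.relIndex_dvd_card _ _
    obtain ⟨i, -, hi⟩ := (Nat.dvd_prime_pow (Fact.out : p.Prime)).1 (h2.trans h3)
    have hi0 : i = 0 := by
      by_contra h
      exact hQS ((dvd_pow_self p h).trans (hi ▸ h1))
    rw [hi0, pow_zero, Subgroup.relIndex_eq_one] at hi
    exact hi
  have hinv : Cfsg.Agent.Chars2.inertiaSub (θ : Cfsg.pPrimeCore p G → ℂ) = ⊤ :=
    Cfsg.Agent.Chars2.inertiaSub_eq_top fun g n => hθ g n _ rfl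
  obtain ⟨B', hB', hover, hsyl, hind⟩ := Cfsg.Agent.Chars2.principal_type hM.2.2
    (Cfsg.pPrimeCore p G) (Cfsg.pPrimePCore p G) Q hN hNL hQL hQp hLp hLQ hCQ θ hinv
  obtain rfl : B = B' := Set.ext fun χ => (hBdef χ).trans (hover χ).symm
  exact ⟨hB', hsyl, hind⟩

end Cfsg.Agent.S4642
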