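import Cfsg.Statements.S4644
import Cfsg.Agent.BlockChar.Watanabe

set_option autoImplicit false
open Cfsg Cfsg.Agent Cfsg.Agent.BlockChar

namespace Cfsg.Agent.S4644

/-- Let B be a block of the finite group G relative to a maximal ideal M of the algebraic integers containing the prime p, with a commutative defect group P; let c be a block of C_G(P) inducing B and T the stabilizer of c in N_G(P). Let u be an element of P fixed under conjugation by every element of T, H = C_G(u) (so C_G(P) ≤ H), and f the block of H induced by c inside H. Then B and f have the same p-regular rank and the same number of irreducible characters. -/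
theorem result {G : Type*} [Group G] [Finite G] (p : ℕ) [Fact p.Prime] (M : Ideal Cfsg.AlgInt) (hM : Cfsg.IsPModular p M) (B : Set (Cfsg.IrrCharacter G)) (hB : Cfsg.IsPBlock M B) (P : Subgroup G) (hPD : Cfsg.IsDefectGroup p M B P) (hPab : ∀ x ∈ P, ∀ y ∈ P, x * y = y * x) (c : Set (Cfsg.IrrCharacter (Subgroup.centralizer (P : Set G)))) (hc : Cfsg.IsInducedBlock M (Subgroup.centralizer (P : Set G)) c B) (T : Subgroup G) (hT : ∀ g : G, g ∈ T ↔ (g ∈ Subgroup.normalizer (P : Set G) ∧ Cfsg.StabilizesBlock (Subgroup.centralizer (P : Set G)) c g)) (u : G) (hu : u ∈ P) (huT : ∀ g ∈ T, g * u * g⁻¹ = u) (H : Subgroup G) (hH : H = Subgroup.centralizer ({u} : Set G)) (f : Set (Cfsg.IrrCharacter H)) (hf : Cfsg.IsInducedBlockIn M H (Subgroup.centralizer (P : Set G)) c f) : Cfsg.blockRank p B = Cfsg.blockRank p f ∧ Nat.card B = Nat.card f := by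
  classical
  haveI := hM.2.1
  haveI := Fintype.ofFinite G
  have hpM := hM.2.2
  haveI := charP_res (p := p) hpM
  have hPC : P ≤ Subgroup.centralizer (P : Set G) := fun x hx =>
    Subgroup.mem_centralizer_iff.mpr fun y hy => hPab y hy x hx
  obtain ⟨hmax, ho⟩ := maxPair_of_induced hpM hPD hPC hc
  have D : MaxData p B P (idemS M c) := ⟨hmax, hc.2.1, ho⟩
  have hTeq : T = stab P (idemS M c) := eq_stab hpM hc.1 hT
  have hHcz : H = cz u := by
    ext g
    rw [hH, Subgroup.mem_centralizer_singleton_iff, mem_cz]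
    exact ⟨fun h => h.symm, fun h => h.eq.symm⟩
  subst hHcz
  have hCu : Subgroup.centralizer (P : Set G) ≤ cz u := fun w hw =>
    mem_cz.mpr (Subgroup.mem_centralizer_iff.mp hw u hu)
  have hPu : P ≤ cz u := fun w hw => mem_cz.mpr (hPab u hu w hw)
  have hce : OfBlock (idemS M c) P (idemS M c) := by
    show br P (idemS M c) * idemS M c = idemS M c
    rw [br_eq_self hmax.pair.blk.supp, hmax.pair.blk.idem]
  have hfo : OfBlock (idemS M f) P (idemS M c) := by
    have := (isInducedBlockIn_iff hpM hCu hc.1 hf.2.1).mp hf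
    exact (inducesIn_iff_ofBlock hCu hmax.pair hPC le_rfl hmax.pair.blk hce
      (isBlk_idemS hpM hf.2.1)).mp this
  have hufix : ∀ t ∈ stab P (idemS M c), t * u * t⁻¹ = u := fun t ht => huT t (hTeq ▸ ht)
  have hstab : stab P (idemS M c) ⊓ cz u = stab P (idemS M c) := inf_eq_left.mpr fun t ht =>
    mem_cz.mpr (show Commute u t from (mul_inv_eq_iff_eq_mul.mp (hufix t ht)).symm)
  have key := rk_inf_cz hpM hmax hPab hu hufix
  refine ⟨?_, ?_⟩
  · rw [← rk_top hpM D, key ⊤ le_top le_top, top_inf_eq, rk_eq hpM hmax.pair hPu hCu hf.2.1 hfo]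
  · letI : ∀ v : G, Fintype (cz v) := fun v => Fintype.ofFinite _
    have h1 := card_eq_sum_rank hpM D hPab
    have h2 := card_eq_sum_rk_in hpM hmax hPab hPu hCu hf.2.1 hfo
    rw [hstab] at h2
    have h3 : (Nat.card B : ℂ) = (Nat.card f : ℂ) := by
      rw [h1, h2]
      refine Finset.sum_congr rfl fun v hv => ?_
      have hv' := (Finset.mem_filter.mp hv).2
      rw [rk_cz hpM D hPab hv', inf_comm (cz u) (cz v),
        ← key (cz v) (fun w hw => mem_cz.mpr (hPab v hv' w hw))
          (fun w hw => mem_cz.mpr (Subgroup.mem_centralizer_iff.mp hw v hv'))]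
      rfl
    exact_mod_cast h3

end Cfsg.Agent.S4644
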