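import Cfsg.Statements.S4645
import Cfsg.Agent.BlockChar.AbelianLocal

set_option autoImplicit false
open Cfsg Cfsg.Agent Cfsg.Agent.BlockChar

namespace Cfsg.Agent.S4645

/-- Let B be a block of the finite group G relative to a maximal ideal M of the algebraic integers containing the prime p, with a nontrivial cyclic defect group P; let c be a block of C_G(P) inducing B and T the stabilizer of c in N_G(P). Let Q be a nontrivial subgroup of P (so C_G(P) ≤ C_G(Q)), f the block of C_G(Q) induced by c inside C_G(Q), and T' the stabilizer of f in N_G(Q). Then T' = T·C_G(Q), the index of C_G(Q) in T' equals the index of C_G(P) in T, f has p-regular rank 1, and f is a nilpotent block of C_G(Q). -/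
theorem result {G : Type*} [Group G] [Finite G] (p : ℕ) [Fact p.Prime] (M : Ideal Cfsg.AlgInt) (hM : Cfsg.IsPModular p M) (B : Set (Cfsg.IrrCharacter G)) (hB : Cfsg.IsPBlock M B) (P : Subgroup G) (hPD : Cfsg.IsDefectGroup p M B P) (hP1 : P ≠ ⊥) (hcyc : IsCyclic P) (c : Set (Cfsg.IrrCharacter (Subgroup.centralizer (P : Set G)))) (hc : Cfsg.IsInducedBlock M (Subgroup.centralizer (P : Set G)) c B) (T : Subgroup G) (hT : ∀ g : G, g ∈ T ↔ (g ∈ Subgroup.normalizer (P : Set G) ∧ Cfsg.StabilizesBlock (Subgroup.centralizer (P : Set G)) c g)) (Q : Subgroup G) (hQP : Q ≤ P) (hQ1 : Q ≠ ⊥) (f : Set (Cfsg.IrrCharacter (Subgroup.centralizer (Q : Set G)))) (hf : Cfsg.IsInducedBlockIn M (Subgroup.centralizer (Q : Set G)) (Subgroup.centralizer (P : Set G)) c f) (T' : Subgroup G) (hT' : ∀ g : G, g ∈ T' ↔ (g ∈ Subgroup.normalizer (Q : Set G) ∧ Cfsg.StabilizesBlock (Subgroup.centralizer (Q : Set G)) f g)) : T' = T ⊔ Subgroup.centralizer (Q : Set G) ∧ (Subgroup.centralizer (Q : Set G)).relIndex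 T' = (Subgroup.centralizer (P : Set G)).relIndex T ∧ Cfsg.blockRank p f = 1 ∧ Cfsg.IsNilpotentBlock p M f := by
  classical
  haveI := hM.2.1
  haveI := Fintype.ofFinite G
  have hpM := hM.2.2
  have hab : ∀ x ∈ P, ∀ y ∈ P, x * y = y * x := fun x hx y hy => by
    haveI := hcyc
    haveI : IsMulCommutative P := ⟨⟨fun a b => by
      obtain ⟨u, hu⟩ := IsCyclic.exists_generator (α := P)
      obtain ⟨i, rfl⟩ := Subgroup.mem_zpowers_iff.mp (hu a)
      obtain ⟨j, rfl⟩ := Subgroup.mem_zpowers_iff.mp (hu b)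
      exact ((Commute.refl u).zpow_zpow i j).eq⟩⟩
    exact Subgroup.mul_comm_of_mem_isMulCommutative P hx hy
  have hPC : P ≤ Subgroup.centralizer (P : Set G) := fun x hx =>
    Subgroup.mem_centralizer_iff.mpr fun y hy => hab y hy x hx
  haveI hn : ((Subgroup.centralizer (P : Set G)).subgroupOf T).Normal :=
    Subgroup.normal_subgroupOf_of_le_normalizer
      (fun g hg => normalizer_le_normalizer_centralizer P ((hT g).mp hg).1)
  obtain ⟨-, -, hfree⟩ := cyclic_inertial hpM hPD hP1 hcyc hc hT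
  have hTeq : T = stab P (idemS M c) := eq_stab hpM hc.1 hT
  have hT'eq : T' = stab Q (idemS M f) := eq_stab hpM hf.2.1 hT'
  obtain ⟨⟨x, hx⟩, hx1'⟩ := Subgroup.ne_bot_iff_exists_ne_one.mp hQ1
  have hx1 : x ≠ 1 := fun h => hx1' (Subtype.ext h)
  have hfr : stab P (idemS M c) ⊓ Subgroup.centralizer (Q : Set G) ≤
      Subgroup.centralizer (P : Set G) := by
    intro g hg
    refine hfree g (hTeq ▸ hg.1) x (hQP hx) hx1 ?_
    rw [← Subgroup.mem_centralizer_iff.mp hg.2 x hx, mul_inv_cancel_right]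
  have hNQ : stab P (idemS M c) ≤ Subgroup.normalizer (Q : Set G) := by
    intro g hg
    refine mem_normalizer_of_conjS_eq ?_
    have hgP : conjS g P = P := conjS_eq_self_of_mem_normalizer hg.1
    have hQ' : conjS g Q ≤ P := hgP ▸ conjS_le hQP
    haveI := hcyc
    have h1 : (conjS g Q).subgroupOf P = Q.subgroupOf P := by
      refine FGS2.subgroup_eq_of_card_eq ?_
      rw [Nat.card_congr (Subgroup.subgroupOfEquivOfLe hQ').toEquiv,
        Nat.card_congr (Subgroup.subgroupOfEquivOfLe hQP).toEquiv, card_conjS]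
    have h2 := congrArg (Subgroup.map P.subtype) h1
    rwa [Subgroup.subgroupOf_map_subtype, Subgroup.subgroupOf_map_subtype,
      inf_eq_left.mpr hQ', inf_eq_left.mpr hQP] at h2
  obtain ⟨h1, h2⟩ := local_stab_eq hpM hPD hab hc hQP hf hNQ hfr
  exact ⟨by rw [hT'eq, hTeq, h1], by rw [hT'eq, hTeq, h2],
    local_nilpotent_of_free hpM hPD hab hc hQP hf hfr⟩

end Cfsg.Agent.S4645
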