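import Cfsg.Statements.S4648
import Cfsg.Agent.Blocks.SmallRankOne
-- import your own Cfsg.Agent.* helpers here

set_option autoImplicit false
open Cfsg

namespace Cfsg.Agent.S4648

/-- Let B be a block of the finite group G relative to a maximal ideal M of the algebraic integers containing the prime p, with a nontrivial defect group D. If B has p-regular rank 1 and at most four irreducible characters, then B is nilpotent, D has exactly as many elements as B has irreducible characters, and p is 2 or 3. -/
theorem result {G : Type*} [Group G] [Finite G] (p : ℕ) [Fact p.Prime] (M : Ideal Cfsg.AlgInt) (hM : Cfsg.IsPModular p M) (B : Set (Cfsg.IrrCharacter G)) (hB : Cfsg.IsPBlock M B) (D : Subgroup G) (hD : Cfsg.IsDefectGroup p M B D) (hD1 : D ≠ ⊥) (hl : Cfsg.blockRank p B = 1) (hk : Nat.card B ≤ 4) : Cfsg.IsNilpotentBlock p M B ∧ Nat.card D = Nat.card B ∧ (p = 2 ∨ p = 3) := by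
  classical
  haveI := Fintype.ofFinite G
  obtain ⟨-, hmax, hpM⟩ := hM
  haveI := hmax
  exact Blocks.SmallRankOne.nilpotent_of_small hpM hB hD hD1 hl hk

end Cfsg.Agent.S4648
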