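import Cfsg.Statements.S4651
import Cfsg.Agent.Blocks.ChainBlocks
-- import your own Cfsg.Agent.* helpers here

set_option autoImplicit false
open Cfsg

namespace Cfsg.Agent.S4651

/-- An alternating-sum identity over chains of p-subgroups (the character-count form behind the chain reformulation of Alperin's weight conjecture, which holds unconditionally for the difference k − l). Let b be a block of the finite group G relative to a maximal ideal M of the algebraic integers containing the prime p. Consider the nonempty chains s = {Q_0 < Q_1 < ⋯ < Q_m} of nontrivial p-subgroups of G in which every member is normal in the largest member; let N_G(s) be the intersection of the normalizers of the members (the stabilizer of the chain), and let b_s be the set of irreducible characters of N_G(s) lying in blocks of N_G(s) that induce b. Then #G · (k(b) − l(b)) equals the sum over all such chains s of (−1)^m · #N_G(s) · (k(b_s) − l(b_s)), where k counts irreducible characters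 and l is the p-regular rank; equivalently, k(b) − l(b) is the alternating sum of k(b_s) − l(b_s) over representatives of the conjugacy classes of such chains. -/
theorem result {G : Type*} [Group G] [Finite G] (p : ℕ) [Fact p.Prime] (M : Ideal Cfsg.AlgInt) (hM : Cfsg.IsPModular p M) (b : Set (Cfsg.IrrCharacter G)) (hb : Cfsg.IsPBlock M b) : (Nat.card G : ℤ) * ((Nat.card b : ℤ) - (Cfsg.blockRank p b : ℤ)) = ∑ᶠ s ∈ {s : Finset (Subgroup G) | s.Nonempty ∧ (∀ Q ∈ s, ∀ R ∈ s, Q ≤ R ∨ R ≤ Q) ∧ (∀ Q ∈ s, Q ≠ ⊥ ∧ IsPGroup p Q) ∧ ∃ T ∈ s, ∀ Q ∈ s, Q ≤ T ∧ T ≤ Subgroup.normalizer ((Q : Subgroup G) : Set G)}, (-1 : ℤ) ^ (s.card - 1) * (Nat.card (((⨅ Q ∈ s, Subgroup.normalizer ((Q : Subgroup G) : Set G) : Subgroup G))) : ℤ) * ((Nat.card {ψ : Cfsg.IrrCharacter (((⨅ Q ∈ s, Subgroup.normalizer ((Q : Subgroup G) : Set G) : Subgroup G))) | ∃ β : Set (Cfsg.IrrCharacter (((⨅ Q ∈ s, Subgroup.normalizer ((Q : Subgroup G) : Set G) : Subgroup G)))), ψ ∈ β ∧ Cfsg.IsInducedBlock M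 (((⨅ Q ∈ s, Subgroup.normalizer ((Q : Subgroup G) : Set G) : Subgroup G))) β b} : ℤ) - (Cfsg.blockRank p {ψ : Cfsg.IrrCharacter (((⨅ Q ∈ s, Subgroup.normalizer ((Q : Subgroup G) : Set G) : Subgroup G))) | ∃ β : Set (Cfsg.IrrCharacter (((⨅ Q ∈ s, Subgroup.normalizer ((Q : Subgroup G) : Set G) : Subgroup G)))), ψ ∈ β ∧ Cfsg.IsInducedBlock M (((⨅ Q ∈ s, Subgroup.normalizer ((Q : Subgroup G) : Set G) : Subgroup G))) β b} : ℤ)) := by
  classical
  haveI := Fintype.ofFinite G
  obtain ⟨-, hmax, hpM⟩ := hM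
  haveI := hmax
  obtain ⟨χ₀, hχ₀⟩ := Cfsg.Agent.Blocks.block_nonempty hb
  set U : Finset (Finset (Subgroup G)) := Finset.univ.filter fun s =>
    Cfsg.Agent.Blocks.ChainCancel.IsChainP p s ∧
      Cfsg.Agent.Blocks.ChainCancel.IsNormalChain s with hUdef
  have hU : ∀ s, s ∈ U ↔ Cfsg.Agent.Blocks.ChainCancel.IsChainP p s ∧
      Cfsg.Agent.Blocks.ChainCancel.IsNormalChain s := fun s => by simp [hUdef]
  rw [finsum_mem_eq_sum_of_inter_support_eq (t := U) _ (by
    ext s
    simp only [Set.mem_inter_iff, Set.mem_setOf_eq, Finset.mem_coe, hU,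
      Cfsg.Agent.Blocks.ChainCancel.IsChainP]
    constructor
    · rintro ⟨⟨h1, h2, h3, h4⟩, h5⟩
      exact ⟨⟨⟨h1, h2, h3⟩, (Cfsg.Agent.Blocks.ChainCancel.isNormalChain_iff h1 h2).2 h4⟩, h5⟩
    · rintro ⟨⟨⟨h1, h2, h3⟩, h4⟩, h5⟩
      exact ⟨⟨h1, h2, h3, (Cfsg.Agent.Blocks.ChainCancel.isNormalChain_iff h1 h2).1 h4⟩, h5⟩)]
  apply Int.cast_injective (α := ℂ)
  push_cast
  rw [Cfsg.Agent.Blocks.chain_identity hpM hb hχ₀ U hU]
  refine Finset.sum_congr rfl fun s _ => ?_
  rw [Cfsg.Agent.Blocks.setOf_induced_eq hpM hb hχ₀, mul_assoc]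
  rfl

end Cfsg.Agent.S4651
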