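import Cfsg.Statements.S4654
import Cfsg.Agent.BlockChar.Exact

set_option autoImplicit false
open Cfsg Cfsg.Agent Cfsg.Agent.BlockChar

namespace Cfsg.Agent.S4654

/-- Fix a prime p and a maximal ideal M of the algebraic integers containing p. Let P be a normal p-subgroup of the finite group G, B a p-block of G and e a p-block of C_G(P) such that (P, e) is a Brauer pair of B (as P is normal, this says that e occurs in the idempotent of B, which is supported on C_G(P)). Let T be the stabilizer of e in G under conjugation. Then the idempotent of e is a block idempotent of T: some block E of T has, at every element of T, the same idempotent coefficient as e (zero off C_G(P)); and the idempotent of B is the sum of the distinct G-conjugates of the idempotent of e: its coefficient at g is the sum over all x in G of the coefficient of e at x⁻¹ g x, divided by the order of T. -/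
theorem result {G : Type*} [Group G] [Fintype G] (p : ℕ) [Fact p.Prime] (M : Ideal Cfsg.AlgInt) (hM : Cfsg.IsPModular p M) (P : Subgroup G) [P.Normal] (hP : IsPGroup p P) (B : Set (Cfsg.IrrCharacter G)) (e : Set (Cfsg.IrrCharacter (Subgroup.centralizer (P : Set G)))) (hBe : Cfsg.IsBrauerPairOf p M B P e) (T : Subgroup G) (hT : ∀ x : G, x ∈ T ↔ Cfsg.StabilizesBlock (Subgroup.centralizer (P : Set G)) e x) : (∃ E : Set (Cfsg.IrrCharacter T), Cfsg.IsPBlock M E ∧ ∀ t : T, Cfsg.blockCoeff E t = Cfsg.subgroupBlockCoeff (Subgroup.centralizer (P : Set G)) e (t : G)) ∧ ∀ g : G, Cfsg.blockCoeff B g = (Nat.card T : ℂ)⁻¹ * ∑ x : G, Cfsg.subgroupBlockCoeff (Subgroup.centralizer (P : Set G)) e (x⁻¹ * g * x) := by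
  classical
  haveI := hM.2.1
  haveI := charP_res (p := p) hM.2.2
  obtain ⟨hPe, hB, ho⟩ := (isBrauerPairOf_iff hM.2.2).mp hBe
  have hpair := (isBrauerPair_iff hM.2.2 hPe.2).mp hPe
  have hNtop : (⊤ : Subgroup G) ≤ Subgroup.normalizer (P : Set G) :=
    (Subgroup.normalizer_eq_top P).ge
  have hNC : ∀ x : G, x ∈ Subgroup.normalizer
      ((Subgroup.centralizer (P : Set G) : Subgroup G) : Set G) := fun x =>
    normalizer_le_normalizer_centralizer P (hNtop (Subgroup.mem_top x))
  have hTmem : ∀ x, x ∈ T ↔ cj x (idemS M e) = idemS M e := fun x => by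
    rw [hT, stabilizesBlock_iff hM.2.2 hPe.2]; exact and_iff_right (hNC x)
  have hbG := isBlk_idemG (G := G) hM.2.2 hB
  have hBe' : idemG M B * idemS M e = idemS M e := by
    have h : br P (idemG M B) * idemS M e = idemS M e := ho
    rwa [br_blk_eq_self hP le_top hNtop hbG] at h
  have hCT : Subgroup.centralizer (P : Set G) ≤ T := fun x hx =>
    (hTmem x).mpr ((isBlk_idemS hM.2.2 hPe.2).fixed x hx)
  constructor
  · have hblk : IsBlk T (idemS M e) := isBlk_of_stable hpair
      (fun x hx => (hTmem x).mpr (hpair.fixed_self x hx)) hCT (le_top.trans hNtop)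
      fun x hx => (hTmem x).mp hx
    obtain ⟨E, hE, -, h⟩ := exists_block_ext hM.2.2 hCT (fun x _ => hNC x) hPe.2 hblk
    exact ⟨E, hE, h⟩
  · intro g
    obtain ⟨S, hS, hg⟩ := exists_sum_subblocks hM.2.2 hP hB
    let m : G → Set (IrrCharacter (Subgroup.centralizer (P : Set G))) :=
      fun x => mapSet (normEquiv (hNC x)) e
    have hm : ∀ x, idemS M (m x) = cj x (idemS M e) := fun x => idemS_normEquiv (hNC x) e
    have hmB : ∀ x, IsPBlock M (m x) := fun x => isPBlock_mapSet _ hPe.2
    have hmS : ∀ x, m x ∈ S := fun x => by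
      refine (hS _).mpr ⟨hmB x, ?_⟩
      rw [hm, ← hbG.fixed x (Subgroup.mem_top x), ← map_mul, hBe']
    have hfib : ∀ f ∈ S, ∃ x, m x = f := fun f hf => by
      obtain ⟨hfb, hBf⟩ := (hS f).mp hf
      obtain ⟨x, -, hx⟩ := exists_cj_of_blk_above le_top hNtop (isBlk_idemS hM.2.2 hPe.2)
        (isBlk_idemS hM.2.2 hfb) hbG hBe' hBf
      exact ⟨x, (idemS_inj hM.2.2 (hmB x) hfb).mp (by rw [hm, hx])⟩
    have hcount : ∀ f ∈ S, (Finset.univ.filter fun x => m x = f).card = Nat.card T := by
      intro f hf
      obtain ⟨x0, rfl⟩ := hfib f hf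
      have hiff : ∀ x, m x = m x0 ↔ x0⁻¹ * x ∈ T := fun x => by
        rw [hTmem, cj_mul, ← idemS_inj (G := G) hM.2.2 (hmB x) (hmB x0), hm, hm]
        constructor
        · intro h; rw [h, cj_inv_cj]
        · intro h
          have := congrArg (cj x0) h
          rwa [cj_cj_inv] at this
      rw [Nat.card_eq_fintype_card, Fintype.card_subtype]
      refine Finset.card_nbij' (fun x => x0⁻¹ * x) (fun t => x0 * t) ?_ ?_ ?_ ?_ <;>
        intro x <;> simp [hiff]
    have hsum : ∑ x : G, subgroupBlockCoeff (Subgroup.centralizer (P : Set G)) e (x⁻¹ * g * x) =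
        (Nat.card T : ℂ) * ∑ f ∈ S, subgroupBlockCoeff (Subgroup.centralizer (P : Set G)) f g := by
      rw [Finset.mul_sum, ← Finset.sum_fiberwise_of_maps_to (g := m) fun x _ => hmS x]
      refine Finset.sum_congr rfl fun f hf => ?_
      rw [← hcount f hf, ← nsmul_eq_mul, ← Finset.sum_const]
      refine Finset.sum_congr rfl fun x hx => ?_
      rw [← (Finset.mem_filter.mp hx).2]
      have h2 := subgroupBlockCoeff_normEquiv (hNC x) e (x⁻¹ * g * x)
      rw [show x * (x⁻¹ * g * x) * x⁻¹ = g by group] at h2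
      exact h2.symm
    rw [hsum, ← mul_assoc, inv_mul_cancel₀ (Nat.cast_ne_zero.mpr Nat.card_pos.ne'), one_mul]
    exact hg g

end Cfsg.Agent.S4654
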