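import Cfsg.Statements.S4664
import Cfsg.Agent.Blocks.Orth
-- import your own Cfsg.Agent.* helpers here

set_option autoImplicit false
open Cfsg

namespace Cfsg.Agent.S4664

/-- Fix a prime p and a maximal ideal M of the algebraic integers containing p, and let B be a p-block of the finite group G. Let m be the p'-part of the order of G and η = exp(2πi/m). Then every coefficient of the idempotent of B lies in the cyclotomic field ℚ(η). -/
theorem result {G : Type*} [Group G] [Fintype G] (p : ℕ) [Fact p.Prime] (M : Ideal Cfsg.AlgInt) (hM : Cfsg.IsPModular p M) (B : Set (Cfsg.IrrCharacter G)) (hB : Cfsg.IsPBlock M B) (g : G) : Cfsg.blockCoeff B g ∈ IntermediateField.adjoin ℚ ({Complex.exp (2 * Real.pi * Complex.I / ((Nat.card G / p ^ (Nat.card G).factorization p : ℕ) : ℂ))} : Set ℂ) := by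
  classical
  haveI := hM.2.1
  have hp := (Fact.out : p.Prime)
  set m := Nat.card G / p ^ (Nat.card G).factorization p with hm
  have hm0 : m ≠ 0 := (Nat.ordCompl_pos p Nat.card_pos.ne').ne'
  set η := Complex.exp (2 * Real.pi * Complex.I / (m : ℂ)) with hη
  set F := IntermediateField.adjoin ℚ ({η} : Set ℂ)
  by_cases hg : p ∣ orderOf g
  · rw [Blocks.blockCoeff_eq_zero_of_dvd hM.2.2 hB hg]; exact zero_mem F
  have hgm : orderOf g ∣ m := by
    refine Nat.Coprime.dvd_of_dvd_mul_left (m := p ^ (Nat.card G).factorization p) ?_ ?_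
    · exact ((hp.coprime_iff_not_dvd.2 hg).symm).pow_right _
    · rw [hm, Nat.mul_div_cancel' (Nat.ordProj_dvd _ p)]; exact orderOf_dvd_natCard g
  rw [Blocks.blockCoeff_eq_sum, Finset.sum_apply]
  refine sum_mem fun χ _ => ?_
  rw [Blocks.eFun]
  refine mul_mem (inv_mem (natCast_mem F _)) (mul_mem ?_ ?_)
  · rw [(Blocks.charDegree_eq χ.2).1]; exact natCast_mem F _
  · rw [← Chars.char_inv_eq_conj (Chars.irr_isCharacter χ)]
    obtain ⟨n, ρ, -, hρ⟩ := χ.2
    obtain ⟨z, hz, hsum, -, -⟩ := Chars.exists_eigenvalues ρ g⁻¹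
    rw [← hρ, ← pow_one g⁻¹, hsum 1]
    refine sum_mem fun i _ => ?_
    rw [pow_one]
    haveI : NeZero m := ⟨hm0⟩
    have h1 : z i ^ m = 1 := by
      obtain ⟨c, hc⟩ := hgm
      have h2 := hz i
      rw [orderOf_inv] at h2
      rw [hc, pow_mul, h2, one_pow]
    obtain ⟨j, -, hj⟩ := (Complex.isPrimitiveRoot_exp m hm0).eq_pow_of_pow_eq_one h1
    rw [← hj]
    exact pow_mem (IntermediateField.subset_adjoin ℚ _ (Set.mem_singleton η)) j

end Cfsg.Agent.S4664
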