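import Cfsg.Statements.S4668
import Cfsg.Agent.BlockChar.Exact

set_option autoImplicit false
open Cfsg Cfsg.Agent Cfsg.Agent.BlockChar

namespace Cfsg.Agent.S4668

/-- Fix a prime p and a maximal ideal M of the algebraic integers containing p. Let Q₀ < Q₁ < ⋯ < Q_m be a strictly increasing chain of p-subgroups of the finite group G and N the intersection of their normalizers. Then every block idempotent of N is supported on C_G(Q_m): for every p-block E of N, the idempotent coefficient of E vanishes at every element of N outside C_G(Q_m). -/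
theorem result {G : Type*} [Group G] [Fintype G] (p : ℕ) [Fact p.Prime] (M : Ideal Cfsg.AlgInt) (hM : Cfsg.IsPModular p M) (m : ℕ) (Q : Fin (m + 1) → Subgroup G) (hQ : StrictMono Q) (hQp : ∀ i, IsPGroup p (Q i)) (N : Subgroup G) (hN : ∀ g : G, g ∈ N ↔ ∀ i, g ∈ Subgroup.normalizer (Q i : Set G)) (E : Set (Cfsg.IrrCharacter N)) (hE : Cfsg.IsPBlock M E) (n : N) (hn : (n : G) ∉ Subgroup.centralizer (Q (Fin.last m) : Set G)) : Cfsg.blockCoeff E n = 0 := by
  classical
  haveI := hM.2.1
  haveI : Finite G := Finite.of_fintype G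
  by_contra h0
  apply hn
  have hreg : ¬ p ∣ orderOf (n : G) := by
    rw [Subgroup.orderOf_coe]
    exact fun h => h0 (Blocks.blockCoeff_eq_zero_of_dvd hM.2.2 hE h)
  have hcen : ∀ i, ∀ x ∈ Q i, x ∈ N → x * (n : G) = n * x := by
    intro i x hx hxN
    haveI hnorm : ((Q i).subgroupOf N).Normal := ⟨fun y hy z => by
      rw [Subgroup.mem_subgroupOf] at hy ⊢
      exact ((Subgroup.mem_normalizer_iff.mp ((hN z).mp z.2 i) (y : G)).mp hy)⟩
    have h1 : n ∈ Subgroup.centralizer (((Q i).subgroupOf N : Subgroup N) : Set N) := by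
      by_contra h
      exact h0 (blockCoeff_eq_zero_of_notMem_centralizer (P := (Q i).subgroupOf N) hM.2.2
        ((hQp i).comap_of_injective _ Subtype.val_injective) hE h)
    exact congrArg Subtype.val
      (Subgroup.mem_centralizer_iff.mp h1 ⟨x, hxN⟩ (Subgroup.mem_subgroupOf.mpr hx))
  suffices h : ∀ i, (n : G) ∈ Subgroup.centralizer (Q i : Set G) from h _
  intro i
  induction i using WellFoundedLT.induction with
  | ind i ih =>
    set D := Q i ⊓ Subgroup.centralizer ({(n : G)} : Set G) with hD
    have hQD : ∀ j, j < i → Q j ≤ D := fun j hj x hx => ⟨hQ.monotone hj.le hx,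
      Subgroup.mem_centralizer_singleton_iff.mpr (Subgroup.mem_centralizer_iff.mp (ih j hj) x hx)⟩
    have hin : Q i ⊓ Subgroup.centralizer (D : Set G) ≤ D := by
      intro x hx
      obtain ⟨hxQ, hxC⟩ := Subgroup.mem_inf.mp hx
      have hxN : x ∈ N := (hN x).mpr fun j => by
        rcases lt_or_ge j i with hj | hj
        · exact centralizer_le_normalizer (Q j) (centralizer_anti (hQD j hj) hxC)
        · exact Subgroup.le_normalizer (hQ.monotone hj hxQ)
      exact ⟨hxQ, Subgroup.mem_centralizer_singleton_iff.mpr (hcen i x hxQ hxN)⟩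
    have hAN : Subgroup.zpowers (n : G) ≤ Subgroup.normalizer (Q i : Set G) :=
      Subgroup.zpowers_le.mpr ((hN n).mp n.2 i)
    have hDA : D ≤ Subgroup.centralizer (Subgroup.zpowers (n : G) : Set G) := by
      intro x hx
      rw [Subgroup.mem_centralizer_iff]
      intro y hy
      obtain ⟨k, rfl⟩ := Subgroup.mem_zpowers_iff.mp hy
      have hc : Commute x (n : G) := Subgroup.mem_centralizer_singleton_iff.mp hx.2
      exact (hc.zpow_right k).eq.symm
    have hcop : (Nat.card (Subgroup.zpowers (n : G))).Coprime p := by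
      rw [Nat.card_zpowers]
      exact Nat.coprime_comm.mp ((Nat.Prime.coprime_iff_not_dvd Fact.out).mpr hreg)
    haveI hsolv : Group.IsSolvable (Subgroup.zpowers (n : G)) :=
      Group.isSolvable_of_comm fun a b => mul_comm' a b
    have h2 := Coprime.commutator_eq_bot_of_PxQ (P := D) (Q := Subgroup.zpowers (n : G))
      ((hQp i).to_le inf_le_left) hcop
      (Subgroup.commutator_eq_bot_iff_le_centralizer.mpr hDA)
      _ (Q i) rfl (hQp i) (inf_le_left.trans Subgroup.le_normalizer) hAN
      (Subgroup.commutator_eq_bot_iff_le_centralizer.mpr (hin.trans hDA))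
    rw [Subgroup.commutator_eq_bot_iff_le_centralizer] at h2
    rw [Subgroup.mem_centralizer_iff]
    intro x hx
    exact (Subgroup.mem_centralizer_iff.mp (h2 hx) (n : G) (Subgroup.mem_zpowers _)).symm

end Cfsg.Agent.S4668
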