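import Cfsg.Statements.S4671
import Cfsg.Agent.Blocks.StableCover
import Cfsg.Agent.S4438
-- import your own Cfsg.Agent.* helpers here

set_option autoImplicit false
open Cfsg

namespace Cfsg.Agent.S4671

/-- Fix a prime p and a maximal ideal M of the algebraic integers containing p. Let N be a normal subgroup of the finite group G, B a p-block of G and P a defect group of B. Then there is a p-block c of N, stable under conjugation by P and covered by B (some member of B has a constituent in c on restriction to N), such that P ∩ N is a defect group of c. -/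
theorem result {G : Type*} [Group G] [Fintype G] (p : ℕ) [Fact p.Prime] (M : Ideal Cfsg.AlgInt) (hM : Cfsg.IsPModular p M) (N : Subgroup G) [N.Normal] [Fintype N] (B : Set (Cfsg.IrrCharacter G)) (hB : Cfsg.IsPBlock M B) (P : Subgroup G) (hP : Cfsg.IsDefectGroup p M B P) : ∃ c : Set (Cfsg.IrrCharacter N), Cfsg.IsPBlock M c ∧ (∀ x ∈ P, Cfsg.StabilizesBlock N c x) ∧ (∃ χ ∈ B, ∃ θ ∈ c, Cfsg.classInner (fun n : N => (χ : G → ℂ) n) (θ : N → ℂ) ≠ 0) ∧ Cfsg.IsDefectGroup p M c ((P ⊓ N).subgroupOf N) := by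
  classical
  haveI : M.IsMaximal := hM.2.1
  have hpM : (p : Cfsg.AlgInt) ∈ M := hM.2.2
  haveI := Cfsg.Agent.BlockChar.charP_res (p := p) hpM
  obtain ⟨χ, hχ⟩ := Cfsg.Agent.Blocks.block_nonempty hB
  obtain ⟨θ, hθ⟩ := Cfsg.Agent.Blocks.exists_constituent (N := N) χ
  have hPd := (Cfsg.Agent.BlockChar.isDefectGroup_iff_idemG hpM hB P).1 hP
  obtain ⟨c, hc, hstab, hcov, hbr⟩ := Cfsg.Agent.Blocks.exists_stable_covered hpM hB
    (Cfsg.Agent.Blocks.isPBlock_blockOf (M := M) θ)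
    ⟨χ, hχ, θ, Cfsg.Agent.Blocks.mem_blockOf_self θ, hθ⟩ hPd.pgroup hPd.ne_zero
  refine ⟨c, hc, hstab, hcov, ?_⟩
  have hR : IsPGroup p (P ⊓ N : Subgroup G) := hPd.pgroup.to_le inf_le_left
  have hne : Cfsg.Agent.BlockChar.br (P ⊓ N) (Cfsg.Agent.BlockChar.idemS M c) ≠ 0 := fun h =>
    hbr (by rw [← Cfsg.Agent.BlockChar.br_br (inf_le_left : P ⊓ N ≤ P), h, map_zero])
  obtain ⟨D, hD, hle⟩ :=
    Cfsg.Agent.BlockChar.exists_defectGroup_ge hpM inf_le_right hR hc hne
  have hQ : Cfsg.IsDefectGroup p M c ((D.map N.subtype).subgroupOf N) := by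
    rwa [Subgroup.subgroupOf, Subgroup.comap_map_eq_self_of_injective N.subtype_injective]
  obtain ⟨P', hP', hP'Q⟩ := Cfsg.Agent.S4438.result p M hM N c hc (D.map N.subtype)
    (Subgroup.map_subtype_le D) hQ B hB hcov
  obtain ⟨x, -, hx⟩ := ((Cfsg.Agent.BlockChar.isDefectGroup_iff_idemG hpM hB P').1 hP').exists_conj hPd
  have hcard : Nat.card (D.map N.subtype) = Nat.card (P ⊓ N : Subgroup G) := by
    rw [← hP'Q, hx]
    conv_rhs => rw [← Cfsg.Agent.BlockChar.conjS_eq_self_of_mem_normalizer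
      ((Subgroup.normalizer_eq_top N).ge (Subgroup.mem_top x))]
    rw [show Cfsg.Agent.BlockChar.conjS x P' ⊓ Cfsg.Agent.BlockChar.conjS x N =
      Cfsg.Agent.BlockChar.conjS x (P' ⊓ N) from
        (Subgroup.map_inf _ _ _ (MulAut.conj x).injective).symm, Cfsg.Agent.BlockChar.card_conjS]
  have hle' : P ⊓ N ≤ D.map N.subtype := by
    intro g hg
    exact ⟨⟨g, hg.2⟩, hle (Subgroup.mem_subgroupOf.2 hg), rfl⟩
  rwa [Subgroup.eq_of_le_of_card_ge hle' hcard.le]

end Cfsg.Agent.S4671
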