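import Cfsg.Statements.S4673
import Cfsg.Agent.Blocks.StableCover
import Cfsg.Agent.Blocks.StableIndex
import Cfsg.Agent.S4438
-- import your own Cfsg.Agent.* helpers here

set_option autoImplicit false
open Cfsg

namespace Cfsg.Agent.S4673

/-- Fix a prime p and a maximal ideal M of the algebraic integers containing p. Let N ≤ L be normal subgroups of the finite group G with L/N a p-group, let B be a p-block of G covering the p-block c of N (some member of B has a constituent in c on restriction to N), and suppose that N contains a defect group of B. Then the stabilizer T of c in G satisfies T ∩ L = N. -/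
theorem result {G : Type*} [Group G] [Fintype G] (p : ℕ) [Fact p.Prime] (M : Ideal Cfsg.AlgInt) (hM : Cfsg.IsPModular p M) (N L : Subgroup G) [N.Normal] [L.Normal] [Fintype N] (hNL : N ≤ L) (hLN : ∃ k : ℕ, (N.subgroupOf L).index = p ^ k) (B : Set (Cfsg.IrrCharacter G)) (hB : Cfsg.IsPBlock M B) (c : Set (Cfsg.IrrCharacter N)) (hc : Cfsg.IsPBlock M c) (hcov : (∃ χ ∈ B, ∃ θ ∈ c, Cfsg.classInner (fun n : N => (χ : G → ℂ) n) (θ : N → ℂ) ≠ 0)) (hD : ∃ D : Subgroup G, Cfsg.IsDefectGroup p M B D ∧ D ≤ N) (T : Subgroup G) (hT : ∀ x : G, x ∈ T ↔ Cfsg.StabilizesBlock N c x) : T ⊓ L = N := by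
  classical
  haveI : M.IsMaximal := hM.2.1
  have hpM : (p : Cfsg.AlgInt) ∈ M := hM.2.2
  haveI := Cfsg.Agent.BlockChar.charP_res (p := p) hpM
  have hp := (Fact.out : p.Prime)
  obtain ⟨k, hk⟩ := hLN
  obtain ⟨D, hD, hDN⟩ := hD
  set K := T ⊓ L with hKdef
  have hNnorm : ∀ H : Subgroup G, H ≤ Subgroup.normalizer (N : Set G) :=
    fun H => le_top.trans (Subgroup.normalizer_eq_top N).ge
  have hβN := Cfsg.Agent.BlockChar.isBlk_idemS hpM hc
  set β := Cfsg.Agent.BlockChar.idemS M c with hβ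
  have hNT : N ≤ T := fun n hn => (hT n).2
    ((Cfsg.Agent.BlockChar.fixed_idemS_iff hpM hc (hNnorm N)).1 hβN.fixed n hn)
  have hNK : N ≤ K := le_inf hNT hNL
  have hfix : Cfsg.Agent.BlockChar.Fixed K β :=
    (Cfsg.Agent.BlockChar.fixed_idemS_iff hpM hc (hNnorm K)).2 fun x hx => (hT x).1 hx.1
  have hreg : ∀ g ∈ L, ¬ p ∣ orderOf g → g ∈ N := fun g hg h => by
    have h' : ¬ p ∣ orderOf (⟨g, hg⟩ : L) := by rwa [Subgroup.orderOf_mk]
    exact Subgroup.mem_subgroupOf.1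
      (Cfsg.Agent.BlockChar.mem_of_isPRegular_of_index (N := N.subgroupOf L) hk h')
  have hβK := Cfsg.Agent.BlockChar.isBlk_of_fixed hpM hNK
    (fun g hg h => hreg g hg.2 h) hβN hfix
  obtain ⟨j, -, hj⟩ := (Nat.dvd_prime_pow hp).1 (show N.relIndex K ∣ p ^ k from
    hk ▸ Dvd.intro (K.relIndex L) (Subgroup.relIndex_mul_relIndex N K L hNK inf_le_right))
  obtain ⟨R, hRK, hRp, hbr, hsup⟩ := Cfsg.Agent.Blocks.exists_br_sup hpM hNK hj hβN hβK
  by_contra hne
  have hRN : ¬ R ≤ N := fun h => hne (by rw [← hsup, sup_eq_left.2 h])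
  obtain ⟨F, ⟨hF, hFβ⟩, -⟩ := Cfsg.Agent.BlockChar.existsUnique_blk_over hpM hNL hreg hβN
  have hbrF : Cfsg.Agent.BlockChar.br R F ≠ 0 := by
    intro h0
    apply hbr
    rw [← hFβ, Cfsg.Agent.BlockChar.br_mul hRp (hF.fixed.mono (hRK.trans inf_le_right))
      (hfix.mono hRK), h0, zero_mul]
  obtain ⟨e, he, rfl⟩ := Cfsg.Agent.BlockChar.exists_idemS_eq hpM hF
  haveI : Fintype L := Fintype.ofFinite L
  have hBc := Cfsg.Agent.Chars.Coset.idemG_mul_idemS_ne_zero hpM hB hc hcov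
  have hBe : Cfsg.Agent.BlockChar.idemG M B * Cfsg.Agent.BlockChar.idemS M e ≠ 0 := by
    intro h0
    apply hBc
    show _ * β = 0
    rw [← hFβ, ← mul_assoc, h0, zero_mul]
  have hcovL := Cfsg.Agent.Blocks.covers_of_idem_mul_ne_zero hpM hB he hBe
  obtain ⟨Q, hQ⟩ := Cfsg.Agent.BlockChar.exists_isDef (p := p) hF
  obtain ⟨P, hP, hPQ⟩ := Cfsg.Agent.S4438.result p M hM L e he Q hQ.le
    ((Cfsg.Agent.BlockChar.isDefectGroup_subgroupOf_iff hpM hQ.le he).2 hQ) B hB hcovL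
  obtain ⟨x, -, rfl⟩ :=
    ((Cfsg.Agent.BlockChar.isDefectGroup_iff_idemG hpM hB D).1 hD).exists_conj
      ((Cfsg.Agent.BlockChar.isDefectGroup_iff_idemG hpM hB P).1 hP)
  have hN' : ∀ y : G, Cfsg.Agent.BlockChar.conjS y N = N := fun y =>
    Cfsg.Agent.BlockChar.conjS_eq_self_of_mem_normalizer
      ((Subgroup.normalizer_eq_top N).ge (Subgroup.mem_top y))
  obtain ⟨h, -, hle⟩ := hQ.maximal R (hRK.trans inf_le_right) hRp hbrF
  apply hRN
  calc R ≤ Cfsg.Agent.BlockChar.conjS h Q := hle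
    _ ≤ Cfsg.Agent.BlockChar.conjS h (Cfsg.Agent.BlockChar.conjS x D) :=
        Cfsg.Agent.BlockChar.conjS_le (hPQ ▸ inf_le_left)
    _ ≤ Cfsg.Agent.BlockChar.conjS h N := Cfsg.Agent.BlockChar.conjS_le
        ((Cfsg.Agent.BlockChar.conjS_le hDN).trans (hN' x).le)
    _ = N := hN' h

end Cfsg.Agent.S4673
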