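import Cfsg.Statements.S4674
import Cfsg.Agent.Blocks.NormalizerCover
-- import your own Cfsg.Agent.* helpers here

set_option autoImplicit false
open Cfsg

namespace Cfsg.Agent.S4674

/-- Fix a prime p and a maximal ideal M of the algebraic integers containing p. Let N be a normal subgroup of the finite group G, Q a p-subgroup of N, H = N_G(Q) and L = H ∩ N = N_N(Q). Let d be a p-block of N with defect group Q and e the p-block of L with defect group Q that induces d inside N (its Brauer correspondent). Then block induction from H to G is a bijection from the p-blocks of H covering e onto the p-blocks of G covering d: every block of H covering e induces exactly one block of G, and that block covers d; and every block of G covering d is induced by exactly one block of H covering e. -/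
theorem result {G : Type*} [Group G] [Fintype G] (p : ℕ) [Fact p.Prime] (M : Ideal Cfsg.AlgInt) (hM : Cfsg.IsPModular p M) (N : Subgroup G) [N.Normal] [Fintype N] (Q : Subgroup G) (hQ : IsPGroup p Q) (hQN : Q ≤ N) [Fintype ↥(Subgroup.normalizer (Q : Set G) ⊓ N)] (d : Set (Cfsg.IrrCharacter N)) (hd : Cfsg.IsPBlock M d) (hdQ : Cfsg.IsDefectGroup p M d (Q.subgroupOf N)) (e : Set (Cfsg.IrrCharacter ↥(Subgroup.normalizer (Q : Set G) ⊓ N))) (he : Cfsg.IsPBlock M e) (heQ : Cfsg.IsDefectGroup p M e (Q.subgroupOf (Subgroup.normalizer (Q : Set G) ⊓ N))) (hed : Cfsg.IsInducedBlockIn M N (Subgroup.normalizer (Q : Set G) ⊓ N) e d) : (∀ c : Set (Cfsg.IrrCharacter ↥(Subgroup.normalizer (Q : Set G))), Cfsg.IsPBlock M c → (∃ ψ ∈ c, ∃ ξ ∈ e, Cfsg.classInner (fun l : ↥(Subgroup.normalizer (Q : Set G) ⊓ N) => (ψ : ↥(Subgroup.normalizer (Q : Set G)) → ℂ) (Subgroup.inclusion inf_le_left l)) (ξ : ↥(Subgroup.normalizer (Q : Set G) ⊓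 N) → ℂ) ≠ 0) → ∃! B : Set (Cfsg.IrrCharacter G), Cfsg.IsInducedBlock M (Subgroup.normalizer (Q : Set G)) c B ∧ (∃ χ ∈ B, ∃ θ ∈ d, Cfsg.classInner (fun n : N => (χ : G → ℂ) n) (θ : N → ℂ) ≠ 0)) ∧ (∀ B : Set (Cfsg.IrrCharacter G), Cfsg.IsPBlock M B → (∃ χ ∈ B, ∃ θ ∈ d, Cfsg.classInner (fun n : N => (χ : G → ℂ) n) (θ : N → ℂ) ≠ 0) → ∃! c : Set (Cfsg.IrrCharacter ↥(Subgroup.normalizer (Q : Set G))), (Cfsg.IsPBlock M c ∧ ∃ ψ ∈ c, ∃ ξ ∈ e, Cfsg.classInner (fun l : ↥(Subgroup.normalizer (Q : Set G) ⊓ N) => (ψ : ↥(Subgroup.normalizer (Q : Set G)) → ℂ) (Subgroup.inclusion inf_le_left l)) (ξ : ↥(Subgroup.normalizer (Q : Set G) ⊓ N) → ℂ) ≠ 0) ∧ Cfsg.IsInducedBlock M (Subgroup.normalizer (Q : Set G)) c B) := by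
  classical
  haveI : M.IsMaximal := hM.2.1
  have hpM : (p : Cfsg.AlgInt) ∈ M := hM.2.2
  haveI := Cfsg.Agent.BlockChar.charP_res (p := p) hpM
  have hQH : Q ≤ (Subgroup.normalizer (Q : Set G)) := Subgroup.le_normalizer
  have hCH : Subgroup.centralizer (Q : Set G) ≤ (Subgroup.normalizer (Q : Set G)) := Cfsg.Agent.BlockChar.centralizer_le_normalizer Q
  have hnorm : (Subgroup.normalizer (Q : Set G)) ≤ Subgroup.normalizer (((Subgroup.normalizer (Q : Set G)) ⊓ N : Subgroup G) : Set G) :=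
    (le_inf Subgroup.le_normalizer (le_top.trans (Subgroup.normalizer_eq_top N).ge)).trans
      (Subgroup.inf_normalizer_le_normalizer_inf)
  have hbr := Cfsg.Agent.Blocks.br_eq_of_inducedIn hpM hQN hd hdQ he hed
  have hδ := Cfsg.Agent.BlockChar.isBlk_idemS (G := G) hpM hd
  have hδQ := (Cfsg.Agent.BlockChar.isDefectGroup_subgroupOf_iff hpM hQN hd).1 hdQ
  have hε := Cfsg.Agent.BlockChar.isBlk_idemS (G := G) hpM he
  -- the induced block of a block over `e`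
  have hstep : ∀ c : Set (Cfsg.IrrCharacter (Subgroup.normalizer (Q : Set G))), Cfsg.IsPBlock M c →
      ∃ B : Set (Cfsg.IrrCharacter G), Cfsg.IsPBlock M B ∧ Cfsg.IsInducedBlock M (Subgroup.normalizer (Q : Set G)) c B ∧
        (∀ B', Cfsg.IsInducedBlock M (Subgroup.normalizer (Q : Set G)) c B' → B' = B) ∧
        Cfsg.Agent.BlockChar.br Q (Cfsg.Agent.BlockChar.idemG M B) * Cfsg.Agent.BlockChar.idemS M c =
          Cfsg.Agent.BlockChar.idemS M c := by
    intro c hc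
    have hcb := Cfsg.Agent.BlockChar.isBlk_idemS (G := G) hpM hc
    obtain ⟨f, hf, hcf, hcf'⟩ :=
      Cfsg.Agent.Blocks.exists_pair_under hpM hQ hQH hCH le_rfl hcb
    obtain ⟨z, ⟨hz, hzf⟩, huniq⟩ := Cfsg.Agent.BlockChar.existsUnique_ofBlock_in
      (H := (⊤ : Subgroup G)) hf le_top le_top
    obtain ⟨B, hB, rfl⟩ := Cfsg.Agent.BlockChar.exists_idemG_eq hpM hz
    refine ⟨B, hB, (Cfsg.Agent.Blocks.induced_iff_pair hpM hQH hCH hc hB hf hcf).2 hzf,
      fun B' hB' => ?_, ?_⟩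
    · exact (Cfsg.Agent.BlockChar.idemG_inj hpM hB'.2.1 hB).1 (huniq _
        ⟨Cfsg.Agent.BlockChar.isBlk_idemG hpM hB'.2.1,
          (Cfsg.Agent.Blocks.induced_iff_pair hpM hQH hCH hc hB'.2.1 hf hcf).1 hB'⟩)
    · have hcen : Cfsg.Agent.BlockChar.CentralIn (Subgroup.normalizer (Q : Set G))
          (Cfsg.Agent.BlockChar.br Q (Cfsg.Agent.BlockChar.idemG M B)) :=
        ⟨(Cfsg.Agent.BlockChar.supportedIn_br Q _).mono hCH,
          Cfsg.Agent.BlockChar.fixed_br (hz.fixed.mono le_top) le_rfl⟩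
      refine (hcb.prim _ hcen (Cfsg.Agent.BlockChar.br_idem hQ (hz.fixed.mono le_top)
        hz.idem)).resolve_left fun h0 => hf.blk.ne_zero ?_
      unfold Cfsg.Agent.BlockChar.OfBlock at hzf
      calc f = Cfsg.Agent.BlockChar.br Q (Cfsg.Agent.BlockChar.idemG M B) * f := hzf.symm
        _ = Cfsg.Agent.BlockChar.br Q (Cfsg.Agent.BlockChar.idemG M B) *
            (Cfsg.Agent.BlockChar.idemS M c * f) := by rw [hcf']
        _ = 0 := by rw [← mul_assoc, h0, zero_mul]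
  have hbrmul : ∀ B : Set (Cfsg.IrrCharacter G), Cfsg.IsPBlock M B →
      Cfsg.Agent.BlockChar.br Q (Cfsg.Agent.BlockChar.idemG M B * (Cfsg.Agent.BlockChar.idemS M d)) =
        Cfsg.Agent.BlockChar.br Q (Cfsg.Agent.BlockChar.idemG M B) * (Cfsg.Agent.BlockChar.idemS M e) := fun B hB => by
    rw [Cfsg.Agent.BlockChar.br_mul hQ ((Cfsg.Agent.BlockChar.isBlk_idemG hpM hB).fixed.mono le_top)
      (hδ.fixed.mono hQN), hbr]
  refine ⟨fun c hc hcov => ?_, fun B hB hcov => ?_⟩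
  · have hne := (Cfsg.Agent.Blocks.coversIn_iff hpM inf_le_left hnorm hc he).1 hcov
    obtain ⟨B, hB, hind, huniq, hBc⟩ := hstep c hc
    refine ⟨B, ⟨hind, Cfsg.Agent.Blocks.covers_of_idem_mul_ne_zero hpM hB hd fun h0 => hne ?_⟩,
      fun B' hB' => huniq B' hB'.1⟩
    have h1 := hbrmul B hB
    rw [h0, map_zero] at h1
    have hcb := Cfsg.Agent.BlockChar.isBlk_idemS (G := G) hpM hc
    rw [← hBc, ← hcb.central.comm ((Cfsg.Agent.BlockChar.supportedIn_br Q _).mono hCH), mul_assoc,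
      ← h1, mul_zero]
  · have hne := Cfsg.Agent.Chars.Coset.idemG_mul_idemS_ne_zero hpM hB hd hcov
    have hBb := Cfsg.Agent.BlockChar.isBlk_idemG hpM hB
    have hcomm : (Cfsg.Agent.BlockChar.idemS M d) * Cfsg.Agent.BlockChar.idemG M B = Cfsg.Agent.BlockChar.idemG M B * (Cfsg.Agent.BlockChar.idemS M d) :=
      Cfsg.Agent.Chars.Coset.supported_fixed_comm hδ.supp (hBb.fixed.mono le_top)
    have hz := Cfsg.Agent.Chars.Coset.br_ne_zero (p := p) hδ
      (z := Cfsg.Agent.BlockChar.idemG M B * (Cfsg.Agent.BlockChar.idemS M d))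
      (by rw [mul_assoc, ← mul_assoc (Cfsg.Agent.BlockChar.idemS M d), hcomm, mul_assoc, hδ.idem, ← mul_assoc, hBb.idem])
      hne ((hBb.fixed.mono le_top).mul hδ.fixed) (by rw [mul_assoc, hδ.idem]) hQN hδQ.pgroup
      hδQ.ne_zero
    rw [hbrmul B hB] at hz
    have hcen : Cfsg.Agent.BlockChar.CentralIn (Subgroup.normalizer (Q : Set G))
        (Cfsg.Agent.BlockChar.br Q (Cfsg.Agent.BlockChar.idemG M B)) :=
      ⟨(Cfsg.Agent.BlockChar.supportedIn_br Q _).mono hCH,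
        Cfsg.Agent.BlockChar.fixed_br (hBb.fixed.mono le_top) le_rfl⟩
    rw [Cfsg.Agent.BlockChar.eq_sum_blks hcen (Cfsg.Agent.BlockChar.br_idem hQ
      (hBb.fixed.mono le_top) hBb.idem), Finset.sum_mul] at hz
    obtain ⟨z, hz1, hzε⟩ := Finset.exists_ne_zero_of_sum_ne_zero hz
    obtain ⟨hz1, hBz⟩ := Finset.mem_filter.1 hz1
    obtain ⟨c, hc, rfl⟩ :=
      Cfsg.Agent.BlockChar.exists_idemS_eq hpM (Cfsg.Agent.BlockChar.mem_blks.1 hz1)
    have hcb := Cfsg.Agent.BlockChar.isBlk_idemS (G := G) hpM hc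
    have hind : Cfsg.IsInducedBlock M (Subgroup.normalizer (Q : Set G)) c B := by
      obtain ⟨f, hf, hcf, hcf'⟩ :=
        Cfsg.Agent.Blocks.exists_pair_under hpM hQ hQH hCH le_rfl hcb
      refine (Cfsg.Agent.Blocks.induced_iff_pair hpM hQH hCH hc hB hf hcf).2 ?_
      show _ * f = f
      rw [← hcf', ← mul_assoc, hBz]
    refine ⟨c, ⟨⟨hc, (Cfsg.Agent.Blocks.coversIn_iff hpM inf_le_left hnorm hc he).2 hzε⟩, hind⟩, ?_⟩
    rintro c₂ ⟨⟨hc₂, hcov₂⟩, hind₂⟩
    have hne₂ := (Cfsg.Agent.Blocks.coversIn_iff hpM inf_le_left hnorm hc₂ he).1 hcov₂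
    have hcb₂ := Cfsg.Agent.BlockChar.isBlk_idemS (G := G) hpM hc₂
    obtain ⟨D₁, f₁, hD₁, hD₁N, hm₁, ho₁⟩ :=
      Cfsg.Agent.Blocks.exists_maxPair_over hpM hQ hQN hδ hδQ hε hbr hcb hzε
    obtain ⟨D₂, f₂, hD₂, hD₂N, hm₂, ho₂⟩ :=
      Cfsg.Agent.Blocks.exists_maxPair_over hpM hQ hQN hδ hδQ hε hbr hcb₂ hne₂
    have hQD : ∀ D : Subgroup G, D ⊓ N = Q → Subgroup.centralizer (D : Set G) ≤ (Subgroup.normalizer (Q : Set G)) := fun D h =>
      (Cfsg.Agent.BlockChar.centralizer_anti (h ▸ inf_le_left : Q ≤ D)).trans hCH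
    have hB₁ := (Cfsg.Agent.Blocks.induced_iff_pair hpM hD₁ (hQD D₁ hD₁N) hc hB hm₁.pair ho₁).1 hind
    have hB₂ := (Cfsg.Agent.Blocks.induced_iff_pair hpM hD₂ (hQD D₂ hD₂N) hc₂ hB hm₂.pair ho₂).1 hind₂
    obtain ⟨x, hxD, hxf⟩ := hm₁.exists_conj hm₂ hBb hB₁ hB₂
    have hxH : x ∈ (Subgroup.normalizer (Q : Set G)) := by
      refine Cfsg.Agent.BlockChar.mem_normalizer_of_conjS_eq ?_
      calc Cfsg.Agent.BlockChar.conjS x Q
          = Cfsg.Agent.BlockChar.conjS x D₁ ⊓ Cfsg.Agent.BlockChar.conjS x N := by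
            conv_lhs => rw [← hD₁N]
            exact Subgroup.map_inf _ _ _ (MulAut.conj x).injective
        _ = D₂ ⊓ N := by
            rw [← hxD, Cfsg.Agent.BlockChar.conjS_eq_self_of_mem_normalizer
              ((Subgroup.normalizer_eq_top N).ge (Subgroup.mem_top x))]
        _ = Q := hD₂N
    have ho₁' : Cfsg.Agent.BlockChar.OfBlock (Cfsg.Agent.BlockChar.idemS M c) D₂ f₂ := by
      have h := congrArg (Cfsg.Agent.BlockChar.cj (k := Cfsg.Agent.Blocks.Res M) x) ho₁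
      rwa [map_mul, Cfsg.Agent.BlockChar.br_cj, hcb.fixed x hxH, ← hxD, ← hxf] at h
    exact (Cfsg.Agent.BlockChar.idemS_inj hpM hc₂ hc).1
      ((Cfsg.Agent.BlockChar.existsUnique_ofBlock_in hm₂.pair hD₂ (hQD D₂ hD₂N)).unique
        ⟨hcb₂, ho₂⟩ ⟨hcb, ho₁'⟩)

end Cfsg.Agent.S4674
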