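import Cfsg.Statements.S4691
import Cfsg.Agent.BlockChar.Principal
import Cfsg.Agent.Transfer.Complement

set_option autoImplicit false
open Cfsg Cfsg.Agent Cfsg.Agent.BlockChar

namespace Cfsg.Agent.S4691

/-- Fix a prime p and a maximal ideal M of the algebraic integers containing p. A finite group G has a normal p-complement if and only if its principal p-block is nilpotent. -/
theorem result {G : Type*} [Group G] [Fintype G] (p : ℕ) [Fact p.Prime] (M : Ideal Cfsg.AlgInt) (hM : Cfsg.IsPModular p M) : Cfsg.HasNormalPComplement p G ↔ Cfsg.IsNilpotentBlock p M (Cfsg.principalBlock M G) := by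
  haveI := hM.2.1
  rw [isNilpotentBlock_principal_iff hM.2.2]
  constructor
  · intro h Q hQ x hx hreg
    exact Transfer.mem_centralizer_of_hasNormalPComplement h hQ hx
      (Nat.coprime_comm.mp ((Nat.Prime.coprime_iff_not_dvd Fact.out).mpr hreg))
  · intro h
    obtain ⟨P⟩ := (inferInstance : Nonempty (Sylow p G))
    exact Transfer.hasNormalPComplement_of_frobenius P fun Q hQ _ g hg hgp =>
      h Q (P.isPGroup'.to_le hQ) g hg
        ((Nat.Prime.coprime_iff_not_dvd Fact.out).mp hgp.symm)

end Cfsg.Agent.S4691
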