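import Cfsg.Statements.S4697
import Cfsg.Agent.BlockChar.RankThree

set_option autoImplicit false
open Cfsg Cfsg.Agent Cfsg.Agent.BlockChar
open scoped IsMulCommutative

namespace Cfsg.Agent.S4697

/-- Let p be a prime, M a maximal ideal of the algebraic integers containing p, and B a p-block of the finite group G with an abelian defect group D of order p^d. If D has rank 2 (its least number of generators is 2) then B contains at most p^d irreducible characters; if D has rank 3 then the number k of irreducible characters in B satisfies k^3 ≤ p^(5d). -/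
theorem result {G : Type*} [Group G] [Finite G] (p : ℕ) [Fact p.Prime] (M : Ideal Cfsg.AlgInt) (hM : Cfsg.IsPModular p M) (B : Set (Cfsg.IrrCharacter G)) (hB : Cfsg.IsPBlock M B) (D : Subgroup G) (hBD : Cfsg.IsDefectGroup p M B D) (hab : IsMulCommutative D) (d : ℕ) (hDd : Nat.card D = p ^ d) : (Group.rank D = 2 → Nat.card B ≤ p ^ d) ∧ (Group.rank D = 3 → Nat.card B ^ 3 ≤ p ^ (5 * d)) := by
  haveI := hM.2.1
  haveI := Fintype.ofFinite G
  have hpM := hM.2.2
  haveI := hab
  obtain ⟨e, Dd⟩ := exists_maxData_of_defect hpM hB hBD
  have hd : blockDefect p B = d := by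
    have h := card_pair_group hpM Dd
    rw [hDd] at h
    exact (Nat.pow_right_injective (Fact.out : p.Prime).two_le h).symm
  obtain ⟨S, hS, hgen⟩ := Group.rank_spec D
  refine ⟨fun hr => ?_, fun hr => ?_⟩
  · rw [← hd]
    exact card_le_pow_of_omega hpM Dd
      (fun x hx y hy => congrArg Subtype.val (mul_comm (⟨x, hx⟩ : D) ⟨y, hy⟩))
      (card_omega_le (index_range_pow_le S hgen (hS.trans hr).le))
  · rw [← hd]
    exact card_cube_le_of_index hpM Dd (index_range_pow_le S hgen (hS.trans hr).le)

end Cfsg.Agent.S4697
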