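import Cfsg.Statements.S4699
import Mathlib.RepresentationTheory.Irreducible
import Mathlib.GroupTheory.Sylow
import Mathlib.GroupTheory.GroupAction.Quotient
import Mathlib.GroupTheory.SpecificGroups.Cyclic
import Mathlib.Algebra.CharP.Lemmas
import Mathlib.Algebra.Algebra.Bilinear
import Mathlib.LinearAlgebra.Charpoly.Basic
import Mathlib.LinearAlgebra.Eigenspace.Zero
import Mathlib.Algebra.CharP.Algebra
import Mathlib.Tactic.NoncommRing

set_option autoImplicit false
open Cfsg

namespace Cfsg.Agent.S4699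

open scoped BigOperators

section algebra

variable {F A : Type*} [Field F] [Ring A] [Algebra F A]

/-- In characteristic `p`, the sum over the conjugates of `h` by the powers of a unipotent element
`x` of order dividing `p ^ n` is a left multiple of a high power of `x - 1`. -/
theorem exists_conjSum_eq {p n d : ℕ} [Fact p.Prime] [CharP F p] (x xi : A)
    (hx : x * xi = 1) (hxi : xi * x = 1) (hd : (x - 1) ^ d = 0) (h : A) :
    ∃ b, ∑ i ∈ Finset.range (p ^ n), x ^ i * h * xi ^ i = (x - 1) ^ (p ^ n - d) * b := by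
  classical
  set z := x - 1 with hz
  set q := p ^ n with hq
  have hqpos : 0 < q := pow_pos (Fact.out : p.Prime).pos n
  set L : Module.End F A := LinearMap.mulLeft F z with hL
  set R : Module.End F A := LinearMap.mulRight F z with hR
  set X : Module.End F A := LinearMap.mulRight F xi with hX
  set Φ : Module.End F A := LinearMap.mulLeft F x * X with hΦ
  have hΦi : ∀ i : ℕ, (Φ ^ i) h = x ^ i * h * xi ^ i := by
    intro i
    induction i with
    | zero => simp
    | succ i ih =>
      rw [pow_succ', Module.End.mul_apply, ih]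
      simp only [hΦ, hX, Module.End.mul_apply, LinearMap.mulLeft_apply, LinearMap.mulRight_apply]
      rw [pow_succ' x, pow_succ xi]; noncomm_ring
  have hΦ1 : Φ - 1 = (L + -R) * X := by
    refine LinearMap.ext fun a => ?_
    simp only [hΦ, hX, hL, hR, hz, LinearMap.sub_apply, Module.End.one_apply, LinearMap.add_apply,
      LinearMap.neg_apply, Module.End.mul_apply, LinearMap.mulLeft_apply,
      LinearMap.mulRight_apply]
    have : a * xi * x = a := by rw [mul_assoc, hxi, mul_one]
    simp only [sub_mul, mul_sub, one_mul, mul_one, this]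
    abel
  have hLR : Commute L R := LinearMap.commute_mulLeft_right z z
  have hzxi : z * xi = xi * z := by rw [hz, sub_mul, mul_sub, hx, hxi, one_mul, mul_one]
  have hcLX : Commute (L + -R) X := by
    refine Commute.add_left (LinearMap.commute_mulLeft_right z xi) ?_
    refine Commute.neg_left (a := R) ?_
    refine LinearMap.ext fun a => ?_
    simp only [hR, hX, Module.End.mul_apply, LinearMap.mulRight_apply, mul_assoc, hzxi]
  have hgeom : ∑ i ∈ Finset.range q, Φ ^ i = (Φ - 1) ^ (q - 1) := by
    have hX1 : ((Polynomial.X : Polynomial F) - 1) ≠ 0 := by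
      have := Polynomial.X_sub_C_ne_zero (1 : F)
      simpa using this
    have key : ∑ i ∈ Finset.range q, (Polynomial.X : Polynomial F) ^ i
        = ((Polynomial.X : Polynomial F) - 1) ^ (q - 1) := by
      refine mul_right_cancel₀ hX1 ?_
      rw [geom_sum_mul, ← pow_succ, Nat.sub_add_cancel hqpos, hq, sub_pow_char_pow, one_pow]
    have := congrArg (Polynomial.aeval Φ) key
    simpa [map_sum] using this
  have hsum : ∑ i ∈ Finset.range q, x ^ i * h * xi ^ i = ((Φ - 1) ^ (q - 1)) h := by
    rw [← hgeom, LinearMap.sum_apply]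
    exact Finset.sum_congr rfl fun i _ => (hΦi i).symm
  rw [hsum, hΦ1, hcLX.mul_pow, Module.End.mul_apply, (hLR.neg_right).add_pow,
    LinearMap.sum_apply]
  suffices ∀ m ∈ Finset.range (q - 1 + 1), ∀ w : A, ∃ b,
      (L ^ m * (-R) ^ (q - 1 - m) * (((q - 1).choose m : ℕ) : Module.End F A)) w
        = z ^ (q - d) * b by
    choose b hb using fun m hm => this m hm ((X ^ (q - 1)) h)
    refine ⟨∑ m ∈ (Finset.range (q - 1 + 1)).attach, b m.1 m.2, ?_⟩
    rw [Finset.mul_sum, ← Finset.sum_attach]
    exact Finset.sum_congr rfl fun m _ => hb m.1 m.2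
  intro m hm w
  rw [Finset.mem_range] at hm
  set j := q - 1 - m with hj
  rw [neg_pow' R j, mul_assoc (L ^ m) _ _, mul_assoc (R ^ j), Module.End.mul_apply,
    Module.End.mul_apply, hL, hR, LinearMap.pow_mulLeft, LinearMap.pow_mulRight,
    LinearMap.mulLeft_apply, LinearMap.mulRight_apply]
  by_cases hjd : d ≤ j
  · refine ⟨0, ?_⟩
    rw [show z ^ j = 0 from pow_eq_zero_of_le hjd hd, mul_zero, mul_zero, mul_zero]
  · refine ⟨z ^ (m - (q - d)) * (((((-1 : Module.End F A) ^ j *
      ((((q - 1).choose m : ℕ)) : Module.End F A))) w) * z ^ j), ?_⟩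
    rw [← mul_assoc (z ^ (q - d)), ← pow_add, Nat.add_sub_cancel' (by omega)]

end algebra

/-- Let p be a prime and G a finite group whose Sylow p-subgroup P is cyclic of order p^n with n ≥ 2 and meets every other Sylow p-subgroup trivially. Then every faithful irreducible representation of G on a finite-dimensional space over a finite field of characteristic p has dimension at least p^n − (p − 1). -/
theorem result {G : Type*} [Group G] [Finite G] (p : ℕ) [Fact p.Prime] (P : Sylow p G) (hcyc : IsCyclic P) (n : ℕ) (hn : 2 ≤ n) (hPn : Nat.card P = p ^ n) (hTI : ∀ Q : Sylow p G, Q ≠ P → (P : Subgroup G) ⊓ (Q : Subgroup G) = ⊥) (F : Type*) [Field F] [Finite F] [CharP F p] (V : Type*) [AddCommGroup V] [Module F V] [FiniteDimensional F V] (ρ : Representation F G V) (hfaith : Function.Injective ρ) (hirr : ρ.IsIrreducible) : p ^ n - (p - 1) ≤ Module.finrank F V := by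
  classical
  have hp : p.Prime := Fact.out
  obtain ⟨x, hgen⟩ := IsCyclic.exists_generator (α := P)
  have hxord : orderOf x = p ^ n := by rw [← hPn]; exact orderOf_eq_card_of_forall_mem_zpowers hgen
  set r : P →* Module.End F V := ρ.comp (P : Subgroup G).subtype with hr
  have hrinj : Function.Injective r := hfaith.comp (Subgroup.subtype_injective _)
  have hV : Nontrivial V := by
    by_contra hV
    rw [not_nontrivial_iff_subsingleton] at hV
    have : x = 1 := hrinj (Subsingleton.elim _ _)
    rw [this, orderOf_one] at hxord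
    exact absurd hxord (Nat.ne_of_lt (Nat.one_lt_pow (by omega) hp.one_lt))
  haveI : CharP (Module.End F V) p :=
    charP_of_injective_algebraMap (FaithfulSMul.algebraMap_injective F (Module.End F V)) p
  set z : Module.End F V := r x - 1 with hz
  have hzq : ∀ k, z ^ (p ^ k) = r (x ^ p ^ k) - 1 := fun k => by
    rw [hz, sub_pow_char_pow_of_commute _ _ (Commute.one_right _), one_pow, ← map_pow]
  have hznil : IsNilpotent z := ⟨p ^ n, by
    rw [hzq, ← hxord, pow_orderOf_eq_one, map_one, sub_self]⟩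
  set d := Module.finrank F V with hd
  have hzd : z ^ d = 0 := by
    have h1 := LinearMap.aeval_self_charpoly z
    rw [hznil.charpoly_eq_X_pow_finrank, map_pow, Polynomial.aeval_X] at h1
    exact h1
  set N : Subgroup G := Subgroup.normalizer ((P : Subgroup G) : Set G) with hN
  set φ : N →* MulAut (P : Subgroup G) := Subgroup.normalizerMonoidHom (P : Subgroup G) with hφ
  have hφval : ∀ (g : N) (a : P), ((φ g a : P) : G) = g * a * (g : G)⁻¹ := fun g a => rfl
  set e := Nat.card φ.range with he
  have hepos : 0 < e := Nat.card_pos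
  haveI : IsMulCommutative (P : Subgroup G) := IsCyclic.isMulCommutative
  have hpe : ¬ p ∣ e := by
    intro h
    refine P.not_dvd_index (h.trans ?_)
    rw [he, ← Subgroup.index_ker]
    refine (Subgroup.index_dvd_of_le ?_).trans
      (Subgroup.relIndex_dvd_index_of_le (Subgroup.le_normalizer (H := (P : Subgroup G))))
    intro g hg
    rw [MonoidHom.mem_ker]
    refine MulEquiv.ext fun a => Subtype.ext ?_
    rw [hφval]
    have hga : (g : G) * a = a * g :=
      congrArg Subtype.val (mul_comm' (⟨(g : G), hg⟩ : (P : Subgroup G)) a)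
    rw [hga, mul_inv_cancel_right]
    rfl
  have hedvd : e ∣ p - 1 := by
    have h1 : e ∣ p ^ (n - 1) * (p - 1) := by
      have := Subgroup.card_subgroup_dvd_card φ.range
      rwa [IsCyclic.card_mulAut, hPn, Nat.totient_prime_pow hp (by omega)] at this
    exact (((hp.coprime_iff_not_dvd.mpr hpe).symm).pow_right _).dvd_of_dvd_mul_left h1
  have hep : e ≤ p - 1 := Nat.le_of_dvd (by have := hp.two_le; omega) hedvd
  by_contra hlt
  rw [not_le] at hlt
  have hdpos : 0 < d := Module.finrank_pos
  -- the invariant element `z ^ e * W`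
  have hpow : ∀ ψ : MulAut (P : Subgroup G), ∃ k : ℕ, ψ x = x ^ k := fun ψ => by
    obtain ⟨k, hk⟩ := (mem_powers_iff_mem_zpowers (x := x)).mpr (hgen (ψ x))
    exact ⟨k, hk.symm⟩
  choose k hk using hpow
  have hkmul : ∀ (ψ : MulAut (P : Subgroup G)) (m : ℕ), (ψ ^ m) x = x ^ (k ψ ^ m) := by
    intro ψ m
    induction m with
    | zero => simp
    | succ m ih =>
      rw [pow_succ ψ, MulAut.mul_apply, hk, map_pow, ih, ← pow_mul, pow_succ]
  have hk1 : ∀ ψ ∈ φ.range, ((k ψ : F)) ^ e = 1 := by
    intro ψ hψ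
    have h1 : (⟨ψ, hψ⟩ : φ.range) ^ e = 1 := pow_card_eq_one'
    have h2 : x ^ (k ψ ^ e) = x ^ 1 := by
      rw [← hkmul, congrArg Subtype.val h1 |> (fun h => by simpa using h : _ → ψ ^ e = 1)]
      simp
    rw [pow_eq_pow_iff_modEq, hxord] at h2
    have h3 : k ψ ^ e ≡ 1 [MOD p] := h2.of_dvd (dvd_pow_self p (by omega))
    have h4 := (CharP.natCast_eq_natCast (R := F) p).mpr h3
    simpa using h4
  let w : MulAut (P : Subgroup G) → Module.End F V :=
    fun ψ => ∑ i ∈ Finset.range (k ψ), r x ^ i
  have hw : ∀ ψ, r (ψ x) - 1 = z * w ψ := fun ψ => by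
    rw [hk, map_pow, hz]
    exact (mul_geom_sum (r x) (k ψ)).symm
  have hwc : ∀ ψ, Commute z (w ψ) := fun ψ =>
    Commute.sum_right _ _ _ fun i _ =>
      ((Commute.refl (r x)).pow_right i).sub_left (Commute.one_left _)
  haveI : Fintype φ.range := Fintype.ofFinite _
  set W : Module.End F V := ∑ ψ : φ.range, w ψ.1 ^ e with hW
  set f : Module.End F V := ∑ ψ : φ.range, (r (ψ.1 x) - 1) ^ e with hf
  have hfW : f = z ^ e * W := by
    rw [hW, Finset.mul_sum]
    exact Finset.sum_congr rfl fun ψ _ => by rw [hw, (hwc _).mul_pow]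
  have hWu : IsUnit W := by
    set C : Subalgebra F (Module.End F V) := Algebra.adjoin F {z} with hC
    let zc : C := ⟨z, Algebra.subset_adjoin rfl⟩
    have hrc : r x = ((1 + zc : C) : Module.End F V) := by
      show r x = 1 + z
      rw [hz]; abel
    let wc : MulAut (P : Subgroup G) → C := fun ψ => ∑ i ∈ Finset.range (k ψ), (1 + zc) ^ i
    have hwwc : ∀ ψ, w ψ = (wc ψ : Module.End F V) := fun ψ => by
      simp only [w, wc, hrc, AddSubmonoidClass.coe_finset_sum, SubmonoidClass.coe_pow]
    set I : Ideal C := Ideal.span {zc} with hI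
    have h1 : Ideal.Quotient.mk I (1 + zc) = 1 := by
      have h0 : Ideal.Quotient.mk I zc = 0 :=
        Ideal.Quotient.eq_zero_iff_mem.mpr (Ideal.subset_span (Set.mem_singleton zc))
      rw [map_add, map_one, h0, add_zero]
    have h2 : ∑ ψ : φ.range, wc ψ.1 ^ e - algebraMap F C (e : F) ∈ I := by
      rw [← Ideal.Quotient.eq_zero_iff_mem, map_sub, map_sum, sub_eq_zero]
      have : ∀ ψ : φ.range, Ideal.Quotient.mk I (wc ψ.1 ^ e) = 1 := fun ψ => by
        have h0 := congrArg (algebraMap F (C ⧸ I)) (hk1 ψ.1 ψ.2)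
        rw [map_pow, map_natCast, map_one] at h0
        simpa [wc, map_sum, h1] using h0
      rw [Finset.sum_congr rfl fun ψ _ => this ψ, Finset.sum_const, Finset.card_univ, nsmul_one,
        ← Nat.card_eq_fintype_card, ← he, map_natCast, map_natCast]
    obtain ⟨b, hb⟩ := Ideal.mem_span_singleton'.mp h2
    have hnil : IsNilpotent (b * zc) :=
      (Commute.all b zc).isNilpotent_mul_left ⟨d, Subtype.ext (by simpa using hzd)⟩
    have he0 : (e : F) ≠ 0 := by rwa [Ne, CharP.cast_eq_zero_iff F p]
    have hu : IsUnit (∑ ψ : φ.range, wc ψ.1 ^ e) := by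
      rw [show (∑ ψ : φ.range, wc ψ.1 ^ e) = algebraMap F C (e : F) + b * zc by
        rw [hb]; abel]
      exact hnil.isUnit_add_left_of_commute ((he0.isUnit).map _) (Commute.all _ _)
    have := hu.map C.val
    simpa [hW, hwwc] using this
  -- `f` commutes with the normaliser
  have hfN : ∀ g : N, ρ (g : G) * f * ρ ((g : G)⁻¹) = f := by
    intro g
    rw [hf, Finset.mul_sum, Finset.sum_mul]
    refine Fintype.sum_equiv (Equiv.mulLeft ⟨φ g, ⟨g, rfl⟩⟩) _ _ fun ψ => ?_
    let c : Module.End F V →+* Module.End F V :=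
      { toFun := fun a => ρ (g : G) * a * ρ ((g : G)⁻¹)
        map_one' := by rw [mul_one, ← map_mul, mul_inv_cancel, map_one]
        map_mul' := fun a b => by
          have : ρ ((g : G)⁻¹) * ρ (g : G) = 1 := by rw [← map_mul, inv_mul_cancel, map_one]
          simp only [mul_assoc]
          rw [← mul_assoc (ρ ((g : G)⁻¹)) (ρ (g : G)), this, one_mul]
        map_zero' := by simp
        map_add' := fun a b => by simp [mul_add, add_mul] }
    show c ((r (ψ.1 x) - 1) ^ e) = _
    rw [map_pow, map_sub, map_one]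
    congr 2
    show ρ (g : G) * ρ ((ψ.1 x : P) : G) * ρ ((g : G)⁻¹) = _
    rw [← map_mul, ← map_mul, ← hφval]
    rfl
  -- the relative trace
  let Fc : G ⧸ N → Module.End F V := Quotient.lift (fun g => ρ g * f * ρ g⁻¹) (by
    intro a b hab
    have hN' : a⁻¹ * b ∈ N := QuotientGroup.leftRel_apply.mp hab
    calc ρ a * f * ρ a⁻¹ = ρ a * (ρ (a⁻¹ * b) * f * ρ (a⁻¹ * b)⁻¹) * ρ a⁻¹ := by
          rw [hfN ⟨_, hN'⟩]
      _ = ρ (a * (a⁻¹ * b)) * f * ρ ((a⁻¹ * b)⁻¹ * a⁻¹) := by
          simp only [map_mul, mul_assoc]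
      _ = ρ b * f * ρ b⁻¹ := by simp [mul_assoc])
  have hFc : ∀ (a : G) (c : G ⧸ N), Fc (a • c) = ρ a * Fc c * ρ a⁻¹ := by
    intro a c
    refine Quotient.inductionOn c fun g => ?_
    show ρ (a * g) * f * ρ (a * g)⁻¹ = ρ a * (ρ g * f * ρ g⁻¹) * ρ a⁻¹
    simp only [mul_inv_rev, map_mul, mul_assoc]
  haveI : Fintype (G ⧸ N) := Fintype.ofFinite _
  set T : Module.End F V := ∑ c : G ⧸ N, Fc c with hT
  have hTG : ∀ a : G, ρ a * T = T * ρ a := by
    intro a
    have h1 : ρ a * T * ρ a⁻¹ = T := by
      rw [hT, Finset.mul_sum, Finset.sum_mul]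
      exact Fintype.sum_equiv (MulAction.toPerm a) _ _ fun c => (hFc a c).symm
    calc ρ a * T = ρ a * T * (ρ a⁻¹ * ρ a) := by rw [← map_mul, inv_mul_cancel, map_one, mul_one]
      _ = T * ρ a := by rw [← mul_assoc, h1]
  set c₀ : G ⧸ N := QuotientGroup.mk 1 with hc₀
  have hc₀fix : ∀ a : P, (a : G) • c₀ = c₀ := by
    intro a
    refine QuotientGroup.eq.mpr ?_
    simpa using N.inv_mem (Subgroup.le_normalizer a.2)
  let S := {c : G ⧸ N // c ≠ c₀}
  letI actS : MulAction P S :=
    { smul := fun a c => ⟨(a : G) • c.1, fun h => c.2 (by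
        have h' := congrArg (fun y => ((a⁻¹ : P) : G) • y) h
        rw [smul_smul, ← Subgroup.coe_mul, inv_mul_cancel, Subgroup.coe_one, one_smul, hc₀fix] at h'
        exact h')⟩
      one_smul := fun c => Subtype.ext (one_smul G c.1)
      mul_smul := fun a b c => Subtype.ext (mul_smul (a : G) (b : G) c.1) }
  have hfree : ∀ c : S, MulAction.stabilizer P c = ⊥ := by
    rintro ⟨c, hc⟩
    rw [eq_bot_iff]
    intro a ha
    obtain ⟨g, rfl⟩ := QuotientGroup.mk_surjective c
    have hgN : g ∉ N := fun h => hc (QuotientGroup.eq.mpr (by simpa using N.inv_mem h))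
    have ha' : ((a : G) • (QuotientGroup.mk g : G ⧸ N)) = QuotientGroup.mk g :=
      congrArg Subtype.val ha
    have hgaN : g⁻¹ * a⁻¹ * g ∈ N := by
      have := QuotientGroup.eq.mp ha'
      simpa [mul_assoc] using this
    have hb : g⁻¹ * (a : G) * g ∈ (P : Subgroup G) := by
      have hbN : g⁻¹ * (a : G) * g ∈ N := by simpa [mul_assoc] using N.inv_mem hgaN
      have hpg : IsPGroup p ((P : Subgroup G).map (MulAut.conj g⁻¹).toMonoidHom) :=
        P.isPGroup'.map _
      have hm : g⁻¹ * (a : G) * g ∈ (P : Subgroup G).map (MulAut.conj g⁻¹).toMonoidHom ⊓ N :=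
        ⟨⟨a, a.2, by simp⟩, hbN⟩
      exact ((le_of_eq (hpg.inf_normalizer_sylow P)) hm).2
    have hne : g • P ≠ P := fun h => hgN (Sylow.smul_eq_iff_mem_normalizer.mp h)
    have haQ : (a : G) ∈ ((g • P : Sylow p G) : Subgroup G) :=
      ⟨g⁻¹ * (a : G) * g, hb, by simp [mul_assoc]⟩
    have hbot : (a : G) ∈ (P : Subgroup G) ⊓ ((g • P : Sylow p G) : Subgroup G) := ⟨a.2, haQ⟩
    rw [hTI _ hne, Subgroup.mem_bot] at hbot
    exact Subgroup.mem_bot.mpr (Subtype.ext hbot)
  haveI : Fintype P := Fintype.ofFinite _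
  haveI : Fintype S := Fintype.ofFinite _
  haveI : Fintype (Quotient (MulAction.orbitRel P S)) := Fintype.ofFinite _
  set h₀ : Module.End F V := ∑ o : Quotient (MulAction.orbitRel P S), Fc o.out.1 with hh₀
  have hTS : T = f + ∑ a : P, r a * h₀ * r a⁻¹ := by
    have h1 : ∑ c : S, Fc c.1 = ∑ a : P, r a * h₀ * r a⁻¹ := by
      let E := MulAction.selfEquivOrbitsQuotientProd hfree
      have hE : ∀ (o : Quotient (MulAction.orbitRel P S)) (a : P), E.symm (o, a) = a • o.out :=
        fun o a => rfl
      calc ∑ c : S, Fc c.1 = ∑ oa : Quotient (MulAction.orbitRel P S) × P, Fc (E.symm oa).1 :=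
            (Equiv.sum_comp E.symm (fun c : S => Fc c.1)).symm
        _ = ∑ a : P, ∑ o, Fc (E.symm (o, a)).1 := Fintype.sum_prod_type_right _
        _ = _ := by
            refine Finset.sum_congr rfl fun a _ => ?_
            rw [hh₀, Finset.mul_sum, Finset.sum_mul]
            exact Finset.sum_congr rfl fun o _ => (congrArg (fun c : S => Fc c.1) (hE o a)).trans
              (hFc (a : G) o.out.1)
    rw [← h1, hT, Fintype.sum_eq_add_sum_subtype_ne Fc c₀]
    congr 1
    · show ρ 1 * f * ρ 1⁻¹ = f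
      simp
    · exact Finset.sum_congr (Finset.ext fun c => iff_of_true (@Finset.mem_univ _ (_) c) (@Finset.mem_univ _ (_) c)) fun _ _ => rfl
  obtain ⟨b, hb⟩ := exists_conjSum_eq (F := F) (p := p) (n := n) (r x) (r x⁻¹)
    (by rw [← map_mul, mul_inv_cancel, map_one]) (by rw [← map_mul, inv_mul_cancel, map_one])
    hzd h₀
  have hTr : ∑ a : P, r a * h₀ * r a⁻¹ = z ^ (p ^ n - d) * b := by
    rw [← hb, Finset.sum_range]
    refine (Fintype.sum_bijective (fun i : Fin (p ^ n) => x ^ (i : ℕ)) ?_ _ _ fun i => ?_).symm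
    · rw [Fintype.bijective_iff_injective_and_card]
      refine ⟨fun i j hij => Fin.ext (pow_injOn_Iio_orderOf (x := x)
        (by simp [hxord]) (by simp [hxord]) hij), ?_⟩
      rw [Fintype.card_fin, ← Nat.card_eq_fintype_card, hPn]
    · simp [map_pow, ← inv_pow]
  rw [hTr, hfW] at hTS
  set m := p ^ n - d with hm
  have hem : e < m := by omega
  have hT0 : T = 0 := by
    let K : Subrepresentation ρ :=
      { toSubmodule := LinearMap.ker T
        apply_mem_toSubmodule := fun a v hv => by
          rw [LinearMap.mem_ker] at hv ⊢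
          rw [← Module.End.mul_apply, ← hTG, Module.End.mul_apply, hv, map_zero] }
    haveI : IsSimpleOrder (Subrepresentation ρ) := hirr
    rcases eq_bot_or_eq_top K with h | h
    · exfalso
      have hk : LinearMap.ker T = ⊥ := congrArg Subrepresentation.toSubmodule h
      have hsur : Function.Surjective T :=
        LinearMap.injective_iff_surjective.mp (LinearMap.ker_eq_bot.mp hk)
      have hzs : Function.Surjective z := by
        intro v
        obtain ⟨u, hu⟩ := hsur v
        obtain ⟨e', he'⟩ : ∃ e', e = e' + 1 := ⟨e - 1, by omega⟩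
        obtain ⟨m', hm'⟩ : ∃ m', m = m' + 1 := ⟨m - 1, by omega⟩
        refine ⟨((z ^ e' * W + z ^ m' * b) u), ?_⟩
        rw [← hu, hTS, ← Module.End.mul_apply, mul_add, ← mul_assoc, ← mul_assoc,
          ← pow_succ', ← pow_succ', ← he', ← hm']
      have hzd' : Function.Surjective (z ^ d : Module.End F V) := by
        rw [Module.End.coe_pow]; exact hzs.iterate d
      rw [hzd] at hzd'
      obtain ⟨v, hv⟩ := exists_ne (0 : V)
      obtain ⟨u, hu⟩ := hzd' v
      exact hv (by simpa using hu.symm)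
    · exact LinearMap.ker_eq_top.mp (congrArg Subrepresentation.toSubmodule h)
  rw [hT0] at hTS
  obtain ⟨Wu, hWu⟩ := hWu
  have hze : z ^ e = z ^ m * (-(b * (↑Wu⁻¹ : Module.End F V))) := by
    have h1 : z ^ e * W = -(z ^ m * b) := eq_neg_of_add_eq_zero_left hTS.symm
    calc z ^ e = z ^ e * W * (↑Wu⁻¹ : Module.End F V) := by
          rw [mul_assoc, ← hWu, Units.mul_inv, mul_one]
      _ = _ := by rw [h1]; noncomm_ring
  have hiter : ∀ s : ℕ, ∃ b', z ^ e = z ^ (e + s) * b' := by
    intro s
    induction s with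
    | zero => exact ⟨1, by simp⟩
    | succ s ih =>
      obtain ⟨b', hb'⟩ := ih
      refine ⟨z ^ (m - e - 1) * -(b * (↑Wu⁻¹ : Module.End F V)) * b', ?_⟩
      calc z ^ e = z ^ s * z ^ e * b' := by rw [← pow_add, add_comm s e, ← hb']
        _ = z ^ s * (z ^ m * -(b * (↑Wu⁻¹ : Module.End F V))) * b' := by rw [← hze]
        _ = _ := by
          rw [← mul_assoc (z ^ (e + (s + 1))), ← mul_assoc (z ^ (e + (s + 1))), ← pow_add,
            ← mul_assoc (z ^ s), ← pow_add]
          congr 3
          omega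
  obtain ⟨b', hb'⟩ := hiter d
  rw [pow_add, hzd, mul_zero, zero_mul] at hb'
  have hsmall : e ≤ p ^ (n - 1) :=
    (hep.trans (Nat.sub_le p 1)).trans (Nat.le_self_pow (by omega) p)
  have hzero := hzq (n - 1)
  rw [pow_eq_zero_of_le hsmall hb'] at hzero
  have h1 : x ^ p ^ (n - 1) = 1 := hrinj (by rw [map_one]; exact sub_eq_zero.mp hzero.symm)
  have h2 := orderOf_dvd_of_pow_eq_one h1
  rw [hxord] at h2
  have h3 := Nat.le_of_dvd (pow_pos hp.pos _) h2
  exact absurd h3 (not_le.mpr (Nat.pow_lt_pow_right hp.one_lt (by omega)))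

end Cfsg.Agent.S4699
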