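import Cfsg.Statements.S4712
import Cfsg.Agent.Blocks.SectionTrace
import Mathlib.RingTheory.ZMod.UnitsCyclic
-- import your own Cfsg.Agent.* helpers here

set_option autoImplicit false
open Cfsg Cfsg.Agent Cfsg.Agent.BlockChar Cfsg.Agent.Blocks

namespace Cfsg.Agent.S4712

/-- Let p be an odd prime, M a maximal ideal of the algebraic integers containing p, G a finite group of order n with p-part p^a, and B a p-block of G. Call an irreducible character χ p-rational when χ(g^k) = χ(g) for every g and every k coprime to n with k ≡ 1 modulo n/p^a (χ is fixed by the Galois automorphisms fixing the roots of unity of order prime to p). Then the number of p-rational irreducible characters in B is at least the p-regular rank of B (the number of irreducible Brauer characters in B). -/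
theorem result {G : Type*} [Group G] [Finite G] (p : ℕ) [Fact p.Prime] (hodd : p ≠ 2) (M : Ideal Cfsg.AlgInt) (hM : Cfsg.IsPModular p M) (B : Set (Cfsg.IrrCharacter G)) (hB : Cfsg.IsPBlock M B) : Cfsg.blockRank p B ≤ Nat.card {χ : Cfsg.IrrCharacter G // χ ∈ B ∧ ∀ k : ℕ, Nat.Coprime k (Nat.card G) → k ≡ 1 [MOD Nat.card G / p ^ (Nat.card G).factorization p] → ∀ g : G, (χ : G → ℂ) (g ^ k) = (χ : G → ℂ) g} := by
  classical
  haveI := Fintype.ofFinite G
  haveI := hM.2.1
  have hpM : (p : Cfsg.AlgInt) ∈ M := hM.2.2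
  have hp : p.Prime := Fact.out
  set a := (Nat.card G).factorization p with ha
  set m := Nat.card G / p ^ a with hmdef
  have hnm : p ^ a * m = Nat.card G := Nat.ordProj_mul_ordCompl_eq_self _ _
  have hpm : ¬ p ∣ m := Nat.not_dvd_ordCompl hp Nat.card_pos.ne'
  have hcop : (p ^ a).Coprime m := Nat.Coprime.pow_left a (hp.coprime_iff_not_dvd.2 hpm)
  haveI : NeZero (p ^ a) := ⟨pow_ne_zero a hp.ne_zero⟩
  haveI := ZMod.isCyclic_units_of_prime_pow p hp hodd a
  obtain ⟨γ, hγ⟩ := IsCyclic.exists_generator (α := (ZMod (p ^ a))ˣ)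
  obtain ⟨k₀, hk₀a, hk₀m⟩ := Nat.chineseRemainder hcop (γ : ZMod (p ^ a)).val 1
  have hk₀ : (k₀ : ZMod (p ^ a)) = (γ : ZMod (p ^ a)) := by
    rw [(ZMod.natCast_eq_natCast_iff _ _ _).2 hk₀a, ZMod.natCast_zmod_val]
  have hk₀c : k₀.Coprime (Nat.card G) := by
    rw [← hnm]
    refine Nat.Coprime.mul_right ?_ ?_
    · rw [← ZMod.isUnit_iff_coprime, hk₀]; exact γ.isUnit
    · rw [Nat.coprime_iff_gcd_eq_one, Nat.ModEq.gcd_eq hk₀m, Nat.gcd_one_left]
  obtain ⟨σ, hσ⟩ := Chars.exists_aut_of_coprime (G := G) hk₀c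
  let c : Cfsg.IrrCharacter G → Cfsg.IrrCharacter G := fun χ =>
    ⟨fun g => (χ : G → ℂ) (g ^ k₀), by
      have h := OddChar.isIrrCharacter_map σ χ.2
      rwa [show (fun g => σ ((χ : G → ℂ) g)) = fun g => (χ : G → ℂ) (g ^ k₀) from
        funext fun g => hσ _ (Chars.irr_isCharacter χ) g] at h⟩
  have hfix : ∀ χ : Cfsg.IrrCharacter G, c χ = χ →
      ∀ k : ℕ, Nat.Coprime k (Nat.card G) → k ≡ 1 [MOD m] →
        ∀ g : G, (χ : G → ℂ) (g ^ k) = (χ : G → ℂ) g := by
    intro χ hχ k hk hkm g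
    have h1 : ∀ (j : ℕ) (g : G), (χ : G → ℂ) (g ^ k₀ ^ j) = (χ : G → ℂ) g := by
      intro j
      induction j with
      | zero => intro g; rw [pow_zero, pow_one]
      | succ j ih =>
        intro g
        rw [pow_succ', pow_mul, ih]
        exact congrFun (congrArg Subtype.val hχ) g
    have hu : IsUnit (k : ZMod (p ^ a)) := (ZMod.isUnit_iff_coprime _ _).2
      (Nat.Coprime.coprime_dvd_right (Dvd.intro _ hnm) hk)
    obtain ⟨j, hj⟩ := Submonoid.mem_powers_iff _ _ |>.1
      (mem_powers_iff_mem_zpowers.2 (hγ hu.unit))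
    have hka : k ≡ k₀ ^ j [MOD p ^ a] := by
      rw [← ZMod.natCast_eq_natCast_iff, Nat.cast_pow, hk₀, ← Units.val_pow_eq_pow_val, hj,
        IsUnit.unit_spec]
    have hkm' : k ≡ k₀ ^ j [MOD m] := hkm.trans (by simpa using (hk₀m.pow j).symm)
    have hmod : k ≡ k₀ ^ j [MOD Nat.card G] := by
      rw [← hnm]; exact (Nat.modEq_and_modEq_iff_modEq_mul hcop).1 ⟨hka, hkm'⟩
    rw [pow_eq_pow_iff_modEq.2 (hmod.of_dvd (orderOf_dvd_natCard g)), h1]
  have hreg : ∀ s : G, ¬ p ∣ orderOf s → s ^ k₀ = s := by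
    intro s hs
    refine (pow_eq_pow_iff_modEq.2 (hk₀m.of_dvd ?_)).trans (pow_one s)
    exact ((hp.coprime_iff_not_dvd.2 hs).symm.pow_right a).dvd_of_dvd_mul_left
      (hnm ▸ orderOf_dvd_natCard s)
  have hsing : ∃ r : ℕ,
      ∑ g : G, (if p ∣ orderOf g then kerB B (g ^ k₀) g else 0) = (r : ℂ) := by
    haveI : ∀ u : G, Fintype (cz u) := fun u => Fintype.ofFinite _
    rw [sum_sections (p := p) (fun g => if p ∣ orderOf g then kerB B (g ^ k₀) g else 0)]
    have h : ∀ u ∈ Finset.univ.filter (fun u : G => ∃ t : ℕ, orderOf u = p ^ t), ∃ r : ℕ,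
        ∑ s ∈ Blocks.regs p (cz u), (if p ∣ orderOf (u * (s : G)) then
          kerB B ((u * (s : G)) ^ k₀) (u * (s : G)) else 0) = (r : ℂ) := by
      intro u hu
      have hu' := (Finset.mem_filter.1 hu).2
      by_cases h1 : u = 1
      · refine ⟨0, ?_⟩
        rw [Nat.cast_zero]
        refine Finset.sum_eq_zero fun s hs => if_neg ?_
        subst h1
        rw [one_mul, Subgroup.orderOf_coe]
        exact Blocks.mem_regs.1 hs
      · obtain ⟨r, hr⟩ := SectionTrace.exists_section_trace hpM hB hu' hk₀c hreg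
        refine ⟨r, ?_⟩
        rw [← hr]
        refine Finset.sum_congr rfl fun s hs => if_pos ?_
        by_contra hd
        refine h1 ?_
        rw [← Blocks.ppart_mul (p := p) (mem_cz.1 s.2) hu'
          (by rw [Subgroup.orderOf_coe]; exact Blocks.mem_regs.1 hs), Blocks.ppart_one_iff]
        exact hd
    choose! r hr using h
    exact ⟨∑ u ∈ Finset.univ.filter (fun u : G => ∃ t : ℕ, orderOf u = p ^ t), r u, by
      push_cast; exact Finset.sum_congr rfl hr⟩
  obtain ⟨r, hr⟩ := hsing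
  have htot : (Nat.card G : ℂ) * (((bf B).filter fun χ => c χ = χ).card : ℂ) =
      (Nat.card G : ℂ) * (Cfsg.blockRank p B : ℂ) + (r : ℂ) := by
    have h1 : (((bf B).filter fun χ => c χ = χ).card : ℂ) =
        ∑ χ ∈ bf B, Cfsg.classInner (c χ : G → ℂ) (χ : G → ℂ) := by
      simp only [Chars.classInner_irrCharacter]
      rw [Finset.sum_boole]
    rw [h1, card_mul_blockRank hpM hB, ← hr, Finset.mul_sum]
    simp only [Chars.classInner_def, mul_inv_cancel_left₀ (Chars.card_ne_zero (G := G))]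
    rw [Finset.sum_comm, Blocks.regs, Finset.sum_filter, ← Finset.sum_add_distrib]
    refine Finset.sum_congr rfl fun g _ => ?_
    by_cases hg : p ∣ orderOf g
    · rw [if_pos hg, if_neg (not_not.2 hg), zero_add]; rfl
    · rw [if_neg hg, if_pos hg, add_zero]
      refine Finset.sum_congr rfl fun χ _ => ?_
      show (χ : G → ℂ) (g ^ k₀) * _ = _
      rw [hreg g hg]
  have hnat : Nat.card G * Cfsg.blockRank p B ≤
      Nat.card G * ((bf B).filter fun χ => c χ = χ).card := by
    have : ((Nat.card G * ((bf B).filter fun χ => c χ = χ).card : ℕ) : ℂ) =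
        ((Nat.card G * Cfsg.blockRank p B + r : ℕ) : ℂ) := by push_cast; exact htot
    have := Nat.cast_injective this
    omega
  refine (Nat.le_of_mul_le_mul_left hnat Nat.card_pos).trans ?_
  rw [← Nat.card_eq_finsetCard]
  exact Nat.card_le_card_of_injective
    (fun χ => ⟨χ.1, mem_bf.1 (Finset.mem_filter.1 χ.2).1, hfix χ.1 (Finset.mem_filter.1 χ.2).2⟩)
    fun x y h => Subtype.ext (congrArg (fun z => z.1) h)

end Cfsg.Agent.S4712
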