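import Cfsg.Statements.S4713
import Cfsg.Agent.LeadWork.ItoPSolvable

set_option autoImplicit false
open Cfsg

namespace Cfsg.Agent.S4713

/-- Let p be a prime and G a finite p-solvable group. Then G has a normal abelian Sylow p-subgroup if and only if the degree of every irreducible character of G is prime to p. -/
theorem result {G : Type*} [Group G] [Finite G] (p : ℕ) [Fact p.Prime] (hsolv : Cfsg.IsPSolvable p G) (P : Sylow p G) : ((P : Subgroup G).Normal ∧ IsMulCommutative P) ↔ ∀ χ : Cfsg.IrrCharacter G, ¬ p ∣ Cfsg.charDegree (χ : G → ℂ) := by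
  constructor
  · rintro ⟨hPn, hPc⟩ χ hd
    haveI := hPn
    exact P.not_dvd_index (hd.trans (Cfsg.Agent.Chars2.charDegree_dvd_index
      (fun a ha b hb => congrArg Subtype.val (hPc.1.1 ⟨a, ha⟩ ⟨b, hb⟩)) χ))
  · intro h
    obtain ⟨Q, hQn, hQab, hQp, hQi⟩ := Cfsg.Agent.LeadWork.Ito.ito_pSolvable _ G le_rfl hsolv h
    haveI := hQn
    haveI : (hQp.toSylow hQi : Subgroup G).Normal := by rwa [IsPGroup.toSylow_coe]
    letI := Sylow.unique_of_normal (hQp.toSylow hQi) inferInstance
    have hPQ : (P : Subgroup G) = Q := by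
      rw [Subsingleton.elim P (hQp.toSylow hQi), IsPGroup.toSylow_coe]
    rw [hPQ]
    exact ⟨hQn, ⟨⟨fun a b => Subtype.ext (hQab a a.2 b b.2)⟩⟩⟩

end Cfsg.Agent.S4713
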