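import Cfsg.Statements.S4715
import Cfsg.Agent.BlockChar.MajorHeight

set_option autoImplicit false
open Cfsg Cfsg.Agent Cfsg.Agent.BlockChar

namespace Cfsg.Agent.S4715

/-- Let p be a prime, M a maximal ideal of the algebraic integers containing p, B a p-block of the finite group G with defect group D of order p^d, H = D·C_G(D), b a block of H inducing B, T the stabilizer of b in N_G(D) and e = [T : H] the inertial index of B; let n be the integer with p^n ≤ e < p^(n+1) and p^c the order of the centre of D. Then every irreducible character in B has height h with h + c ≤ n + d. -/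
theorem result {G : Type*} [Group G] [Finite G] (p : ℕ) [Fact p.Prime] (M : Ideal Cfsg.AlgInt) (hM : Cfsg.IsPModular p M) (B : Set (Cfsg.IrrCharacter G)) (hB : Cfsg.IsPBlock M B) (D : Subgroup G) (hBD : Cfsg.IsDefectGroup p M B D) (d : ℕ) (hDd : Nat.card D = p ^ d) (H : Subgroup G) (hH : H = D ⊔ Subgroup.centralizer (D : Set G)) (b : Set (Cfsg.IrrCharacter H)) (hind : Cfsg.IsInducedBlock M H b B) (T : Subgroup G) (hT : ∀ g : G, g ∈ T ↔ (g ∈ Subgroup.normalizer (D : Set G) ∧ ∀ θ ∈ b, ∀ θ' : Cfsg.IrrCharacter H, (∀ h h' : H, (h' : G) = g * h * g⁻¹ → (θ' : H → ℂ) h' = (θ : H → ℂ) h) → θ' ∈ b)) (e : ℕ) (he : H.relIndex T = e) (n : ℕ) (hn : p ^ n ≤ e ∧ e < p ^ (n + 1)) (c : ℕ) (hc : Nat.card (Subgroup.center D) = p ^ c) : ∀ χ ∈ B, Cfsg.blockHeight p B (χ : G → ℂ) + c ≤ n + d := by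
  classical
  haveI := hM.2.1
  haveI := Fintype.ofFinite G
  have hpM := hM.2.2
  intro χ hχ
  haveI := charP_res (p := p) hpM
  have D' : MaxData p B D (idemS M b) := maxData_of_induced_sup hpM hBD hH hind
  have hcard : (Finset.univ.filter (fun v : G => v ∈ D ∧ ∀ w ∈ D, Commute v w)).card = p ^ c := by
    rw [← hc, ← Nat.card_congr ((Subgroup.center ↥D).equivMapOfInjective D.subtype
      (Subgroup.subtype_injective D)).symm.toEquiv, map_center, ← Fintype.card_subtype,
      ← Nat.card_eq_fintype_card]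
    refine Nat.card_congr (Equiv.subtypeEquivRight fun v => ?_)
    simp only [Subgroup.mem_inf, Subgroup.mem_centralizer_iff, SetLike.mem_coe]
    exact and_congr_right fun _ => forall₂_congr fun w _ => ⟨fun h => h.symm, fun h => h.symm⟩
  rcases Nat.eq_zero_or_pos d with hd0 | hd0
  · have h1 : p ^ c ≤ 1 := by
      rw [← hc, ← show Nat.card D = 1 by rw [hDd, hd0, pow_zero]]
      exact Subgroup.card_le_card_group _
    have hc0 : c = 0 := by
      by_contra h
      exact absurd h1 (Nat.not_le.mpr (Nat.one_lt_pow h (Fact.out : p.Prime).one_lt))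
    have h2 := (isIntegral_pow_conP hpM D' hDd D.one_mem (fun w _ => Commute.one_left w) hχ).1
    omega
  have hN : ∀ v ∈ D, (∀ w ∈ D, Commute v w) → Nat.card (orbP D (idemS M b) v) ≤ e := by
    intro v hv hvc
    rw [← he]
    refine card_orbP_le_relIndex ?_ ?_
    · intro g hg
      rw [hT]
      refine ⟨hg.1, fun θ hθ θ' hθ' => ?_⟩
      have hgH : g ∈ Subgroup.normalizer (H : Set G) := by
        refine mem_normalizer_of_conjS_eq ?_
        have hD1 : conjS g D = D := conjS_eq_self_of_mem_normalizer hg.1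
        rw [hH, show conjS g (D ⊔ Subgroup.centralizer (D : Set G)) =
          conjS g D ⊔ conjS g (Subgroup.centralizer (D : Set G)) from Subgroup.map_sup _ _ _,
          conjS_centralizer, hD1]
      obtain ⟨-, h⟩ := (stabilizesBlock_iff hpM hind.1 g).mpr ⟨hgH, hg.2⟩
      obtain ⟨θ'', hθ'', h''⟩ := h θ hθ
      have heq : θ' = θ'' := by
        apply Subtype.ext
        funext k
        have hk : g⁻¹ * (k : G) * g ∈ H := by
          have := (Subgroup.mem_normalizer_iff''.mp hgH (k : G)).mp k.2
          exact this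
        have hkg : (k : G) = g * ((⟨g⁻¹ * (k : G) * g, hk⟩ : H) : G) * g⁻¹ := by group
        rw [hθ' ⟨_, hk⟩ k hkg, h'' ⟨_, hk⟩ k hkg]
      exact heq ▸ hθ''
    · intro x hx
      rw [hH] at hx
      have hle : D ⊔ Subgroup.centralizer (D : Set G) ≤ cz v :=
        sup_le (le_centralizer_zpowers hvc)
          (centralizer_anti (Subgroup.zpowers_le.mpr hv))
      exact (mem_cz.mp (hle hx)).symm
  have hmain := card_center_mul_le hpM D' hDd hd0 hN hχ
  rw [hcard, ← pow_add] at hmain
  have hlt : p ^ (c + Cfsg.blockHeight p B (χ : G → ℂ)) < p ^ (d + (n + 1)) := by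
    rw [pow_add p d]
    exact lt_of_le_of_lt hmain (Nat.mul_lt_mul_of_pos_left hn.2
      (pow_pos (Fact.out : p.Prime).pos d))
  have := (Nat.pow_lt_pow_iff_right (Fact.out : p.Prime).one_lt).mp hlt
  omega

end Cfsg.Agent.S4715
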