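import Cfsg.Statements.S4717
import Cfsg.Agent.BlockChar.LocalBlock
import Cfsg.Agent.BlockChar.Principal
import Cfsg.Agent.BlockChar.PairDict
import Cfsg.Agent.Blocks.Defect

set_option autoImplicit false
open Cfsg Cfsg.Agent Cfsg.Agent.BlockChar

namespace Cfsg.Agent.S4717

/-- Let p be a prime, M a maximal ideal of the algebraic integers containing p, and r a natural number; say that a finite group X has deficiency class r when X has no non-principal p-block of defect ≥ r. If G has deficiency class r then so does the centralizer of every p-element of G; conversely, if r > 0 and the centralizer of every element of order p has deficiency class r, then G has deficiency class r. -/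
theorem result {G : Type*} [Group G] [Finite G] (p : ℕ) [Fact p.Prime] (M : Ideal Cfsg.AlgInt) (hM : Cfsg.IsPModular p M) (r : ℕ) : ((∀ B' : Set (Cfsg.IrrCharacter G), Cfsg.IsPBlock M B' → B' ≠ Cfsg.principalBlock M G → Cfsg.blockDefect p B' < r) → ∀ y : G, (∃ k : ℕ, orderOf y = p ^ k) → (∀ B' : Set (Cfsg.IrrCharacter ↥(Subgroup.centralizer ({y} : Set G))), Cfsg.IsPBlock M B' → B' ≠ Cfsg.principalBlock M ↥(Subgroup.centralizer ({y} : Set G)) → Cfsg.blockDefect p B' < r)) ∧ (0 < r → (∀ y : G, orderOf y = p → (∀ B' : Set (Cfsg.IrrCharacter ↥(Subgroup.centralizer ({y} : Set G))), Cfsg.IsPBlock M B' → B' ≠ Cfsg.principalBlock M ↥(Subgroup.centralizer ({y} : Set G)) → Cfsg.blockDefect p B' < r)) → (∀ B' : Set (Cfsg.IrrCharacter G), Cfsg.IsPBlock M B' → B' ≠ Cfsg.principalBlock M G → Cfsg.blockDefect p B' < r)) := by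
  classical
  haveI := hM.2.1
  haveI := Fintype.ofFinite G
  have hpM := hM.2.2
  haveI := charP_res (p := p) hpM
  have hp : p.Prime := Fact.out
  have hcz : ∀ y : G, Subgroup.centralizer ((Subgroup.zpowers y : Subgroup G) : Set G) =
      Subgroup.centralizer ({y} : Set G) := fun y => by
    rw [Subgroup.zpowers_eq_closure, Subgroup.centralizer_closure]
  refine ⟨fun hG y hy => ?_, fun hr hy B hB hne => ?_⟩
  · obtain ⟨k, hk⟩ := hy
    suffices h : ∀ C : Subgroup G,
        C = Subgroup.centralizer ((Subgroup.zpowers y : Subgroup G) : Set G) →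
        ∀ B' : Set (IrrCharacter C), IsPBlock M B' → B' ≠ principalBlock M C →
          blockDefect p B' < r from h _ (hcz y).symm
    rintro C rfl e heB hne
    have hQp : IsPGroup p (Subgroup.zpowers y) :=
      IsPGroup.of_card (n := k) (by rw [Nat.card_zpowers, hk])
    obtain ⟨B, hB, -⟩ := existsUnique_brauerPairOf hpM (⟨hQp, heB⟩ : IsBrauerPair p M _ e)
    have hBne : B ≠ principalBlock M G := fun h =>
      hne ((isBrauerPairOf_principal_iff hpM hQp heB).mp (h ▸ hB))
    refine lt_of_le_of_lt ?_ (hG B hB.2.1 hBne)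
    obtain ⟨D0, hD0⟩ := Blocks.exists_isDefectGroup hpM heB
    obtain ⟨X, hX⟩ : ∃ X : Subgroup G, D0.map (Subgroup.centralizer
      ((Subgroup.zpowers y : Subgroup G) : Set G)).subtype = X := ⟨_, rfl⟩
    have hXC : X ≤ Subgroup.centralizer ((Subgroup.zpowers y : Subgroup G) : Set G) :=
      hX ▸ Subgroup.map_subtype_le D0
    have hXD : X.subgroupOf _ = D0 :=
      hX ▸ Subgroup.comap_map_eq_self_of_injective Subtype.val_injective D0
    have hdef : IsDef p _ (idemS M e) X :=
      (isDefectGroup_subgroupOf_iff hpM hXC heB).mp (hXD.symm ▸ hD0)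
    have hpair := (isBrauerPair_iff hpM heB).mp hB.1
    obtain ⟨g, hg⟩ := exists_nstep_of_br hpair (isPGroup_sup_centralizer hQp hdef.pgroup hXC)
      le_sup_left (sup_le hpair.le_stab (hXC.trans hpair.centralizer_le_stab))
      (by rw [br_sup_eq _ X hpair.blk.supp]; exact hdef.ne_zero)
    obtain ⟨g', hg', hgg⟩ := exists_idemS_eq hpM hg.right.blk
    dsimp only at hgg; rw [← hgg] at hg
    have hR : IsBrauerPairOf p M B _ g' := (isBrauerPairOf_of_subpairLE hpM
      ⟨hg.right.pgroup, hg'⟩ hB.1 ((subpairLE_iff hpM heB hg').mpr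
        (Relation.ReflTransGen.single hg)) hB.2.1).mpr hB
    obtain ⟨P, c, hmax, hle⟩ := exists_maximal_ge hpM hR
    have hP := isDefectGroup_of_maximal hpM hmax
    have hcard : Nat.card D0 ≤ Nat.card P := by
      have hc : Nat.card X = Nat.card D0 := by
        rw [← hX]; exact Subgroup.card_map_of_injective Subtype.val_injective
      rw [← hc]
      exact Subgroup.card_le_of_le ((le_sup_right : X ≤ Subgroup.zpowers y ⊔ X).trans
        (PairLE.le ((subpairLE_iff hpM hg' hmax.1.1.2).mp hle)))
    rw [Blocks.card_defectGroup hpM heB hD0, Blocks.card_defectGroup hpM hB.2.1 hP] at hcard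
    exact (Nat.pow_le_pow_iff_right hp.one_lt).mp hcard
  · by_contra hlt
    push Not at hlt
    obtain ⟨D, hD⟩ := Blocks.exists_isDefectGroup hpM hB
    have hdef := (isDefectGroup_iff_idemG hpM hB D).mp hD
    have hbG := isBlk_idemG (G := G) hpM hB
    obtain ⟨f, hf, hfo⟩ := exists_pair_ofBlock hbG hdef.pgroup hdef.ne_zero
    obtain ⟨e, he, rfl⟩ := exists_idemS_eq hpM hf.blk
    have hof : IsBrauerPairOf p M B D e :=
      (isBrauerPairOf_iff hpM).mpr ⟨⟨hdef.pgroup, he⟩, hB, hfo⟩
    have hmax : IsMaximalBrauerPair p M B D e := (isMaximalBrauerPair_iff hpM).mpr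
      ⟨hof, isMaxPair_of_isDef hbG hdef hf hfo⟩
    haveI : Nontrivial D := by
      rw [← Finite.one_lt_card_iff_nontrivial, Blocks.card_defectGroup hpM hB hD]
      exact Nat.one_lt_pow (by omega) hp.one_lt
    haveI := hdef.pgroup.center_nontrivial
    obtain ⟨m, hm, hcard⟩ := IsPGroup.nontrivial_iff_card (hdef.pgroup.to_subgroup
      (Subgroup.center D)) |>.mp inferInstance
    obtain ⟨z, hz⟩ := exists_prime_orderOf_dvd_card' (G := Subgroup.center D) p
      (hcard ▸ dvd_pow_self p hm.ne')
    have hzy : orderOf ((z : D) : G) = p := by rw [Subgroup.orderOf_coe, Subgroup.orderOf_coe, hz]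
    have hzc : ∀ d ∈ D, d * ((z : D) : G) = ((z : D) : G) * d := fun d hd =>
      congrArg Subtype.val (Subgroup.mem_center_iff.mp z.2 ⟨d, hd⟩)
    generalize hyz : ((z : D) : G) = y at hzy hzc
    have hyD : y ∈ D := hyz ▸ (z : D).2
    have hlt' : ∀ C : Subgroup G, C = Subgroup.centralizer ({y} : Set G) →
        ∀ B' : Set (IrrCharacter C), IsPBlock M B' → B' ≠ principalBlock M C →
          blockDefect p B' < r := by
      rintro C rfl; exact hy y hzy
    have hQD : Subgroup.zpowers y ≤ D := Subgroup.zpowers_le.mpr hyD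
    obtain ⟨c, ⟨hc, hle⟩, -⟩ := existsUnique_subpair hpM hof.1 hQD
    have hQp : IsPGroup p (Subgroup.zpowers y) := hdef.pgroup.to_le hQD
    have hcB := (isBrauerPairOf_of_subpairLE hpM hof.1 ⟨hQp, hc⟩ hle hB).mp hof
    have hcne : c ≠ principalBlock M _ := fun h => hne
      ((existsUnique_brauerPairOf hpM hcB.1).unique hcB
        ((isBrauerPairOf_principal_iff hpM hQp hc).mpr h))
    obtain ⟨⟨D', hD', hle'⟩, -⟩ := defect_centralizer_of_subpair hpM hmax hc hle
    have h1 := hlt' _ (hcz y) c hc hcne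
    have hDC : D ≤ Subgroup.centralizer ((Subgroup.zpowers y : Subgroup G) : Set G) := by
      rw [hcz y]
      exact fun d hd => Subgroup.mem_centralizer_singleton_iff.mpr (hzc d hd)
    rw [inf_eq_left.mpr hDC] at hle'
    have h2 := Subgroup.card_le_of_le hle'
    rw [Nat.card_congr (Subgroup.subgroupOfEquivOfLe hDC).toEquiv,
      Blocks.card_defectGroup hpM hB hD, Blocks.card_defectGroup hpM hc hD'] at h2
    have h3 := (Nat.pow_le_pow_iff_right hp.one_lt).mp h2
    omega

end Cfsg.Agent.S4717
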