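import Cfsg.Statements.S4722
import Cfsg.Agent.Blocks.Orth
import Cfsg.Agent.BlockChar.PrincipalKer
import Cfsg.Agent.BlockChar.CharCount
import Cfsg.Agent.Core.Cores
import Cfsg.Agent.Chars.Gen
import Cfsg.Agent.Chars.Eigen

set_option autoImplicit false
set_option linter.style.haveILetI false
set_option linter.unusedSectionVars false
open Cfsg
open scoped ComplexConjugate

namespace Cfsg.Agent.S4722

/-- Three moments vanish and at most one weight is positive: all the ratios coincide with `1`. -/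
theorem moments {ι : Type*} [DecidableEq ι] (B : Finset ι) (k d e : ι → ℝ) (i1 : ι) (h1 : i1 ∈ B)
    (hk1 : k i1 ≠ 0) (he1 : e i1 = d i1) (hd : ∀ i ∈ B, 0 < d i)
    (hone : (B.filter fun i => 0 < k i).card ≤ 1)
    (s0 : ∑ i ∈ B, k i * d i = 0) (s1 : ∑ i ∈ B, k i * e i = 0)
    (s2 : ∑ i ∈ B, k i * (e i ^ 2 / d i) = 0) :
    ∀ i ∈ B, k i ≠ 0 → e i = d i := by
  obtain ⟨j, hj, hjpos⟩ := Finset.exists_pos_of_sum_zero_of_exists_nonzero _ s0
    ⟨i1, h1, mul_ne_zero hk1 (hd i1 h1).ne'⟩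
  have hkj : 0 < k j := pos_of_mul_pos_left hjpos (hd j hj).le
  obtain ⟨c, hc⟩ : ∃ c, c * d j = e j := ⟨e j / d j, div_mul_cancel₀ _ (hd j hj).ne'⟩
  have hs : ∑ i ∈ B, k i * ((e i - c * d i) ^ 2 / d i) = 0 := by
    calc ∑ i ∈ B, k i * ((e i - c * d i) ^ 2 / d i)
        = ∑ i ∈ B, (k i * (e i ^ 2 / d i) - 2 * c * (k i * e i) + c ^ 2 * (k i * d i)) :=
          Finset.sum_congr rfl fun i hi => by field_simp [(hd i hi).ne']; ring
      _ = 0 := by
          rw [Finset.sum_add_distrib, Finset.sum_sub_distrib, ← Finset.mul_sum, ← Finset.mul_sum,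
            s0, s1, s2]
          ring
  have hle : ∀ i ∈ B, k i * ((e i - c * d i) ^ 2 / d i) ≤ 0 := by
    intro i hi
    by_cases hp : 0 < k i
    · have : i = j := Finset.card_le_one.1 hone i (Finset.mem_filter.2 ⟨hi, hp⟩) j
        (Finset.mem_filter.2 ⟨hj, hkj⟩)
      subst this
      simp [hc]
    · exact mul_nonpos_of_nonpos_of_nonneg (not_lt.1 hp) (div_nonneg (sq_nonneg _) (hd i hi).le)
  have hz := (Finset.sum_eq_zero_iff_of_nonpos hle).1 hs
  have hc' : ∀ i ∈ B, k i ≠ 0 → e i = c * d i := by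
    intro i hi hki
    have h2 := (mul_eq_zero.1 (hz i hi)).resolve_left hki
    rw [div_eq_zero_iff] at h2
    exact sub_eq_zero.1 (eq_zero_of_pow_eq_zero (h2.resolve_right (hd i hi).ne'))
  have hc1 : c = 1 := by
    have h := hc' i1 h1 hk1
    rw [he1] at h
    exact mul_right_cancel₀ (hd i1 h1).ne' (by rw [one_mul]; exact h.symm)
  intro i hi hki
  rw [hc' i hi hki, hc1, one_mul]

/-- Let M be a maximal ideal of the algebraic integers containing 2, P a 2-subgroup of the finite group G, U a subset of P, and t an involution of G such that no element of U is inverted by any conjugate of t. Let θ be a generalized character of P vanishing outside U, and for χ in the principal 2-block B₀ put a_χ = #P⁻¹ Σ_{y ∈ P} χ(y) θ(y⁻¹). Then Σ_{χ ∈ B₀} a_χ χ(t)^2/χ(1) = 0, Σ_{χ ∈ B₀} a_χ χ(1) = 0 and Σ_{χ ∈ B₀} a_χ χ(t) = 0. If moreover #P⁻¹ Σ_{y ∈ P} θ(y) ≠ 0, then either at least two of the a_χ have positive real part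 and at least two have negative real part, or G has a proper normal subgroup containing O_2'(G) and t. -/
theorem result {G : Type*} [Group G] [Finite G] (M : Ideal Cfsg.AlgInt) (hM : Cfsg.IsPModular 2 M) (P : Subgroup G) (hP : IsPGroup 2 P) (U : Set G) (hUP : U ⊆ (P : Set G)) (t : G) (ht : orderOf t = 2) (hinv : ∀ u ∈ U, ∀ g : G, (g * t * g⁻¹) * u * (g * t * g⁻¹)⁻¹ ≠ u⁻¹) (θ : ↥P → ℂ) (hθ : Cfsg.IsGeneralizedCharacter ↥P θ) (hθU : ∀ y : ↥P, (y : G) ∉ U → θ y = 0) : (∑ᶠ χ ∈ Cfsg.principalBlock M G, ((Nat.card ↥P : ℂ)⁻¹ * ∑ᶠ y : ↥P, (χ : G → ℂ) (y : G) * θ y⁻¹) * (χ : G → ℂ) t ^ 2 / (χ : G → ℂ) 1 = 0) ∧ (∑ᶠ χ ∈ Cfsg.principalBlock M G, ((Nat.card ↥P : ℂ)⁻¹ * ∑ᶠ y : ↥P, (χ : G → ℂ) (y : G) * θ y⁻¹) * (χ : G → ℂ) 1 = 0) ∧ (∑ᶠ χ ∈ Cfsg.principalBlock M G, ((Nat.card ↥P : ℂ)⁻¹ * ∑ᶠ y : ↥P, (χ : G → ℂ) (y : G) * θ y⁻¹) * (χ : G → ℂ) t = 0) ∧ ((Nat.card ↥P : ℂ)⁻¹ * ∑ᶠ y : ↥P, θ y ≠ 0 → (2 ≤ Nat.card {χ : Cfsg.IrrCharacter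 G // χ ∈ Cfsg.principalBlock M G ∧ 0 < (((Nat.card ↥P : ℂ)⁻¹ * ∑ᶠ y : ↥P, (χ : G → ℂ) (y : G) * θ y⁻¹)).re} ∧ 2 ≤ Nat.card {χ : Cfsg.IrrCharacter G // χ ∈ Cfsg.principalBlock M G ∧ (((Nat.card ↥P : ℂ)⁻¹ * ∑ᶠ y : ↥P, (χ : G → ℂ) (y : G) * θ y⁻¹)).re < 0}) ∨ ∃ K : Subgroup G, K.Normal ∧ K ≠ ⊤ ∧ Cfsg.pPrimeCore 2 G ≤ K ∧ t ∈ K) := by
  classical
  haveI : M.IsMaximal := hM.2.1
  haveI : Fact (Nat.Prime 2) := ⟨Nat.prime_two⟩
  haveI : Fintype G := Fintype.ofFinite G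
  haveI : Fintype P := Fintype.ofFinite P
  have hpM : ((2 : ℕ) : AlgInt) ∈ M := hM.2.2
  set B := Finset.univ.filter (· ∈ principalBlock M G) with hB
  set A : IrrCharacter G → ℂ := fun χ =>
    (Nat.card P : ℂ)⁻¹ * ∑ᶠ y : P, (χ : G → ℂ) (y : G) * θ y⁻¹ with hAdef
  have hA : ∀ χ, A χ = (Nat.card P : ℂ)⁻¹ * ∑ u : P, θ u * conj ((χ : G → ℂ) u) := by
    intro χ
    rw [hAdef]
    simp only [finsum_eq_sum_of_fintype]
    rw [← Equiv.sum_comp (Equiv.inv P)]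
    congr 1
    exact Finset.sum_congr rfl fun u _ => by
      simp [Chars.char_inv_eq_conj (Chars.irr_isCharacter χ), mul_comm]
  have hint : ∀ χ, ∃ n : ℤ, A χ = n := fun χ => by
    rw [hA]
    exact Chars.exists_classInner_eq_int hθ
      (Chars.isGen_of_isCharacter (Chars.isCharacter_restrict (Chars.irr_isCharacter χ) P))
  choose k hk using hint
  have hord : ∀ v : P, ∃ n : ℕ, orderOf (v : G) = 2 ^ n := fun v => by
    obtain ⟨n, hn⟩ := IsPGroup.iff_orderOf.1 hP v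
    exact ⟨n, by rw [Subgroup.orderOf_coe]; exact hn⟩
  have h1p : ¬ 2 ∣ orderOf (1 : G) := by rw [orderOf_one]; omega
  have hpp : ∀ x : G, (∃ n : ℕ, orderOf x = 2 ^ n) → Blocks.ppart 2 x = x := fun x hx => by
    have := Blocks.ppart_mul (Commute.one_right x) hx h1p
    rwa [mul_one] at this
  have ht2 : t⁻¹ = t := by
    rw [inv_eq_iff_mul_eq_one, ← sq, ← ht, pow_orderOf_eq_one]
  have kill : ∀ x : G, (∀ u ∈ U, ¬ IsConj (Blocks.ppart 2 x) u) →
      ∑ χ ∈ B, A χ * (χ : G → ℂ) x = 0 := by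
    intro x hx
    calc ∑ χ ∈ B, A χ * (χ : G → ℂ) x
        = ∑ u : P, (Nat.card P : ℂ)⁻¹ *
            (θ u * ∑ χ ∈ B, (χ : G → ℂ) x * conj ((χ : G → ℂ) u)) := by
          simp only [hA, Finset.mul_sum, Finset.sum_mul]
          rw [Finset.sum_comm]
          exact Finset.sum_congr rfl fun u _ => Finset.sum_congr rfl fun χ _ => by ring
      _ = 0 := Finset.sum_eq_zero fun u _ => by
          by_cases hu : (u : G) ∈ U
          · rw [Blocks.block_orth hpM Blocks.isPBlock_principal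
              (by rw [hpp u (hord u)]; exact hx u hu), mul_zero, mul_zero]
          · rw [hθU u hu, zero_mul, mul_zero]
  have k1 : ∑ χ ∈ B, A χ * (χ : G → ℂ) 1 = 0 := kill 1 fun u hu h => by
    rw [Blocks.ppart_one_iff.2 h1p, isConj_one_right] at h
    exact hinv u hu 1 (by simp [h])
  have kt : ∑ χ ∈ B, A χ * (χ : G → ℂ) t = 0 := kill t fun u hu h => by
    rw [hpp t ⟨1, by rw [ht, pow_one]⟩] at h
    obtain ⟨g, rfl⟩ := isConj_iff.1 h
    refine hinv _ hu g ?_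
    rw [mul_inv_cancel_right]
    simp [ht2, mul_assoc]
  have kq : ∑ χ ∈ B, A χ * (χ : G → ℂ) t ^ 2 / (χ : G → ℂ) 1 = 0 := by
    have hG : (Nat.card G : ℂ) ≠ 0 := Chars.card_ne_zero
    calc ∑ χ ∈ B, A χ * (χ : G → ℂ) t ^ 2 / (χ : G → ℂ) 1
        = ∑ χ ∈ B, (Nat.card G : ℂ)⁻¹ * ∑ a : G, A χ * (χ : G → ℂ) (t * (a * t * a⁻¹)) := by
          refine Finset.sum_congr rfl fun χ _ => ?_
          rw [← Finset.mul_sum, Blocks.sum_apply_mul_conj]
          field_simp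
      _ = ∑ a : G, (Nat.card G : ℂ)⁻¹ * ∑ χ ∈ B, A χ * (χ : G → ℂ) (t * (a * t * a⁻¹)) := by
          simp only [Finset.mul_sum]
          rw [Finset.sum_comm]
      _ = 0 := Finset.sum_eq_zero fun a _ => by
          rw [kill _ ?_, mul_zero]
          intro u hu h
          obtain ⟨g, hg⟩ := isConj_iff.1 h
          set x := t * (a * t * a⁻¹) with hx
          have hxinv : t * x * t⁻¹ = x⁻¹ := by
            have h2 : t * t = 1 := by rw [← sq, ← ht, pow_orderOf_eq_one]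
            calc t * x * t⁻¹ = t * t * (a * t * a⁻¹) * t⁻¹ := by rw [hx]; group
              _ = (a * t * a⁻¹) * t⁻¹ := by rw [h2, one_mul]
              _ = x⁻¹ := by rw [hx]; simp [ht2, mul_assoc]
          have hp : t * Blocks.ppart 2 x * t⁻¹ = (Blocks.ppart 2 x)⁻¹ := by
            rw [← Blocks.ppart_conj, hxinv, Blocks.ppart, Blocks.ppart]
            simp [inv_pow]
          refine hinv u hu g ?_
          rw [← hg]
          calc g * t * g⁻¹ * (g * Blocks.ppart 2 x * g⁻¹) * (g * t * g⁻¹)⁻¹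
              = g * (t * Blocks.ppart 2 x * t⁻¹) * g⁻¹ := by group
            _ = _ := by rw [hp]; group
  simp only [Blocks.finsum_mem_eq_filter, ← hB]
  refine ⟨kq, k1, kt, fun hθne => ?_⟩
  -- the signs
  obtain ⟨χ₁, hχ₁⟩ : ∃ χ₁ : IrrCharacter G, χ₁ = Blocks.oneChar G := ⟨_, rfl⟩
  have hχ₁B : χ₁ ∈ B := Finset.mem_filter.2 ⟨Finset.mem_univ _, hχ₁ ▸ Blocks.one_mem_principal⟩
  have hk₁ : (k χ₁ : ℝ) ≠ 0 := by
    intro h
    refine hθne ?_
    have h' : A χ₁ = 0 := by rw [hk]; exact_mod_cast h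
    rw [hA, hχ₁] at h'
    simpa [Blocks.coe_oneChar, finsum_eq_sum_of_fintype] using h'
  let d : IrrCharacter G → ℝ := fun χ => ((χ : G → ℂ) 1).re
  let e : IrrCharacter G → ℝ := fun χ => ((χ : G → ℂ) t).re
  have hd : ∀ χ : IrrCharacter G, (χ : G → ℂ) 1 = (d χ : ℂ) := fun χ =>
    (Complex.conj_eq_iff_re.1 (Chars.irr_apply_one_conj (Chars.irr_isCharacter χ))).symm
  have he : ∀ χ : IrrCharacter G, (χ : G → ℂ) t = (e χ : ℂ) := fun χ =>
    (Complex.conj_eq_iff_re.1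
      (by rw [← Chars.char_inv_eq_conj (Chars.irr_isCharacter χ), ht2])).symm
  have hdpos : ∀ χ : IrrCharacter G, 0 < d χ := fun χ => by
    obtain ⟨n, hn, h1⟩ := Chars.exists_irr_apply_one_eq χ.2
    show 0 < ((χ : G → ℂ) 1).re
    rw [h1]; simpa using hn
  have s0 : ∑ χ ∈ B, (k χ : ℝ) * d χ = 0 := by
    apply Complex.ofReal_injective
    push_cast
    simpa only [hk, hd] using k1
  have s1 : ∑ χ ∈ B, (k χ : ℝ) * e χ = 0 := by
    apply Complex.ofReal_injective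
    push_cast
    simpa only [hk, he] using kt
  have s2 : ∑ χ ∈ B, (k χ : ℝ) * (e χ ^ 2 / d χ) = 0 := by
    apply Complex.ofReal_injective
    push_cast
    simpa only [hk, hd, he, mul_div_assoc] using kq
  by_cases hkey : ∀ χ ∈ B, (k χ : ℝ) ≠ 0 → e χ = d χ
  · right
    obtain ⟨χ, hχB, hne, hkχ⟩ : ∃ χ ∈ B, χ ≠ χ₁ ∧ (k χ : ℝ) ≠ 0 := by
      by_contra hno
      push Not at hno
      rw [Finset.sum_eq_single χ₁ (fun b hb hne => by rw [hno b hb hne, zero_mul])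
        (fun h => absurd hχ₁B h)] at s0
      exact mul_ne_zero hk₁ (hdpos χ₁).ne' s0
    have hK := Chars.charKer_normal (Chars.irr_isCharacter χ)
    refine ⟨Chars.charKer (Chars.irr_isCharacter χ), hK, fun htop => ?_, fun g hg => ?_, ?_⟩
    · have hc : ∀ g, (χ : G → ℂ) g = (χ : G → ℂ) 1 := fun g =>
        (Chars.mem_charKer _).1 (htop ▸ Subgroup.mem_top g)
      have h0 := Chars.classInner_irrCharacter χ χ₁
      rw [if_neg hne, Chars.classInner_def] at h0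
      simp [hc, hχ₁, Blocks.coe_oneChar, Chars.irr_apply_one_ne_zero χ.2] at h0
    · exact (Chars.mem_charKer _).2 (BlockChar.apply_eq_one_of_mem_principal hpM
        (Finset.mem_filter.1 hχB).2 (Core.not_dvd_card_pPrimeCore 2 G) hg)
    · refine (Chars.mem_charKer _).2 ?_
      rw [he, hd, hkey χ hχB hkχ]
  · left
    have hcount : ∀ P' : IrrCharacter G → Prop, Nat.card {χ : IrrCharacter G //
        χ ∈ principalBlock M G ∧ P' χ} = (B.filter P').card := fun P' => by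
      rw [Nat.card_eq_fintype_card, Fintype.card_subtype, hB, Finset.filter_filter]
    have hre : ∀ χ : IrrCharacter G, ((Nat.card P : ℂ)⁻¹ * ∑ᶠ y : P, (χ : G → ℂ) (y : G) * θ y⁻¹).re = (k χ : ℝ) :=
      fun χ => by
        show (A χ).re = _
        rw [hk]; simp
    rw [hcount, hcount]
    simp only [hre]
    refine ⟨?_, ?_⟩
    · by_contra hlt
      refine hkey (moments B (fun χ => (k χ : ℝ)) d e χ₁ hχ₁B hk₁ ?_ (fun χ _ => hdpos χ)
        (by omega) s0 s1 s2)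
      simp [d, e, hχ₁, Blocks.coe_oneChar]
    · by_contra hlt
      refine hkey fun χ hχ h => moments B (fun χ => -(k χ : ℝ)) d e χ₁ hχ₁B (neg_ne_zero.2 hk₁) ?_
        (fun χ _ => hdpos χ) ?_ ?_ ?_ ?_ χ hχ (neg_ne_zero.2 h)
      · simp [d, e, hχ₁, Blocks.coe_oneChar]
      · simpa only [neg_pos] using Nat.le_of_lt_succ (not_le.1 hlt)
      · simp [s0]
      · simp [s1]
      · simp [s2]

end Cfsg.Agent.S4722
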