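import Cfsg.Statements.S4723
import Cfsg.Agent.Blocks.FongCovering
import Cfsg.Agent.BlockChar.Bridge
-- import your own Cfsg.Agent.* helpers here

set_option autoImplicit false
open Cfsg

namespace Cfsg.Agent.S4723

/-- Let p be a prime, M a maximal ideal of the algebraic integers containing p, H a normal subgroup of the finite group G and b a p-block of H. Let T be the stabilizer of b in G. Then b contains a character θ of height zero whose own stabilizer in G (the elements g with θ(g h g⁻¹) = θ(h) for all h ∈ H) has index prime to p in T, i.e. contains a Sylow p-subgroup of T. -/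
theorem result {G : Type*} [Group G] [Finite G] (p : ℕ) [Fact p.Prime] (M : Ideal Cfsg.AlgInt) (hM : Cfsg.IsPModular p M) (H : Subgroup G) [H.Normal] (b : Set (Cfsg.IrrCharacter ↥H)) (hb : Cfsg.IsPBlock M b) (T : Subgroup G) (hT : (∀ g : G, g ∈ T ↔ ∀ θ ∈ b, ∀ θ' : Cfsg.IrrCharacter ↥H, (∀ h h' : ↥H, (h' : G) = g * h * g⁻¹ → (θ' : ↥H → ℂ) h' = (θ : ↥H → ℂ) h) → θ' ∈ b)) : ∃ θ ∈ b, Cfsg.blockHeight p b (θ : ↥H → ℂ) = 0 ∧ ∃ S : Subgroup G, S ≤ T ∧ (∀ g : G, g ∈ S ↔ (g ∈ T ∧ ∀ h h' : ↥H, (h' : G) = g * h * g⁻¹ → (θ : ↥H → ℂ) h' = (θ : ↥H → ℂ) h)) ∧ ¬ p ∣ S.relIndex T := by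
  classical
  haveI : M.IsMaximal := hM.2.1
  have hpM : (p : Cfsg.AlgInt) ∈ M := hM.2.2
  have hp := (Fact.out : p.Prime)
  haveI : Fintype G := Fintype.ofFinite G
  haveI : Fintype H := Fintype.ofFinite H
  have hHT : H ≤ T := by
    intro x hx
    rw [hT]
    intro θ hθ θ' he
    have : θ' = θ := by
      apply Subtype.ext
      funext h'
      have h1 : x⁻¹ * (h' : G) * x ∈ H := H.mul_mem (H.mul_mem (H.inv_mem hx) h'.2) hx
      rw [he ⟨_, h1⟩ h' (by simp [mul_assoc])]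
      have h2 := Cfsg.Agent.Chars.isClassFunction_irr θ h' (⟨x, hx⟩⁻¹)
      rw [← h2]
      refine congrArg _ (Subtype.ext ?_)
      simp
    rwa [this]
  haveI : Fintype T := Fintype.ofFinite T
  haveI : Fintype (H.subgroupOf T) := Fintype.ofFinite _
  set φ : H ≃* H.subgroupOf T := (Subgroup.subgroupOfEquivOfLe hHT).symm with hφ
  have hφc : ∀ h : H, (((φ h : H.subgroupOf T) : T) : G) = (h : G) := fun h => rfl
  set b' := Cfsg.Agent.BlockChar.mapSet φ b with hb'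
  have hb'b := Cfsg.Agent.BlockChar.isPBlock_mapSet φ hb
  have hinv : Cfsg.Agent.Blocks.ConjInv (G := T) b' := by
    intro ψ g hψ
    refine (hT (g : G)).1 g.2 _ hψ _ fun h h' he => ?_
    rw [Cfsg.Agent.BlockChar.irrEquiv_apply, Cfsg.Agent.BlockChar.irrEquiv_apply]
    show (ψ : H.subgroupOf T → ℂ) ((MulAut.conjNormal g⁻¹ : MulAut (H.subgroupOf T)) (φ h')) = _
    refine congrArg _ (Subtype.ext (Subtype.ext ?_))
    rw [MulAut.conjNormal_apply]
    simp only [Subgroup.coe_mul, Subgroup.coe_inv, hφc, he]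
    group
  -- a covering block of largest defect
  obtain ⟨θ₀, hθ₀⟩ := Cfsg.Agent.Blocks.block_nonempty hb'b
  obtain ⟨χ₀, hχ₀⟩ := Cfsg.Agent.Blocks.exists_over (G := T) θ₀
  set Cov := (Cfsg.Agent.Blocks.blockFinset M T).filter (fun B : Set (Cfsg.IrrCharacter T) =>
    ∃ χ ∈ B, ∃ θ ∈ b', Cfsg.classInner (fun n : H.subgroupOf T => (χ : T → ℂ) n)
      (θ : H.subgroupOf T → ℂ) ≠ 0) with hCov
  obtain ⟨B, hBmem, hmax⟩ := Finset.exists_max_image Cov (Cfsg.blockDefect p)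
    ⟨_, Finset.mem_filter.2 ⟨Cfsg.Agent.Blocks.mem_blockFinset.2
      (Cfsg.Agent.Blocks.isPBlock_blockOf χ₀), χ₀, Cfsg.Agent.Blocks.mem_blockOf_self χ₀,
      θ₀, hθ₀, hχ₀⟩⟩
  obtain ⟨hBfin, hcov⟩ := Finset.mem_filter.1 hBmem
  have hB := Cfsg.Agent.Blocks.mem_blockFinset.1 hBfin
  obtain ⟨P, hP⟩ := Cfsg.Agent.Blocks.exists_isDefectGroup hpM hB
  obtain ⟨-, -, hdef⟩ := Cfsg.Agent.Blocks.fong_covering hpM hb'b hinv hB hcov
    (fun B' hB' hc => hmax B' (Finset.mem_filter.2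
      ⟨Cfsg.Agent.Blocks.mem_blockFinset.2 hB', hc⟩)) hP
  obtain ⟨χ, hχ, hχ0⟩ := Cfsg.Agent.Blocks.exists_height_zero (p := p) hB
  obtain ⟨ψ, hψ⟩ := Cfsg.Agent.Blocks.exists_constituent (N := H.subgroupOf T) χ
  have hψb : ψ ∈ b' := by
    obtain ⟨χ₁, hχ₁, θ₁, hθ₁, hcon₁⟩ := hcov
    obtain ⟨g, hg⟩ := Cfsg.Agent.Blocks.covered_conjugate hpM hb'b
      (Cfsg.Agent.Blocks.sameBlock_of_mem hB hχ₁ hχ) hθ₁ hcon₁ hψ
    have := hinv _ g⁻¹ hg
    rwa [Cfsg.Agent.Blocks.conjIrr_conjIrr, inv_mul_cancel, Cfsg.Agent.Blocks.conjIrr_one] at this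
  set I : Subgroup T := Cfsg.Agent.Chars2.inertiaSub (ψ : H.subgroupOf T → ℂ) with hI
  obtain ⟨c, hc⟩ := Cfsg.Agent.Chars2.exists_multiplicities
    (Cfsg.Agent.Chars.isCharacter_restrict (Cfsg.Agent.Chars.irr_isCharacter χ) (H.subgroupOf T))
  have hdeg := Cfsg.Agent.Chars2.clifford_degree χ.2 ψ.2 hψ
  rw [hc ψ, (Cfsg.Agent.Blocks.charDegree_eq χ.2).1, (Cfsg.Agent.Blocks.charDegree_eq ψ.2).1,
    ← Nat.cast_mul, ← Nat.cast_mul, Nat.cast_inj] at hdeg
  have hc0 : c ψ ≠ 0 := fun h => hψ (by rw [hc ψ, h, Nat.cast_zero])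
  have hI0 : I.index ≠ 0 := Subgroup.index_ne_zero_of_finite
  have e1 := Cfsg.Agent.Blocks.degree_eq_height hpM hB hχ
  rw [hdeg, hχ0, Nat.factorization_mul (mul_ne_zero hI0 hc0)
    (Cfsg.Agent.Blocks.charDegree_eq ψ.2).2.ne', Nat.factorization_mul hI0 hc0] at e1
  simp only [Finsupp.add_apply] at e1
  have e2 := Cfsg.Agent.Blocks.degree_eq_height hpM hb'b hψb
  have e3 : (Nat.card T).factorization p =
      (Nat.card (H.subgroupOf T)).factorization p + (H.subgroupOf T).index.factorization p := by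
    rw [← Subgroup.card_mul_index (H.subgroupOf T), Nat.factorization_mul Nat.card_pos.ne'
      Subgroup.index_ne_zero_of_finite, Finsupp.add_apply]
  set θ := Cfsg.Agent.BlockChar.irrEquiv φ ψ with hθ
  have hht : Cfsg.blockHeight p b (θ : H → ℂ) =
      Cfsg.blockHeight p b' (ψ : H.subgroupOf T → ℂ) := by
    have hd : ∀ ξ : Cfsg.IrrCharacter (H.subgroupOf T),
        Cfsg.charDegree (Cfsg.Agent.BlockChar.irrEquiv φ ξ : H → ℂ) =
          Cfsg.charDegree (ξ : H.subgroupOf T → ℂ) := fun ξ => by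
      rw [Cfsg.charDegree, Cfsg.charDegree, Cfsg.Agent.BlockChar.irrEquiv_apply, map_one]
    rw [Cfsg.blockHeight, Cfsg.blockHeight, hθ, hd]
    congr 2
    ext n
    constructor
    · rintro ⟨ξ, hξ, rfl⟩
      refine ⟨(Cfsg.Agent.BlockChar.irrEquiv φ).symm ξ, ?_, ?_⟩
      · show Cfsg.Agent.BlockChar.irrEquiv φ _ ∈ b
        rwa [Equiv.apply_symm_apply]
      · beta_reduce
        rw [← hd, Equiv.apply_symm_apply]
    · rintro ⟨ξ, hξ, rfl⟩
      exact ⟨_, hξ, by beta_reduce; rw [hd]⟩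
  refine ⟨θ, hψb, by simp only [hb', hI] at *; rw [hht]; omega, I.map T.subtype, Subgroup.map_subtype_le _, fun g => ?_, ?_⟩
  · constructor
    · rintro ⟨g, hg, rfl⟩
      refine ⟨g.2, fun h h' he => ?_⟩
      have h1 : Cfsg.Agent.Chars2.conjFun (ψ : H.subgroupOf T → ℂ) g = ψ := hg
      have h2 := congrFun h1 (φ h')
      rw [Cfsg.Agent.Chars2.conjFun_apply] at h2
      rw [Cfsg.Agent.BlockChar.irrEquiv_apply, Cfsg.Agent.BlockChar.irrEquiv_apply, ← h2]
      refine congrArg _ (Subtype.ext (Subtype.ext ?_))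
      simp only [Subgroup.coe_mul, Subgroup.coe_inv, hφc, he, Subgroup.coe_subtype]
      group
    · rintro ⟨hgT, hg⟩
      refine ⟨⟨g, hgT⟩, ?_, rfl⟩
      show Cfsg.Agent.Chars2.conjFun (ψ : H.subgroupOf T → ℂ) ⟨g, hgT⟩ = ψ
      funext x
      obtain ⟨h', rfl⟩ := φ.surjective x
      rw [Cfsg.Agent.Chars2.conjFun_apply]
      have h1 : g⁻¹ * (h' : G) * g ∈ H := by
        simpa using (‹H.Normal›).conj_mem _ h'.2 g⁻¹
      refine Eq.trans ?_ (hg ⟨_, h1⟩ h' (by simp [mul_assoc])).symm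
      rw [Cfsg.Agent.BlockChar.irrEquiv_apply]
      refine congrArg _ (Subtype.ext (Subtype.ext ?_))
      simp [hφc]
  · rw [Subgroup.relIndex, Subgroup.subgroupOf,
      Subgroup.comap_map_eq_self_of_injective T.subtype_injective]
    intro hdvd
    have := hp.factorization_pos_of_dvd hI0 hdvd
    simp only [hb', hI] at *
    omega

end Cfsg.Agent.S4723
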