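import Cfsg.Statements.S4725
import Cfsg.Agent.BlockChar.RankBounds
import Cfsg.Agent.Chars.Induced

set_option autoImplicit false
open Cfsg Cfsg.Agent Cfsg.Agent.BlockChar Cfsg.Agent.Blocks
open scoped ComplexConjugate

namespace Cfsg.Agent.S4725

/-- Let p be a prime, M a maximal ideal of the algebraic integers containing p, H a subgroup of the finite group G, and b a p-block of H inducing the p-block B of G, with b and B of the same defect. Then for every height-zero ζ ∈ b there is a height-zero χ ∈ B whose multiplicity in the character induced from ζ is not divisible by p. -/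
theorem result {G : Type*} [Group G] [Fintype G] (p : ℕ) [Fact p.Prime] (M : Ideal Cfsg.AlgInt) (hM : Cfsg.IsPModular p M) (H : Subgroup G) (b : Set (Cfsg.IrrCharacter ↥H)) (B : Set (Cfsg.IrrCharacter G)) (hind : Cfsg.IsInducedBlock M H b B) (hdef : Cfsg.blockDefect p b = Cfsg.blockDefect p B) (ζ : Cfsg.IrrCharacter ↥H) (hζ : ζ ∈ b) (hζ0 : Cfsg.blockHeight p b (ζ : ↥H → ℂ) = 0) : ∃ χ ∈ B, Cfsg.blockHeight p B (χ : G → ℂ) = 0 ∧ ∃ a : ℕ, Cfsg.classInner (Cfsg.indFun H (ζ : ↥H → ℂ)) (χ : G → ℂ) = (a : ℂ) ∧ ¬ p ∣ a := by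
  classical
  haveI := hM.2.1
  letI := Fintype.ofFinite H
  have hpM := hM.2.2
  have hB := hind.2.1
  choose a ha using fun χ : IrrCharacter G =>
    Chars.exists_classInner_eq_nat (Chars.irr_isCharacter ζ)
      (Chars.isCharacter_restrict (Chars.irr_isCharacter χ) H)
  have hac : ∀ χ : IrrCharacter G, classInner (indFun H (ζ : H → ℂ)) (χ : G → ℂ) = (a χ : ℂ) :=
    fun χ => by rw [Chars.classInner_indFun H _ (Chars.isClassFunction_irr χ)]; exact ha χ
  suffices h : ∃ χ ∈ B, blockHeight p B (χ : G → ℂ) = 0 ∧ ¬ p ∣ a χ by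
    obtain ⟨χ, hχ, h0, hpa⟩ := h
    refine ⟨χ, hχ, h0, a χ, ?_, hpa⟩
    convert hac χ
  by_contra hno
  push Not at hno
  obtain ⟨χ₀, hχ₀⟩ := block_nonempty hB
  set ω : ℂ := omega (ζ : H → ℂ) (resFun H (blockCoeff B))
  have hω : MemLocalIdeal M (ω - 1) := by
    have := isInducedBlock_apply H hpM hind hζ hχ₀ (isClassFunction_blockCoeff B)
      (rFun_blockCoeff hpM hB)
    rwa [omega_blockCoeff_mem hχ₀] at this
  set N : ℕ := ∑ χ ∈ bf B, charDegree (χ : G → ℂ) * a χ with hN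
  set K : ℕ := H.index * charDegree (ζ : H → ℂ) with hK
  have hH0 : (Nat.card H : ℂ) ≠ 0 := Chars.card_ne_zero
  have hI0 : (H.index : ℂ) ≠ 0 := Nat.cast_ne_zero.mpr Subgroup.index_ne_zero_of_finite
  have hζ1 : (ζ : H → ℂ) 1 ≠ 0 := Chars.irr_apply_one_ne_zero ζ.2
  have hNK : (N : ℂ) = (K : ℂ) * ω := by
    have e1 : ∀ χ : IrrCharacter G, ∑ h : H, (ζ : H → ℂ) h * conj ((χ : G → ℂ) (h : G)) =
        (Nat.card H : ℂ) * (a χ : ℂ) := fun χ => by
      rw [← ha χ, Chars.classInner_def, ← mul_assoc, mul_inv_cancel₀ hH0, one_mul]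
    have e2 : ∑ h : H, blockCoeff B (h : G) * (ζ : H → ℂ) h =
        (Nat.card G : ℂ)⁻¹ * ((Nat.card H : ℂ) * (N : ℂ)) := by
      simp only [blockCoeff, finsum_mem_bf, Finset.mul_sum, Finset.sum_mul, hN, Nat.cast_sum,
        Nat.cast_mul]
      rw [Finset.sum_comm]
      refine Finset.sum_congr rfl fun χ _ => ?_
      rw [← (charDegree_eq χ.2).1, mul_left_comm (Nat.card H : ℂ) _ (a χ : ℂ), ← e1,
        Finset.mul_sum, Finset.mul_sum]
      exact Finset.sum_congr rfl fun h _ => by ring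
    simp only [ω, omega, resFun]
    rw [e2, ← Subgroup.card_mul_index H, hK, Nat.cast_mul, Nat.cast_mul, (charDegree_eq ζ.2).1]
    rw [(charDegree_eq ζ.2).1] at hζ1
    field_simp
  have hζd : 0 < charDegree (ζ : H → ℂ) := (charDegree_eq ζ.2).2
  have hK0 : K ≠ 0 := Nat.mul_ne_zero Subgroup.index_ne_zero_of_finite hζd.ne'
  set w := K.factorization p
  have hGd : w + blockDefect p B = (Nat.card G).factorization p := by
    have h1 := degree_eq_height hpM hind.1 hζ
    rw [hζ0, add_zero, hdef] at h1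
    have h2 : (Nat.card G).factorization p =
        (Nat.card H).factorization p + H.index.factorization p := by
      rw [← Subgroup.card_mul_index H,
        Nat.factorization_mul Nat.card_pos.ne' Subgroup.index_ne_zero_of_finite, Finsupp.add_apply]
    show K.factorization p + _ = _
    rw [hK, Nat.factorization_mul Subgroup.index_ne_zero_of_finite hζd.ne', Finsupp.add_apply]
    omega
  have hdvd : p ^ (w + 1) ∣ N := by
    refine Finset.dvd_sum fun χ hχ => ?_
    rw [mem_bf] at hχ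
    have h1 := degree_eq_height hpM hB hχ
    have h2 := Nat.ordProj_dvd (charDegree (χ : G → ℂ)) p
    by_cases h0 : blockHeight p B (χ : G → ℂ) = 0
    · rw [pow_succ]
      refine Nat.mul_dvd_mul ((pow_dvd_pow p ?_).trans h2) (hno χ hχ h0)
      omega
    · exact Dvd.dvd.mul_right ((pow_dvd_pow p (by omega)).trans h2) _
  obtain ⟨N', hN'⟩ := hdvd
  have hK' : ¬ p ∣ K / p ^ w := Nat.not_dvd_ordCompl (Fact.out : p.Prime) hK0
  have hval : ω = (p : ℂ) * ((N' : ℂ) * ((K / p ^ w : ℕ) : ℂ)⁻¹) := by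
    have hKC : (K : ℂ) ≠ 0 := Nat.cast_ne_zero.mpr hK0
    have hKd : (K : ℂ) = (p : ℂ) ^ w * ((K / p ^ w : ℕ) : ℂ) := by
      rw [← Nat.cast_pow, ← Nat.cast_mul, Nat.ordProj_mul_ordCompl_eq_self]
    have hp0 : (p : ℂ) ≠ 0 := Nat.cast_ne_zero.mpr (Fact.out : p.Prime).ne_zero
    have hc0 : ((K / p ^ w : ℕ) : ℂ) ≠ 0 := fun h => hKC (by rw [hKd, h, mul_zero])
    apply mul_left_cancel₀ hKC
    rw [← hNK, hKd, hN']
    push_cast
    field_simp
    ring
  have hI : MemLocalIdeal M ω := by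
    rw [hval]
    exact memI_mul_right ((memI_natCast_iff hpM p).2 dvd_rfl) (memR_mul (memR_natCast _) (memR_inv_natCast hpM hK'))
  exact not_memI_one ((memI_iff_of_sub hω).1 hI)

end Cfsg.Agent.S4725
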