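import Cfsg.Statements.S4729
import Cfsg.Agent.DegreeGraph.Principal
import Cfsg.Agent.Chars.Eigen

set_option autoImplicit false
open Cfsg Cfsg.Agent

namespace Cfsg.Agent.S4729

/-- Let p be a prime, M a maximal ideal of the algebraic integers containing p, G a finite perfect group and P a Sylow p-subgroup. If the principal p-block of G contains a faithful irreducible character of degree less than 2p, then the centralizer of P is a p-group. -/
theorem result {G : Type*} [Group G] [Finite G] (p : ℕ) [Fact p.Prime] (M : Ideal Cfsg.AlgInt) (hM : Cfsg.IsPModular p M) (hperf : commutator G = ⊤) (P : Sylow p G) (χ : Cfsg.IrrCharacter G) (hχ : χ ∈ Cfsg.principalBlock M G) (hfaith : ∀ g : G, (χ : G → ℂ) g = (χ : G → ℂ) 1 → g = 1) (hdeg : Cfsg.charDegree (χ : G → ℂ) < 2 * p) : IsPGroup p ↥(Subgroup.centralizer ((P : Subgroup G) : Set G)) := by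
  classical
  haveI := hM.2.1
  haveI := Fintype.ofFinite G
  have hpM := hM.2.2
  have hp : p.Prime := Fact.out
  -- it is enough that the elements of order prime to `p` in the centralizer are trivial
  suffices key : ∀ y ∈ Subgroup.centralizer ((P : Subgroup G) : Set G), ¬ p ∣ orderOf y → y = 1 by
    intro y
    set a := (orderOf y).factorization p
    refine ⟨a, Subtype.ext ?_⟩
    rw [SubmonoidClass.coe_pow, Subgroup.coe_one]
    refine key _ (Subgroup.pow_mem _ y.2 _) ?_
    rw [orderOf_pow, Subgroup.orderOf_coe, Nat.gcd_eq_right (Nat.ordProj_dvd _ _)]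
    exact Nat.not_dvd_ordCompl hp (orderOf_pos y).ne'
  intro y hy hyp
  obtain ⟨d, hd0, hd1⟩ := Chars.exists_irr_apply_one_eq χ.2
  have hd : charDegree (χ : G → ℂ) = d := by simp [charDegree, hd1]
  rw [hd] at hdeg
  have hcong : ∀ j : ℕ, MemLocalIdeal M ((χ : G → ℂ) 1 - (χ : G → ℂ) (y ^ j)) := by
    intro j
    have h := (DegreeGraph.mem_principalBlock_iff.mp hχ) (y ^ j)
    set I := (Subgroup.centralizer ({y ^ j} : Set G)).index with hI
    have hIp : ¬ p ∣ I := fun hdvd => Sylow.not_dvd_index P (hdvd.trans (Subgroup.index_dvd_of_le (fun x hx => by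
      rw [Subgroup.mem_centralizer_singleton_iff]
      exact ((show Commute x y from Subgroup.mem_centralizer_iff.mp hy x hx).pow_right j).eq)))
    have e : centralChar (fun _ : G => (1 : ℂ)) (y ^ j) - centralChar (χ : G → ℂ) (y ^ j) =
        (I : ℂ) * ((χ : G → ℂ) 1 - (χ : G → ℂ) (y ^ j)) / (χ : G → ℂ) 1 := by
      have h1 := Chars.irr_apply_one_ne_zero χ.2
      simp only [centralChar, ← hI]
      field_simp
    rw [e] at h
    have h2 := Blocks.memI_mul_left (M := M) (Blocks.memR_mul (Blocks.memR_natCast d)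
      (Blocks.memR_inv_natCast hpM hIp)) h
    convert h2 using 1
    rw [hd1]
    have hI0 : (I : ℂ) ≠ 0 := Nat.cast_ne_zero.mpr Subgroup.index_ne_zero_of_finite
    have hd0' : (d : ℂ) ≠ 0 := Nat.cast_ne_zero.mpr hd0.ne'
    field_simp
  obtain ⟨n, ρ, hρ, hρχ⟩ := χ.2
  obtain ⟨b, z, hb, hz⟩ := Chars.exists_eigenbasis ρ y
  have hpow : ∀ (j : ℕ) i, ρ (y ^ j) (b i) = z i ^ j • b i := by
    intro j i
    induction j with
    | zero => simp
    | succ j ih => rw [pow_succ', map_mul, Module.End.mul_apply, ih, map_smul, hb, smul_smul, ← pow_succ]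
  have hsum : ∀ j : ℕ, (χ : G → ℂ) (y ^ j) = ∑ i, z i ^ j := fun j => by
    rw [← hρχ, Representation.character, LinearMap.trace_eq_matrix_trace ℂ b]
    simp only [Matrix.trace, Matrix.diag, LinearMap.toMatrix_apply, hpow]
    simp
  have hdim : Module.finrank ℂ (Fin n → ℂ) = d := by
    have := hd1
    rw [← hρχ, Representation.char_one] at this
    exact_mod_cast this
  set o := orderOf y with ho
  have hz0 : ∀ i, z i ≠ 0 := fun i h => by
    have := hz i
    rw [h, zero_pow (orderOf_pos y).ne'] at this
    exact zero_ne_one this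
  -- every eigenvalue other than one has multiplicity divisible by `p`
  have hmult : ∀ i₀, z i₀ ≠ 1 → p ∣ (Finset.univ.filter fun i => z i = z i₀).card := by
    intro i₀ hne
    set w := (z i₀)⁻¹
    have hw : w ^ o = 1 := by rw [inv_pow, hz i₀, inv_one]
    have hw1 : w ≠ 1 := inv_ne_one.mpr hne
    have hgeo : ∀ u : ℂ, u ^ o = 1 → ∑ j ∈ Finset.range o, u ^ j = if u = 1 then (o : ℂ) else 0 := by
      intro u hu
      split_ifs with h1
      · simp [h1]
      · rw [geom_sum_eq h1, hu, sub_self, zero_div]
    have h1 : ∑ j ∈ Finset.range o, ((χ : G → ℂ) 1 - (χ : G → ℂ) (y ^ j)) * w ^ j =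
        -((o * (Finset.univ.filter fun i => z i = z i₀).card : ℕ) : ℂ) := by
      simp only [sub_mul, Finset.sum_sub_distrib, ← Finset.mul_sum, hgeo w hw,
        if_neg hw1, mul_zero, zero_sub]
      congr 1
      simp only [hsum, Finset.sum_mul, ← mul_pow]
      rw [Finset.sum_comm, Finset.sum_congr rfl fun i _ => hgeo (z i * w) (by rw [mul_pow, hz i, hw, one_mul]),
        Finset.sum_ite, Finset.sum_const_zero, add_zero, Finset.sum_const, nsmul_eq_mul, Nat.cast_mul, mul_comm]
      congr 3
      ext i
      simp only [Finset.mem_filter, Finset.mem_univ, true_and, w]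
      exact mul_inv_eq_one₀ (hz0 i₀)
    have h2 : MemLocalIdeal M (∑ j ∈ Finset.range o, ((χ : G → ℂ) 1 - (χ : G → ℂ) (y ^ j)) * w ^ j) :=
      Blocks.memI_sum _ _ fun j _ => Blocks.memI_mul_right (hcong j) (Blocks.memR_of_isIntegral
        ((IsIntegral.of_pow (orderOf_pos y) (by rw [hw]; exact isIntegral_one)).pow j))
    rw [h1] at h2
    have h3 := Blocks.memI_neg h2
    rw [neg_neg, Blocks.memI_natCast_iff hpM] at h3
    exact (hp.dvd_mul.mp h3).resolve_left hyp
  have hall : ∀ i, z i = 1 := by
    by_contra hne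
    push Not at hne
    obtain ⟨i₀, hi₀⟩ := hne
    set S := Finset.univ.filter fun i => z i ≠ 1
    have hsub : Finset.univ.filter (fun i => z i = z i₀) ⊆ S := fun i hi =>
      Finset.mem_filter.mpr ⟨Finset.mem_univ _, (Finset.mem_filter.mp hi).2 ▸ hi₀⟩
    have hSd : S.card ≤ d := (Finset.card_le_univ S).trans (le_of_eq (by simpa using hdim))
    have hge : ∀ i, z i ≠ 1 → p ≤ (Finset.univ.filter fun j => z j = z i).card := fun i hi =>
      Nat.le_of_dvd (Finset.card_pos.mpr ⟨i, by simp⟩) (hmult i hi)
    have honly : ∀ i, z i ≠ 1 → z i = z i₀ := by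
      intro i hi
      by_contra h
      have hd' : Disjoint (Finset.univ.filter fun j => z j = z i) (Finset.univ.filter fun j => z j = z i₀) := by
        refine Finset.disjoint_filter.mpr fun j _ h1 h2 => h (h1.symm.trans h2)
      have hle : (Finset.univ.filter fun j => z j = z i).card +
          (Finset.univ.filter fun j => z j = z i₀).card ≤ S.card := by
        rw [← Finset.card_union_of_disjoint hd']
        exact Finset.card_le_card (Finset.union_subset (fun j hj =>
          Finset.mem_filter.mpr ⟨Finset.mem_univ _, (Finset.mem_filter.mp hj).2 ▸ hi⟩) hsub)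
      have := hge i hi
      have := hge i₀ hi₀
      omega
    obtain ⟨c, hc⟩ := hmult i₀ hi₀
    have hc1 : c = 1 := by
      have h1 := Finset.card_le_card hsub
      have h2 := hge i₀ hi₀
      rw [hc] at h1 h2
      have h3 : p * c < p * 2 := by omega
      have h4 := Nat.lt_of_mul_lt_mul_left h3
      rcases Nat.eq_zero_or_pos c with h0 | h0
      · rw [h0] at h2; have := hp.pos; omega
      · omega
    rw [hc1, mul_one] at hc
    -- the determinant is trivial as the group is perfect
    let δ : G →* ℂˣ := (LinearMap.det.comp ρ).toHomUnits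
    have hδ : δ y = 1 := by
      have : y ∈ δ.ker := Abelianization.commutator_subset_ker δ (hperf ▸ Subgroup.mem_top y)
      exact this
    have hdet : ∏ i, z i = 1 := by
      have h1 : LinearMap.det (ρ y) = 1 := congrArg Units.val hδ
      rw [← h1, ← LinearMap.det_toMatrix b]
      rw [show LinearMap.toMatrix b b (ρ y) = Matrix.diagonal z from ?_, Matrix.det_diagonal]
      ext i j
      simp only [LinearMap.toMatrix_apply, hb]
      simp [Finsupp.single_apply, Matrix.diagonal_apply, eq_comm]
      split_ifs with h <;> simp [h]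
    have hprod : ∏ i, z i = z i₀ ^ p := by
      rw [← Finset.prod_filter_mul_prod_filter_not Finset.univ (fun i => z i = z i₀)]
      rw [Finset.prod_congr rfl (fun i hi => (Finset.mem_filter.mp hi).2), Finset.prod_const, hc,
        Finset.prod_eq_one, mul_one]
      intro i hi
      by_contra h
      exact (Finset.mem_filter.mp hi).2 (honly i h)
    have h1 := pow_gcd_eq_one.mpr ⟨hprod.symm.trans hdet, hz i₀⟩
    rw [Nat.Coprime.gcd_eq_one (hp.coprime_iff_not_dvd.mpr hyp), pow_one] at h1
    exact hi₀ h1
  refine hfaith y ?_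
  have h := hsum 1
  rw [pow_one] at h
  rw [h, hd1]
  simp only [hall, one_pow, Finset.sum_const, Finset.card_univ, Fintype.card_fin, nsmul_eq_mul, mul_one, hdim]

end Cfsg.Agent.S4729
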