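import Cfsg.Statements.S4730
import Cfsg.Agent.BlockChar.RankBounds
import Cfsg.Agent.Blocks.SimpleAux

set_option autoImplicit false
open Cfsg Cfsg.Agent Cfsg.Agent.BlockChar Cfsg.Agent.Blocks

namespace Cfsg.Agent.S4730

/-- Let p be a prime, M a maximal ideal of the algebraic integers containing p, and G a finite group with trivial centre, Sylow p-subgroup P of order p^a and centre Z(P) of order p^b. If χ is a faithful irreducible character of G whose degree is a power of p, then the p-block of χ has defect at most a − b; in particular, if P is abelian then χ lies in a block of defect zero. -/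
theorem result {G : Type*} [Group G] [Finite G] (p : ℕ) [Fact p.Prime] (M : Ideal Cfsg.AlgInt) (hM : Cfsg.IsPModular p M) (hZ : Subgroup.center G = ⊥) (P : Sylow p G) (a b : ℕ) (ha : Nat.card P = p ^ a) (hb : Nat.card (Subgroup.center ↥(P : Subgroup G)) = p ^ b) (χ : Cfsg.IrrCharacter G) (hfaith : ∀ g : G, (χ : G → ℂ) g = (χ : G → ℂ) 1 → g = 1) (n : ℕ) (hdeg : Cfsg.charDegree (χ : G → ℂ) = p ^ n) : Cfsg.blockDefect p (Cfsg.blockOf M (χ : G → ℂ)) ≤ a - b ∧ (IsMulCommutative ↥(P : Subgroup G) → Cfsg.blockDefect p (Cfsg.blockOf M (χ : G → ℂ)) = 0) := by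
  classical
  haveI := hM.2.1
  haveI := Fintype.ofFinite G
  have hpM := hM.2.2
  set Z : Subgroup G := (Subgroup.center ↥(P : Subgroup G)).map (P : Subgroup G).subtype with hZdef
  have hZc : Nat.card Z = p ^ b := by
    rw [← hb]
    exact Nat.card_congr
      ((Subgroup.center _).equivMapOfInjective _ (P : Subgroup G).subtype_injective).symm.toEquiv
  letI := Fintype.ofFinite Z
  have hidx : ∀ z ∈ Z, ¬ p ∣ (Subgroup.centralizer ({z} : Set G)).index := by
    intro z hz
    obtain ⟨z', hz', rfl⟩ := hz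
    have hle : (P : Subgroup G) ≤ Subgroup.centralizer ({(z' : G)} : Set G) := fun x hx =>
      Subgroup.mem_centralizer_singleton_iff.mpr
        (congrArg Subtype.val (Subgroup.mem_center_iff.mp hz' ⟨x, hx⟩))
    exact fun hd => P.not_dvd_index (hd.trans (Subgroup.index_dvd_of_le hle))
  have hvan : ∀ z ∈ Z, z ≠ 1 → (χ : G → ℂ) z = 0 := by
    intro z hz hz1
    by_contra h0
    obtain ⟨k, ρ, hi, hρ⟩ := χ.2
    have hfin : charDegree (χ : G → ℂ) = Module.finrank ℂ (Fin k → ℂ) := by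
      simp [charDegree, ← hρ, Representation.char_one]
    have hcop : (Module.finrank ℂ (Fin k → ℂ)).Coprime
        (Subgroup.centralizer ({z} : Set G)).index := by
      rw [← hfin, hdeg]
      exact Nat.Coprime.pow_left n ((Fact.out : p.Prime).coprime_iff_not_dvd.mpr (hidx z hz))
    rw [← hρ] at h0
    have hnorm := FGS2.norm_char_eq_of_coprime ρ z h0 hcop
    obtain ⟨c, hc⟩ : z ∈ Chars2.scalarSub ρ := (Chars.rep_norm_char_eq_iff ρ z).1 hnorm
    refine hz1 ?_
    rw [← Subgroup.mem_bot, ← hZ, Subgroup.mem_center_iff]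
    intro x
    have hker : ρ (x * z * x⁻¹ * z⁻¹) = 1 := by
      rw [map_mul, map_mul, map_mul]
      have hz' : ρ z * ρ z⁻¹ = 1 := by rw [← map_mul, mul_inv_cancel, map_one]
      have hx' : ρ x * ρ x⁻¹ = 1 := by rw [← map_mul, mul_inv_cancel, map_one]
      calc ρ x * ρ z * ρ x⁻¹ * ρ z⁻¹ = c • (ρ x * ρ x⁻¹) * ρ z⁻¹ := by
            rw [hc, mul_smul_comm, mul_one, smul_mul_assoc]
        _ = ρ z * ρ z⁻¹ := by rw [hx', ← hc]
        _ = 1 := hz'
    have h1 : x * z * x⁻¹ * z⁻¹ = 1 := by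
      refine hfaith _ ?_
      rw [← hρ]
      show LinearMap.trace ℂ _ (ρ _) = LinearMap.trace ℂ _ (ρ 1)
      rw [hker, map_one ρ]
    calc x * z = x * z * x⁻¹ * z⁻¹ * z * x := by group
      _ = z * x := by rw [h1, one_mul]
  set B := blockOf M (χ : G → ℂ) with hBdef
  have hB : IsPBlock M B := isPBlock_blockOf χ
  obtain ⟨ψ, hψ, h0⟩ := exists_height_zero (p := p) hB
  have hψ1 : (ψ : G → ℂ) 1 ≠ 0 := Chars.irr_apply_one_ne_zero ψ.2
  have ht : ∀ z ∈ Z, z ≠ 1 → MemLocalIdeal M ((ψ : G → ℂ) z / (ψ : G → ℂ) 1) := by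
    intro z hz hz1
    have h := sameBlock_of_mem hB hψ (mem_blockOf_self χ) z
    have hi : MemLocalIdeal M (centralChar (ψ : G → ℂ) z) := by
      simpa [centralChar, hvan z hz hz1] using h
    have hne : ((Subgroup.centralizer ({z} : Set G)).index : ℂ) ≠ 0 :=
      Nat.cast_ne_zero.mpr Subgroup.index_ne_zero_of_finite
    rw [show (ψ : G → ℂ) z / (ψ : G → ℂ) 1 =
      ((Subgroup.centralizer ({z} : Set G)).index : ℂ)⁻¹ * centralChar (ψ : G → ℂ) z by
        unfold centralChar; field_simp]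
    exact memI_mul_left (memR_inv_natCast hpM (hidx z hz)) hi
  set v := (charDegree (ψ : G → ℂ)).factorization p with hv
  have hbv : b ≤ v := by
    by_contra hlt
    push Not at hlt
    obtain ⟨m, hm⟩ := Chars.exists_classInner_eq_nat
      (Chars.isCharacter_restrict (Chars.irr_isCharacter ψ) Z) (Chars.isCharacter_one (G := Z))
    rw [Chars.classInner_def, hZc] at hm
    simp only [map_one, mul_one] at hm
    have hpb : ((p ^ b : ℕ) : ℂ) ≠ 0 :=
      Nat.cast_ne_zero.mpr (pow_ne_zero _ (Fact.out : p.Prime).ne_zero)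
    rw [inv_mul_eq_iff_eq_mul₀ hpb] at hm
    set U : ℂ := ∑ z : Z, (ψ : G → ℂ) z / (ψ : G → ℂ) 1 with hU
    have hU1 : MemLocalIdeal M (U - 1) := by
      rw [hU, ← Finset.add_sum_erase _ _ (Finset.mem_univ (1 : Z)), OneMemClass.coe_one,
        div_self hψ1, add_sub_cancel_left]
      refine memI_sum _ _ fun z hz => ht z z.2 fun h => (Finset.mem_erase.mp hz).1 (Subtype.ext h)
    refine not_memI_one ((memI_iff_of_sub hU1).1 ?_)
    have hd0 : 0 < charDegree (ψ : G → ℂ) := (charDegree_eq ψ.2).2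
    have hd : ¬ p ∣ charDegree (ψ : G → ℂ) / p ^ v :=
      Nat.not_dvd_ordCompl (Fact.out : p.Prime) hd0.ne'
    have hval : U = (p : ℂ) * (((p ^ (b - v - 1) * m : ℕ) : ℂ) *
        ((charDegree (ψ : G → ℂ) / p ^ v : ℕ) : ℂ)⁻¹) := by
      rw [hU, ← Finset.sum_div, hm, (charDegree_eq ψ.2).1]
      have hdd : (charDegree (ψ : G → ℂ) : ℂ) =
          (p : ℂ) ^ v * ((charDegree (ψ : G → ℂ) / p ^ v : ℕ) : ℂ) := by
        rw [← Nat.cast_pow, ← Nat.cast_mul, hv, Nat.ordProj_mul_ordCompl_eq_self]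
      have hpow : (p : ℂ) ^ b = (p : ℂ) ^ v * ((p : ℂ) * (p : ℂ) ^ (b - v - 1)) := by
        rw [← pow_succ', ← pow_add]; congr 1; omega
      have hdd0 : ((charDegree (ψ : G → ℂ) / p ^ v : ℕ) : ℂ) ≠ 0 :=
        Nat.cast_ne_zero.mpr fun h => hd (by rw [h]; exact dvd_zero p)
      have hp0 : (p : ℂ) ^ v ≠ 0 := pow_ne_zero _ (Nat.cast_ne_zero.mpr (Fact.out : p.Prime).ne_zero)
      rw [hdd]
      push_cast
      rw [hpow]
      field_simp
    rw [hval]
    exact memI_mul_right ((memI_natCast_iff hpM p).2 dvd_rfl)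
      (memR_mul (memR_natCast _) (memR_inv_natCast hpM hd))
  have hdeq := degree_eq_height hpM hB hψ
  rw [h0, add_zero, ← hv] at hdeq
  have hGa : (Nat.card G).factorization p = a := by
    have h := P.card_eq_multiplicity
    rw [ha] at h
    exact (Nat.pow_right_injective (Fact.out : p.Prime).two_le h).symm
  refine ⟨by omega, fun hcomm => ?_⟩
  haveI := hcomm
  have hab : b = a := by
    have hc : Subgroup.center ↥(P : Subgroup G) = ⊤ := top_le_iff.mp fun x _ =>
      Subgroup.mem_center_iff.mpr fun g => mul_comm' g x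
    rw [hc, Subgroup.card_top, ha] at hb
    exact (Nat.pow_right_injective (Fact.out : p.Prime).two_le hb).symm
  omega

end Cfsg.Agent.S4730
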