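import Cfsg.Statements.S4731
import Cfsg.Agent.BlockChar.Subsection
import Cfsg.Agent.DegreeGraph.Values

set_option autoImplicit false
open Cfsg Cfsg.Agent Cfsg.Agent.BlockChar

namespace Cfsg.Agent.S4731

/-- Let p ≠ q be primes, M_p and M_q maximal ideals of the algebraic integers containing p and q respectively, and G a finite group with no element of order pq; let q^b be the q-part of the order of G. For a p-block B_p (relative to M_p), a q-block B_q (relative to M_q) and a p-singular element y, the sum of χ(1)χ(y) over the irreducible characters χ lying in both B_p and B_q is q^b times an algebraic integer. -/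
theorem result {G : Type*} [Group G] [Finite G] (p q : ℕ) [Fact p.Prime] [Fact q.Prime] (hpq : p ≠ q) (Mp Mq : Ideal Cfsg.AlgInt) (hMp : Cfsg.IsPModular p Mp) (hMq : Cfsg.IsPModular q Mq) (hno : ∀ g : G, orderOf g ≠ p * q) (b : ℕ) (hb : (Nat.card G).factorization q = b) (Bp : Set (Cfsg.IrrCharacter G)) (hBp : Cfsg.IsPBlock Mp Bp) (Bq : Set (Cfsg.IrrCharacter G)) (hBq : Cfsg.IsPBlock Mq Bq) (y : G) (hy : p ∣ orderOf y) : ∃ ω : Cfsg.AlgInt, ∑ᶠ χ ∈ Bp ∩ Bq, (Cfsg.charDegree (χ : G → ℂ) : ℂ) * (χ : G → ℂ) y = (q : ℂ) ^ b * (ω : ℂ) := by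
  classical
  haveI := hMp.2.1
  haveI := hMq.2.1
  haveI := Fintype.ofFinite G
  obtain ⟨Q⟩ := (inferInstance : Nonempty (Sylow q G))
  haveI := Fintype.ofFinite (Q : Subgroup G)
  choose n hn using fun χ : Cfsg.IrrCharacter G => Chars.exists_classInner_eq_nat
    (Chars.isCharacter_restrict (Chars.irr_isCharacter χ) (Q : Subgroup G))
    (Chars.irr_isCharacter (Blocks.oneChar (Q : Subgroup G)))
  have hzero : ∀ x : G, q ∣ orderOf x →
      ∑ φ ∈ bf Bq ∩ bf Bp, (φ : G → ℂ) y * (starRingEnd ℂ) ((φ : G → ℂ) x) = 0 := by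
    intro x hx
    rw [← sum_kerB_mul Bp Bq y x, Finset.sum_eq_zero (fun c _ => ?_), mul_zero]
    by_cases hc : p ∣ orderOf c
    · rw [kerB_eq_zero (p := q) hMq.2.2 hBq, mul_zero]
      intro h
      have hcq : ¬ q ∣ orderOf c := fun hq =>
        hno (c ^ (orderOf c / (p * q))) (orderOf_pow_orderOf_div (orderOf_pos c).ne'
          (Nat.Coprime.mul_dvd_of_dvd_of_dvd ((Nat.coprime_primes Fact.out Fact.out).2 hpq) hc hq))
      exact Blocks.ppart_one_iff.1 (isConj_one_right.1 (by rwa [Blocks.ppart_one_iff.2 hcq] at h)) hx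
    · rw [kerB_eq_zero (p := p) hMp.2.2 hBp, zero_mul]
      intro h
      exact Blocks.ppart_one_iff.1
        (isConj_one_left.1 (by rwa [Blocks.ppart_one_iff.2 hc] at h)) hy
  refine ⟨⟨∑ φ ∈ bf Bq ∩ bf Bp, (φ : G → ℂ) y * (n φ : ℂ), ?_⟩, ?_⟩
  · exact IsIntegral.sum _ fun φ _ =>
      (DegreeGraph.isIntegral_value (Chars.irr_isCharacter φ) y).mul (isIntegral_natCast _)
  · have hQ : Nat.card (Q : Subgroup G) = q ^ b := by rw [Q.card_eq_multiplicity, hb]
    show _ = (q : ℂ) ^ b * ∑ φ ∈ bf Bq ∩ bf Bp, (φ : G → ℂ) y * (n φ : ℂ)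
    rw [← Nat.cast_pow, ← hQ, Finset.mul_sum,
      finsum_mem_eq_sum_of_inter_support_eq (t := bf Bq ∩ bf Bp) _ (by
        ext χ; simp; tauto)]
    have h1 : ∀ φ : Cfsg.IrrCharacter G, (Nat.card (Q : Subgroup G) : ℂ) * ((φ : G → ℂ) y * (n φ : ℂ)) =
        ∑ w : (Q : Subgroup G), (φ : G → ℂ) y * (starRingEnd ℂ) ((φ : G → ℂ) (w : G)) := by
      intro φ
      have h := hn φ
      rw [Chars.classInner_def, inv_mul_eq_iff_eq_mul₀ Chars.card_ne_zero] at h
      have h' := congrArg (starRingEnd ℂ) h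
      rw [map_sum, map_mul, map_natCast, map_natCast] at h'
      rw [mul_left_comm, ← h', Finset.mul_sum]
      refine Finset.sum_congr rfl fun w _ => ?_
      simp [Blocks.oneChar]
    rw [Finset.sum_congr rfl fun φ _ => h1 φ, Finset.sum_comm,
      Finset.sum_eq_single (1 : (Q : Subgroup G))]
    · refine Finset.sum_congr rfl fun φ _ => ?_
      rw [OneMemClass.coe_one, Chars.irr_apply_one_conj (Chars.irr_isCharacter φ),
        (Blocks.charDegree_eq φ.2).1, mul_comm]
    · intro w _ hw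
      refine hzero w ?_
      obtain ⟨k, hk⟩ := IsPGroup.iff_orderOf.1 Q.isPGroup' w
      rw [Subgroup.orderOf_coe, hk]
      refine dvd_pow_self q fun h0 => hw ?_
      rw [← orderOf_eq_one_iff, hk, h0, pow_zero]
    · simp

end Cfsg.Agent.S4731
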