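import Cfsg.Statements.S4732
import Cfsg.Agent.Blocks.BrauerFeit
-- import your own Cfsg.Agent.* helpers here

set_option autoImplicit false
universe u v
open Cfsg

namespace Cfsg.Agent.S4732

/-- Let p be a prime. There is a function f of two natural-number arguments such that every finite group G admitting a faithful representation of degree n over a field of characteristic p, with Sylow p-subgroups of order p^m, has a normal abelian subgroup A with [G : A] < f(m, n). -/
theorem result (p : ℕ) [Fact p.Prime] : ∃ f : ℕ → ℕ → ℕ, ∀ (G : Type u) [Group G] [Finite G] (F : Type v) [Field F] [CharP F p] (n : ℕ) (ρ : Representation F G (Fin n → F)), Function.Injective ρ → ∀ m : ℕ, (Nat.card G).factorization p = m → ∃ A : Subgroup G, A.Normal ∧ IsMulCommutative A ∧ A.index < f m n := by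
  choose f hf using fun m n => Cfsg.Agent.BrauerFeit.exists_good.{u, v} p m n
  refine ⟨fun m n => f m n + 1, fun G _ _ F _ _ n ρ hρ m hm => ?_⟩
  classical
  let K := AlgebraicClosure F
  have : CharP K p := charP_of_injective_algebraMap (algebraMap F K).injective p
  let e₁ := (LinearMap.toMatrixAlgEquiv' (R := F) (n := Fin n))
  let e₂ := (Matrix.toLinAlgEquiv' (R := K) (n := Fin n))
  let μ : Module.End F (Fin n → F) →* Module.End K (Fin n → K) :=
    { toFun := fun x => e₂ ((e₁ x).map (algebraMap F K))
      map_one' := by rw [map_one, Matrix.map_one _ (map_zero _) (map_one _), map_one]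
      map_mul' := fun x y => by rw [map_mul, Matrix.map_mul, map_mul] }
  have hμ : Function.Injective μ :=
    e₂.injective.comp ((Matrix.map_injective (algebraMap F K).injective).comp e₁.injective)
  obtain ⟨A, hA, hAc, hAi⟩ := hf m n G K (Fin n → K) (μ.comp ρ) (hμ.comp hρ)
    (Module.finrank_fin_fun K) (le_of_eq hm)
  exact ⟨A, hA, hAc, Nat.lt_succ_of_le hAi⟩

end Cfsg.Agent.S4732
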