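import Cfsg.Statements.S4735
import Cfsg.Agent.Blocks.PrincipalGalois
import Cfsg.Agent.Core.Cores
-- import your own Cfsg.Agent.* helpers here

set_option autoImplicit false
open Cfsg

namespace Cfsg.Agent.S4735

/-- Let p be a prime, M a maximal ideal of the algebraic integers containing p, G a finite group, H = O_p'(G) and Ḡ = G/H. For x ∈ G write λ(G, x) for the sum of |χ(x)|^2 over the irreducible characters χ in the principal p-block of G. Then λ(G, x) is a positive integer, λ(G, x) = λ(Ḡ, x̄) where x̄ is the image of x, and λ(G, x) ≤ #C_Ḡ(x̄). Moreover λ(G, 1) = [G : H] if and only if the principal block is the only p-block of Ḡ. -/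
theorem result {G : Type*} [Group G] [Finite G] (p : ℕ) [Fact p.Prime] (M : Ideal Cfsg.AlgInt) (hM : Cfsg.IsPModular p M) (x : G) : (∃ n : ℕ, 0 < n ∧ ∑ᶠ χ ∈ Cfsg.principalBlock M G, Complex.normSq ((χ : G → ℂ) x) = n) ∧ ∑ᶠ χ ∈ Cfsg.principalBlock M G, Complex.normSq ((χ : G → ℂ) x) = ∑ᶠ ψ ∈ Cfsg.principalBlock M (G ⧸ Cfsg.pPrimeCore p G), Complex.normSq ((ψ : G ⧸ Cfsg.pPrimeCore p G → ℂ) (QuotientGroup.mk x)) ∧ ∑ᶠ χ ∈ Cfsg.principalBlock M G, Complex.normSq ((χ : G → ℂ) x) ≤ (Nat.card ↥(Subgroup.centralizer ({(QuotientGroup.mk x : G ⧸ Cfsg.pPrimeCore p G)} : Set (G ⧸ Cfsg.pPrimeCore p G))) : ℝ) ∧ ((∑ᶠ χ ∈ Cfsg.principalBlock M G, Cfsg.charDegree (χ : G → ℂ) ^ 2) = (Cfsg.pPrimeCore p G).index ↔ ∀ B : Set (Cfsg.IrrCharacter (G ⧸ Cfsg.pPrimeCore p G)), Cfsg.IsPBlock M B → B = Cfsg.principalBlock M (G ⧸ Cfsg.pPrimeCore p G)) := by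
  classical
  haveI : M.IsMaximal := hM.2.1
  have hpM : (p : Cfsg.AlgInt) ∈ M := hM.2.2
  haveI : Fintype G := Fintype.ofFinite G
  haveI : Fintype (G ⧸ Cfsg.pPrimeCore p G) := Fintype.ofFinite _
  have hN : ¬ p ∣ Nat.card (Cfsg.pPrimeCore p G) :=
    (Fact.out : p.Prime).coprime_iff_not_dvd.1 (Cfsg.Agent.Core.card_pPrimeCore_coprime p G).symm
  rw [Cfsg.Agent.Blocks.finsum_mem_eq_filter, Cfsg.Agent.Blocks.finsum_mem_eq_filter,
    Cfsg.Agent.Blocks.finsum_mem_eq_filter]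
  have h2 := Cfsg.Agent.Blocks.sum_principal_quotient (M := M) (Cfsg.pPrimeCore p G) hpM hN
    (fun χ => Complex.normSq (χ x))
  refine ⟨Cfsg.Agent.Blocks.sum_normSq_principal_int hpM x, h2, ?_, ?_⟩
  · rw [h2]
    set q : G ⧸ Cfsg.pPrimeCore p G := QuotientGroup.mk x with hq
    have hcol := Cfsg.Agent.Chars.column_orth q q
    rw [if_pos (IsConj.refl q)] at hcol
    simp only [Complex.mul_conj, ← Complex.ofReal_sum, ← Complex.ofReal_natCast] at hcol
    rw [← Complex.ofReal_inj.1 hcol]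
    exact Finset.sum_le_sum_of_subset_of_nonneg (Finset.filter_subset _ _)
      fun _ _ _ => Complex.normSq_nonneg _
  · have h3 := Cfsg.Agent.Blocks.sum_principal_quotient (M := M) (Cfsg.pPrimeCore p G) hpM hN
      (fun χ => Cfsg.charDegree χ ^ 2)
    rw [h3]
    have hdeg : ∀ ψ : Cfsg.IrrCharacter (G ⧸ Cfsg.pPrimeCore p G),
        Cfsg.charDegree ((ψ : G ⧸ Cfsg.pPrimeCore p G → ℂ) ∘ QuotientGroup.mk) =
          Cfsg.charDegree (ψ : G ⧸ Cfsg.pPrimeCore p G → ℂ) := fun ψ => by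
      simp [Cfsg.charDegree]
    simp only [hdeg]
    have htot : ∑ ψ : Cfsg.IrrCharacter (G ⧸ Cfsg.pPrimeCore p G),
        Cfsg.charDegree (ψ : G ⧸ Cfsg.pPrimeCore p G → ℂ) ^ 2 = (Cfsg.pPrimeCore p G).index := by
      have hcol := Cfsg.Agent.Chars.column_orth (1 : G ⧸ Cfsg.pPrimeCore p G) 1
      rw [if_pos (IsConj.refl _)] at hcol
      have hc : Nat.card (Subgroup.centralizer ({1} : Set (G ⧸ Cfsg.pPrimeCore p G))) =
          (Cfsg.pPrimeCore p G).index := by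
        rw [show Subgroup.centralizer ({1} : Set (G ⧸ Cfsg.pPrimeCore p G)) = ⊤ from
          eq_top_iff.2 fun g _ => Subgroup.mem_centralizer_singleton_iff.2 (by simp),
          Subgroup.card_top]
        rfl
      rw [hc] at hcol
      have : ∀ ψ : Cfsg.IrrCharacter (G ⧸ Cfsg.pPrimeCore p G),
          (ψ : G ⧸ Cfsg.pPrimeCore p G → ℂ) 1 *
            (starRingEnd ℂ) ((ψ : G ⧸ Cfsg.pPrimeCore p G → ℂ) 1) =
          ((Cfsg.charDegree (ψ : G ⧸ Cfsg.pPrimeCore p G → ℂ) ^ 2 : ℕ) : ℂ) := fun ψ => by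
        rw [(Cfsg.Agent.Blocks.charDegree_eq ψ.2).1, Complex.conj_natCast, Nat.cast_pow, sq]
      simp only [this] at hcol
      exact_mod_cast hcol
    rw [← htot]
    constructor
    · intro h B hB
      obtain ⟨ψ, hψ⟩ := Cfsg.Agent.Blocks.block_nonempty hB
      refine Cfsg.Agent.Blocks.blocks_eq_of_inter hB Cfsg.Agent.Blocks.isPBlock_principal hψ ?_
      by_contra hn
      refine absurd h (ne_of_lt ?_)
      refine Finset.sum_lt_sum_of_subset (Finset.filter_subset _ _) (Finset.mem_univ ψ)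
        (fun hc => hn (Finset.mem_filter.1 hc).2) ?_ (fun _ _ _ => Nat.zero_le _)
      have := (Cfsg.Agent.Blocks.charDegree_eq ψ.2).2
      positivity
    · intro h
      refine Finset.sum_congr (Finset.filter_eq_self.2 fun ψ _ => ?_) fun _ _ => rfl
      rw [← h _ (Cfsg.Agent.Blocks.isPBlock_blockOf ψ)]
      exact Cfsg.Agent.Blocks.mem_blockOf_self ψ

end Cfsg.Agent.S4735
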