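import Cfsg.Statements.S4736
import Cfsg.Agent.Blocks.Inflate
import Cfsg.Agent.S4713
import Cfsg.Agent.Blocks.Covering
-- import your own Cfsg.Agent.* helpers here

set_option autoImplicit false
open Cfsg

namespace Cfsg.Agent.S4736

/-- Let p be a prime, M a maximal ideal of the algebraic integers containing p, and G a finite p-solvable group with Sylow p-subgroup P. Then P is abelian if and only if every irreducible character in the principal p-block of G has height zero. -/
theorem result {G : Type*} [Group G] [Finite G] (p : ℕ) [Fact p.Prime] (M : Ideal Cfsg.AlgInt) (hM : Cfsg.IsPModular p M) (hsolv : Cfsg.IsPSolvable p G) (P : Sylow p G) : IsMulCommutative P ↔ ∀ χ ∈ Cfsg.principalBlock M G, Cfsg.blockHeight p (Cfsg.principalBlock M G) (χ : G → ℂ) = 0 := by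
  classical
  letI : Fintype G := Fintype.ofFinite G
  haveI : M.IsMaximal := hM.2.1
  have hpM : (p : Cfsg.AlgInt) ∈ M := hM.2.2
  have hp := (Fact.out : p.Prime)
  set O := Cfsg.pPrimeCore p G
  have hπ := QuotientGroup.mk'_surjective O
  set π := QuotientGroup.mk' O
  let Pb : Sylow p (G ⧸ O) := P.mapSurjective hπ
  have hsolvb := Agent.Core.isPSolvable_quotient hsolv O
  have hiso : IsMulCommutative P ↔ IsMulCommutative Pb := by
    have hcomm : ∀ a ∈ (P : Subgroup G), ∀ b ∈ (P : Subgroup G),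
        π a * π b = π b * π a → a * b = b * a := by
      intro a ha b hb h
      have hm : (b * a)⁻¹ * (a * b) ∈ O := QuotientGroup.eq.1 (by
        simpa only [π, QuotientGroup.mk'_apply, QuotientGroup.mk_mul] using h.symm)
      obtain ⟨k, hk⟩ := P.isPGroup' ⟨_, mul_mem (inv_mem (mul_mem hb ha)) (mul_mem ha hb)⟩
      have e1 : ((b * a)⁻¹ * (a * b)) ^ p ^ k = 1 := by simpa using congrArg Subtype.val hk
      have e2 : ((b * a)⁻¹ * (a * b)) ^ Nat.card O = 1 := by
        exact congrArg Subtype.val (pow_card_eq_one' (x := (⟨_, hm⟩ : O)))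
      have h3 := pow_gcd_eq_one.2 ⟨e1, e2⟩
      rw [((Agent.Core.card_pPrimeCore_coprime p G).symm.pow_left k).gcd_eq_one, pow_one,
        inv_mul_eq_one] at h3
      exact h3.symm
    constructor
    · intro h
      refine ⟨⟨?_⟩⟩
      rintro ⟨_, a, ha, rfl⟩ ⟨_, b, hb, rfl⟩
      apply Subtype.ext
      show π a * π b = π b * π a
      rw [← map_mul, ← map_mul]
      exact congrArg π (congrArg Subtype.val (h.1.1 ⟨a, ha⟩ ⟨b, hb⟩))
    · intro h
      refine ⟨⟨fun a b => Subtype.ext (hcomm a a.2 b b.2 ?_)⟩⟩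
      exact congrArg Subtype.val (h.1.1 ⟨π a, a, a.2, rfl⟩ ⟨π b, b, b.2, rfl⟩)
  have hinf : sInf ((fun ψ : Cfsg.IrrCharacter G => (Cfsg.charDegree (ψ : G → ℂ)).factorization p) ''
      Cfsg.principalBlock M G) = 0 := by
    refine Nat.eq_zero_of_le_zero (Nat.sInf_le ?_)
    exact ⟨Blocks.oneChar G, Blocks.one_mem_principal, by simp [Cfsg.charDegree, Blocks.coe_oneChar]⟩
  have hht : ∀ χ : Cfsg.IrrCharacter G, Cfsg.blockHeight p (Cfsg.principalBlock M G) (χ : G → ℂ) = 0 ↔
      ¬ p ∣ Cfsg.charDegree (χ : G → ℂ) := by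
    intro χ
    rw [Cfsg.blockHeight, hinf, Nat.sub_zero, Nat.factorization_eq_zero_iff]
    simp [hp, (Blocks.charDegree_eq χ.2).2.ne']
  have hB := Blocks.principalBlock_pSolvable (M := M) hpM hsolv
  have key : (∀ χ ∈ Cfsg.principalBlock M G, Cfsg.blockHeight p (Cfsg.principalBlock M G) (χ : G → ℂ) = 0) ↔
      ((Pb : Subgroup (G ⧸ O)).Normal ∧ IsMulCommutative Pb) := by
    rw [Cfsg.Agent.S4713.result p hsolvb Pb]
    constructor
    · intro h χb
      have hi := Agent.Chars.isIrrCharacter_comp_surjective χb.2 π hπ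
      have hmem : (⟨_, hi⟩ : Cfsg.IrrCharacter G) ∈ Cfsg.principalBlock M G := by
        rw [hB]
        intro n hn
        show (χb : G ⧸ O → ℂ) (π n) = (χb : G ⧸ O → ℂ) (π 1)
        rw [map_one, show π n = 1 from (QuotientGroup.eq_one_iff n).2 hn]
      simpa [Cfsg.charDegree, Function.comp_apply] using (hht _).1 (h _ hmem)
    · intro h χ hχ
      rw [hht]
      rw [hB] at hχ
      obtain ⟨χb, hχb⟩ := Blocks.exists_descend χ.2 hχ
      have := h χb
      rw [show Cfsg.charDegree (χ : G → ℂ) = Cfsg.charDegree (χb : G ⧸ O → ℂ) by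
        rw [Cfsg.charDegree, Cfsg.charDegree, hχb, Function.comp_apply, QuotientGroup.mk_one]]
      exact this
  rw [key]
  constructor
  · intro hab
    have hab' := hiso.1 hab
    refine ⟨?_, hab'⟩
    have hO := Agent.Core.pPrimeCore_quotient_pPrimeCore p G
    have hle := Agent.Core.centralizer_pCore_le hsolvb hO
    have hge : Cfsg.pCore p (G ⧸ O) ≤ (Pb : Subgroup (G ⧸ O)) := Agent.Core.pCore_le_sylow Pb
    have heq : (Pb : Subgroup (G ⧸ O)) = Cfsg.pCore p (G ⧸ O) := by
      refine le_antisymm (fun x hx => hle ?_) hge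
      rw [Subgroup.mem_centralizer_iff]
      intro y hy
      exact congrArg Subtype.val (hab'.1.1 ⟨y, hge hy⟩ ⟨x, hx⟩)
    rw [heq]
    infer_instance
  · exact fun h => hiso.2 h.2

end Cfsg.Agent.S4736
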