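import Cfsg.Statements.S4955
import Cfsg.Agent.Chars.Orth
import Cfsg.Agent.DegreeGraph.GaloisMean
import Cfsg.Agent.DegreeGraph.AbelianNormal
import Mathlib.GroupTheory.Complement
import Mathlib.Data.ZMod.Units
-- import your own Cfsg.Agent.* helpers here

set_option autoImplicit false
open Cfsg

namespace Cfsg.Agent.S4955

/-- Let X be a finite group with an abelian normal Sylow p-subgroup V (a normal p-subgroup of index prime to p in which any two elements commute), and let G be a complement to V in X. Then for every v in V, writing C for the centralizer of v in G, the number k(X) of conjugacy classes of X satisfies k(X) ≤ (order of C)·(order of V) − ((order of G) − k(G)); the statement is written with the subtracted term moved to the left. In particular, if some v in V is centralized by no nonidentity element of G, then k(X) is at most the order of V. -/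
theorem result {X : Type*} [Group X] [Finite X] (p : ℕ) [Fact p.Prime] (V : Subgroup X) [V.Normal] (hVp : IsPGroup p V) (hidx : ¬ p ∣ V.index) (hab : ∀ a ∈ V, ∀ b ∈ V, a * b = b * a) (G : Subgroup X) (hGV : Subgroup.IsComplement' V G) (v : X) (hv : v ∈ V) : Nat.card (ConjClasses X) + Nat.card G ≤ Nat.card ↥(G ⊓ Subgroup.centralizer ({v} : Set X)) * Nat.card V + Nat.card (ConjClasses G) := by
  classical
  have := Fintype.ofFinite X
  have := Fintype.ofFinite G
  let n := Nat.card X
  have : NeZero n := ⟨Nat.card_pos.ne'⟩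
  -- inflation from the complement
  have hsup : V ⊔ G = ⊤ := hGV.sup_eq_top
  let proj : ↥G →* X ⧸ V := (QuotientGroup.mk' V).comp G.subtype
  have hbij : Function.Bijective proj := by
    constructor
    · intro a b h
      simp only [proj, MonoidHom.coe_comp, QuotientGroup.coe_mk', Subgroup.coe_subtype,
        Function.comp_apply, QuotientGroup.eq] at h
      exact Subtype.ext (inv_mul_eq_one.mp (Subgroup.disjoint_def.mp hGV.disjoint h
        (G.mul_mem (G.inv_mem a.2) b.2)))
    · intro q
      obtain ⟨x, rfl⟩ := QuotientGroup.mk_surjective q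
      obtain ⟨⟨a, g⟩, rfl⟩ := hGV.2 x
      exact ⟨g, by simp [proj, (QuotientGroup.eq_one_iff (a : X)).mpr a.2]⟩
  let π : X →* ↥G := (MulEquiv.ofBijective proj hbij).symm.toMonoidHom.comp (QuotientGroup.mk' V)
  have hπV : ∀ a ∈ V, π a = 1 := fun a ha => by
    simp [π, (QuotientGroup.eq_one_iff a).mpr ha]
  have hπG : ∀ g : ↥G, π g = g := fun g => (MulEquiv.ofBijective proj hbij).symm_apply_apply g
  have hπs : Function.Surjective π := fun g => ⟨g, hπG g⟩
  let infl : Cfsg.IrrCharacter ↥G → Cfsg.IrrCharacter X := fun θ =>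
    ⟨(θ : ↥G → ℂ) ∘ π, Cfsg.Agent.Chars.isIrrCharacter_comp_surjective θ.2 π hπs⟩
  have hinfl : Function.Injective infl := fun θ θ' h => Subtype.ext <| funext fun g => by
    have := congrFun (congrArg Subtype.val h) (g : X)
    simpa [infl, hπG] using this
  let B : Finset (Cfsg.IrrCharacter X) := Finset.univ.image infl
  let A : Finset (Cfsg.IrrCharacter X) := Bᶜ
  have hcardA : (A.card : ℝ) + Nat.card (ConjClasses ↥G) = Nat.card (ConjClasses X) := by
    rw [← Cfsg.Agent.Chars.card_irr_eq_card_conjClasses, ← Cfsg.Agent.Chars.card_irr_eq_card_conjClasses,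
      Nat.card_eq_fintype_card, Nat.card_eq_fintype_card, ← Nat.cast_add]
    congr 1
    have : B.card = Fintype.card (Cfsg.IrrCharacter ↥G) := by
      rw [Finset.card_image_of_injective _ hinfl, Finset.card_univ]
    rw [← this, add_comm, Finset.card_add_card_compl]
  -- the centralizer of a power of v
  have hcent : ∀ u : (ZMod n)ˣ, Subgroup.centralizer ({v ^ (u : ZMod n).val} : Set X) =
      Subgroup.centralizer ({v} : Set X) := by
    intro u
    ext x
    simp only [Subgroup.mem_centralizer_singleton_iff]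
    refine ⟨fun h => ?_, fun h => (show Commute x v from h).pow_right _⟩
    obtain ⟨m, hm⟩ := exists_pow_eq_self_of_coprime
      (Nat.Coprime.coprime_dvd_right (orderOf_dvd_natCard v) (ZMod.val_coe_unit_coprime u))
    rw [← hm]
    exact (show Commute x _ from h).pow_right m
  have hC : Nat.card ↥(Subgroup.centralizer ({v} : Set X)) =
      Nat.card V * Nat.card ↥(G ⊓ Subgroup.centralizer ({v} : Set X)) := by
    rw [← Nat.card_prod]
    symm
    refine Nat.card_eq_of_bijective (fun z => ⟨(z.1 : X) * z.2,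
      (Subgroup.centralizer ({v} : Set X)).mul_mem
        (Subgroup.mem_centralizer_singleton_iff.mpr (hab _ z.1.2 _ hv)) z.2.2.2⟩) ⟨?_, ?_⟩
    · intro z z' h
      have := @hGV.1 (z.1, ⟨z.2.1, z.2.2.1⟩) (z'.1, ⟨z'.2.1, z'.2.2.1⟩) (congrArg Subtype.val h)
      simp only [Prod.mk.injEq, Subtype.mk.injEq] at this
      exact Prod.ext this.1 (Subtype.ext this.2)
    · rintro ⟨x, hx⟩
      obtain ⟨⟨a, g⟩, rfl⟩ := hGV.2 x
      have ha : (a : X) ∈ Subgroup.centralizer ({v} : Set X) :=
        Subgroup.mem_centralizer_singleton_iff.mpr (hab _ a.2 _ hv)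
      have hg := (Subgroup.centralizer ({v} : Set X)).mul_mem
        ((Subgroup.centralizer ({v} : Set X)).inv_mem ha) hx
      rw [inv_mul_cancel_left] at hg
      exact ⟨(a, ⟨g, g.2, hg⟩), rfl⟩
  -- non-vanishing
  obtain ⟨b, hb⟩ := hVp ⟨v, hv⟩
  have hvb : v ^ p ^ b = 1 := congrArg Subtype.val hb
  have hne : ∀ (χ : Cfsg.IrrCharacter X) (j : ℕ), (χ : X → ℂ) (v ^ j) ≠ 0 := by
    intro χ j
    obtain ⟨d, hd, hdvd⟩ := DegreeGraph.exists_degree_dvd_index V hab χ.2
    obtain ⟨c, -, hc⟩ := (Nat.dvd_prime_pow (Fact.out : p.Prime)).mp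
      (orderOf_dvd_of_pow_eq_one (show (v ^ j) ^ p ^ b = 1 by
        rw [← pow_mul, mul_comm, pow_mul, hvb, one_pow]))
    exact DegreeGraph.value_ne_zero_of_not_dvd (Cfsg.Agent.Chars.irr_isCharacter χ) hd
      (fun h => hidx (h.trans hdvd)) hc
  -- Galois mean
  let s : Finset (Cfsg.IrrCharacter X × (ZMod n)ˣ) := A ×ˢ Finset.univ
  have hmean : (s.card : ℝ) ≤ ∑ i ∈ s, ‖(i.1 : X → ℂ) (v ^ (i.2 : ZMod n).val)‖ ^ 2 := by
    refine DegreeGraph.card_le_sum_norm_sq s (fun i => (i.1 : X → ℂ))
      (fun i => Cfsg.Agent.Chars.irr_isCharacter i.1) (fun i => v ^ (i.2 : ZMod n).val)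
      (fun i _ => hne _ _) fun j hj _ => ?_
    refine ⟨fun i => (i.1, i.2 * ZMod.unitOfCoprime j hj), fun a _ c _ h => ?_, fun i hi => ?_,
      fun i _ => ?_⟩
    · simp only [Prod.mk.injEq, mul_left_inj] at h
      exact Prod.ext h.1 h.2
    · simp only [s, Finset.mem_product, Finset.mem_univ, and_true] at hi ⊢
      exact hi
    · simp only [Units.val_mul, ZMod.coe_unitOfCoprime]
      congr 2
      rw [← pow_mul, ← pow_mod_natCard, ZMod.val_mul, ZMod.val_natCast]
      simp [n, Nat.mul_mod]
  have hrow : ∀ u : (ZMod n)ˣ, ∑ χ ∈ A, ‖(χ : X → ℂ) (v ^ (u : ZMod n).val)‖ ^ 2 =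
      (Nat.card V * Nat.card ↥(G ⊓ Subgroup.centralizer ({v} : Set X)) : ℕ) - (Nat.card G : ℝ) := by
    intro u
    have hall : ∑ χ : Cfsg.IrrCharacter X, ‖(χ : X → ℂ) (v ^ (u : ZMod n).val)‖ ^ 2 =
        (Nat.card ↥(Subgroup.centralizer ({v} : Set X)) : ℝ) := by
      have h2 := Cfsg.Agent.Chars.column_orth (v ^ (u : ZMod n).val) (v ^ (u : ZMod n).val)
      rw [if_pos (IsConj.refl _), hcent u] at h2
      apply Complex.ofReal_injective
      rw [Complex.ofReal_sum, Complex.ofReal_natCast, ← h2]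
      exact Finset.sum_congr rfl fun χ _ => by rw [Complex.mul_conj', Complex.ofReal_pow]
    have hB : ∑ χ ∈ B, ‖(χ : X → ℂ) (v ^ (u : ZMod n).val)‖ ^ 2 = (Nat.card G : ℝ) := by
      rw [Finset.sum_image hinfl.injOn]
      apply Complex.ofReal_injective
      rw [Complex.ofReal_sum, Complex.ofReal_natCast, ← Cfsg.Agent.Chars.sum_sq_apply_one (G := ↥G)]
      refine Finset.sum_congr rfl fun θ _ => ?_
      obtain ⟨d, hd⟩ := Cfsg.Agent.Chars.exists_apply_one_eq (Cfsg.Agent.Chars.irr_isCharacter θ)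
      simp [infl, hπV _ (V.pow_mem hv _), hd]
    rw [← hC, ← hall, ← hB, eq_sub_iff_add_eq, Finset.sum_compl_add_sum]
  rw [Finset.sum_product, Finset.sum_comm, Finset.sum_congr rfl fun u _ => hrow u,
    Finset.sum_const, nsmul_eq_mul, Finset.card_product, Nat.cast_mul, mul_comm (A.card : ℝ)] at hmean
  have hφ : (0 : ℝ) < (Finset.univ : Finset (ZMod n)ˣ).card :=
    Nat.cast_pos.mpr (Finset.univ_nonempty.card_pos)
  have := le_of_mul_le_mul_left hmean hφ
  have hfin : (Nat.card (ConjClasses X) : ℝ) + Nat.card G ≤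
      (Nat.card ↥(G ⊓ Subgroup.centralizer ({v} : Set X)) * Nat.card V + Nat.card (ConjClasses ↥G) : ℕ) := by
    push_cast at this ⊢
    linarith
  exact_mod_cast hfin

end Cfsg.Agent.S4955
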