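import Cfsg.Statements.S4956
import Mathlib.Tactic.Group
import Mathlib.Tactic.Abel
import Mathlib.Tactic.Ring
import Mathlib.GroupTheory.CommutingProbability
import Mathlib.GroupTheory.Complement
import Mathlib.GroupTheory.OrderOfElement
import Mathlib.GroupTheory.Perm.Subgroup
import Mathlib.Algebra.Ring.GeomSum
import Mathlib.Algebra.Group.Hom.End
-- import your own Cfsg.Agent.* helpers here

set_option autoImplicit false
open Cfsg

namespace Cfsg.Agent.S4956

/-- Fibre count for commuting pairs in a semidirect product with coprime abelian kernel. -/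
theorem card_twisted_pairs {A : Type*} [AddCommGroup A] [Finite A] (g h : AddMonoid.End A) (n : ℕ)
    (hg : g ^ n = 1) (hh : h ^ n = 1) (hgh : g * h = h * g) (hcop : (Nat.card A).Coprime n) :
    Nat.card {q : A × A // q.1 + g q.2 = q.2 + h q.1} =
      Nat.card A * Nat.card {a : A // g a = a ∧ h a = a} := by
  let ψ : A × A →+ A :=
    { toFun := fun q => (q.1 + g q.2) - (q.2 + h q.1)
      map_zero' := by simp
      map_add' := fun q r => by simp only [Prod.fst_add, Prod.snd_add, map_add]; abel }
  let C : AddSubgroup A :=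
    { carrier := {a | g a = a ∧ h a = a}
      zero_mem' := by simp
      add_mem' := fun {a b} ha hb => ⟨by simp [ha.1, hb.1], by simp [ha.2, hb.2]⟩
      neg_mem' := fun {a} ha => ⟨by simp [ha.1], by simp [ha.2]⟩ }
  let Ng : AddMonoid.End A := ∑ i ∈ Finset.range n, g ^ i
  let Nh : AddMonoid.End A := ∑ i ∈ Finset.range n, h ^ i
  have hNg : Ng * (g - 1) = 0 := by simp only [Ng, geom_sum_mul, hg, sub_self]
  have hNh : Nh * (h - 1) = 0 := by simp only [Nh, geom_sum_mul, hh, sub_self]
  have hgN : g * Ng = Ng := by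
    have h1 : (g - 1) * Ng = 0 := by simp only [Ng, mul_geom_sum, hg, sub_self]
    rwa [sub_mul, one_mul, sub_eq_zero] at h1
  have hhN : h * Nh = Nh := by
    have h1 : (h - 1) * Nh = 0 := by simp only [Nh, mul_geom_sum, hh, sub_self]
    rwa [sub_mul, one_mul, sub_eq_zero] at h1
  have hcNN : Commute Nh Ng := Commute.sum_left _ _ _ fun i _ => Commute.sum_right _ _ _ fun j _ =>
    ((Commute.pow_pow (show Commute h g from hgh.symm)) i j)
  have hmul : ∀ (f f' : AddMonoid.End A) (x : A), (f * f') x = f (f' x) := fun _ _ _ => rfl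
  have happ : ∀ (f : ℕ → AddMonoid.End A) (m : ℕ) (x : A),
      (∑ i ∈ Finset.range m, f i) x = ∑ i ∈ Finset.range m, f i x := fun f m x => by
    induction m with
    | zero => rfl
    | succ m ih => rw [Finset.sum_range_succ, Finset.sum_range_succ, ← ih]; rfl
  -- the powers of g and h move a point by an element of the range
  have hrg : ∀ x : A, g x - x ∈ ψ.range := fun x => ⟨(0, x), by simp [ψ]⟩
  have hrh : ∀ x : A, h x - x ∈ ψ.range := fun x => ⟨(-x, 0), by simp [ψ]; abel⟩
  have hpow : ∀ (f : AddMonoid.End A), (∀ x, f x - x ∈ ψ.range) →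
      ∀ x, n • x - (∑ i ∈ Finset.range n, f ^ i) x ∈ ψ.range := by
    intro f hf x
    have hi : ∀ i : ℕ, x - (f ^ i) x ∈ ψ.range := by
      intro i
      induction i with
      | zero => simp
      | succ i ih =>
        have := sub_mem ih (hf ((f ^ i) x))
        rw [pow_succ', hmul]
        convert this using 1; abel
    have : n • x - (∑ i ∈ Finset.range n, f ^ i) x = ∑ i ∈ Finset.range n, (x - (f ^ i) x) := by
      simp [Finset.sum_sub_distrib, happ]
    rw [this]
    exact sum_mem fun i _ => hi i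
  have hnC : ∀ x : A, Ng (Nh x) ∈ C := fun x => ⟨by
      rw [← hmul g, hgN], by
      have h1 : h * (Ng * Nh) = Ng * Nh := by
        rw [← hcNN.eq, ← mul_assoc, hhN]
      exact DFunLike.congr_fun h1 x⟩
  let e := (nsmulCoprime (G := A) (n := n * n) (Nat.Coprime.mul_right hcop hcop)).bijective
  have hsup : C ⊔ ψ.range = ⊤ := by
    rw [eq_top_iff]
    intro a _
    obtain ⟨b, rfl⟩ := e.2 a
    have h1 : (n * n) • b - Ng (Nh b) ∈ ψ.range := by
      have h2 := nsmul_mem (hpow h hrh b) n
      have h3 := hpow g hrg (Nh b)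
      have := add_mem h2 h3
      convert this using 1
      rw [smul_sub, mul_nsmul']
      abel
    have := AddSubgroup.add_mem_sup (hnC b) h1
    simpa using this
  have hinf : C ⊓ ψ.range = ⊥ := by
    rw [eq_bot_iff]
    rintro a ⟨⟨ha1, ha2⟩, ⟨q, rfl⟩⟩
    have hz : (Ng * Nh) (ψ q) = 0 := by
      have e1 : (Ng * Nh) * (g - 1) = 0 := by
        have hc : Commute Nh (g - 1) := Commute.sub_right
          (Commute.sum_left _ _ _ fun i _ => (show Commute h g from hgh.symm).pow_left i)
          (Commute.one_right _)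
        rw [mul_assoc, hc.eq, ← mul_assoc, hNg, zero_mul]
      have e2 : (Ng * Nh) * (h - 1) = 0 := by rw [mul_assoc, hNh, mul_zero]
      have hsub : ∀ (f : AddMonoid.End A) (x : A), (f - 1) x = f x - x := fun _ _ => rfl
      have hq : ψ q = (g - 1 : AddMonoid.End A) q.2 - (h - 1 : AddMonoid.End A) q.1 := by
        rw [hsub, hsub]; simp [ψ]; abel
      rw [hq, map_sub, ← hmul, ← hmul, e1, e2]
      simp
    have hfix : ∀ (f : AddMonoid.End A), f (ψ q) = ψ q →
        (∑ i ∈ Finset.range n, f ^ i) (ψ q) = n • ψ q := by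
      intro f hf
      have hi : ∀ i : ℕ, (f ^ i) (ψ q) = ψ q := by
        intro i
        induction i with
        | zero => simp
        | succ i ih => rw [pow_succ, hmul, hf, ih]
      simp [happ, hi]
    rw [hmul] at hz
    simp only [Ng, Nh] at hz
    rw [hfix h ha2, map_nsmul, hfix g ha1] at hz
    refine AddSubgroup.mem_bot.mpr (e.1 ?_)
    simpa [mul_nsmul'] using hz
  have hker : Nat.card {q : A × A // q.1 + g q.2 = q.2 + h q.1} = Nat.card ψ.ker :=
    Nat.card_congr (Equiv.subtypeEquivRight fun q => by simp [ψ, AddMonoidHom.mem_ker, sub_eq_zero])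
  have h1 : Nat.card ↥C * Nat.card ↥ψ.range = Nat.card A := by
    rw [← Nat.card_prod]
    refine Nat.card_eq_of_bijective (fun z : ↥C × ↥ψ.range => (z.1 : A) + z.2) ⟨?_, ?_⟩
    · rintro ⟨a, b⟩ ⟨c, d⟩ e'
      dsimp only at e'
      have e0 : (a : A) - c = d - b := by rw [sub_eq_sub_iff_add_eq_add, e', add_comm]
      have hm : (a : A) - c ∈ C ⊓ ψ.range := AddSubgroup.mem_inf.mpr
        ⟨C.sub_mem a.2 c.2, e0 ▸ ψ.range.sub_mem d.2 b.2⟩
      rw [hinf, AddSubgroup.mem_bot, sub_eq_zero] at hm
      exact Prod.ext (Subtype.ext hm) (Subtype.ext (add_left_cancel (hm ▸ e')))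
    · intro a
      obtain ⟨c, hc, d, hd, rfl⟩ := AddSubgroup.mem_sup.mp (hsup.symm ▸ AddSubgroup.mem_top a :
        a ∈ C ⊔ ψ.range)
      exact ⟨(⟨c, hc⟩, ⟨d, hd⟩), rfl⟩
  have h2 := ψ.ker.card_eq_card_quotient_mul_card_addSubgroup
  rw [Nat.card_congr (QuotientAddGroup.quotientKerEquivRange ψ).toEquiv, Nat.card_prod] at h2
  rw [hker]
  have hr : 0 < Nat.card ψ.range := Nat.card_pos
  have hC : Nat.card C = Nat.card {a : A // g a = a ∧ h a = a} := rfl
  rw [← hC]
  apply Nat.eq_of_mul_eq_mul_left hr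
  rw [← h2]
  rw [← h1]
  ring

/-- Conjugation by an element, as an endomorphism of an abelian normal subgroup written additively. -/
def conjEnd {X : Type*} [Group X] (V : Subgroup X) [V.Normal] (x : X) :
    AddMonoid.End (Additive ↥V) :=
  MonoidHom.toAdditive (MulAut.conjNormal (H := V) x).toMonoidHom

theorem conjEnd_apply {X : Type*} [Group X] (V : Subgroup X) [V.Normal] (x : X) (a : Additive ↥V) :
    ((Additive.toMul (conjEnd V x a) : ↥V) : X) = x * (Additive.toMul a : ↥V) * x⁻¹ :=
  rfl

theorem conjEnd_mul {X : Type*} [Group X] (V : Subgroup X) [V.Normal] (x y : X) :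
    conjEnd V (x * y) = conjEnd V x * conjEnd V y := by
  apply AddMonoidHom.ext
  intro a
  change Additive.ofMul (MulAut.conjNormal (x * y) (Additive.toMul a)) = _
  rw [map_mul]
  rfl

theorem conjEnd_one {X : Type*} [Group X] (V : Subgroup X) [V.Normal] : conjEnd V (1 : X) = 1 := by
  apply AddMonoidHom.ext
  intro a
  change Additive.ofMul (MulAut.conjNormal (1 : X) (Additive.toMul a)) = _
  rw [map_one]
  rfl

theorem conjEnd_pow {X : Type*} [Group X] (V : Subgroup X) [V.Normal] (x : X) :
    ∀ n : ℕ, conjEnd V x ^ n = conjEnd V (x ^ n)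
  | 0 => by rw [pow_zero, pow_zero, conjEnd_one]
  | n + 1 => by rw [pow_succ, pow_succ, conjEnd_mul, conjEnd_pow V x n]

/-- Let X be a finite group, V an abelian normal subgroup of X (any two elements of V commute) and G a complement to V in X whose order is coprime to that of V. Let S be a set of representatives of the orbits of G on V under conjugation: S lies in V and every element of V is conjugate under G to exactly one member of S. Then the number of conjugacy classes of X equals the sum, over s in S, of the number of conjugacy classes of the centralizer of s in G. -/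
theorem result {X : Type*} [Group X] [Finite X] (V : Subgroup X) [V.Normal] (hab : ∀ a ∈ V, ∀ b ∈ V, a * b = b * a) (G : Subgroup X) (hGV : Subgroup.IsComplement' V G) (hcop : (Nat.card V).Coprime (Nat.card G)) (S : Finset X) (hSV : ∀ s ∈ S, s ∈ V) (hrep : ∀ v ∈ V, ∃! s, s ∈ S ∧ ∃ g ∈ G, g * v * g⁻¹ = s) : Nat.card (ConjClasses X) = ∑ s ∈ S, Nat.card (ConjClasses ↥(G ⊓ Subgroup.centralizer ({s} : Set X))) := by
  classical
  have := Fintype.ofFinite X
  have : IsMulCommutative ↥V := ⟨⟨fun a b => Subtype.ext (hab _ a.2 _ b.2)⟩⟩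
  let commV : CommGroup ↥V := { V.toGroup with mul_comm := fun a b => Subtype.ext (hab _ a.2 _ b.2) }
  let n := Nat.card G
  let Z : X → Subgroup X := fun v => G ⊓ Subgroup.centralizer ({v} : Set X)
  -- fibre over a commuting pair of the complement
  have hfib : ∀ g h : ↥G, Commute g h →
      Nat.card {q : ↥V × ↥V // Commute ((q.1 : X) * g) ((q.2 : X) * h)} =
        Nat.card V * Nat.card {v : ↥V // (g : X) * v = v * g ∧ (h : X) * v = v * h} := by
    intro g h hgh
    have hpow : ∀ k : ↥G, conjEnd V (k : X) ^ n = 1 := fun k => by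
      rw [conjEnd_pow, ← SubgroupClass.coe_pow, pow_card_eq_one', Subgroup.coe_one, conjEnd_one]
    have hgh' : (g : X) * h = h * g := congrArg Subtype.val hgh.eq
    have key := card_twisted_pairs (conjEnd V (g : X)) (conjEnd V (h : X)) n (hpow g) (hpow h)
      (by rw [← conjEnd_mul, ← conjEnd_mul, hgh']) (by rw [Nat.card_congr Additive.toMul]; exact hcop)
    have e1 : Nat.card {q : ↥V × ↥V // Commute ((q.1 : X) * g) ((q.2 : X) * h)} =
        Nat.card {q : Additive ↥V × Additive ↥V //
          q.1 + conjEnd V (g : X) q.2 = q.2 + conjEnd V (h : X) q.1} := by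
      refine Nat.card_congr (Equiv.subtypeEquiv
        (Equiv.prodCongr Additive.ofMul Additive.ofMul) fun q => ?_)
      rw [commute_iff_eq, ← Additive.toMul.injective.eq_iff, Subtype.ext_iff]
      simp only [Equiv.prodCongr_apply, Prod.map_fst, Prod.map_snd, toMul_add, toMul_ofMul,
        Subgroup.coe_mul, conjEnd_apply]
      rw [← mul_left_inj ((h : X)⁻¹ * (g : X)⁻¹)]
      have hinv : (h : X)⁻¹ * (g : X)⁻¹ = (g : X)⁻¹ * (h : X)⁻¹ := by
        rw [← mul_inv_rev, hgh', mul_inv_rev]
      constructor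
      · intro e
        calc (q.1 : X) * ((g : X) * q.2 * (g : X)⁻¹)
            = (q.1 : X) * g * (q.2 * h) * ((h : X)⁻¹ * (g : X)⁻¹) := by group
          _ = (q.2 : X) * h * (q.1 * g) * ((g : X)⁻¹ * (h : X)⁻¹) := by rw [e, hinv]
          _ = _ := by group
      · intro e
        calc (q.1 : X) * g * (q.2 * h) * ((h : X)⁻¹ * (g : X)⁻¹)
            = (q.1 : X) * ((g : X) * q.2 * (g : X)⁻¹) := by group
          _ = (q.2 : X) * ((h : X) * q.1 * (h : X)⁻¹) := e
          _ = (q.2 : X) * h * (q.1 * g) * ((g : X)⁻¹ * (h : X)⁻¹) := by group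
          _ = _ := by rw [hinv]
    have e2 : Nat.card {v : ↥V // (g : X) * v = v * g ∧ (h : X) * v = v * h} =
        Nat.card {a : Additive ↥V // conjEnd V (g : X) a = a ∧ conjEnd V (h : X) a = a} := by
      refine Nat.card_congr (Equiv.subtypeEquiv Additive.ofMul fun v => ?_)
      simp only [← Additive.toMul.injective.eq_iff, Subtype.ext_iff, conjEnd_apply, toMul_ofMul,
        mul_inv_eq_iff_eq_mul]
    rw [e1, e2, key, Nat.card_congr Additive.toMul]
  -- sum over commuting pairs
  have hpairs : Nat.card (ConjClasses X) * Nat.card X =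
      Nat.card V * ∑ v : ↥V, Nat.card (ConjClasses ↥(Z v)) * Nat.card ↥(Z v) := by
    rw [← card_comm_eq_card_conjClasses_mul_card]
    let E := hGV.equiv.symm
    have hE : ∀ q : ↥V × ↥G, E q = (q.1 : X) * q.2 := fun q => rfl
    have hcg : ∀ q r : ↥V × ↥G, Commute (E q) (E r) → Commute q.2 r.2 := by
      intro q r hc
      have h3 := congrArg (fun x : X => (x : X ⧸ V)) hc.eq
      simp only [hE, QuotientGroup.mk_mul, (QuotientGroup.eq_one_iff _).mpr q.1.2,
        (QuotientGroup.eq_one_iff _).mpr r.1.2, one_mul] at h3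
      rw [← QuotientGroup.mk_mul, ← QuotientGroup.mk_mul, QuotientGroup.eq] at h3
      have h4 := Subgroup.disjoint_def.mp hGV.disjoint h3
        (G.mul_mem (G.inv_mem (G.mul_mem q.2.2 r.2.2)) (G.mul_mem r.2.2 q.2.2))
      exact Subtype.ext (inv_mul_eq_one.mp h4)
    calc Nat.card {p : X × X // Commute p.1 p.2}
        = Nat.card {p : (↥V × ↥G) × (↥V × ↥G) // Commute (E p.1) (E p.2)} :=
          Nat.card_congr (Equiv.subtypeEquiv (Equiv.prodCongr E E).symm fun p => by simp)
      _ = Nat.card (Σ gh : {gh : ↥G × ↥G // Commute gh.1 gh.2},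
            {q : ↥V × ↥V // Commute ((q.1 : X) * gh.1.1) ((q.2 : X) * gh.1.2)}) :=
          Nat.card_congr
            { toFun := fun p => ⟨⟨(p.1.1.2, p.1.2.2), hcg _ _ p.2⟩, ⟨(p.1.1.1, p.1.2.1), p.2⟩⟩
              invFun := fun s => ⟨((s.2.1.1, s.1.1.1), (s.2.1.2, s.1.1.2)), s.2.2⟩
              left_inv := fun p => rfl
              right_inv := fun s => rfl }
      _ = Nat.card V * Nat.card (Σ gh : {gh : ↥G × ↥G // Commute gh.1 gh.2},
            {v : ↥V // (gh.1.1 : X) * v = v * gh.1.1 ∧ (gh.1.2 : X) * v = v * gh.1.2}) := by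
          rw [Nat.card_sigma, Nat.card_sigma, Finset.mul_sum]
          exact Finset.sum_congr rfl fun gh _ => hfib gh.1.1 gh.1.2 gh.2
      _ = Nat.card V * Nat.card (Σ v : ↥V, {p : ↥(Z v) × ↥(Z v) // Commute p.1 p.2}) := by
          congr 1
          refine Nat.card_congr
            { toFun := fun s => ⟨s.2.1,
                ⟨(⟨(s.1.1.1 : X), s.1.1.1.2, Subgroup.mem_centralizer_singleton_iff.mpr s.2.2.1⟩,
                  ⟨(s.1.1.2 : X), s.1.1.2.2, Subgroup.mem_centralizer_singleton_iff.mpr s.2.2.2⟩),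
                  Subtype.ext (congrArg Subtype.val s.1.2.eq : _)⟩⟩
              invFun := fun t => ⟨⟨(⟨(t.2.1.1 : X), t.2.1.1.2.1⟩, ⟨(t.2.1.2 : X), t.2.1.2.2.1⟩),
                  Subtype.ext (congrArg Subtype.val t.2.2.eq : _)⟩, ⟨t.1,
                  Subgroup.mem_centralizer_singleton_iff.mp t.2.1.1.2.2,
                  Subgroup.mem_centralizer_singleton_iff.mp t.2.1.2.2.2⟩⟩
              left_inv := fun s => rfl
              right_inv := fun t => rfl }
      _ = _ := by
          rw [Nat.card_sigma]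
          simp only [card_comm_eq_card_conjClasses_mul_card]
  -- group by orbits
  let actG : MulAction ↥G X :=
    MulAction.compHom X ((ConjAct.toConjAct.toMonoidHom).comp G.subtype)
  have hsmul : ∀ (k : ↥G) (x : X), k • x = (k : X) * x * (k : X)⁻¹ := fun k x => rfl
  choose rep hrep1 hrep2 using fun v : ↥V => (hrep v v.2).exists
  have hcongr : ∀ v : ↥V, Nat.card (ConjClasses ↥(Z v)) * Nat.card ↥(Z v) =
      Nat.card (ConjClasses ↥(Z (rep v))) * Nat.card ↥(Z (rep v)) := by
    intro v
    obtain ⟨k, hk, hkv⟩ := hrep2 v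
    let e : ↥(Z v) ≃* ↥(Z (rep v)) := ((Z v).equivMapOfInjective
      (MulAut.conj k).toMonoidHom (MulAut.conj k).injective).trans (MulEquiv.subgroupCongr (by
        ext y
        rw [Subgroup.mem_map_equiv, MulAut.conj_symm_apply]
        simp only [Z, Subgroup.mem_inf, Subgroup.mem_centralizer_singleton_iff, ← hkv]
        refine and_congr ⟨fun h => ?_, fun h => G.mul_mem (G.mul_mem (G.inv_mem hk) h) hk⟩
          ⟨fun h => ?_, fun h => ?_⟩
        · simpa [mul_assoc] using G.mul_mem (G.mul_mem hk h) (G.inv_mem hk)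
        · calc y * (k * v * k⁻¹) = k * (k⁻¹ * y * k * v) * k⁻¹ := by group
            _ = k * (v * (k⁻¹ * y * k)) * k⁻¹ := by rw [h]
            _ = _ := by group
        · calc k⁻¹ * y * k * v = k⁻¹ * (y * (k * v * k⁻¹)) * k := by group
            _ = k⁻¹ * ((k * v * k⁻¹) * y) * k := by rw [h]
            _ = _ := by group))
    rw [← card_comm_eq_card_conjClasses_mul_card, ← card_comm_eq_card_conjClasses_mul_card]
    exact Nat.card_congr (Equiv.subtypeEquiv (Equiv.prodCongr e.toEquiv e.toEquiv) fun p => by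
      simp [commute_iff_eq, ← map_mul, e.injective.eq_iff])
  have horb : ∀ s ∈ S,
      (Finset.univ.filter fun v : ↥V => rep v = s).card * Nat.card ↥(Z s) = n := by
    intro s hs
    have h1 : (Finset.univ.filter fun v : ↥V => rep v = s).card =
        Nat.card (MulAction.orbit ↥G s) := by
      rw [← Fintype.card_subtype, ← Nat.card_eq_fintype_card]
      have hmem : ∀ x ∈ MulAction.orbit ↥G s, x ∈ V := by
        rintro x ⟨k, rfl⟩
        exact Subgroup.Normal.conj_mem inferInstance s (hSV s hs) k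
      refine Nat.card_congr
        { toFun := fun v => ⟨(v.1 : X), ?_⟩
          invFun := fun x => ⟨⟨x.1, hmem x.1 x.2⟩, ?_⟩
          left_inv := fun v => rfl
          right_inv := fun x => rfl }
      · obtain ⟨k, hk, hkv⟩ := hrep2 v.1
        refine ⟨⟨k⁻¹, G.inv_mem hk⟩, ?_⟩
        dsimp only
        rw [hsmul]
        conv_lhs => rw [← v.2, ← hkv]
        group
      · obtain ⟨k, hk⟩ := x.2
        refine (hrep x.1 (hmem x.1 x.2)).unique ⟨hrep1 _, hrep2 ⟨x.1, hmem x.1 x.2⟩⟩
          ⟨hs, (k : X)⁻¹, G.inv_mem k.2, ?_⟩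
        rw [← hk]
        dsimp only
        rw [hsmul]
        group
    have h2 : Nat.card ↥(Z s) = Nat.card (MulAction.stabilizer ↥G s) := by
      refine Nat.card_congr
        { toFun := fun z => ⟨⟨z.1, z.2.1⟩, ?_⟩
          invFun := fun z => ⟨z.1.1, z.1.2, ?_⟩
          left_inv := fun z => rfl
          right_inv := fun z => rfl }
      · rw [MulAction.mem_stabilizer_iff, hsmul, mul_inv_eq_iff_eq_mul]
        exact Subgroup.mem_centralizer_singleton_iff.mp z.2.2
      · refine Subgroup.mem_centralizer_singleton_iff.mpr ?_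
        have := z.2
        rwa [MulAction.mem_stabilizer_iff, hsmul, mul_inv_eq_iff_eq_mul] at this
    rw [h1, h2, ← Nat.card_prod]
    exact Nat.card_congr (MulAction.orbitProdStabilizerEquivGroup ↥G s)
  have hsum : ∑ v : ↥V, Nat.card (ConjClasses ↥(Z v)) * Nat.card ↥(Z v) =
      n * ∑ s ∈ S, Nat.card (ConjClasses ↥(Z s)) := by
    rw [Finset.mul_sum, ← Finset.sum_fiberwise_of_maps_to (g := rep) (t := S) (fun v _ => hrep1 v)]
    refine Finset.sum_congr rfl fun s hs => ?_
    rw [Finset.sum_congr rfl fun v hv => by rw [hcongr v, (Finset.mem_filter.mp hv).2],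
      Finset.sum_const, smul_eq_mul, ← horb s hs]
    ring
  rw [hsum, ← hGV.card_mul_card] at hpairs
  apply Nat.eq_of_mul_eq_mul_right (Nat.mul_pos Nat.card_pos Nat.card_pos :
    0 < Nat.card V * Nat.card G)
  rw [hpairs]
  ring

end Cfsg.Agent.S4956
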