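import Cfsg.Statements.S4964
import Cfsg.Agent.DegreeGraph.NormalP
import Cfsg.Agent.Coprime.Action
import Cfsg.Agent.FGS3.PGroupFrattini
-- import your own Cfsg.Agent.* helpers here

set_option autoImplicit false
open Cfsg
open scoped commutatorElement

namespace Cfsg.Agent.S4964

open Cfsg
open scoped commutatorElement

/-- An element of order prime to `p` centralizing a `p`-group modulo its derived group centralizes
it. -/
theorem centralizes {G : Type*} [Group G] [Finite G] {p : ℕ} [Fact p.Prime] (D : Subgroup G)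
    [D.Normal] (hD : IsPGroup p D) {g : G} (hg : ¬ p ∣ orderOf g)
    (h : ∀ d ∈ D, ⁅d, g⁆ ∈ ⁅D, D⁆) : g ∈ Subgroup.centralizer (D : Set G) := by
  have hA : Subgroup.zpowers g ≤ Subgroup.normalizer (D : Set G) := by
    rw [Subgroup.normalizer_eq_top]; exact le_top
  have hAM : Subgroup.zpowers g ≤ Subgroup.normalizer ((⁅D, D⁆ : Subgroup G) : Set G) := by
    rw [Subgroup.normalizer_eq_top]; exact le_top
  obtain ⟨k, hk⟩ := IsPGroup.iff_card.1 hD
  have hcop : (Nat.card (Subgroup.zpowers g)).Coprime (Nat.card D) := by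
    rw [Nat.card_zpowers, hk]
    exact Nat.Coprime.pow_right _ ((Fact.out : p.Prime).coprime_iff_not_dvd.2 hg).symm
  haveI : Group.IsSolvable (Subgroup.zpowers g) := inferInstance
  -- the congruence extends to the cyclic group
  let π := QuotientGroup.mk' (⁅D, D⁆ : Subgroup G)
  have hcg : ∀ d ∈ D, Commute (π d) (π g) := fun d hd => by
    have h1 := h d hd
    rw [← QuotientGroup.ker_mk' (⁅D, D⁆ : Subgroup G), MonoidHom.mem_ker, map_commutatorElement] at h1
    exact commutatorElement_eq_one_iff_commute.1 h1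
  set C := (Subgroup.centralizer ((Subgroup.zpowers g : Subgroup G) : Set G)).subgroupOf D with hC
  have htop : C ⊔ frattini D = ⊤ := by
    rw [eq_top_iff]
    intro x _
    obtain ⟨m, hm, c, hc, hx⟩ := Coprime.exists_mul_centralizer hA hcop
      (Subgroup.commutator_le_self D) hAM x.2 fun a ha => by
        obtain ⟨j, rfl⟩ := Subgroup.mem_zpowers_iff.1 ha
        rw [← QuotientGroup.ker_mk' (⁅D, D⁆ : Subgroup G), MonoidHom.mem_ker, map_commutatorElement,
          map_zpow, commutatorElement_eq_one_iff_commute]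
        exact (hcg x x.2).zpow_right j
    have hm' : (⟨m, Subgroup.commutator_le_self D hm⟩ : D) ∈ frattini D := by
      refine FGS3.commutator_le_frattini hD ?_
      have e : (commutator D).map D.subtype = ⁅D, D⁆ := by
        rw [commutator_def, Subgroup.map_commutator, ← MonoidHom.range_eq_map,
          Subgroup.range_subtype]
      obtain ⟨z, hz, hze⟩ := e.symm.le hm
      rwa [show (⟨m, Subgroup.commutator_le_self D hm⟩ : D) = z from Subtype.ext hze.symm]
    have e : x = ⟨m, Subgroup.commutator_le_self D hm⟩ * ⟨c, hc.1⟩ := Subtype.ext hx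
    rw [e]
    exact Subgroup.mul_mem _ (Subgroup.mem_sup_right hm')
      (Subgroup.mem_sup_left (Subgroup.mem_subgroupOf.2 hc.2))
  have hCtop : C = ⊤ := frattini_nongenerating htop
  rw [Subgroup.mem_centralizer_iff]
  intro d hd
  have hmem : (⟨d, hd⟩ : D) ∈ C := by rw [hCtop]; exact Subgroup.mem_top _
  exact (Subgroup.mem_centralizer_iff.1 (Subgroup.mem_subgroupOf.1 hmem) g
    (Subgroup.mem_zpowers g)).symm

/-- Let D be a normal p-subgroup of the finite group G, let D′ be its commutator subgroup (normal in G), and fix a maximal ideal M of the algebraic integers containing p. Then (i) two irreducible characters of G ⧸ D′ lie in the same p-block if and only if their inflations to G do, and (ii) every p-block of G contains the inflation of some irreducible character of G ⧸ D′; so inflation induces a bijection between the p-blocks of G ⧸ D′ and the p-blocks of G. -/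
theorem result {G : Type*} [Group G] [Finite G] (p : ℕ) [Fact p.Prime] (M : Ideal Cfsg.AlgInt) (hM : Cfsg.IsPModular p M) (D : Subgroup G) [D.Normal] (hD : IsPGroup p D) : (∀ χ ψ : Cfsg.IrrCharacter (G ⧸ ⁅D, D⁆), Cfsg.SameBlock M (χ : G ⧸ ⁅D, D⁆ → ℂ) (ψ : G ⧸ ⁅D, D⁆ → ℂ) ↔ Cfsg.SameBlock M ((χ : G ⧸ ⁅D, D⁆ → ℂ) ∘ QuotientGroup.mk) ((ψ : G ⧸ ⁅D, D⁆ → ℂ) ∘ QuotientGroup.mk)) ∧ ∀ B : Set (Cfsg.IrrCharacter G), Cfsg.IsPBlock M B → ∃ χ : Cfsg.IrrCharacter (G ⧸ ⁅D, D⁆), ∃ θ ∈ B, (θ : G → ℂ) = (χ : G ⧸ ⁅D, D⁆ → ℂ) ∘ QuotientGroup.mk := by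
  classical
  haveI : Fintype G := Fintype.ofFinite G
  haveI : Fintype (G ⧸ ⁅D, D⁆) := Fintype.ofFinite _
  have hp := (Fact.out : p.Prime)
  obtain ⟨-, hMmax, hpM⟩ := hM
  haveI := hMmax
  set π := QuotientGroup.mk' (⁅D, D⁆ : Subgroup G) with hπdef
  have hπ : Function.Surjective π := QuotientGroup.mk'_surjective _
  have hC'D : (⁅D, D⁆ : Subgroup G) ≤ D := Subgroup.commutator_le_self D
  have hDp : ∀ c ∈ D, ∃ k, orderOf c = p ^ k := fun c hc => by
    obtain ⟨k, hk⟩ := IsPGroup.iff_orderOf.1 hD ⟨c, hc⟩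
    exact ⟨k, by rw [← hk, Subgroup.orderOf_mk]⟩
  -- a `p`-singular translate
  have hsing : ∀ g c : G, c ∈ D → g ∈ Subgroup.centralizer (D : Set G) → ¬ p ∣ orderOf g → c ≠ 1 →
      p ∣ orderOf (c * g) := by
    intro g c hc hg hreg hc1
    by_contra h
    have h2 := Blocks.ppart_mul (p := p) (Subgroup.mem_centralizer_iff.1 hg c hc)
      (hDp c hc) hreg
    rw [Blocks.ppart_one_iff.2 h] at h2
    exact hc1 h2.symm
  have hinfl : ∀ χ : IrrCharacter (G ⧸ ⁅D, D⁆),
      IsIrrCharacter G ((χ : G ⧸ ⁅D, D⁆ → ℂ) ∘ QuotientGroup.mk) := fun χ =>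
    Chars.isIrrCharacter_comp_surjective χ.2 π hπ
  refine ⟨fun χ ψ => ⟨fun h g => ?_, fun h => ?_⟩, fun B hB => ?_⟩
  · have hdvd : (Subgroup.centralizer ({π g} : Set (G ⧸ ⁅D, D⁆))).index ∣
        (Subgroup.centralizer ({g} : Set G)).index := by
      refine (Subgroup.index_dvd_of_le ?_).trans
        (Subgroup.index_map_dvd (Subgroup.centralizer ({g} : Set G)) hπ)
      rintro _ ⟨x, hx, rfl⟩
      rw [SetLike.mem_coe, Subgroup.mem_centralizer_singleton_iff] at hx
      rw [Subgroup.mem_centralizer_singleton_iff, ← map_mul, ← map_mul, hx]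
    obtain ⟨c, hc⟩ := hdvd
    have := Blocks.memI_mul_left (Blocks.memR_natCast (M := M) c) (h (π g))
    convert this using 1
    simp only [centralChar, hc, Function.comp_apply, QuotientGroup.mk_one]
    rw [show (QuotientGroup.mk g : G ⧸ ⁅D, D⁆) = π g from rfl]
    push_cast
    ring
  · -- agreement on the regular classes suffices
    have hreg : ∀ y : G ⧸ ⁅D, D⁆, ¬ p ∣ orderOf y →
        MemLocalIdeal M (centralChar (χ : G ⧸ ⁅D, D⁆ → ℂ) y -
          centralChar (ψ : G ⧸ ⁅D, D⁆ → ℂ) y) := by
      intro y hy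
      by_cases hcent : y ∈ Subgroup.centralizer ((D.map π : Subgroup (G ⧸ ⁅D, D⁆)) : Set (G ⧸ ⁅D, D⁆))
      · obtain ⟨a, rfl⟩ := hπ y
        -- a regular lift
        obtain ⟨g, hga, hcomm, hpp, hgreg⟩ := Blocks.isPPart_ppart (p := p) a
        have hone : π (Blocks.ppart p a) = 1 := by
          obtain ⟨k, hk⟩ := hpp
          have h1 : orderOf (π (Blocks.ppart p a)) ∣ p ^ k := hk ▸ orderOf_map_dvd π _
          have h2 : orderOf (π (Blocks.ppart p a)) ∣ orderOf (π a) := by
            rw [Blocks.ppart, map_pow]; exact orderOf_pow_dvd _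
          exact orderOf_eq_one_iff.1 (Nat.eq_one_of_dvd_coprimes
            (Nat.Coprime.pow_left k (hp.coprime_iff_not_dvd.2 hy)) h1 h2)
        have hπg : π g = π a := by rw [← hga, map_mul, hone, one_mul]
        rw [← hπg] at hy hcent ⊢
        have hgC : g ∈ Subgroup.centralizer (D : Set G) := centralizes D hD hgreg fun d hd => by
          rw [← QuotientGroup.ker_mk' (⁅D, D⁆ : Subgroup G), MonoidHom.mem_ker, map_commutatorElement,
            commutatorElement_eq_one_iff_commute]
          exact Subgroup.mem_centralizer_iff.1 hcent _ (Subgroup.mem_map_of_mem π hd)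
        have hcen : (Subgroup.centralizer ({π g} : Set (G ⧸ ⁅D, D⁆))).comap π =
            Subgroup.centralizer ({g} : Set G) := by
          ext x
          rw [Subgroup.mem_comap, Subgroup.mem_centralizer_singleton_iff,
            Subgroup.mem_centralizer_singleton_iff]
          refine ⟨fun hx => ?_, fun hx => by rw [← map_mul, ← map_mul, hx]⟩
          have hmem : x * g * x⁻¹ * g⁻¹ ∈ (⁅D, D⁆ : Subgroup G) := by
            rw [← QuotientGroup.ker_mk' (⁅D, D⁆ : Subgroup G), MonoidHom.mem_ker, map_mul, map_mul,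
              map_mul, map_inv, map_inv, hx, mul_inv_cancel_right, mul_inv_cancel]
          by_contra hne
          have h1 := hsing g _ (hC'D hmem) hgC hgreg (fun h1 => hne (by
            rwa [mul_inv_eq_one, mul_inv_eq_iff_eq_mul] at h1))
          rw [inv_mul_cancel_right, ← MulAut.conj_apply, MulEquiv.orderOf_eq] at h1
          exact hgreg h1
        have hidx := Subgroup.index_comap_of_surjective
          (Subgroup.centralizer ({π g} : Set (G ⧸ ⁅D, D⁆))) hπ
        rw [hcen] at hidx
        have := h g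
        simp only [centralChar, Function.comp_apply, QuotientGroup.mk_one, hidx] at this
        exact this
      · exact Blocks.memI_sub
          (DegreeGraph.centralChar_memI_of_not_centralize hpM (D := D.map π)
            (hD.map π) χ hcent)
          (DegreeGraph.centralChar_memI_of_not_centralize hpM (D := D.map π)
            (hD.map π) ψ hcent)
    have hB := Blocks.isPBlock_blockOf (M := M) χ
    by_contra hne
    have hψ : ψ ∉ blockOf M (χ : G ⧸ ⁅D, D⁆ → ℂ) := hne
    have h1 := Blocks.omega_blockCoeff_mem (Blocks.mem_blockOf_self (M := M) χ)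
    have h2 := Blocks.omega_blockCoeff_not_mem hψ
    rw [Blocks.omega_eq_sum_clsFun (Chars.isClassFunction_irr _)
      (Blocks.isClassFunction_blockCoeff _)] at h1 h2
    apply Blocks.not_memI_one (M := M)
    rw [← sub_zero (1 : ℂ), ← h1, ← h2, ← Finset.sum_sub_distrib]
    refine Blocks.memI_sum _ _ fun C _ => ?_
    rw [← mul_sub]
    by_cases hC : p ∣ orderOf (Blocks.clsRep C)
    · rw [Blocks.blockCoeff_eq_zero_of_dvd hpM hB hC, zero_mul]; exact Blocks.memI_zero
    · exact Blocks.memI_mul_left (Blocks.rFun_blockCoeff hpM hB _) (hreg _ hC)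
  · by_contra hno
    push Not at hno
    obtain ⟨g, hgd⟩ := Blocks.exists_isDefectClass hpM hB
    have hgreg := Blocks.isPRegular_of_isDefectClass hpM hB hgd
    obtain ⟨θ, hθ⟩ := Blocks.block_nonempty hB
    have hgC : g ∈ Subgroup.centralizer (D : Set G) := by
      by_contra h
      exact hgd.2.2 θ hθ (DegreeGraph.centralChar_memI_of_not_centralize hpM hD θ h)
    set e := blockCoeff B with he
    have hec := Blocks.isClassFunction_blockCoeff (G := G) B
    let r : G ⧸ ⁅D, D⁆ → ℂ := fun y => ∑ c : G, if π c = y then e c else 0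
    have hrc : IsClassFunction (G ⧸ ⁅D, D⁆) r := fun y d => by
      obtain ⟨d, rfl⟩ := hπ d
      refine (Fintype.sum_equiv (MulAut.conj d).toEquiv _ _ fun c => ?_).symm
      simp only [MulEquiv.toEquiv_eq_coe, EquivLike.coe_coe, MulAut.conj_apply, map_mul, map_inv]
      rw [show e (d * c * d⁻¹) = e c from hec c d]
      exact if_congr (by simp) rfl rfl
    have hr0 : r = 0 := Blocks.omega_ext hrc Blocks.isClassFunction_zero' fun χ => by
      have h0 : Blocks.omega ((χ : G ⧸ ⁅D, D⁆ → ℂ) ∘ QuotientGroup.mk) e = 0 :=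
        Blocks.omega_blockCoeff_not_mem (χ := ⟨_, hinfl χ⟩) (fun hmem => hno χ ⟨_, hinfl χ⟩ hmem rfl)
      have h1 : Blocks.omega (χ : G ⧸ ⁅D, D⁆ → ℂ) r =
          Blocks.omega ((χ : G ⧸ ⁅D, D⁆ → ℂ) ∘ QuotientGroup.mk) e := by
        simp only [Blocks.omega, r, Finset.sum_mul, ite_mul, zero_mul, Function.comp_apply,
          QuotientGroup.mk_one]
        rw [Finset.sum_comm]
        simp only [Finset.sum_ite_eq, Finset.mem_univ, if_true]
        rfl
      rw [h1, h0]
      simp [Blocks.omega]
    have h2 := congrFun hr0 (π g)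
    simp only [r, Pi.zero_apply] at h2
    rw [Finset.sum_eq_single g] at h2
    · rw [if_pos rfl] at h2
      exact hgd.2.1 (by rw [← he, h2]; exact Blocks.memI_zero)
    · intro c _ hc
      split_ifs with hcg
      · have hm : c * g⁻¹ ∈ (⁅D, D⁆ : Subgroup G) := by
          rw [← QuotientGroup.ker_mk' (⁅D, D⁆ : Subgroup G), MonoidHom.mem_ker, map_mul, map_inv,
            hcg, mul_inv_cancel]
        have h3 := hsing g _ (hC'D hm) hgC hgreg fun h4 => hc (mul_inv_eq_one.1 h4)
        rw [inv_mul_cancel_right] at h3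
        exact Blocks.blockCoeff_eq_zero_of_dvd hpM hB h3
      · rfl
    · simp

end Cfsg.Agent.S4964
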