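import Cfsg.Statements.S4965
import Mathlib.Tactic.Group
import Mathlib.GroupTheory.CommutingProbability
-- import your own Cfsg.Agent.* helpers here

set_option autoImplicit false
open Cfsg

namespace Cfsg.Agent.S4965

/-- Let X be a finite group with an abelian normal subgroup V (any two elements of V commute), and let φ be the action of X ⧸ V on V induced by conjugation (well defined because V is abelian; the hypothesis hφ says that the class of x acts as conjugation by x). Then X has at most as many conjugacy classes as the semidirect product of V by X ⧸ V formed with this action: the split extension has the largest class number among extensions with the given action. -/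
theorem result {X : Type*} [Group X] [Finite X] (V : Subgroup X) [V.Normal] (hab : ∀ a ∈ V, ∀ b ∈ V, a * b = b * a) (φ : X ⧸ V →* MulAut ↥V) (hφ : ∀ (x : X) (v : ↥V), ((φ (QuotientGroup.mk x) v : ↥V) : X) = x * v * x⁻¹) : Nat.card (ConjClasses X) ≤ Nat.card (ConjClasses (SemidirectProduct ↥V (X ⧸ V) φ)) := by
  classical
  let S := SemidirectProduct ↥V (X ⧸ V) φ
  have : Finite S := Finite.of_equiv _ SemidirectProduct.equivProd.symm
  have hcard : Nat.card S = Nat.card X := by
    rw [SemidirectProduct.card, mul_comm, ← Subgroup.card_eq_card_quotient_mul_card_subgroup]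
  let P : (X ⧸ V) × (X ⧸ V) → X × X → Prop := fun q r =>
    Commute r.1 r.2 ∧ (r.1 : X ⧸ V) = q.1 ∧ (r.2 : X ⧸ V) = q.2
  let base : (X ⧸ V) × (X ⧸ V) → X × X := fun q => if h : ∃ r, P q r then h.choose else (1, 1)
  let qq : X × X → (X ⧸ V) × (X ⧸ V) := fun r => ((r.1 : X ⧸ V), (r.2 : X ⧸ V))
  have hb : ∀ r : {r : X × X // Commute r.1 r.2}, P (qq r.1) (base (qq r.1)) := by
    intro r
    have h : ∃ r', P (qq r.1) r' := ⟨r.1, r.2, rfl, rfl⟩
    simp only [base, dif_pos h]
    exact h.choose_spec
  have hm1 : ∀ r : {r : X × X // Commute r.1 r.2}, r.1.1 * (base (qq r.1)).1⁻¹ ∈ V := by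
    intro r
    rw [← QuotientGroup.eq_one_iff, QuotientGroup.mk_mul, QuotientGroup.mk_inv, (hb r).2.1]
    simp [qq]
  have hm2 : ∀ r : {r : X × X // Commute r.1 r.2}, r.1.2 * (base (qq r.1)).2⁻¹ ∈ V := by
    intro r
    rw [← QuotientGroup.eq_one_iff, QuotientGroup.mk_mul, QuotientGroup.mk_inv, (hb r).2.2]
    simp [qq]
  let f : {r : X × X // Commute r.1 r.2} → {r : S × S // Commute r.1 r.2} := fun r =>
    ⟨(⟨⟨_, hm1 r⟩, (qq r.1).1⟩, ⟨⟨_, hm2 r⟩, (qq r.1).2⟩), by
      obtain ⟨hc, h1, h2⟩ := hb r
      have hxy := r.2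
      rw [commute_iff_eq]
      ext
      · rw [SemidirectProduct.mul_left, SemidirectProduct.mul_left, Subgroup.coe_mul, Subgroup.coe_mul]
        dsimp only
        rw [← h1, ← h2, hφ, hφ]
        dsimp only
        have e : ∀ x y a b : X, Commute x y → Commute a b →
            x * a⁻¹ * (a * (y * b⁻¹) * a⁻¹) = y * b⁻¹ * (b * (x * a⁻¹) * b⁻¹) := by
          intro x y a b hxy hab'
          have h3 : b⁻¹ * a⁻¹ = a⁻¹ * b⁻¹ := (Commute.inv_inv hab').eq.symm
          calc x * a⁻¹ * (a * (y * b⁻¹) * a⁻¹) = x * y * (b⁻¹ * a⁻¹) := by group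
            _ = y * x * (a⁻¹ * b⁻¹) := by rw [hxy.eq, h3]
            _ = _ := by group
        exact e _ _ _ _ hxy hc
      · rw [SemidirectProduct.mul_right, SemidirectProduct.mul_right]
        simp only [qq, ← QuotientGroup.mk_mul, hxy.eq]⟩
  have hinj : Function.Injective f := by
    intro r r' h
    have h' := congrArg Subtype.val h
    have e1 := congrArg (fun t : S × S => t.1.right) h'
    have e2 := congrArg (fun t : S × S => t.2.right) h'
    have e3 := congrArg (fun t : S × S => (t.1.left : X)) h'
    have e4 := congrArg (fun t : S × S => (t.2.left : X)) h'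
    have hq : qq r.1 = qq r'.1 := Prod.ext e1 e2
    simp only [f, hq, mul_left_inj] at e3 e4
    exact Subtype.ext (Prod.ext e3 e4)
  have h := Nat.card_le_card_of_injective f hinj
  rw [card_comm_eq_card_conjClasses_mul_card, card_comm_eq_card_conjClasses_mul_card, hcard] at h
  exact Nat.le_of_mul_le_mul_right h Nat.card_pos

end Cfsg.Agent.S4965
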