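import Cfsg.Statements.S4966
import Mathlib.RepresentationTheory.Maschke
import Mathlib.RepresentationTheory.Semisimple
import Mathlib.RepresentationTheory.Subrepresentation
import Mathlib.LinearAlgebra.BilinearForm.Properties
import Mathlib.LinearAlgebra.Dual.Lemmas
import Mathlib.LinearAlgebra.Projection
import Mathlib.LinearAlgebra.FiniteDimensional.Lemmas
import Mathlib.RingTheory.Artinian.Module
import Mathlib.Tactic.LinearCombination
-- import your own Cfsg.Agent.* helpers here

set_option autoImplicit false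
open Cfsg

namespace Cfsg.Agent.S4966

section aux

variable {F : Type*} [Field F] {G : Type*} [Group G] [Finite G]
  {V : Type*} [AddCommGroup V] [Module F V] [FiniteDimensional F V]

omit [Finite G] in
/-- The projection onto `C` along the orthogonal of `K`, for a perfect invariant pairing. -/
theorem exists_pairProj (ρ : Representation F G V) (B : LinearMap.BilinForm F V)
    (hBinv : ∀ g : G, ∀ x y : V, B (ρ g x) (ρ g y) = B x y) (K C : Submodule F V)
    (hK : ∀ g : G, ∀ u ∈ K, ρ g u ∈ K) (hC : ∀ g : G, ∀ u ∈ C, ρ g u ∈ C)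
    (hl : ∀ k ∈ K, (∀ c ∈ C, B k c = 0) → k = 0) (hr : ∀ c ∈ C, (∀ k ∈ K, B k c = 0) → c = 0) :
    ∃ π : V →ₗ[F] V, (∀ x, π x ∈ C) ∧ (∀ c ∈ C, π c = c) ∧ (∀ k ∈ K, ∀ x, B k (π x) = B k x) ∧
      ∀ g x, π (ρ g x) = ρ g (π x) := by
  let f : C →ₗ[F] Module.Dual F K :=
    LinearMap.compl₂ (LinearMap.comp (LinearMap.BilinForm.flip B) C.subtype) K.subtype
  have hf : ∀ (c : C) (k : K), f c k = B k c := fun c k => rfl
  let f' : K →ₗ[F] Module.Dual F C := LinearMap.compl₂ (LinearMap.comp B K.subtype) C.subtype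
  have hinj : Function.Injective f := by
    rw [injective_iff_map_eq_zero]
    intro c hc
    exact Subtype.ext (hr c c.2 fun k hk => by rw [← hf c ⟨k, hk⟩, hc]; rfl)
  have hinj' : Function.Injective f' := by
    rw [injective_iff_map_eq_zero]
    intro k hk'
    exact Subtype.ext (hl k k.2 fun c hc =>
      show f' k ⟨c, hc⟩ = 0 by rw [hk']; rfl)
  have hdim : Module.finrank F C = Module.finrank F (Module.Dual F K) := by
    refine le_antisymm (LinearMap.finrank_le_finrank_of_injective hinj) ?_
    have := LinearMap.finrank_le_finrank_of_injective hinj'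
    rw [Subspace.dual_finrank_eq] at this ⊢
    exact this
  let e := f.linearEquivOfInjective hinj hdim
  let r : V →ₗ[F] Module.Dual F K := (LinearMap.BilinForm.flip B).compl₂ K.subtype
  let π : V →ₗ[F] V := C.subtype ∘ₗ e.symm.toLinearMap ∘ₗ r
  have hπmem : ∀ x, π x ∈ C := fun x => (e.symm (r x)).2
  have hspec : ∀ k ∈ K, ∀ x, B k (π x) = B k x := by
    intro k hk x
    have h1 : f (e.symm (r x)) = r x := e.apply_symm_apply _
    exact LinearMap.congr_fun h1 ⟨k, hk⟩
  have huniq : ∀ x, ∀ c ∈ C, (∀ k ∈ K, B k c = B k x) → π x = c := by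
    intro x c hc h
    exact sub_eq_zero.mp (hr _ (C.sub_mem (hπmem x) hc) fun k hk => by
      rw [map_sub, hspec k hk, h k hk, sub_self])
  refine ⟨π, hπmem, fun c hc => huniq c c hc fun _ _ => rfl, hspec, fun g x => ?_⟩
  refine huniq _ _ (hC g _ (hπmem x)) fun k hk => ?_
  have hgg : ∀ y, ρ g (ρ g⁻¹ y) = y := fun y => by
    rw [← Module.End.mul_apply, ← map_mul, mul_inv_cancel, map_one, Module.End.one_apply]
  rw [← hgg k, hBinv, hBinv]
  exact hspec _ (hK g⁻¹ k hk) x

/-- Invariant complement inside an invariant subspace. -/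
theorem exists_invCompl (ρ : Representation F G V) (hcard : (Nat.card G : F) ≠ 0)
    (U S : Submodule F V) (hU : ∀ g : G, ∀ u ∈ U, ρ g u ∈ U) (hS : ∀ g : G, ∀ u ∈ S, ρ g u ∈ S)
    (hSU : S ≤ U) :
    ∃ C : Submodule F V, (∀ g : G, ∀ u ∈ C, ρ g u ∈ C) ∧ C ≤ U ∧ S ⊔ C = U ∧ S ⊓ C = ⊥ := by
  have : NeZero (Nat.card G : F) := ⟨hcard⟩
  obtain ⟨D, hD⟩ := exists_isCompl (⟨S, fun g v hv => hS g v hv⟩ : Subrepresentation ρ)
  have hinf : S ⊓ D.toSubmodule = ⊥ := congrArg Subrepresentation.toSubmodule hD.inf_eq_bot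
  have hsup : S ⊔ D.toSubmodule = ⊤ := congrArg Subrepresentation.toSubmodule hD.sup_eq_top
  refine ⟨D.toSubmodule ⊓ U, fun g u hu => ⟨D.apply_mem_toSubmodule g hu.1, hU g u hu.2⟩,
    inf_le_right, ?_, ?_⟩
  · rw [← sup_inf_assoc_of_le _ hSU, hsup, top_inf_eq]
  · rw [← inf_assoc, hinf, bot_inf_eq]

/-- In characteristic two a self-dual module without fixed points carries a non-degenerate
invariant alternating form. -/
theorem exists_alternating (ρ : Representation F G V) (h2 : (2 : F) = 0)
    (hcard : (Nat.card G : F) ≠ 0) (B : LinearMap.BilinForm F V)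
    (hBinv : ∀ g : G, ∀ x y : V, B (ρ g x) (ρ g y) = B x y) (m : ℕ) :
    ∀ (U : Submodule F V), Module.finrank F U ≤ m → (∀ g : G, ∀ u ∈ U, ρ g u ∈ U) →
      (∀ u ∈ U, (∀ g : G, ρ g u = u) → u = 0) →
      (∀ x ∈ U, (∀ y ∈ U, B y x = 0) → x = 0) →
      ∃ A : LinearMap.BilinForm F V, (∀ x : V, A x x = 0) ∧
        (∀ g : G, ∀ x ∈ U, ∀ y ∈ U, A (ρ g x) (ρ g y) = A x y) ∧
        (∀ x ∈ U, (∀ y ∈ U, A x y = 0) → x = 0) := by
  induction m with
  | zero =>
    intro U hle _ _ _
    refine ⟨0, fun x => rfl, fun g x _ y _ => rfl, fun x hx _ => ?_⟩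
    rw [Submodule.finrank_eq_zero.mp (Nat.le_zero.mp hle)] at hx
    exact (Submodule.mem_bot F).mp hx
  | succ m ih =>
    intro U hle hU hfix hnd
    have hchar : ∀ a : F, a + a = 0 := fun a => by rw [← two_mul, h2, zero_mul]
    let A0 : LinearMap.BilinForm F V := B + LinearMap.BilinForm.flip B
    have hA0 : ∀ x y, A0 x y = B x y + B y x := fun x y => rfl
    -- the radical of the alternating form
    let R : Submodule F V :=
      { carrier := {x | x ∈ U ∧ ∀ y ∈ U, A0 x y = 0}
        zero_mem' := ⟨U.zero_mem, fun y _ => by simp⟩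
        add_mem' := fun {a b} ha hb => ⟨U.add_mem ha.1 hb.1, fun y hy => by
          rw [map_add, LinearMap.add_apply, ha.2 y hy, hb.2 y hy, add_zero]⟩
        smul_mem' := fun c a ha => ⟨U.smul_mem c ha.1, fun y hy => by
          rw [map_smul, LinearMap.smul_apply, ha.2 y hy, smul_zero]⟩ }
    by_cases hR0 : R = ⊥
    · refine ⟨A0, fun x => by rw [hA0]; exact hchar _,
        fun g x _ y _ => by simp only [hA0, hBinv], fun x hx h => ?_⟩
      have : x ∈ R := ⟨hx, h⟩
      rw [hR0] at this
      exact (Submodule.mem_bot F).mp this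
    have hgg : ∀ (g : G) (y : V), ρ g (ρ g⁻¹ y) = y := fun g y => by
      rw [← Module.End.mul_apply, ← map_mul, mul_inv_cancel, map_one, Module.End.one_apply]
    have hRinv : ∀ g : G, ∀ u ∈ R, ρ g u ∈ R := fun g u hu => ⟨hU g u hu.1, fun y hy => by
      rw [← hgg g y]
      have := hu.2 _ (hU g⁻¹ y hy)
      simp only [hA0, hBinv] at this ⊢
      exact this⟩
    have hsym : ∀ k ∈ R, ∀ x ∈ U, B k x = B x k := fun k hk x hx => by
      have h := hk.2 x hx
      rw [hA0] at h
      calc B k x = B k x + (B x k + B x k) := by rw [hchar, add_zero]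
        _ = B k x + B x k + B x k := (add_assoc _ _ _).symm
        _ = B x k := by rw [h, zero_add]
    -- vanishing of the diagonal on the radical
    have hdiag : ∀ x ∈ R, B x x = 0 := by
      intro x hx
      have := Fintype.ofFinite G
      have hadd : ∀ (s : Finset G), B (∑ g ∈ s, ρ g x) (∑ g ∈ s, ρ g x) = (s.card : F) * B x x := by
        classical
        intro s
        induction s using Finset.induction_on with
        | empty => simp
        | insert a s ha ihs =>
          have hmem : ∑ g ∈ s, ρ g x ∈ U := U.sum_mem fun g _ => hU g x hx.1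
          rw [Finset.sum_insert ha, Finset.card_insert_of_notMem ha, Nat.cast_succ]
          simp only [map_add, LinearMap.add_apply]
          rw [hBinv, ihs, hsym _ (hRinv a x hx) _ hmem]
          linear_combination hchar (B (∑ g ∈ s, ρ g x) (ρ a x))
      have h0 : ∑ g : G, ρ g x = 0 := by
        refine hfix _ (U.sum_mem fun g _ => hU g x hx.1) fun h => ?_
        rw [map_sum]
        refine Fintype.sum_equiv (Equiv.mulLeft h) _ _ fun g => ?_
        simp [map_mul]
      have h1 := hadd Finset.univ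
      rw [h0] at h1
      simp only [map_zero, Finset.card_univ, ← Nat.card_eq_fintype_card] at h1
      exact (mul_eq_zero.mp h1.symm).resolve_left hcard
    -- split off a non-degenerate piece
    suffices hP : ∃ (P : Submodule F V) (A1 : LinearMap.BilinForm F V), P ≤ U ∧ P ≠ ⊥ ∧
        (∀ g : G, ∀ u ∈ P, ρ g u ∈ P) ∧ (∀ x ∈ P, (∀ y ∈ P, B y x = 0) → x = 0) ∧
        (∀ x ∈ P, (∀ y ∈ P, B x y = 0) → x = 0) ∧ (∀ x ∈ P, A1 x x = 0) ∧
        (∀ g : G, ∀ x ∈ P, ∀ y ∈ P, A1 (ρ g x) (ρ g y) = A1 x y) ∧
        (∀ x ∈ P, (∀ y ∈ P, A1 x y = 0) → x = 0) by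
      obtain ⟨P, A1, hPU, hP0, hPinv, hPr, hPl, hA1d, hA1i, hA1n⟩ := hP
      obtain ⟨π, hπm, hπf, hπs, hπc⟩ := exists_pairProj ρ B hBinv P P hPinv hPinv hPl hPr
      let Q : Submodule F V := U ⊓ LinearMap.ker π
      have hQlt : Q < U := by
        refine lt_of_le_of_ne inf_le_left fun he => hP0 (eq_bot_iff.mpr fun x hx => ?_)
        have : x ∈ Q := he ▸ hPU hx
        rw [Submodule.mem_bot, ← hπf x hx]
        exact LinearMap.mem_ker.mp this.2
      have hQdim : Module.finrank F Q ≤ m := by
        have := Submodule.finrank_lt_finrank_of_lt hQlt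
        omega
      have hQinv : ∀ g : G, ∀ u ∈ Q, ρ g u ∈ Q := fun g u hu =>
        ⟨hU g u hu.1, by
          have hk : π u = 0 := LinearMap.mem_ker.mp hu.2
          show π (ρ g u) = 0
          rw [hπc, hk, map_zero]⟩
      have hdec : ∀ y ∈ U, y - π y ∈ Q := fun y hy =>
        ⟨U.sub_mem hy (hPU (hπm y)), by
          show π (y - π y) = 0
          rw [map_sub, hπf _ (hπm y), sub_self]⟩
      have hQnd : ∀ x ∈ Q, (∀ y ∈ Q, B y x = 0) → x = 0 := by
        intro x hx h
        refine hnd x hx.1 fun y hy => ?_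
        have h1 : B (π y) x = 0 := by
          rw [← hπs _ (hπm y) x, LinearMap.mem_ker.mp hx.2, map_zero]
        have h2 := h _ (hdec y hy)
        rw [map_sub, LinearMap.sub_apply, h1, sub_zero] at h2
        exact h2
      obtain ⟨A2, hA2d, hA2i, hA2n⟩ := ih Q hQdim hQinv (fun u hu => hfix u hu.1) hQnd
      let A : LinearMap.BilinForm F V :=
        A1.compl₁₂ π π + A2.compl₁₂ (LinearMap.id - π) (LinearMap.id - π)
      have hA : ∀ x y, A x y = A1 (π x) (π y) + A2 (x - π x) (y - π y) := fun x y => rfl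
      refine ⟨A, fun x => by rw [hA, hA1d _ (hπm x), hA2d, add_zero], fun g x hx y hy => ?_,
        fun x hx h => ?_⟩
      · rw [hA, hA, hπc, hπc, ← map_sub, ← map_sub, hA1i g _ (hπm x) _ (hπm y),
          hA2i g _ (hdec x hx) _ (hdec y hy)]
      · have hx1 : π x = 0 := hA1n _ (hπm x) fun y hy => by
          have := h y (hPU hy)
          rwa [hA, hπf y hy, sub_self, map_zero, add_zero] at this
        have hx2 : x - π x = 0 := hA2n _ (hdec x hx) fun y hy => by
          have := h y hy.1
          rwa [hA, LinearMap.mem_ker.mp hy.2, map_zero, zero_add, sub_zero] at this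
        rwa [hx1, sub_zero] at hx2
    -- the piece
    let K : Submodule F V :=
      { carrier := {x | x ∈ R ∧ ∀ y ∈ R, B y x = 0}
        zero_mem' := ⟨R.zero_mem, fun y _ => by simp⟩
        add_mem' := fun {a b} ha hb => ⟨R.add_mem ha.1 hb.1, fun y hy => by
          rw [map_add, ha.2 y hy, hb.2 y hy, add_zero]⟩
        smul_mem' := fun c a ha => ⟨R.smul_mem c ha.1, fun y hy => by
          rw [map_smul, ha.2 y hy, smul_zero]⟩ }
    by_cases hK0 : K = ⊥
    · have hr : ∀ x ∈ R, (∀ y ∈ R, B y x = 0) → x = 0 := fun x hx h => by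
        have : x ∈ K := ⟨hx, h⟩
        rw [hK0] at this
        exact (Submodule.mem_bot F).mp this
      refine ⟨R, B, fun x hx => hx.1, hR0, hRinv, hr,
        fun x hx h => hr x hx fun y hy => by rw [hsym y hy x hx.1]; exact h y hy, hdiag,
        fun g x _ y _ => hBinv g x y,
        fun x hx h => hr x hx fun y hy => by rw [hsym y hy x hx.1]; exact h y hy⟩
    let Kp : Submodule F V :=
      { carrier := {x | x ∈ U ∧ ∀ k ∈ K, B k x = 0}
        zero_mem' := ⟨U.zero_mem, fun y _ => by simp⟩
        add_mem' := fun {a b} ha hb => ⟨U.add_mem ha.1 hb.1, fun y hy => by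
          rw [map_add, ha.2 y hy, hb.2 y hy, add_zero]⟩
        smul_mem' := fun c a ha => ⟨U.smul_mem c ha.1, fun y hy => by
          rw [map_smul, ha.2 y hy, smul_zero]⟩ }
    have hKinv : ∀ g : G, ∀ u ∈ K, ρ g u ∈ K := fun g u hu => ⟨hRinv g u hu.1, fun y hy => by
      rw [← hgg g y, hBinv]
      exact hu.2 _ (hRinv g⁻¹ y hy)⟩
    have hKpinv : ∀ g : G, ∀ u ∈ Kp, ρ g u ∈ Kp := fun g u hu => ⟨hU g u hu.1, fun y hy => by
      rw [← hgg g y, hBinv]
      exact hu.2 _ (hKinv g⁻¹ y hy)⟩
    obtain ⟨C, hCinv, hCU, hCsup, hCinf⟩ := exists_invCompl ρ hcard U Kp hU hKpinv fun x hx => hx.1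
    have hKU : ∀ k ∈ K, k ∈ U := fun k hk => hk.1.1
    have hKK : ∀ k ∈ K, ∀ k' ∈ K, B k k' = 0 := fun k hk k' hk' => hk'.2 k hk.1
    have hr : ∀ c ∈ C, (∀ k ∈ K, B k c = 0) → c = 0 := fun c hc h => by
      have : c ∈ Kp ⊓ C := ⟨⟨hCU hc, h⟩, hc⟩
      rw [hCinf] at this
      exact (Submodule.mem_bot F).mp this
    have hl : ∀ k ∈ K, (∀ c ∈ C, B k c = 0) → k = 0 := fun k hk h =>
      hnd k (hKU k hk) fun y hy => by
        rw [← hsym k hk.1 y hy]
        obtain ⟨a, ha, c, hc, rfl⟩ := Submodule.mem_sup.mp (show y ∈ Kp ⊔ C from hCsup.symm ▸ hy)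
        rw [map_add, ha.2 k hk, h c hc, add_zero]
    obtain ⟨γ, hγm, hγf, hγs, hγc⟩ := exists_pairProj ρ B hBinv K C hKinv hCinv hl hr
    have hγK : ∀ k ∈ K, γ k = 0 := fun k hk => hr _ (hγm k) fun k' hk' => by
      rw [hγs k' hk' k, hKK k' hk' k hk]
    refine ⟨K ⊔ C, B.compl₂ γ + LinearMap.BilinForm.flip (B.compl₂ γ),
      sup_le (fun k hk => hKU k hk) hCU,
      fun h => hK0 (eq_bot_iff.mpr (h ▸ le_sup_left)), ?_, ?_, ?_,
      fun x _ => hchar _, ?_, ?_⟩
    · intro g u hu
      obtain ⟨k, hk, c, hc, rfl⟩ := Submodule.mem_sup.mp hu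
      rw [map_add]
      exact Submodule.add_mem_sup (hKinv g k hk) (hCinv g c hc)
    · intro x hx h
      obtain ⟨k, hk, c, hc, rfl⟩ := Submodule.mem_sup.mp hx
      have hc0 : c = 0 := hr c hc fun k' hk' => by
        have := h k' (Submodule.mem_sup_left hk')
        rwa [map_add, hKK k' hk' k hk, zero_add] at this
      subst hc0
      rw [add_zero] at h ⊢
      exact hl k hk fun c hc => by
        rw [hsym k hk.1 c (hCU hc)]
        exact h c (Submodule.mem_sup_right hc)
    · intro x hx h
      obtain ⟨k, hk, c, hc, rfl⟩ := Submodule.mem_sup.mp hx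
      have hc0 : c = 0 := hr c hc fun k' hk' => by
        have := h k' (Submodule.mem_sup_left hk')
        rwa [map_add, LinearMap.add_apply, hKK k hk k' hk', zero_add,
          ← hsym k' hk'.1 c (hCU hc)] at this
      subst hc0
      rw [add_zero] at h ⊢
      exact hl k hk fun c hc => h c (Submodule.mem_sup_right hc)
    · intro g x _ y _
      show B (ρ g x) (γ (ρ g y)) + B (ρ g y) (γ (ρ g x)) = B x (γ y) + B y (γ x)
      rw [hγc, hγc, hBinv, hBinv]
    · intro x hx h
      obtain ⟨k, hk, c, hc, rfl⟩ := Submodule.mem_sup.mp hx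
      have he : ∀ y ∈ K ⊔ C, B (k + c) (γ y) + B y (γ (k + c)) = 0 := h
      have hc0 : c = 0 := hr c hc fun k' hk' => by
        have := he k' (Submodule.mem_sup_left hk')
        rwa [hγK k' hk', map_zero, zero_add, map_add γ, hγK k hk, hγf c hc, zero_add] at this
      subst hc0
      rw [add_zero] at he ⊢
      exact hl k hk fun c hc => by
        have := he c (Submodule.mem_sup_right hc)
        rwa [hγf c hc, hγK k hk, map_zero, add_zero] at this

end aux

/-- Let F be a finite field of characteristic p, G a finite group of order prime to p, and V a finite-dimensional representation of G over F carrying a nondegenerate G-invariant bilinear form (equivalently, V is self-dual). Then V is the direct sum of two G-invariant subspaces U and W such that U carries a G-invariant alternating bilinear form that is nondegenerate on U and W carries a G-invariant symmetric bilinear form that is nondegenerate on W; moreover when p = 2 the decomposition can be chosen with G acting trivially on W. -/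
theorem result {F : Type*} [Field F] [Fintype F] (p : ℕ) [Fact p.Prime] [CharP F p] {G : Type*} [Group G] [Finite G] (hcop : ¬ p ∣ Nat.card G) {V : Type*} [AddCommGroup V] [Module F V] [FiniteDimensional F V] (ρ : Representation F G V) (B : LinearMap.BilinForm F V) (hB : B.Nondegenerate) (hBinv : ∀ g : G, ∀ x y : V, B (ρ g x) (ρ g y) = B x y) : ∃ U W : Submodule F V, IsCompl U W ∧ (∀ g : G, ∀ u ∈ U, ρ g u ∈ U) ∧ (∀ g : G, ∀ w ∈ W, ρ g w ∈ W) ∧ (∃ A : LinearMap.BilinForm F V, (∀ x : V, A x x = 0) ∧ (∀ g : G, ∀ x ∈ U, ∀ y ∈ U, A (ρ g x) (ρ g y) = A x y) ∧ (∀ x ∈ U, (∀ y ∈ U, A x y = 0) → x = 0)) ∧ (∃ S : LinearMap.BilinForm F V, (∀ x y : V, S x y = S y x) ∧ (∀ g : G, ∀ x ∈ W, ∀ y ∈ W, S (ρ g x) (ρ g y) = S x y) ∧ (∀ x ∈ W, (∀ y ∈ W, S x y = 0) → x = 0)) ∧ (p = 2 → ∀ g : G, ∀ w ∈ W, ρ g w = w) := by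
  classical
  have := Fintype.ofFinite G
  have hcard : (Nat.card G : F) ≠ 0 := fun h => hcop ((CharP.cast_eq_zero_iff F p _).mp h)
  have hgg : ∀ (g : G) (y : V), ρ g (ρ g⁻¹ y) = y := fun g y => by
    rw [← Module.End.mul_apply, ← map_mul, mul_inv_cancel, map_one, Module.End.one_apply]
  by_cases hp2 : p = 2
  · subst hp2
    have h2 : (2 : F) = 0 := by simpa using CharP.cast_eq_zero F 2
    let e : V →ₗ[F] V := (Nat.card G : F)⁻¹ • ∑ g : G, ρ g
    have he : ∀ x, e x = (Nat.card G : F)⁻¹ • ∑ g : G, ρ g x := fun x => by simp [e]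
    have hfixe : ∀ h x, ρ h (e x) = e x := fun h x => by
      rw [he, map_smul, map_sum]
      congr 1
      exact Fintype.sum_equiv (Equiv.mulLeft h) _ _ fun g => by simp [map_mul]
    have hecomm : ∀ h x, e (ρ h x) = e x := fun h x => by
      rw [he, he]
      congr 1
      exact Fintype.sum_equiv (Equiv.mulRight h) _ _ fun g => by simp [map_mul]
    have hefix : ∀ x, (∀ g, ρ g x = x) → e x = x := fun x hx => by
      rw [he, Finset.sum_congr rfl fun g _ => hx g, Finset.sum_const, Finset.card_univ,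
        ← Nat.card_eq_fintype_card, ← Nat.cast_smul_eq_nsmul F, smul_smul, inv_mul_cancel₀ hcard,
        one_smul]
    have hproj : LinearMap.IsProj (LinearMap.range e) e :=
      ⟨fun x => LinearMap.mem_range_self e x, fun x ⟨y, hy⟩ => hefix x fun g => hy ▸ hfixe g y⟩
    have hadj : ∀ x y, B x (e y) = B (e x) y := fun x y => by
      simp only [he, map_smul, map_sum, LinearMap.smul_apply, LinearMap.sum_apply]
      congr 1
      refine Fintype.sum_equiv (Equiv.inv G) _ _ fun g => ?_
      rw [← hBinv g⁻¹, ← Module.End.mul_apply (ρ g⁻¹) (ρ g), ← map_mul, inv_mul_cancel, map_one]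
      rfl
    refine ⟨LinearMap.ker e, LinearMap.range e, (hproj.isCompl).symm, fun g u hu => ?_,
      fun g w hw => ?_, ?_, ?_, fun _ g w hw => ?_⟩
    · rw [LinearMap.mem_ker] at hu ⊢
      rw [hecomm, hu]
    · obtain ⟨y, rfl⟩ := hw
      rw [hfixe]
      exact LinearMap.mem_range_self e y
    · refine exists_alternating ρ h2 hcard B hBinv _ (LinearMap.ker e) le_rfl
        (fun g u hu => by rw [LinearMap.mem_ker] at hu ⊢; rw [hecomm, hu])
        (fun u hu hf => by rw [← hefix u hf, LinearMap.mem_ker.mp hu]) fun x hx h => hB.2 x fun y => ?_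
      have h1 : B (e y) x = 0 := by rw [← hadj, LinearMap.mem_ker.mp hx, map_zero]
      have h2 := h (y - e y) (by
        rw [LinearMap.mem_ker, map_sub, hefix (e y) (fun g => hfixe g y), sub_self])
      rw [map_sub, LinearMap.sub_apply, h1, sub_zero] at h2
      exact h2
    · let b := Module.finBasis F (LinearMap.range e)
      let co : Fin (Module.finrank F (LinearMap.range e)) → V →ₗ[F] F := fun i =>
        (b.coord i).comp e.rangeRestrict
      let S : LinearMap.BilinForm F V := ∑ i, (co i).smulRight (co i)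
      have hS : ∀ x y, S x y = ∑ i, co i x * co i y := fun x y => by simp [S]
      have hfixW : ∀ g, ∀ w ∈ LinearMap.range e, ρ g w = w := fun g w ⟨y, hy⟩ => hy ▸ hfixe g y
      refine ⟨S, fun x y => by simp only [hS, mul_comm], fun g x hx y hy => by
        rw [hfixW g x hx, hfixW g y hy], fun x hx h => ?_⟩
      have hrest : ∀ w : LinearMap.range e, e.rangeRestrict (w : V) = w := fun w =>
        Subtype.ext (hproj.map_id _ w.2)
      have hco : ∀ i (w : LinearMap.range e), co i w = b.repr w i := fun i w => by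
        simp [co, hrest]
      have hz : ∀ i, b.repr ⟨x, hx⟩ i = 0 := fun i => by
        have := h (b i : V) (b i).2
        rw [hS] at this
        simpa [hco, hco _ ⟨x, hx⟩, show ∀ j, co j x = b.repr ⟨x, hx⟩ j from fun j => hco j ⟨x, hx⟩,
          Finsupp.single_apply] using this
      have : (⟨x, hx⟩ : LinearMap.range e) = 0 := b.repr.injective (by ext i; simp [hz i])
      exact congrArg Subtype.val this
    · obtain ⟨y, rfl⟩ := hw
      exact hfixe g y
  · have h2 : (2 : F) ≠ 0 := fun h => hp2 (by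
      have := (CharP.cast_eq_zero_iff F p 2).mp (by simpa using h)
      exact (Nat.prime_dvd_prime_iff_eq (Fact.out : p.Prime) Nat.prime_two).mp this)
    let T : Module.End F V :=
      (B.toDual hB).symm.toLinearMap ∘ₗ (LinearMap.BilinForm.flip B)
    have hT : ∀ x y, B (T x) y = B y x := fun x y => by
      have := LinearMap.BilinForm.apply_toDual_symm_apply (hB := hB) (LinearMap.BilinForm.flip B x) y
      simpa [T] using this
    have hTT : ∀ x y, B (T x) (T y) = B x y := fun x y => by rw [hT, hT]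
    have hTρ : ∀ g x, T (ρ g x) = ρ g (T x) := fun g x => by
      refine sub_eq_zero.mp (hB.1 _ fun y => ?_)
      rw [map_sub, LinearMap.sub_apply, hT, ← hgg g y, hBinv, hBinv, hT, sub_self]
    let N : Module.End F V := T + 1
    have hN : ∀ x, N x = T x + x := fun x => rfl
    have hNρ : ∀ g x, N (ρ g x) = ρ g (N x) := fun g x => by rw [hN, hN, hTρ, map_add]
    obtain ⟨k, hk⟩ := Filter.eventually_atTop.mp N.eventually_isCompl_ker_pow_range_pow
    let n := max k 1
    have hcompl : IsCompl (LinearMap.ker (N ^ n)) (LinearMap.range (N ^ n)) := hk n (le_max_left _ _)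
    have hpρ : ∀ (j : ℕ) g x, (N ^ j) (ρ g x) = ρ g ((N ^ j) x) := by
      intro j
      induction j with
      | zero => intro g x; rfl
      | succ j ih => intro g x; simp only [pow_succ, Module.End.mul_apply, hNρ, ih]
    have hpT : ∀ (j : ℕ) x, (N ^ j) (T x) = T ((N ^ j) x) := by
      intro j
      induction j with
      | zero => intro x; rfl
      | succ j ih =>
        intro x
        simp only [pow_succ, Module.End.mul_apply]
        rw [show N (T x) = T (N x) by rw [hN, hN, map_add], ih]
    have hTinj : Function.Injective T :=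
      (B.toDual hB).symm.injective.comp fun a b h => sub_eq_zero.mp (hB.2 _ fun y => by
        rw [map_sub, sub_eq_zero]
        exact LinearMap.congr_fun h y)
    have hTsurj : Function.Surjective T := LinearMap.surjective_of_injective hTinj
    -- orthogonality
    have horth : ∀ (j : ℕ) x, (N ^ j) x = 0 → ∀ z, B x ((N ^ j) z) = 0 := by
      intro j
      induction j with
      | zero => intro x hx z; rw [pow_zero, Module.End.one_apply] at hx; simp [hx]
      | succ j ih =>
        intro x hx z
        obtain ⟨x', rfl⟩ := hTsurj x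
        rw [pow_succ', Module.End.mul_apply, hN, map_add, hTT]
        have h1 : (N ^ j) (N x') = 0 := by
          apply hTinj
          rw [map_zero, ← hx, hpT, pow_succ, Module.End.mul_apply]
        have h2 := ih _ h1 z
        rw [hN, map_add, LinearMap.add_apply, add_comm] at h2
        exact h2
    have hUW : ∀ u ∈ LinearMap.ker (N ^ n), ∀ w ∈ LinearMap.range (N ^ n), B u w = 0 ∧ B w u = 0 := by
      rintro u hu w ⟨z, rfl⟩
      rw [LinearMap.mem_ker] at hu
      refine ⟨horth n u hu z, ?_⟩
      rw [← hT u]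
      exact horth n (T u) (by rw [hpT, hu, map_zero]) z
    have hsplit : ∀ y, ∃ u ∈ LinearMap.ker (N ^ n), ∃ w ∈ LinearMap.range (N ^ n), u + w = y :=
      fun y => Submodule.mem_sup.mp (hcompl.sup_eq_top ▸ Submodule.mem_top)
    refine ⟨LinearMap.ker (N ^ n), LinearMap.range (N ^ n), hcompl, fun g u hu => ?_,
      fun g w hw => ?_, ?_, ?_, fun h => absurd h hp2⟩
    · rw [LinearMap.mem_ker] at hu ⊢
      rw [hpρ, hu, map_zero]
    · obtain ⟨z, rfl⟩ := hw
      exact ⟨ρ g z, hpρ n g z⟩
    · refine ⟨B - LinearMap.BilinForm.flip B, fun x => by simp, fun g x _ y _ => by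
        simp [hBinv], fun x hx h => ?_⟩
      have h1 : T x = x := (sub_eq_zero.mp (hB.1 _ fun y => ?_))
      · have h3 : ∀ j : ℕ, (N ^ j) x = (2 : F) ^ j • x := by
          intro j
          induction j with
          | zero => simp
          | succ j ih =>
            rw [pow_succ, Module.End.mul_apply, hN, h1, ← two_smul F x, map_smul, ih, smul_smul,
              pow_succ']
        rw [LinearMap.mem_ker, h3] at hx
        exact (smul_eq_zero.mp hx).resolve_left (pow_ne_zero _ h2)
      · obtain ⟨u, hu, w, hw, rfl⟩ := hsplit y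
        have hu' := h u hu
        simp only [LinearMap.sub_apply, LinearMap.BilinForm.flip_apply, sub_eq_zero] at hu'
        rw [map_sub, LinearMap.sub_apply, hT, map_add, map_add, LinearMap.add_apply,
          (hUW x hx w hw).1, (hUW x hx w hw).2, add_zero, add_zero, hu', sub_self]
    · refine ⟨B + LinearMap.BilinForm.flip B, fun x y => by simp [add_comm], fun g x _ y _ => by
        simp [hBinv], fun x hx h => ?_⟩
      have hNx : N x = 0 := hB.1 _ fun y => by
        obtain ⟨u, hu, w, hw, rfl⟩ := hsplit y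
        have hw' := h w hw
        simp only [LinearMap.add_apply, LinearMap.BilinForm.flip_apply] at hw'
        simp only [hN, map_add, LinearMap.add_apply, hT, (hUW u hu x hx).1, (hUW u hu x hx).2]
        linear_combination hw'
      have hxk : x ∈ LinearMap.ker (N ^ n) := by
        obtain ⟨n', hn'⟩ : ∃ n', n = n' + 1 :=
          ⟨n - 1, (Nat.sub_add_cancel (le_max_right k 1)).symm⟩
        rw [LinearMap.mem_ker, hn', pow_succ, Module.End.mul_apply, hNx, map_zero]
      exact Submodule.disjoint_def.mp hcompl.disjoint x hxk hx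

end Cfsg.Agent.S4966
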