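import Cfsg.Statements.S4967
import Mathlib.FieldTheory.Finite.Basic
import Mathlib.RingTheory.IntegralDomain
import Mathlib.Algebra.Algebra.Subalgebra.Lattice
import Mathlib.LinearAlgebra.BilinearForm.Properties
-- import your own Cfsg.Agent.* helpers here

set_option autoImplicit false
open Cfsg

namespace Cfsg.Agent.S4967

section field

variable {F : Type*} [Field F] [Fintype F] {K : Type*} [Field K] [Algebra F K] [Finite K]
  {H : Type*} [CommGroup H] [Finite H] (u : H →* K)

theorem frob_pow_apply (k : ℕ) (x : K) :
    ((FiniteField.frobeniusAlgEquivOfAlgebraic F K) ^ k) x = x ^ Fintype.card F ^ k := by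
  induction k generalizing x with
  | zero => simp
  | succ k ih =>
    rw [pow_succ', AlgEquiv.mul_apply, ih, pow_succ, pow_mul]
    rfl

theorem finrank_dvd_of_fix (hgen : Algebra.adjoin F (Set.range u) = ⊤) {j : ℕ}
    (hj : ∀ h, u h ^ Fintype.card F ^ j = u h) : Module.finrank F K ∣ j := by
  rw [← FiniteField.orderOf_frobeniusAlgEquivOfAlgebraic F K]
  refine orderOf_dvd_of_pow_eq_one (AlgEquiv.coe_algHom_injective (AlgHom.ext_of_adjoin_eq_top hgen ?_))
  rintro _ ⟨h, rfl⟩
  show ((FiniteField.frobeniusAlgEquivOfAlgebraic F K) ^ j) (u h) = u h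
  rw [frob_pow_apply, hj]

theorem of_inverting (hu : Function.Injective u) (hgen : Algebra.adjoin F (Set.range u) = ⊤)
    (σ : K ≃ₐ[F] K) (hσ : ∀ h, σ (u h) = u h⁻¹) :
    (Module.finrank F K = 1 → Nat.card H ≤ 2) ∧ (2 ≤ Module.finrank F K →
      Even (Module.finrank F K) ∧
        Nat.card H ∣ Fintype.card F ^ (Module.finrank F K / 2) + 1) := by
  obtain ⟨⟨k, hk⟩, rfl⟩ := (FiniteField.bijective_frobeniusAlgEquivOfAlgebraic_pow F K).2 σ
  simp only [frob_pow_apply] at hσ
  haveI : IsCyclic H := isCyclic_of_subgroup_isDomain u hu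
  obtain ⟨h₀, hh₀⟩ := IsCyclic.exists_ofOrder_eq_natCard (α := H)
  have hdvd : Nat.card H ∣ Fintype.card F ^ k + 1 := by
    rw [← hh₀]
    refine orderOf_dvd_of_pow_eq_one (hu ?_)
    rw [map_pow, pow_succ, hσ, ← map_mul, inv_mul_cancel, map_one]
  refine ⟨fun hn => ?_, fun hn => ?_⟩
  · have hk0 : k = 0 := by omega
    subst hk0
    exact Nat.le_of_dvd (by norm_num) (by simpa using hdvd)
  · have hsq : ∀ h, u h ^ Fintype.card F ^ (2 * k) = u h := fun h => by
      rw [two_mul, pow_add, pow_mul, hσ, hσ, inv_inv]
    have h2k := finrank_dvd_of_fix u hgen hsq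
    have hk0 : k ≠ 0 := by
      rintro rfl
      have h1 : ∀ h, u h ^ Fintype.card F ^ 1 = u h := by
        intro h
        have h2 : u h * u h = 1 := by
          have := hσ h
          rw [pow_zero, pow_one] at this
          nth_rewrite 2 [this]
          rw [← map_mul, mul_inv_cancel, map_one]
        rw [pow_one]
        rcases mul_self_eq_one_iff.1 h2 with h3 | h3
        · rw [h3, one_pow]
        · rw [h3, show (-1 : K) = algebraMap F K (-1) by simp, ← map_pow, FiniteField.pow_card]
      have := Nat.le_of_dvd one_pos (finrank_dvd_of_fix u hgen h1)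
      omega
    have h2 : Module.finrank F K = 2 * k := by
      obtain ⟨c, hc⟩ := h2k
      rcases c with - | _ | c
      · omega
      · simpa using hc.symm
      · exfalso
        have : 2 * Module.finrank F K ≤ 2 * k := by
          rw [hc, mul_comm 2 (Module.finrank F K)]; exact Nat.mul_le_mul_left _ (by omega)
        omega
    rw [h2]
    exact ⟨even_two_mul k, by rwa [Nat.mul_div_cancel_left k two_pos]⟩

theorem exists_inverting (heven : Even (Module.finrank F K))
    (hdvd : Nat.card H ∣ Fintype.card F ^ (Module.finrank F K / 2) + 1) :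
    ∃ σ : K ≃ₐ[F] K, ∀ h, σ (u h) = u h⁻¹ := by
  refine ⟨FiniteField.frobeniusAlgEquivOfAlgebraic F K ^ (Module.finrank F K / 2), fun h => ?_⟩
  rw [frob_pow_apply, ← map_pow]
  congr 1
  refine eq_inv_of_mul_eq_one_left ?_
  rw [← pow_succ]
  exact orderOf_dvd_iff_pow_eq_one.1 ((orderOf_dvd_natCard h).trans hdvd)

end field

/-- Let F be a finite field with r elements and of characteristic p, H a finite abelian group of order prime to p, and V a faithful irreducible representation of H over F of dimension n (faithful: distinct elements act differently; irreducible: the only H-invariant subspaces are 0 and V). Call V self-dual when it carries a nondegenerate H-invariant bilinear form. If n = 1 and V is self-dual then H has order at most 2. If n ≥ 2 then V is self-dual if and only if n is even and the order of H divides r^(n/2) + 1. -/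
theorem result {F : Type*} [Field F] [Fintype F] (p : ℕ) [Fact p.Prime] [CharP F p] {H : Type*} [CommGroup H] [Finite H] (hcop : ¬ p ∣ Nat.card H) {V : Type*} [AddCommGroup V] [Module F V] [FiniteDimensional F V] (ρ : Representation F H V) (hfaith : Function.Injective ρ) (hirr : ∀ U : Submodule F V, (∀ h : H, ∀ u ∈ U, ρ h u ∈ U) → U = ⊥ ∨ U = ⊤) : (Module.finrank F V = 1 → (∃ B : LinearMap.BilinForm F V, B.Nondegenerate ∧ ∀ h : H, ∀ x y : V, B (ρ h x) (ρ h y) = B x y) → Nat.card H ≤ 2) ∧ (2 ≤ Module.finrank F V → ((∃ B : LinearMap.BilinForm F V, B.Nondegenerate ∧ ∀ h : H, ∀ x y : V, B (ρ h x) (ρ h y) = B x y) ↔ (Even (Module.finrank F V) ∧ Nat.card H ∣ Fintype.card F ^ (Module.finrank F V / 2) + 1))) := by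
  classical
  by_cases hV : Subsingleton V
  · have h0 : Module.finrank F V = 0 := Module.finrank_zero_of_subsingleton
    exact ⟨fun h => by omega, fun h => by omega⟩
  rw [not_subsingleton_iff_nontrivial] at hV
  obtain ⟨v, hv⟩ := exists_ne (0 : V)
  let S : Set (Module.End F V) := Set.range ρ
  have hcomm : ∀ a ∈ S, ∀ b ∈ S, a * b = b * a := by
    rintro _ ⟨a, rfl⟩ _ ⟨b, rfl⟩
    rw [← map_mul, ← map_mul, mul_comm]
  let K := Algebra.adjoin F S
  letI crK : CommRing K := Algebra.adjoinCommRingOfComm F hcomm
  have hρK : ∀ h, ρ h ∈ K := fun h => Algebra.subset_adjoin ⟨h, rfl⟩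
  let u : H →* K :=
    { toFun := fun h => ⟨ρ h, hρK h⟩
      map_one' := Subtype.ext (map_one ρ)
      map_mul' := fun a b => Subtype.ext (map_mul ρ a b) }
  have hinjev : ∀ a : K, (a : Module.End F V) v = 0 → a = 0 := by
    intro a ha
    rcases hirr (LinearMap.ker (a : Module.End F V)) (fun h w hw => by
      rw [LinearMap.mem_ker] at hw ⊢
      have := LinearMap.congr_fun (congrArg Subtype.val (mul_comm a (u h))) w
      exact this.trans (by show ρ h ((a : Module.End F V) w) = 0; rw [hw, map_zero])) with h | h
    · exact absurd (Submodule.mem_bot F |>.1 (h ▸ LinearMap.mem_ker.2 ha)) hv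
    · exact Subtype.ext (LinearMap.ext fun w => LinearMap.mem_ker.1 (h ▸ Submodule.mem_top))
  let ev : K →ₗ[F] V :=
    { toFun := fun a => (a : Module.End F V) v
      map_add' := fun a b => rfl
      map_smul' := fun c a => rfl }
  have hevinj : Function.Injective ev := by
    rw [injective_iff_map_eq_zero]; exact hinjev
  have hevsurj : Function.Surjective ev := by
    rw [← LinearMap.range_eq_top]
    refine (hirr (LinearMap.range ev) ?_).resolve_left ?_
    · rintro h _ ⟨a, rfl⟩
      exact ⟨u h * a, rfl⟩
    · intro h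
      have h2 : ev 1 ∈ LinearMap.range ev := LinearMap.mem_range_self ev 1
      rw [h, Submodule.mem_bot] at h2
      exact hv h2
  let ι : K ≃ₗ[F] V := LinearEquiv.ofBijective ev ⟨hevinj, hevsurj⟩
  haveI : Finite V := Module.finite_of_finite F
  haveI : Finite K := Finite.of_injective ev hevinj
  haveI : Nontrivial K := ⟨⟨1, 0, fun h => hv (congrArg ev h)⟩⟩
  haveI : NoZeroDivisors K := ⟨fun {a b} hab => by
    by_contra hc
    push Not at hc
    obtain ⟨ha, hb⟩ := hc
    rcases hirr (LinearMap.ker (a : Module.End F V)) (fun h w hw => by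
      rw [LinearMap.mem_ker] at hw ⊢
      have := LinearMap.congr_fun (congrArg Subtype.val (mul_comm a (u h))) w
      exact this.trans (by show ρ h ((a : Module.End F V) w) = 0; rw [hw, map_zero])) with h | h
    · refine hb (hinjev b ?_)
      refine (Submodule.mem_bot F).1 (h ▸ LinearMap.mem_ker.2 ?_)
      exact LinearMap.congr_fun (congrArg Subtype.val hab) v
    · exact ha (Subtype.ext (LinearMap.ext fun w => LinearMap.mem_ker.1 (h ▸ Submodule.mem_top)))⟩
  haveI : IsDomain K := NoZeroDivisors.to_isDomain K
  haveI : Fintype K := Fintype.ofFinite K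
  letI fK : Field K := Fintype.fieldOfDomain K
  have hu : Function.Injective u := fun a b h => hfaith (congrArg Subtype.val h)
  have hgen : Algebra.adjoin F (Set.range u) = (⊤ : Subalgebra F K) := by
    refine Subalgebra.map_injective (f := K.val) Subtype.val_injective ?_
    rw [AlgHom.map_adjoin, Algebra.map_top, Subalgebra.range_val, ← Set.range_comp]
    rfl
  have hfr : Module.finrank F K = Module.finrank F V := ι.finrank_eq
  -- an invariant form gives an inverting automorphism
  have hto : (∃ B : LinearMap.BilinForm F V, B.Nondegenerate ∧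
      ∀ h : H, ∀ x y : V, B (ρ h x) (ρ h y) = B x y) →
      ∃ σ : K ≃ₐ[F] K, ∀ h, σ (u h) = u h⁻¹ := by
    rintro ⟨B, hBnd, hBinv⟩
    have hadj : ∀ a : K, ∃ b : K,
        ∀ x y, B ((a : Module.End F V) x) y = B x ((b : Module.End F V) y) := by
      rintro ⟨a, ha⟩
      induction ha using Algebra.adjoin_induction with
      | mem a ha =>
        obtain ⟨h, rfl⟩ := ha
        refine ⟨u h⁻¹, fun x y => ?_⟩
        show B (ρ h x) y = B x (ρ h⁻¹ y)
        conv_lhs => rw [show y = ρ h (ρ h⁻¹ y) by
          rw [← Module.End.mul_apply, ← map_mul, mul_inv_cancel, map_one]; rfl]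
        rw [hBinv]
      | algebraMap c =>
        refine ⟨algebraMap F K c, fun x y => ?_⟩
        show B ((algebraMap F (Module.End F V) c) x) y = B x ((algebraMap F (Module.End F V) c) y)
        simp [Module.algebraMap_end_apply]
      | add a b ha hb iha ihb =>
        obtain ⟨a', ha'⟩ := iha
        obtain ⟨b', hb'⟩ := ihb
        refine ⟨a' + b', fun x y => ?_⟩
        show B (a x + b x) y = B x ((a' : Module.End F V) y + (b' : Module.End F V) y)
        rw [map_add, LinearMap.add_apply, map_add, ← ha' x y, ← hb' x y]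
      | mul a b ha hb iha ihb =>
        obtain ⟨a', ha'⟩ := iha
        obtain ⟨b', hb'⟩ := ihb
        refine ⟨b' * a', fun x y => ?_⟩
        show B (a (b x)) y = B x ((b' : Module.End F V) ((a' : Module.End F V) y))
        exact (ha' (b x) y).trans (hb' x _)
    choose τ hτ using hadj
    have huniq : ∀ a b : K, (∀ x y, B ((a : Module.End F V) x) y = B x ((b : Module.End F V) y)) →
        τ a = b := by
      intro a b hb
      refine Subtype.ext (LinearMap.ext fun y => sub_eq_zero.1 (hBnd.2 _ fun x => ?_))
      rw [map_sub, ← hτ a x y, hb x y, sub_self]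
    let σ₀ : K →ₐ[F] K :=
      { toFun := τ
        map_one' := huniq 1 1 fun _ _ => rfl
        map_mul' := fun a b => huniq _ _ fun x y => by
          show B ((a : Module.End F V) ((b : Module.End F V) x)) y = _
          rw [hτ a, hτ b, mul_comm (τ a) (τ b)]
          rfl
        map_zero' := huniq 0 0 fun x y => by simp
        map_add' := fun a b => huniq _ _ fun x y => by
          show B ((a : Module.End F V) x + (b : Module.End F V) x) y =
            B x (((τ a : K) : Module.End F V) y + ((τ b : K) : Module.End F V) y)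
          rw [map_add, LinearMap.add_apply, map_add, hτ a, hτ b]
        commutes' := fun c => huniq _ _ fun x y => by
          show B ((algebraMap F (Module.End F V) c) x) y =
            B x ((algebraMap F (Module.End F V) c) y)
          simp [Module.algebraMap_end_apply] }
    refine ⟨AlgEquiv.ofBijective σ₀ (Algebra.IsAlgebraic.algHom_bijective σ₀), fun h => ?_⟩
    refine huniq (u h) (u h⁻¹) fun x y => ?_
    show B (ρ h x) y = B x (ρ h⁻¹ y)
    conv_lhs => rw [show y = ρ h (ρ h⁻¹ y) by
      rw [← Module.End.mul_apply, ← map_mul, mul_inv_cancel, map_one]; rfl]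
    rw [hBinv]
  refine ⟨fun hn hB => ?_, fun hn => ⟨fun hB => ?_, fun hc => ?_⟩⟩
  · obtain ⟨σ, hσ⟩ := hto hB
    exact (of_inverting u hu hgen σ hσ).1 (hfr.trans hn)
  · obtain ⟨σ, hσ⟩ := hto hB
    rw [← hfr]
    exact (of_inverting u hu hgen σ hσ).2 (hn.trans hfr.ge)
  · rw [← hfr] at hc
    obtain ⟨σ, hσ⟩ := exists_inverting u hc.1 hc.2
    obtain ⟨t, ht⟩ : ∃ t : K →ₗ[F] F, t 1 = 1 :=
      (LinearMap.exists_leftInverse_of_injective (LinearMap.toSpanSingleton F K 1)
        (LinearMap.ker_eq_bot.2 fun a b h => by
          simp only [LinearMap.toSpanSingleton_apply, Algebra.smul_def, mul_one] at h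
          exact (algebraMap F K).injective h)).imp fun t ht => by
        have := LinearMap.congr_fun ht 1
        simpa using this
    let B : LinearMap.BilinForm F V := LinearMap.mk₂ F (fun x y => t (ι.symm x * σ (ι.symm y)))
      (fun x₁ x₂ y => by simp [add_mul])
      (fun c x y => by simp [Algebra.smul_mul_assoc])
      (fun x y₁ y₂ => by simp [mul_add])
      (fun c x y => by simp [Algebra.mul_smul_comm])
    have hsep : ∀ a : K, (∀ b : K, t (a * b) = 0) → a = 0 := fun a ha => by
      by_contra h
      have := ha a⁻¹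
      rw [mul_inv_cancel₀ h, ht] at this
      exact one_ne_zero this
    refine ⟨B, ⟨fun x hx => ?_, fun y hy => ?_⟩, fun h x y => ?_⟩
    · have := hsep (ι.symm x) fun b => by
        have := hx (ι (σ.symm b))
        simpa [B] using this
      simpa using congrArg ι this
    · have := hsep (σ (ι.symm y)) fun b => by
        have := hy (ι b)
        rw [mul_comm]
        simpa [B] using this
      rw [map_eq_zero] at this
      simpa using congrArg ι this
    · have hι : ∀ z, ι.symm (ρ h z) = u h * ι.symm z := fun z => by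
        refine ι.symm_apply_eq.2 ?_
        conv_lhs => rw [← ι.apply_symm_apply z]
        rfl
      show t (ι.symm (ρ h x) * σ (ι.symm (ρ h y))) = t (ι.symm x * σ (ι.symm y))
      rw [hι, hι, map_mul σ, hσ, mul_mul_mul_comm, ← map_mul u, mul_inv_cancel, map_one u, one_mul]

end Cfsg.Agent.S4967
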