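import Cfsg.Statements.S5015
import Cfsg.Agent.Fischer.RankOne

set_option autoImplicit false
open Cfsg Cfsg.Agent.Fischer

namespace Cfsg.Agent.S5015

/-- Let a group Y act doubly transitively on a set Ω with at least three points, and suppose that the stabilizer of a point α contains a nilpotent subgroup A, normalized by that stabilizer, which acts regularly on the points other than α. Then for any y in Y moving α, the subgroups A and y A y⁻¹ are the unipotent subgroups of a rank one group, and the normal closure of A in Y (the subgroup generated by all conjugates of A) is generated by A and y A y⁻¹ alone. -/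
theorem result {Y Ω : Type*} [Group Y] [MulAction Y Ω]
    (h2 : MulAction.IsMultiplyPretransitive Y Ω 2) (hΩ : 3 ≤ ENat.card Ω) (α : Ω) (A : Subgroup Y)
    (hA : A ≤ MulAction.stabilizer Y α) (hAn : ∀ y ∈ MulAction.stabilizer Y α, Cfsg.conjBy A y = A)
    (hnil : Group.IsNilpotent A) (hreg : ∀ β γ : Ω, β ≠ α → γ ≠ α → ∃! a : Y, a ∈ A ∧ a • β = γ)
    (y : Y) (hy : y ∉ MulAction.stabilizer Y α) :
    Cfsg.IsRankOnePair A (Cfsg.conjBy A y) ∧ Subgroup.normalClosure (A : Set Y) = A ⊔ Cfsg.conjBy A y := by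
  have hAeq : ∀ g : Y, g • α = α → Cfsg.conjBy A g = A := fun g hg => hAn g hg
  have hreg0 : ∀ a ∈ A, a • α = α := fun a ha => hA ha
  set β := y • α with hβdef
  have hβ : β ≠ α := fun e => hy e
  have hcb : ∀ g g' : Y, g • α = g' • α → Cfsg.conjBy A g = Cfsg.conjBy A g' := by
    intro g g' e
    rw [← cb_inj (g := g'⁻¹), cb_cb, cb_cb, inv_mul_cancel, cb_one]
    exact hAeq _ (by rw [mul_smul, e, inv_smul_smul])
  have hfix : ∀ (g : Y) (b : Y), b ∈ Cfsg.conjBy A g → b • (g • α) = g • α := by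
    intro g b hb
    rw [mem_cb] at hb
    have := congrArg (g • ·) (hreg0 _ hb)
    simpa [smul_smul, mul_assoc] using this
  have hregB : ∀ g : Y, ∀ γ δ : Ω, γ ≠ g • α → δ ≠ g • α → ∃ b, b ∈ Cfsg.conjBy A g ∧ b • γ = δ := by
    intro g γ δ h₁ h₂
    obtain ⟨a, ⟨ha, e⟩, -⟩ := hreg (g⁻¹ • γ) (g⁻¹ • δ) (fun e => h₁ (inv_smul_eq_iff.1 e))
      (fun e => h₂ (inv_smul_eq_iff.1 e))
    refine ⟨g * a * g⁻¹, cb_mem g ha, ?_⟩
    rw [mul_smul, mul_smul, e, smul_inv_smul]
  have hfree : ∀ a ∈ A, ∀ γ, γ ≠ α → a • γ = γ → a = 1 := by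
    intro a ha γ hγ e
    exact (hreg γ γ hγ hγ).unique ⟨ha, e⟩ ⟨one_mem _, one_smul _ _⟩
  have hcond : RankOneCondition A (Cfsg.conjBy A y) := by
    intro a ha ha1
    have hγβ : a⁻¹ • β ≠ β := fun e => ha1 (by simpa using hfree _ (inv_mem ha) β hβ e)
    obtain ⟨b, hb, e⟩ := hregB y α (a⁻¹ • β) hβ.symm hγβ
    refine ⟨b⁻¹, inv_mem hb, ?_, ?_⟩
    · intro e1
      rw [inv_eq_one] at e1
      rw [e1, one_smul] at e
      exact hβ (by rw [eq_inv_smul_iff] at e; rw [← e, hreg0 a ha])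
    · rw [inv_inv, cb_cb]
      exact hcb _ _ (by rw [e, mul_smul])
  have hcond' : RankOneCondition (Cfsg.conjBy A y) A := by
    intro b hb hb1
    have hfix' : b⁻¹ • β = β := hfix y _ (inv_mem hb)
    have hγ : b⁻¹ • α ≠ α := by
      intro e
      rw [inv_smul_eq_iff] at e
      have h1 : y⁻¹ * b * y ∈ A := mem_cb.1 hb
      have h2 := hfree _ h1 (y⁻¹ • α) (fun e' => hβ (inv_smul_eq_iff.1 e').symm)
        (by rw [mul_smul, mul_smul, smul_inv_smul, ← e])
      apply hb1
      have h3 := congrArg (fun t => y * t * y⁻¹) h2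
      simpa [mul_assoc] using h3
    obtain ⟨a, ⟨ha, e⟩, -⟩ := hreg β (b⁻¹ • α) hβ hγ
    refine ⟨a⁻¹, inv_mem ha, ?_, ?_⟩
    · intro e1
      rw [inv_eq_one] at e1
      rw [e1, one_smul] at e
      exact hβ ((MulAction.injective b⁻¹ (hfix'.trans e)))
    · rw [inv_inv, cb_cb]
      exact hcb _ _ (by rw [mul_smul]; exact e)
  have hne : A ≠ Cfsg.conjBy A y := by
    intro e
    obtain ⟨γ, hγα, hγβ⟩ : ∃ γ : Ω, γ ≠ α ∧ γ ≠ β := ENat.exists_ne_ne_of_three_le hΩ α β
    obtain ⟨a, ⟨ha, e'⟩, -⟩ := hreg β γ hβ hγα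
    exact hγβ (e'.symm.trans (hfix y a (e ▸ ha)))
  refine ⟨⟨hne, hnil, ?_, hcond, hcond'⟩, ?_⟩
  · exact Group.nilpotent_of_mulEquiv (Subgroup.equivMapOfInjective A _ (MulAut.conj y).injective)
  · apply le_antisymm
    · rw [Subgroup.normalClosure, Subgroup.closure_le]
      intro x hx
      obtain ⟨a, ha, hxa⟩ := Group.mem_conjugatesOfSet_iff.1 hx
      obtain ⟨g, rfl⟩ := isConj_iff.1 hxa
      by_cases hg : g • α = α
      · exact le_sup_left (α := Subgroup Y) (hAeq g hg ▸ cb_mem g ha)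
      · obtain ⟨c, ⟨hc, e⟩, -⟩ := hreg β (g • α) hβ hg
        have h1 := cb_mem g ha
        rw [hcb g (c * y) (by rw [mul_smul]; exact e.symm), ← cb_cb] at h1
        exact cb_le_of_le le_sup_right (le_sup_left (α := Subgroup Y) hc) h1
    · refine sup_le Subgroup.le_normalClosure ?_
      intro x hx
      rw [mem_cb] at hx
      have := Subgroup.normalClosure_normal.conj_mem _ (Subgroup.le_normalClosure hx) y
      simpa [mul_assoc] using this

end Cfsg.Agent.S5015
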