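import Cfsg.Statements.S5020
import Cfsg.Agent.Fischer.Criterion
import Cfsg.Agent.Fischer.SmallPair
import Cfsg.Agent.Linear.SmallIso
import Cfsg.Agent.S2427
import Cfsg.Agent.Components.Basic

set_option autoImplicit false
open Cfsg Cfsg.Agent.Fischer
open scoped commutatorElement

namespace Cfsg.Agent.S5020

section
variable {X : Type*} [Group X] {A B : Subgroup X}

theorem comm_of (A : Subgroup X) (hA : IsMulCommutative A) {x y : X} (hx : x ∈ A) (hy : y ∈ A) :
    x * y = y * x := by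
  haveI := hA
  exact congrArg Subtype.val (mul_comm' (⟨x, hx⟩ : A) ⟨y, hy⟩)

theorem large (h : IsRankOneGroup X A B) (hs : IsSpecialRankOnePair A B)
    (hab : HasAbelianUnipotents A B) (h3 : 3 < ENat.card A) :
    commutator X ⊔ A = ⊤ ∧ IsQuasisimple (commutator X) ∧
      3 < ENat.card ↥(⁅A, rankOneDiagonal A B⁆ : Subgroup X) := by
  have hq : ∀ p q : X ⧸ commutator X, p * q = q * p := fun p q =>
    mul_comm (G := Abelianization X) p q
  have hAD : A ≤ commutator X := fun a ha => (QuotientGroup.eq_one_iff a).1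
    (image_eq_one (QuotientGroup.mk' (commutator X)) hs (fun _ _ _ _ => hq _ _) h3 ha)
  have hp : commutator X = ⊤ := by
    rw [eq_top_iff, ← h.1]
    refine sup_le hAD fun b hb => (QuotientGroup.eq_one_iff b).1 ?_
    obtain ⟨a, ha, e⟩ := image_right (QuotientGroup.mk' (commutator X)) hs (fun _ _ _ _ => hq _ _) hb
    exact e.symm.trans ((QuotientGroup.eq_one_iff a).2 (hAD ha))
  refine ⟨by rw [hp, top_sup_eq], ?_, ?_⟩
  · rw [hp]
    exact Cfsg.Agent.Components.isQuasisimple_of_equiv Subgroup.topEquiv.symm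
      (perfect_quasisimple h ⟨hp⟩)
  classical
  let M : Subgroup X := ⁅A, rankOneDiagonal A B⁆
  let K : Subgroup A := M.subgroupOf A
  haveI : K.Normal := ⟨fun u hu v => by
    have : v * u * v⁻¹ = u := by
      rw [mul_inv_eq_iff_eq_mul]; exact Subtype.ext (comm_of A hab.1 v.2 u.2)
    rwa [this]⟩
  letI : CommGroup (A ⧸ K) := { (inferInstance : Group (A ⧸ K)) with
    mul_comm := by
      rintro ⟨u⟩ ⟨v⟩
      exact congrArg (QuotientGroup.mk (s := K)) (Subtype.ext (comm_of A hab.1 u.2 v.2)) }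
  let ψ : X → A ⧸ K := fun g => if hg : g ∈ A then QuotientGroup.mk ⟨g, hg⟩ else 1
  have hψ : ∀ g (hg : g ∈ A), ψ g = QuotientGroup.mk ⟨g, hg⟩ := fun g hg => dif_pos hg
  have key : ∀ a b : X, a ∈ A → a ≠ 1 → b ∈ B → b ≠ 1 → conjBy A b⁻¹ = conjBy B a⁻¹ →
      ∀ x ∈ A, x ≠ 1 →
        ∃ y ∈ A, ψ y = (ψ x)⁻¹ ∧ conjBy (conjBy B x) (a * b⁻¹ * a) = conjBy B y := by
    intro a b ha ha1 hb hb1 e x hx hx1
    obtain ⟨hnA, hnB⟩ := swap_cb hs ha ha1 hb hb1 e
    obtain ⟨c, hc, hc1, ec⟩ := hs.1.cond_left x⁻¹ (inv_mem hx) (inv_ne_one.2 hx1)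
    obtain ⟨hmA, hmB⟩ := swap_cb hs (inv_mem hx) (inv_ne_one.2 hx1) hc hc1 ec
    obtain ⟨-, hmc⟩ := swap_conj hs (inv_mem hx) (inv_ne_one.2 hx1) hc hc1 ec
    rw [inv_inv] at ec hmc
    set n := a * b⁻¹ * a with hn
    set m := x⁻¹ * c⁻¹ * x⁻¹ with hm
    have hA' : ∀ {u : X}, u ∈ A → u ∈ A ⊔ B := fun hu => le_sup_left (α := Subgroup X) hu
    have hB' : ∀ {u : X}, u ∈ B → u ∈ A ⊔ B := fun hu => le_sup_right (α := Subgroup X) hu
    have hH : n * m⁻¹ ∈ rankOneDiagonal A B := by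
      have hn' : n ∈ A ⊔ B := mul_mem (mul_mem (hA' ha) (inv_mem (hB' hb))) (hA' ha)
      have hm' : m ∈ A ⊔ B := mul_mem (mul_mem (hA' (inv_mem hx)) (inv_mem (hB' hc))) (hA' (inv_mem hx))
      refine ⟨⟨(A ⊔ B).mul_mem hn' ((A ⊔ B).inv_mem hm'), ?_⟩, ?_⟩
      · refine cb_eq_self.1 ?_
        rw [← cb_cb, show conjBy A m⁻¹ = B from cb_eq_iff.2 (by rw [inv_inv, hmB]), hnB]
      · refine cb_eq_self.1 ?_
        rw [← cb_cb, show conjBy B m⁻¹ = A from cb_eq_iff.2 (by rw [inv_inv, hmA]), hnA]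
    have hy : n * c⁻¹ * n⁻¹ ∈ A := hnB ▸ cb_mem n (inv_mem hc)
    refine ⟨n * c⁻¹ * n⁻¹, hy, ?_, ?_⟩
    · rw [hψ _ hy, hψ _ hx, eq_inv_iff_mul_eq_one, ← QuotientGroup.mk_mul, QuotientGroup.eq_one_iff]
      show n * c⁻¹ * n⁻¹ * x ∈ M
      have e1 : n * c⁻¹ * n⁻¹ * x = ⁅n * m⁻¹, x⁻¹⁆ := by
        have : c⁻¹ = m⁻¹ * x⁻¹ * m := by
          rw [show x⁻¹ = (m * c * m⁻¹)⁻¹ from by rw [hmc]]; group
        rw [this, commutatorElement_def]; group
      rw [e1, ← commutatorElement_inv]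
      exact inv_mem (Subgroup.commutator_mem_commutator (inv_mem hx) hH)
    · rw [← ec, cb_cb, ← hnA, cb_cb, inv_mul_cancel_right]
  have hle : A ≤ M := fun a ha => by
    have := eq_one_core hs ψ (fun u hu v hv => by
      rw [hψ u hu, hψ v hv, hψ _ (mul_mem hu hv), ← QuotientGroup.mk_mul]; rfl) key h3 ha
    rw [hψ a ha, QuotientGroup.eq_one_iff] at this
    exact this
  rw [show ENat.card A = (A : Set X).encard from ENat.card_coe_set_eq _] at h3
  rw [show ENat.card M = (M : Set X).encard from ENat.card_coe_set_eq _]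
  exact h3.trans_le (Set.encard_mono hle)

theorem partner_gen (h : IsRankOneGroup X A B) (hs : IsSpecialRankOnePair A B)
    {a : X} (ha : a ∈ A) (ha1 : a ≠ 1) (hA : ∀ x ∈ A, x = 1 ∨ x = a ∨ x = a⁻¹) {b : X}
    (hb : b ∈ B) (hb1 : b ≠ 1) (e : conjBy A b⁻¹ = conjBy B a⁻¹) :
    Subgroup.closure ({a, b⁻¹} : Set X) = ⊤ := by
  rw [eq_top_iff, ← h.1]
  have h1 : a ∈ Subgroup.closure ({a, b⁻¹} : Set X) := Subgroup.subset_closure (Set.mem_insert _ _)
  have h2 : b⁻¹ ∈ Subgroup.closure ({a, b⁻¹} : Set X) :=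
    Subgroup.subset_closure (Set.mem_insert_of_mem _ rfl)
  refine sup_le (fun x hx => ?_) (fun c hc => ?_)
  · rcases hA x hx with rfl | rfl | rfl
    exacts [one_mem _, h1, inv_mem h1]
  · by_cases hc1 : c = 1
    · rw [hc1]; exact one_mem _
    obtain ⟨x, hx, hx1, ec⟩ := hs.1.cond_right c hc hc1
    rcases hA x hx with rfl | rfl | rfl
    · exact absurd rfl hx1
    · have := regular (RankOnePair_symm hs.1) (inv_mem hc) (inv_mem hb) (ec.symm.trans e.symm)
      rw [inv_injective this]; simpa using inv_mem h2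
    · have e' := partner_inv hs ha ha1 hb hb1 e
      rw [inv_inv] at ec
      have := regular (RankOnePair_symm hs.1) (inv_mem hc) hb (ec.symm.trans e'.symm)
      rw [inv_eq_iff_eq_inv.1 this]; exact h2

theorem small (h : IsRankOneGroup X A B) (hs : IsSpecialRankOnePair A B)
    (hab : HasAbelianUnipotents A B) (h3 : ENat.card A ≤ 3) :
    Nonempty (X ≃* Matrix.SpecialLinearGroup (Fin 2) (ZMod 2)) ∨
        Nonempty (X ≃* Matrix.SpecialLinearGroup (Fin 2) (ZMod 3)) ∨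
        Nonempty (X ≃* Matrix.ProjectiveSpecialLinearGroup (Fin 2) (ZMod 3)) := by
  haveI : Finite A := by
    refine ENat.card_lt_top.1 (h3.trans_lt ?_)
    exact ENat.coe_lt_top 3
  rw [ENat.card_eq_coe_natCard] at h3
  have h3' : Nat.card A ≤ 3 := by exact_mod_cast h3
  haveI : Nontrivial A := (Subgroup.nontrivial_iff_ne_bot A).2 (ne_bot_left hs.1)
  have h1 : 1 < Nat.card A := Finite.one_lt_card
  obtain ⟨a, ha, ha1⟩ := exists_ne_one hs.1
  obtain ⟨b, hb, hb1, e⟩ := hs.1.cond_left a ha ha1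
  have hpow : a ^ Nat.card A = 1 := by
    exact congrArg Subtype.val (pow_card_eq_one' (x := (⟨a, ha⟩ : A)))
  obtain ⟨hsw, -⟩ := swap_conj hs ha ha1 hb hb1 e
  have hbpow : (b⁻¹) ^ Nat.card A = 1 := by rw [← hsw, conj_pow, hpow, mul_one, mul_inv_cancel]
  have hbraid : a * b⁻¹ * a = b⁻¹ * a * b⁻¹ := by
    have hid := special_id hs ha ha1 hb hb1 e
    have h' : b⁻¹ * a = a⁻¹ * b⁻¹ * a * b⁻¹ := by rw [← hid]; group
    calc a * b⁻¹ * a = a * a * (a⁻¹ * b⁻¹ * a) := by group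
      _ = a * a * (b⁻¹ * a * b) := by rw [hid]
      _ = a * a * (a⁻¹ * b⁻¹ * a) := by rw [hid]
      _ = a * (b⁻¹ * a) := by group
      _ = a * (a⁻¹ * b⁻¹ * a * b⁻¹) := by rw [← h']
      _ = b⁻¹ * a * b⁻¹ := by group
  have hlist : ∀ x ∈ A, x = 1 ∨ x = a ∨ x = a⁻¹ := by
    intro x hx
    have hz : Subgroup.zpowers (⟨a, ha⟩ : A) = ⊤ := by
      haveI : Fact (Nat.card A).Prime := ⟨by
        rcases (show Nat.card A = 2 ∨ Nat.card A = 3 by omega) with e | e <;> rw [e] <;> norm_num⟩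
      exact zpowers_eq_top_of_prime_card rfl (fun e => ha1 (congrArg Subtype.val e))
    obtain ⟨i, rfl⟩ : ∃ i : ℕ, a ^ i = x := by
      obtain ⟨i, hi⟩ := (mem_powers_iff_mem_zpowers).2 (hz ▸ Subgroup.mem_top (⟨x, hx⟩ : A))
      exact ⟨i, by simpa using congrArg Subtype.val hi⟩
    rw [pow_eq_pow_mod i hpow]
    have hi : i % Nat.card A < Nat.card A := Nat.mod_lt _ (by omega)
    rcases (show i % Nat.card A = 0 ∨ i % Nat.card A = 1 ∨
      (i % Nat.card A = 2 ∧ Nat.card A = 3) by omega) with h | h | ⟨h, h'⟩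
    · left; rw [h, pow_zero]
    · right; left; rw [h, pow_one]
    · right; right
      rw [h, eq_inv_iff_mul_eq_one, ← pow_succ, ← hpow, h']
  have hne : a * b⁻¹ ≠ b⁻¹ * a := fun ec => by
    refine ha1 (eq_one_of_normalize hs.1 ha ?_)
    have h2 : a⁻¹ * b⁻¹ * a = b⁻¹ := by rw [mul_assoc, ← ec, inv_mul_cancel_left]
    have hid := special_id hs ha ha1 hb hb1 e
    rw [h2, ← ec, inv_mul_cancel_right] at hid
    rw [hid]
    exact Subgroup.le_normalizer (inv_mem hb)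
  have hgen := partner_gen h hs ha ha1 hlist hb hb1 e
  rcases (show Nat.card A = 2 ∨ Nat.card A = 3 by omega) with hc | hc <;> rw [hc] at hpow hbpow
  · left
    haveI : Fact (Nat.Prime 2) := ⟨Nat.prime_two⟩
    have h6 : Nat.card (Matrix.SpecialLinearGroup (Fin 2) (ZMod 2)) = 6 := by
      obtain ⟨f⟩ := Cfsg.Agent.Linear.SL2_two_iso (ZMod.card 2)
      rw [Nat.card_congr f.toEquiv, Nat.card_perm, Nat.card_eq_fintype_card]
      rfl
    obtain ⟨ψ, hψ, hker⟩ := iso_of_bound (p := 2) hne hgen (by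
      rw [h6]
      refine bound_six ?_ ?_ (Prod.ext sl2_braid hbraid)
      · exact Prod.ext (by show slL (1 : ZMod 2) ^ 2 = 1; rw [sq, slL_add, show (1 : ZMod 2) + 1 = 0 from rfl, slL_zero]) hpow
      · exact Prod.ext (by show slU (-1 : ZMod 2) ^ 2 = 1; rw [sq, slU_add, ← neg_add, show (1 : ZMod 2) + 1 = 0 from rfl, neg_zero, slU_zero]) hbpow)
    have hk : ψ.ker = ⊥ := by
      refine (Subgroup.eq_bot_iff_forall _).2 fun g hg => ?_
      have hg' := Matrix.SpecialLinearGroup.mem_center_iff.1 (hker hg)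
      obtain ⟨r, hr, hs'⟩ := hg'
      have : r = 1 := by
        rcases sq_eq_one_iff.1 (show r ^ 2 = 1 by simpa using hr) with e | e
        · exact e
        · rw [e, ZMod.neg_eq_self_mod_two]
      subst this
      exact Subtype.ext (by rw [← hs']; simp)
    exact ⟨(MulEquiv.ofBijective ψ ⟨(MonoidHom.ker_eq_bot_iff ψ).1 hk, hψ⟩).symm⟩
  · right
    haveI : Fact (Nat.Prime 3) := ⟨Nat.prime_three⟩
    obtain ⟨h24, hZ, -⟩ := Cfsg.Agent.S2427.result
    obtain ⟨ψ, hψ, hker⟩ := iso_of_bound (p := 3) hne hgen (by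
      rw [h24]
      refine bound_twentyfour ?_ ?_ (Prod.ext sl2_braid hbraid)
      · exact Prod.ext (by show slL (1 : ZMod 3) ^ 3 = 1; rw [pow_three, slL_add, slL_add, show (1 : ZMod 3) + (1 + 1) = 0 from rfl, slL_zero]) hpow
      · exact Prod.ext (by show slU (-1 : ZMod 3) ^ 3 = 1; rw [pow_three, slU_add, slU_add, ← neg_add, ← neg_add, show (1 : ZMod 3) + (1 + 1) = 0 from rfl, neg_zero, slU_zero]) hbpow)
    rcases eq_or_ne ψ.ker ⊥ with hk | hk
    · left
      exact ⟨(MulEquiv.ofBijective ψ ⟨(MonoidHom.ker_eq_bot_iff ψ).1 hk, hψ⟩).symm⟩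
    · right
      have hkc : ψ.ker = Subgroup.center _ := by
        refine Subgroup.eq_of_le_of_card_ge hker ?_
        rw [hZ]
        haveI := (Subgroup.nontrivial_iff_ne_bot ψ.ker).2 hk
        exact Finite.one_lt_card
      exact ⟨((QuotientGroup.quotientMulEquivOfEq hkc.symm).trans
        (QuotientGroup.quotientKerEquivOfSurjective ψ hψ)).symm⟩

end

/-- Let X be a special rank one group with abelian unipotent subgroups A and B, and H = N(A) ∩ N(B) its diagonal subgroup. Then either A has at most three elements and X is isomorphic to SL₂(2), SL₂(3) or PSL₂(3); or X = X' A with the commutator subgroup X' quasisimple and the commutator subgroup ⁅A, H⁆ having more than three elements. -/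
theorem result {X : Type*} [Group X] {A B : Subgroup X} (h : Cfsg.IsRankOneGroup X A B)
    (hs : Cfsg.IsSpecialRankOnePair A B) (hab : Cfsg.HasAbelianUnipotents A B) :
    (ENat.card A ≤ 3 ∧ (Nonempty (X ≃* Matrix.SpecialLinearGroup (Fin 2) (ZMod 2)) ∨
        Nonempty (X ≃* Matrix.SpecialLinearGroup (Fin 2) (ZMod 3)) ∨
        Nonempty (X ≃* Matrix.ProjectiveSpecialLinearGroup (Fin 2) (ZMod 3)))) ∨
    (commutator X ⊔ A = ⊤ ∧ Cfsg.IsQuasisimple (commutator X) ∧
      3 < ENat.card ↥(⁅A, Cfsg.rankOneDiagonal A B⁆ : Subgroup X)) := by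
  by_cases h3 : ENat.card A ≤ 3
  · exact Or.inl ⟨h3, small h hs hab h3⟩
  · exact Or.inr (large h hs hab (not_le.1 h3))

end Cfsg.Agent.S5020
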