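import Cfsg.Statements.S5022
import Cfsg.Agent.Fischer.SL2Relations
import Cfsg.Agent.Linear.Card

set_option autoImplicit false
open Cfsg Cfsg.Agent.Fischer Cfsg.Agent.Fischer.SL2Rel

namespace Cfsg.Agent.S5022

section
variable {K : Type*} [Field K]

theorem sl_conj_L (u : K) (hu : u ≠ 0) :
    slL u * slU (-u⁻¹) * slL u * slL 1 = slU (-(u * u)⁻¹) * (slL u * slU (-u⁻¹) * slL u) := by
  ext i j
  simp only [Matrix.SpecialLinearGroup.coe_mul, slU_coe, slL_coe]
  fin_cases i <;> fin_cases j <;> simp [Matrix.mul_apply, Fin.sum_univ_two] <;> field_simp <;> first | ring1 | simp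

theorem sl_conj_U (u : K) (hu : u ≠ 0) :
    slL u * slU (-u⁻¹) * slL u * slU (-1) = slL (u * u) * (slL u * slU (-u⁻¹) * slL u) := by
  ext i j
  simp only [Matrix.SpecialLinearGroup.coe_mul, slU_coe, slL_coe]
  fin_cases i <;> fin_cases j <;> simp [Matrix.mul_apply, Fin.sum_univ_two] <;> field_simp <;> first | ring1 | simp

variable {p : ℕ} [Fact p.Prime]

theorem slL_pow (k : ℕ) : slL (1 : ZMod p) ^ k = slL (k : ZMod p) := by
  induction k with
  | zero => simp [slL_zero]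
  | succ k ih => rw [pow_succ, ih, slL_add]; simp

theorem slU_pow (k : ℕ) : slU (-1 : ZMod p) ^ k = slU (-(k : ZMod p)) := by
  induction k with
  | zero => simp [slU_zero]
  | succ k ih => rw [pow_succ, ih, slU_add]; simp [add_comm]

theorem rel_sl : Rel p (slL (1 : ZMod p)) (slU (-1)) := by
  have h1 : ∀ x : ZMod p, sp (slL (1 : ZMod p)) x = slL x := fun x => by
    rw [sp, slL_pow, ZMod.natCast_zmod_val]
  have h2 : ∀ x : ZMod p, sp (slU (-1 : ZMod p)) x = slU (-x) := fun x => by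
    rw [sp, slU_pow, ZMod.natCast_zmod_val]
  refine ⟨by rw [slL_pow, ZMod.natCast_self, slL_zero], by rw [slU_pow, ZMod.natCast_self, neg_zero, slU_zero],
    fun u hu => ?_, fun u hu => ?_⟩ <;> simp only [N, h1, h2]
  · exact sl_conj_L u hu
  · exact sl_conj_U u hu

theorem rel_prod {P Q : Type*} [Group P] [Group Q] {s t : P} {s' t' : Q}
    (R : Rel p s t) (R' : Rel p s' t') : Rel p (s, s') (t, t') :=
  ⟨Prod.ext R.hs R'.hs, Prod.ext R.ht R'.ht, fun u hu => Prod.ext (R.conj_s u hu) (R'.conj_s u hu),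
    fun u hu => Prod.ext (R.conj_t u hu) (R'.conj_t u hu)⟩

theorem rel_pair {X : Type*} [Group X] {A B : Subgroup X} (hs : IsSpecialRankOnePair A B)
    (hab : HasAbelianUnipotents A B) (hA : IsElementaryAbelian p A) {a b : X} (ha : a ∈ A)
    (ha1 : a ≠ 1) (hb : b ∈ B) (hb1 : b ≠ 1) (e : conjBy A b⁻¹ = conjBy B a⁻¹) : Rel p a b⁻¹ := by
  have hp := (Fact.out : p.Prime)
  have hpb : ∀ {x c : X}, x ∈ A → x ≠ 1 → c ∈ B → c ≠ 1 → conjBy A c⁻¹ = conjBy B x⁻¹ → c ^ p = 1 := by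
    intro x c hx hx1 hc hc1 ec
    obtain ⟨h1, -⟩ := swap_conj hs hx hx1 hc hc1 ec
    have := congrArg (· ^ p) h1
    rw [conj_pow, hA.2 x hx, mul_one, mul_inv_cancel, inv_pow, eq_comm, inv_eq_one] at this
    exact this
  have hbp := hpb ha ha1 hb hb1 e
  have hbi : (b⁻¹) ^ p = 1 := by rw [inv_pow, hbp, inv_one]
  have hne : ∀ u : ZMod p, u ≠ 0 → sp a u ≠ 1 := by
    intro u hu h1
    have ho : orderOf a = p := orderOf_eq_prime (hA.2 a ha) ha1
    have hd := orderOf_dvd_of_pow_eq_one h1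
    rw [ho] at hd
    exact hu (by rw [← ZMod.natCast_zmod_val u]; exact (ZMod.natCast_eq_zero_iff _ _).2 hd)
  have key : ∀ u : ZMod p, u ≠ 0 →
      N a b⁻¹ u * sp a u = sp b⁻¹ u⁻¹ * N a b⁻¹ u ∧
      N a b⁻¹ u * sp b⁻¹ u⁻¹ = sp a u * N a b⁻¹ u := by
    intro u hu
    have hx : sp a u ∈ A := pow_mem ha _
    obtain ⟨c, hc, hc1, ec⟩ := hs.1.cond_left _ hx (hne u hu)
    have hcb : c ^ u.val = b := partner_pow hs hab ha ha1 hb hb1 e (hne u hu) hc hc1 ec
    have hcp := hpb hx (hne u hu) hc hc1 ec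
    have hc' : sp b⁻¹ u⁻¹ = c⁻¹ := by
      have : b = sp c u := hcb.symm
      rw [sp, inv_pow, this]
      unfold sp
      rw [← pow_mul, pow_eq_pow_mod _ hcp, ← ZMod.val_mul, mul_inv_cancel₀ hu]
      haveI : Fact (1 < p) := ⟨hp.one_lt⟩
      rw [ZMod.val_one, pow_one]
    obtain ⟨h1, h2⟩ := swap_conj hs hx (hne u hu) hc hc1 ec
    simp only [N, hc']
    constructor
    · exact mul_inv_eq_iff_eq_mul.1 h1
    · rw [← mul_inv_eq_iff_eq_mul, ← conj_inv, h2, inv_inv]
  refine ⟨hA.2 a ha, hbi, fun u hu => ?_, fun u hu => ?_⟩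
  · have := ((show SemiconjBy (N a b⁻¹ u) (sp a u) (sp b⁻¹ u⁻¹) from (key u hu).1).pow_right (u⁻¹).val).eq
    have e1 : sp a u ^ (u⁻¹).val = a := by
      unfold sp
      haveI : Fact (1 < p) := ⟨hp.one_lt⟩
      rw [← pow_mul, pow_eq_pow_mod _ (hA.2 a ha), ← ZMod.val_mul, mul_inv_cancel₀ hu, ZMod.val_one, pow_one]
    have e2 : sp b⁻¹ u⁻¹ ^ (u⁻¹).val = sp b⁻¹ (u * u)⁻¹ := by
      unfold sp
      rw [← pow_mul, pow_eq_pow_mod _ hbi, ← ZMod.val_mul, mul_inv]
    rwa [e1, e2] at this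
  · have := ((show SemiconjBy (N a b⁻¹ u) (sp b⁻¹ u⁻¹) (sp a u) from (key u hu).2).pow_right u.val).eq
    have e1 : sp b⁻¹ u⁻¹ ^ u.val = b⁻¹ := by
      unfold sp
      haveI : Fact (1 < p) := ⟨hp.one_lt⟩
      rw [← pow_mul, pow_eq_pow_mod _ hbi, ← ZMod.val_mul, inv_mul_cancel₀ hu, ZMod.val_one, pow_one]
    have e2 : sp a u ^ u.val = sp a (u * u) := by
      unfold sp
      rw [← pow_mul, pow_eq_pow_mod _ (hA.2 a ha), ← ZMod.val_mul]
    rwa [e1, e2] at this

end

/-- Let X be a special rank one group with abelian unipotent subgroups A and B, where A is an elementary abelian p-group for the prime p. Then for every non-identity a in A and the non-identity b in B with b⁻¹ A b = a⁻¹ B a, the subgroup generated by a and b is isomorphic to SL₂(p) or to PSL₂(p). -/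
theorem result {X : Type*} [Group X] {A B : Subgroup X} (h : Cfsg.IsRankOneGroup X A B)
    (hs : Cfsg.IsSpecialRankOnePair A B) (hab : Cfsg.HasAbelianUnipotents A B)
    {p : ℕ} [Fact p.Prime] (hA : Cfsg.IsElementaryAbelian p A)
    {a b : X} (ha : a ∈ A) (ha1 : a ≠ 1) (hb : b ∈ B) (hb1 : b ≠ 1) (hab' : Cfsg.conjBy A b⁻¹ = Cfsg.conjBy B a⁻¹) :
    Nonempty (↥(Subgroup.closure ({a, b} : Set X)) ≃* Matrix.SpecialLinearGroup (Fin 2) (ZMod p)) ∨
    Nonempty (↥(Subgroup.closure ({a, b} : Set X)) ≃* Matrix.ProjectiveSpecialLinearGroup (Fin 2) (ZMod p)) := by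
  classical
  have R := rel_pair hs hab hA ha ha1 hb hb1 hab'
  let Y : Subgroup X := Subgroup.closure ({a, b} : Set X)
  let a' : Y := ⟨a, Subgroup.subset_closure (Set.mem_insert _ _)⟩
  let b' : Y := ⟨b⁻¹, inv_mem (Subgroup.subset_closure (Set.mem_insert_of_mem _ rfl))⟩
  have R' : Rel p a' b' := by
    have key : ∀ (x : Y) (c : ZMod p), ((sp x c : Y) : X) = sp (x : X) c := fun x c => by simp [sp]
    refine ⟨Subtype.ext ((SubmonoidClass.coe_pow _ _).trans R.hs), Subtype.ext ((SubmonoidClass.coe_pow _ _).trans R.ht),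
      fun u hu => Subtype.ext ?_, fun u hu => Subtype.ext ?_⟩
    · simpa [N, key] using R.conj_s u hu
    · simpa [N, key] using R.conj_t u hu
  have hne : a' * b' ≠ b' * a' := fun ec => by
    have ec : a * b⁻¹ = b⁻¹ * a := congrArg Subtype.val ec
    refine ha1 (eq_one_of_normalize hs.1 ha ?_)
    have hid := special_id hs ha ha1 hb hb1 hab'
    rw [show a⁻¹ * b⁻¹ * a = b⁻¹ by rw [mul_assoc, ← ec, inv_mul_cancel_left], ← ec,
      inv_mul_cancel_right] at hid
    rw [hid]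
    exact Subgroup.le_normalizer (inv_mem hb)
  have hgen : Subgroup.closure ({a', b'} : Set Y) = ⊤ := by
    rw [eq_top_iff]
    rintro ⟨x, hx⟩ -
    have : x ∈ (Subgroup.closure ({a', b'} : Set Y)).map Y.subtype := by
      rw [MonoidHom.map_closure]
      refine (Subgroup.closure_le _).2 ?_ hx
      intro z hz
      rcases hz with hz | hz
      · rw [hz]; exact Subgroup.subset_closure ⟨a', Set.mem_insert _ _, rfl⟩
      · have : b⁻¹ ∈ Subgroup.closure (Y.subtype '' ({a', b'} : Set Y)) :=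
          Subgroup.subset_closure ⟨b', Set.mem_insert_of_mem _ rfl, rfl⟩
        rw [Set.mem_singleton_iff.1 hz]; simpa using inv_mem this
    obtain ⟨y, hy, e⟩ := this
    rwa [show (⟨x, hx⟩ : Y) = y from Subtype.ext e.symm]
  have hcard : Nat.card (Matrix.SpecialLinearGroup (Fin 2) (ZMod p)) = p * (p ^ 2 - 1) := by
    rw [Cfsg.Agent.Linear.card_SL_two, ZMod.card]
  obtain ⟨ψ, hψ, hker⟩ := iso_of_bound hne hgen (by
    rw [hcard]
    exact SL2Rel.bound (rel_prod rel_sl R'))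
  rcases eq_or_ne ψ.ker ⊥ with hk | hk
  · left
    exact ⟨(MulEquiv.ofBijective ψ ⟨(MonoidHom.ker_eq_bot_iff ψ).1 hk, hψ⟩).symm⟩
  · right
    have hkc : ψ.ker = Subgroup.center _ := by
      refine Subgroup.eq_of_le_of_card_ge hker ?_
      rw [Cfsg.Agent.Linear.card_center_SL]
      haveI := (Subgroup.nontrivial_iff_ne_bot ψ.ker).2 hk
      have h1 : 1 < Nat.card ψ.ker := Finite.one_lt_card
      have h2 := Nat.le_of_dvd two_pos (Nat.gcd_dvd_left 2 (Fintype.card (ZMod p) - 1))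
      omega
    exact ⟨((QuotientGroup.quotientMulEquivOfEq hkc.symm).trans
      (QuotientGroup.quotientKerEquivOfSurjective ψ hψ)).symm⟩

end Cfsg.Agent.S5022
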