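import Cfsg.Statements.S5024
import Cfsg.Agent.Fischer.RootBasic

set_option autoImplicit false
open Cfsg Cfsg.Agent.Fischer
open scoped commutatorElement

namespace Cfsg.Agent.S5024

/-- Let S be a set of abstract root subgroups of G, A and C members of S, B a rank one partner of A in S and D a rank one partner of C in S. If the rank one group ⟨A, B⟩ is contained in ⟨C, D⟩ then the two coincide, and C and D are conjugates of A inside ⟨A, B⟩. -/
theorem result {G : Type*} [Group G] {S : Set (Subgroup G)} (hS : Cfsg.IsRootSubgroupSet S)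
    {A B C D : Subgroup G} (hA : A ∈ S) (hC : C ∈ S) (hB : B ∈ Cfsg.rankOnePartners S A) (hD : D ∈ Cfsg.rankOnePartners S C)
    (hle : A ⊔ B ≤ C ⊔ D) : A ⊔ B = C ⊔ D ∧ C ∈ Cfsg.unipotentSubgroups A B ∧ D ∈ Cfsg.unipotentSubgroups A B := by
  have hCD := hD.2
  have hAB := hB.2
  have hu : ∀ Y ∈ S, Y ≤ C ⊔ D → ∀ Z ∈ S, Z ≤ C ⊔ D → IsRankOnePair Y Z →
      Y ∈ unipotentSubgroups C D := by
    intro Y hY hYX Z _ hZX hYZ
    by_contra hnu
    have hall : ∀ E ∈ unipotentSubgroups C D, ⁅Y, E⁆ = ⊥ := by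
      intro E hE
      have hES : E ∈ S := by obtain ⟨x, -, rfl⟩ := hE; exact hS.conj_mem C hC x
      obtain ⟨e0, he0, he01⟩ : ∃ y ∈ Y, y ≠ 1 := exists_ne_one hYZ
      by_cases hR : IsRankOnePair Y E
      · exfalso
        obtain ⟨e, he, -, hc⟩ := hR.cond_left e0 he0 he01
        rw [cb_eq_iff, inv_inv] at hc
        have heX : e ∈ C ⊔ D := unipotent_le hE he
        exact hnu (hc ▸ unipotent_conj (unipotent_conj hE (inv_mem (hYX he0))) heX)
      · have hfix : ∀ y ∈ Y, conjBy E y = E := fun y hy =>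
          eq_of_commute hCD (unipotent_conj hE (hYX hy)) hE (cb_commute hS hY hES hR hy)
        by_contra hb
        have hcase := pair_case hS hY hES hR hb
        have hle : ⁅Y, E⁆ ≤ E := Subgroup.commutator_le.2 fun y hy e he => by
          have := mul_mem (hfix y hy ▸ cb_mem y he) (inv_mem he)
          rwa [commutatorElement_def]
        obtain ⟨x, hx, rfl⟩ := hE
        have hniE : ¬ IsIsolatedIn (FAdj S) S (conjBy C x) :=
          not_isolated_cb hS hC (not_isolated_of_pair hS hC hD.1 hCD) x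
        have heq := eq_of_le hS hES hniE hcase.1 hle
        exact hb (bot_of_commute fun y hy e he =>
          (case_comm hcase (heq ▸ he) (le_sup_left (α := Subgroup G) hy)).symm)
    obtain ⟨y, hy, hy1⟩ := exists_ne_one hYZ
    apply not_commute hYZ
    rw [Subgroup.commutator_eq_bot_iff_le_centralizer]
    intro x hx
    rw [Subgroup.mem_centralizer_iff]
    intro z hz
    have : C ⊔ D ≤ Subgroup.centralizer {x} := by
      refine sup_le ?_ ?_ <;> intro w hw <;> rw [Subgroup.mem_centralizer_singleton_iff]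
      · exact (commute_cb_right (hall C self_mem) hx hw).symm
      · exact (commute_cb_right (hall D (right_mem hCD)) hx hw).symm
    exact Subgroup.mem_centralizer_singleton_iff.1 (this (hZX hz))
  have hA' := hu A hA (le_sup_left.trans hle) B hB.1 (le_sup_right.trans hle) hAB
  have hB' := hu B hB.1 (le_sup_right.trans hle) A hA (le_sup_left.trans hle) (RankOnePair_symm hAB)
  have heq := sup_eq_of_unipotent hCD hA' hB' hAB.ne
  obtain ⟨x, hx, rfl⟩ := hA'
  refine ⟨heq, ⟨x⁻¹, heq ▸ inv_mem hx, by simp [cb_cb]⟩, ?_⟩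
  obtain ⟨y, hy, rfl⟩ := right_mem hCD
  exact ⟨y * x⁻¹, heq ▸ mul_mem hy (inv_mem hx), by simp [cb_cb]⟩

end Cfsg.Agent.S5024
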