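import Cfsg.Statements.S5025
import Cfsg.Agent.Fischer.RootBasic

set_option autoImplicit false
open Cfsg Cfsg.Agent.Fischer
open scoped commutatorElement

namespace Cfsg.Agent.S5025

/-- Let S be a set of abstract root subgroups of G, A ∈ S and B a rank one partner of A in S. If z ≠ 1 centralizes ⟨A, B⟩, then no product z a with a a non-identity element of A is a non-identity element of a member of S. -/
theorem result {G : Type*} [Group G] {S : Set (Subgroup G)} (hS : Cfsg.IsRootSubgroupSet S)
    {A B : Subgroup G} (hA : A ∈ S) (hB : B ∈ Cfsg.rankOnePartners S A) {z : G}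
    (hz : z ∈ Subgroup.centralizer ((A ⊔ B : Subgroup G) : Set G)) (hz1 : z ≠ 1) :
    ∀ a ∈ A, a ≠ 1 → z * a ∉ Cfsg.rootElements S := by
  intro a ha ha1 hmem
  obtain ⟨hne, E, hE, he⟩ := hmem
  have hAB := hB.2
  have hzA : ∀ x ∈ A, x * z = z * x := fun x hx =>
    Subgroup.mem_centralizer_iff.1 hz x (le_sup_left (α := Subgroup G) hx)
  have hzB : ∀ x ∈ B, x * z = z * x := fun x hx =>
    Subgroup.mem_centralizer_iff.1 hz x (le_sup_right (α := Subgroup G) hx)
  have hact : conjBy B (z * a) = conjBy B a := by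
    rw [show z * a = a * z from (hzA a ha).symm, ← cb_cb,
      cb_of_commute fun x hx => (hzB x hx).symm]
  obtain ⟨-, hu⟩ := same_action hS hE hB.1 hAB ha ha1 he hact
  by_cases hEA : E = A
  · rw [hEA] at he
    have hzm : z ∈ A := by simpa using mul_mem he (inv_mem ha)
    exact hz1 (eq_one_of_normalize hAB hzm (cb_eq_self.1 (cb_of_commute fun x hx => (hzB x hx).symm)))
  · refine hne (eq_one_of_normalize' hAB hu self_mem hEA he (cb_eq_self.1 ?_))
    rw [← cb_cb, cb_of_mem ha, cb_of_commute fun x hx => (hzA x hx).symm]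

end Cfsg.Agent.S5025
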