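import Cfsg.Statements.S5026
import Cfsg.Agent.Fischer.RootBasic
import Cfsg.Agent.S5025

set_option autoImplicit false
open Cfsg Cfsg.Agent.Fischer
open scoped commutatorElement

namespace Cfsg.Agent.S5026

/-- Let S be a degenerate set of abstract root subgroups of G (a set of abstract transvection groups) and let a, b be commuting non-identity elements of members of S with a b ≠ 1. Then the members of S centralizing a b are exactly those centralizing both a and b. -/
theorem result {G : Type*} [Group G] {S : Set (Subgroup G)} (hS : Cfsg.IsRootSubgroupSet S) (hdeg : Cfsg.IsDegenerateRootSet S)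
    {a b : G} (ha : a ∈ Cfsg.rootElements S) (hb : b ∈ Cfsg.rootElements S) (hab : a * b = b * a) (hab1 : a * b ≠ 1) :
    Cfsg.centralizingMembers S (Subgroup.zpowers (a * b)) =
      Cfsg.centralizingMembers S (Subgroup.zpowers a) ∩ Cfsg.centralizingMembers S (Subgroup.zpowers b) := by
  have key : ∀ a b : G, a ∈ rootElements S → b ∈ rootElements S → a * b = b * a → a * b ≠ 1 →
      ∀ C ∈ S, (∀ c ∈ C, c * (a * b) = (a * b) * c) → ∀ c ∈ C, c * a = a * c := by
    rintro a b ⟨ha1, A, hA, ha⟩ hb hab hab1 C hC hz c hc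
    by_cases hR : IsRankOnePair A C
    swap
    · by_cases hb' : ⁅A, C⁆ = ⊥
      · exact (commute_cb_right hb' ha hc).symm
      · exact absurd (pair_case hS hA hC hR hb') (hdeg A hA C hC)
    exfalso
    set z := a * b with hzdef
    have hni := not_isolated_of_pair hS hA hC hR
    have hza : a * z = z * a := by
      rw [show z = a * b from rfl, mul_assoc a b a, ← (show a * b = b * a from hab)]
    have hfA : conjBy A z = A := by
      refine (eq_of_inter hS hA hni (hS.conj_mem A hA z) ha ?_ ha1).symm
      rw [mem_cb, mul_assoc, hza]; simpa using ha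
    have hzA : ∀ x ∈ A, x * z = z * x := by
      intro x hx
      by_cases hx1 : x = 1
      · simp [hx1]
      obtain ⟨f, hf, -, e⟩ := hR.cond_left x hx hx1
      have hx' : z * x * z⁻¹ ∈ A := hfA ▸ cb_mem z hx
      have e2 := congrArg (fun T => conjBy T z) e
      simp only [cb_cb] at e2
      have h1 : z * f⁻¹ = f⁻¹ * z := (hz _ (inv_mem hf)).symm
      rw [h1, ← cb_cb, hfA, e] at e2
      have e3 : conjBy C (z * x * z⁻¹)⁻¹ = conjBy C (z * x⁻¹) := by
        rw [show (z * x * z⁻¹)⁻¹ = (z * x⁻¹) * z⁻¹ by group, ← cb_cb,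
          cb_of_commute fun y hy => (show Commute z⁻¹ y from (Commute.inv_right (hz y hy)).symm).eq]
      have := regular hR (inv_mem hx') (inv_mem hx) (e3.trans e2.symm)
      rw [inv_inj, mul_inv_eq_iff_eq_mul] at this
      exact this.symm
    obtain ⟨hb1, Bm, hBm, hbm⟩ := hb
    refine S5025.result hS hA ⟨hC, hR⟩ (z := z) ?_ hab1 a⁻¹ (inv_mem ha) (by simpa using ha1)
      ⟨?_, Bm, hBm, ?_⟩
    · have : A ⊔ C ≤ Subgroup.centralizer {z} := sup_le
        (fun x hx => Subgroup.mem_centralizer_singleton_iff.2 (hzA x hx))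
        (fun x hx => Subgroup.mem_centralizer_singleton_iff.2 (hz x hx))
      exact Subgroup.mem_centralizer_iff.2 fun x hx => Subgroup.mem_centralizer_singleton_iff.1 (this hx)
    · rw [show z * a⁻¹ = b by rw [show z = b * a from hab, mul_inv_cancel_right]]; exact hb1
    · rw [show z * a⁻¹ = b by rw [show z = b * a from hab, mul_inv_cancel_right]]; exact hbm
  ext C
  simp only [centralizingMembers, Set.mem_inter_iff, Set.mem_ofPred_eq, SetLike.le_def,
    Subgroup.mem_centralizer_iff]
  constructor
  · rintro ⟨hC, h⟩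
    have h' : ∀ c ∈ C, c * (a * b) = a * b * c := fun c hc => (h hc _ (Subgroup.mem_zpowers _)).symm
    have h1 := key a b ha hb hab hab1 C hC h'
    have h2 := key b a hb ha hab.symm (hab ▸ hab1) C hC (hab ▸ h')
    refine ⟨⟨hC, ?_⟩, hC, ?_⟩ <;> rintro c hc x ⟨n, rfl⟩
    · exact ((show Commute c a from h1 c hc).zpow_right n).symm.eq
    · exact ((show Commute c b from h2 c hc).zpow_right n).symm.eq
  · rintro ⟨⟨hC, h1⟩, -, h2⟩
    refine ⟨hC, ?_⟩
    rintro c hc x ⟨n, rfl⟩
    have c1 : Commute c a := (h1 hc _ (Subgroup.mem_zpowers _)).symm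
    have c2 : Commute c b := (h2 hc _ (Subgroup.mem_zpowers _)).symm
    exact ((c1.mul_right c2).zpow_right n).symm.eq

end Cfsg.Agent.S5026
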