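import Cfsg.Statements.S5027
import Cfsg.Agent.Fischer.RootBasic

set_option autoImplicit false
open Cfsg Cfsg.Agent.Fischer
open scoped commutatorElement

namespace Cfsg.Agent.S5027

/-- Let S be a set of abstract root subgroups of G such that every member of S has a rank one partner in S (the graph of rank one pairs on S has no isolated vertex). Then the second centre of G equals its centre. -/
theorem result {G : Type*} [Group G] {S : Set (Subgroup G)} (hS : Cfsg.IsRootSubgroupSet S)
    (hF : ∀ A ∈ S, ¬ Cfsg.IsIsolatedIn (Cfsg.FAdj S) S A) : Subgroup.upperCentralSeries G 2 = Subgroup.center G := by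
  refine le_antisymm ?_ (by rw [← Subgroup.upperCentralSeries_one]; exact Subgroup.upperCentralSeries_mono G (by norm_num))
  intro z hz
  have hmem : ∀ A ∈ S, A ≤ Subgroup.centralizer {z} := by
    intro A hA a ha
    rw [Subgroup.mem_centralizer_singleton_iff]
    by_cases ha1 : a = 1
    · simp [ha1]
    obtain ⟨F, hF, hR⟩ := exists_partner hS hA (hF A hA)
    rw [Subgroup.mem_upperCentralSeries_succ_iff] at hz
    have ht : ∀ x : G, ⁅z, x⁆ ∈ Subgroup.center G := fun x => by
      simpa [Subgroup.upperCentralSeries_one] using hz x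
    have hA' := hS.conj_mem A hA z
    have e : z * a * z⁻¹ = a * ⁅z, a⁆ := by
      rw [← Subgroup.mem_center_iff.1 (ht a) a |>.symm, commutatorElement_def]; group
    have hact : conjBy F (z * a * z⁻¹) = conjBy F a := by
      rw [e, ← cb_cb, cb_of_commute fun x _ => (Subgroup.mem_center_iff.1 (ht a) x).symm]
    obtain ⟨-, hu⟩ := same_action hS hA' hF hR ha ha1 (cb_mem z ha) hact
    have hc : ⁅conjBy A z, A⁆ = ⊥ := bot_of_commute fun x hx y hy => by
      rw [mem_cb] at hx
      have e' : x = ⁅z, z⁻¹ * x * z⁆ * (z⁻¹ * x * z) := by rw [commutatorElement_def]; group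
      rw [e']
      exact ((show Commute _ y from (Subgroup.mem_center_iff.1 (ht _) y).symm).mul_left
        (show Commute _ y from member_comm hS hA hx hy)).eq
    have hfix := eq_of_commute hR hu self_mem hc
    have htA : ⁅z, a⁆ ∈ A := by
      have h2 := mul_mem (hfix ▸ cb_mem z ha) (inv_mem ha)
      rwa [commutatorElement_def]
    have := eq_one_of_normalize hR htA
      (cb_eq_self.1 (cb_of_commute fun x _ => (Subgroup.mem_center_iff.1 (ht a) x).symm))
    exact (commutatorElement_eq_one_iff_mul_comm.1 this).symm
  rw [Subgroup.mem_center_iff]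
  intro g
  have hg : g ∈ ⨆ A ∈ S, A := hS.generates ▸ Subgroup.mem_top g
  exact Subgroup.mem_centralizer_singleton_iff.1 (iSup₂_le hmem hg)

end Cfsg.Agent.S5027
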