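import Cfsg.Statements.S5030
import Cfsg.Agent.Fischer.CommutatorChain

set_option autoImplicit false
open Cfsg Cfsg.Agent.Fischer
open scoped commutatorElement

namespace Cfsg.Agent.S5030

/-- Let S be a set of abstract root subgroups of G and A, B, C ∈ S with ⁅A, B⁆ ∈ S and ⁅B, C⁆ ∈ S, where A and C are different and commute. For a non-identity b ∈ B put X = ⟨A, b⁻¹ C b⟩ and Y = ⟨b⁻¹ A b, C⟩ and R = ⟨A, B, C⟩. Then X and Y are either both abelian or both nilpotent of class exactly two; X and Y commute elementwise; XY is normal in R with R = (XY) B; and R is nilpotent. -/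
theorem result {G : Type*} [Group G] {S : Set (Subgroup G)} (hS : Cfsg.IsRootSubgroupSet S)
    {A B C : Subgroup G} (hA : A ∈ S) (hB : B ∈ S) (hC : C ∈ S) (hAB : ⁅A, B⁆ ∈ S) (hBC : ⁅B, C⁆ ∈ S)
    (hAC : C ∈ Cfsg.commutingPartners S A)
    {b : G} (hb : b ∈ B) (hb1 : b ≠ 1) :
    ((IsMulCommutative ↥(A ⊔ Cfsg.conjBy C b⁻¹) ∧ IsMulCommutative ↥(Cfsg.conjBy A b⁻¹ ⊔ C)) ∨
      ((¬ IsMulCommutative ↥(A ⊔ Cfsg.conjBy C b⁻¹) ∧
          ⁅⁅A ⊔ Cfsg.conjBy C b⁻¹, A ⊔ Cfsg.conjBy C b⁻¹⁆, A ⊔ Cfsg.conjBy C b⁻¹⁆ = ⊥) ∧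
        (¬ IsMulCommutative ↥(Cfsg.conjBy A b⁻¹ ⊔ C) ∧
          ⁅⁅Cfsg.conjBy A b⁻¹ ⊔ C, Cfsg.conjBy A b⁻¹ ⊔ C⁆, Cfsg.conjBy A b⁻¹ ⊔ C⁆ = ⊥))) ∧
    ⁅A ⊔ Cfsg.conjBy C b⁻¹, Cfsg.conjBy A b⁻¹ ⊔ C⁆ = ⊥ ∧
    (∀ r ∈ A ⊔ B ⊔ C, Cfsg.conjBy ((A ⊔ Cfsg.conjBy C b⁻¹) ⊔ (Cfsg.conjBy A b⁻¹ ⊔ C)) r =
      (A ⊔ Cfsg.conjBy C b⁻¹) ⊔ (Cfsg.conjBy A b⁻¹ ⊔ C)) ∧
    ((A ⊔ Cfsg.conjBy C b⁻¹) ⊔ (Cfsg.conjBy A b⁻¹ ⊔ C)) ⊔ B = A ⊔ B ⊔ C ∧
    Group.IsNilpotent ↥(A ⊔ B ⊔ C) := by
  obtain ⟨hCS, hCA, hAC'⟩ := hAC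
  have cAB := case_of_member hS hA hB hAB
  have cBC := case_of_member hS hB hC hBC
  obtain ⟨P, hP⟩ : ∃ P, P = ⁅A, B⁆ := ⟨_, rfl⟩
  obtain ⟨Q, hQ⟩ : ∃ Q, Q = ⁅C, B⁆ := ⟨_, rfl⟩
  have hQ' : ⁅C, B⁆ ∈ S := by rwa [Subgroup.commutator_comm]
  have cCB := case_of_member hS hC hB hQ'
  have hPS : P ∈ S := hP ▸ hAB
  have hQS : Q ∈ S := hQ ▸ hQ'
  have mA := fun {x y : G} (hx : x ∈ A) (hy : y ∈ A) => member_comm hS hA hx hy
  have mC := fun {x y : G} (hx : x ∈ C) (hy : y ∈ C) => member_comm hS hC hx hy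
  have hPA : ⁅P, A⁆ = ⊥ := hP ▸ case_comm_left cAB
  have hPB : ⁅P, B⁆ = ⊥ := hP ▸ case_comm_right cAB
  have hQC : ⁅Q, C⁆ = ⊥ := hQ ▸ case_comm_left cCB
  have hQB : ⁅Q, B⁆ = ⊥ := hQ ▸ case_comm_right cCB
  obtain ⟨A', hA'⟩ : ∃ A', A' = conjBy A b⁻¹ := ⟨_, rfl⟩
  obtain ⟨C', hC'⟩ : ∃ C', C' = conjBy C b⁻¹ := ⟨_, rfl⟩
  rw [← hA', ← hC']
  have hA'S : A' ∈ S := hA' ▸ hS.conj_mem A hA _
  have hC'S : C' ∈ S := hC' ▸ hS.conj_mem C hC _
  have hbi := inv_mem hb
  have hbi1 : b⁻¹ ≠ 1 := inv_ne_one.2 hb1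
  -- `A ⊔ A' = A ⊔ P`
  have gen : ∀ {D : Subgroup G}, D ∈ S → RootCommutatorCase S D B →
      conjBy D b⁻¹ ≤ D ⊔ ⁅D, B⁆ ∧ ⁅D, B⁆ ≤ D ⊔ conjBy D b⁻¹ := by
    intro D hD cD
    refine ⟨?_, fun p hp => ?_⟩
    · have := case_cb_le (case_symm cD) hbi
      rwa [Subgroup.commutator_comm B D] at this
    · obtain ⟨d, hd, e⟩ := case_surj (case_symm cD) hbi hbi1
        (show p ∈ ⁅B, D⁆ by rwa [Subgroup.commutator_comm])
      rw [← e, commutatorElement_def]
      exact mul_mem (le_sup_right (α := Subgroup G) (cb_mem b⁻¹ hd))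
        (le_sup_left (α := Subgroup G) (inv_mem hd))
  obtain ⟨hA'le, hPle⟩ := gen hA cAB
  obtain ⟨hC'le, hQle⟩ := gen hC cCB
  rw [← hA', ← hP] at hA'le hPle
  rw [← hC', ← hQ] at hC'le hQle
  have hAA' : ⁅A, A'⁆ = ⊥ := by
    rw [Subgroup.commutator_eq_bot_iff_le_centralizer, Subgroup.le_centralizer_iff]
    exact hA'le.trans (sup_le ((Subgroup.commutator_eq_bot_iff_le_centralizer).1
      (bot_of_commute fun x hx y hy => mA hx hy)) (Subgroup.commutator_eq_bot_iff_le_centralizer.1 hPA))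
  have hCC' : ⁅C, C'⁆ = ⊥ := by
    rw [Subgroup.commutator_eq_bot_iff_le_centralizer, Subgroup.le_centralizer_iff]
    exact hC'le.trans (sup_le ((Subgroup.commutator_eq_bot_iff_le_centralizer).1
      (bot_of_commute fun x hx y hy => mC hx hy)) (Subgroup.commutator_eq_bot_iff_le_centralizer.1 hQC))
  have hA'C' : ⁅A', C'⁆ = ⊥ := hA' ▸ hC' ▸ cb_bot hAC'
  obtain ⟨X, hX⟩ : ∃ X, X = A ⊔ C' := ⟨_, rfl⟩
  obtain ⟨Y, hY⟩ : ∃ Y, Y = A' ⊔ C := ⟨_, rfl⟩
  rw [← hX, ← hY]
  have hXY : ⁅X, Y⁆ = ⊥ := by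
    rw [Subgroup.commutator_eq_bot_iff_le_centralizer, hX]
    refine sup_le ?_ ?_ <;> rw [Subgroup.le_centralizer_iff, hY] <;> refine sup_le ?_ ?_ <;>
      rw [← Subgroup.commutator_eq_bot_iff_le_centralizer]
    exacts [bot_symm hAA', bot_symm hAC', hA'C', hCC']
  -- the two cross commutators
  have hnr : ∀ {U V W : Subgroup G}, U ∈ S → V ∈ S → W ∈ S → RootCommutatorCase S U V → ⁅U, W⁆ = ⊥ →
      ¬ IsRankOnePair ⁅U, V⁆ W := fun hU hV hW h hUW =>
    not_rankOne_of_case_commute hS hU hV hW h.1 hUW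
  have hAQn : ¬ IsRankOnePair A Q := fun h =>
    hnr hC hB hA cCB (bot_symm hAC') (hQ ▸ RankOnePair_symm h)
  have hPCn : ¬ IsRankOnePair P C := fun h => hnr hA hB hC cAB hAC' (hP ▸ h)
  have cent3 : ∀ {U V W : Subgroup G}, U ∈ S → V ∈ S → ¬ IsRankOnePair U V → W ≤ U ⊔ V →
      ∀ c ∈ ⁅U, V⁆, ∀ w ∈ W, c * w = w * c := by
    intro U V W hU hV hn hW c hc w hw
    by_cases hb : ⁅U, V⁆ = ⊥
    · rw [hb, Subgroup.mem_bot] at hc; simp [hc]
    · exact case_comm (pair_case hS hU hV hn hb) hc (hW hw)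
  have hT1 : ∀ c ∈ C', ∀ a ∈ A, ∃ q ∈ Q, ⁅a, c⁆ = ⁅a, q⁆ := by
    intro c hc a ha
    obtain ⟨z, hz, q, hq, rfl⟩ := mem_sup_comm (bot_symm hQC) (hC'le hc)
    refine ⟨q, hq, ?_⟩
    have h1 : z * ⁅a, q⁆ * z⁻¹ = ⁅a, q⁆ := by
      have c1 : Commute z a := (commute_cb_right hAC' ha hz).symm
      have c2 : Commute z q := (commute_cb_right hQC hq hz).symm
      have : Commute z ⁅a, q⁆ := by
        rw [commutatorElement_def]; exact ((c1.mul_right c2).mul_right c1.inv_right).mul_right c2.inv_right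
      rw [this.eq, mul_inv_cancel_right]
    calc ⁅a, z * q⁆ = ⁅a, z⁆ * (z * ⁅a, q⁆ * z⁻¹) := by simp only [commutatorElement_def]; group
      _ = _ := by rw [h1, commutatorElement_eq_one_iff_mul_comm.2 (commute_cb_right hAC' ha hz), one_mul]
  have hT2 : ∀ c ∈ C, ∀ a ∈ A', ∃ p ∈ P, ⁅c, a⁆ = ⁅c, p⁆ := by
    intro c hc a ha
    obtain ⟨z, hz, p, hp, rfl⟩ := mem_sup_comm (bot_symm hPA) (hA'le ha)
    refine ⟨p, hp, ?_⟩
    have h1 : z * ⁅c, p⁆ * z⁻¹ = ⁅c, p⁆ := by
      have c1 : Commute z c := commute_cb_right hAC' hz hc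
      have c2 : Commute z p := (commute_cb_right hPA hp hz).symm
      have : Commute z ⁅c, p⁆ := by
        rw [commutatorElement_def]; exact ((c1.mul_right c2).mul_right c1.inv_right).mul_right c2.inv_right
      rw [this.eq, mul_inv_cancel_right]
    calc ⁅c, z * p⁆ = ⁅c, z⁆ * (z * ⁅c, p⁆ * z⁻¹) := by simp only [commutatorElement_def]; group
      _ = _ := by rw [h1, commutatorElement_eq_one_iff_mul_comm.2 (commute_cb_right hAC' hz hc).symm, one_mul]
  have hAC'n : ¬ IsRankOnePair A C' := by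
    intro hr
    obtain ⟨a, ha, ha1⟩ := exists_ne_one hr
    refine ha1 (eq_one_of_normalize hr ha (cb_eq_self.1 ?_))
    by_contra hne
    refine hne (eq_of_commute hr (unipotent_conj (right_mem hr) (le_sup_left (α := Subgroup G) ha))
      (right_mem hr) ?_)
    -- `C' ^ a` commutes with `C'`
    refine bot_of_commute fun u hu v hv => ?_
    rw [mem_cb] at hu
    obtain ⟨q, hq, e⟩ := hT1 _ hu a ha
    have hu' : u = ⁅a, q⁆ * (a⁻¹ * u * a) := by rw [← e, commutatorElement_def]; group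
    have hq' : ⁅a, q⁆ ∈ ⁅A, Q⁆ := Subgroup.commutator_mem_commutator ha hq
    obtain ⟨z, hz, q', hq'', ev⟩ := mem_sup_comm (bot_symm hQC) (hC'le hv)
    have c1 : Commute ⁅a, q⁆ q' := cent3 hA hQS hAQn le_sup_right _ hq' _ hq''
    have c2 : Commute ⁅a, q⁆ z := by
      have d1 : Commute z a := (commute_cb_right hAC' ha hz).symm
      have d2 : Commute z q := (commute_cb_right hQC hq hz).symm
      rw [commutatorElement_def]
      exact (((d1.mul_right d2).mul_right d1.inv_right).mul_right d2.inv_right).symm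
    rw [hu']
    exact ((ev ▸ c2.mul_right c1 : Commute ⁅a, q⁆ v).mul_left (member_comm hS hC'S hu hv)).eq
  have hA'Cn : ¬ IsRankOnePair A' C := by
    intro hr
    obtain ⟨c, hc, hc1⟩ := exists_ne_one (RankOnePair_symm hr)
    refine hc1 (eq_one_of_normalize (RankOnePair_symm hr) hc (cb_eq_self.1 ?_))
    by_contra hne
    refine hne (eq_of_commute hr (unipotent_conj self_mem (le_sup_right (α := Subgroup G) hc))
      self_mem ?_)
    refine bot_of_commute fun u hu v hv => ?_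
    rw [mem_cb] at hu
    obtain ⟨p, hp, e⟩ := hT2 c hc _ hu
    have hu' : u = ⁅c, p⁆ * (c⁻¹ * u * c) := by rw [← e, commutatorElement_def]; group
    have hp' : ⁅c, p⁆ ∈ ⁅P, C⁆ := by
      rw [Subgroup.commutator_comm]; exact Subgroup.commutator_mem_commutator hc hp
    obtain ⟨z, hz, p', hp'', ev⟩ := mem_sup_comm (bot_symm hPA) (hA'le hv)
    have c1 : Commute ⁅c, p⁆ p' := cent3 hPS hC hPCn le_sup_left _ hp' _ hp''
    have c2 : Commute ⁅c, p⁆ z := by
      have d1 : Commute z c := commute_cb_right hAC' hz hc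
      have d2 : Commute z p := (commute_cb_right hPA hp hz).symm
      rw [commutatorElement_def]
      exact (((d1.mul_right d2).mul_right d1.inv_right).mul_right d2.inv_right).symm
    rw [hu']
    exact ((ev ▸ c2.mul_right c1 : Commute ⁅c, p⁆ v).mul_left (member_comm hS hA'S hu hv)).eq
  have class2 : ∀ {U V Z : Subgroup G}, Z = U ⊔ V → U ∈ S → V ∈ S → ¬ IsRankOnePair U V →
      ⁅Z, Z⁆ = ⁅U, V⁆ ∧ ∀ c ∈ ⁅U, V⁆, ∀ z ∈ Z, c * z = z * c := by
    intro U V Z hZ hU hV hn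
    have hc : ∀ c ∈ ⁅U, V⁆, ∀ z ∈ Z, c * z = z * c := cent3 hU hV hn hZ.le
    refine ⟨le_antisymm ?_ (Subgroup.commutator_mono (hZ ▸ le_sup_left) (hZ ▸ le_sup_right)), hc⟩
    have hnorm : Z ≤ Subgroup.normalizer ((⁅U, V⁆ : Subgroup G) : Set G) :=
      le_normalizer_of_gens fun g hg l hl => by
        rw [← hc l hl g hg, mul_inv_cancel_right]; exact hl
    have hcl : Subgroup.closure ((U : Set G) ∪ V) = Z := by
      rw [Subgroup.closure_union, Subgroup.closure_eq, Subgroup.closure_eq, hZ]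
    have := comm_le_of_gens (s := (U : Set G) ∪ V) (t := (U : Set G) ∪ V) (hcl ▸ hnorm) (hcl ▸ hnorm)
      (by
        rintro x (hx | hx) y (hy | hy)
        · rw [commutatorElement_eq_one_iff_mul_comm.2 (member_comm hS hU hx hy)]; exact one_mem _
        · exact Subgroup.commutator_mem_commutator hx hy
        · rw [← commutatorElement_inv]; exact inv_mem (Subgroup.commutator_mem_commutator hy hx)
        · rw [commutatorElement_eq_one_iff_mul_comm.2 (member_comm hS hV hx hy)]; exact one_mem _)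
    rwa [hcl] at this
  obtain ⟨hXX, hXc⟩ := class2 hX hA hC'S hAC'n
  obtain ⟨hYY, hYc⟩ := class2 hY hA'S hC hA'Cn
  obtain ⟨N, hN⟩ : ∃ N, N = X ⊔ Y := ⟨_, rfl⟩
  rw [← hN]
  have hAN : A ≤ N := hN ▸ hX ▸ le_sup_left.trans le_sup_left
  have hC'N : C' ≤ N := hN ▸ hX ▸ le_sup_right.trans le_sup_left
  have hA'N : A' ≤ N := hN ▸ hY ▸ le_sup_left.trans le_sup_right
  have hCN : C ≤ N := hN ▸ hY ▸ le_sup_right.trans le_sup_right
  have hPN : P ≤ N := hPle.trans (sup_le hAN hA'N)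
  have hQN : Q ≤ N := hQle.trans (sup_le hCN hC'N)
  have hNgen : N = A ⊔ P ⊔ (C ⊔ Q) := by
    refine le_antisymm ?_ (sup_le (sup_le hAN hPN) (sup_le hCN hQN))
    rw [hN, hX, hY]
    refine sup_le (sup_le ?_ ?_) (sup_le ?_ ?_)
    · exact le_sup_left.trans le_sup_left
    · exact hC'le.trans le_sup_right
    · exact hA'le.trans le_sup_left
    · exact le_sup_left.trans le_sup_right
  have hBnorm : ∀ g ∈ B, conjBy N g ≤ N := by
    intro g hg
    rw [hNgen]
    show Subgroup.map _ _ ≤ _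
    rw [Subgroup.map_sup, Subgroup.map_sup, Subgroup.map_sup]
    refine sup_le (sup_le ?_ ?_) (sup_le ?_ ?_)
    · have := case_cb_le (case_symm cAB) hg
      rw [Subgroup.commutator_comm, ← hP] at this
      exact this.trans le_sup_left
    · exact (cb_of_commute fun x hx => (commute_cb_right hPB hx hg).symm).le.trans
        (le_sup_right.trans le_sup_left)
    · have := case_cb_le (case_symm cCB) hg
      rw [Subgroup.commutator_comm, ← hQ] at this
      exact this.trans le_sup_right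
    · exact (cb_of_commute fun x hx => (commute_cb_right hQB hx hg).symm).le.trans
        (le_sup_right.trans le_sup_right)
  have hBn : B ≤ Subgroup.normalizer (N : Set G) :=
    le_normalizer_of_gens fun g hg l hl => hBnorm g hg (cb_mem g hl)
  have hRn : A ⊔ B ⊔ C ≤ Subgroup.normalizer (N : Set G) :=
    sup_le (sup_le (hAN.trans Subgroup.le_normalizer) hBn) (hCN.trans Subgroup.le_normalizer)
  have hAR : A ≤ A ⊔ B ⊔ C := le_sup_left.trans le_sup_left
  have hBR : B ≤ A ⊔ B ⊔ C := le_sup_right.trans le_sup_left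
  have hCR : C ≤ A ⊔ B ⊔ C := le_sup_right
  have hPR : P ≤ A ⊔ B ⊔ C := hP ▸ (Subgroup.commutator_mono hAR hBR).trans (Subgroup.commutator_le_self _)
  have hQR : Q ≤ A ⊔ B ⊔ C := hQ ▸ (Subgroup.commutator_mono hCR hBR).trans (Subgroup.commutator_le_self _)
  refine ⟨?_, hXY, fun r hr => cb_eq_self.2 (hRn hr), ?_, ?_⟩
  · have hab : ∀ {U V Z : Subgroup G}, ⁅Z, Z⁆ = ⁅U, V⁆ → ⁅U, V⁆ = ⊥ → IsMulCommutative Z := by
      intro U V Z h1 h2
      refine ⟨⟨fun x y => Subtype.ext (commute_cb_right (h1.trans h2) x.2 y.2)⟩⟩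
    have hna : ∀ {U V Z : Subgroup G}, ⁅Z, Z⁆ = ⁅U, V⁆ → ⁅U, V⁆ ≠ ⊥ → ¬ IsMulCommutative Z := by
      intro U V Z h1 h2 h
      refine h2 (h1 ▸ bot_of_commute fun x hx y hy => ?_)
      haveI := h
      exact congrArg Subtype.val (mul_comm' (⟨x, hx⟩ : Z) ⟨y, hy⟩)
    have hcentPQ : ∀ {U V W : Subgroup G}, ⁅U, W⁆ = ⊥ → ⁅W, V⁆ = ⊥ → ⁅W, ⁅U, V⁆⁆ = ⊥ := by
      intro U V W h1 h2
      refine Subgroup.commutator_eq_bot_iff_le_centralizer.2 ?_
      rw [Subgroup.le_centralizer_iff, Subgroup.commutator_le]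
      intro x hx y hy
      rw [Subgroup.mem_centralizer_iff]
      intro q hq
      have c1 : Commute q x := (commute_cb_right h1 hx hq).symm
      have c2 : Commute q y := commute_cb_right h2 hq hy
      rw [commutatorElement_def]
      exact (((c1.mul_right c2).mul_right c1.inv_right).mul_right c2.inv_right).eq
    have split : ∀ {D D' : Subgroup G}, D' = conjBy D b⁻¹ → ∀ d ∈ D,
        ∃ d' ∈ D', ∃ r ∈ ⁅D, B⁆, d = d' * r := by
      intro D D' hD' d hd
      refine ⟨b⁻¹ * d * b⁻¹⁻¹, hD' ▸ cb_mem b⁻¹ hd, ⁅d⁻¹, b⁻¹⁆⁻¹,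
        inv_mem (Subgroup.commutator_mem_commutator (inv_mem hd) hbi), ?_⟩
      simp only [commutatorElement_def]; group
    have via : ∀ {U V W : Subgroup G}, ⁅U, W⁆ = ⊥ → ⁅V, W⁆ = ⊥ → ⁅U ⊔ V, W⁆ = ⊥ := fun h1 h2 =>
      Subgroup.commutator_eq_bot_iff_le_centralizer.2 (sup_le
        (Subgroup.commutator_eq_bot_iff_le_centralizer.1 h1)
        (Subgroup.commutator_eq_bot_iff_le_centralizer.1 h2))
    have sub : ∀ {U V W : Subgroup G}, V ≤ U → ⁅U, W⁆ = ⊥ → ⁅V, W⁆ = ⊥ := fun hle h =>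
      le_bot_iff.1 (h ▸ Subgroup.commutator_mono hle le_rfl)
    have hiff : ⁅A, C'⁆ = ⊥ ↔ ⁅A', C⁆ = ⊥ := by
      constructor
      · intro h
        have hPC' : ⁅P, C'⁆ = ⊥ := sub hPle (via h hA'C')
        have hQA : ⁅Q, A⁆ = ⊥ := sub hQle (via (bot_symm hAC') (bot_symm h))
        have hQP : ⁅Q, P⁆ = ⊥ := hP ▸ hcentPQ (bot_symm hQA) hQB
        have hPC : ⁅P, C⁆ = ⊥ := bot_of_commute fun x hx c hc => by
          obtain ⟨c', hc', r, hr, rfl⟩ := split hC' c hc
          exact ((show Commute x c' from commute_cb_right hPC' hx hc').mul_right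
            (show Commute r x from commute_cb_right hQP (hQ ▸ hr) hx).symm).eq
        exact sub hA'le (via hAC' hPC)
      · intro h
        have hPC : ⁅P, C⁆ = ⊥ := sub hPle (via hAC' h)
        have hQA' : ⁅Q, A'⁆ = ⊥ := sub hQle (via (bot_symm h) (bot_symm hA'C'))
        have hPQ : ⁅P, Q⁆ = ⊥ := hQ ▸ hcentPQ (bot_symm hPC) hPB
        have hQA : ⁅Q, A⁆ = ⊥ := bot_of_commute fun x hx a ha => by
          obtain ⟨a', ha', r, hr, rfl⟩ := split hA' a ha
          exact ((show Commute x a' from commute_cb_right hQA' hx ha').mul_right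
            (show Commute r x from commute_cb_right hPQ (hP ▸ hr) hx).symm).eq
        exact bot_symm (sub hC'le (via (bot_symm hAC') hQA))
    by_cases h : ⁅A, C'⁆ = ⊥
    · exact Or.inl ⟨hab hXX h, hab hYY (hiff.1 h)⟩
    · have h' : ¬ ⁅A', C⁆ = ⊥ := fun e => h (hiff.2 e)
      refine Or.inr ⟨⟨hna hXX h, ?_⟩, hna hYY h', ?_⟩
      · rw [hXX]; exact bot_of_commute hXc
      · rw [hYY]; exact bot_of_commute hYc
  · refine le_antisymm (sup_le ?_ hBR) (sup_le (sup_le (hAN.trans le_sup_left) le_sup_right) (hCN.trans le_sup_left))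
    rw [hNgen]
    exact sup_le (sup_le hAR hPR) (sup_le hCR hQR)
  · obtain ⟨R, hR⟩ : ∃ R, R = A ⊔ B ⊔ C := ⟨_, rfl⟩
    rw [← hR]
    obtain ⟨U, hU⟩ : ∃ U, U = ⁅P, Q⁆ := ⟨_, rfl⟩
    obtain ⟨Z, hZ⟩ : ∃ Z, Z = ⁅A, C'⁆ ⊔ ⁅A', C⁆ := ⟨_, rfl⟩
    have hNN : ⁅N, N⁆ ≤ Z ∧ ∀ z ∈ Z, ∀ n ∈ N, z * n = n * z := by
      have hzc : ∀ z ∈ Z, ∀ n ∈ N, z * n = n * z := by
        intro z hz n hn
        have : Z ≤ Subgroup.centralizer (N : Set G) := by
          rw [hZ]
          refine sup_le ?_ ?_ <;> rw [Subgroup.le_centralizer_iff, hN] <;> refine sup_le ?_ ?_ <;>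
            intro w hw <;> rw [Subgroup.mem_centralizer_iff] <;> intro c hc
          · exact hXc c hc w hw
          · have := Subgroup.commutator_mono (hX ▸ le_sup_left : A ≤ X) (hX ▸ le_sup_right : C' ≤ X) hc
            exact commute_cb_right hXY ((Subgroup.commutator_le_self _) this) hw
          · have := Subgroup.commutator_mono (hY ▸ le_sup_left : A' ≤ Y) (hY ▸ le_sup_right : C ≤ Y) hc
            exact (commute_cb_right hXY hw ((Subgroup.commutator_le_self _) this)).symm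
          · exact hYc c hc w hw
        exact (Subgroup.mem_centralizer_iff.1 (this hz) n hn).symm
      refine ⟨?_, hzc⟩
      have hnorm : N ≤ Subgroup.normalizer (Z : Set G) :=
        le_normalizer_of_gens fun g hg l hl => by rw [← hzc l hl g hg, mul_inv_cancel_right]; exact hl
      have hcl : Subgroup.closure ((X : Set G) ∪ Y) = N := by
        rw [Subgroup.closure_union, Subgroup.closure_eq, Subgroup.closure_eq, hN]
      have := comm_le_of_gens (s := (X : Set G) ∪ Y) (t := (X : Set G) ∪ Y) (L := Z) (hcl ▸ hnorm) (hcl ▸ hnorm) (by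
        rintro x (hx | hx) y (hy | hy)
        · exact (hZ ▸ le_sup_left : ⁅A, C'⁆ ≤ Z) (hXX ▸ Subgroup.commutator_mem_commutator hx hy)
        · rw [commutatorElement_eq_one_iff_mul_comm.2 (commute_cb_right hXY hx hy)]; exact one_mem _
        · rw [commutatorElement_eq_one_iff_mul_comm.2 (commute_cb_right hXY hy hx).symm]; exact one_mem _
        · exact (hZ ▸ le_sup_right : ⁅A', C⁆ ≤ Z) (hYY ▸ Subgroup.commutator_mem_commutator hx hy))
      rwa [hcl] at this
    obtain ⟨hNN, hZc⟩ := hNN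
    have hUZ : U ≤ Z := hU ▸ (Subgroup.commutator_mono hPN hQN).trans hNN
    have hUB : ∀ u ∈ U, ∀ g ∈ B, u * g = g * u := by
      intro u hu g hg
      have : U ≤ Subgroup.centralizer {g} := by
        rw [hU, Subgroup.commutator_le]
        intro x hx y hy
        rw [Subgroup.mem_centralizer_singleton_iff]
        have c1 : Commute g x := (commute_cb_right hPB hx hg).symm
        have c2 : Commute g y := (commute_cb_right hQB hy hg).symm
        rw [commutatorElement_def]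
        exact (((c1.mul_right c2).mul_right c1.inv_right).mul_right c2.inv_right).symm.eq
      exact Subgroup.mem_centralizer_singleton_iff.1 (this hu)
    have hUR : ∀ u ∈ U, ∀ g ∈ R, u * g = g * u := by
      intro u hu g hg
      have : R ≤ Subgroup.centralizer {u} := by
        rw [hR]
        refine sup_le (sup_le ?_ ?_) ?_ <;> intro x hx <;> rw [Subgroup.mem_centralizer_singleton_iff]
        · exact (hZc u (hUZ hu) x (hAN hx)).symm
        · exact (hUB u hu x hx).symm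
        · exact (hZc u (hUZ hu) x (hCN hx)).symm
      exact (Subgroup.mem_centralizer_singleton_iff.1 (this hg)).symm
    have hUn : R ≤ Subgroup.normalizer (U : Set G) :=
      le_normalizer_of_gens fun g hg l hl => by rw [← hUR l hl g hg, mul_inv_cancel_right]; exact hl
    -- `⁅Z, R⁆ ≤ U`
    have key : ∀ g ∈ B, ∀ a ∈ A, ∀ q ∈ Q, g * ⁅a, q⁆ * g⁻¹ * ⁅a, q⁆⁻¹ ∈ U := by
      intro g hg a ha q hq
      obtain ⟨p, hp, e⟩ : ∃ p ∈ P, g * a * g⁻¹ = a * p := by
        have h1 := cb_mem g ha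
        obtain ⟨a₁, ha₁, p, hp, e⟩ := mem_sup_comm (bot_symm (show ⁅⁅A, B⁆, A⁆ = ⊥ from case_comm_left cAB))
          (show g * a * g⁻¹ ∈ A ⊔ ⁅A, B⁆ by
            have := case_cb_le (case_symm cAB) hg h1
            rwa [Subgroup.commutator_comm B A] at this)
        refine ⟨a⁻¹ * (g * a * g⁻¹), ?_, by group⟩
        rw [hP, show a⁻¹ * (g * a * g⁻¹) = ⁅a⁻¹, g⁆ by rw [commutatorElement_def]; group]
        exact Subgroup.commutator_mem_commutator (inv_mem ha) hg
      have hgq : g * q * g⁻¹ = q := by rw [← commute_cb_right hQB hq hg, mul_inv_cancel_right]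
      have hconj : g * ⁅a, q⁆ * g⁻¹ = ⁅a * p, q⁆ := by
        rw [← e]; conv_rhs => rw [← hgq]
        simp only [commutatorElement_def]; group
      have hpu : ⁅p, q⁆ ∈ U := hU ▸ Subgroup.commutator_mem_commutator hp hq
      have hau : a * ⁅p, q⁆ * a⁻¹ = ⁅p, q⁆ := by
        rw [← hZc _ (hUZ hpu) a (hAN ha), mul_inv_cancel_right]
      rw [hconj, show ⁅a * p, q⁆ = a * ⁅p, q⁆ * a⁻¹ * ⁅a, q⁆ by simp only [commutatorElement_def]; group,
        hau, mul_inv_cancel_right]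
      exact hpu
    have key' : ∀ g ∈ B, ∀ c ∈ C, ∀ p ∈ P, g * ⁅c, p⁆ * g⁻¹ * ⁅c, p⁆⁻¹ ∈ U := by
      intro g hg c hc p hp
      obtain ⟨q, hq, e⟩ : ∃ q ∈ Q, g * c * g⁻¹ = c * q := by
        refine ⟨c⁻¹ * (g * c * g⁻¹), ?_, by group⟩
        rw [hQ, show c⁻¹ * (g * c * g⁻¹) = ⁅c⁻¹, g⁆ by rw [commutatorElement_def]; group]
        exact Subgroup.commutator_mem_commutator (inv_mem hc) hg
      have hgp : g * p * g⁻¹ = p := by rw [← commute_cb_right hPB hp hg, mul_inv_cancel_right]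
      have hconj : g * ⁅c, p⁆ * g⁻¹ = ⁅c * q, p⁆ := by
        rw [← e]; conv_rhs => rw [← hgp]
        simp only [commutatorElement_def]; group
      have hpu : ⁅q, p⁆ ∈ U := by
        rw [hU, ← commutatorElement_inv]; exact inv_mem (Subgroup.commutator_mem_commutator hp hq)
      have hau : c * ⁅q, p⁆ * c⁻¹ = ⁅q, p⁆ := by
        rw [← hZc _ (hUZ hpu) c (hCN hc), mul_inv_cancel_right]
      rw [hconj, show ⁅c * q, p⁆ = c * ⁅q, p⁆ * c⁻¹ * ⁅c, p⁆ by simp only [commutatorElement_def]; group,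
        hau, mul_inv_cancel_right]
      exact hpu
    obtain ⟨T, hT⟩ : ∃ T, T = {x | ∃ c ∈ C', ∃ a ∈ A, ⁅a, c⁆ = x} ∪ {x | ∃ c ∈ C, ∃ a ∈ A', ⁅c, a⁆ = x} :=
      ⟨_, rfl⟩
    have hZT : Z ≤ Subgroup.closure T := by
      rw [hZ, hT]
      refine sup_le ?_ ?_ <;> rw [Subgroup.commutator_le]
      · exact fun a ha c hc => Subgroup.subset_closure (Or.inl ⟨c, hc, a, ha, rfl⟩)
      · intro a ha c hc
        rw [← commutatorElement_inv]
        exact inv_mem (Subgroup.subset_closure (Or.inr ⟨c, hc, a, ha, rfl⟩))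
    have hTZ : Subgroup.closure T ≤ Z := by
      rw [Subgroup.closure_le, hT, hZ]
      rintro x (⟨c, hc, a, ha, rfl⟩ | ⟨c, hc, a, ha, rfl⟩)
      · exact le_sup_left (α := Subgroup G) (Subgroup.commutator_mem_commutator ha hc)
      · refine le_sup_right (α := Subgroup G) ?_
        rw [← commutatorElement_inv]; exact inv_mem (Subgroup.commutator_mem_commutator ha hc)
    have hZR : Z ≤ R := hR ▸ hZ ▸ by
      have hC'R : C' ≤ A ⊔ B ⊔ C := hC'le.trans (sup_le hCR hQR)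
      have hA'R : A' ≤ A ⊔ B ⊔ C := hA'le.trans (sup_le hAR hPR)
      exact sup_le ((Subgroup.commutator_mono hAR hC'R).trans (Subgroup.commutator_le_self _))
        ((Subgroup.commutator_mono hA'R hCR).trans (Subgroup.commutator_le_self _))
    have h43 : ⁅Z, R⁆ ≤ U := by
      refine (Subgroup.commutator_mono hZT (le_of_eq (hR.trans (closure_union3 A B C).symm))).trans
        (comm_le_of_gens ((hTZ.trans hZR).trans hUn) (by rw [closure_union3, ← hR]; exact hUn) ?_)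
      intro x hx g hg
      have hxZ : x ∈ Z := hTZ (Subgroup.subset_closure hx)
      rcases hg with (hg | hg) | hg
      · rw [commutatorElement_eq_one_iff_mul_comm.2 (hZc x hxZ g (hAN hg))]; exact one_mem _
      · rw [← commutatorElement_inv]
        refine inv_mem ?_
        rw [hT] at hx
        rw [show ⁅g, x⁆ = g * x * g⁻¹ * x⁻¹ from commutatorElement_def g x]
        rcases hx with ⟨c, hc, a, ha, rfl⟩ | ⟨c, hc, a, ha, rfl⟩
        · obtain ⟨q, hq, e⟩ := hT1 c hc a ha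
          rw [e]
          exact key g hg a ha q hq
        · obtain ⟨p, hp, e⟩ := hT2 c hc a ha
          rw [e]
          exact key' g hg c hc p hp
      · rw [commutatorElement_eq_one_iff_mul_comm.2 (hZc x hxZ g (hCN hg))]; exact one_mem _
    have hZn : R ≤ Subgroup.normalizer (Z : Set G) :=
      le_normalizer_of_gens fun g hg l hl => by
        have h3 : g * l * g⁻¹ = ⁅l, g⁆⁻¹ * l := by simp only [commutatorElement_def]; group
        rw [h3]
        exact mul_mem (inv_mem (hUZ (h43 (Subgroup.commutator_mem_commutator hl hg)))) hl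
    obtain ⟨M, hM⟩ : ∃ M, M = Subgroup.closure ((P : Set G) ∪ Q ∪ Z) := ⟨_, rfl⟩
    have hMN : M ≤ N := by
      rw [hM, closure_union3]
      refine sup_le (sup_le hPN hQN) (fun z hz => ?_)
      have : Z ≤ ⁅N, N⁆ := hZ ▸ sup_le (Subgroup.commutator_mono hAN hC'N) (Subgroup.commutator_mono hA'N hCN)
      exact Subgroup.commutator_le_self N (this hz)
    have hPM : P ≤ M := by rw [hM, closure_union3]; exact le_sup_left.trans le_sup_left
    have hQM : Q ≤ M := by rw [hM, closure_union3]; exact le_sup_right.trans le_sup_left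
    have hZM : Z ≤ M := by rw [hM, closure_union3]; exact le_sup_right
    have hMR : M ≤ R := by rw [hM, closure_union3]; exact sup_le (sup_le (hR ▸ hPR) (hR ▸ hQR)) hZR
    have h32 : ⁅M, R⁆ ≤ Z := by
      refine (Subgroup.commutator_mono (le_of_eq hM) (le_of_eq (hR.trans (closure_union3 A B C).symm))).trans
        (comm_le_of_gens (by rw [← hM]; exact hMR.trans hZn) (by rw [closure_union3, ← hR]; exact hZn) ?_)
      intro x hx g hg
      rcases hx with (hx | hx) | hx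
      · rcases hg with (hg | hg) | hg
        · exact hNN (Subgroup.commutator_mem_commutator (hPN hx) (hAN hg))
        · rw [commutatorElement_eq_one_iff_mul_comm.2 (commute_cb_right hPB hx hg)]; exact one_mem _
        · exact hNN (Subgroup.commutator_mem_commutator (hPN hx) (hCN hg))
      · rcases hg with (hg | hg) | hg
        · exact hNN (Subgroup.commutator_mem_commutator (hQN hx) (hAN hg))
        · rw [commutatorElement_eq_one_iff_mul_comm.2 (commute_cb_right hQB hx hg)]; exact one_mem _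
        · exact hNN (Subgroup.commutator_mem_commutator (hQN hx) (hCN hg))
      · exact hUZ (h43 (Subgroup.commutator_mem_commutator hx
          (by rw [hR, ← closure_union3]; exact Subgroup.subset_closure hg)))
    have hMn : R ≤ Subgroup.normalizer (M : Set G) :=
      le_normalizer_of_gens fun g hg l hl => by
        rw [show g * l * g⁻¹ = ⁅l, g⁆⁻¹ * l by simp only [commutatorElement_def]; group]
        exact mul_mem (inv_mem (hZM (h32 (Subgroup.commutator_mem_commutator hl hg)))) hl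
    have h21 : ⁅R, R⁆ ≤ M := by
      refine (Subgroup.commutator_mono (le_of_eq (hR.trans (closure_union3 A B C).symm))
        (le_of_eq (hR.trans (closure_union3 A B C).symm))).trans
        (comm_le_of_gens (by rw [closure_union3, ← hR]; exact hMn) (by rw [closure_union3, ← hR]; exact hMn) ?_)
      intro x hx y hy
      have hzero : ∀ {u v : G}, u * v = v * u → ⁅u, v⁆ ∈ M := fun h => by
        rw [commutatorElement_eq_one_iff_mul_comm.2 h]; exact one_mem _
      rcases hx with (hx | hx) | hx <;> rcases hy with (hy | hy) | hy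
      · exact hzero (mA hx hy)
      · exact hPM (hP ▸ Subgroup.commutator_mem_commutator hx hy)
      · exact hzero (commute_cb_right hAC' hx hy)
      · rw [← commutatorElement_inv]; exact inv_mem (hPM (hP ▸ Subgroup.commutator_mem_commutator hy hx))
      · exact hzero (member_comm hS hB hx hy)
      · rw [← commutatorElement_inv]; exact inv_mem (hQM (hQ ▸ Subgroup.commutator_mem_commutator hy hx))
      · exact hzero (commute_cb_right hAC' hy hx).symm
      · exact hQM (hQ ▸ Subgroup.commutator_mem_commutator hx hy)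
      · exact hzero (mC hx hy)
    refine Subgroup.isNilpotent_of_lowerCentralSeries_eq_bot (n := 4) (le_bot_iff.1 ?_)
    simp only [Subgroup.lowerCentralSeries_succ, Subgroup.lowerCentralSeries_zero]
    refine (Subgroup.commutator_mono ((Subgroup.commutator_mono ((Subgroup.commutator_mono h21 le_rfl).trans h32)
      le_rfl).trans h43) le_rfl).trans ?_
    exact (bot_of_commute hUR).le

end Cfsg.Agent.S5030
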