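import Cfsg.Statements.S5031
import Cfsg.Agent.Fischer.RootBasic

set_option autoImplicit false
open Cfsg Cfsg.Agent.Fischer
open scoped commutatorElement

namespace Cfsg.Agent.S5031

/-- Let S be a set of abstract root subgroups of G and let A, B ∈ S lie in different connected components of the graph of rank one pairs on S, each component having more than one member. Then B is not a line partner of A. -/
theorem result {G : Type*} [Group G] {S : Set (Subgroup G)} (hS : Cfsg.IsRootSubgroupSet S)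
    {A B : Subgroup G} (hA : A ∈ S) (hB : B ∈ S)
    (hne : Cfsg.componentOf (Cfsg.FAdj S) S A ≠ Cfsg.componentOf (Cfsg.FAdj S) S B)
    (hA2 : ∃ A' ∈ Cfsg.componentOf (Cfsg.FAdj S) S A, A' ≠ A) (hB2 : ∃ B' ∈ Cfsg.componentOf (Cfsg.FAdj S) S B, B' ≠ B) :
    B ∉ Cfsg.linePartners S A := by
  intro hBA
  obtain ⟨⟨-, hne', hAB⟩, hline, hcov, -⟩ := hBA
  have partner : ∀ A ∈ S, (∃ A' ∈ componentOf (FAdj S) S A, A' ≠ A) → ∃ F ∈ S, IsRankOnePair A F := by
    intro A _ ⟨A', ⟨_, hp⟩, hn⟩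
    rcases hp.cases_head with e | ⟨F, hF, -⟩
    · exact absurd e.symm hn
    · exact ⟨F, hF.2.1, hF.2.2⟩
  obtain ⟨F, hF, hAF⟩ := partner A hA hA2
  obtain ⟨F', hF', hBF'⟩ := partner B hB hB2
  have hsym : ∀ X Y, Relation.ReflTransGen (FAdj S) X Y → Relation.ReflTransGen (FAdj S) Y X :=
    fun X Y h => by
      induction h with
      | refl => exact Relation.ReflTransGen.refl
      | tail _ h ih =>
        exact (Relation.ReflTransGen.single (r := FAdj S) ⟨h.2.1, h.1, RankOnePair_symm h.2.2⟩).trans ih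
  have hcomp : ¬ Relation.ReflTransGen (FAdj S) A B := by
    intro h
    apply hne
    ext X
    exact ⟨fun hX => ⟨hX.1, (hsym _ _ h).trans hX.2⟩, fun hX => ⟨hX.1, h.trans hX.2⟩⟩
  have e1 : ∀ {X Y : Subgroup G}, X ∈ S → Y ∈ S → IsRankOnePair X Y → Relation.ReflTransGen (FAdj S) X Y :=
    fun hX hY h => Relation.ReflTransGen.single ⟨hX, hY, h⟩
  have hBF : ¬ IsRankOnePair B F := fun h => hcomp ((e1 hA hF hAF).trans (e1 hF hB (RankOnePair_symm h)))
  have hAF' : ¬ IsRankOnePair A F' := fun h => hcomp ((e1 hA hF' h).trans (e1 hF' hB (RankOnePair_symm hBF')))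
  obtain ⟨a, ha, ha1⟩ := exists_ne_one hAF
  obtain ⟨b, hb, hb1⟩ := exists_ne_one hBF'
  have hab1 : a * b ≠ 1 := by
    intro e
    have : a ∈ B := by rw [eq_inv_of_mul_eq_one_left e]; exact inv_mem hb
    exact hne' (eq_of_inter hS hA (not_isolated_of_pair hS hA hF hAF) hB ha this ha1).symm
  obtain ⟨E, hEm, he⟩ := hcov (a * b)
    (mul_mem (le_sup_left (α := Subgroup G) ha) (le_sup_right (α := Subgroup G) hb)) hab1
  have h1 := mixed_partner hS hB hEm.1 hF hAF hBF hAB ha ha1 hb he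
  have h2 := mixed_partner hS hA hEm.1 hF' hBF' hAF' (bot_symm hAB) hb hb1 ha
    (commute_cb_right hAB ha hb ▸ he)
  exact hcomp (((e1 hA hF hAF).trans (e1 hF hEm.1 (RankOnePair_symm h1))).trans
    ((e1 hEm.1 hF' h2).trans (e1 hF' hB (RankOnePair_symm hBF'))))

end Cfsg.Agent.S5031
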