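import Cfsg.Statements.S5035
import Cfsg.Agent.Fischer.RootBasic

set_option autoImplicit false
open Cfsg Cfsg.Agent.Fischer
open scoped commutatorElement

namespace Cfsg.Agent.S5035

/-- Let S be a set of abstract root subgroups of G whose graph of rank one pairs is connected, and f a homomorphism from G onto a group H. Then either the images of the members of S form a set of abstract root subgroups of H whose graph of rank one pairs is again connected, or H equals the image of a member of S. -/
theorem result {G H : Type*} [Group G] [Group H] {S : Set (Subgroup G)} (hS : Cfsg.IsRootSubgroupSet S)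
    (hc : Cfsg.IsConnectedFamily (Cfsg.FAdj S) S) (f : G →* H) (hf : Function.Surjective f) :
    (Cfsg.IsRootSubgroupSet ((fun A : Subgroup G => A.map f) '' S) ∧
      Cfsg.IsConnectedFamily (Cfsg.FAdj ((fun A : Subgroup G => A.map f) '' S)) ((fun A : Subgroup G => A.map f) '' S)) ∨
    ∃ A ∈ S, A.map f = ⊤ := by
  by_cases hb : ∃ A ∈ S, A.map f = ⊥
  · obtain ⟨A, hA, hAb⟩ := hb
    right
    refine ⟨A, hA, ?_⟩
    have hall : ∀ T ∈ S, T.map f = ⊥ := by
      intro T hT
      have hp := hc A hA T hT
      induction hp with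
      | refl => exact hAb
      | tail hp h ih =>
        obtain ⟨x, -, e⟩ := exists_conj h.2.2
        have hb' := ih h.1
        rw [← e, Subgroup.map_eq_bot_iff] at *
        intro y hy
        rw [mem_cb] at hy
        simpa [mul_assoc] using (inferInstance : f.ker.Normal).conj_mem _ (hb' hy) x
    rw [hAb, eq_comm, eq_bot_iff]
    have h1 : (⊤ : Subgroup G).map f = ⊤ := Subgroup.map_top_of_surjective _ hf
    rw [← h1, ← hS.generates, Subgroup.map_iSup]
    refine iSup_le fun T => ?_
    rw [Subgroup.map_iSup]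
    exact iSup_le fun hT => (hall T hT).le
  left
  push_neg at hb
  have hcb : ∀ (A : Subgroup G) (g : G), (conjBy A g).map f = conjBy (A.map f) (f g) := by
    intro A g
    show (A.map _).map f = (A.map f).map _
    rw [Subgroup.map_map, Subgroup.map_map]
    congr 1
    ext x; simp
  have hrk : ∀ A ∈ S, ∀ B ∈ S, IsRankOnePair A B → A.map f ≠ B.map f →
      IsRankOnePair (A.map f) (B.map f) := by
    intro A hA B hB h hne
    have key : ∀ {A B : Subgroup G}, A.map f ≠ B.map f → RankOneCondition A B →
        RankOneCondition (A.map f) (B.map f) := by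
      rintro A B hne hc _ ⟨a, ha, rfl⟩ ha1
      obtain ⟨b, hb, -, e⟩ := hc a ha (fun e => ha1 (by rw [e, map_one]))
      have e' := congrArg (Subgroup.map f) e
      rw [hcb, hcb, map_inv, map_inv] at e'
      refine ⟨f b, Subgroup.mem_map_of_mem f hb, fun hb1 => hne ?_, e'⟩
      rw [hb1, inv_one, cb_one, eq_comm, cb_eq_iff, inv_inv,
        cb_of_mem (Subgroup.mem_map_of_mem f ha)] at e'
      exact e'.symm
    refine ⟨hne, ?_, ?_, key hne h.cond_left, key hne.symm h.cond_right⟩
    · haveI := h.nilpotent_left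
      exact Group.nilpotent_of_surjective _ (f.subgroupMap_surjective A)
    · haveI := h.nilpotent_right
      exact Group.nilpotent_of_surjective _ (f.subgroupMap_surjective B)
  have hbot : ∀ {A B : Subgroup G}, ⁅A, B⁆ = ⊥ → ⁅A.map f, B.map f⁆ = ⊥ := by
    intro A B h; rw [← Subgroup.map_commutator, h, Subgroup.map_bot]
  have hS' : IsRootSubgroupSet ((fun A : Subgroup G => A.map f) '' S) := by
    refine ⟨?_, ?_, ?_, ?_, ?_⟩
    · rintro _ ⟨A, hA, rfl⟩
      refine ⟨⟨?_⟩⟩
      rintro ⟨_, x, hx, rfl⟩ ⟨_, y, hy, rfl⟩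
      exact Subtype.ext (by simp only [MulMemClass.coe_mul, ← map_mul, member_comm hS hA hx hy])
    · rintro _ ⟨A, hA, rfl⟩; exact hb A hA
    · rw [eq_top_iff, ← Subgroup.map_top_of_surjective _ hf, ← hS.generates, Subgroup.map_iSup]
      refine iSup_le fun A => ?_
      rw [Subgroup.map_iSup]
      exact iSup_le fun hA => le_iSup₂_of_le (A.map f) ⟨A, hA, rfl⟩ le_rfl
    · rintro _ ⟨A, hA, rfl⟩ g
      obtain ⟨g, rfl⟩ := hf g
      exact ⟨conjBy A g, hS.conj_mem A hA g, hcb A g⟩
    · rintro _ ⟨A, hA, rfl⟩ _ ⟨B, hB, rfl⟩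
      rcases hS.pair A hA B hB with h | h | ⟨h1, h2, h3, h4⟩
      · exact Or.inl (hbot h)
      · by_cases e : A.map f = B.map f
        · left
          refine bot_of_commute ?_
          dsimp only
          rw [← e]
          rintro _ ⟨x, hx, rfl⟩ _ ⟨y, hy, rfl⟩
          rw [← map_mul, ← map_mul, member_comm hS hA hx hy]
        · exact Or.inr (Or.inl (hrk A hA B hB h e))
      · refine Or.inr (Or.inr ⟨?_, ?_, ?_, ?_⟩)
        · exact ⟨⁅A, B⁆, h1, Subgroup.map_commutator _ _ f⟩
        · dsimp only
          rw [← Subgroup.map_commutator, ← Subgroup.map_sup]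
          rintro _ ⟨c, hc, rfl⟩ _ ⟨x, hx, rfl⟩
          rw [← map_mul, ← map_mul, h2 c hc x hx]
        · rintro _ ⟨a, ha, rfl⟩ ha1
          dsimp only
          rw [← Subgroup.map_commutator, ← h3 a ha (fun e => ha1 (by rw [e, map_one])),
            MonoidHom.map_closure, Subgroup.coe_map, Set.image_image, Set.image_image]
          simp only [map_mul, map_inv]
        · rintro _ ⟨b, hb', rfl⟩ hb1
          dsimp only
          rw [← Subgroup.map_commutator, ← h4 b hb' (fun e => hb1 (by rw [e, map_one])),
            MonoidHom.map_closure, Subgroup.coe_map, Set.image_image, Set.image_image]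
          simp only [map_mul, map_inv]
  refine ⟨hS', ?_⟩
  rintro _ ⟨A, hA, rfl⟩ _ ⟨B, hB, rfl⟩
  have hp := hc A hA B hB
  induction hp with
  | refl => exact Relation.ReflTransGen.refl
  | @tail X Y hp h ih =>
    refine (ih h.1).trans ?_
    by_cases e : Subgroup.map f X = Subgroup.map f Y
    · show Relation.ReflTransGen _ (Subgroup.map f X) (Subgroup.map f Y)
      rw [e]
    · exact Relation.ReflTransGen.single ⟨⟨_, h.1, rfl⟩, ⟨_, h.2.1, rfl⟩, hrk _ h.1 _ h.2.1 h.2.2 e⟩

end Cfsg.Agent.S5035
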