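import Cfsg.Statements.S5037
import Cfsg.Agent.Fischer.NonDegLines

set_option autoImplicit false
open Cfsg Cfsg.Agent.Fischer

namespace Cfsg.Agent.S5037

/-- Let S be a class of abstract root subgroups of G that is either degenerate or non-degenerate (so either the commutator case never occurs, or all three cases occur), and A ≠ C members of S. If every member of S commuting with A commutes with C, then A and C have the same commuting members of S; and if every rank one partner of A is a rank one partner of C, then A and C commute and have the same rank one partners. -/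
theorem result {G : Type*} [Group G] {S : Set (Subgroup G)} (hS : Cfsg.IsRootSubgroupClass S)
    (hdn : Cfsg.IsDegenerateRootSet S ∨ Cfsg.IsNondegenerateRootSet S)
    {A C : Subgroup G} (hA : A ∈ S) (hC : C ∈ S) (hAC : A ≠ C) :
    (Cfsg.centralizingMembers S A ⊆ Cfsg.centralizingMembers S C →
      Cfsg.centralizingMembers S A = Cfsg.centralizingMembers S C) ∧
    (Cfsg.rankOnePartners S A ⊆ Cfsg.rankOnePartners S C →
      ⁅A, C⁆ = ⊥ ∧ Cfsg.rankOnePartners S A = Cfsg.rankOnePartners S C) := by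
  have hni : ∀ X ∈ S, ∀ F ∈ S, IsRankOnePair X F → ¬ IsIsolatedIn (FAdj S) S X :=
    fun X hX F hF h => not_isolated_of_pair hS.1 hX hF h
  constructor
  · intro h
    have hcomm : ⁅A, C⁆ = ⊥ := by
      rw [Subgroup.commutator_eq_bot_iff_le_centralizer]
      refine (h ⟨hA, ?_⟩).2
      rw [← Subgroup.commutator_eq_bot_iff_le_centralizer]
      exact bot_of_commute fun x hx y hy => member_comm hS.1 hA hx hy
    refine Set.Subset.antisymm h ?_
    obtain ⟨F, hF, hCF⟩ := class_partner hS hdn hC hA hAC.symm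
    -- `F` is also a partner of `A`
    have hAF : IsRankOnePair A F := by
      by_contra hn
      have hne : ⁅A, F⁆ ≠ ⊥ := fun e => by
        refine not_commute hCF (bot_symm (Subgroup.commutator_eq_bot_iff_le_centralizer.2 (h ⟨hF, ?_⟩).2))
        rw [← Subgroup.commutator_eq_bot_iff_le_centralizer]
        exact bot_symm e
      have hcase := case_symm (pair_case hS.1 hA hF hn hne)
      have hFC : IsRankOnePair F C := RankOnePair_symm hCF
      obtain ⟨R, hRdef⟩ : ∃ R, R = ⁅F, A⁆ := ⟨_, rfl⟩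
      have hR : R ∈ S := hRdef ▸ hcase.1
      have hRA : ⁅R, A⁆ = ⊥ := hRdef ▸ case_comm_right hcase
      have hRC : ⁅R, C⁆ = ⊥ := Subgroup.commutator_eq_bot_iff_le_centralizer.2
        (h ⟨hR, Subgroup.commutator_eq_bot_iff_le_centralizer.1 hRA⟩).2
      obtain ⟨-, hpart, hl, -⟩ := Cfsg.Agent.S5029.result hS.1 (hni F hF C hC hFC) hF hA (hRdef ▸ hR)
      rw [← hRdef] at hl
      have hl' := linePartners_symm hR hl
      have hcov := hl'.2.2.1
      obtain ⟨E, hE, hEF, hEC, hmove⟩ := line_shift hS.1 hF hR hC hFC hl'.1.2.1.symm hl'.1.2.2 hcov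
      obtain ⟨f₀, hf₀, hf₀1⟩ := exists_ne_one hFC
      obtain ⟨hEcase, hcase2, hEeq⟩ := shift_eq hS.1 hF hE.1 hC hFC hEC
        (line_commute hS.1 hF hR hl'.1.2.2 le_sup_left hE.2) hf₀ hf₀1 (fun t ht _ => by
          have hat : f₀ * t ≠ 1 := by
            intro e
            have : t ∈ F := by rw [eq_inv_of_mul_eq_one_right e]; exact inv_mem hf₀
            have ht1 : t ≠ 1 := fun et => hf₀1 (by rwa [et, mul_one] at e)
            exact hEF (eq_of_inter hS.1 hF (hni F hF C hC hFC) hE.1 this ht ht1).symm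
          obtain ⟨M, hM, hx⟩ := hcov _ (mul_mem (le_sup_left (α := Subgroup G) hf₀) (hE.2 ht)) hat
          exact ⟨M, hM.1, line_commute hS.1 hF hR hl'.1.2.2 le_sup_left hM.2, hx⟩)
      have hRE : R ≠ E := fun e => case_not_bot hS.1 hEcase (e ▸ hRC)
      obtain ⟨M, hMmem, hMR⟩ : ∃ M, M ∈ membersIn S (F ⊔ R) ∧ M = R := ⟨R, ⟨hR, le_sup_right⟩, rfl⟩
      obtain ⟨-, -, -, -, hsup⟩ := hmove F ⟨hF, le_sup_left⟩ hEF.symm
      have hmem := (Cfsg.Agent.S5029.result hS.1 (hni F hF C hC hFC) hF hEcase.1 hcase2.1).1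
      rw [← hEeq, hsup] at hmem
      rw [hMR, hmem] at hMmem
      rcases hMmem with ⟨g, hg, hgR⟩ | hRE'
      · have hgC : conjBy C g = C := cb_of_commute fun x hx =>
          case_comm hEcase hg (le_sup_right (α := Subgroup G) hx)
        exact not_commute ((show conjBy F g = R from hgR) ▸ hgC ▸ rankOne_cb hFC g) hRC
      · exact hRE hRE'
    refine inclusion_symm (fun X Y => centralizingMembers S X ⊆ centralizingMembers S Y)
      (fun X Y Z h1 h2 => h1.trans h2) ?_ ?_ hS.1 hC hF hcomm hAF hCF h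
    · intro X Y g h1 Z hZ
      have h2 : conjBy Z g⁻¹ ∈ centralizingMembers S X := by
        refine ⟨hS.1.conj_mem Z hZ.1 _, ?_⟩
        rw [← Subgroup.commutator_eq_bot_iff_le_centralizer]
        have := cb_bot (g := g⁻¹) (Subgroup.commutator_eq_bot_iff_le_centralizer.2 hZ.2)
        rwa [cb_cb X, inv_mul_cancel, cb_one] at this
      refine ⟨hZ.1, ?_⟩
      rw [← Subgroup.commutator_eq_bot_iff_le_centralizer]
      have := cb_bot (g := g) (Subgroup.commutator_eq_bot_iff_le_centralizer.2 (h1 h2).2)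
      rwa [cb_cb Z, mul_inv_cancel, cb_one] at this
    · intro X Y hXY hX _ h1
      refine not_commute hXY (Subgroup.commutator_eq_bot_iff_le_centralizer.2 (h1 ⟨hX, ?_⟩).2)
      rw [← Subgroup.commutator_eq_bot_iff_le_centralizer]
      exact bot_of_commute fun x hx y hy => member_comm hS.1 hX hx hy
  · intro h
    obtain ⟨F, hF, hAF⟩ := class_partner hS hdn hA hC hAC
    have hcomm : ⁅A, C⁆ = ⊥ := by
      rcases hS.1.pair A hA C hC with hc | hc | hc
      · exact hc
      · exact absurd rfl (h ⟨hC, hc⟩).2.ne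
      · exfalso
        have hnd : IsNondegenerateRootSet S := hdn.resolve_left fun hd => hd A hA C hC hc
        have hl := (Cfsg.Agent.S5029.result hS.1 (hni A hA F hF hAF) hA hC hc.1).2.2.1
        -- the other half of the configuration
        obtain ⟨-, -, hl', -⟩ := Cfsg.Agent.S5029.result hS.1 (nd_not_isolated hS hnd hC) hC hA
          (case_symm hc).1
        rw [Subgroup.commutator_comm] at hl'
        obtain ⟨T, hT, hRT, hRTC⟩ := nd_triangle hS hnd hC (linePartners_symm hc.1 hl')
        have hTR : ⁅T, ⁅C, A⁆⁆ = C := by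
          rw [Subgroup.commutator_comm C A, Subgroup.commutator_comm]; exact hRTC
        obtain ⟨hr, -⟩ := Cfsg.Agent.S5036.result hS.1 hC hA (case_symm hc).1 hT.1.1 hTR
        exact not_commute (h ⟨hT.1.1, hr⟩).2 hT.1.2.2
    refine ⟨hcomm, Set.Subset.antisymm h ?_⟩
    refine inclusion_symm (fun X Y => rankOnePartners S X ⊆ rankOnePartners S Y)
      (fun X Y Z h1 h2 => h1.trans h2) ?_ ?_ hS.1 hC hF hcomm hAF (h ⟨hF, hAF⟩).2 h
    · intro X Y g h1 Z hZ
      have h2 : conjBy Z g⁻¹ ∈ rankOnePartners S X := by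
        refine ⟨hS.1.conj_mem Z hZ.1 _, ?_⟩
        have := rankOne_cb hZ.2 g⁻¹
        rwa [cb_cb X, inv_mul_cancel, cb_one] at this
      refine ⟨hZ.1, ?_⟩
      have := rankOne_cb (h1 h2).2 g
      rwa [cb_cb Z, mul_inv_cancel, cb_one] at this
    · exact fun X Y hXY _ hY h1 => absurd rfl (h1 ⟨hY, hXY⟩).2.ne

end Cfsg.Agent.S5037
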