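import Cfsg.Statements.S5039
import Cfsg.Agent.Fischer.NoTwins
import Cfsg.Agent.Fischer.NonDeg
import Cfsg.Agent.Fischer.SL2Pair
import Cfsg.Agent.S5032

set_option autoImplicit false
universe u
open Cfsg Cfsg.Agent.Fischer
open scoped commutatorElement

namespace Cfsg.Agent.S5039

theorem card_image_gt {G : Type u} [Group G] {k : Type u} [Field k] {A₀ B₀ A : Subgroup G}
    (h : IsPSL2PairOver k A₀ B₀) (hle : A₀ ≤ A) (hk : 3 < ENat.card k) : 3 < ENat.card A := by
  obtain ⟨φ, -, hker, hA₀, -⟩ := h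
  refine hk.trans_le (ENat.card_le_card_of_injective
    (f := fun s : k => (⟨φ (slU s), hle (hA₀ ▸ Subgroup.mem_map_of_mem φ (mem_upper.2 ⟨s, rfl⟩))⟩ : A)) ?_)
  intro s t e
  have e' : φ (slU s) = φ (slU t) := congrArg Subtype.val e
  have hmem : slU (s - t) ∈ φ.ker := by
    rw [MonoidHom.mem_ker, sub_eq_add_neg, ← slU_add, ← slU_inv, map_mul, map_inv, e', mul_inv_cancel]
  obtain ⟨r, -, hr⟩ := Matrix.SpecialLinearGroup.mem_center_iff.1 (hker hmem)
  have h01 := congrFun (congrFun hr 0) 1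
  simp [slU] at h01
  exact sub_eq_zero.1 h01.symm

/-- Let S be a class of abstract root subgroups of G containing two different commuting members. Suppose that, in case S is degenerate and every element of every member of S has order at most 3, the following holds: for every A ∈ S and every rank one partner B of A there are subgroups A₀ ≤ A and B₀ ≤ B generating an image of SL₂(k) with central kernel, k a field with at least four elements, A₀ and B₀ being the images of the unitriangular subgroups. Then every rank one pair A, B in S is special. -/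
theorem result {G : Type u} [Group G] {S : Set (Subgroup G)} (hS : Cfsg.IsRootSubgroupClass S)
    (hcomm : ∃ A ∈ S, ∃ C ∈ S, A ≠ C ∧ ⁅A, C⁆ = ⊥)
    (hH : Cfsg.IsDegenerateRootSet S → (∀ A ∈ S, ∀ a ∈ A, 0 < orderOf a ∧ orderOf a ≤ 3) →
      ∀ A ∈ S, ∀ B ∈ Cfsg.rankOnePartners S A, ∃ A₀ B₀ : Subgroup G, A₀ ≤ A ∧ B₀ ≤ B ∧
        ∃ (k : Type u) (_ : Field k), 3 < ENat.card k ∧ Cfsg.IsPSL2PairOver k A₀ B₀)
    {A B : Subgroup G} (hA : A ∈ S) (hB : B ∈ Cfsg.rankOnePartners S A) : Cfsg.IsSpecialRankOnePair A B := by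
  obtain ⟨hB, hAB⟩ := hB
  by_cases hdeg : IsDegenerateRootSet S
  swap
  · have hnd : IsNondegenerateRootSet S := by
      refine ⟨hcomm, ⟨A, hA, B, hB, hAB⟩, ?_⟩
      simpa [IsDegenerateRootSet] using hdeg
    exact nd_special hS hnd hA hB hAB
  by_cases hT1 : ∃ C ∈ commutingPartners S A, IsRankOnePair C B
  · obtain ⟨C, ⟨hC, hne, hAC⟩, hCB⟩ := hT1
    exact special_of_configured hS.1 hA hB
      (configured_symm hS.1 hB hA (configured_swap hS.1 hA hC hB hAC hne hAB hCB))
  by_cases hT2 : ∃ C ∈ commutingPartners S B, IsRankOnePair C A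
  · obtain ⟨C, ⟨hC, hne, hBC⟩, hCA⟩ := hT2
    exact special_of_configured hS.1 hA hB
      (configured_swap hS.1 hB hC hA hBC hne (RankOnePair_symm hAB) hCA)
  exfalso
  push_neg at hT1 hT2
  have htw : Twins S A B := by
    have key : ∀ {U V : Subgroup G}, U ∈ S → V ∈ S → IsRankOnePair U V →
        (∀ C ∈ commutingPartners S U, ¬ IsRankOnePair C V) →
        commutingPartners S U ⊆ commutingPartners S V := by
      intro U V hU hV hUV h M hM
      refine ⟨hM.1, fun e => not_commute hUV (e ▸ hM.2.2), ?_⟩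
      by_contra hn
      exact h M hM (deg_partner hS.1 hdeg hM.1 hV fun e => hn (bot_symm e))
    exact Set.Subset.antisymm (key hA hB hAB hT1) (key hB hA (RankOnePair_symm hAB) hT2)
  have hne : ∃ X, X ∈ commutingPartners S A := by
    obtain ⟨P, hP, Q, hQ, hPQ, hc⟩ := hcomm
    obtain ⟨g, rfl⟩ := hS.2.2 P hP A hA
    exact ⟨conjBy Q g, hS.1.conj_mem Q hQ g, fun e => hPQ (cb_inj.1 e).symm, cb_bot hc⟩
  obtain ⟨X', hX', A', hA', hA'A, hA'X⟩ : ∃ X' ∈ commutingPartners S A, ∃ A' ∈ S,
      IsRankOnePair A' A ∧ IsRankOnePair A' X' := by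
    by_contra hno
    push_neg at hno
    obtain ⟨X₀, hX₀⟩ := hne
    have hconn := (Cfsg.Agent.S5032.result hS.1 ⟨A, hA, B, hB, hAB.ne⟩).2
      ⟨hS.2, A, hA, not_isolated_of_pair hS.1 hA hB hAB⟩
    have hstay : ∀ {M : Subgroup G}, Relation.ReflTransGen (FAdj S) X₀ M → M ∈ commutingPartners S A := by
      intro M h
      induction h with
      | refl => exact hX₀
      | @tail P Q _ h ih =>
        refine ⟨h.2.1, fun e => not_commute (RankOnePair_symm h.2.2) (e ▸ ih.2.2), ?_⟩
        by_contra hn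
        exact hno P ih Q h.2.1 (deg_partner hS.1 hdeg h.2.1 hA fun e => hn (bot_symm e))
          (RankOnePair_symm h.2.2)
    exact (hstay (hconn X₀ hX₀.1 A hA)).2.1 rfl
  have hconf : Configured A' A := configured_swap hS.1 hA hX'.1 hA' hX'.2.2 hX'.2.1
    (RankOnePair_symm hA'A) (RankOnePair_symm hA'X)
  have h3 : 3 < ENat.card A' := by
    by_cases hord : ∀ A ∈ S, ∀ a ∈ A, 0 < orderOf a ∧ orderOf a ≤ 3
    · obtain ⟨A₀, B₀, hA₀, -, k, _, hk, hpair⟩ := hH hdeg hord A' hA' A ⟨hA, hA'A⟩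
      exact card_image_gt hpair hA₀ hk
    · push_neg at hord
      obtain ⟨D, hD, d, hd, hdo⟩ := hord
      obtain ⟨g, rfl⟩ := hS.2.2 D hD A' hA'
      rw [show ENat.card ↥(conjBy D g) = ENat.card D from
        (ENat.card_congr (Subgroup.equivMapOfInjective D _ (MulAut.conj g).injective).toEquiv).symm]
      by_contra hle
      rw [not_lt] at hle
      haveI : Finite D := ENat.card_lt_top.1 (hle.trans_lt (ENat.natCast_lt_top 3))
      rw [ENat.card_eq_coe_natCard] at hle
      have h1 : Nat.card D ≤ 3 := by exact_mod_cast hle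
      have hpos : 0 < orderOf (⟨d, hd⟩ : D) := orderOf_pos _
      have h2 : orderOf (⟨d, hd⟩ : D) ≤ Nat.card D :=
        Nat.le_of_dvd Nat.card_pos (orderOf_dvd_natCard _)
      have h4 : orderOf (⟨d, hd⟩ : D) = orderOf d := (Subgroup.orderOf_coe _).symm
      have h5 := hdo (by omega)
      omega
  exact no_twins_of_configured hS.1 hdeg hA' hA hB hconf htw hAB.ne h3

end Cfsg.Agent.S5039
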