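import Cfsg.Statements.S5040
import Cfsg.Agent.Fischer.NonDegLines

set_option autoImplicit false
open Cfsg Cfsg.Agent.Fischer

namespace Cfsg.Agent.S5040

/-- Let S be a non-degenerate class of abstract root subgroups of G and Δ a weak TI-subset of S. Then the members of Δ commute with one another elementwise. -/
theorem result {G : Type*} [Group G] {S : Set (Subgroup G)} (hS : Cfsg.IsRootSubgroupClass S) (hnd : Cfsg.IsNondegenerateRootSet S)
    {Δ : Set (Subgroup G)} (hΔ : Cfsg.IsWeakTISubset S Δ) : Cfsg.IsAbelianFamily Δ := by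
  obtain ⟨hsub, ⟨A₁, hA₁, -⟩, hne, hTI⟩ := hΔ
  -- the stabiliser of `Δ`
  let H : Subgroup G :=
    { carrier := {g | ∀ X, X ∈ Δ ↔ conjBy X g ∈ Δ}
      one_mem' := fun X => by rw [cb_one]
      mul_mem' := fun {g h} hg hh X => by rw [← cb_cb, ← hg, ← hh]
      inv_mem' := fun {g} hg X => by rw [hg (conjBy X g⁻¹), cb_cb, mul_inv_cancel, cb_one] }
  have hfix : ∀ A ∈ Δ, ∀ T ∈ S, ⁅T, A⁆ = ⊥ → T ≤ H := by
    intro A hA T hT hc d hd
    by_cases hd1 : d = 1
    · rw [hd1]; exact one_mem _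
    rcases hTI d ⟨hd1, T, hT, hd⟩ with e | e
    · intro X
      constructor
      · exact fun hX => e ▸ ⟨X, hX, rfl⟩
      · intro hX
        rw [← e] at hX
        obtain ⟨Y, hY, eY⟩ := hX
        rwa [← cb_inj.1 eY]
    · exact absurd hA (Set.disjoint_left.1 e
        ⟨A, hA, cb_of_commute fun a ha => commute_cb_right hc hd ha⟩)
  have hself : ∀ A ∈ Δ, A ≤ H := fun A hA => hfix A hA A (hsub hA)
    (bot_of_commute fun x hx y hy => member_comm hS.1 (hsub hA) hx hy)
  have hnr : ∀ A ∈ Δ, ∀ B ∈ Δ, ¬ IsRankOnePair A B := by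
    intro A hA B hB hAB
    have htop : H = ⊤ := by
      rw [eq_top_iff, ← nd_generated hS hnd (hsub hA) ⟨hsub hB, hAB⟩]
      exact sup_le (iSup₂_le fun C hC => hfix A hA C hC.1.1 (bot_symm hC.1.2.2)) (hself B hB)
    refine hne (Set.Subset.antisymm hsub fun X hX => ?_)
    obtain ⟨g, rfl⟩ := hS.2.2 A (hsub hA) X hX
    exact ((htop ▸ Subgroup.mem_top g : g ∈ H) A).1 hA
  intro A hA B hB
  suffices hc : ⁅A, B⁆ = ⊥ from fun a ha b hb => commute_cb_right hc ha hb
  have hAS := hsub hA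
  have hBS := hsub hB
  by_contra hc
  have hcase := pair_case hS.1 hAS hBS (hnr A hA B hB) hc
  have hl := (Cfsg.Agent.S5029.result hS.1 (nd_not_isolated hS hnd hAS) hAS hBS hcase.1).2.2.1
  obtain ⟨T, hT, -, hTA⟩ := nd_triangle hS hnd hAS (linePartners_symm hcase.1 hl)
  have hTR : ⁅T, ⁅A, B⁆⁆ = A := by rw [Subgroup.commutator_comm]; exact hTA
  obtain ⟨hr, -⟩ := Cfsg.Agent.S5036.result hS.1 hAS hBS hcase.1 hT.1.1 hTR
  obtain ⟨t, ht, ht1⟩ := exists_mem_ne_one hS.1 hT.1.1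
  have hu : conjBy B t ∈ unipotentSubgroups B T :=
    unipotent_conj self_mem (le_sup_right (α := Subgroup G) ht)
  have hne' : B ≠ conjBy B t := fun e =>
    ht1 (eq_one_of_normalize (RankOnePair_symm hr) ht (cb_eq_self.1 e.symm))
  obtain ⟨x, -, e1, e2⟩ := two_trans hr self_mem hu hne'
  have hr' := rankOne_cb hr x
  rw [e1, e2] at hr'
  exact hnr B hB _ ((hfix A hA T hT.1.1 (bot_symm hT.1.2.2) ht B).1 hB) hr'

end Cfsg.Agent.S5040
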