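import Cfsg.Statements.S5047
import Cfsg.Agent.Fischer.RootInvSpecial

set_option autoImplicit false
open Cfsg

namespace Cfsg.Agent.S5047

theorem result {G : Type*} [Group G] [Finite G] {D : Set G} (hD : Cfsg.IsRootInvolutionSet D)
    (hc : Cfsg.IsConnectedSet (Cfsg.OddAdj D) D) {a b : G} (ha : a ∈ D) (hb : b ∈ Cfsg.productPartners D a)
    (hbE : b ∉ Cfsg.sameCommutingClass D a) : ∃ x ∈ Cfsg.fourPartners D b, orderOf (a * x) = 3 :=
  Cfsg.Agent.Fischer.RInv.exists_four_order_three hD hc ha hb hbE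

end Cfsg.Agent.S5047
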