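import Cfsg.Statements.S5048
import Cfsg.Agent.Fischer.RootInvSimple

set_option autoImplicit false
open Cfsg

namespace Cfsg.Agent.S5048

theorem result {G : Type*} [Group G] [Finite G] {D : Set G} (hD : Cfsg.IsRootInvolutionSet D)
    (hc : Cfsg.IsConnectedSet (Cfsg.OddAdj D) D) (hDD : (D ∩ Cfsg.commutingProducts D).Nonempty) :
    Cfsg.solvableRadical G = Cfsg.twoZCore G ∧ IsSimpleGroup (G ⧸ Cfsg.twoZCore G) :=
  Cfsg.Agent.Fischer.RInv.radical_and_simple hD hc hDD

end Cfsg.Agent.S5048
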