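import Cfsg.Statements.S5049
import Cfsg.Agent.Core.Cores
import Mathlib.GroupTheory.Commutator.Basic
-- import your own Cfsg.Agent.* helpers here

set_option autoImplicit false
open Cfsg

namespace Cfsg.Agent.S5049

/-- Let G be a finite group generated by a set D of odd transpositions (root involutions with no product of order 4), Q = O₂(G), and for a ∈ D let Q_a be the commutator subgroup of Q with a. Then every member of D commuting with a centralizes Q_a; and for b ∈ D with ab of odd order greater than 1, the centralizer of ab in Q is the intersection of the centralizers of a and b in Q. -/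
theorem result {G : Type*} [Group G] [Finite G] {D : Set G} (hD : Cfsg.IsOddTranspositionSet D) {a : G} (ha : a ∈ D) :
    (∀ e ∈ Cfsg.commutingMembers D a, ∀ q ∈ ⁅Cfsg.pCore 2 G, Subgroup.zpowers a⁆, e * q = q * e) ∧
    (∀ b ∈ Cfsg.oddPartners D a,
      Cfsg.pCore 2 G ⊓ Subgroup.centralizer {a * b} = Cfsg.pCore 2 G ⊓ Subgroup.centralizer {a} ⊓ Subgroup.centralizer {b}) := by
  obtain ⟨hR, h4⟩ := hD
  set Q := Cfsg.pCore 2 G
  have hsq : ∀ d ∈ D, d * d = 1 := fun d hd => by
    have h := pow_orderOf_eq_one d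
    rwa [hR.orderOf_eq d hd, pow_two] at h
  have hinv : ∀ d ∈ D, d⁻¹ = d := fun d hd => inv_eq_of_mul_eq_one_right (hsq d hd)
  have hpair : ∀ x ∈ D, ∀ y ∈ D, x * y = y * x ∨ Odd (orderOf (x * y)) := fun x hx y hy => by
    rcases hR.pair x hx y hy with h | h | h
    · exact Or.inl h
    · exact Or.inr h
    · exact absurd h.1 (h4 x hx y hy)
  have htwo : ∀ x ∈ D, ∀ y ∈ D, ∀ k : ℕ, (x * y) ^ 2 ^ k = 1 → x * y = y * x := by
    intro x hx y hy k hk
    rcases hpair x hx y hy with h | h
    · exact h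
    · have h1 : orderOf (x * y) = 1 := Nat.eq_one_of_dvd_coprimes
        (Nat.Coprime.pow_left k (Nat.coprime_two_left.mpr h)) (orderOf_dvd_of_pow_eq_one hk) dvd_rfl
      rw [orderOf_eq_one_iff, mul_eq_one_iff_eq_inv, hinv y hy] at h1
      rw [h1]
  have hQ2 : ∀ c ∈ Q, ∃ k : ℕ, c ^ 2 ^ k = 1 := fun c hc => by
    obtain ⟨k, hk⟩ := Agent.Core.isPGroup_pCore 2 G ⟨c, hc⟩
    exact ⟨k, congrArg Subtype.val hk⟩
  -- conjugates of `a` under `Q`
  have hconj : ∀ x ∈ D, ∀ q ∈ Q, x * (q * x * q⁻¹) ∈ Q ∧ x * (q * x * q⁻¹) = (q * x * q⁻¹) * x := by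
    intro x hx q hq
    have hmem : x * (q * x * q⁻¹) ∈ Q := by
      rw [show x * (q * x * q⁻¹) = x * q * x * q⁻¹ by group]
      have := (inferInstance : Q.Normal).conj_mem q hq x
      rw [hinv x hx] at this
      exact Q.mul_mem this (Q.inv_mem hq)
    refine ⟨hmem, ?_⟩
    obtain ⟨k, hk⟩ := hQ2 _ hmem
    exact htwo x hx _ (hR.conj_mem x hx q) k hk
  refine ⟨fun e he q hq => ?_, fun b hb => ?_⟩
  · obtain ⟨heD, hea⟩ := he
    have hec : ∀ q ∈ Q, Commute e (q * a * q⁻¹) := by
      intro q hq
      set c := a * (q * a * q⁻¹) with hc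
      have hcQ : c ∈ Q := (hconj a ha q hq).1
      have h1 : e * (q * a * q⁻¹) = (e * a) * c := by
        calc e * (q * a * q⁻¹) = e * (a * a) * (q * a * q⁻¹) := by rw [hsq a ha, mul_one]
          _ = (e * a) * c := by rw [hc]; group
      have h2 : (e * (q * a * q⁻¹)) ^ 2 ∈ Q := by
        rw [h1, pow_two, show e * a * c * (e * a * c) = ((e * a) * c * (e * a)⁻¹) * ((e * a) * (e * a)) * c by group,
          show (e * a) * (e * a) = 1 by
            calc e * a * (e * a) = e * (a * e) * a := by group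
              _ = e * (e * a) * a := by rw [hea]
              _ = (e * e) * (a * a) := by group
              _ = 1 := by rw [hsq e heD, hsq a ha, one_mul], mul_one]
        exact Q.mul_mem ((inferInstance : Q.Normal).conj_mem c hcQ _) hcQ
      obtain ⟨k, hk⟩ := hQ2 _ h2
      exact htwo e heD _ (hR.conj_mem a ha q) (k + 1) (by rw [pow_succ', pow_mul, hk])
    have hle : ⁅Q, Subgroup.zpowers a⁆ ≤ Subgroup.centralizer ({e} : Set G) := by
      rw [Subgroup.commutator_le]
      intro q hq z hz
      obtain ⟨i, rfl⟩ := Subgroup.mem_zpowers_iff.mp hz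
      refine Subgroup.mem_centralizer_singleton_iff.mpr ?_
      have hcomm : Commute e (q * a ^ i * q⁻¹ * (a ^ i)⁻¹) := by
        rw [← conj_zpow]
        exact ((hec q hq).zpow_right i).mul_right ((Commute.zpow_right hea i).inv_right)
      rw [commutatorElement_def]
      exact hcomm.eq.symm
    exact (Subgroup.mem_centralizer_singleton_iff.mp (hle hq)).symm
  · obtain ⟨hbD, hba, hodd⟩ := hb
    ext q
    simp only [Subgroup.mem_inf, Subgroup.mem_centralizer_singleton_iff]
    refine ⟨fun ⟨hq, hqab⟩ => ?_, fun ⟨⟨hq, h1⟩, h2⟩ => ⟨hq, (Commute.mul_right (show Commute q a from h1) (show Commute q b from h2)).eq⟩⟩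
    set c := a * (q * a * q⁻¹) with hc
    obtain ⟨hcQ, hca⟩ := hconj a ha q hq
    obtain ⟨-, hcb⟩ := hconj b hbD q hq
    have hceq : c = b * (q * b * q⁻¹) := by
      have h1 : (q * a * q⁻¹) * (q * b * q⁻¹) = a * b := by
        rw [show q * a * q⁻¹ * (q * b * q⁻¹) = q * (a * b) * q⁻¹ by group, hqab, mul_inv_cancel_right]
      have h2 : q * a * q⁻¹ = a * b * (q * b * q⁻¹) := by
        rw [← h1, mul_assoc _ (q * b * q⁻¹), hsq _ (hR.conj_mem b hbD q), mul_one]
      rw [hc, h2, ← mul_assoc, ← mul_assoc a a, hsq a ha, one_mul]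
    have hcomma : Commute a c := by
      show a * (a * (q * a * q⁻¹)) = a * (q * a * q⁻¹) * a
      rw [mul_assoc a (q * a * q⁻¹) a, ← hca]
    have hcommb : Commute b c := by
      rw [hceq]
      show b * (b * (q * b * q⁻¹)) = b * (q * b * q⁻¹) * b
      rw [mul_assoc b (q * b * q⁻¹) b, ← hcb]
    have hc2 : c ^ 2 = 1 := by
      calc c ^ 2 = a * ((q * a * q⁻¹) * a) * (q * a * q⁻¹) := by rw [hc, pow_two]; group
        _ = (a * a) * ((q * a * q⁻¹) * (q * a * q⁻¹)) := by rw [← hca]; group
        _ = 1 := by rw [hsq a ha, hsq _ (hR.conj_mem a ha q), one_mul]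
    have hprod : (q * a * q⁻¹) * b = c * (a * b) := by
      rw [← mul_assoc, ← hcomma.eq, hc, ← mul_assoc a a, hsq a ha, one_mul]
    have hab : a * b ≠ 1 := fun h => hba (by rw [mul_eq_one_iff_eq_inv.mp h, hinv b hbD])
    have hc1 : c = 1 := by
      rcases hpair _ (hR.conj_mem a ha q) b hbD with h | h
      · exfalso
        have h' : (a * c) * b = b * (a * c) := by
          rw [hc, ← mul_assoc a a, hsq a ha, one_mul, h]
        have h'' : a * b = b * a := by
          have e1 : a * c * b = a * b * c := by rw [mul_assoc, ← hcommb.eq, mul_assoc]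
          have h3 : a * b * c = b * a * c := e1.symm.trans (h'.trans (mul_assoc b a c).symm)
          exact mul_right_cancel h3
        have h2 : (a * b) ^ 2 = 1 := by
          rw [pow_two]
          calc a * b * (a * b) = a * (b * a) * b := by group
            _ = a * (a * b) * b := by rw [h'']
            _ = (a * a) * (b * b) := by group
            _ = 1 := by rw [hsq a ha, hsq b hbD, one_mul]
        exact hab (orderOf_eq_one_iff.mp (Nat.eq_one_of_dvd_coprimes (Nat.coprime_two_left.mpr hodd)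
          (orderOf_dvd_of_pow_eq_one h2) dvd_rfl))
      · have hcab : Commute c (a * b) := hcomma.symm.mul_right hcommb.symm
        set o := orderOf ((q * a * q⁻¹) * b)
        have h1 : c ^ o * (a * b) ^ o = 1 := by
          rw [← hcab.mul_pow, ← hprod, pow_orderOf_eq_one]
        have h2 : (c ^ o) ^ orderOf (a * b) = 1 := by
          rw [eq_inv_of_mul_eq_one_left h1, inv_pow, ← pow_mul, mul_comm, pow_mul, pow_orderOf_eq_one, one_pow, inv_one]
        rw [← pow_mul] at h2
        exact orderOf_eq_one_iff.mp (Nat.eq_one_of_dvd_coprimes (Nat.coprime_two_left.mpr (h.mul hodd))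
          (orderOf_dvd_of_pow_eq_one hc2) (orderOf_dvd_of_pow_eq_one h2))
    have hqa : q * a * q⁻¹ = a := by
      calc q * a * q⁻¹ = (a * a) * (q * a * q⁻¹) := by rw [hsq a ha, one_mul]
        _ = a * c := by rw [hc]; group
        _ = a := by rw [hc1, mul_one]
    have hqb : q * b * q⁻¹ = b := by
      calc q * b * q⁻¹ = (b * b) * (q * b * q⁻¹) := by rw [hsq b hbD, one_mul]
        _ = b * c := by rw [hceq]; group
        _ = b := by rw [hc1, mul_one]
    exact ⟨⟨hq, mul_inv_eq_iff_eq_mul.mp hqa⟩, mul_inv_eq_iff_eq_mul.mp hqb⟩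

end Cfsg.Agent.S5049
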