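import Cfsg.Statements.S5050
import Cfsg.Agent.Fischer.OddTransDiameter
-- import your own Cfsg.Agent.* helpers here

set_option autoImplicit false
open Cfsg Cfsg.Agent

namespace Cfsg.Agent.S5050

/-- Let G be a finite group generated by a class D of odd transpositions whose commuting graph is connected, with some product of two different commuting members again in D. Then for every d ∈ D and every x ∈ D with dx of odd order greater than 1, some member of D commutes with both d and x. -/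
theorem result {G : Type*} [Group G] [Finite G] {D : Set G} (hD : Cfsg.IsOddTranspositionSet D) (hcl : Cfsg.IsRootInvolutionClass D)
    (hc : Cfsg.IsConnectedSet (Cfsg.CommAdj D) D) (hDD : (D ∩ Cfsg.commutingProducts D).Nonempty)
    {d x : G} (hd : d ∈ D) (hx : x ∈ Cfsg.oddPartners D d) : ∃ e ∈ D, e * d = d * e ∧ e * x = x * e := by
  obtain ⟨hR, hne4⟩ := hD
  have hot : Fischer.OddDiam.OT D :=
    ⟨fun a ha => by rw [← pow_two, ← hR.orderOf_eq a ha]; exact pow_orderOf_eq_one a,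
     fun a ha h1 => by have := hR.orderOf_eq a ha; rw [h1, orderOf_one] at this; omega,
     hR.conj_mem, fun a ha b hb => by
      rcases hR.pair a ha b hb with h | h | h
      · exact Or.inl h
      · exact Or.inr h
      · exact absurd h.1 (hne4 a ha b hb)⟩
  have hpart : ∀ a ∈ D, ∃ b, Fischer.OddDiam.Partner D a b := by
    intro a ha
    obtain ⟨z, hz, a₀, ha₀, b₀, hb₀, hab, -, rfl⟩ := hDD
    obtain ⟨g, rfl⟩ := hcl.2.2 a₀ ha₀ a ha
    refine ⟨g * b₀ * g⁻¹, ha, hR.conj_mem b₀ hb₀ g, ?_, ?_⟩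
    · show g * a₀ * g⁻¹ * (g * b₀ * g⁻¹) = g * b₀ * g⁻¹ * (g * a₀ * g⁻¹)
      calc g * a₀ * g⁻¹ * (g * b₀ * g⁻¹) = g * (a₀ * b₀) * g⁻¹ := by group
        _ = g * (b₀ * a₀) * g⁻¹ := by rw [hab]
        _ = g * b₀ * g⁻¹ * (g * a₀ * g⁻¹) := by group
    · rw [show g * a₀ * g⁻¹ * (g * b₀ * g⁻¹) = g * (a₀ * b₀) * g⁻¹ by group]
      exact hR.conj_mem _ hz g
  obtain ⟨w, hw, h1, h2⟩ := Fischer.OddDiam.exists_common hot hpart hd
    (Relation.ReflTransGen.mono (fun s t h => ⟨h.1, h.2.1, h.2.2.2⟩) _ _ (hc d hd x hx.1))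
  exact ⟨w, hw, h1.eq, h2.eq⟩

end Cfsg.Agent.S5050
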