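import Cfsg.Statements.S5057


set_option autoImplicit false
open Cfsg

namespace Cfsg.Agent.S5057

/-- The involutions of the alternating group of degree 6 form a class of root involutions (a single conjugacy class of involutions generating the group, any two of which commute, have product of odd order, or have product of order 4 whose square is again an involution of the class), and the product of any two of them has order at most 5. -/
theorem result :
    Cfsg.IsRootInvolutionClass {g : ↥(alternatingGroup (Fin 6)) | orderOf g = 2} ∧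
    ∀ d ∈ {g : ↥(alternatingGroup (Fin 6)) | orderOf g = 2}, ∀ e ∈ {g : ↥(alternatingGroup (Fin 6)) | orderOf g = 2},
      orderOf (d * e) ≤ 5 := by
  set D : Set ↥(alternatingGroup (Fin 6)) := {g | orderOf g = 2}
  have key : ∀ x : ↥(alternatingGroup (Fin 6)), x ^ 2 = 1 → ∀ y : ↥(alternatingGroup (Fin 6)), y ^ 2 = 1 →
      x * y = y * x ∨ (x * y) ^ 3 = 1 ∨ (x * y) ^ 5 = 1 ∨ ((x * y) ^ 4 = 1 ∧ (x * y) ^ 2 ≠ 1) := by
    decide +kernel
  let a₀ : ↥(alternatingGroup (Fin 6)) := ⟨Equiv.swap 0 1 * Equiv.swap 2 3, Equiv.Perm.mem_alternatingGroup.2 (by decide +kernel)⟩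
  have hconj : ∀ x : ↥(alternatingGroup (Fin 6)), x ^ 2 = 1 → x ≠ 1 → ∃ g, x = g * a₀ * g⁻¹ := by
    decide +kernel
  have mem : ∀ {x : ↥(alternatingGroup (Fin 6))}, x ∈ D ↔ x ^ 2 = 1 ∧ x ≠ 1 := fun {x} =>
    orderOf_eq_prime_iff
  have hcl : ∀ d ∈ D, ∀ g, g * d * g⁻¹ ∈ D := fun d hd g => by
    show orderOf (g * d * g⁻¹) = 2
    rw [← MulAut.conj_apply, MulEquiv.orderOf_eq]; exact hd
  have ha0 : a₀ ∈ D := mem.2 (by decide +kernel)
  have hk : ∀ d ∈ D, ∀ e ∈ D, d * e = e * d ∨ orderOf (d * e) ∣ 3 ∨ orderOf (d * e) ∣ 5 ∨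
      (orderOf (d * e) = 4 ∧ (d * e) ^ 2 ∈ D) := fun d hd e he => by
    rcases key d (mem.1 hd).1 e (mem.1 he).1 with h | h | h | ⟨h4, h2⟩
    · exact Or.inl h
    · exact Or.inr (Or.inl (orderOf_dvd_of_pow_eq_one h))
    · exact Or.inr (Or.inr (Or.inl (orderOf_dvd_of_pow_eq_one h)))
    · have ho : orderOf (d * e) = 2 ^ (1 + 1) :=
        orderOf_eq_prime_pow (by simpa using h2) (by simpa using h4)
      exact Or.inr (Or.inr (Or.inr ⟨by simpa using ho, mem.2 ⟨by rw [← pow_mul]; exact h4, h2⟩⟩))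
  haveI : IsSimpleGroup ↥(alternatingGroup (Fin 6)) := alternatingGroup.isSimpleGroup (by simp)
  refine ⟨⟨⟨fun d hd => hd, ?_, hcl, fun d hd e he => ?_⟩, ⟨a₀, ha0⟩, fun d hd e he => ?_⟩, fun d hd e he => ?_⟩
  · haveI hn : (Subgroup.closure D).Normal := ⟨fun x hx g => by
      induction hx using Subgroup.closure_induction with
      | mem y hy => exact Subgroup.subset_closure (hcl y hy g)
      | one => simpa using one_mem _
      | mul a b _ _ ha hb => rw [conj_mul.symm]; exact mul_mem ha hb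
      | inv a _ ha => rw [← conj_inv]; exact inv_mem ha⟩
    exact hn.eq_bot_or_eq_top.resolve_left fun hb => (mem.1 ha0).2
      (Subgroup.mem_bot.1 (hb ▸ Subgroup.subset_closure ha0))
  · rcases hk d hd e he with h | h | h | h
    · exact Or.inl h
    · exact Or.inr (Or.inl ((show Odd 3 by decide).of_dvd_nat h))
    · exact Or.inr (Or.inl ((show Odd 5 by decide).of_dvd_nat h))
    · exact Or.inr (Or.inr h)
  · obtain ⟨g, hg⟩ := hconj d (mem.1 hd).1 (mem.1 hd).2
    obtain ⟨k, hk'⟩ := hconj e (mem.1 he).1 (mem.1 he).2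
    exact ⟨k * g⁻¹, by rw [hg, hk']; group⟩
  · rcases hk d hd e he with h | h | h | h
    · have : (d * e) ^ 2 = 1 := by
        rw [pow_two, mul_assoc, ← mul_assoc e, ← h, mul_assoc, ← pow_two, (mem.1 he).1, mul_one, ← pow_two, (mem.1 hd).1]
      exact (Nat.le_of_dvd (by norm_num) (orderOf_dvd_of_pow_eq_one this)).trans (by norm_num)
    · exact (Nat.le_of_dvd (by norm_num) h).trans (by norm_num)
    · exact Nat.le_of_dvd (by norm_num) h
    · omega

end Cfsg.Agent.S5057
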