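import Cfsg.Statements.S5060
import Cfsg.Agent.QPair.Dich
import Cfsg.Prelude.Def_RootSubgroups

set_option autoImplicit false
set_option linter.style.haveILetI false
open Cfsg Polynomial Cfsg.Agent.QPair Cfsg.Agent.QPair.SL2Ring

namespace Cfsg.Agent.S5060

/-- Let k ⊆ K be fields with the characteristic of k not 2 and k not of order 3, and let α ∈ K be a non-zero element algebraic over k. Then the subgroup of SL₂(K) generated by the upper unitriangular matrices with entry c and the lower unitriangular matrices with entry cα, c ranging over k, is exactly the group of matrices of SL₂(K) with all entries in k(α). -/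
theorem result {k K : Type*} [Field k] [Field K] [Algebra k K] (hk2 : ringChar k ≠ 2) (hk3 : Nat.card k ≠ 3)
    (α : K) (hα : IsAlgebraic k α) (hα0 : α ≠ 0) :
    (Subgroup.closure ({g : Matrix.SpecialLinearGroup (Fin 2) K | ∃ c : k, (g : Matrix (Fin 2) (Fin 2) K) = !![1, algebraMap k K c; 0, 1]} ∪
        {g : Matrix.SpecialLinearGroup (Fin 2) K | ∃ c : k, (g : Matrix (Fin 2) (Fin 2) K) = !![1, 0; algebraMap k K c * α, 1]}) :
      Set (Matrix.SpecialLinearGroup (Fin 2) K)) =
    {g : Matrix.SpecialLinearGroup (Fin 2) K | ∀ i j : Fin 2, (g : Matrix (Fin 2) (Fin 2) K) i j ∈ IntermediateField.adjoin k ({α} : Set K)} := by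
  have h2 : (2 : k) ≠ 0 := Ring.two_ne_zero hk2
  set f := minpoly k α
  have hf : f.Monic := minpoly.monic hα.isIntegral
  have hi : Irreducible f := minpoly.irreducible hα.isIntegral
  haveI := Fact.mk hi
  have hX : IsCoprime f X := (hi.coprime_iff_not_dvd).2 fun hd => by
    obtain ⟨c, hc⟩ := hi.associated_of_dvd irreducible_X hd
    have h0 := congrArg (Polynomial.aeval α) hc
    simp only [map_mul, minpoly.aeval, f, zero_mul, aeval_X] at h0
    exact hα0 h0.symm
  let φ : Qf f →ₐ[k] K := AdjoinRoot.liftAlgHom f (Algebra.ofId k K) α (minpoly.aeval k α)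
  have hφr : φ (AdjoinRoot.root f) = α := AdjoinRoot.liftAlgHom_root _ _ _ _
  have hφ : ∀ x, x ∈ IntermediateField.adjoin k ({α} : Set K) ↔ ∃ z, φ z = x := by
    intro x
    rw [← IntermediateField.mem_toSubalgebra, IntermediateField.adjoin_simple_toSubalgebra_of_isAlgebraic hα,
      Algebra.adjoin_singleton_eq_range_aeval]
    have key : ∀ P : k[X], φ (AdjoinRoot.mk f P) = Polynomial.aeval α P := fun P => by
      rw [← AdjoinRoot.aeval_eq, ← Polynomial.aeval_algHom_apply, hφr]
    constructor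
    · rintro ⟨P, rfl⟩; exact ⟨_, key P⟩
    · rintro ⟨z, rfl⟩
      obtain ⟨P, rfl⟩ := AdjoinRoot.mk_surjective z
      exact ⟨P, (key P).symm⟩
  have hgen : Subgroup.closure ({g : Matrix.SpecialLinearGroup (Fin 2) K | ∃ c : k, (g : Matrix (Fin 2) (Fin 2) K) = !![1, algebraMap k K c; 0, 1]} ∪
        {g : Matrix.SpecialLinearGroup (Fin 2) K | ∃ c : k, (g : Matrix (Fin 2) (Fin 2) K) = !![1, 0; algebraMap k K c * α, 1]}) =
      (Hf f).map (Matrix.SpecialLinearGroup.map φ.toRingHom) := by
    rw [Hf, map_gen, hφr, gen]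
    congr 2 <;> ext g <;> constructor
    · rintro ⟨c, hc⟩; exact ⟨c, Subtype.ext hc.symm⟩
    · rintro ⟨c, rfl⟩; exact ⟨c, rfl⟩
    · rintro ⟨c, hc⟩; exact ⟨c, Subtype.ext (by rw [hc, ← Algebra.smul_def]; rfl)⟩
    · rintro ⟨c, rfl⟩; exact ⟨c, by rw [← Algebra.smul_def]; rfl⟩
  rw [hgen, Hf_top h2 hk3 hf hi hX]
  ext g
  constructor
  · rintro ⟨y, -, rfl⟩ i j
    exact (hφ _).2 ⟨y i j, rfl⟩
  · intro hg
    choose c hc using fun i j => (hφ _).1 (hg i j)
    have hc' : (fun i j => φ (c i j)) = (g : Matrix (Fin 2) (Fin 2) K) := by funext i j; exact hc i j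
    have hdet : (Matrix.of c).det = 1 := φ.toRingHom.injective (by
      rw [RingHom.map_det, map_one, ← g.2]
      congr 1)
    refine ⟨⟨Matrix.of c, hdet⟩, Subgroup.mem_top _, Subtype.ext ?_⟩
    exact hc'

end Cfsg.Agent.S5060
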