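import Cfsg.Statements.S5062
import Cfsg.Agent.QPair.Transfer
import Cfsg.Agent.QPair.PSLPair

set_option autoImplicit false
set_option linter.style.haveILetI false
universe u
open Cfsg Cfsg.Agent.QPair Cfsg.Agent.Quad

namespace Cfsg.Agent.S5062

/-- Let k be a field of characteristic not 2 with k not of order 3, M a finite-dimensional k-vector space and G ≤ GL(M) such that (G, M) is a quadratic pair (M irreducible for G, and G generated by its quadratically acting elements σ whose scalar family 1 + c(σ − 1), c ∈ k, lies in G). Write 𝒬_d for the quadratic elements of G of minimal commutator rank, E(σ) for the subgroup generated by the members of 𝒬_d with the same fixed space and commutator space as σ, and Σ for the set of these subgroups. Then, inside the subgroup G₀ generated by Σ, the members of Σ form a set of abstract root subgroups of G₀ in which every member has a rank one partner; and whenever a member A and a rank one partner B of A lie in a connected component of the rank-one-pair graph that is degenerate (no commutator case among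 its members), there are subgroups A₀ ≤ A, B₀ ≤ B generating an image of SL₂(k₁) with central kernel on unitriangular subgroups, for some field k₁ with at least four elements. -/
theorem result {k : Type u} [Field k] (hk2 : ringChar k ≠ 2) (hk3 : Nat.card k ≠ 3)
    {M : Type u} [AddCommGroup M] [Module k M] [FiniteDimensional k M]
    {G : Subgroup (LinearMap.GeneralLinearGroup k M)} (hG : Cfsg.IsQuadraticPair G) :
    Cfsg.IsRootSubgroupSet ((fun A : Subgroup (LinearMap.GeneralLinearGroup k M) => A.subgroupOf (⨆ B ∈ Cfsg.quadraticRootSubgroups G, B)) ''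
      Cfsg.quadraticRootSubgroups G) ∧
    (∀ A ∈ Cfsg.quadraticRootSubgroups G, ¬ Cfsg.IsIsolatedIn (Cfsg.FAdj (Cfsg.quadraticRootSubgroups G)) (Cfsg.quadraticRootSubgroups G) A) ∧
    (∀ A ∈ Cfsg.quadraticRootSubgroups G, ∀ B ∈ Cfsg.rankOnePartners (Cfsg.quadraticRootSubgroups G) A,
      (∀ C ∈ Cfsg.componentOf (Cfsg.FAdj (Cfsg.quadraticRootSubgroups G)) (Cfsg.quadraticRootSubgroups G) A,
        ∀ D ∈ Cfsg.componentOf (Cfsg.FAdj (Cfsg.quadraticRootSubgroups G)) (Cfsg.quadraticRootSubgroups G) A,
          ¬ Cfsg.RootCommutatorCase (Cfsg.quadraticRootSubgroups G) C D) →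
      ∃ A₀ B₀ : Subgroup (LinearMap.GeneralLinearGroup k M), A₀ ≤ A ∧ B₀ ≤ B ∧
        ∃ (k₁ : Type u) (_ : Field k₁), 3 < ENat.card k₁ ∧ Cfsg.IsPSL2PairOver k₁ A₀ B₀) := by
  refine ⟨?_, fun A hA hiso => ?_, fun A hA B hB _ => ?_⟩
  · refine rootSet_sub rfl (fun A hA => ?_) (fun A hA => ?_) (fun A hA g hg => ?_) (fun A hA B hB => ?_)
    all_goals obtain ⟨d, hs⟩ := exists_std' hk2 hk3 hA
    · exact sigma_comm hs hA
    · exact sigma_ne_bot hs hA
    · exact sigma_conj hs hA ((iSup₂_le fun C hC => sigma_le hs hC : (⨆ C ∈ quadraticRootSubgroups G, C) ≤ G) hg)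
    · obtain ⟨a, ha, rfl⟩ := exists_root hs hA
      obtain ⟨b, hb, rfl⟩ := exists_root hs hB
      exact pair_cases (ss_irreducible hG.1) hs.deg ha hb
  · obtain ⟨d, hs⟩ := exists_std' hk2 hk3 hA
    obtain ⟨B, hB⟩ := exists_partner (ss_irreducible hG.1) hs hA
    exact (hiso.2 B).1 hB
  · obtain ⟨d, hs⟩ := exists_std' hk2 hk3 hA
    exact psl_subpair hs hA hB.1 hB.2

end Cfsg.Agent.S5062
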