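import Cfsg.Statements.S5064
import Cfsg.Agent.QPair.Unip

set_option autoImplicit false
set_option linter.style.haveILetI false
universe u
open Cfsg Cfsg.Agent.QPair Cfsg.Agent.Quad

namespace Cfsg.Agent.S5064

/-- Let k be a field of characteristic not 2 with k not of order 3, M a finite-dimensional k-vector space and G ≤ GL(M) such that (G, M) is a quadratic pair (M irreducible for G, and G generated by its quadratically acting elements σ whose scalar family 1 + c(σ − 1), c ∈ k, lies in G). Write 𝒬_d for the quadratic elements of G of minimal commutator rank, E(σ) for the subgroup generated by the members of 𝒬_d with the same fixed space and commutator space as σ, and Σ for the set of these subgroups. If σ, τ ∈ 𝒬_d and the subgroup H generated by their two scalar families does not act unipotently on M, then H is isomorphic to SL₂ over a simple algebraic extension k(λ) of k. -/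
theorem result {k : Type u} [Field k] (hk2 : ringChar k ≠ 2) (hk3 : Nat.card k ≠ 3)
    {M : Type u} [AddCommGroup M] [Module k M] [FiniteDimensional k M]
    {G : Subgroup (LinearMap.GeneralLinearGroup k M)} (hG : Cfsg.IsQuadraticPair G)
    {σ τ : LinearMap.GeneralLinearGroup k M} (hσ : σ ∈ Cfsg.minimalQuadraticElements G) (hτ : τ ∈ Cfsg.minimalQuadraticElements G)
    (hH : ¬ Cfsg.IsUnipotentOn (Subgroup.closure (Cfsg.scalarFamily σ ∪ Cfsg.scalarFamily τ))) :
    ∃ (K : Type u) (_ : Field K) (_ : Algebra k K) (lam : K), IsAlgebraic k lam ∧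
      IntermediateField.adjoin k ({lam} : Set K) = ⊤ ∧
      Nonempty (↥(Subgroup.closure (Cfsg.scalarFamily σ ∪ Cfsg.scalarFamily τ)) ≃* Matrix.SpecialLinearGroup (Fin 2) K) := by
  obtain ⟨d, hs⟩ := exists_std hk2 hk3 hσ
  have hd := hs.deg
  set a := dev σ with hadef
  set b := dev τ with hbdef
  have ha : Root G d a := hs.root σ hσ
  have hb : Root G d b := hs.root τ hτ
  have hab : a * b * a ≠ 0 := fun e => hH (IsUnipotentOn.mono (NilPair.unipotent ⟨hd, ha, hb, e⟩)
    ((Subgroup.closure_le _).2 (by
      rintro g (⟨c, hc⟩ | ⟨c, hc⟩)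
      · have hd' : dev g = c • a := by
          show (g : M →ₗ[k] M) - 1 = _
          rw [hc, hadef, dev, add_sub_cancel_left]
        exact Subgroup.mem_sup_left ((mem_RS hd ha).2 (hd'.symm ▸ (InL.refl ha.tame).smul c))
      · have hd' : dev g = c • b := by
          show (g : M →ₗ[k] M) - 1 = _
          rw [hc, hbdef, dev, add_sub_cancel_left]
        exact Subgroup.mem_sup_right ((mem_RS hd hb).2 (hd'.symm ▸ (InL.refl hb.tame).smul c)))))
  obtain ⟨x, f, L⟩ := exists_link hd ha hb hab
  haveI := Fact.mk L.irr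
  refine ⟨AdjoinRoot f, inferInstance, inferInstance, AdjoinRoot.root f, ?_, ?_, ?_⟩
  · exact ⟨f, L.monic.ne_zero, by simp⟩
  · rw [eq_top_iff]
    intro z _
    obtain ⟨P, rfl⟩ := AdjoinRoot.mk_surjective z
    rw [← AdjoinRoot.aeval_eq]
    exact IntermediateField.algebra_adjoin_le_adjoin k _ (Polynomial.aeval_mem_adjoin_singleton k _)
  · have hrange : L.Phi.range = Subgroup.closure (scalarFamily σ ∪ scalarFamily τ) := by
      rw [MonoidHom.range_eq_map, ← L.Hf_eq_top, SL2Ring.Hf, SL2Ring.gen, MonoidHom.map_closure, Set.image_union,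
        ← Set.range_comp, ← Set.range_comp]
      congr 2 <;> ext g <;> constructor
      · rintro ⟨c, rfl⟩
        exact ⟨c, (L.phi_gen_u c)⟩
      · rintro ⟨c, hc⟩
        exact ⟨c, Units.ext ((L.phi_gen_u c).trans hc.symm)⟩
      · rintro ⟨c, rfl⟩
        exact ⟨c, (L.phi_gen_l c)⟩
      · rintro ⟨c, hc⟩
        exact ⟨c, Units.ext ((L.phi_gen_l c).trans hc.symm)⟩
    exact ⟨((MonoidHom.ofInjective L.Phi_injective).trans (MulEquiv.subgroupCongr hrange)).symm⟩

end Cfsg.Agent.S5064
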