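import Cfsg.Statements.S5066
import Cfsg.Agent.QPair.Commutator

set_option autoImplicit false
set_option linter.style.haveILetI false
universe u
open Cfsg Cfsg.Agent.QPair Cfsg.Agent.Quad

namespace Cfsg.Agent.S5066

/-- Let k be a field of characteristic not 2 with k not of order 3, M a finite-dimensional k-vector space and G ≤ GL(M) such that (G, M) is a quadratic pair (M irreducible for G, and G generated by its quadratically acting elements σ whose scalar family 1 + c(σ − 1), c ∈ k, lies in G). Write 𝒬_d for the quadratic elements of G of minimal commutator rank, E(σ) for the subgroup generated by the members of 𝒬_d with the same fixed space and commutator space as σ, and Σ for the set of these subgroups. Let E, F ∈ Σ generate a subgroup that is nilpotent of class exactly two. Then D = ⁅E, F⁆ belongs to Σ, equals the subgroup generated by the commutators of e with F, and also of E with f, for every non-identity e ∈ E, f ∈ F, and ⟨E, F⟩ lies in U(D), the set of elements g of G normalizing D with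 (g − 1)M inside the fixed space of D, (g − 1) mapping that fixed space into the commutator space of D, and g acting trivially on the commutator space of D. -/
theorem result {k : Type u} [Field k] (hk2 : ringChar k ≠ 2) (hk3 : Nat.card k ≠ 3)
    {M : Type u} [AddCommGroup M] [Module k M] [FiniteDimensional k M]
    {G : Subgroup (LinearMap.GeneralLinearGroup k M)} (hG : Cfsg.IsQuadraticPair G)
    {E F : Subgroup (LinearMap.GeneralLinearGroup k M)} (hE : E ∈ Cfsg.quadraticRootSubgroups G) (hF : F ∈ Cfsg.quadraticRootSubgroups G)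
    (h2 : ⁅E ⊔ F, E ⊔ F⁆ ≠ ⊥ ∧ ⁅⁅E ⊔ F, E ⊔ F⁆, E ⊔ F⁆ = ⊥) :
    ⁅E, F⁆ ∈ Cfsg.quadraticRootSubgroups G ∧
    (∀ e ∈ E, e ≠ 1 → Subgroup.closure ((fun f : LinearMap.GeneralLinearGroup k M => e * f * e⁻¹ * f⁻¹) '' (F : Set (LinearMap.GeneralLinearGroup k M))) = ⁅E, F⁆) ∧
    (∀ f ∈ F, f ≠ 1 → Subgroup.closure ((fun e : LinearMap.GeneralLinearGroup k M => e * f * e⁻¹ * f⁻¹) '' (E : Set (LinearMap.GeneralLinearGroup k M))) = ⁅E, F⁆) ∧
    ((E ⊔ F : Subgroup (LinearMap.GeneralLinearGroup k M)) : Set (LinearMap.GeneralLinearGroup k M)) ⊆ Cfsg.quadraticUnipotentCore G ⁅E, F⁆ := by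
  obtain ⟨d, hs⟩ := exists_std' hk2 hk3 hE
  have hd := hs.deg
  obtain ⟨a, ha, rfl⟩ := exists_root hs hE
  obtain ⟨b, hb, rfl⟩ := exists_root hs hF
  set X := RS G a ha.sq ⊔ RS G b hb.sq
  have hea := Subgroup.mem_sup_left (T := RS G b hb.sq) (uu_mem_RS hd ha (InL.refl ha.tame))
  have heb := Subgroup.mem_sup_right (S := RS G a ha.sq) (uu_mem_RS hd hb (InL.refl hb.tame))
  have hne : a * b ≠ b * a := fun hc => by
    refine h2.1 (Subgroup.commutator_eq_bot_iff_le_centralizer.2 ?_)
    have hAB : ∀ u ∈ RS G a ha.sq, ∀ v ∈ RS G b hb.sq, u * v = v * u := fun u hu v hv =>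
      comm_iff.2 (comm_all hd ha hb hc ((mem_RS hd ha).1 hu) ((mem_RS hd hb).1 hv))
    have hAA := RS_isMulCommutative hd ha
    have hBB := RS_isMulCommutative hd hb
    refine sup_le (Subgroup.le_centralizer_iff.1 (sup_le (fun u hu => ?_) fun u hu => ?_))
      (Subgroup.le_centralizer_iff.1 (sup_le (fun u hu => ?_) fun u hu => ?_)) <;>
      rw [Subgroup.mem_centralizer_iff] <;> intro v hv
    · exact congrArg Subtype.val (hAA.is_comm.comm (⟨v, hv⟩ : RS G a ha.sq) ⟨u, hu⟩)
    · exact hAB v hv u hu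
    · exact (hAB u hu v hv).symm
    · exact congrArg Subtype.val (hBB.is_comm.comm (⟨v, hv⟩ : RS G b hb.sq) ⟨u, hu⟩)
  have hn : a * b * a = 0 := by
    refine aba_of_class_two hd ha hb ?_
    set e := uu a ha.sq
    set f := uu b hb.sq
    have hk : f * e * f⁻¹ * e⁻¹ ∈ ⁅X, X⁆ := Subgroup.commutator_mem_commutator heb hea
    have hce := Subgroup.mem_centralizer_iff.1 (Subgroup.commutator_eq_bot_iff_le_centralizer.1 h2.2 hk) e hea
    have hc : e * (f * e * f⁻¹) = (f * e * f⁻¹) * e := by
      calc e * (f * e * f⁻¹) = e * (f * e * f⁻¹ * e⁻¹) * e := by group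
        _ = (f * e * f⁻¹ * e⁻¹) * e * e := by rw [hce]
        _ = (f * e * f⁻¹) * e := by group
    have h' := comm_iff.1 hc
    have hd' : dev (f * e * f⁻¹) = a + (b * a - a * b) - b * a * b := by
      rw [dev_conj, dev_uu, uu_val, uu_inv_val]
      simp only [add_mul, mul_sub, one_mul, mul_one, mul_assoc]
      abel
    rwa [dev_uu, hd'] at h'
  exact unipotent_result (ss_irreducible hG.1) ⟨hd, ha, hb, hn⟩ hne

end Cfsg.Agent.S5066
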