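import Cfsg.Statements.S5067
import Mathlib
-- import your own Cfsg.Agent.* helpers here

set_option autoImplicit false
open Cfsg
open scoped commutatorElement

namespace Cfsg.Agent.S5067

theorem normalClosure_class_lt {P : Type*} [Group P] [Group.IsNilpotent P]
    (hna : ¬ IsMulCommutative P) {E : Subgroup P} (hE : IsMulCommutative ↥E) :
    Group.nilpotencyClass ↥(Subgroup.normalClosure (E : Set P)) < Group.nilpotencyClass P := by
  set c := Group.nilpotencyClass P
  have hc : 2 ≤ c := by
    by_contra hlt
    have := (Subgroup.lowerCentralSeries_eq_bot_iff_nilpotencyClass_le (G := P) (n := 1)).2 (by omega)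
    rw [Subgroup.lowerCentralSeries_succ, Subgroup.lowerCentralSeries_zero] at this
    refine hna ⟨⟨fun a b => ?_⟩⟩
    exact commutatorElement_eq_one_iff_mul_comm.1
      (Subgroup.mem_bot.1 (this ▸ Subgroup.commutator_mem_commutator (Subgroup.mem_top a) (Subgroup.mem_top b)))
  set D := (⊤ : Subgroup P).lowerCentralSeries 1
  set N := (⊤ : Subgroup P).lowerCentralSeries 2
  have hcen : ∀ d ∈ D, ∀ y : P, Commute (QuotientGroup.mk' N d) (QuotientGroup.mk' N y) := fun d hd y => by
    rw [← commutatorElement_eq_one_iff_commute, ← map_commutatorElement, ← MonoidHom.mem_ker,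
      QuotientGroup.ker_mk']
    exact Subgroup.commutator_mem_commutator hd (Subgroup.mem_top y)
  set H := E ⊔ D with hH
  have hHN : ⁅H, H⁆ ≤ N := by
    rw [Subgroup.commutator_le]
    intro a ha b hb
    obtain ⟨e, he, d, hd, rfl⟩ := Subgroup.mem_sup_of_normal_right.1 ha
    obtain ⟨e', he', d', hd', rfl⟩ := Subgroup.mem_sup_of_normal_right.1 hb
    rw [← QuotientGroup.ker_mk' N, MonoidHom.mem_ker, map_commutatorElement,
      commutatorElement_eq_one_iff_commute]
    have hee : Commute (QuotientGroup.mk' N e) (QuotientGroup.mk' N e') :=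
      Commute.map (congrArg Subtype.val (hE.is_comm.comm (⟨e, he⟩ : E) ⟨e', he'⟩)) _
    have h1 := hcen d hd
    have h2 := hcen d' hd'
    simp only [map_mul]
    exact (hee.mul_right (h2 e).symm).mul_left ((h1 e').mul_right (h1 d'))
  have hnormH : H.Normal := ⟨fun h hh g => by
    have hmem : ⁅g, h⁆ ∈ D := Subgroup.commutator_mem_commutator (Subgroup.mem_top g) (Subgroup.mem_top h)
    have := H.mul_mem (Subgroup.mem_sup_right (S := E) hmem) hh
    rwa [show ⁅g, h⁆ * h = g * h * g⁻¹ by rw [commutatorElement_def]; group] at this⟩
  have hle : Subgroup.normalClosure (E : Set P) ≤ H :=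
    Subgroup.normalClosure_le_normal fun x hx => Subgroup.mem_sup_left hx
  have hser : ∀ n, H.lowerCentralSeries (n + 1) ≤ (⊤ : Subgroup P).lowerCentralSeries (n + 2) := by
    intro n
    induction n with
    | zero => exact hHN
    | succ n ih => exact Subgroup.commutator_mono ih le_top
  set K := Subgroup.normalClosure (E : Set P)
  have : (⊤ : Subgroup K).lowerCentralSeries (c - 2 + 1) = ⊥ := by
    apply Subgroup.map_injective K.subtype_injective
    rw [Subgroup.map_bot, Subgroup.map_lowerCentralSeries, ← MonoidHom.range_eq_map, Subgroup.range_subtype,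
      eq_bot_iff]
    refine (Subgroup.lowerCentralSeries_mono _ hle).trans ((hser (c - 2)).trans ?_)
    rw [show c - 2 + 2 = c by omega]
    exact ((Subgroup.lowerCentralSeries_eq_bot_iff_nilpotencyClass_le (G := P)).2 le_rfl).le
  have := Subgroup.lowerCentralSeries_eq_bot_iff_nilpotencyClass_le.1 this
  omega

/-- Let P be a non-abelian nilpotent p-group (every element of p-power order; P possibly infinite) generated by two abelian subgroups E and F. Then the normal closure of E in P, and likewise that of F, has nilpotency class strictly smaller than that of P. -/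
theorem result {P : Type*} [Group P] {p : ℕ} [Fact p.Prime] (hP : IsPGroup p P) [Group.IsNilpotent P]
    (hna : ¬ IsMulCommutative P) {E F : Subgroup P} (hE : IsMulCommutative ↥E) (hF : IsMulCommutative ↥F) (hgen : E ⊔ F = ⊤) :
    Group.nilpotencyClass ↥(Subgroup.normalClosure (E : Set P)) < Group.nilpotencyClass P ∧
    Group.nilpotencyClass ↥(Subgroup.normalClosure (F : Set P)) < Group.nilpotencyClass P := by
  exact ⟨normalClosure_class_lt hna hE, normalClosure_class_lt hna hF⟩

end Cfsg.Agent.S5067
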