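import Cfsg.Statements.S5073
import Cfsg.Agent.QPair.Unip

set_option autoImplicit false
set_option linter.style.haveILetI false
universe u
open Cfsg Cfsg.Agent.QPair Cfsg.Agent.Quad

namespace Cfsg.Agent.S5073

/-- Let k be a field of characteristic not 2 with k not of order 3, M a finite-dimensional k-vector space and G ≤ GL(M) such that (G, M) is a quadratic pair (M irreducible for G, and G generated by its quadratically acting elements σ whose scalar family 1 + c(σ − 1), c ∈ k, lies in G). Write 𝒬_d for the quadratic elements of G of minimal commutator rank, E(σ) for the subgroup generated by the members of 𝒬_d with the same fixed space and commutator space as σ, and Σ for the set of these subgroups. Let E, F ∈ Σ. If some non-identity element of E commutes with some non-identity element of F, or some non-identity element of E normalizes F, then E and F commute elementwise. -/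
theorem result {k : Type u} [Field k] (hk2 : ringChar k ≠ 2) (hk3 : Nat.card k ≠ 3)
    {M : Type u} [AddCommGroup M] [Module k M] [FiniteDimensional k M]
    {G : Subgroup (LinearMap.GeneralLinearGroup k M)} (hG : Cfsg.IsQuadraticPair G)
    {E F : Subgroup (LinearMap.GeneralLinearGroup k M)} (hE : E ∈ Cfsg.quadraticRootSubgroups G) (hF : F ∈ Cfsg.quadraticRootSubgroups G)
    (h : (∃ e ∈ E, e ≠ 1 ∧ ∃ f ∈ F, f ≠ 1 ∧ e * f = f * e) ∨ E ⊓ Subgroup.normalizer (F : Set (LinearMap.GeneralLinearGroup k M)) ≠ ⊥) :
    ⁅E, F⁆ = ⊥ := by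
  obtain ⟨d, hs⟩ := exists_std' hk2 hk3 hE
  obtain ⟨a, ha, rfl⟩ := exists_root hs hE
  obtain ⟨b, hb, rfl⟩ := exists_root hs hF
  refine commutator_RS hs.deg ha hb ?_
  rcases h with ⟨e, he, he1, f, hf, hf1, hc⟩ | h
  · exact comm_of_mem hs.deg ha hb ((mem_RS hs.deg ha).1 he) ((mem_RS hs.deg hb).1 hf)
      (fun h0 => he1 (dev_eq_zero.1 h0)) (fun h0 => hf1 (dev_eq_zero.1 h0)) (comm_iff.1 hc)
  · obtain ⟨e, he1⟩ := (Subgroup.ne_bot_iff_exists_ne_one.1 h)
    obtain ⟨e, he'⟩ := e
    obtain ⟨heE, heN⟩ := Subgroup.mem_inf.1 he'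
    have hx := (mem_RS hs.deg ha).1 heE
    have hx0 : dev e ≠ 0 := fun h0 => by
      apply he1 (Subtype.ext (dev_eq_zero.1 h0))
    have hxr := hx.root hs.deg ha hx0
    have hm := (Subgroup.mem_normalizer_iff.1 heN _).1 (uu_mem_RS hs.deg hb (InL.refl hb.tame))
    have hm' := (mem_RS hs.deg hb).1 hm
    have hcalc : dev (e * uu b hb.sq * e⁻¹) = b + (dev e * b - b * dev e) - dev e * b * dev e := by
      rw [dev_conj, dev_uu, val_eq e, inv_val hx.tame.sq]
      simp only [add_mul, mul_sub, one_mul, mul_one, mul_assoc]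
      abel
    rw [hcalc] at hm'
    exact comm_all hs.deg hxr hb (comm_of_normalize hs.deg hxr hb hm') (hx.symm hs.deg ha hx0) (InL.refl hb.tame)

end Cfsg.Agent.S5073
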