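import Cfsg.Statements.S5074
import Cfsg.Agent.QPair.Central

set_option autoImplicit false
universe u
open Cfsg Cfsg.Agent.QPair Cfsg.Agent.Quad

namespace Cfsg.Agent.S5074

/-- Let k be a field of characteristic not 2 with k not of order 3, M a finite-dimensional k-vector space and G ≤ GL(M) such that (G, M) is a quadratic pair (M irreducible for G, and G generated by its quadratically acting elements σ whose scalar family 1 + c(σ − 1), c ∈ k, lies in G). Write 𝒬_d for the quadratic elements of G of minimal commutator rank, E(σ) for the subgroup generated by the members of 𝒬_d with the same fixed space and commutator space as σ, and Σ for the set of these subgroups. Then G is the product of the subgroup G₀ generated by Σ with the centralizer of G₀ in G. -/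
theorem result {k : Type u} [Field k] (hk2 : ringChar k ≠ 2) (hk3 : Nat.card k ≠ 3)
    {M : Type u} [AddCommGroup M] [Module k M] [FiniteDimensional k M]
    {G : Subgroup (LinearMap.GeneralLinearGroup k M)} (hG : Cfsg.IsQuadraticPair G) :
    (⨆ A ∈ Cfsg.quadraticRootSubgroups G, A) ⊔
      (G ⊓ Subgroup.centralizer ((⨆ A ∈ Cfsg.quadraticRootSubgroups G, A : Subgroup (LinearMap.GeneralLinearGroup k M)) : Set (LinearMap.GeneralLinearGroup k M))) = G := by
  classical
  have hA : Amb G G := ⟨le_rfl, hG.1, hG.2, hG.2, ss_irreducible hG.1, fun σ hσ => Or.inl hσ⟩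
  refine le_antisymm (sup_le ?_ inf_le_left) ?_
  · refine iSup₂_le fun A hA' => ?_
    obtain ⟨d, hs⟩ := exists_std' hk2 hk3 hA'
    exact sigma_le hs hA'
  conv_lhs => rw [← hG.2]
  rw [Subgroup.closure_le]
  intro σ hσ
  obtain ⟨τ, -, d, hs⟩ := exists_std_of_nonempty hk2 hk3 ⟨σ, hσ⟩
  rcases quad_split hA hs hσ with ⟨B, hB, hm⟩ | hc
  · exact Subgroup.mem_sup_left ((iSup₂_le fun C hC => le_iSup₂_of_le C hC.1 le_rfl :
      GG (comp G B) ≤ (⨆ A ∈ quadraticRootSubgroups G, A)) hm)
  · exact Subgroup.mem_sup_right ⟨hσ.1, Subgroup.mem_centralizer_iff.2 fun n hn => hc n hn⟩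

end Cfsg.Agent.S5074
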