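import Cfsg.Statements.S5087
import Cfsg.Agent.Fusion.NormalMore

set_option autoImplicit false
open Cfsg Cfsg.Agent.Fusion Cfsg.FusionSystem

namespace Cfsg.Agent.S5087

/-- In a saturated fusion system over a finite p-group S, a subgroup Q is normal in the system if and only if every subgroup P that equals S or is essential contains Q and every element of Aut_F(P) maps Q onto itself. -/
theorem result {Ω : Type*} [Group Ω] {S : Subgroup Ω} [Finite S] (p : ℕ) [Fact p.Prime] (hS : IsPGroup p S) (F : Cfsg.FusionSystem S) (hF : F.IsSaturated p) (Q : Subgroup Ω) : F.IsNormal Q ↔ ∀ P : Subgroup Ω, (P = S ∨ F.IsEssential p P) → (Q ≤ P ∧ ∀ α ∈ F.autGroup P, (Q.subgroupOf P).map α.toMonoidHom = Q.subgroupOf P) := by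
  constructor
  · intro hQ P hP
    have hQP : Q ≤ P := hP.elim (fun e => e ▸ hQ.1)
      fun hP => isNormal_le_centricRadical hS hQ hP.1 (essential_radical hS hP)
    have hPS : P ≤ S := hP.elim (fun e => e.le) fun hP => hP.1.1
    refine ⟨hQP, fun α hα => ?_⟩
    haveI := finite_of_le hPS
    have hi := autGroup_iso hPS hα
    refine eq_of_le_of_card (fun y hy => ?_) (le_of_eq (Subgroup.card_map_of_injective α.injective).symm)
    obtain ⟨x, hx, rfl⟩ := hy
    show ((α x : P) : Ω) ∈ Q
    have := stronglyClosed_mem (isNormal_stronglyClosed hQ) hi.mor x.2 hx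
    rwa [extFun_coe] at this
  · intro h
    have hsc : ∀ R, (R = S ∨ F.IsEssential p R) → ∀ f, Iso F f R R → ∀ x ∈ Q, f x ∈ Q := by
      intro R hR f hf x hx
      have h2 := (h R hR).2 _ hf.equiv_mem_autGroup
      have h3 : hf.equiv ⟨x, (h R hR).1 hx⟩ ∈ (Q.subgroupOf R).map hf.equiv.toMonoidHom := ⟨_, hx, rfl⟩
      rw [h2] at h3
      exact h3
    have hQS : Q ≤ S := (h S (Or.inl rfl)).1
    exact isNormal_of_stronglyClosed hS hF
      (stronglyClosed_of_gen hS hF hQS fun R hR f hf x _ hx => hsc R hR f hf x hx)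
      fun P hP => (h P (Or.inr hP)).1

end Cfsg.Agent.S5087
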