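import Cfsg.Statements.S5088
import Cfsg.Agent.Fusion.NormalMore

set_option autoImplicit false
open Cfsg Cfsg.Agent.Fusion Cfsg.FusionSystem

namespace Cfsg.Agent.S5088

/-- In a saturated fusion system over a finite p-group, a subgroup Q is normal in the system if and only if there is a chain of subgroups 1 = Q₀ ≤ Q₁ ≤ ⋯ ≤ Qₙ = Q such that each Qᵢ with i ≥ 1 is strongly closed in the system and [Q, Qᵢ] ≤ Qᵢ₋₁. -/
theorem result {Ω : Type*} [Group Ω] {S : Subgroup Ω} [Finite S] (p : ℕ) [Fact p.Prime] (hS : IsPGroup p S) (F : Cfsg.FusionSystem S) (hF : F.IsSaturated p) (Q : Subgroup Ω) : F.IsNormal Q ↔ ∃ (n : ℕ) (Qs : Fin (n + 1) → Subgroup Ω), Qs 0 = ⊥ ∧ Qs (Fin.last n) = Q ∧ Monotone Qs ∧ ∀ i : Fin n, F.StronglyClosed (Qs i.succ) ∧ ⁅Q, Qs i.succ⁆ ≤ Qs (Fin.castSucc i) := by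
  constructor
  · intro hQ
    obtain ⟨n, C, h0, hn, hm, hC, hcm⟩ := exists_normal_chain hS hQ
    refine ⟨n, fun i => C i, h0, hn, fun i j h => hm h,
      fun i => ⟨isNormal_stronglyClosed (hC _), ?_⟩⟩
    rw [Subgroup.commutator_le]
    intro q hq x hx
    rw [← commutatorElement_inv]
    exact inv_mem (hcm i x hx q hq)
  · rintro ⟨n, Qs, h0, hn, hmono, h⟩
    have hsc : ∀ i : Fin (n + 1), F.StronglyClosed (Qs i) :=
      Fin.cases (h0 ▸ stronglyClosed_bot F) (fun i => (h i).1)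
    refine isNormal_of_chain hS hF (hn ▸ hsc _) n (fun i => Qs ⟨min i n, by omega⟩) ?_ ?_ ?_
      (fun i _ => weaklyClosed_of_stronglyClosed (hsc _)) ?_
    · simpa using h0
    · simpa [Fin.last] using hn
    · exact fun i hi => hmono (show min i n ≤ min (i + 1) n by omega)
    · intro i hi x hx q hq
      have h2 := (h ⟨i, hi⟩).2
      rw [Subgroup.commutator_le] at h2
      have e1 : (⟨min (i + 1) n, by omega⟩ : Fin (n + 1)) = (⟨i, hi⟩ : Fin n).succ :=
        Fin.ext (by show min (i + 1) n = i + 1; omega)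
      have e2 : (⟨min i n, by omega⟩ : Fin (n + 1)) = (⟨i, hi⟩ : Fin n).castSucc :=
        Fin.ext (by show min i n = i; omega)
      simp only [e1, e2] at hx ⊢
      rw [← commutatorElement_inv]
      exact inv_mem (h2 q hq x hx)

end Cfsg.Agent.S5088
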