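import Cfsg.Statements.S5089
import Cfsg.Agent.Fusion.NormalMore
import Cfsg.Agent.Fusion.Joins

set_option autoImplicit false
open Cfsg Cfsg.Agent.Fusion Cfsg.FusionSystem

namespace Cfsg.Agent.S5089

/-- A saturated fusion system over a finite p-group has a nontrivial subgroup that is normal in the system (O_p(F) ≠ 1) if and only if some nontrivial abelian subgroup is strongly closed in the system. -/
theorem result {Ω : Type*} [Group Ω] {S : Subgroup Ω} [Finite S] (p : ℕ) [Fact p.Prime] (hS : IsPGroup p S) (F : Cfsg.FusionSystem S) (hF : F.IsSaturated p) : F.core ≠ ⊥ ↔ ∃ Q : Subgroup Ω, Q ≠ ⊥ ∧ IsMulCommutative Q ∧ F.StronglyClosed Q := by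
  constructor
  · intro hne
    have hQ := core_isNormal (F := F)
    have hcS := hQ.1
    haveI := finite_of_le hcS
    haveI : Nontrivial F.core := (Subgroup.nontrivial_iff_ne_bot _).mpr hne
    haveI := (hS.to_le hcS).center_nontrivial
    refine ⟨(Subgroup.center F.core).map F.core.subtype, fun e => ?_, ⟨⟨fun a b => Subtype.ext ?_⟩⟩,
      isNormal_stronglyClosed (isNormal_of_characteristic hQ (Subgroup.map_subtype_le _) ?_)⟩
    · exact (Subgroup.nontrivial_iff_ne_bot _).mp inferInstance
        ((Subgroup.map_eq_bot_iff_of_injective _ F.core.subtype_injective).mp e)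
    · obtain ⟨x, hx, e1⟩ := a.2
      obtain ⟨y, -, e2⟩ := b.2
      show (a : Ω) * b = b * a
      rw [← e1, ← e2, ← map_mul, ← map_mul, Subgroup.mem_center_iff.mp hx y]
    · rw [Subgroup.subgroupOf, Subgroup.comap_map_eq_self_of_injective F.core.subtype_injective]
      infer_instance
  · rintro ⟨Q, hne, hab, hsc⟩ e
    have hN := isNormal_iff_chain_abelian hS hF hsc fun x hx y hy =>
      congrArg Subtype.val (hab.is_comm.comm ⟨x, hx⟩ ⟨y, hy⟩)
    exact hne (le_bot_iff.mp (e ▸ le_sSup hN))

end Cfsg.Agent.S5089
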