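import Cfsg.Statements.S5102
import Cfsg.Agent.Fusion.GroupLift

set_option autoImplicit false
open Cfsg Cfsg.Agent.Fusion Cfsg.FusionSystem

namespace Cfsg.Agent.S5102

/-- A normal p-subgroup of a finite group G is normal in the fusion system of G on a Sylow p-subgroup. -/
theorem result {G : Type*} [Group G] [Finite G] (p : ℕ) [Fact p.Prime] (S : Sylow p G) (R : Subgroup G) [R.Normal] (hR : IsPGroup p R) : (Cfsg.groupFusionSystem (S : Subgroup G)).IsNormal R := by
  have hI := groupFusion_inducedBy (S : Subgroup G)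
  have hRS : R ≤ (S : Subgroup G) := hR.le_sylow_of_normal S
  refine ⟨hRS, fun P φ hφ => ?_⟩
  obtain ⟨hP, hv, g, -, hg⟩ := (hI P _).mp (mor_of_mem hφ)
  have hm : Mor (groupFusionSystem (S : Subgroup G)) (P ⊔ R) (cj g) :=
    (hI _ _).mpr ⟨sup_le hP hRS, map_cj_le_of_mem (fun x hx => hg x hx ▸ hv x hx)
      (fun x hx => hRS (Subgroup.Normal.conj_mem ‹_› x hx g)), g, trivial, fun _ _ => rfl⟩
  refine ⟨hm.hom, hm.hom_mem, fun x => ?_, ?_⟩
  · show cj g x = φ x
    rw [← hg x x.2, extFun_coe]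
  · ext y
    refine ⟨?_, fun hy => ?_⟩
    · rintro ⟨x, hx, rfl⟩
      exact Subgroup.Normal.conj_mem ‹R.Normal› (x : G) hx g
    · have h1 : cj g⁻¹ y ∈ R := by simpa [cj] using Subgroup.Normal.conj_mem ‹_› y hy g⁻¹
      exact ⟨⟨cj g⁻¹ y, Subgroup.mem_sup_right h1⟩, h1, cj_cancel_inv g y⟩

end Cfsg.Agent.S5102
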