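import Cfsg.Statements.S5104
import Cfsg.Agent.Fusion.Saturation

set_option autoImplicit false
open Cfsg Cfsg.Agent.Fusion Cfsg.FusionSystem

namespace Cfsg.Agent.S5104

/-- In a saturated fusion system over a finite p-group S, a fully centralized subgroup U with C_S(U) ≤ U is centric. -/
theorem result {Ω : Type*} [Group Ω] {S : Subgroup Ω} [Finite S] (p : ℕ) [Fact p.Prime] (hS : IsPGroup p S) (F : Cfsg.FusionSystem S) (hF : F.IsSaturated p) (U : Subgroup Ω) (hU : F.IsFullyCentralized U) (hC : Cfsg.FusionSystem.centralizerIn S U ≤ U) : F.IsCentric U := by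
  refine ⟨hU.1, fun Q hQ c hc => ?_⟩
  obtain ⟨f, hf⟩ := isConj_iff.mp (isConj_symm hQ)
  obtain ⟨g, hg, e⟩ := (receptive_iff.mp (IsSaturated_fullyCentralized_receptive hS hF hU)).2 Q f hf
  have hcN := centralizerIn_le_nphi (f := f) hc
  have hfc := hC (hf.map_centralizer hg hf.mor.le_nphi e hcN hc)
  obtain ⟨x, hx, hxc⟩ := hf.surj hfc
  rw [← e x hx] at hxc
  exact hg.injOn (hf.mor.le_nphi hx) hcN hxc ▸ hx

end Cfsg.Agent.S5104
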