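import Cfsg.Statements.S5105
import Cfsg.Agent.Fusion.ModelBasic

set_option autoImplicit false
open Cfsg Cfsg.Agent.Fusion Cfsg.FusionSystem

namespace Cfsg.Agent.S5105

/-- Model Theorem, rigidity: if G is a model of a constrained fusion system over a finite p-group S (through ι : S → G), then every automorphism of G fixing ι(S) elementwise is conjugation by ι(z) for some z in the centre of S. -/
theorem result {Ω : Type*} [Group Ω] {S : Subgroup Ω} [Finite S] (p : ℕ) [Fact p.Prime] (hS : IsPGroup p S) (F : Cfsg.FusionSystem S) (hF : F.IsConstrained p) {G : Type*} [Group G] (ι : S →* G) (hG : F.IsModel p G ι) (ψ : G ≃* G) (hψ : ∀ x : S, ψ (ι x) = ι x) : ∃ z : S, z ∈ Subgroup.center S ∧ ∀ g : G, ψ g = ι z * g * (ι z)⁻¹ := by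
  obtain ⟨hfin, ⟨hinj, -⟩, ⟨T, hT⟩, hC⟩ := hG
  haveI := hfin
  have hfix : ∀ x ∈ T, ψ x = x := by
    intro x hx
    obtain ⟨s, rfl⟩ : x ∈ ι.range := hT ▸ hx
    exact hψ s
  obtain ⟨v, hv, hc, e⟩ := sylow_rigid T (Cfsg.pCore p G) (Cfsg.Agent.Core.pCore_le_sylow T) hC ψ hfix
  obtain ⟨z, rfl⟩ : v ∈ ι.range := hT ▸ hv
  exact ⟨z, Subgroup.mem_center_iff.mpr fun s => hinj (by
    rw [map_mul, map_mul]
    exact (hc (ι s) (show ι s ∈ (T : Subgroup G) from hT ▸ ⟨s, rfl⟩)).symm), e⟩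

end Cfsg.Agent.S5105
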