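import Cfsg.Statements.S5107
import Cfsg.Agent.Fusion.Series
import Cfsg.Agent.Fusion.GroupLift
import Cfsg.Agent.Fusion.Joins

set_option autoImplicit false
open Cfsg Cfsg.Agent.Fusion Cfsg.FusionSystem
open scoped commutatorElement

namespace Cfsg.Agent.S5107

/-- If a Sylow p-subgroup S of a finite group G has nilpotency class at most two and its centre is strongly closed in S with respect to G, then every map of the fusion system of G on S is conjugation by an element of N_G(S), and S is the largest subgroup normal in that fusion system. -/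
theorem result {G : Type*} [Group G] [Finite G] (p : ℕ) [Fact p.Prime] (S : Sylow p G) (hcl : ⁅(S : Subgroup G), (S : Subgroup G)⁆ ≤ (S : Subgroup G) ⊓ Subgroup.centralizer ((S : Subgroup G) : Set G)) (hZ : Cfsg.IsStronglyClosed ((S : Subgroup G) ⊓ Subgroup.centralizer ((S : Subgroup G) : Set G)) (S : Subgroup G)) : (∀ (P : Subgroup G) (φ : P →* G), φ ∈ (Cfsg.groupFusionSystem (S : Subgroup G)).Hom P → ∃ g ∈ Subgroup.normalizer ((S : Subgroup G) : Set G), ∀ x : P, φ x = g * (x : G) * g⁻¹) ∧ (Cfsg.groupFusionSystem (S : Subgroup G)).core = S := by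
  have hI := groupFusion_inducedBy (S : Subgroup G)
  set T := (S : Subgroup G) with hT
  have hF := groupFusion_saturated S
  set F := groupFusionSystem T with hFd
  set Z := T ⊓ Subgroup.centralizer (T : Set G) with hZd
  have hscZ : F.StronglyClosed Z := stronglyClosed_of_mor inf_le_left fun P f hf x hxP hxZ => by
    obtain ⟨-, hv, g, -, hg⟩ := (hI P f).mp hf
    rw [hg x hxP]
    exact hZ.2 x hxZ g (by rw [← cj_apply, ← hg x hxP]; exact hv x hxP)
  have hscT : F.StronglyClosed T := stronglyClosed_of_mor le_rfl fun _ _ hf _ hx _ => hf.map_mem hx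
  have hN : F.IsNormal T := by
    refine isNormal_of_chain S.isPGroup' hF hscT 2
      (fun i => if i = 0 then ⊥ else if i = 1 then Z else T) rfl rfl ?_ ?_ ?_
    · intro i hi
      interval_cases i
      · exact bot_le
      · exact inf_le_left
    · intro i hi
      interval_cases i
      · exact weaklyClosed_of_stronglyClosed (stronglyClosed_bot F)
      · exact weaklyClosed_of_stronglyClosed hscZ
    · intro i hi x hx q hq
      interval_cases i
      · exact Subgroup.mem_bot.mpr (commutatorElement_eq_one_iff_mul_comm.mpr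
          (((show x ∈ Z from hx).2 q hq).symm))
      · exact hcl (Subgroup.commutator_mem_commutator (show x ∈ T from hx) hq)
  refine ⟨fun P φ hφ => ?_, le_antisymm (sSup_le fun Q hQ => hQ.1) (le_sSup hN)⟩
  obtain ⟨g, hg, e, m⟩ := ExtStab.of_isNormal hN (mor_of_mem hφ)
  obtain ⟨-, -, a, -, ha⟩ := (hI _ g).mp hg
  refine ⟨a, Subgroup.mem_normalizer_fintype fun x hx => ?_, fun x => ?_⟩
  · show cj a x ∈ T
    rw [← ha x (Subgroup.mem_sup_right hx)]; exact m x hx
  · rw [← extFun_coe φ x, ← e x x.2, ha x (Subgroup.mem_sup_left x.2)]; rfl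

end Cfsg.Agent.S5107
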