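import Cfsg.Statements.S5122
import Cfsg.Agent.Fusion.GroupLift

set_option autoImplicit false
open Cfsg Cfsg.Agent.Fusion Cfsg.FusionSystem

namespace Cfsg.Agent.S5122

/-- Let G be a finite group with Sylow p-subgroup S. Every subgroup P of S has a G-conjugate Q ≤ S such that N_S(Q) is a Sylow p-subgroup of N_G(Q); and for any Q ≤ S with that property, C_S(Q) is a Sylow p-subgroup of C_G(Q) and the automorphisms of Q induced by N_S(Q) form a Sylow p-subgroup of those induced by N_G(Q). -/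
theorem result {G : Type*} [Group G] [Finite G] (p : ℕ) [Fact p.Prime] (S : Sylow p G) : (∀ P : Subgroup G, P ≤ S → ∃ g : G, P.map (MulAut.conj g).toMonoidHom ≤ S ∧ (∃ R : Sylow p ↥(Subgroup.normalizer ((P.map (MulAut.conj g).toMonoidHom : Subgroup G) : Set G)), (R : Subgroup ↥(Subgroup.normalizer ((P.map (MulAut.conj g).toMonoidHom : Subgroup G) : Set G))) = (Cfsg.FusionSystem.normalizerIn (S : Subgroup G) (P.map (MulAut.conj g).toMonoidHom)).subgroupOf (Subgroup.normalizer ((P.map (MulAut.conj g).toMonoidHom : Subgroup G) : Set G)))) ∧ ∀ Q : Subgroup G, Q ≤ S → (∃ R : Sylow p ↥(Subgroup.normalizer (Q : Set G)), (R : Subgroup ↥(Subgroup.normalizer (Q : Set G))) = (Cfsg.FusionSystem.normalizerIn (S : Subgroup G) Q).subgroupOf (Subgroup.normalizer (Q : Set G))) → (∃ R : Sylow p ↥(Subgroup.centralizer (Q : Set G)), (R : Subgroup ↥(Subgroup.centralizer (Q : Set G))) = (Cfsg.FusionSystem.centralizerIn (S : Subgroup G) Q).subgroupOf (Subgroup.centralizer (Q : Set G))) ∧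 (∃ R : Sylow p ↥(Cfsg.autInducedBy ⊤ Q), (R : Subgroup ↥(Cfsg.autInducedBy ⊤ Q)) = (Cfsg.autInducedBy (S : Subgroup G) Q).subgroupOf (Cfsg.autInducedBy ⊤ Q)) := by
  have hI := groupFusion_inducedBy (S : Subgroup G)
  have hS := S.isPGroup'
  constructor
  · intro P hP
    obtain ⟨Q, hQ, hQn⟩ := exists_fullyNormalized (F := groupFusionSystem (S : Subgroup G)) hP
    obtain ⟨g, -, hb⟩ := hI.isConj hQ
    have e : P.map (MulAut.conj g).toMonoidHom = Q := by
      ext y
      exact ⟨fun ⟨x, hx, hxy⟩ => hxy ▸ hb.mapsTo hx, fun hy => hb.surjOn hy⟩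
    refine ⟨g, ?_⟩
    rw [e]
    refine ⟨hQn.1, (exists_sylow_eq_iff (hS.to_le normalizerIn_le)).mpr ?_⟩
    have h := (hI.fullyNormalized_iff le_top hS (sylow_relIndex_top S) hQn.1).mp hQn
    rwa [normIn_top] at h
  · intro Q hQ hR
    have h := (exists_sylow_eq_iff (hS.to_le normalizerIn_le)).mp hR
    rw [← normIn_top] at h
    refine ⟨(exists_sylow_eq_iff (hS.to_le centralizerIn_le)).mpr ?_, ?_⟩
    · have h2 := centralizer_sylow_of_normalizer_sylow (K := ⊤) le_top h
      rwa [centIn_top] at h2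
    · have h3 := (hI.fullyAutomized_of_sylow le_top hS hQ h).2
      rwa [hI.autGroup_eq hQ] at h3

end Cfsg.Agent.S5122
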