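import Cfsg.Statements.S5123
import Cfsg.Agent.Fusion.GroupLift

set_option autoImplicit false
open Cfsg Cfsg.Agent.Fusion Cfsg.FusionSystem
open scoped Pointwise

namespace Cfsg.Agent.S5123

/-- Let G be a finite group with Sylow p-subgroup S, P, Q ≤ S and g ∈ G with gPg⁻¹ = Q, and suppose N_S(Q) is a Sylow p-subgroup of N_G(Q). Let N be the set of x ∈ N_S(P) with gxg⁻¹ ∈ N_S(Q)C_G(Q). Then some h ∈ C_G(Q) satisfies (hg)N(hg)⁻¹ ≤ S. -/
theorem result {G : Type*} [Group G] [Finite G] (p : ℕ) [Fact p.Prime] (S : Sylow p G) (P Q : Subgroup G) (hP : P ≤ S) (hQ : Q ≤ S) (g : G) (hg : P.map (MulAut.conj g).toMonoidHom = Q) (hN : (∃ R : Sylow p ↥(Subgroup.normalizer (Q : Set G)), (R : Subgroup ↥(Subgroup.normalizer (Q : Set G))) = (Cfsg.FusionSystem.normalizerIn (S : Subgroup G) Q).subgroupOf (Subgroup.normalizer (Q : Set G)))) : ∃ h ∈ Subgroup.centralizer (Q : Set G), ((Cfsg.FusionSystem.normalizerIn (S : Subgroup G) P) ⊓ (Cfsg.FusionSystem.normalizerIn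 (S : Subgroup G) Q ⊔ Subgroup.centralizer (Q : Set G)).comap (MulAut.conj g).toMonoidHom).map (MulAut.conj (h * g)).toMonoidHom ≤ S := by
  obtain ⟨R, hR⟩ := hN
  have hi : ¬ p ∣ (normalizerIn (S : Subgroup G) Q).relIndex (normIn ⊤ Q) := by
    rw [normIn_top, ← exists_sylow_eq_iff (S.isPGroup'.to_le normalizerIn_le)]
    exact ⟨R, hR⟩
  have hi2 := not_dvd_relIndex_sup (K := ⊤) le_top hi
  rw [centIn_top] at hi2
  set L := normalizerIn (S : Subgroup G) Q ⊔ Subgroup.centralizer (Q : Set G) with hL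
  obtain ⟨l, hl, hlS⟩ := exists_conj_le_of_sylow (L := L) le_sup_left (S.isPGroup'.to_le normalizerIn_le) hi2
    (R := ((normalizerIn (S : Subgroup G) P) ⊓ L.comap (MulAut.conj g).toMonoidHom).map
      (MulAut.conj g).toMonoidHom)
    (by rintro _ ⟨x, hx, rfl⟩; exact hx.2) ((S.isPGroup'.to_le (inf_le_left.trans normalizerIn_le)).map _)
  obtain ⟨s, hs, c, hc, rfl⟩ := show l ∈ (normalizerIn (S : Subgroup G) Q : Set G) * (Subgroup.centralizer (Q : Set G) : Set G) by
    rw [← Subgroup.coe_mul_of_left_le_normalizer_right]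
    · exact hl
    · have h := normIn_le_normalizer_centIn (K := ⊤) (P := Q)
      rw [normIn_top, centIn_top] at h
      exact le_trans inf_le_right h
  refine ⟨c, hc, ?_⟩
  rintro _ ⟨x, hx, rfl⟩
  have := cj_mem (inv_mem hs.1) (hlS _ ⟨x, hx, rfl⟩).1
  rwa [show cj s⁻¹ (cj (s * c) ((MulAut.conj g).toMonoidHom x)) = cj (c * g) x by
    rw [cj_mul, cj_inv_cancel, cj_mul]; rfl] at this

end Cfsg.Agent.S5123
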