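import Cfsg.Statements.S5133
import Cfsg.Agent.Fusion.FactorSat

set_option autoImplicit false
open Cfsg Cfsg.Agent.Fusion Cfsg.FusionSystem

namespace Cfsg.Agent.S5133

/-- Let F be a saturated fusion system over a finite p-group S, F' a fusion system over S', and α : S → S' a surjective morphism of fusion systems from F to F' (α maps S onto S' and every map of F' with source P' ≤ S' is induced along α by a map of F on the full preimage of P'). Then F' is saturated. -/
theorem result {Ω : Type*} [Group Ω] {S : Subgroup Ω} [Finite S] (p : ℕ) [Fact p.Prime] (hS : IsPGroup p S) (F : Cfsg.FusionSystem S) (hF : F.IsSaturated p) {Ω' : Type*} [Group Ω'] {S' : Subgroup Ω'} (F' : Cfsg.FusionSystem S') (α : S →* Ω') (hα : F.IsSurjectiveMorphism F' α) : F'.IsSaturated p := by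
  obtain ⟨⟨hmem, hmor⟩, hr, hsurj⟩ := hα
  set T : Subgroup Ω := α.ker.map S.subtype with hT
  have hk : ∀ s : S, α s = 1 ↔ (s : Ω) ∈ T := fun s =>
    ⟨fun h => ⟨s, h, rfl⟩, fun ⟨t, ht, hte⟩ => Subtype.ext hte ▸ ht⟩
  have hTc : F.StronglyClosed T := by
    refine ⟨Subgroup.map_subtype_le _, fun R hR φ hφ x => ?_⟩
    obtain ⟨φ', -, hP, hv, hP', e⟩ := hmor R φ hφ
    have h1 : α ⟨x, hP x.2⟩ = 1 := (hk _).mpr (hR x.2)
    have h2 := e x
    rw [show (⟨α ⟨x, hP x.2⟩, hP' x⟩ : imageAlong α R) = 1 from Subtype.ext h1, map_one] at h2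
    exact (hk ⟨φ x, hv x⟩).mp h2.symm
  refine factor_saturated hS hF hTc ⟨hTc.1, hk, hr, fun P' φ' => ?_⟩
  constructor
  · intro hφ'
    exact ⟨(F'.le_of_mem hφ').1, hsurj P' (F'.le_of_mem hφ').1 φ' hφ'⟩
  · rintro ⟨hP', φ, hφ, hP, hv, hP'm, e⟩
    obtain ⟨χ, hχ, hQ, hw, hQm, e'⟩ := hmor _ φ hφ
    have him : imageAlong α (preimageAlong α P') = P' := by
      ext y
      constructor
      · rintro ⟨x, hx, rfl⟩; exact ((mem_preimageAlong α).mp hx).2
      · intro hy
        obtain ⟨s, rfl⟩ : y ∈ α.range := hr.symm ▸ hP' hy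
        exact ⟨s, (mem_preimageAlong α).mpr ⟨s.2, hy⟩, rfl⟩
    have hm : Mor F' P' (extFun χ) :=
      (congrArg (fun A => Mor F' A (extFun χ)) him).mp (mor_of_mem hχ)
    refine mem_of_mor hm fun y => ?_
    obtain ⟨x, hx, hxy⟩ : (y : Ω') ∈ imageAlong α (preimageAlong α P') := him.symm ▸ y.2
    obtain ⟨y, hy⟩ := y
    obtain rfl : α x = y := hxy
    rw [extFun_apply χ ⟨x, hx, rfl⟩]
    exact (e ⟨x, hx⟩).trans (e' ⟨x, hx⟩).symm

end Cfsg.Agent.S5133
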