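import Cfsg.Statements.S5164
import Cfsg.Agent.PermGroups.AltSylow

set_option autoImplicit false
open Cfsg

namespace Cfsg.Agent.S5164

/-- For n ≥ 6 and a prime p, a nontrivial Sylow p-subgroup of the alternating group of degree n is abelian if and only if n < p². -/
theorem result (n p : ℕ) (hn : 6 ≤ n) [Fact p.Prime] (S : Sylow p (alternatingGroup (Fin n))) (hS : (S : Subgroup (alternatingGroup (Fin n))) ≠ ⊥) : IsMulCommutative S ↔ n < p ^ 2 := by
  constructor
  · intro hc
    by_contra hlt
    obtain ⟨K, hK, hKn⟩ := Agent.PermGroups.exists_nonabelian_pgroup (p := p) hn (not_lt.mp hlt)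
    obtain ⟨T, hT⟩ := hK.exists_le_sylow
    apply hKn
    let e := Sylow.equiv T S
    refine ⟨⟨fun a b => Subtype.ext ?_⟩⟩
    have h := hc.is_comm.comm (e ⟨a, hT a.2⟩) (e ⟨b, hT b.2⟩)
    rw [← map_mul, ← map_mul] at h
    exact congrArg (fun x : (T : Subgroup (alternatingGroup (Fin n))) => (x : alternatingGroup (Fin n))) (e.injective h)
  · intro hlt
    have := Agent.PermGroups.pgroup_comm_of_lt hlt (S.isPGroup'.map (alternatingGroup (Fin n)).subtype)
    refine ⟨⟨fun a b => Subtype.ext (Subtype.ext ?_)⟩⟩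
    have h := congrArg Subtype.val (this.is_comm.comm ⟨_, Subgroup.mem_map_of_mem _ a.2⟩ ⟨_, Subgroup.mem_map_of_mem _ b.2⟩)
    simpa using h

end Cfsg.Agent.S5164
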