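import Cfsg.Statements.S5311
import Cfsg.Agent.Fusion.ComponentTransport
-- import your own Cfsg.Agent.* helpers here

set_option autoImplicit false
open Cfsg Cfsg.FusionSystem Cfsg.Agent.Fusion

namespace Cfsg.Agent.S5311

/-- The layer of a saturated fusion system F over a finite p-group S is characteristic in F: for every automorphism α of S that is an automorphism of F (α and its inverse are morphisms from F to F) and every layer E of F over T, α carries T onto T and, for every map φ of E with source P, the map induced by α on α(P) (that is, α ∘ φ ∘ α⁻¹) is a map of E. -/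
theorem result {Ω : Type*} [Group Ω] {S : Subgroup Ω} [Finite S] (p : ℕ) [Fact p.Prime] (hS : IsPGroup p S) (F : Cfsg.FusionSystem S) (hF : F.IsSaturated p)
    (α : ↥S ≃* ↥S) (hα : F.IsMorphism F (S.subtype.comp α.toMonoidHom))
    (hα' : F.IsMorphism F (S.subtype.comp α.symm.toMonoidHom))
    {T : Subgroup Ω} (E : Cfsg.FusionSystem T) (hE : E.IsLayerOf F p) :
    Cfsg.FusionSystem.imageAlong (S.subtype.comp α.toMonoidHom) T = T ∧
      ∀ (P : Subgroup Ω) (φ : ↥P →* Ω), φ ∈ E.Hom P →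
        ∀ φ' : ↥(Cfsg.FusionSystem.imageAlong (S.subtype.comp α.toMonoidHom) P) →* Ω,
          Cfsg.FusionSystem.InducedAlong (S.subtype.comp α.toMonoidHom) φ φ' →
            φ' ∈ E.Hom (Cfsg.FusionSystem.imageAlong (S.subtype.comp α.toMonoidHom) P) := by
  classical
  set a := extFun (S.subtype.comp α.toMonoidHom) with ha
  set a' := extFun (S.subtype.comp α.symm.toMonoidHom) with ha'
  have ea : ∀ x : S, a x = (α x : Ω) := fun x => extFun_coe _ x
  have ea' : ∀ x : S, a' x = (α.symm x : Ω) := fun x => extFun_coe _ x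
  have hpush : ∀ (β : ↥S ≃* ↥S), F.IsMorphism F (S.subtype.comp β.toMonoidHom) → ∀ (b b' : Ω → Ω),
      (∀ x : S, b x = (β x : Ω)) → (∀ x : S, b' x = (β.symm x : Ω)) → ∀ P f, Mor F P f → ∀ P' : Subgroup Ω,
      (∀ y, y ∈ P' ↔ ∃ x ∈ P, b x = y) → Mor F P' (b ∘ f ∘ b') := by
    intro β hβ b b' hb hb' P f hf P' hP'
    obtain ⟨φ', hφ', hPS, hval, hin, hind⟩ := hβ.2 P hf.hom hf.hom_mem
    have hPP : imageAlong (S.subtype.comp β.toMonoidHom) P = P' := by
      ext y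
      rw [hP']
      exact ⟨fun ⟨x, hx, hy⟩ => ⟨x, hx, (hb x).trans hy⟩,
        fun ⟨x, hx, hy⟩ => ⟨⟨x, hPS hx⟩, hx, (hb ⟨x, hPS hx⟩).symm.trans hy⟩⟩
    refine ((congrArg (fun A => Mor F A (extFun φ')) hPP).mp (mor_of_mem hφ')).congr fun y hy => ?_
    obtain ⟨x, hx, rfl⟩ := (hP' y).mp hy
    have hbb : b' (b x) = x := by
      rw [show b x = ((β ⟨x, hPS hx⟩ : S) : Ω) from hb ⟨x, hPS hx⟩, hb', MulEquiv.symm_apply_apply]
    show extFun φ' (b x) = b (f (b' (b x)))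
    rw [hbb, show b (f x) = ((β ⟨f x, hval ⟨x, hx⟩⟩ : S) : Ω) from hb ⟨f x, hval ⟨x, hx⟩⟩,
      show b x = ((S.subtype.comp β.toMonoidHom) ⟨x, hPS hx⟩ : Ω) from hb ⟨x, hPS hx⟩,
      extFun_apply φ' (hin ⟨x, hx⟩)]
    exact hind ⟨x, hx⟩
  have h : SysIso F F a a' := by
    refine ⟨fun x hx => ea ⟨x, hx⟩ ▸ (α ⟨x, hx⟩).2, fun x hx => ea' ⟨x, hx⟩ ▸ (α.symm ⟨x, hx⟩).2,
      fun x hx => ?_, fun x hx => ?_, fun x hx y hy => ?_, hpush α hα a a' ea ea', hpush α.symm hα' a' a ea' ?_⟩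
    · rw [show a x = _ from ea ⟨x, hx⟩, ea', MulEquiv.symm_apply_apply]
    · rw [show a' x = _ from ea' ⟨x, hx⟩, ea, MulEquiv.apply_symm_apply]
    · rw [show a (x * y) = _ from ea (⟨x, hx⟩ * ⟨y, hy⟩), show a x = _ from ea ⟨x, hx⟩,
        show a y = _ from ea ⟨y, hy⟩, map_mul]
      rfl
    · intro x
      rw [MulEquiv.symm_symm]
      exact ea x
  have hsub := hE.1.1.2.2.1
  have hTS := tr_subsystem_base_le hsub
  haveI := finite_of_le hTS
  obtain ⟨hle, hinv⟩ := layer_transfer hS h hE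
  obtain ⟨hle', hinv'⟩ := layer_transfer hS h.symm hE
  have himg : ∀ P ≤ S, imageAlong (S.subtype.comp α.toMonoidHom) P = h.img P := fun P hP => by
    ext y
    rw [h.mem_img hP]
    exact ⟨fun ⟨x, hx, hy⟩ => ⟨x, hx, (ea x).trans hy⟩,
      fun ⟨x, hx, hy⟩ => ⟨⟨x, hP hx⟩, hx, (ea ⟨x, hP hx⟩).symm.trans hy⟩⟩
  have hT : h.img T = T := by
    refine le_antisymm (fun y hy => ?_) hle
    obtain ⟨x, hx, rfl⟩ := (h.mem_img hTS).mp hy
    obtain ⟨z, hz, hzx⟩ := (h.symm.mem_img hTS).mp (hle' hx)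
    rw [← hzx, h.right z (hTS hz)]
    exact hz
  refine ⟨(himg T hTS).trans hT, fun P φ hφ φ' hind => ?_⟩
  obtain ⟨hPS, hval, hin, e⟩ := hind
  have h2 := hinv' P _ (mor_of_mem hφ)
  change Mor E (h.img P) (a ∘ extFun φ ∘ a') at h2
  refine mem_of_mor ((congrArg (fun A => Mor E A (a ∘ extFun φ ∘ a')) (himg P hPS)).mpr h2) fun y => ?_
  obtain ⟨x, hx0, hy⟩ := y.2
  have hx : (x : Ω) ∈ P := hx0
  have h1 := e ⟨x, hx⟩
  rw [show y = ⟨_, hin ⟨x, hx⟩⟩ from Subtype.ext hy.symm, h1]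
  show _ = a (extFun φ (a' ((α x : S) : Ω)))
  rw [ea', MulEquiv.symm_apply_apply, extFun_apply φ hx]
  exact (ea ⟨φ ⟨x, hx⟩, hval ⟨x, hx⟩⟩).symm

end Cfsg.Agent.S5311
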