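import Cfsg.Statements.S5345
import Cfsg.Agent.Components.Dihedral

set_option autoImplicit false
open Cfsg

namespace Cfsg.Agent.S5345

/-- Let D be a conjugation-invariant generating set of 3-transpositions of a finite group G and T a Sylow 2-subgroup of G. Then the members of D lying in T generate an abelian subgroup, and their number is the width of D (the largest number of pairwise commuting members of D). -/
theorem result {G : Type*} [Group G] [Finite G] {D : Set G} (hD : Cfsg.IsThreeTranspositionGroup D) (T : Sylow 2 G) : IsMulCommutative (Subgroup.closure {d : G | d ∈ D ∧ d ∈ T}) ∧ {d : G | d ∈ D ∧ d ∈ T}.ncard = Cfsg.commutingWidth D := by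
  obtain ⟨⟨hord, h3⟩, hconj, -⟩ := hD
  have hcomm : ∀ a ∈ D, a ∈ (T : Subgroup G) → ∀ b ∈ D, b ∈ (T : Subgroup G) → Commute a b := by
    intro a ha haT b hb hbT
    have h1 : (a * b) ^ 2 = 1 := by
      rcases h3 a ha b hb with h | h
      · exact h
      · obtain ⟨k, hk⟩ := IsPGroup.iff_orderOf.1 T.2 (⟨a * b, mul_mem haT hbT⟩ : (T : Subgroup G))
        rw [Subgroup.orderOf_mk] at hk
        have hdvd := orderOf_dvd_of_pow_eq_one h
        rw [hk] at hdvd
        rcases Nat.eq_zero_or_pos k with rfl | hk0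
        · rw [pow_zero, orderOf_eq_one_iff] at hk; rw [hk, one_pow]
        · exact absurd ((dvd_pow_self 2 hk0.ne').trans hdvd) (by norm_num)
    have := (inv_eq_of_mul_eq_one_right (sq (a * b) ▸ h1)).symm
    rw [mul_inv_rev, Cfsg.Agent.Components.invol_inv (hord a ha),
      Cfsg.Agent.Components.invol_inv (hord b hb)] at this
    exact this
  refine ⟨Subgroup.isMulCommutative_closure (fun a ha b hb => (hcomm a ha.1 ha.2 b hb.1 hb.2).eq), ?_⟩
  set E₀ := {d : G | d ∈ D ∧ d ∈ T}
  apply le_antisymm
  · refine le_csSup ⟨Nat.card G, ?_⟩ ⟨E₀, fun x hx => hx.1, Set.toFinite _,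
      fun a ha b hb => hcomm a ha.1 ha.2 b hb.1 hb.2, rfl⟩
    rintro n ⟨E, -, -, -, rfl⟩
    exact Set.ncard_le_card E
  · refine csSup_le ⟨_, ∅, Set.empty_subset _, Set.finite_empty, by simp, rfl⟩ ?_
    rintro n ⟨E, hE, -, hEc, rfl⟩
    haveI hcm : IsMulCommutative (Subgroup.closure E) :=
      Subgroup.isMulCommutative_closure (fun a ha b hb => (hEc a ha b hb).eq)
    have hP : IsPGroup 2 (Subgroup.closure E) := by
      intro x
      refine ⟨1, ?_⟩
      obtain ⟨x, hx⟩ := x
      apply Subtype.ext
      show x ^ (2 ^ 1) = 1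
      induction hx using Subgroup.closure_induction with
      | mem y hy => rw [pow_one, ← hord y (hE hy)]; exact pow_orderOf_eq_one y
      | one => simp
      | mul y z hy hz iy iz =>
        rw [(show Commute y z from congrArg Subtype.val (mul_comm' (⟨y, hy⟩ : Subgroup.closure E) ⟨z, hz⟩)).mul_pow, iy, iz, one_mul]
      | inv y _ iy => rw [inv_pow, iy, inv_one]
    obtain ⟨P, hPle⟩ := hP.exists_le_sylow
    obtain ⟨g, hg⟩ := MulAction.exists_smul_eq G P T
    have hmaps : ∀ x ∈ E, g * x * g⁻¹ ∈ E₀ := by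
      intro x hx
      refine ⟨hconj g x (hE hx), ?_⟩
      rw [← hg, Sylow.smul_def]
      exact ⟨x, hPle (Subgroup.subset_closure hx), rfl⟩
    exact Set.ncard_le_ncard_of_injOn (fun x => g * x * g⁻¹) hmaps
      (fun x _ y _ h => by simpa using h) (Set.toFinite _)

end Cfsg.Agent.S5345
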