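import Cfsg.Statements.S5346
import Cfsg.Agent.FGS3.TTStructure
-- import your own Cfsg.Agent.* helpers here

set_option autoImplicit false
open Cfsg

namespace Cfsg.Agent.S5346

/-- Let D be a conjugation-invariant generating set of 3-transpositions of a finite group G and d a member of D. Then D has width 1 (no two different members of D commute) if and only if G is the product of the subgroup generated by d with the largest normal 3-subgroup of G. -/
theorem result {G : Type*} [Group G] [Finite G] {D : Set G} (hD : Cfsg.IsThreeTranspositionGroup D) {d : G} (hd : d ∈ D) : Cfsg.commutingWidth D = 1 ↔ Subgroup.zpowers d ⊔ Cfsg.pCore 3 G = ⊤ := by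
  have hset := hD.1
  have hbdd : BddAbove {n : ℕ | ∃ E : Set G, E ⊆ D ∧ E.Finite ∧ (∀ a ∈ E, ∀ b ∈ E, Commute a b) ∧ E.ncard = n} := by
    refine ⟨Nat.card G, ?_⟩
    rintro n ⟨E, -, -, -, rfl⟩
    exact Set.ncard_le_card E
  constructor
  · intro hw
    have hnc : ∀ a ∈ D, ∀ b ∈ D, (a * b) ^ 3 = 1 := by
      intro a ha b hb
      by_cases hc : Commute a b
      · rcases eq_or_ne a b with rfl | hne
        · rw [Screen.tt_mul_self hset ha, one_pow]
        · have h2 : 2 ≤ Cfsg.commutingWidth D := by
            refine le_csSup hbdd ⟨{a, b}, ?_, Set.toFinite _, ?_, Set.ncard_pair hne⟩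
            · simp [Set.insert_subset_iff, ha, hb]
            · rintro x (rfl | rfl) y (rfl | rfl)
              exacts [Commute.refl _, hc, hc.symm, Commute.refl _]
          omega
      · exact FGS3.TT.cube_of_not_commute hset ha hb hc
    have hW : Screen.Width1 D := ⟨fun x hx => Screen.tt_mul_self hset hx, hD.2.1, hnc⟩
    rw [eq_top_iff, ← hD.2.2, Subgroup.closure_le]
    intro e he
    have : e = d * (d * e) := by rw [Screen.mul_mul_self_cancel (Screen.tt_mul_self hset hd)]
    rw [this]
    exact mul_mem (Subgroup.mem_sup_left (Subgroup.mem_zpowers d))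
      (Subgroup.mem_sup_right (hW.mul_mem_pCore hd he))
  · intro htop
    set Q := Cfsg.pCore 3 G with hQdef
    have hQ : ∀ g ∈ Q, g ^ 2 = 1 → g = 1 := by
      intro g hg h2
      obtain ⟨k, hk⟩ := Core.isPGroup_pCore 3 G ⟨_, hg⟩
      have hk' : g ^ (3 ^ k) = 1 := congrArg Subtype.val hk
      rw [← orderOf_eq_one_iff]
      exact Nat.dvd_one.1 ((Nat.Coprime.pow_left k (by norm_num : Nat.Coprime 3 2)) ▸
        Nat.dvd_gcd (orderOf_dvd_of_pow_eq_one hk') (orderOf_dvd_of_pow_eq_one h2))
    have hcong : ∀ e ∈ D, (e : G ⧸ Q) = (d : G) := by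
      intro e he
      obtain ⟨z, hz, q, hq, rfl⟩ := Subgroup.mem_sup_of_normal_right.1 (htop ▸ Subgroup.mem_top e)
      have hzz : z = 1 ∨ z = d := by
        obtain ⟨k, rfl⟩ := Subgroup.mem_zpowers_iff.1 hz
        have hd2 : d ^ (2 : ℤ) = 1 := by
          rw [show (2 : ℤ) = ((2 : ℕ) : ℤ) from rfl, zpow_natCast, sq, Screen.tt_mul_self hset hd]
        rcases Int.even_or_odd' k with ⟨i, rfl | rfl⟩
        · exact Or.inl (by rw [zpow_mul, hd2, one_zpow])
        · exact Or.inr (by rw [zpow_add, zpow_mul, hd2, one_zpow, one_mul, zpow_one])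
      rcases hzz with rfl | rfl
      · exfalso
        rw [one_mul] at he
        have h1 := hQ q hq (by rw [sq]; exact Screen.tt_mul_self hset he)
        have := hset.1 q he
        rw [h1, orderOf_one] at this
        exact absurd this (by norm_num)
      · rw [QuotientGroup.eq]
        have h' : q⁻¹ * z⁻¹ * z = q⁻¹ := by group
        rw [mul_inv_rev, h']
        exact inv_mem hq
    refine le_antisymm (csSup_le ⟨1, {d}, by simpa using hd, Set.toFinite _, by simp, by simp⟩ ?_)
      (le_csSup hbdd ⟨{d}, by simpa using hd, Set.toFinite _, by simp, by simp⟩)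
    rintro n ⟨E, hE, hfin, hc, rfl⟩
    rw [Set.ncard_le_one hfin]
    intro a ha b hb
    have hm : a⁻¹ * b ∈ Q := QuotientGroup.eq.1 ((hcong a (hE ha)).trans (hcong b (hE hb)).symm)
    rw [FGS3.TT.inv_eq hset (hE ha)] at hm
    have := hQ _ hm ((FGS3.TT.commute_iff_sq hset (hE ha) (hE hb)).1 (hc a ha b hb))
    rw [← FGS3.TT.inv_eq hset (hE hb)]
    exact eq_inv_of_mul_eq_one_left this

end Cfsg.Agent.S5346
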