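import Cfsg.Statements.S5348
import Cfsg.Prelude.Def_FischerSpaces

set_option autoImplicit false
open Cfsg

namespace Cfsg.Agent.S5348

/-- Let D be a conjugation-invariant generating set of 3-transpositions of a finite group G and d a member of D. Let V be the set of members of D commuting with exactly the same members of D as d, and W the set of members w of D such that the members of D other than w commuting with w are precisely the members of D other than d commuting with d. Then V = {d} or W = {d}. -/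
theorem result {G : Type*} [Group G] [Finite G] {D : Set G} (hD : Cfsg.IsThreeTranspositionGroup D) {d : G} (hd : d ∈ D) : {v : G | v ∈ D ∧ ∀ e ∈ D, Commute v e ↔ Commute d e} = {d} ∨ {w : G | w ∈ D ∧ {y : G | y ∈ D ∧ y ≠ d ∧ Commute d y} = {y : G | y ∈ D ∧ y ≠ w ∧ Commute w y}} = {d} := by
  by_contra hcon
  push_neg at hcon
  obtain ⟨hV, hW⟩ := hcon
  obtain ⟨v, ⟨hv, hvd⟩, hvne⟩ : ∃ v, (v ∈ D ∧ ∀ e ∈ D, Commute v e ↔ Commute d e) ∧ v ≠ d := by
    by_contra h
    push_neg at h
    refine hV (Set.eq_singleton_iff_unique_mem.2 ⟨⟨hd, fun _ _ => Iff.rfl⟩, fun v hv => h v hv⟩)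
  obtain ⟨w, ⟨hw, hwd⟩, hwne⟩ : ∃ w, (w ∈ D ∧ {y : G | y ∈ D ∧ y ≠ d ∧ Commute d y} = {y : G | y ∈ D ∧ y ≠ w ∧ Commute w y}) ∧ w ≠ d := by
    by_contra h
    push_neg at h
    exact hW (Set.eq_singleton_iff_unique_mem.2 ⟨⟨hd, rfl⟩, fun w hw => h w hw⟩)
  have hvd' : Commute d v := (hvd v hv).1 (Commute.refl v)
  have hdw : ¬ Commute d w := by
    intro h
    have : w ∈ {y : G | y ∈ D ∧ y ≠ d ∧ Commute d y} := ⟨hw, hwne, h⟩
    rw [hwd] at this
    exact this.2.1 rfl
  have : v ∈ {y : G | y ∈ D ∧ y ≠ d ∧ Commute d y} := ⟨hv, hvne, hvd'⟩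
  rw [hwd] at this
  exact hdw ((hvd w hw).1 this.2.2.symm)

end Cfsg.Agent.S5348
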