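import Cfsg.Statements.S5351
import Cfsg.Agent.FGS3.TTStructure
import Cfsg.Agent.S5348
import Cfsg.Agent.S5349
import Cfsg.Agent.S5350
import Cfsg.Agent.S5344
-- import your own Cfsg.Agent.* helpers here

set_option autoImplicit false
open Cfsg

namespace Cfsg.Agent.S5351

/-- Let D be a conjugacy class of 3-transpositions generating the finite group G, with at least two members. Then for every prime p > 3 the largest normal p-subgroup of G is central, and exactly one of the following holds: the largest normal 2-subgroup of G is not central; the largest normal 3-subgroup of G is not central; the layer of G (the product of its components) is non-trivial. -/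
theorem result {G : Type*} [Group G] [Finite G] {D : Set G} (hD : Cfsg.IsThreeTranspositionClass D) (hD2 : ∃ a ∈ D, ∃ b ∈ D, a ≠ b) : (∀ p : ℕ, p.Prime → 3 < p → Cfsg.pCore p G ≤ Subgroup.center G) ∧ ((¬ Cfsg.pCore 2 G ≤ Subgroup.center G ∧ Cfsg.pCore 3 G ≤ Subgroup.center G ∧ Cfsg.layer G = ⊥) ∨ (Cfsg.pCore 2 G ≤ Subgroup.center G ∧ ¬ Cfsg.pCore 3 G ≤ Subgroup.center G ∧ Cfsg.layer G = ⊥) ∨ (Cfsg.pCore 2 G ≤ Subgroup.center G ∧ Cfsg.pCore 3 G ≤ Subgroup.center G ∧ Cfsg.layer G ≠ ⊥)) := by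
  refine ⟨fun p hp h3 => FGS3.TT.pCore_le_center_of_three_lt hD hp h3, ?_⟩
  haveI := Fact.mk Nat.prime_two
  haveI := Fact.mk Nat.prime_three
  obtain ⟨d, hd, -⟩ := id hD2
  -- a non-central core moves `d`
  have hmove : ∀ Q : Subgroup G, Q.Normal → ¬ Q ≤ Subgroup.center G →
      ∀ e ∈ D, ∃ g ∈ Q, g * e * g⁻¹ ≠ e := by
    intro Q hQ hn e he
    by_contra hc
    push Not at hc
    haveI := hQ
    exact hn (FGS3.TT.le_center_of_commute hD he (Subgroup.mem_centralizer_iff.2 fun q hq =>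
      mul_inv_eq_iff_eq_mul.1 (hc q hq)))
  have hlayer : ∀ L : Subgroup G, L = Cfsg.layer G → d ∈ Subgroup.centralizer (L : Set G) → L = ⊥ := by
    rintro L rfl hc
    have hcen := FGS3.TT.le_center_of_commute hD hd hc
    rw [← Components.layer_commutator_self (G := G), Subgroup.commutator_eq_bot_iff_le_centralizer]
    exact fun x _ y hy => ((Subgroup.mem_center_iff.1 (hcen hy)) x).symm
  have hnotboth : ¬ Cfsg.pCore 2 G ≤ Subgroup.center G → Cfsg.pCore 3 G ≤ Subgroup.center G := by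
    intro h2
    by_contra h3
    obtain ⟨g, hg, hgne⟩ := hmove _ inferInstance h2 d hd
    obtain ⟨k, hk, hkne⟩ := hmove _ inferInstance h3 d hd
    rcases S5348.result (FGS3.TT.isGroupClass hD) hd with hV | hW
    · rw [(S5349.result hD hD2 hd).2] at hV
      exact hgne (hV ▸ (show g * d * g⁻¹ ∈ {v : G | ∃ g ∈ Cfsg.pCore 2 G, v = g * d * g⁻¹} from ⟨g, hg, rfl⟩) :)
    · rw [(S5350.result hD hD2 hd).2] at hW
      exact hkne (hW ▸ (show k * d * k⁻¹ ∈ {v : G | ∃ g ∈ Cfsg.pCore 3 G, v = g * d * g⁻¹} from ⟨k, hk, rfl⟩) :)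
  -- same action on the core
  have hact : ∀ (p : ℕ) [Fact p.Prime] (l : G), l ∈ Cfsg.layer G → ∀ q ∈ Cfsg.pCore p G,
      (l * d * l⁻¹) * q * (l * d * l⁻¹)⁻¹ = d * q * d⁻¹ := by
    intro p _ l hl q hq
    have hc : ∀ u ∈ Cfsg.pCore p G, l * u = u * l := fun u hu =>
      (Subgroup.mem_centralizer_iff.1 (FGS3.TT.layer_le_centralizer_pCore p hl) u hu).symm
    have hdq : d * q * d⁻¹ ∈ Cfsg.pCore p G := Subgroup.Normal.conj_mem inferInstance _ hq d
    calc (l * d * l⁻¹) * q * (l * d * l⁻¹)⁻¹ = l * d * (l⁻¹ * (q * l)) * d⁻¹ * l⁻¹ := by group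
      _ = l * (d * q * d⁻¹) * l⁻¹ := by rw [← hc q hq]; group
      _ = d * q * d⁻¹ := by rw [hc _ hdq, mul_inv_cancel_right]
  by_cases h2 : Cfsg.pCore 2 G ≤ Subgroup.center G
  · by_cases h3 : Cfsg.pCore 3 G ≤ Subgroup.center G
    · exact Or.inr (Or.inr ⟨h2, h3, FGS3.TT.Semisimple.layer_ne_bot ⟨hD, hD2, h2, h3⟩⟩)
    · refine Or.inr (Or.inl ⟨h2, h3, hlayer _ rfl (FGS3.TT.mem_centralizer_of_none_commute hD
        Components.layer_commutator_self (FGS3.TT.layer_le_centralizer_pCore 3) hd ?_)⟩)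
      intro l hl hcom
      by_contra hne
      set y := l * d * l⁻¹ with hy
      have hyD : y ∈ D := FGS3.TT.conj_mem hD l hd
      obtain ⟨k, hk, hkne⟩ := hmove _ inferInstance h3 d hd
      set w := k * d * k⁻¹ with hw
      have hwW : w ∈ {u : G | ∃ g ∈ Cfsg.pCore 3 G, u = g * d * g⁻¹} := ⟨k, hk, rfl⟩
      rw [← (S5350.result hD hD2 hd).2] at hwW
      have hym : y ∈ {u : G | u ∈ D ∧ u ≠ d ∧ Commute d u} := ⟨hyD, hne, hcom.symm⟩
      rw [hwW.2] at hym
      obtain ⟨-, -, hwy⟩ := hym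
      set t := d * w with ht
      have htQ : t ∈ Cfsg.pCore 3 G := by
        have h1 : d * k * d⁻¹ ∈ Cfsg.pCore 3 G := Subgroup.Normal.conj_mem inferInstance _ hk d
        have e : t = d * k * d⁻¹ * (d * d) * k⁻¹ * 1 := by rw [ht, hw]; group
        rw [e, Screen.tt_mul_self hD.1 hd, mul_one, mul_one]
        exact mul_mem h1 (inv_mem hk)
      have h1 : y * t * y⁻¹ = t := by
        have hc : Commute y t := hcom.mul_right hwy.symm
        rw [hc.eq, mul_inv_cancel_right]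
      have h2' : d * t * d⁻¹ = t⁻¹ := by
        rw [ht, mul_inv_rev, FGS3.TT.inv_eq hD.1 hd, FGS3.TT.inv_eq hD.1 hwW.1,
          Screen.mul_mul_self_cancel (Screen.tt_mul_self hD.1 hd)]
      have h3' : t⁻¹ = t := by rw [← h2', ← hact 3 l hl t htQ]; exact h1
      have hrel : FGS3.TT.SamePerp D d w := ⟨hd, hwW.1, hwW.2⟩
      refine hrel.not_commute (Ne.symm hkne) ?_
      show d * w = w * d
      calc d * w = (d * w)⁻¹ := h3'.symm
        _ = w * d := by rw [mul_inv_rev, FGS3.TT.inv_eq hD.1 hwW.1, FGS3.TT.inv_eq hD.1 hd]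
  · refine Or.inl ⟨h2, hnotboth h2, hlayer _ rfl (FGS3.TT.mem_centralizer_of_all_commute hD
      Components.layer_commutator_self (FGS3.TT.layer_le_centralizer_pCore 2) hd ?_)⟩
    intro l hl
    by_contra hnc
    set y := l * d * l⁻¹ with hy
    have hyD : y ∈ D := FGS3.TT.conj_mem hD l hd
    obtain ⟨k, hk, hkne⟩ := hmove _ inferInstance h2 d hd
    set v := k * d * k⁻¹ with hv
    have hvV : v ∈ {u : G | ∃ g ∈ Cfsg.pCore 2 G, u = g * d * g⁻¹} := ⟨k, hk, rfl⟩
    rw [← (S5349.result hD hD2 hd).2] at hvV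
    obtain ⟨hvD, hvc⟩ := hvV
    have hdv : Commute d v := (hvc v hvD).1 (Commute.refl v)
    have hyv : ¬ Commute y v := fun h => hnc (((hvc y hyD).1 h.symm).symm)
    set t := d * v with ht
    have htQ : t ∈ Cfsg.pCore 2 G := by
      have h1 : d * k * d⁻¹ ∈ Cfsg.pCore 2 G := Subgroup.Normal.conj_mem inferInstance _ hk d
      have e : t = d * k * d⁻¹ * (d * d) * k⁻¹ * 1 := by rw [ht, hv]; group
      rw [e, Screen.tt_mul_self hD.1 hd, mul_one, mul_one]
      exact mul_mem h1 (inv_mem hk)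
    have h1 := hact 2 l hl t htQ
    rw [← hy] at h1
    have h2' : d * t * d⁻¹ = t := by
      rw [((Commute.refl d).mul_right hdv).eq, mul_inv_cancel_right]
    rw [h2'] at h1
    obtain ⟨φ, hinj, e0, e1, e2⟩ := S5344.result hD.1 hd hyD hvD (Ne.symm hkne) hdv
      (fun h => hnc h.symm) hyv
    rw [ht, ← e0, ← e1, ← e2, ← map_inv, ← map_mul, ← map_mul, ← map_mul] at h1
    exact absurd (hinj h1) (by decide)

end Cfsg.Agent.S5351
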