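import Cfsg.Statements.S5355
import Cfsg.Agent.FGS3.TTClass
import Cfsg.Agent.S5344
-- import your own Cfsg.Agent.* helpers here

set_option autoImplicit false
open Cfsg

namespace Cfsg.Agent.S5355

/-- Let D be a conjugacy class of 3-transpositions generating the finite group G, with at least two members, and d a member of D. Suppose that every member of D commuting with d commutes with exactly the same members of D as d does, and that exactly one member of D other than d commutes with d. Then G is isomorphic to the symmetric group of degree 4. -/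
theorem result {G : Type*} [Group G] [Finite G] {D : Set G} (hD : Cfsg.IsThreeTranspositionClass D) (hD2 : ∃ a ∈ D, ∃ b ∈ D, a ≠ b) {d : G} (hd : d ∈ D) (hV : {y : G | y ∈ D ∧ Commute d y} = {v : G | v ∈ D ∧ ∀ e ∈ D, Commute v e ↔ Commute d e}) (hm : {y : G | y ∈ D ∧ Commute d y}.ncard = 2) : Nonempty (G ≃* Equiv.Perm (Fin 4)) := by
  obtain ⟨hset, -, hgen⟩ := id hD
  have hsq : ∀ x ∈ D, x * x = 1 := fun x hx => Screen.tt_mul_self hset hx
  have hinv : ∀ x ∈ D, x⁻¹ = x := fun x hx => FGS3.TT.inv_eq hset hx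
  -- every member has exactly one other commuting member
  have hex : ∀ x ∈ D, ∃ x', x' ∈ D ∧ x' ≠ x ∧ Commute x x' ∧
      ∀ z ∈ D, Commute x z → z = x ∨ z = x' := by
    obtain ⟨a, b, hab, he⟩ := Set.ncard_eq_two.1 hm
    have hd' : d ∈ ({a, b} : Set G) := he ▸ ⟨hd, Commute.refl d⟩
    obtain ⟨d', hd'e⟩ : ∃ d', d' ≠ d ∧ ({a, b} : Set G) = {d, d'} := by
      rcases hd' with rfl | rfl
      · exact ⟨b, Ne.symm hab, rfl⟩
      · exact ⟨a, hab, Set.pair_comm _ _⟩
    have hmem : d' ∈ {y : G | y ∈ D ∧ Commute d y} := by rw [he, hd'e.2]; simp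
    intro x hx
    obtain ⟨g, rfl⟩ := FGS3.TT.exists_conj hD hd hx
    refine ⟨g * d' * g⁻¹, FGS3.TT.conj_mem hD g hmem.1, by simpa using hd'e.1,
      (FGS3.TT.commute_conj_iff g d d').2 hmem.2, fun z hz hc => ?_⟩
    have : g⁻¹ * z * g ∈ {y : G | y ∈ D ∧ Commute d y} :=
      ⟨by simpa using FGS3.TT.conj_mem hD g⁻¹ hz, (FGS3.TT.conj_comm_iff g d z).1 hc⟩
    rw [he, hd'e.2] at this
    rcases this with h | h
    · exact Or.inl (by rw [← h]; group)
    · exact Or.inr (by rw [← (show g⁻¹ * z * g = d' from h)]; group)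
  choose p hpD hpne hpc hpu using hex
  let z : ∀ x, x ∈ D → G := fun x hx => x * p x hx
  have zne : ∀ x hx, z x hx ≠ 1 := fun x hx h =>
    hpne x hx ((eq_inv_of_mul_eq_one_right h).trans (hinv x hx))
  have pconj : ∀ g x (hx : x ∈ D), p (g * x * g⁻¹) (FGS3.TT.conj_mem hD g hx) = g * p x hx * g⁻¹ := by
    intro g x hx
    rcases hpu _ (FGS3.TT.conj_mem hD g hx) (g * p x hx * g⁻¹) (FGS3.TT.conj_mem hD g (hpD x hx))
      ((FGS3.TT.commute_conj_iff g x _).2 (hpc x hx)) with h | h
    · exact absurd h (by simpa using hpne x hx)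
    · exact h.symm
  have zconj : ∀ g x (hx : x ∈ D), z (g * x * g⁻¹) (FGS3.TT.conj_mem hD g hx) = g * z x hx * g⁻¹ := by
    intro g x hx
    show g * x * g⁻¹ * p _ _ = g * (x * p x hx) * g⁻¹
    rw [pconj g x hx]; group
  have zcongr : ∀ x y (hx : x ∈ D) (hy : y ∈ D), x = y → z x hx = z y hy := by
    rintro x y hx hy rfl; rfl
  -- the symmetric group of degree four on a 3-string
  have string : ∀ a b (ha : a ∈ D) (hb : b ∈ D), ¬ Commute a b → ∃ φ : Equiv.Perm (Fin 4) →* G,
      Function.Injective φ ∧ φ (Equiv.swap 0 1) = a ∧ φ (Equiv.swap 1 2) = b ∧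
      φ (Equiv.swap 2 3) = p a ha ∧ φ (Equiv.swap 0 3) = p b hb ∧
      z a ha * z b hb = z (a * b * a⁻¹) (FGS3.TT.conj_mem hD a hb) := by
    intro a b ha hb hab
    have hb' : ¬ Commute b (p a ha) := fun h => hab <| by
      rcases hpu (p a ha) (hpD a ha) b hb h.symm with e | e
      · rw [e]; exact hpc a ha
      · rcases hpu (p a ha) (hpD a ha) a ha (hpc a ha).symm with e' | e'
        · exact absurd e'.symm (hpne a ha)
        · rw [e, ← e']
    obtain ⟨φ, hinj, h0, h1, h2⟩ := S5344.result hset ha hb (hpD a ha) (Ne.symm (hpne a ha))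
      (hpc a ha) hab hb'
    have hcj : ∀ σ τ : Equiv.Perm (Fin 4), φ (σ * τ * σ⁻¹) = φ σ * φ τ * (φ σ)⁻¹ := by simp
    have h3 : φ (Equiv.swap 0 3) = p b hb := by
      have hm : φ (Equiv.swap 0 3) ∈ D := by
        rw [show (Equiv.swap 0 3 : Equiv.Perm (Fin 4)) =
          (Equiv.swap 0 1 * Equiv.swap 1 2) * Equiv.swap 2 3 *
            (Equiv.swap 0 1 * Equiv.swap 1 2)⁻¹ by decide, hcj, h2]
        exact FGS3.TT.conj_mem hD _ (hpD a ha)
      rcases hpu b hb _ hm (by
        rw [← h1, Commute, SemiconjBy, ← map_mul, ← map_mul]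
        exact congrArg φ (by decide)) with e | e
      · exact absurd (hinj (e.trans h1.symm)) (by decide)
      · exact e
    refine ⟨φ, hinj, h0, h1, h2, h3, ?_⟩
    rw [zconj a b hb, show z a ha = φ (Equiv.swap 0 1 * Equiv.swap 2 3) by rw [map_mul, h0, h2],
      show z b hb = φ (Equiv.swap 1 2 * Equiv.swap 0 3) by rw [map_mul, h1, h3], ← h0,
      ← map_inv, ← map_mul, ← map_mul, ← map_mul]
    exact congrArg φ (by decide)
  obtain ⟨y, hy, hdy⟩ := FGS3.TT.exists_not_commute hD hD2 hd
  obtain ⟨φ, hinj, h0, h1, h2, h3, -⟩ := string d y hd hy hdy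
  have hcomm : ∀ e ∈ D, ¬ Commute d e → ¬ Commute y e → Commute d (y * e * y⁻¹) := by
    intro e he hde hye
    by_contra hdf
    set f := y * e * y⁻¹ with hf
    have hfD : f ∈ D := FGS3.TT.conj_mem hD y he
    -- products of class elements along the lines through `d`
    have conjd : ∀ x (hx : x ∈ D), ¬ Commute d x → d * z x hx * d⁻¹ = z d hd * z x hx := by
      intro x hx hdx
      obtain ⟨-, -, -, -, -, -, hz⟩ := string d x hd hx hdx
      rw [hz, zconj d x hx]
    obtain ⟨-, -, -, -, -, -, hyz⟩ := string y e hy he hye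
    obtain ⟨ψ, -, g0, g1, g2, g3, -⟩ := string d y hd hy hdy
    have hcz : z d hd * z y hy = z y hy * z d hd := by
      rw [show z d hd = ψ (Equiv.swap 0 1 * Equiv.swap 2 3) by rw [map_mul, g0, g2],
        show z y hy = ψ (Equiv.swap 1 2 * Equiv.swap 0 3) by rw [map_mul, g1, g3], ← map_mul,
        ← map_mul]
      exact congrArg ψ (by decide)
    have hzz : z d hd * z d hd = 1 := by
      show d * p d hd * (d * p d hd) = 1
      rw [← sq, (hpc d hd).mul_pow, sq, sq, hsq d hd, hsq _ (hpD d hd), one_mul]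
    have e1 := conjd f hfD hdf
    rw [← hyz, show d * (z y hy * z e he) * d⁻¹ = (d * z y hy * d⁻¹) * (d * z e he * d⁻¹) by group,
      conjd y hy hdy, conjd e he hde] at e1
    refine zne d hd ?_
    have e2 : z d hd * z y hy * (z d hd * z e he) = z y hy * z e he := by
      rw [hcz, mul_assoc, ← mul_assoc (z d hd) (z d hd), hzz, one_mul]
    rw [e2] at e1
    exact mul_right_cancel (b := z y hy * z e he) (by rw [one_mul]; exact e1.symm)
  have hrange : D ⊆ φ.range := by
    intro e he
    by_cases hde : Commute d e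
    · rcases hpu d hd e he hde with h | h
      · exact h ▸ ⟨_, h0⟩
      · exact h ▸ ⟨_, h2⟩
    by_cases hye : Commute y e
    · rcases hpu y hy e he hye with h | h
      · exact h ▸ ⟨_, h1⟩
      · exact h ▸ ⟨_, h3⟩
    have hf := hcomm e he hde hye
    have hym : y ∈ φ.range := ⟨_, h1⟩
    have : y * e * y⁻¹ ∈ φ.range := by
      rcases hpu d hd _ (FGS3.TT.conj_mem hD y he) hf with h | h
      · exact h ▸ ⟨_, h0⟩
      · exact h ▸ ⟨_, h2⟩
    simpa [mul_assoc] using mul_mem (mul_mem (inv_mem hym) this) hym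
  have hsurj : Function.Surjective φ := by
    intro g
    have : (⊤ : Subgroup G) ≤ φ.range := hgen ▸ (Subgroup.closure_le _).2 hrange
    exact this (Subgroup.mem_top g)
  exact ⟨(MulEquiv.ofBijective φ ⟨hinj, hsurj⟩).symm⟩

end Cfsg.Agent.S5355
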