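import Cfsg.Statements.S5356
import Cfsg.Agent.FGS3.TTStructure
import Cfsg.Agent.S5349
-- import your own Cfsg.Agent.* helpers here

set_option autoImplicit false
open Cfsg

namespace Cfsg.Agent.S5356

universe u

open Cfsg.Agent.FGS3 in
theorem exists_invariant_sylow : ∀ (n : ℕ) (G : Type u) [Group G] [Finite G], Nat.card G ≤ n →
    ∀ (D : Set G), IsThreeTranspositionClass D → (∀ a ∈ D, ∀ b ∈ D, Commute a b → TT.SameComm D a b) →
      ∀ d ∈ D, ∃ P : Sylow 3 G, d ∈ Subgroup.normalizer (P : Set G) := by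
  intro n
  induction n with
  | zero => intro G _ _ h; exact absurd (Nat.card_pos (α := G)) (by omega)
  | succ n ih =>
  intro G _ _ hcard D hD hV d hd
  haveI := Fact.mk Nat.prime_three
  haveI := Fact.mk Nat.prime_two
  by_cases h3 : 3 ∣ Nat.card G
  swap
  · refine ⟨(IsPGroup.of_bot (p := 3) (G := G)).toSylow (by rwa [Subgroup.index_bot]), ?_⟩
    show d ∈ Subgroup.normalizer ((⊥ : Subgroup G) : Set G)
    rw [Subgroup.normalizer_eq_top]; exact Subgroup.mem_top d
  have hdd := Screen.tt_mul_self hD.1 hd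
  have hdi := TT.inv_eq hD.1 hd
  set Q := Cfsg.pCore 2 G with hQdef
  -- at least two members
  have htwo : ∃ a ∈ D, ∃ b ∈ D, a ≠ b := by
    by_contra hc
    push Not at hc
    have hone : D = {d} := Set.eq_singleton_iff_unique_mem.2 ⟨hd, fun e he => hc e he d hd⟩
    have htop : Subgroup.zpowers d = ⊤ := by
      rw [eq_top_iff, ← hD.2.2, Subgroup.closure_le, hone]
      simp
    have : Nat.card G = 2 := by
      rw [← Subgroup.card_top, ← htop, Nat.card_zpowers, hD.1.1 d hd]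
    omega
  have hQ2 : ∀ g ∈ Q, g ^ 3 = 1 → g = 1 := by
    intro g hg h
    obtain ⟨k, hk⟩ := Core.isPGroup_pCore 2 G ⟨g, hg⟩
    have hk' : g ^ (2 ^ k) = 1 := congrArg Subtype.val hk
    rw [← orderOf_eq_one_iff]
    exact Nat.dvd_one.1 ((Nat.Coprime.pow_left k (by norm_num : Nat.Coprime 2 3)) ▸
      Nat.dvd_gcd (orderOf_dvd_of_pow_eq_one hk') (orderOf_dvd_of_pow_eq_one h))
  have hcongr : ∀ a ∈ D, ∀ b ∈ D, Commute a b → a⁻¹ * b ∈ Q := by
    intro a ha b hb hc
    have h := hV a ha b hb hc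
    have hm : b ∈ {v : G | v ∈ D ∧ ∀ e ∈ D, Commute v e ↔ Commute a e} :=
      ⟨hb, fun e he => (h.2.2 e he).symm⟩
    rw [(S5349.result hD htwo ha).1] at hm
    exact hm.2
  have hsame : ∀ a ∈ D, ∀ b ∈ D, a⁻¹ * b ∈ Q → TT.SameComm D a b := by
    intro a ha b hb h
    have hm : b ∈ {v : G | v ∈ D ∧ a⁻¹ * v ∈ Q} := ⟨hb, h⟩
    rw [← (S5349.result hD htwo ha).1] at hm
    exact ⟨ha, hb, fun e he => (hm.2 e he).symm⟩
  -- width one modulo Q
  set Db : Set (G ⧸ Q) := (QuotientGroup.mk : G → G ⧸ Q) '' D with hDb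
  have hW : Screen.Width1 Db := by
    refine ⟨?_, ?_, ?_⟩
    · rintro _ ⟨a, ha, rfl⟩
      rw [← QuotientGroup.mk_mul, Screen.tt_mul_self hD.1 ha, QuotientGroup.mk_one]
    · rintro g _ ⟨a, ha, rfl⟩
      obtain ⟨g, rfl⟩ := QuotientGroup.mk_surjective g
      exact ⟨_, TT.conj_mem hD g ha, by simp⟩
    · rintro _ ⟨a, ha, rfl⟩ _ ⟨b, hb, rfl⟩
      by_cases hc : Commute a b
      · rw [← QuotientGroup.eq.2 (hcongr a ha b hb hc), ← QuotientGroup.mk_mul,
          Screen.tt_mul_self hD.1 ha, QuotientGroup.mk_one, one_pow]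
      · rw [← QuotientGroup.mk_mul, ← QuotientGroup.mk_pow, TT.cube_of_not_commute hD.1 ha hb hc,
          QuotientGroup.mk_one]
  set K := Cfsg.pCore 3 (G ⧸ Q) with hKdef
  have hK3 : IsPGroup 3 K := Core.isPGroup_pCore 3 _
  have hDK : ∀ a ∈ D, ((d * a : G) : G ⧸ Q) ∈ K := fun a ha => by
    rw [QuotientGroup.mk_mul]
    exact hW.mul_mem_pCore ⟨d, hd, rfl⟩ ⟨a, ha, rfl⟩
  have hcover : ∀ g : G, ∃ z ∈ Subgroup.zpowers (d : G ⧸ Q), ∃ k ∈ K, (g : G ⧸ Q) = z * k := by
    intro g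
    have hle : (⊤ : Subgroup G) ≤ (Subgroup.zpowers (d : G ⧸ Q) ⊔ K).comap (QuotientGroup.mk' Q) := by
      rw [← hD.2.2, Subgroup.closure_le]
      intro a ha
      show QuotientGroup.mk' Q a ∈ (Subgroup.zpowers (d : G ⧸ Q) ⊔ K)
      rw [QuotientGroup.mk'_apply]
      rw [show a = d * (d * a) by rw [Screen.mul_mul_self_cancel hdd], QuotientGroup.mk_mul]
      exact mul_mem (Subgroup.mem_sup_left (Subgroup.mem_zpowers _)) (Subgroup.mem_sup_right (hDK a ha))
    obtain ⟨z, hz, k, hk, e⟩ := Subgroup.mem_sup_of_normal_right.1 (hle (Subgroup.mem_top g))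
    exact ⟨z, hz, k, hk, e.symm⟩
  -- a nontrivial central element of K
  haveI hKnt : Nontrivial K := by
    by_contra hnt
    rw [not_nontrivial_iff_subsingleton] at hnt
    obtain ⟨g, hg⟩ := exists_prime_orderOf_dvd_card' 3 h3
    obtain ⟨z, hz, k, hk, e⟩ := hcover g
    have hk1 : k = 1 := congrArg Subtype.val (Subsingleton.elim (⟨k, hk⟩ : K) 1)
    rw [hk1, mul_one] at e
    obtain ⟨i, rfl⟩ := Subgroup.mem_zpowers_iff.1 hz
    have h1 : ((g : G ⧸ Q)) ^ (2 : ℕ) = 1 := by
      rw [e, ← zpow_natCast, ← zpow_mul, mul_comm, zpow_mul, zpow_natCast, sq,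
        ← QuotientGroup.mk_mul, hdd, QuotientGroup.mk_one, one_zpow]
    have h2 : g ^ 2 ∈ Q := by rwa [← QuotientGroup.eq_one_iff, QuotientGroup.mk_pow]
    have hg3 : g ^ 3 = 1 := hg ▸ pow_orderOf_eq_one g
    have := hQ2 _ h2 (by rw [← pow_mul, mul_comm, pow_mul, hg3, one_pow])
    have hdvd := orderOf_dvd_of_pow_eq_one this
    rw [hg] at hdvd
    omega
  haveI := hK3.center_nontrivial
  obtain ⟨k, hk⟩ := (hK3.to_subgroup (Subgroup.center K)).exists_card_eq
  obtain ⟨z, hz3⟩ := exists_prime_orderOf_dvd_card' (G := Subgroup.center K) 3 (by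
    obtain ⟨n, hn⟩ := IsPGroup.iff_card.1 (hK3.to_subgroup (Subgroup.center K))
    rcases n with _ | n
    · rw [pow_zero] at hn
      exact absurd hn Finite.one_lt_card.ne'
    · rw [hn]; exact dvd_pow_self 3 (Nat.succ_ne_zero n))
  set zb : G ⧸ Q := ((z : K) : G ⧸ Q) with hzb
  have hzK : zb ∈ K := (z : K).2
  have hzc : ∀ k ∈ K, k * zb = zb * k := fun k hk =>
    congrArg Subtype.val (Subgroup.mem_center_iff.1 z.2 ⟨k, hk⟩)
  have hzord : orderOf zb = 3 := by rw [hzb, Subgroup.orderOf_coe, Subgroup.orderOf_coe, hz3]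
  obtain ⟨g, hg⟩ := QuotientGroup.mk_surjective zb
  -- a normalized element of order three with central image
  obtain ⟨t, ht3, ht1, htd, htK, htc⟩ : ∃ t : G, t ^ 3 = 1 ∧ t ∉ Q ∧
      d * t * d⁻¹ ∈ Subgroup.zpowers t ∧ (t : G ⧸ Q) ∈ K ∧ ∀ k ∈ K, k * (t : G ⧸ Q) = (t : G ⧸ Q) * k := by
    by_cases hc : (d : G ⧸ Q) * zb = zb * d
    · have hcon : (g * d * g⁻¹ : G) ∈ D := TT.conj_mem hD g hd
      have hm : g * d * g⁻¹ ∈ {v : G | v ∈ D ∧ d⁻¹ * v ∈ Q} := by
        refine ⟨hcon, ?_⟩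
        rw [← QuotientGroup.eq, QuotientGroup.mk_mul, QuotientGroup.mk_mul, QuotientGroup.mk_inv,
          hg, ← hc, mul_inv_cancel_right]
      rw [← (S5349.result hD htwo hd).1, (S5349.result hD htwo hd).2] at hm
      obtain ⟨q, hq, hqe⟩ := hm
      set c := q⁻¹ * g with hcdef
      have hcd : Commute c d := by
        show c * d = d * c
        have : c * d * c⁻¹ = d := by
          calc c * d * c⁻¹ = q⁻¹ * (g * d * g⁻¹) * q := by rw [hcdef]; group
            _ = d := by rw [hqe]; group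
        exact mul_inv_eq_iff_eq_mul.1 this
      have hcb : (c : G ⧸ Q) = zb := by
        rw [hcdef, QuotientGroup.mk_mul, hg, (QuotientGroup.eq_one_iff _).2 (inv_mem hq), one_mul]
      have hc3 : c ^ 3 ∈ Q := by
        rw [← QuotientGroup.eq_one_iff, QuotientGroup.mk_pow, hcb, ← hzord, pow_orderOf_eq_one]
      obtain ⟨j, hj⟩ := Core.isPGroup_pCore 2 G ⟨_, hc3⟩
      have hj' : (c ^ 3) ^ (2 ^ j) = 1 := congrArg Subtype.val hj
      refine ⟨c ^ (2 ^ j), by rw [← pow_mul, mul_comm, pow_mul, hj'], ?_, ?_, ?_, ?_⟩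
      · intro hmem
        rw [← QuotientGroup.eq_one_iff, QuotientGroup.mk_pow, hcb, ← orderOf_dvd_iff_pow_eq_one,
          hzord] at hmem
        exact absurd (Nat.prime_three.dvd_of_dvd_pow hmem) (by norm_num)
      · rw [((hcd.pow_left _).symm).eq, mul_inv_cancel_right]
        exact Subgroup.mem_zpowers _
      · rw [QuotientGroup.mk_pow, hcb]; exact pow_mem hzK _
      · intro k hk
        rw [QuotientGroup.mk_pow, hcb]
        exact ((show Commute k zb from hzc k hk).pow_right _).eq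
    · have hcon : (g * d * g⁻¹ : G) ∈ D := TT.conj_mem hD g hd
      have himg : ((d * (g * d * g⁻¹) : G) : G ⧸ Q) = ((d : G ⧸ Q) * zb * (d : G ⧸ Q)⁻¹) * zb⁻¹ := by
        simp only [QuotientGroup.mk_mul, QuotientGroup.mk_inv, hg]
        rw [← QuotientGroup.mk_inv, hdi]
        group
      have hne : d * (g * d * g⁻¹) ∉ Q := by
        intro hm
        rw [← QuotientGroup.eq_one_iff, himg, mul_inv_eq_one, mul_inv_eq_iff_eq_mul] at hm
        exact hc hm
      have hnc : ¬ Commute d (g * d * g⁻¹) := fun h => hne (by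
        have := hcongr d hd _ hcon h
        rwa [hdi] at this)
      have hKn : K.Normal := inferInstance
      have hdz : (d : G ⧸ Q) * zb * (d : G ⧸ Q)⁻¹ ∈ K := hKn.conj_mem _ hzK _
      refine ⟨d * (g * d * g⁻¹), TT.cube_of_not_commute hD.1 hd hcon hnc, hne, ?_, ?_, ?_⟩
      · have e : d * (d * (g * d * g⁻¹)) * d⁻¹ = (d * (g * d * g⁻¹))⁻¹ := by
          rw [mul_inv_rev, TT.inv_eq hD.1 hcon, hdi, Screen.mul_mul_self_cancel hdd]
        rw [e]
        exact inv_mem (Subgroup.mem_zpowers _)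
      · rw [himg]; exact mul_mem hdz (inv_mem hzK)
      · intro k hk
        rw [himg]
        have h1 : Commute k ((d : G ⧸ Q) * zb * (d : G ⧸ Q)⁻¹) := by
          have hk' : (d : G ⧸ Q)⁻¹ * k * (d : G ⧸ Q) ∈ K := by
            have := hKn.conj_mem _ hk (d : G ⧸ Q)⁻¹
            rwa [inv_inv] at this
          have := (show Commute _ zb from hzc _ hk').map (MulAut.conj (d : G ⧸ Q)).toMonoidHom
          simpa [mul_assoc] using this
        exact (h1.mul_right (show Commute k zb from hzc k hk).inv_right).eq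
  set R := Subgroup.zpowers t with hRdef
  have htord : orderOf t = 3 := orderOf_eq_prime ht3 fun e => ht1 (e ▸ one_mem Q)
  have hR : Nat.card R = 3 := by rw [hRdef, Nat.card_zpowers, htord]
  have hdR : d ∈ Subgroup.normalizer (R : Set G) := by
    have hmap : ∀ x ∈ R, d * x * d⁻¹ ∈ R := by
      intro x hx
      obtain ⟨i, rfl⟩ := Subgroup.mem_zpowers_iff.1 hx
      rw [← conj_zpow]
      exact Subgroup.zpow_mem _ htd i
    rw [Subgroup.mem_normalizer_iff]
    refine fun x => ⟨hmap x, fun hx => ?_⟩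
    have := hmap _ hx
    rw [hdi] at this
    simpa [mul_assoc, Screen.mul_mul_self_cancel hdd, hdd] using this
  -- the subgroup R Q is normal
  set M := R ⊔ Q with hMdef
  haveI hMn : M.Normal := by
    have e : M = (Subgroup.zpowers (t : G ⧸ Q)).comap (QuotientGroup.mk' Q) := by
      rw [hMdef, hRdef, ← QuotientGroup.mk'_apply, ← MonoidHom.map_zpowers, Subgroup.comap_map_eq,
        QuotientGroup.ker_mk']
    rw [e]
    refine Subgroup.Normal.comap (⟨fun x hx y => ?_⟩) _
    obtain ⟨i, rfl⟩ := Subgroup.mem_zpowers_iff.1 hx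
    obtain ⟨y, rfl⟩ := QuotientGroup.mk_surjective y
    rw [← conj_zpow]
    refine Subgroup.zpow_mem _ ?_ i
    obtain ⟨z', hz', k, hk, e'⟩ := hcover y
    rw [e', show z' * k * (t : G ⧸ Q) * (z' * k)⁻¹ = z' * (k * (t : G ⧸ Q) * k⁻¹) * z'⁻¹ by group,
      htc k hk, mul_inv_cancel_right]
    have hd' : (d : G ⧸ Q) ∈ Subgroup.normalizer (Subgroup.zpowers (t : G ⧸ Q) : Set (G ⧸ Q)) := by
      have := Subgroup.le_normalizer_map (QuotientGroup.mk' Q) (Subgroup.mem_map_of_mem _ hdR)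
      rwa [hRdef, MonoidHom.map_zpowers] at this
    exact (Subgroup.mem_normalizer_iff.1 ((Subgroup.zpowers_le.2 hd') hz') _).1 (Subgroup.mem_zpowers _)
  set N := Subgroup.normalizer (R : Set G) with hNdef
  have hNQ : N ⊔ Q = ⊤ := by
    have hdisj : R ⊓ Q = ⊥ := by
      rw [eq_bot_iff]
      rintro x ⟨hx, hxQ⟩
      exact Subgroup.mem_bot.2 (hQ2 x hxQ (by
        obtain ⟨i, rfl⟩ := Subgroup.mem_zpowers_iff.1 hx
        rw [← zpow_natCast, ← zpow_mul, mul_comm, zpow_mul, zpow_natCast, ht3, one_zpow]))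
    have hcM : Nat.card M = Nat.card R * Nat.card Q := Core.card_sup_of_disjoint hdisj
    have hidx : ¬ 3 ∣ (R.subgroupOf M).index := by
      have h1 := Subgroup.card_mul_index (R.subgroupOf M)
      rw [Core.card_subgroupOf (le_sup_left : R ≤ M), hcM] at h1
      rw [Nat.eq_of_mul_eq_mul_left (by omega : 0 < Nat.card R) h1]
      obtain ⟨k, hk⟩ := IsPGroup.iff_card.1 (Core.isPGroup_pCore 2 G)
      rw [hk]
      exact fun h => absurd (Nat.prime_three.dvd_of_dvd_pow h) (by norm_num)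
    have hR3 : IsPGroup 3 R := IsPGroup.of_card (n := 1) (by rw [hR, pow_one])
    let S : Sylow 3 M :=
      (hR3.of_equiv (Subgroup.subgroupOfEquivOfLe (le_sup_left : R ≤ M)).symm).toSylow hidx
    have hS := Sylow.normalizer_sup_eq_top S
    have hSR : ((S : Subgroup M).map M.subtype) = R :=
      Subgroup.map_subgroupOf_eq_of_le le_sup_left
    rw [hSR] at hS
    refine top_le_iff.1 (hS.ge.trans (sup_le le_sup_left (sup_le ?_ le_sup_right)))
    exact Subgroup.le_normalizer.trans le_sup_left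
  set D' : Set G := {a | a ∈ D ∧ a ∈ N} with hD'
  have hmeet : ∀ a ∈ D, ∃ b ∈ D', a⁻¹ * b ∈ Q := by
    intro a ha
    obtain ⟨y, rfl⟩ := TT.exists_conj hD hd ha
    obtain ⟨m, hm, q, hq, rfl⟩ := Subgroup.mem_sup_of_normal_right.1 (hNQ ▸ Subgroup.mem_top y)
    refine ⟨m * d * m⁻¹, ⟨TT.conj_mem hD m hd, mul_mem (mul_mem hm hdR) (inv_mem hm)⟩, ?_⟩
    rw [← QuotientGroup.eq]
    simp [(QuotientGroup.eq_one_iff q).2 hq]
  set G' := Subgroup.closure D' with hG'def
  have hG'N : G' ≤ N := by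
    rw [hG'def, Subgroup.closure_le]; exact fun a ha => ha.2
  have hG'Q : G' ⊔ Q = ⊤ := by
    rw [eq_top_iff, ← hD.2.2, Subgroup.closure_le]
    intro a ha
    obtain ⟨b, hb, hab⟩ := hmeet a ha
    rw [SetLike.mem_coe, show a = b * (a⁻¹ * b)⁻¹ by group]
    exact mul_mem (Subgroup.mem_sup_left (Subgroup.subset_closure hb))
      (Subgroup.mem_sup_right (inv_mem hab))
  have hdG' : d ∈ G' := Subgroup.subset_closure ⟨hd, hdR⟩
  by_cases htopG : G' = ⊤
  · -- R is normal
    haveI : R.Normal := Subgroup.normalizer_eq_top_iff.1 (top_le_iff.1 (htopG ▸ hG'N))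
    have hlt : Nat.card (G ⧸ R) ≤ n := by
      have := Subgroup.card_eq_card_quotient_mul_card_subgroup R
      rw [hR] at this
      have hpos : 0 < Nat.card (G ⧸ R) := Nat.card_pos
      omega
    have hnot : ∀ a ∈ D, a ∉ R := by
      intro a ha hm
      have h1 := orderOf_dvd_natCard (⟨a, hm⟩ : R)
      rw [Subgroup.orderOf_mk, hD.1.1 a ha, hR] at h1
      omega
    set π := QuotientGroup.mk' R
    have hset : IsThreeTranspositionSet (π '' D) := by
      refine ⟨?_, ?_⟩
      · rintro _ ⟨a, ha, rfl⟩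
        refine orderOf_eq_prime ?_ fun e => hnot a ha ((QuotientGroup.eq_one_iff a).1 e)
        rw [← map_pow, sq, Screen.tt_mul_self hD.1 ha, map_one]
      · rintro _ ⟨a, ha, rfl⟩ _ ⟨b, hb, rfl⟩
        rcases hD.1.2 a ha b hb with h | h
        · left; rw [← map_mul, ← map_pow, h, map_one]
        · right; rw [← map_mul, ← map_pow, h, map_one]
    have hD1 : IsThreeTranspositionClass (π '' D) := by
      refine ⟨hset, ⟨π d, ⟨d, hd, rfl⟩, Set.ext fun x => ⟨?_, fun hx => ?_⟩⟩, ?_⟩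
      · rintro ⟨a, ha, rfl⟩
        obtain ⟨y, rfl⟩ := TT.exists_conj hD hd ha
        exact isConj_iff.2 ⟨π y, by simp⟩
      · obtain ⟨y, rfl⟩ := isConj_iff.1 (show IsConj (π d) x from hx)
        obtain ⟨y, rfl⟩ := QuotientGroup.mk'_surjective R y
        exact ⟨_, TT.conj_mem hD y hd, by simp [π]⟩
      · rw [← MonoidHom.map_closure, hD.2.2, Subgroup.map_top_of_surjective _
          (QuotientGroup.mk'_surjective R)]
    have hdesc : ∀ a ∈ D, ∀ b ∈ D, Commute (π a) (π b) → Commute a b ∨ π a = π b := by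
      intro a ha b hb hc
      by_cases h : Commute a b
      · exact Or.inl h
      right
      have h2 := (TT.commute_iff_sq hset ⟨a, ha, rfl⟩ ⟨b, hb, rfl⟩).1 hc
      have h3 : (π a * π b) ^ 3 = 1 := by
        rw [← map_mul, ← map_pow, TT.cube_of_not_commute hD.1 ha hb h, map_one]
      rw [pow_succ, h2, one_mul] at h3
      rw [← TT.inv_eq hset ⟨b, hb, rfl⟩]
      exact eq_inv_of_mul_eq_one_left h3
    have hV1 : ∀ a ∈ π '' D, ∀ b ∈ π '' D, Commute a b → TT.SameComm (π '' D) a b := by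
      rintro _ ⟨a, ha, rfl⟩ _ ⟨b, hb, rfl⟩ hc
      refine ⟨⟨a, ha, rfl⟩, ⟨b, hb, rfl⟩, ?_⟩
      rintro _ ⟨e, he, rfl⟩
      rcases hdesc a ha b hb hc with h | h
      · have hs := hV a ha b hb h
        constructor
        · intro hae
          rcases hdesc a ha e he hae with h' | h'
          · exact ((hs.2.2 e he).1 h').map π
          · rw [← h']; exact hc.symm
        · intro hbe
          rcases hdesc b hb e he hbe with h' | h'
          · exact ((hs.2.2 e he).2 h').map π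
          · rw [← h']; exact hc
      · rw [h]
    obtain ⟨P, hP⟩ := ih (G ⧸ R) hlt _ hD1 hV1 (π d) ⟨d, hd, rfl⟩
    have hR3 : IsPGroup 3 π.ker := by
      rw [QuotientGroup.ker_mk']; exact IsPGroup.of_card (n := 1) (by rw [hR, pow_one])
    refine ⟨(P.2.comap_of_ker_isPGroup π hR3).toSylow ?_, ?_⟩
    · rw [Subgroup.index_comap_of_surjective _ (QuotientGroup.mk'_surjective R)]
      exact P.not_dvd_index
    · exact Subgroup.le_normalizer_comap π hP
  · have hlt : Nat.card G' ≤ n := by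
      have := Subgroup.card_le_card_group G'
      rcases this.eq_or_lt with e | e
      · exact absurd (Subgroup.eq_top_of_card_eq _ e) htopG
      · omega
    obtain ⟨y₀, hy₀, hdy₀⟩ := TT.exists_not_commute hD htwo hd
    obtain ⟨y, ⟨hy, hyN⟩, hyQ⟩ := hmeet y₀ hy₀
    have hdy : ¬ Commute d y := fun h => hdy₀ ((((hsame y₀ hy₀ y hy hyQ).2.2 d hd).2 h.symm).symm)
    have hyG : y ∈ G' := Subgroup.subset_closure ⟨hy, hyN⟩
    set D1 : Set G' := {x | (x : G) ∈ D} with hD1
    have hjoin : ∀ a b : G', (a : G) ∈ D → (b : G) ∈ D → ¬ Commute (a : G) b → IsConj a b := by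
      intro a b ha hb hab
      refine isConj_iff.2 ⟨a * b, Subtype.ext ?_⟩
      have hbr := Screen.tt_braid hD.1 ha hb hab
      show (a : G) * b * a * ((a : G) * b)⁻¹ = b
      rw [mul_inv_rev, TT.inv_eq hD.1 ha, TT.inv_eq hD.1 hb, hbr]
      simp only [mul_assoc, Screen.mul_mul_self_cancel (Screen.tt_mul_self hD.1 hb),
        Screen.tt_mul_self hD.1 ha, mul_one]
    have hclass : IsThreeTranspositionClass D1 := by
      refine ⟨⟨fun x hx => by rw [← Subgroup.orderOf_coe]; exact hD.1.1 _ hx,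
        fun x hx z hz => ?_⟩, ⟨⟨d, hdG'⟩, hd, Set.ext fun x => ⟨fun hx => ?_, fun hx => ?_⟩⟩, ?_⟩
      · rcases hD.1.2 _ hx _ hz with h | h
        · exact Or.inl (Subtype.ext h)
        · exact Or.inr (Subtype.ext h)
      · by_cases hdx : Commute d x
        · have hxy : ¬ Commute y (x : G) := fun h =>
            hdy (((hV d hd x hx hdx).2.2 y hy).2 h.symm)
          exact (hjoin ⟨d, hdG'⟩ ⟨y, hyG⟩ hd hy hdy).trans (hjoin ⟨y, hyG⟩ x hy hx hxy)
        · exact hjoin ⟨d, hdG'⟩ x hd hx hdx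
      · obtain ⟨c, rfl⟩ := isConj_iff.1 (show IsConj (⟨d, hdG'⟩ : G') x from hx)
        exact TT.conj_mem hD (c : G) hd
      · rw [eq_top_iff, ← Subgroup.closure_closure_coe_preimage (k := D')]
        exact Subgroup.closure_mono fun x hx => hx.1
    have hV1 : ∀ a ∈ D1, ∀ b ∈ D1, Commute a b → TT.SameComm D1 a b := by
      intro a ha b hb hc
      refine ⟨ha, hb, fun e he => ?_⟩
      have := (hV a ha b hb (hc.map G'.subtype)).2.2 e he
      exact ⟨fun h => Subtype.ext (this.1 (h.map G'.subtype)).eq,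
        fun h => Subtype.ext (this.2 (h.map G'.subtype)).eq⟩
    obtain ⟨P, hP⟩ := ih G' hlt D1 hclass hV1 ⟨d, hdG'⟩ hd
    refine ⟨(P.2.map G'.subtype).toSylow ?_, ?_⟩
    · rw [Subgroup.index_map_subtype]
      intro h
      rcases (Nat.prime_three.dvd_mul).1 h with h | h
      · exact P.not_dvd_index h
      · have h1 : G'.index ∣ Nat.card Q := by
          have e := Core.card_sup_mul_card_inf G' Q
          rw [hG'Q, Subgroup.card_top, ← Subgroup.card_mul_index G', mul_assoc] at e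
          exact Dvd.intro _ (Nat.eq_of_mul_eq_mul_left Nat.card_pos e)
        obtain ⟨k, hk⟩ := IsPGroup.iff_card.1 (Core.isPGroup_pCore 2 G)
        rw [hk] at h1
        exact absurd (Nat.prime_three.dvd_of_dvd_pow (h.trans h1)) (by norm_num)
    · exact Subgroup.le_normalizer_map G'.subtype (Subgroup.mem_map_of_mem _ hP)


/-- Let D be a conjugacy class of 3-transpositions generating the finite group G, with at least two members, and d a member of D such that every member of D commuting with d commutes with exactly the same members of D as d. Then there is a Sylow 3-subgroup P of G normalized by d such that G is generated by d, P and the largest normal 2-subgroup of G. -/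
theorem result {G : Type*} [Group G] [Finite G] {D : Set G} (hD : Cfsg.IsThreeTranspositionClass D) (hD2 : ∃ a ∈ D, ∃ b ∈ D, a ≠ b) {d : G} (hd : d ∈ D) (hV : {y : G | y ∈ D ∧ Commute d y} = {v : G | v ∈ D ∧ ∀ e ∈ D, Commute v e ↔ Commute d e}) : ∃ P : Sylow 3 G, d ∈ Subgroup.normalizer (P : Set G) ∧ Subgroup.zpowers d ⊔ (P : Subgroup G) ⊔ Cfsg.pCore 2 G = ⊤ := by
  have hV' : ∀ a ∈ D, ∀ b ∈ D, Commute a b → FGS3.TT.SameComm D a b := by
    intro a ha b hb hab
    obtain ⟨g, rfl⟩ := FGS3.TT.exists_conj hD hd ha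
    have hb' : g⁻¹ * b * g ∈ D := by simpa using FGS3.TT.conj_mem hD g⁻¹ hb
    have h1 : g⁻¹ * b * g ∈ {y : G | y ∈ D ∧ Commute d y} :=
      ⟨hb', (FGS3.TT.conj_comm_iff g d b).1 hab⟩
    rw [hV] at h1
    have := FGS3.TT.sameComm_equiv hD g d _ ⟨hd, hb', fun e he => (h1.2 e he).symm⟩
    simpa [mul_assoc] using this
  obtain ⟨P, hP⟩ := exists_invariant_sylow _ G le_rfl D hD hV' d hd
  refine ⟨P, hP, ?_⟩
  haveI := Fact.mk Nat.prime_three
  set Q := Cfsg.pCore 2 G
  have hW : Screen.Width1 ((QuotientGroup.mk : G → G ⧸ Q) '' D) := by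
    refine ⟨?_, ?_, ?_⟩
    · rintro _ ⟨a, ha, rfl⟩
      rw [← QuotientGroup.mk_mul, Screen.tt_mul_self hD.1 ha, QuotientGroup.mk_one]
    · rintro g _ ⟨a, ha, rfl⟩
      obtain ⟨g, rfl⟩ := QuotientGroup.mk_surjective g
      exact ⟨_, FGS3.TT.conj_mem hD g ha, by simp⟩
    · rintro _ ⟨a, ha, rfl⟩ _ ⟨b, hb, rfl⟩
      by_cases hc : Commute a b
      · have hm : b ∈ {v : G | v ∈ D ∧ ∀ e ∈ D, Commute v e ↔ Commute a e} :=
          ⟨hb, fun e he => ((hV' a ha b hb hc).2.2 e he).symm⟩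
        rw [(S5349.result hD hD2 ha).1] at hm
        rw [← QuotientGroup.eq.2 hm.2, ← QuotientGroup.mk_mul, Screen.tt_mul_self hD.1 ha,
          QuotientGroup.mk_one, one_pow]
      · rw [← QuotientGroup.mk_mul, ← QuotientGroup.mk_pow, FGS3.TT.cube_of_not_commute hD.1 ha hb hc,
          QuotientGroup.mk_one]
  rw [eq_top_iff, ← hD.2.2, Subgroup.closure_le]
  intro a ha
  have hk := hW.mul_mem_pCore ⟨d, hd, rfl⟩ ⟨a, ha, rfl⟩
  have hle : Cfsg.pCore 3 (G ⧸ Q) ≤ (P : Subgroup G).map (QuotientGroup.mk' Q) :=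
    Core.pCore_le_sylow (P.mapSurjective (QuotientGroup.mk'_surjective Q))
  have hm : d * a ∈ (P : Subgroup G) ⊔ Q := by
    rw [← QuotientGroup.ker_mk' Q, ← Subgroup.comap_map_eq]
    exact hle hk
  rw [SetLike.mem_coe, sup_assoc, show a = d * (d * a) by
    rw [Screen.mul_mul_self_cancel (Screen.tt_mul_self hD.1 hd)]]
  exact mul_mem (Subgroup.mem_sup_left (Subgroup.mem_zpowers d)) (Subgroup.mem_sup_right hm)

end Cfsg.Agent.S5356
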