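import Cfsg.Statements.S5358
import Cfsg.Agent.Forms.OrthBridge

set_option autoImplicit false
open scoped MatrixGroups
open Cfsg

namespace Cfsg.Agent.S5358

/-- Let Q be a non-degenerate quadratic form on the n-dimensional coordinate space over the field with three elements and u, v vectors of the same non-zero norm Q(u) = Q(v) spanning different lines (v ≠ u and v ≠ −u). Then the reflection matrices of u and v commute if and only if u and v are orthogonal for the polar form of Q. -/
theorem result (n : ℕ) (Q : QuadraticForm (ZMod 3) (Fin n → ZMod 3)) (hQ : (QuadraticMap.polarBilin Q).Nondegenerate) (u v : Fin n → ZMod 3) (hu : Q u ≠ 0) (huv : Q u = Q v) (h1 : v ≠ u) (h2 : v ≠ -u) : Commute (Cfsg.reflectionMatrix (⇑Q) u) (Cfsg.reflectionMatrix (⇑Q) v) ↔ QuadraticMap.polar (⇑Q) u v = 0 := by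
  set a := (Q u)⁻¹ with ha
  have ha0 : a ≠ 0 := inv_ne_zero hu
  have key : ∀ x, (Cfsg.reflectionMatrix (⇑Q) u * Cfsg.reflectionMatrix (⇑Q) v).mulVec x -
      (Cfsg.reflectionMatrix (⇑Q) v * Cfsg.reflectionMatrix (⇑Q) u).mulVec x =
      (a * a * QuadraticMap.polar (⇑Q) u v) •
        (QuadraticMap.polar (⇑Q) v x • u - QuadraticMap.polar (⇑Q) u x • v) := by
    intro x
    simp only [← Matrix.mulVec_mulVec, Forms.reflectionMatrix_mulVec, ← huv, ← ha]
    simp only [QuadraticMap.polar_sub_right, QuadraticMap.polar_smul_right, smul_eq_mul,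
      QuadraticMap.polar_comm Q v u]
    module
  constructor
  · intro h
    by_contra hf
    have h' : ∀ x, QuadraticMap.polar (⇑Q) v x • u - QuadraticMap.polar (⇑Q) u x • v = 0 := by
      intro x
      have := key x
      rw [h.eq, sub_self, eq_comm, smul_eq_zero] at this
      exact this.resolve_left (mul_ne_zero (mul_ne_zero ha0 ha0) hf)
    have h3 := h' v
    rw [sub_eq_zero] at h3
    set c := QuadraticMap.polar (⇑Q) v v / QuadraticMap.polar (⇑Q) u v with hc
    have hv : v = c • u := by
      rw [hc, div_eq_inv_mul, mul_smul, h3, ← mul_smul, inv_mul_cancel₀ hf, one_smul]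
    have hcc : c * c = 1 := by
      have := congrArg Q hv
      rw [QuadraticMap.map_smul, ← huv, smul_eq_mul] at this
      exact mul_right_cancel₀ hu (by rw [one_mul]; exact this.symm)
    rcases mul_self_eq_one_iff.1 hcc with h4 | h4
    · exact h1 (by rw [hv, h4, one_smul])
    · exact h2 (by rw [hv, h4, neg_one_smul])
  · intro hf
    refine Matrix.ext_of_mulVec_single fun i => ?_
    have := key (Pi.single i 1)
    rw [hf, mul_zero, zero_smul, sub_eq_zero] at this
    exact this

end Cfsg.Agent.S5358
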