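import Cfsg.Statements.S5359
import Cfsg.Agent.FGS3.ReflThreeIndex
-- import your own Cfsg.Agent.* helpers here

set_option autoImplicit false
open scoped MatrixGroups
open Cfsg

namespace Cfsg.Agent.S5359

/-- Let Q be a non-degenerate quadratic form on the n-dimensional coordinate space over the field with three elements, n odd and at least 5, and c a non-zero scalar. Then the subgroup of the isometry group of Q generated by the reflections in vectors of norm c has index 2 in the isometry group. -/
theorem result (n : ℕ) (hn : 5 ≤ n) (hodd : Odd n) (Q : QuadraticForm (ZMod 3) (Fin n → ZMod 3)) (hQ : (QuadraticMap.polarBilin Q).Nondegenerate) (c : ZMod 3) (hc : c ≠ 0) : (Cfsg.reflectionSubgroup (⇑Q) c).index = 2 := by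
  have hclos : Cfsg.reflectionSubgroup (⇑Q) c =
      (Subgroup.closure (Forms.reflectClass Q c)).comap (Forms.isometryEquiv Q).toMonoidHom := by
    rw [show (Subgroup.closure (Forms.reflectClass Q c)).comap (Forms.isometryEquiv Q).toMonoidHom =
      (Subgroup.closure (Forms.reflectClass Q c)).map (Forms.isometryEquiv Q).symm.toMonoidHom from
      (Subgroup.map_equiv_eq_comap_symm (Forms.isometryEquiv Q).symm _).symm, MonoidHom.map_closure]
    unfold Cfsg.reflectionSubgroup
    congr 1
    ext g
    simp only [Cfsg.reflectionsOfNorm, Set.mem_setOf_eq, Forms.reflectClass, Forms.eq_reflection_iff]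
    constructor
    · rintro ⟨v, hv, h⟩
      exact ⟨_, ⟨v, 1, one_ne_zero, by rw [hv]; ring, rfl⟩,
        by rw [← h]; exact (Forms.isometryEquiv Q).symm_apply_apply g⟩
    · rintro ⟨_, ⟨v, t, ht, hv, rfl⟩, rfl⟩
      exact ⟨v, by rw [hv, sq, FGS3.R3.sq_one t ht, mul_one],
        (Forms.isometryEquiv Q).apply_symm_apply _⟩
  rw [hclos, Subgroup.index_comap_of_surjective _ (Forms.isometryEquiv Q).surjective]
  exact FGS3.R3.reflectClass_index_two hQ hc (by simpa using hn)

end Cfsg.Agent.S5359
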