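import Cfsg.Statements.S5360
import Cfsg.Agent.FGS3.ReflThree
import Cfsg.Agent.FGS3.TTLayer
import Cfsg.Agent.S5357
-- import your own Cfsg.Agent.* helpers here

set_option autoImplicit false
open scoped MatrixGroups
open Cfsg

namespace Cfsg.Agent.S5360

/-- Let Q be a non-degenerate quadratic form on the n-dimensional coordinate space over the field with three elements, n ≥ 5, c a non-zero scalar, and R the subgroup of the isometry group generated by the reflections of norm c. Then the commutator subgroup of R is quasisimple of index at most 2, the generalized Fitting subgroup of R is the product of the centre and the commutator subgroup, and R acts primitively by conjugation on its reflections of norm c. -/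
theorem result (n : ℕ) (hn : 5 ≤ n) (Q : QuadraticForm (ZMod 3) (Fin n → ZMod 3)) (hQ : (QuadraticMap.polarBilin Q).Nondegenerate) (c : ZMod 3) (hc : c ≠ 0) : Cfsg.IsQuasisimple (commutator ↥(Cfsg.reflectionSubgroup (⇑Q) c)) ∧ (commutator ↥(Cfsg.reflectionSubgroup (⇑Q) c)).index ≤ 2 ∧ Cfsg.generalizedFittingSubgroup ↥(Cfsg.reflectionSubgroup (⇑Q) c) = Subgroup.center ↥(Cfsg.reflectionSubgroup (⇑Q) c) ⊔ commutator ↥(Cfsg.reflectionSubgroup (⇑Q) c) ∧ Cfsg.IsPrimitiveUnderConj {g : ↥(Cfsg.reflectionSubgroup (⇑Q) c) | (g : ↥(Cfsg.isometryGroup (ZMod 3) (⇑Q))) ∈ Cfsg.reflectionsOfNorm (⇑Q) c} := by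
  set R := Cfsg.reflectionSubgroup (⇑Q) c with hR
  set D : Set ↥R := {g : ↥R | (g : ↥(Cfsg.isometryGroup (ZMod 3) (⇑Q))) ∈ Cfsg.reflectionsOfNorm (⇑Q) c} with hDdef
  have hcls : Cfsg.IsThreeTranspositionClass D := S5357.result n hn Q hQ c hc
  set e := Forms.isometryEquiv Q with he
  have hdim : 5 ≤ Module.finrank (ZMod 3) (Fin n → ZMod 3) := by simpa using hn
  -- members as reflections
  have hmem : ∀ g ∈ D, ∃ v, Q v = c ∧ e g = Forms.reflection Q v := by
    rintro g ⟨v, hv, h⟩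
    exact ⟨v, hv, (Forms.eq_reflection_iff Q _ v).1 h⟩
  have hmk : ∀ v, Q v = c → ∃ g ∈ D, e g = Forms.reflection Q v := by
    intro v hv
    have hm : e.symm (Forms.reflection Q v) ∈ Cfsg.reflectionsOfNorm (⇑Q) c :=
      ⟨v, hv, (Forms.eq_reflection_iff Q _ v).2 (e.apply_symm_apply _)⟩
    exact ⟨⟨_, Subgroup.subset_closure hm⟩, hm, e.apply_symm_apply _⟩
  have hinj : Function.Injective (fun g : ↥R => e g) := e.injective.comp Subtype.val_injective
  have hcomm : ∀ (g h : ↥R) v w, Q v = c → Q w = c → e g = Forms.reflection Q v →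
      e h = Forms.reflection Q w →
      (Commute g h ↔ QuadraticMap.polar (⇑Q) v w = 0 ∨ w = v ∨ w = -v) := by
    intro g h v w hv hw hg hh
    rw [← FGS3.R3.commute_reflection_iff hc hv hw, ← hg, ← hh]
    constructor
    · intro hc'
      exact hc'.map (e.toMonoidHom.comp R.subtype)
    · intro hc'
      refine hinj ?_
      simpa using hc'.eq
  have hne : ∀ (g h : ↥R) v w, Q v = c → Q w = c → e g = Forms.reflection Q v →
      e h = Forms.reflection Q w → QuadraticMap.polar (⇑Q) v w = 0 → g ≠ h := by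
    rintro g _ v w hv hw hg hh hp rfl
    have h1 := Forms.reflection_fix Q hp
    rw [← hg, hh, Forms.reflection_self Q (hw ▸ hc)] at h1
    have h2 : (2 : ZMod 3) • w = 0 := by rw [two_smul]; nth_rw 1 [← h1]; exact neg_add_cancel w
    rw [smul_eq_zero] at h2
    exact h2.elim FGS3.R3.two_ne fun h => hc (by rw [← hw, h, map_zero])
  -- two orthogonal members
  obtain ⟨v₀, hv₀⟩ := Forms.exists_eq_value FGS3.R3.two_ne Q hQ (by omega) c
  obtain ⟨u₀, hu₀, hvu₀, -⟩ := FGS3.R3.exists_value_perp hQ hdim (v := v₀) (w := v₀) (hv₀ ▸ hc) c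
  obtain ⟨g₀, hg₀D, hg₀⟩ := hmk v₀ hv₀
  obtain ⟨k₀, hk₀D, hk₀⟩ := hmk u₀ hu₀
  have htwo : ∃ a ∈ D, ∃ b ∈ D, a ≠ b :=
    ⟨g₀, hg₀D, k₀, hk₀D, hne _ _ _ _ hv₀ hu₀ hg₀ hk₀ hvu₀⟩
  have hV : ∀ a b : ↥R, FGS3.TT.SameComm D a b → b = a := by
    intro a b h
    obtain ⟨v, hv, ha⟩ := hmem a h.1
    obtain ⟨w, hw, hb⟩ := hmem b h.2.1
    rcases (hcomm a b v w hv hw ha hb).1 h.commute with hp | rfl | rfl
    · exfalso
      obtain ⟨s, hs0, hs, hvs, hws⟩ := FGS3.R3.exists_singular_perp hQ hdim v w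
      have hu : Q (w + s) = c := by rw [QuadraticMap.map_add Q, hw, hs, hws, add_zero, add_zero]
      obtain ⟨k, hk, hku⟩ := hmk _ hu
      have h1 : Commute b k := (h.2.2 k hk).1 ((hcomm a k v _ hv hu ha hku).2
        (Or.inl (by rw [QuadraticMap.polar_add_right, hp, hvs, add_zero])))
      rcases (hcomm b k w _ hw hu hb hku).1 h1 with h2 | h2 | h2
      · rw [QuadraticMap.polar_add_right, hws, add_zero, Forms.polar_self_two_mul, hw] at h2
        exact mul_ne_zero FGS3.R3.two_ne hc h2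
      · exact hs0 (add_eq_left.1 h2)
      · have h4 : s = -w - w := eq_sub_of_add_eq' h2
        rw [h4, QuadraticMap.polar_sub_right, QuadraticMap.polar_neg_right,
          Forms.polar_self_two_mul, hw] at hws
        exact mul_ne_zero (show (2 : ZMod 3) * 2 ≠ 0 by decide) hc (by linear_combination -hws)
    · exact hinj (hb.trans ha.symm)
    · refine hinj (hb.trans (Eq.trans ?_ ha.symm))
      rw [show -v = (-1 : ZMod 3) • v by simp, Forms.reflection_smul Q (by decide)]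
  have hW : ∀ a b : ↥R, FGS3.TT.SamePerp D a b → b = a := by
    intro a b h
    by_contra hba
    obtain ⟨v, hv, ha⟩ := hmem a h.1
    obtain ⟨w, hw, hb⟩ := hmem b h.2.1
    have hnc := h.not_commute (Ne.symm hba)
    rw [hcomm a b v w hv hw ha hb] at hnc
    push Not at hnc
    obtain ⟨hp, h1, h2⟩ := hnc
    have hspan : w ∈ Submodule.span (ZMod 3) {v} := by
      refine FGS3.R3.mem_span_of_perp_values hQ hdim hc hv fun u hu hvu => ?_
      obtain ⟨k, hk, hku⟩ := hmk u hu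
      obtain ⟨-, hbk⟩ := (h.iff hk).1 ⟨Ne.symm (hne _ _ _ _ hv hu ha hku hvu),
        (hcomm a k v u hv hu ha hku).2 (Or.inl hvu)⟩
      rcases (hcomm b k w u hw hu hb hku).1 hbk with h3 | h3 | h3
      · exact h3
      · exact absurd (h3 ▸ hvu) hp
      · rw [h3, QuadraticMap.polar_neg_right, neg_eq_zero] at hvu
        exact absurd hvu hp
    exact (FGS3.R3.eq_or_eq_neg_of_mem_span hc hv hw hspan).elim h1 h2
  have hcore2 : Cfsg.pCore 2 ↥R ≤ Subgroup.center ↥R := by
    refine FGS3.TT.le_center_of_commute hcls hg₀D (Subgroup.mem_centralizer_iff.2 fun g hg => ?_)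
    have hm : g * g₀ * g⁻¹ ∈ {v : ↥R | ∃ k ∈ Cfsg.pCore 2 ↥R, v = k * g₀ * k⁻¹} := ⟨g, hg, rfl⟩
    rw [← (S5349.result hcls htwo hg₀D).2] at hm
    exact mul_inv_eq_iff_eq_mul.1 (hV _ _ ⟨hg₀D, hm.1, fun x hx => (hm.2 x hx).symm⟩)
  have hcore3 : Cfsg.pCore 3 ↥R ≤ Subgroup.center ↥R := by
    refine FGS3.TT.le_center_of_commute hcls hg₀D (Subgroup.mem_centralizer_iff.2 fun g hg => ?_)
    have hm : g * g₀ * g⁻¹ ∈ {v : ↥R | ∃ k ∈ Cfsg.pCore 3 ↥R, v = k * g₀ * k⁻¹} := ⟨g, hg, rfl⟩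
    rw [← (S5350.result hcls htwo hg₀D).2] at hm
    exact mul_inv_eq_iff_eq_mul.1 (hW _ _ ⟨hg₀D, hm.1, hm.2⟩)
  have hconn : (Cfsg.commutingGraph D).Connected := by
    haveI hne' : Nonempty D := ⟨⟨g₀, hg₀D⟩⟩
    refine ⟨fun a b => ?_⟩
    obtain ⟨v, hv, ha⟩ := hmem a.1 a.2
    obtain ⟨w, hw, hb⟩ := hmem b.1 b.2
    obtain ⟨u, hu, hvu, hwu⟩ := FGS3.R3.exists_value_perp hQ hdim (v := v) (w := w) (hv ▸ hc) c
    obtain ⟨k, hk, hku⟩ := hmk u hu
    have h1 : (Cfsg.commutingGraph D).Adj a ⟨k, hk⟩ :=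
      ⟨fun e' => hne _ _ _ _ hv hu ha hku hvu (congrArg Subtype.val e'),
        Or.inl ((hcomm _ k v u hv hu ha hku).2 (Or.inl hvu))⟩
    have h2 : (Cfsg.commutingGraph D).Adj b ⟨k, hk⟩ :=
      ⟨fun e' => hne _ _ _ _ hw hu hb hku hwu (congrArg Subtype.val e'),
        Or.inl ((hcomm _ k w u hw hu hb hku).2 (Or.inl hwu))⟩
    exact h1.reachable.trans h2.reachable.symm
  have hs : FGS3.TT.Semisimple D := ⟨hcls, htwo, hcore2, hcore3⟩
  have hL := hs.layer_isQuasisimple
  have hi := hs.index_le_two_of_connected hL hconn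
  have hF := hs.generalizedFitting_eq
  have hc' := FGS3.TT.Semisimple.commutator_eq hL hi
  refine ⟨?_, ?_, ?_, (hs.dich hL hF hi).primitive⟩
  · rw [hc']; exact hL
  · rw [hc']; exact hi
  · rw [hc', hF, sup_comm]

end Cfsg.Agent.S5360
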