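import Cfsg.Statements.S5361
import Cfsg.Agent.FGS3.TTLayer
import Cfsg.Agent.Screen.TTPrimitive
-- import your own Cfsg.Agent.* helpers here

set_option autoImplicit false
open Cfsg
open scoped commutatorElement

namespace Cfsg.Agent.S5361

/-- Let D be a conjugacy class of 3-transpositions generating the finite group G, and suppose the centre of G is trivial and some two different members of D commute. Then the following are equivalent: (1) the commutator subgroup of G is simple (possibly of prime order); (2) G acts primitively on D by conjugation; (3) the largest normal 2-subgroup and the largest normal 3-subgroup of G are trivial and the commuting graph of D is connected. -/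
theorem result {G : Type*} [Group G] [Finite G] {D : Set G} (hD : Cfsg.IsThreeTranspositionClass D) (hZ : Subgroup.center G = ⊥) (hw : ∃ a ∈ D, ∃ b ∈ D, a ≠ b ∧ Commute a b) : (IsSimpleGroup (commutator G) ↔ Cfsg.IsPrimitiveUnderConj D) ∧ (Cfsg.IsPrimitiveUnderConj D ↔ (Cfsg.pCore 2 G = ⊥ ∧ Cfsg.pCore 3 G = ⊥ ∧ (Cfsg.commutingGraph D).Connected)) := by
  have hD2 : ∃ a ∈ D, ∃ b ∈ D, a ≠ b := by
    obtain ⟨a, ha, b, hb, hab, -⟩ := hw
    exact ⟨a, ha, b, hb, hab⟩
  have hiff : Cfsg.IsPrimitiveUnderConj D ↔
      (Cfsg.pCore 2 G = ⊥ ∧ Cfsg.pCore 3 G = ⊥ ∧ (Cfsg.commutingGraph D).Connected) := by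
    constructor
    · intro hp
      have h : FGS3.TT.Prim D := ⟨hD, hp, hw⟩
      exact ⟨le_bot_iff.1 (hZ ▸ h.semisimple.core2), le_bot_iff.1 (hZ ▸ h.semisimple.core3), h.connected⟩
    · rintro ⟨h2, h3, hc⟩
      have hs : FGS3.TT.Semisimple D := ⟨hD, hD2, h2 ▸ bot_le, h3 ▸ bot_le⟩
      exact (hs.dich hs.layer_isQuasisimple hs.generalizedFitting_eq
        (hs.index_le_two_of_connected hs.layer_isQuasisimple hc)).primitive
  refine ⟨⟨fun hsimp => ?_, fun hp => ?_⟩, hiff⟩
  · have hnonab : ∃ x y : commutator G, x * y ≠ y * x := by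
      by_contra hc
      push Not at hc
      obtain ⟨a, ha, b, hb, hab, hcom⟩ := hw
      obtain ⟨g, hg⟩ := FGS3.TT.exists_conj hD ha hb
      set z := a * b with hz
      have hzm : z ∈ commutator G := by
        have : z = ⁅a, g⁆ := by
          rw [hz, ← hg, commutatorElement_def, FGS3.TT.inv_eq hD.1 ha]; group
        rw [this]
        exact Subgroup.commutator_mem_commutator (Subgroup.mem_top a) (Subgroup.mem_top g)
      have hz1 : z ≠ 1 := fun e => hab (by
        rw [← FGS3.TT.inv_eq hD.1 hb]; exact eq_inv_of_mul_eq_one_left e)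
      have hz2 : z ^ (2 : ℤ) = 1 := by
        rw [show (2 : ℤ) = ((2 : ℕ) : ℤ) from rfl, zpow_natCast]
        exact (FGS3.TT.commute_iff_sq hD.1 ha hb).1 hcom
      haveI : (Subgroup.zpowers (⟨z, hzm⟩ : commutator G)).Normal :=
        ⟨fun n hn g => by rw [hc g n, mul_inv_cancel_right]; exact hn⟩
      haveI := hsimp
      have htop := (Subgroup.Normal.eq_bot_or_eq_top
        (H := Subgroup.zpowers (⟨z, hzm⟩ : commutator G)) inferInstance).resolve_left
        fun e => hz1 (congrArg Subtype.val (Subgroup.zpowers_eq_bot.1 e))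
      have hcen : z ∈ Subgroup.center G := by
        rw [Subgroup.mem_center_iff]
        intro k
        have hk : k * z * k⁻¹ ∈ commutator G := Subgroup.Normal.conj_mem inferInstance z hzm k
        obtain ⟨i, hi⟩ := Subgroup.mem_zpowers_iff.1
          (htop ▸ Subgroup.mem_top (⟨_, hk⟩ : commutator G) :
            (⟨_, hk⟩ : commutator G) ∈ Subgroup.zpowers (⟨z, hzm⟩ : commutator G))
        have hi' : z ^ i = k * z * k⁻¹ := congrArg Subtype.val hi
        rcases Int.even_or_odd' i with ⟨j, rfl | rfl⟩
        · rw [zpow_mul, hz2, one_zpow] at hi'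
          exact absurd (conj_eq_one_iff.1 hi'.symm) hz1
        · rw [zpow_add, zpow_mul, hz2, one_zpow, one_mul, zpow_one] at hi'
          exact (eq_mul_inv_iff_mul_eq.1 hi').symm
      rw [hZ, Subgroup.mem_bot] at hcen
      exact hz1 hcen
    have h : Screen.SimpleTT G D := ⟨hD, hsimp, hnonab⟩
    exact (FGS3.TT.Dich.mk hD hD2 fun N hN => @Screen.SimpleTT.le_center_or _ _ _ h N hN).primitive
  · have h : FGS3.TT.Prim D := ⟨hD, hp, hw⟩
    have hs := h.semisimple
    have hL := hs.layer_isQuasisimple
    rw [FGS3.TT.Semisimple.commutator_eq hL (h.index_le_two hL)]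
    have hcL : Subgroup.center ↥(Cfsg.layer G) = ⊥ := by
      rw [eq_bot_iff]
      intro z hz
      have hm : (z : G) ∈ Subgroup.centralizer (Cfsg.layer G : Set G) :=
        Subgroup.mem_centralizer_iff.2 fun y hy =>
          congrArg Subtype.val (Subgroup.mem_center_iff.1 hz ⟨y, hy⟩)
      have := hs.centralizer_le_center hs.generalizedFitting_eq hm
      rw [hZ, Subgroup.mem_bot] at this
      exact Subgroup.mem_bot.2 (Subtype.ext this)
    haveI := hL.2
    have e : ↥(Cfsg.layer G) ⧸ Subgroup.center ↥(Cfsg.layer G) ≃* ↥(Cfsg.layer G) :=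
      (QuotientGroup.quotientMulEquivOfEq hcL).trans QuotientGroup.quotientBot
    haveI : Nontrivial ↥(Cfsg.layer G) := Components.quasisimple_nontrivial hL
    exact IsSimpleGroup.isSimpleGroup_of_surjective e.toMonoidHom e.surjective

end Cfsg.Agent.S5361
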