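import Cfsg.Statements.S5363
import Cfsg.Agent.Components.Dihedral

set_option autoImplicit false
open Cfsg

namespace Cfsg.Agent.S5363

/-- Let D be a conjugation-invariant set of involutions of a finite group G. Then every product of two members of D has odd order or order 2 if and only if, for every a in D and every b in D different from a and commuting with a, the members of D commuting with a b are exactly those commuting with both a and b. -/
theorem result {G : Type*} [Group G] [Finite G] {D : Set G} (hinv : ∀ d ∈ D, orderOf d = 2) (hconj : ∀ g : G, ∀ d ∈ D, g * d * g⁻¹ ∈ D) : (∀ a ∈ D, ∀ b ∈ D, Odd (orderOf (a * b)) ∨ orderOf (a * b) = 2) ↔ ∀ a ∈ D, ∀ b ∈ D, b ≠ a → Commute a b → {y : G | y ∈ D ∧ Commute (a * b) y} = {y : G | y ∈ D ∧ Commute a y} ∩ {y : G | y ∈ D ∧ Commute b y} := by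
  have hsq : ∀ d ∈ D, d * d = 1 := fun d hd => Cfsg.Agent.Components.invol_mul_self (hinv d hd)
  have hdi : ∀ d ∈ D, d⁻¹ = d := fun d hd => Cfsg.Agent.Components.invol_inv (hinv d hd)
  constructor
  · intro h a ha b hb hne hab
    ext y
    simp only [Set.mem_inter_iff, Set.mem_ofPred_eq]
    constructor
    · rintro ⟨hy, hz⟩
      suffices hay : Commute a y by
        refine ⟨⟨hy, hay⟩, hy, ?_⟩
        have := hay.inv_left.mul_left hz
        rwa [inv_mul_cancel_left] at this
      have comm2 : ∀ c ∈ D, orderOf (c * y) = 2 → Commute c y := by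
        intro c hc ho
        have := Cfsg.Agent.Components.invol_inv ho
        rw [mul_inv_rev, hdi c hc, hdi y hy] at this
        exact this.symm
      rcases h a ha y hy with ho | ho
      swap
      · exact comm2 a ha ho
      have hzy : a * b * y = y * (a * b) := hz
      have hzord : orderOf (a * b) = 2 := by
        refine orderOf_eq_prime ?_ ?_
        · rw [sq, show a * b * (a * b) = a * (b * a) * b by group, ← hab.eq]
          simp [← mul_assoc, hsq a ha, hsq b hb]
        · intro e
          rw [mul_eq_one_iff_inv_eq, hdi a ha] at e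
          exact hne e.symm
      have hby : b * y = (a * b) * (a * y) := by
        have h1 : b = a * b * a := by rw [hab.eq, mul_assoc, hsq a ha, mul_one]
        conv_lhs => rw [h1]
        group
      have hcomm : Commute (a * b) (a * y) :=
        ((Commute.refl a).mul_left hab.symm).mul_right hz
      have hcop : Nat.Coprime (orderOf (a * b)) (orderOf (a * y)) := by
        rw [hzord]; exact (Nat.coprime_two_left).2 ho
      have hord : orderOf (b * y) = 2 * orderOf (a * y) := by
        rw [hby, hcomm.orderOf_mul_eq_mul_orderOf_of_coprime hcop, hzord]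
      rcases h b hb y hy with ho' | ho'
      · rw [hord] at ho'
        exact absurd ho' (by simp)
      · rw [hord] at ho'
        have h1 : orderOf (a * y) = 1 := by omega
        rw [orderOf_eq_one_iff, mul_eq_one_iff_inv_eq, hdi a ha] at h1
        rw [← h1]
    · rintro ⟨⟨hy, h1⟩, -, h2⟩
      exact ⟨hy, h1.mul_left h2⟩
  · intro h a ha b hb
    set x := a * b with hx
    rcases Nat.even_or_odd (orderOf x) with he | ho
    swap
    · exact Or.inl ho
    right
    by_contra h2
    have hpos : orderOf x ≠ 0 := (orderOf_pos x).ne'
    obtain ⟨hz, hza, hzb⟩ := Cfsg.Agent.Components.central_involution (hinv a ha) (hinv b hb) hpos he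
    rw [← hx] at hz hza hzb
    set k := orderOf x / 2 with hk
    have hax : ∀ n : ℕ, x ^ n * a = a * (x ^ n)⁻¹ := by
      intro n
      have := Cfsg.Agent.Components.zpow_mul_invol (hinv a ha) (hinv b hb) (n : ℤ)
      rwa [zpow_natCast, zpow_neg, zpow_natCast] at this
    have hzaD : x ^ k * a ∈ D := by
      rcases Nat.even_or_odd' k with ⟨i, hi | hi⟩
      · have := hconj (x ^ i) a ha
        rw [mul_assoc, show a * (x ^ i)⁻¹ = x ^ i * a from (hax i).symm, ← mul_assoc, ← pow_add,
          show i + i = k by omega] at this
        exact this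
      · have hb' : x * a ∈ D := by
          have := hconj a b hb
          rwa [hdi a ha] at this
        have := hconj (x ^ i) _ hb'
        have e : x ^ i * (x * a) * (x ^ i)⁻¹ = x ^ k * a := by
          rw [show x ^ i * (x * a) * (x ^ i)⁻¹ = x ^ i * x * (a * (x ^ i)⁻¹) by group, ← hax i,
            ← mul_assoc, ← pow_succ, ← pow_add, show i + 1 + i = k by omega]
        rwa [e] at this
    have hne : x ^ k * a ≠ a := fun e =>
      Cfsg.Agent.Components.invol_ne_one hz (mul_eq_right.1 e)
    have hcm : Commute a (x ^ k * a) := hza.symm.mul_right (Commute.refl a)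
    have hset := h a ha _ hzaD hne hcm
    have hprod : a * (x ^ k * a) = x ^ k := by rw [← mul_assoc, ← hza.eq, mul_assoc, hsq a ha, mul_one]
    have hbm : b ∈ {y : G | y ∈ D ∧ Commute (a * (x ^ k * a)) y} := ⟨hb, by rw [hprod]; exact hzb⟩
    rw [hset] at hbm
    obtain ⟨⟨-, hc⟩, -⟩ := hbm
    have hx2 : x ^ 2 = 1 := by
      rw [sq, hx, show a * b * (a * b) = a * (b * a) * b by group, ← hc.eq]
      simp [← mul_assoc, hsq a ha, hsq b hb]
    have hd := orderOf_dvd_of_pow_eq_one hx2
    rcases (Nat.dvd_prime Nat.prime_two).1 hd with e | e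
    · rw [e] at he; exact absurd he (by decide)
    · exact h2 e

end Cfsg.Agent.S5363
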