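import Cfsg.Statements.S5364
import Cfsg.Agent.Components.Dihedral

set_option autoImplicit false
open Cfsg

namespace Cfsg.Agent.S5364

/-- Let D be a conjugation-invariant set of involutions of a finite group G and t an involution in the centre of G such that d t does not lie in D for any d in D. If the images of the members of D in G modulo the subgroup generated by t satisfy the 3-transposition order conditions (each has order 2 and any two have product of order at most 3), then so do the members of D. -/
theorem result {G : Type*} [Group G] [Finite G] {D : Set G} (hinv : ∀ d ∈ D, orderOf d = 2) (hconj : ∀ g : G, ∀ d ∈ D, g * d * g⁻¹ ∈ D) (t : G) (ht : orderOf t = 2) (htZ : t ∈ Subgroup.center G) (hDt : ∀ d ∈ D, d * t ∉ D) [(Subgroup.zpowers t).Normal] (himg : Cfsg.IsThreeTranspositionSet ((QuotientGroup.mk : G → G ⧸ Subgroup.zpowers t) '' D)) : Cfsg.IsThreeTranspositionSet D := by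
  refine ⟨hinv, fun d hd e he => ?_⟩
  have hdi : ∀ d ∈ D, d⁻¹ = d := fun d hd => Cfsg.Agent.Components.invol_inv (hinv d hd)
  have hmem : ∀ x : G, x ∈ Subgroup.zpowers t → x = 1 ∨ x = t := by
    rintro x ⟨n, rfl⟩
    have ht2 : t * t = 1 := Cfsg.Agent.Components.invol_mul_self ht
    have ht2' : t ^ (2 : ℤ) = 1 := by rw [show (2 : ℤ) = 1 + 1 by norm_num, zpow_add, zpow_one, ht2]
    rcases Int.even_or_odd' n with ⟨i, rfl | rfl⟩
    · exact Or.inl (by simp [zpow_mul, ht2'])
    · exact Or.inr (by simp [zpow_add, zpow_mul, ht2'])
  have htc : ∀ x : G, x * t = t * x := fun x => Subgroup.mem_center_iff.1 htZ x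
  have hd2 : d * d = 1 := Cfsg.Agent.Components.invol_mul_self (hinv d hd)
  have he2 : e * e = 1 := Cfsg.Agent.Components.invol_mul_self (hinv e he)
  have hde : d * e * d ∈ D := by simpa [hdi d hd] using hconj d e he
  have hed : e * d * e ∈ D := by simpa [hdi e he] using hconj e d hd
  rcases himg.2 _ ⟨d, hd, rfl⟩ _ ⟨e, he, rfl⟩ with h | h
  · left
    rw [← QuotientGroup.mk_mul, ← QuotientGroup.mk_pow, QuotientGroup.eq_one_iff] at h
    rcases hmem _ h with h1 | h1
    · exact h1
    · exfalso
      refine hDt e he ?_
      have : e * t = d * e * d := by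
        rw [htc, ← h1, show (d * e) ^ 2 * e = d * e * d * (e * e) by rw [sq]; group, he2, mul_one]
      rw [this]; exact hde
  · right
    rw [← QuotientGroup.mk_mul, ← QuotientGroup.mk_pow, QuotientGroup.eq_one_iff] at h
    rcases hmem _ h with h1 | h1
    · exact h1
    · exfalso
      refine hDt _ hed ?_
      have : e * d * e * t = d * e * d := by
        rw [htc, ← h1, show (d * e) ^ 3 * (e * d * e) = d * e * d * e * d * (e * e) * d * e by
          rw [pow_three]; group, he2, mul_one,
          show d * e * d * e * d * d * e = d * e * d * e * (d * d) * e by group, hd2, mul_one,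
          show d * e * d * e * e = d * e * d * (e * e) by group, he2, mul_one]
      rw [this]; exact hde

end Cfsg.Agent.S5364
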