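import Cfsg.Statements.S5365
import Cfsg.Agent.FGS3.TTDegreeThree
import Cfsg.Agent.S5350
-- import your own Cfsg.Agent.* helpers here

set_option autoImplicit false
open Cfsg

namespace Cfsg.Agent.S5365

open Cfsg.Agent.FGS3.TT

variable {G : Type*} [Group G] {D : Set G}

theorem line_const [Finite G] (hD : IsThreeTranspositionSet D)
    (hconj : ∀ g : G, ∀ d ∈ D, g * d * g⁻¹ ∈ D) (h3 : ∀ d ∈ D, (Nb D d).ncard = 3)
    (hnc : ∀ d ∈ D, ∀ a ∈ Nb D d, ∀ b ∈ Nb D d, a ≠ b → ¬ Commute a b) {d d' a b : G}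
    (hd : d ∈ D) (hd' : d' ∈ D) (hdd : d ≠ d') (hab : a ≠ b) (had : a ∈ Nb D d) (hbd : b ∈ Nb D d)
    (had' : a ∈ Nb D d') (hbd' : b ∈ Nb D d') : ∀ x ∈ Nb D d, Nb D x = Nb D a := by
  have sym : ∀ x ∈ D, ∀ y ∈ Nb D x, x ∈ Nb D y := fun x hx y hy => ⟨hx, hy.2.1.symm, hy.2.2.symm⟩
  have eA := (nb_eq_line hD hconj (h3 d hd) (hnc d hd) had hbd hab).1
  have ea := (nb_eq_line hD hconj (h3 a had.1) (hnc a had.1) (sym d hd a had) (sym d' hd' a had') hdd).1
  have eb := (nb_eq_line hD hconj (h3 b hbd.1) (hnc b hbd.1) (sym d hd b hbd) (sym d' hd' b hbd') hdd).1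
  intro x hx
  rw [eA] at hx
  rcases hx with rfl | rfl | rfl
  · rfl
  · rw [ea, eb]
  · have hai := inv_eq hD had.1
    refine Set.eq_of_subset_of_ncard_le (fun z hz => ?_) ?_ (Set.toFinite _)
    · have h1 : a⁻¹ * z * a ∈ Nb D b := mem_nb_conj hconj (by rwa [hai])
      rw [eb, ← ea] at h1
      have h2 := nb_conj' hconj a h1
      simpa [mul_assoc] using h2
    · rw [h3 a had.1, h3 _ (show a * b * a ∈ D by simpa [hai] using hconj a b hbd.1)]

theorem four_cycle [Finite G] (hD : IsThreeTranspositionSet D)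
    (hconj : ∀ g : G, ∀ d ∈ D, g * d * g⁻¹ ∈ D) (h3 : ∀ d ∈ D, (Nb D d).ncard = 3)
    (hnc : ∀ d ∈ D, ∀ a ∈ Nb D d, ∀ b ∈ Nb D d, a ≠ b → ¬ Commute a b)
    (hcore : ∀ d ∈ D, Nat.card (pCore 3 (Subgroup.centralizer ({d} : Set G))) = 3) {d d' a b : G}
    (hd : d ∈ D) (hd' : d' ∈ D) (hdd : d ≠ d') (hab : a ≠ b) (had : a ∈ Nb D d) (hbd : b ∈ Nb D d)
    (had' : a ∈ Nb D d') (hbd' : b ∈ Nb D d') :
    (∀ x ∈ Nb D d, ∀ z ∈ Nb D a, Commute x z) ∧ D = Nb D d ∪ Nb D a := by
  have sym : ∀ x ∈ D, ∀ y ∈ Nb D x, x ∈ Nb D y := fun x hx y hy => ⟨hx, hy.2.1.symm, hy.2.2.symm⟩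
  have ha := had.1
  have hA := line_const hD hconj h3 hnc hd hd' hdd hab had hbd had' hbd'
  have hdB := sym d hd a had
  have hd'B := sym d' hd' a had'
  have hB := line_const hD hconj h3 hnc ha hbd.1 hab hdd hdB hd'B (sym d hd b hbd) (sym d' hd' b hbd')
  have hAB : ∀ x ∈ Nb D d, ∀ z ∈ Nb D a, Commute x z := fun x hx z hz => by
    rw [← hA x hx] at hz
    exact hz.2.2
  refine ⟨hAB, Set.Subset.antisymm (fun y hy => ?_) (Set.union_subset (fun x hx => hx.1) fun x hx => hx.1)⟩
  by_contra hyS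
  have hny : ∀ x ∈ Nb D d ∪ Nb D a, ¬ Commute x y := by
    intro x hx hc
    have hne : y ≠ x := fun e => hyS (e ▸ hx)
    rcases hx with hx | hx
    · exact hyS (Or.inr (hA x hx ▸ ⟨hy, hne, hc⟩))
    · exact hyS (Or.inl (hB x hx ▸ ⟨hy, hne, hc⟩))
  haveI hG₀ : (Subgroup.closure D).Normal := ⟨fun n hn g => by
    induction hn using Subgroup.closure_induction with
    | mem x hx => exact Subgroup.subset_closure (hconj g x hx)
    | one => simp
    | mul p q _ _ hp hq => simpa [mul_assoc] using mul_mem hp hq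
    | inv p _ hp => simpa [mul_assoc] using inv_mem hp⟩
  set G₀ := Subgroup.closure D with hG₀def
  set D₀ : Set G₀ := Subtype.val ⁻¹' D with hD₀def
  have mem₀ : ∀ x ∈ D, x ∈ G₀ := fun x hx => Subgroup.subset_closure hx
  have htrans : ∀ x ∈ D, ∃ g ∈ G₀, g * d * g⁻¹ = x := by
    intro x hx
    by_cases hxS : x ∈ Nb D d ∪ Nb D a
    · refine ⟨y * x * (d * y), mul_mem (mul_mem (mem₀ y hy) (mem₀ x hx))
        (mul_mem (mem₀ d hd) (mem₀ y hy)), ?_⟩
      have h1 := conj_of_not_commute hD hd hy (hny d (Or.inr hdB))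
      have h2 := conj_of_not_commute hD hy hx fun h => hny x hxS h.symm
      calc y * x * (d * y) * d * (y * x * (d * y))⁻¹ =
          y * x * (d * y * d * (d * y)⁻¹) * (y * x)⁻¹ := by group
        _ = x := by rw [h1, h2]
    · have hne : x ≠ d := fun e => hxS (Or.inr (e ▸ hdB))
      exact ⟨d * x, mul_mem (mem₀ d hd) (mem₀ x hx), conj_of_not_commute hD hd hx fun h =>
        hxS (Or.inl ⟨hx, hne, h⟩)⟩
  have hD₀ : IsThreeTranspositionClass D₀ := by
    refine ⟨⟨fun x hx => ?_, fun x hx z hz => ?_⟩, ⟨⟨d, mem₀ d hd⟩, hd, ?_⟩, ?_⟩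
    · rw [← Subgroup.orderOf_coe]; exact hD.1 _ hx
    · exact (hD.2 _ hx _ hz).imp (fun h => Subtype.ext h) fun h => Subtype.ext h
    · ext x
      constructor
      · intro hx
        obtain ⟨g, hg, e⟩ := htrans _ hx
        exact show IsConj _ _ from isConj_iff.2 ⟨⟨g, hg⟩, Subtype.ext e⟩
      · intro hx
        obtain ⟨g, rfl⟩ := isConj_iff.1 (show IsConj (⟨d, mem₀ d hd⟩ : G₀) x from hx)
        exact hconj g d hd
    · exact Subgroup.closure_closure_coe_preimage
  have tr : ∀ x z : G₀, (z ∈ D₀ ∧ z ≠ x ∧ Commute x z) ↔ (z : G) ∈ Nb D x := by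
    intro x z
    exact ⟨fun h => ⟨h.1, fun e => h.2.1 (Subtype.ext e), congrArg Subtype.val h.2.2.eq⟩,
      fun h => ⟨h.1, fun e => h.2.1 (congrArg Subtype.val e), Subtype.ext h.2.2.eq⟩⟩
  have h2 : ∃ p ∈ D₀, ∃ q ∈ D₀, p ≠ q :=
    ⟨⟨d, mem₀ d hd⟩, hd, ⟨y, mem₀ y hy⟩, hy, fun e =>
      hyS (Or.inr (by
        have e' : d = y := congrArg Subtype.val e
        rw [← e']; exact hdB))⟩
  set Q := (pCore 3 G₀).map G₀.subtype with hQdef
  haveI hQn : Q.Normal := Core.normal_map_subtype_of_characteristic _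
  have hQp : IsPGroup 3 Q := (Core.isPGroup_pCore 3 G₀).map _
  have hmulQ : ∀ x ∈ D, ∀ z ∈ D, Nb D x = Nb D z → x * z ∈ Q := by
    intro x hx z hz e
    have h := (S5350.result hD₀ h2 (d := ⟨x, mem₀ x hx⟩) hx).1
    have hz' : (⟨z, mem₀ z hz⟩ : G₀) ∈ {w : G₀ | w ∈ D₀ ∧
        {v : G₀ | v ∈ D₀ ∧ v ≠ ⟨x, mem₀ x hx⟩ ∧ Commute ⟨x, mem₀ x hx⟩ v} =
        {v : G₀ | v ∈ D₀ ∧ v ≠ w ∧ Commute w v}} := ⟨hz, Set.ext fun v => by
      show (v ∈ D₀ ∧ _) ↔ (v ∈ D₀ ∧ _)
      rw [tr, tr]
      exact Set.ext_iff.1 e v⟩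
    rw [h] at hz'
    refine ⟨_, hz'.2, ?_⟩
    show x⁻¹ * z = x * z
    rw [inv_eq hD hx]
  have hW : ∀ q ∈ Q, q * d * q⁻¹ ∈ Nb D a := by
    rintro _ ⟨q, hq, rfl⟩
    have h := (S5350.result hD₀ h2 (d := ⟨d, mem₀ d hd⟩) hd).2
    have hm : q * ⟨d, mem₀ d hd⟩ * q⁻¹ ∈ {w : G₀ | ∃ g ∈ pCore 3 G₀, w = g * ⟨d, mem₀ d hd⟩ * g⁻¹} :=
      ⟨q, hq, rfl⟩
    rw [← h] at hm
    have h' := (Set.ext_iff.1 hm.2 ⟨a, mem₀ a ha⟩)
    simp only [Set.mem_setOf_eq, tr] at h'
    exact sym _ (hconj q d hd) a (h'.1 had)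
  have hthree : ∀ q ∈ Q, q ^ 4 = 1 → q = 1 := by
    intro q hq h4
    obtain ⟨k, hk⟩ := hQp ⟨q, hq⟩
    have hk' : q ^ (3 ^ k) = 1 := congrArg Subtype.val hk
    rw [← orderOf_eq_one_iff]
    exact Nat.dvd_one.1 ((Nat.Coprime.pow_left k (by norm_num : Nat.Coprime 3 4)) ▸
      Nat.dvd_gcd (orderOf_dvd_of_pow_eq_one hk') (orderOf_dvd_of_pow_eq_one h4))
  set C := Subgroup.centralizer ({d} : Set G) with hC
  have habQ : a * b ∈ Q := hmulQ a ha b hbd.1 (hA b hbd).symm
  have habC : a * b ∈ C := Subgroup.mem_centralizer_singleton_iff.2 (had.2.2.mul_right hbd.2.2).eq.symm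
  have hord : orderOf (⟨a * b, habC⟩ : C) = 3 := by
    haveI := Fact.mk Nat.prime_three
    rw [← Subgroup.orderOf_coe]
    refine orderOf_eq_prime (cube_of_not_commute hD ha hbd.1 (hnc d hd a had b hbd hab)) fun e => hab ?_
    rw [← inv_eq hD hbd.1]
    exact eq_inv_of_mul_eq_one_left e
  have hcen : ∀ c ∈ Q, Commute c d → ∃ k : ℤ, c = (a * b) ^ k := by
    intro c hc hcd
    have hle : Q.subgroupOf C ≤ pCore 3 C :=
      Core.le_pCore inferInstance (hQp.comap_of_injective C.subtype C.subtype_injective)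
    have heq : Subgroup.zpowers (⟨a * b, habC⟩ : C) = Q.subgroupOf C := by
      refine Subgroup.eq_of_le_of_card_ge (Subgroup.zpowers_le.2 habQ) ?_
      rw [Nat.card_zpowers, hord, ← hcore d hd]
      exact Subgroup.card_le_of_le hle
    have : (⟨c, Subgroup.mem_centralizer_singleton_iff.2 hcd.eq⟩ : C) ∈ Q.subgroupOf C := hc
    rw [← heq] at this
    obtain ⟨k, hk⟩ := Subgroup.mem_zpowers_iff.1 this
    exact ⟨k, by simpa using (congrArg Subtype.val hk).symm⟩
  have dd := Screen.tt_mul_self hD hd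
  have aa := Screen.tt_mul_self hD ha
  have idd := inv_eq hD hd
  have iaa := inv_eq hD ha
  have key : ∀ q ∈ Q, a * q * a = (d * q * d)⁻¹ := by
    intro q hq
    have hx := hW q hq
    set x := q * d * q⁻¹ with hxdef
    set w := d * x with hwdef
    have hxx := Screen.tt_mul_self hD hx.1
    have hwd : d * w * d = w⁻¹ := by
      rw [hwdef, mul_inv_rev, idd, inv_eq hD hx.1, Screen.mul_mul_self_cancel dd]
    have hwa : Commute w a := (hdB.2.2.mul_right hx.2.2).symm
    have hwb : Commute w b := by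
      have e := hA b hbd
      exact ((e ▸ hdB : d ∈ Nb D b).2.2.mul_right (e ▸ hx : x ∈ Nb D b).2.2).symm
    have hwx : w * d * w⁻¹ = x := by
      rw [hwdef, mul_inv_rev, idd, inv_eq hD hx.1]
      rcases eq_or_ne x d with e | e
      · rw [e]; simp [dd]
      · have br := Screen.tt_braid hD hd hx.1 (hnc a ha d hdB x hx (Ne.symm e))
        calc d * x * d * (x * d) = d * (x * d * x) * d := by group
          _ = x := by rw [← br]; simp only [mul_assoc, Screen.mul_mul_self_cancel dd, dd, mul_one]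
    have hcd : Commute (w⁻¹ * q) d := by
      show _ = _
      rw [← mul_inv_eq_iff_eq_mul]
      calc w⁻¹ * q * d * (w⁻¹ * q)⁻¹ = w⁻¹ * x * w := by rw [hxdef]; group
        _ = d := by rw [← hwx]; group
    obtain ⟨k, hk⟩ := hcen _ (mul_mem (inv_mem (hmulQ d hd x hx.1 (hB x hx).symm)) hq) hcd
    have hq' : q = w * (a * b) ^ k := by rw [← hk, mul_inv_cancel_left]
    have hac : a * (a * b) ^ k * a = ((a * b) ^ k)⁻¹ := by
      have h := (conj_zpow (i := k) (a := a) (b := a * b)).symm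
      rw [iaa, Screen.mul_mul_self_cancel aa] at h
      rw [h, ← inv_zpow, mul_inv_rev, iaa, inv_eq hD hbd.1]
    have hdc : d * (a * b) ^ k * d = (a * b) ^ k := by
      rw [((had.2.2.mul_right hbd.2.2).zpow_right k).eq, mul_assoc, dd, mul_one]
    have hwc : Commute w ((a * b) ^ k) := (hwa.mul_right hwb).zpow_right k
    rw [hq']
    calc a * (w * (a * b) ^ k) * a = w * (a * (a * b) ^ k * a) := by
          simp only [← mul_assoc]; rw [hwa.eq]
      _ = ((d * w * d) * (d * (a * b) ^ k * d))⁻¹ := by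
          rw [hac, hwd, hdc, mul_inv_rev, inv_inv, hwc.inv_right.eq]
      _ = _ := by simp only [mul_assoc, Screen.mul_mul_self_cancel dd]
  obtain ⟨g, -, hg⟩ := htrans y hy
  set y' := g * d' * g⁻¹ with hy'def
  have hy' : y' ∈ D := hconj g d' hd'
  set t := y * y' with htdef
  have htQ : t ∈ Q := by
    have : t = g * (d * d') * g⁻¹ := by rw [htdef, hy'def, ← hg]; group
    rw [this]
    exact hQn.conj_mem _ (hmulQ d hd d' hd' (hB d' hd'B).symm) g
  have iy := inv_eq hD hy
  have yy := Screen.tt_mul_self hD hy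
  have hyt : y * t * y = t⁻¹ := by
    rw [htdef, mul_inv_rev, iy, inv_eq hD hy', Screen.mul_mul_self_cancel yy]
  have ht1 : t ≠ 1 := by
    intro e
    apply hdd
    have : y = y' := by rw [← inv_eq hD hy']; exact eq_inv_of_mul_eq_one_left e
    rw [← hg, hy'def] at this
    exact mul_left_cancel (mul_right_cancel this)
  have hinv : ∀ x ∈ Nb D d ∪ Nb D a,
      x * (y * (x * t * x) * y) * x = (y * (x * t * x) * y)⁻¹ := by
    intro x hx
    have hxD : x ∈ D := hx.elim (fun h => h.1) fun h => h.1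
    have br := Screen.tt_braid hD hxD hy (hny x hx)
    calc x * (y * (x * t * x) * y) * x = (x * y * x) * t * (x * y * x) := by group
      _ = y * x * (y * t * y) * x * y := by rw [br]; group
      _ = _ := by
          rw [hyt]
          simp only [mul_inv_rev, iy, inv_eq hD hxD, mul_assoc]
  set v := y * (d * t * d) * y with hvdef
  have hvQ : v ∈ Q := by
    have := hQn.conj_mem _ (hQn.conj_mem t htQ d) y
    rwa [idd, iy] at this
  have hvd : d * v * d = v⁻¹ := hinv d (Or.inr hdB)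
  have hva : a * v * a = v⁻¹ := by
    have h := hinv a (Or.inl had)
    rw [key t htQ] at h
    have e : y * (d * t * d)⁻¹ * y = v⁻¹ := by rw [hvdef]; simp only [mul_inv_rev, iy, mul_assoc]
    rw [e, inv_inv] at h
    rw [← inv_inj, inv_inv]
    simpa [mul_inv_rev, iaa, mul_assoc] using h
  have hvv : v * d * v⁻¹ = v * v * d := by
    rw [← hvd]; simp only [mul_assoc, Screen.mul_mul_self_cancel dd]
  have hca : Commute a (v * v) := by
    have h1 := (hW v hvQ).2.2.mul_right hdB.2.2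
    rwa [hvv, mul_assoc, dd, mul_one] at h1
  have h4 : v ^ 4 = 1 := by
    have h1 : a * (v * v) * a = v⁻¹ * v⁻¹ := by
      rw [← hva]; simp only [mul_assoc, Screen.mul_mul_self_cancel aa]
    rw [hca.eq, mul_assoc, aa, mul_one] at h1
    calc v ^ 4 = (v * v) * (v * v) := by rw [← sq, ← sq, ← pow_mul]
      _ = 1 := by nth_rewrite 1 [h1]; group
  have hv1 := hthree v hvQ h4
  apply ht1
  have h5 : d * t * d = y * v * y := by
    rw [hvdef]; simp only [mul_assoc, Screen.mul_mul_self_cancel yy, yy, mul_one]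
  rw [hv1, mul_one, yy] at h5
  calc t = d * (d * t * d) * d := by
        simp only [mul_assoc, Screen.mul_mul_self_cancel dd, dd, mul_one]
    _ = 1 := by rw [h5, mul_one, dd]

/-- `R` is the connected-component relation of the commuting graph. -/
def R (D : Set G) : G → G → Prop := Relation.ReflTransGen fun x y => x ∈ D ∧ y ∈ Nb D x

theorem R_symm {x y : G} (h : R D x y) : R D y x :=
  reach_symm (fun _ _ h => ⟨h.2.1, h.1, h.2.2.1.symm, h.2.2.2.symm⟩) h

theorem R_conj (hconj : ∀ g : G, ∀ d ∈ D, g * d * g⁻¹ ∈ D) (g : G) {x y : G} (h : R D x y) :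
    R D (g * x * g⁻¹) (g * y * g⁻¹) :=
  Relation.ReflTransGen.lift (fun z => g * z * g⁻¹)
    (fun _ _ e => ⟨hconj g _ e.1, nb_conj' hconj g e.2⟩) _ _ h

theorem no_four_cycle [Finite G] (hD : IsThreeTranspositionSet D)
    (hconj : ∀ g : G, ∀ d ∈ D, g * d * g⁻¹ ∈ D) (h3 : ∀ d ∈ D, (Nb D d).ncard = 3)
    (hnc : ∀ d ∈ D, ∀ a ∈ Nb D d, ∀ b ∈ Nb D d, a ≠ b → ¬ Commute a b)
    (hsym3 : ∀ d ∈ D, Nonempty (Subgroup.closure (Nb D d) ≃* Equiv.Perm (Fin 3))) (hne : D.Nonempty)
    (h4 : ∀ d ∈ D, ∀ d' ∈ D, ∀ a b : G, d ≠ d' → a ≠ b → a ∈ Nb D d → b ∈ Nb D d →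
      a ∈ Nb D d' → b ∈ Nb D d' → False) :
    Nonempty (Subgroup.closure D ≃* Equiv.Perm (Fin 5)) := by
  obtain ⟨d, hd⟩ := hne
  have sym : ∀ x ∈ D, ∀ y ∈ Nb D x, x ∈ Nb D y := fun x hx y hy => ⟨hx, hy.2.1.symm, hy.2.2.symm⟩
  obtain ⟨a, b, c, hab, -, -, habc⟩ := Set.ncard_eq_three.1 (h3 d hd)
  have had : a ∈ Nb D d := by simp [habc]
  have hbd : b ∈ Nb D d := by simp [habc]
  have eline := nb_eq_line hD hconj (h3 d hd) (hnc d hd) had hbd hab
  have ha := had.1
  have hb := hbd.1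
  obtain ⟨a₁, ha₁a, ha₁d⟩ : ∃ a₁ ∈ Nb D a, a₁ ≠ d := by
    obtain ⟨p, q, r, hpq, -, -, e⟩ := Set.ncard_eq_three.1 (h3 a ha)
    by_cases h : p = d
    · exact ⟨q, by simp [e], fun e' => hpq (h.trans e'.symm)⟩
    · exact ⟨p, by simp [e], h⟩
  have ha₁ := ha₁a.1
  have hdB := sym d hd a had
  have n₁₂ : ¬ Commute d a₁ := hnc a ha d hdB a₁ ha₁a ha₁d.symm
  have n₂₃ : ¬ Commute a₁ b := by
    intro hc
    have hne : b ≠ a₁ := fun e => hnc d hd a had b hbd hab (e ▸ ha₁a.2.2)
    exact h4 d hd a₁ ha₁ a b ha₁d.symm hab had hbd (sym a ha a₁ ha₁a) ⟨hb, hne, hc⟩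
  have n₃₄ : ¬ Commute b a := fun h => hnc d hd a had b hbd hab h.symm
  obtain ⟨e⟩ := chain_equiv hD hd ha₁ hb ha n₁₂ n₂₃ n₃₄ hbd.2.2 had.2.2 ha₁a.2.2.symm hbd.2.1.symm
  set K := Subgroup.closure ({d, a₁, b, a} : Set G) with hK
  have kd : d ∈ K := Subgroup.subset_closure (by simp)
  have ka₁ : a₁ ∈ K := Subgroup.subset_closure (by simp)
  have kb : b ∈ K := Subgroup.subset_closure (by simp)
  have ka : a ∈ K := Subgroup.subset_closure (by simp)
  set O : Set G := {x | ∃ k ∈ K, k * d * k⁻¹ = x} with hO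
  have hOK : ∀ x ∈ O, x ∈ K := by
    rintro x ⟨k, hk, rfl⟩; exact mul_mem (mul_mem hk kd) (inv_mem hk)
  have hOconj : ∀ k ∈ K, ∀ x ∈ O, k * x * k⁻¹ ∈ O := by
    rintro k hk x ⟨l, hl, rfl⟩; exact ⟨k * l, mul_mem hk hl, by group⟩
  have hOd : d ∈ O := ⟨1, one_mem _, by group⟩
  have hOa₁ : a₁ ∈ O := ⟨_, mul_mem kd ka₁, conj_of_not_commute hD hd ha₁ n₁₂⟩
  have hOb : b ∈ O := by
    have := hOconj _ (mul_mem ka₁ kb) _ hOa₁
    rwa [conj_of_not_commute hD ha₁ hb n₂₃] at this
  have hOa : a ∈ O := by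
    have := hOconj _ (mul_mem kb ka) _ hOb
    rwa [conj_of_not_commute hD hb ha n₃₄] at this
  have hOaba : a * b * a ∈ O := by simpa [inv_eq hD ha] using hOconj a ka b hOb
  have hOD : ∀ x ∈ O, x ∈ D := by rintro x ⟨k, -, rfl⟩; exact hconj k d hd
  have hnbd : ∀ x ∈ Nb D d, x ∈ O := by
    rw [eline.1]
    rintro x (rfl | rfl | rfl)
    exacts [hOa, hOb, hOaba]
  have hclO : ∀ x ∈ O, ∀ z ∈ Nb D x, z ∈ O := by
    rintro x ⟨k, hk, rfl⟩ z hz
    have := hOconj k hk _ (hnbd _ (mem_nb_conj hconj hz))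
    simpa [mul_assoc] using this
  have hRO : ∀ x z, R D x z → x ∈ O → z ∈ O := by
    intro x z h hx
    induction h with
    | refl => exact hx
    | tail _ h2 ih => exact hclO _ ih _ h2.2
  have step : ∀ x ∈ D, ∀ z ∈ Nb D x, R D x z := fun x hx z hz => Relation.ReflTransGen.single ⟨hx, hz⟩
  have hOR : ∀ x ∈ O, R D d x := by
    rintro x ⟨k, hk, rfl⟩
    induction hk using Subgroup.closure_induction with
    | mem s hs =>
      rcases hs with rfl | rfl | rfl | rfl
      · simp only [mul_inv_cancel_right]; exact Relation.ReflTransGen.refl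
      · refine (step d hd a had).trans (step a ha _ ?_)
        have := nb_conj' hconj s hdB
        rwa [← ha₁a.2.2.eq, mul_inv_cancel_right] at this
      · rw [← hbd.2.2.eq, mul_inv_cancel_right]; exact Relation.ReflTransGen.refl
      · rw [← had.2.2.eq, mul_inv_cancel_right]; exact Relation.ReflTransGen.refl
    | one => simp only [one_mul, inv_one, mul_one]; exact Relation.ReflTransGen.refl
    | mul p q _ _ hp hq =>
      have := R_conj hconj p hq
      have h2 : R D d (p * (q * d * q⁻¹) * p⁻¹) := hp.trans this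
      simpa [mul_assoc] using h2
    | inv p _ hp =>
      have := R_symm (R_conj hconj p⁻¹ hp)
      simpa [mul_assoc] using this
  have hcK : Nat.card K = 120 := by
    rw [Nat.card_congr e.toEquiv, Nat.card_perm, Nat.card_fin]; rfl
  have hO10 : O.ncard ≤ 10 := by
    set C := (Subgroup.centralizer ({d} : Set G)).subgroupOf K with hC
    obtain ⟨e₃⟩ := hsym3 d hd
    set H := Subgroup.closure (Nb D d)
    have hHK : H ≤ K := by
      rw [Subgroup.closure_le]; exact fun x hx => hOK x (hnbd x hx)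
    have hH : Nat.card (H.subgroupOf K) = 6 := by
      rw [Core.card_subgroupOf hHK, Nat.card_congr e₃.toEquiv, Nat.card_perm, Nat.card_fin]; rfl
    have hHd : H ≤ Subgroup.centralizer ({d} : Set G) := by
      rw [Subgroup.closure_le]
      exact fun y hy => Subgroup.mem_centralizer_singleton_iff.2 hy.2.2.eq.symm
    have hdH : d ∉ H := by
      intro h
      have h1 : (⟨d, h⟩ : H) = 1 := by
        apply e₃.injective
        rw [map_one]
        refine perm3_center _ fun τ => ?_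
        obtain ⟨k, rfl⟩ := e₃.surjective τ
        rw [← map_mul, ← map_mul]
        exact congrArg e₃ (Subtype.ext (Subgroup.mem_centralizer_singleton_iff.1 (hHd k.2)))
      have h1' : d = 1 := congrArg Subtype.val h1
      have := hD.1 d hd
      rw [h1', orderOf_one] at this
      omega
    have hle : H.subgroupOf K ≤ C := fun x hx => hHd hx
    have hlt : 6 < Nat.card C := by
      rw [← hH]
      refine lt_of_le_of_ne (Subgroup.card_le_of_le hle) fun h => hdH ?_
      have heq := Subgroup.eq_of_le_of_card_ge hle h.ge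
      have : (⟨d, kd⟩ : K) ∈ H.subgroupOf K := by
        rw [heq]; exact Subgroup.mem_centralizer_singleton_iff.2 rfl
      exact this
    have h12 : 12 ≤ Nat.card C := by
      have := hH ▸ Subgroup.card_dvd_of_le hle
      omega
    have hidx : Nat.card (K ⧸ C) ≤ 10 := by
      have := Subgroup.card_eq_card_quotient_mul_card_subgroup C
      rw [hcK] at this
      by_contra h
      have : 11 * 12 ≤ Nat.card (K ⧸ C) * Nat.card C := Nat.mul_le_mul (by omega) h12
      omega
    let f : K ⧸ C → G := fun q => (q.out : G) * d * (q.out : G)⁻¹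
    have hsub : O ⊆ Set.range f := by
      rintro x ⟨k, hk, rfl⟩
      refine ⟨((⟨k, hk⟩ : K) : K ⧸ C), ?_⟩
      obtain ⟨⟨c, hc⟩, hce⟩ := QuotientGroup.mk_out_eq_mul C (⟨k, hk⟩ : K)
      show (_ : G) * d * (_ : G)⁻¹ = _
      rw [hce, Subgroup.coe_mul, mul_inv_rev]
      have := Subgroup.mem_centralizer_singleton_iff.1 (show (c : G) ∈ Subgroup.centralizer {d} from hc)
      calc k * (c : G) * d * ((c : G)⁻¹ * k⁻¹) = k * ((c : G) * d) * (c : G)⁻¹ * k⁻¹ := by group
        _ = k * d * k⁻¹ := by rw [this]; group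
    refine (Set.ncard_le_ncard hsub (Set.toFinite _)).trans ?_
    rw [← Nat.card_coe_set_eq]
    exact le_trans (Finite.card_range_le f) hidx
  have hall : ∀ y ∈ D, y ∈ O := by
    intro y hy
    by_contra hyO
    have hny : ∀ x ∈ O, ∀ z ∈ D, z ∉ O → ¬ Commute x z := fun x hx z hz hzO hc =>
      hzO (hclO x hx z ⟨hz, fun e => hzO (e ▸ hx), hc⟩)
    have hbraid : ∀ x ∈ O, x * y * x = y * x * y := fun x hx =>
      Screen.tt_braid hD (hOD x hx) hy (hny x hx y hy hyO)
    have hkey : ∀ x ∈ O, ∀ z ∈ O, R D (x * y * x⁻¹) (z * y * z⁻¹) := by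
      intro x hx z hz
      have h := R_conj hconj y ((R_symm (hOR x hx)).trans (hOR z hz))
      rw [inv_eq hD hy, ← hbraid x hx, ← hbraid z hz] at h
      rwa [inv_eq hD (hOD x hx), inv_eq hD (hOD z hz)]
    set U : Set G := {z | R D y z ∨ R D (d * y * d⁻¹) z} with hU
    have hgen : ∀ s ∈ O, ∀ z ∈ U, s * z * s⁻¹ ∈ U := by
      intro s hs z hz
      rcases hz with hz | hz
      · exact Or.inr ((hkey d hOd s hs).trans (R_conj hconj s hz))
      · refine Or.inl (Relation.ReflTransGen.trans ?_ (R_conj hconj s hz))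
        have h := R_conj hconj s (hkey s hs d hOd)
        have e1 : s * (s * y * s⁻¹) * s⁻¹ = y := by
          simp only [inv_eq hD (hOD s hs), mul_assoc,
            Screen.mul_mul_self_cancel (Screen.tt_mul_self hD (hOD s hs)),
            Screen.tt_mul_self hD (hOD s hs), mul_one]
        rwa [e1] at h
    have hUinv : ∀ k ∈ K, ∀ z ∈ U, k * z * k⁻¹ ∈ U ∧ k⁻¹ * z * k ∈ U := by
      intro k hk
      induction hk using Subgroup.closure_induction with
      | mem s hs =>
        have hsO : s ∈ O := by rcases hs with rfl | rfl | rfl | rfl <;> assumption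
        intro z hz
        refine ⟨hgen s hsO z hz, ?_⟩
        have := hgen s hsO z hz
        rwa [inv_eq hD (hOD s hsO)] at this ⊢
      | one => intro z hz; simpa using hz
      | mul p q _ _ hp hq =>
        intro z hz
        exact ⟨by simpa [mul_assoc] using (hp _ (hq z hz).1).1,
          by simpa [mul_assoc] using (hq _ (hp z hz).2).2⟩
      | inv p _ hp => intro z hz; rw [inv_inv]; exact (hp z hz).symm
    have hcomp : ∀ g : G, {z | R D (g * d * g⁻¹) z}.ncard ≤ 10 := by
      intro g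
      refine le_trans (Set.ncard_le_ncard (t := (fun x => g * x * g⁻¹) '' O) ?_ (Set.toFinite _))
        ((Set.ncard_image_le (Set.toFinite _)).trans hO10)
      intro z hz
      refine ⟨g⁻¹ * z * g, hRO d _ ?_ hOd, by group⟩
      simpa [mul_assoc] using R_conj hconj g⁻¹ hz
    have hyd : (d * y) * d * (d * y)⁻¹ = y := conj_of_not_commute hD hd hy (hny d hOd y hy hyO)
    have hU20 : U.ncard ≤ 20 := by
      have h1 := hcomp (d * y)
      have h2 := hcomp (d * (d * y))
      rw [hyd] at h1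
      rw [show d * (d * y) * d * (d * (d * y))⁻¹ = d * ((d * y) * d * (d * y)⁻¹) * d⁻¹ by group,
        hyd] at h2
      exact (Set.ncard_union_le {z | R D y z} {z | R D (d * y * d⁻¹) z}).trans (by omega)
    set C := (Subgroup.centralizer ({y} : Set G)).subgroupOf K with hC
    let f : K ⧸ C → G := fun q => (q.out : G) * y * (q.out : G)⁻¹
    have hfinj : Function.Injective f := by
      intro p q h
      rw [← QuotientGroup.out_eq' p, ← QuotientGroup.out_eq' q, QuotientGroup.eq]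
      show ((p.out : G)⁻¹ * q.out) ∈ Subgroup.centralizer {y}
      rw [Subgroup.mem_centralizer_singleton_iff]
      simp only [f] at h
      calc (p.out : G)⁻¹ * q.out * y = (p.out : G)⁻¹ * ((q.out : G) * y * (q.out : G)⁻¹) * q.out := by
            group
        _ = y * ((p.out : G)⁻¹ * q.out) := by rw [← h]; group
    have hidx : Nat.card (K ⧸ C) ≤ 20 := by
      refine le_trans ?_ hU20
      rw [← Set.ncard_range_of_injective hfinj]
      refine Set.ncard_le_ncard ?_ (Set.toFinite _)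
      rintro _ ⟨q, rfl⟩
      exact (hUinv _ q.out.2 y (Or.inl Relation.ReflTransGen.refl)).1
    have hlag := Subgroup.card_eq_card_quotient_mul_card_subgroup C
    rw [hcK] at hlag
    have h6 : 6 ≤ Nat.card C := by
      by_contra h
      have : Nat.card (K ⧸ C) * Nat.card C ≤ 20 * 5 := Nat.mul_le_mul hidx (by omega)
      omega
    have hodd : ¬ 2 ∣ Nat.card C := by
      intro h2
      haveI := Fact.mk Nat.prime_two
      obtain ⟨u, hu⟩ := exists_prime_orderOf_dvd_card' (G := C) 2 h2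
      set k : K := (u : K) with hk
      have hk2 : orderOf k = 2 := by rw [hk, Subgroup.orderOf_coe]; exact hu
      have hky : (k : G) * y = y * k := Subgroup.mem_centralizer_singleton_iff.1 u.2
      let σ : K →* ℤˣ := Equiv.Perm.sign.comp e.toMonoidHom
      let kd' : K := ⟨d, kd⟩
      have hconjσ : ∀ x ∈ O, ∀ hx : x ∈ K, σ ⟨x, hx⟩ = σ kd' := by
        rintro x ⟨l, hl, rfl⟩ hx
        have : (⟨l * d * l⁻¹, hx⟩ : K) = ⟨l, hl⟩ * kd' * ⟨l, hl⟩⁻¹ := rfl
        rw [this, map_mul, map_mul, map_inv, mul_comm (σ ⟨l, hl⟩), mul_inv_cancel_right]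
      have hsd : σ kd' = -1 := by
        refine (Int.units_eq_one_or _).resolve_left fun h1 => ?_
        have hσ : σ.ker = ⊤ := by
          rw [eq_top_iff, ← Subgroup.closure_closure_coe_preimage (k := ({d, a₁, b, a} : Set G)),
            Subgroup.closure_le]
          intro x hx
          have hxO : (x : G) ∈ O := by
            rcases hx with h | h | h | h <;> rw [h] <;> assumption
          exact (hconjσ _ hxO x.2).trans h1
        obtain ⟨p, hp⟩ := e.surjective (Equiv.swap 0 1)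
        have : σ p = 1 := (MonoidHom.mem_ker).1 (hσ ▸ Subgroup.mem_top p)
        simp [σ, hp] at this
      let kb' : K := ⟨b, kb⟩
      have hsb : σ kb' = -1 := (hconjσ b hOb kb).trans hsd
      have inv_e : ∀ x : K, x * x = 1 → e x * e x = 1 := fun x h => by rw [← map_mul, h, map_one]
      have kk : k * k = 1 := Screen.mul_self_of_orderOf_two hk2
      have dd' : kd' * kd' = 1 := Subtype.ext (Screen.tt_mul_self hD hd)
      have db : (kd' * kb') * (kd' * kb') = 1 := Subtype.ext (by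
        show d * b * (d * b) = 1
        rw [← sq, hbd.2.2.mul_pow, sq, sq, Screen.tt_mul_self hD hd, Screen.tt_mul_self hD hb, one_mul])
      have hk1 : k ≠ 1 := fun h => by rw [h, orderOf_one] at hk2; omega
      have hcase : ∃ l : K, l * kd' * l⁻¹ = k ∨ l * (kd' * kb') * l⁻¹ = k := by
        rcases Int.units_eq_one_or (σ k) with h | h
        · have hdb1 : kd' * kb' ≠ 1 := fun h => hbd.2.1 (by
            have h' : d * b = 1 := congrArg Subtype.val h
            rw [← inv_eq hD hd]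
            exact eq_inv_of_mul_eq_one_right h')
          have hs2 : σ (kd' * kb') = 1 := by rw [map_mul, hsd, hsb]; rfl
          obtain ⟨l, hl⟩ := isConj_iff.1 (perm5_invol_conj (e (kd' * kb')) (e k)
            (fun h => hdb1 (e.injective (h.trans e.map_one.symm))) (inv_e _ db) hs2
            (fun h => hk1 (e.injective (h.trans e.map_one.symm))) (inv_e _ kk) h)
          obtain ⟨l, rfl⟩ := e.surjective l
          exact ⟨l, Or.inr (e.injective (by rw [← hl]; simp))⟩
        · obtain ⟨p, hp⟩ := perm5_odd_invol _ (inv_e _ kk) h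
          obtain ⟨q, hq⟩ := perm5_odd_invol _ (inv_e _ dd') hsd
          obtain ⟨l, hl⟩ := e.surjective (p * q⁻¹)
          refine ⟨l, Or.inl (e.injective ?_)⟩
          rw [map_mul, map_mul, map_inv, hl, ← hq, ← hp]
          group
      obtain ⟨l, hl⟩ := hcase
      have hy' : (l : G)⁻¹ * y * l ∈ D := by simpa using hconj (l : G)⁻¹ y hy
      have hy'O : (l : G)⁻¹ * y * l ∉ O := fun h => hyO (by
        simpa [mul_assoc] using hOconj l l.2 _ h)
      have hc : ∀ X : K, l * X * l⁻¹ = k → Commute (X : G) ((l : G)⁻¹ * y * l) := by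
        intro X hX
        have h := (show Commute (k : G) y from hky).map (MulAut.conj (l : G)⁻¹).toMonoidHom
        simp only [MulEquiv.coe_toMonoidHom, MulAut.conj_apply, inv_inv] at h
        rw [← hX] at h
        simpa [mul_assoc] using h
      rcases hl with hl | hl
      · exact hny d hOd _ hy' hy'O (hc kd' hl)
      · have hc' : Commute (d * b) ((l : G)⁻¹ * y * l) := hc _ hl
        obtain ⟨φ, hφ, e1, e2, e3⟩ := S5344.result hD hd hy' hb hbd.2.1.symm hbd.2.2
          (hny d hOd _ hy' hy'O) fun h => hny b hOb _ hy' hy'O h.symm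
        refine perm4_path (hφ ?_)
        simp only [map_mul, e1, e2, e3]
        exact hc'.eq.symm
    have h120 : Nat.card C ∈ Nat.divisors 120 :=
      Nat.mem_divisors.2 ⟨Dvd.intro_left _ hlag.symm, by norm_num⟩
    have h15 : Nat.card C = 15 := by
      generalize Nat.card C = n at h120 h6 hodd
      have : ∀ m ∈ Nat.divisors 120, 6 ≤ m → ¬ 2 ∣ m → m = 15 := by decide +kernel
      exact this n h120 h6 hodd
    refine card_ne_fifteen (C.map e.toMonoidHom) ?_
    rw [Subgroup.card_map_of_injective (f := e.toMonoidHom) e.injective, h15]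
  have hKD : K = Subgroup.closure D := by
    refine le_antisymm (Subgroup.closure_mono ?_) ?_
    · rintro x (rfl | rfl | rfl | rfl) <;> assumption
    · rw [Subgroup.closure_le]; exact fun y hy => hOK y (hall y hy)
  exact ⟨(MulEquiv.subgroupCongr hKD.symm).trans e⟩

/-- Let D be a non-empty conjugation-invariant set of involutions of a finite group G satisfying the 3-transposition order conditions, and suppose that for every d in D the members of D other than d commuting with d generate a subgroup isomorphic to the symmetric group of degree 3, and the largest normal 3-subgroup of the centralizer of d has order 3. Then the subgroup generated by D is isomorphic to the symmetric group of degree 5 or to the direct product of two symmetric groups of degree 3. -/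
theorem result {G : Type*} [Group G] [Finite G] {D : Set G} (hD : Cfsg.IsThreeTranspositionSet D) (hconj : ∀ g : G, ∀ d ∈ D, g * d * g⁻¹ ∈ D) (hne : D.Nonempty) (hloc : ∀ d ∈ D, Nonempty (↥(Subgroup.closure {y : G | y ∈ D ∧ y ≠ d ∧ Commute d y}) ≃* Equiv.Perm (Fin 3)) ∧ Nat.card (Cfsg.pCore 3 ↥(Subgroup.centralizer ({d} : Set G))) = 3) : Nonempty (↥(Subgroup.closure D) ≃* Equiv.Perm (Fin 5)) ∨ Nonempty (↥(Subgroup.closure D) ≃* Equiv.Perm (Fin 3) × Equiv.Perm (Fin 3)) := by
  have hsym3 : ∀ d ∈ D, Nonempty (Subgroup.closure (Nb D d) ≃* Equiv.Perm (Fin 3)) :=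
    fun d hd => (hloc d hd).1
  have h3 : ∀ d ∈ D, (Nb D d).ncard = 3 := fun d hd =>
    (nb_line hD hconj (hsym3 d hd).some).1
  have hnc : ∀ d ∈ D, ∀ a ∈ Nb D d, ∀ b ∈ Nb D d, a ≠ b → ¬ Commute a b := fun d hd =>
    (nb_line hD hconj (hsym3 d hd).some).2
  by_cases h4 : ∀ d ∈ D, ∀ d' ∈ D, ∀ a b : G, d ≠ d' → a ≠ b → a ∈ Nb D d → b ∈ Nb D d →
      a ∈ Nb D d' → b ∈ Nb D d' → False
  · exact Or.inl (no_four_cycle hD hconj h3 hnc hsym3 hne h4)
  · push Not at h4
    obtain ⟨d, hd, d', hd', a, b, hdd, hab, had, hbd, had', hbd', -⟩ := h4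
    obtain ⟨hAB, hDeq⟩ := four_cycle hD hconj h3 hnc (fun x hx => (hloc x hx).2) hd hd' hdd hab had hbd
      had' hbd'
    obtain ⟨e⟩ := closure_union_equiv hAB (hsym3 d hd).some (hsym3 a had.1).some
    exact Or.inr ⟨(MulEquiv.subgroupCongr (congrArg Subgroup.closure hDeq)).trans e⟩

end Cfsg.Agent.S5365
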