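import Cfsg.Statements.S5366
import Cfsg.Agent.FGS3.FischerSpace
-- import your own Cfsg.Agent.* helpers here

set_option autoImplicit false
open Cfsg

namespace Cfsg.Agent.S5366

/-- Let L be a nondegenerate Fischer space on the point type X (every point on a line). Then for every point x the map t(x) — sending a point collinear with x to the third point of their common line and fixing every other point — is a permutation of X of order 2 and an automorphism of the line system; and the set of all t(x) satisfies the 3-transposition order conditions in the permutation group of X (any two have product of order at most 3). -/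
theorem result {X : Type*} (L : Set (Set X)) (hL : Cfsg.IsFischerSpace L) (hnd : Cfsg.LineSystem.IsNondegenerate L) : (∀ x : X, ∃ σ : Equiv.Perm X, ⇑σ = Cfsg.LineSystem.lineMap L x ∧ orderOf σ = 2 ∧ Cfsg.LineSystem.IsIso L L σ) ∧ Cfsg.IsThreeTranspositionSet {σ : Equiv.Perm X | ∃ x : X, ⇑σ = Cfsg.LineSystem.lineMap L x} := by
  obtain ⟨hpl, h3, hplane⟩ := id hL
  have hinv := fun x => FGS3.FS.lineMap_involutive hpl h3 x
  set t : X → Equiv.Perm X := fun x => (hinv x).toPerm _ with ht
  have hcoe : ∀ x, ⇑(t x) = LineSystem.lineMap L x := fun x => rfl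
  have hord : ∀ x, orderOf (t x) = 2 := by
    intro x
    refine orderOf_eq_prime (Equiv.ext fun y => ?_) fun h => ?_
    · rw [sq, Equiv.Perm.mul_apply]
      exact hinv x y
    · obtain ⟨l, hl, hxl⟩ := hnd x
      obtain ⟨y, hy, hne⟩ := Set.exists_ne_of_one_lt_ncard (show 1 < l.ncard by rw [h3 l hl]; norm_num) x
      obtain ⟨-, -, h2⟩ := FGS3.FS.lineMap_spec hpl h3 hl hxl hy hne.symm
      exact h2 (by rw [← hcoe, h]; rfl)
  have hiso : ∀ x, LineSystem.IsIso L L (t x) := by
    intro x l
    refine ⟨fun hl => FGS3.FS.lineMap_image_mem hL x hl, fun hl => ?_⟩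
    have := FGS3.FS.lineMap_image_mem hL x hl
    rwa [hcoe, ← Set.image_comp, (hinv x).comp_self, Set.image_id] at this
  -- the flips are transported by each other
  have hconj : ∀ x y, t x * t y * t x = t (LineSystem.lineMap L x y) := by
    intro x y
    refine Equiv.ext fun w => ?_
    simp only [Equiv.Perm.mul_apply, hcoe]
    obtain ⟨u, rfl⟩ := (hinv x).surjective w
    rw [hinv x u]
    set σ := LineSystem.lineMap L x
    by_cases hc : LineSystem.Collinear L y u
    · obtain ⟨hne, l, hl, hyl, hul⟩ := hc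
      obtain ⟨h1, h2, h4⟩ := FGS3.FS.lineMap_spec hpl h3 hl hyl hul hne
      symm
      exact FGS3.FS.lineMap_eq hpl h3 (FGS3.FS.lineMap_image_mem hL x hl) ⟨y, hyl, rfl⟩
        ⟨u, hul, rfl⟩ ⟨_, h1, rfl⟩ ((hinv x).injective.ne hne) ((hinv x).injective.ne h2)
        ((hinv x).injective.ne h4)
    · rw [FGS3.FS.lineMap_fix hc, FGS3.FS.lineMap_fix]
      rintro ⟨hne, l, hl, hyl, hul⟩
      refine hc ⟨fun e => hne (by rw [e]), σ '' l, FGS3.FS.lineMap_image_mem hL x hl, ?_, ?_⟩
      · exact ⟨_, hyl, hinv x y⟩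
      · exact ⟨_, hul, hinv x u⟩
  refine ⟨fun x => ⟨t x, rfl, hord x, hiso x⟩, ?_, ?_⟩
  · rintro σ ⟨x, hx⟩
    rw [show σ = t x from Equiv.ext fun y => congrFun hx y]
    exact hord x
  · rintro σ ⟨x, hx⟩ τ ⟨y, hy⟩
    rw [show σ = t x from Equiv.ext fun z => congrFun hx z,
      show τ = t y from Equiv.ext fun z => congrFun hy z]
    have sq1 : ∀ a, t a * t a = 1 := fun a => by rw [← sq, ← hord a, pow_orderOf_eq_one]
    by_cases hc : LineSystem.Collinear L x y
    · right
      obtain ⟨hne, l, hl, hxl, hyl⟩ := hc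
      obtain ⟨h1, h2, h4⟩ := FGS3.FS.lineMap_spec hpl h3 hl hxl hyl hne
      have e : LineSystem.lineMap L y x = LineSystem.lineMap L x y :=
        FGS3.FS.lineMap_eq hpl h3 hl hyl hxl h1 hne.symm h4 h2
      calc (t x * t y) ^ 3 = (t x * t y * t x) * (t y * t x * t y) := by
            rw [pow_three]; simp only [mul_assoc]
        _ = 1 := by rw [hconj, hconj, e, sq1]
    · left
      rw [sq, ← mul_assoc, hconj, FGS3.FS.lineMap_fix hc, sq1]

end Cfsg.Agent.S5366
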