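import Cfsg.Statements.S5367
import Cfsg.Agent.FGS3.FischerSpace
import Cfsg.Agent.S5344
-- import your own Cfsg.Agent.* helpers here

set_option autoImplicit false
open Cfsg

namespace Cfsg.Agent.S5367

open Cfsg.Agent.FGS3 in
/-- the transposition of a pair -/
def tr (s : DualAffinePoint) : Equiv.Perm (Fin 4) :=
  if (0 : Fin 4) ∈ s.val then
    if (1 : Fin 4) ∈ s.val then Equiv.swap 0 1 else if (2 : Fin 4) ∈ s.val then Equiv.swap 0 2 else Equiv.swap 0 3
  else if (1 : Fin 4) ∈ s.val then
    if (2 : Fin 4) ∈ s.val then Equiv.swap 1 2 else Equiv.swap 1 3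
  else Equiv.swap 2 3

def dualOp (p q : DualAffinePoint) : DualAffinePoint :=
  ⟨p.val.map (tr q).toEmbedding, by rw [Finset.card_map]; exact p.2⟩

theorem tr_injective : Function.Injective tr := by
  unfold Function.Injective; decide +kernel

theorem tr_conj : ∀ s : DualAffinePoint, ∃ σ : Equiv.Perm (Fin 4), tr s = σ * Equiv.swap 0 1 * σ⁻¹ := by
  decide +kernel

set_option synthInstance.maxHeartbeats 400000 in
set_option synthInstance.maxSize 1024 in
theorem dual_line : ∀ (i : Fin 4) (p : DualAffinePoint), i ∉ p.val → ∀ q : DualAffinePoint,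
    i ∉ q.val → p ≠ q → tr p * tr q ≠ tr q * tr p ∧
      ∀ s : DualAffinePoint, (i ∉ s.val ↔ (s = p ∨ s = q ∨ s = dualOp p q)) := by
  decide +kernel

theorem dual_pair : ∀ p q : DualAffinePoint, tr p * tr q ≠ tr q * tr p →
    ∃ i : Fin 4, i ∉ p.val ∧ i ∉ q.val := by
  decide +kernel

theorem dual_op : ∀ p q : DualAffinePoint, tr (dualOp p q) = tr q * tr p * (tr q)⁻¹ := by
  decide +kernel

theorem dual_two : ∀ i : Fin 4, ∃ p q : DualAffinePoint, i ∉ p.val ∧ i ∉ q.val ∧ p ≠ q := by
  decide +kernel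

theorem dual_span : ∀ s : DualAffinePoint,
    (3 : Fin 4) ∉ s.val ∨ (0 : Fin 4) ∉ s.val ∨ (2 : Fin 4) ∉ s.val := by
  decide +kernel

variable {G : Type*} [Group G] {D : Set G}

open Cfsg.Agent.FGS3 in
theorem dual_case [Finite G] (hD : IsThreeTranspositionGroup D) {x y z : D} (hxy : ¬ Commute (x : G) y)
    (hxz : ¬ Commute (x : G) z) (hyz : Commute (y : G) z) (hne : y ≠ z) :
    LineSystem.Isomorphic (LineSystem.restrict (threeTranspositionLines D)
      (LineSystem.span (threeTranspositionLines D) (FS.lineOf D x y ∪ FS.lineOf D x z)))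
      dualAffinePlaneTwo := by
  obtain ⟨φ, hinj, h0, h1, h2⟩ := S5344.result hD.1 y.2 x.2 z.2 (fun e => hne (Subtype.ext e)) hyz
    (fun h => hxy h.symm) hxz
  have hmem : ∀ s : DualAffinePoint, φ (tr s) ∈ D := by
    intro s
    obtain ⟨σ, hσ⟩ := tr_conj s
    rw [hσ, map_mul, map_mul, map_inv, h0]
    exact hD.2.1 _ _ y.2
  let g : DualAffinePoint → D := fun s => ⟨φ (tr s), hmem s⟩
  have hg : Function.Injective g := fun a b h => tr_injective (hinj (congrArg Subtype.val h))
  have hcomm : ∀ p q, Commute (g p : G) (g q) ↔ tr p * tr q = tr q * tr p := by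
    intro p q
    show φ (tr p) * φ (tr q) = φ (tr q) * φ (tr p) ↔ _
    rw [← map_mul, ← map_mul, hinj.eq_iff]
  let l₀ : Set DualAffinePoint := {s | (3 : Fin 4) ∉ s.val}
  let m₀ : Set DualAffinePoint := {s | (0 : Fin 4) ∉ s.val}
  have himg : ∀ (i : Fin 4) (p q : DualAffinePoint) (a b : D), i ∉ p.val → i ∉ q.val → p ≠ q →
      (g p : G) = a → (g q : G) = b → g '' {s | i ∉ s.val} = FS.lineOf D a b := by
    intro i p q a b hp hq hpq ea eb
    obtain ⟨hnc, hs⟩ := dual_line i p hp q hq hpq
    obtain rfl := Subtype.ext ea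
    obtain rfl := Subtype.ext eb
    rw [show {s : DualAffinePoint | i ∉ s.val} = {p, q, dualOp p q} from Set.ext fun s => hs s,
      Set.image_insert_eq, Set.image_pair]
    ext w
    simp only [FS.lineOf, Set.mem_insert_iff, Set.mem_singleton_iff, Set.mem_setOf_eq, Subtype.ext_iff]
    rw [show ((g (dualOp p q) : D) : G) = (g q : G) * g p * (g q : G)⁻¹ by
      show φ _ = φ _ * φ _ * (φ _)⁻¹
      rw [dual_op, map_mul, map_mul, map_inv]]
  have e12 : (g ⟨{1, 2}, by decide⟩ : G) = x :=
    (congrArg φ (show tr ⟨{1, 2}, by decide⟩ = Equiv.swap 1 2 by decide)).trans h1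
  have e01 : (g ⟨{0, 1}, by decide⟩ : G) = y :=
    (congrArg φ (show tr ⟨{0, 1}, by decide⟩ = Equiv.swap 0 1 by decide)).trans h0
  have e23 : (g ⟨{2, 3}, by decide⟩ : G) = z :=
    (congrArg φ (show tr ⟨{2, 3}, by decide⟩ = Equiv.swap 2 3 by decide)).trans h2
  have hl : g '' l₀ = FS.lineOf D x y :=
    himg 3 _ _ x y (by decide) (by decide) (by decide) e12 e01
  have hm : g '' m₀ = FS.lineOf D x z :=
    himg 0 _ _ x z (by decide) (by decide) (by decide) e12 e23
  rw [← hl, ← hm]
  refine FS.isomorphic_of_embedding hD _ g hg dualOp ?_ ?_ ?_ ?_ ?_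
  · rintro _ ⟨i, rfl⟩ p hp q hq hpq
    obtain ⟨hnc, hs⟩ := dual_line i p hp q hq hpq
    exact ⟨Set.ext fun s => hs s, fun h => hnc ((hcomm p q).1 h)⟩
  · intro p q h
    obtain ⟨i, hp, hq⟩ := dual_pair p q fun e => h ((hcomm p q).2 e)
    exact ⟨_, ⟨i, rfl⟩, hp, hq⟩
  · intro p q _
    show φ _ = φ _ * φ _ * (φ _)⁻¹
    rw [dual_op, map_mul, map_mul, map_inv]
  · rintro _ ⟨i, rfl⟩
    obtain ⟨p, q, hp, hq, hpq⟩ := dual_two i
    exact ⟨p, hp, q, hq, hpq⟩
  · intro T hT hsub
    refine Set.eq_univ_of_forall fun s => ?_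
    rcases dual_span s with h | h | h
    · exact hT (Or.inl h)
    · exact hT (Or.inr h)
    · refine hsub _ ⟨2, rfl⟩ ⟨{0, 1}, by decide⟩ ?_ ⟨{1, 3}, by decide⟩ ?_ (by decide) ?_ ?_ h
      · exact hT (Or.inl (show (3 : Fin 4) ∉ ({0, 1} : Finset (Fin 4)) by decide))
      · exact hT (Or.inr (show (0 : Fin 4) ∉ ({1, 3} : Finset (Fin 4)) by decide))
      · show (2 : Fin 4) ∉ ({0, 1} : Finset (Fin 4)); decide
      · show (2 : Fin 4) ∉ ({1, 3} : Finset (Fin 4)); decide

theorem double_neg_three : ∀ a b : ZMod 3, -a - b = b → a = b := by decide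

theorem line_coord : ∀ a b c : ZMod 3, a ≠ b → c = a ∨ c = b ∨ c = -a - b := by decide

open Cfsg.Agent.FGS3 in
theorem affine_case [Finite G] (hD : IsThreeTranspositionGroup D) {x y z : D}
    (hxy : ¬ Commute (x : G) y) (hxz : ¬ Commute (x : G) z) (hyz : ¬ Commute (y : G) z)
    (hyc : ¬ Commute (y : G) ((x : G) * z * x)) :
    LineSystem.Isomorphic (LineSystem.restrict (threeTranspositionLines D)
      (LineSystem.span (threeTranspositionLines D) (FS.lineOf D x y ∪ FS.lineOf D x z)))
      affinePlaneThree := by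
  obtain ⟨x, hx⟩ := x
  obtain ⟨y, hy⟩ := y
  obtain ⟨z, hz⟩ := z
  simp only at hxy hxz hyz hyc
  have xx := Screen.tt_mul_self hD.1 hx
  have yy := Screen.tt_mul_self hD.1 hy
  have zz := Screen.tt_mul_self hD.1 hz
  have hinv : ∀ u ∈ D, u⁻¹ = u := fun u hu => inv_eq_of_mul_eq_one_left (Screen.tt_mul_self hD.1 hu)
  have hcj : ∀ u ∈ D, ∀ w ∈ D, u * w * u ∈ D := by
    intro u hu w hw
    have := hD.2.1 u w hw
    rwa [hinv u hu] at this
  have bxy := Screen.tt_braid hD.1 hx hy hxy
  have bxz := Screen.tt_braid hD.1 hx hz hxz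
  have byz := Screen.tt_braid hD.1 hy hz hyz
  have hzc : ¬ Commute z (x * y * x) := by
    intro h
    have := h.symm.map (MulAut.conj x).toMonoidHom
    simp only [MulEquiv.coe_toMonoidHom, MulAut.conj_apply, hinv x hx, mul_assoc,
      Screen.mul_mul_self_cancel xx, xx, mul_one] at this
    exact hyc (by simpa [mul_assoc] using this)
  have byc := Screen.tt_braid hD.1 hy (hcj x hx z hz) hyc
  have bzc := Screen.tt_braid hD.1 hz (hcj x hx y hy) hzc
  have cx := Screen.mul_mul_self_cancel xx
  have cy := Screen.mul_mul_self_cancel yy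
  have cz := Screen.mul_mul_self_cancel zz
  set a11 := x * (y * z * y) * x with ha11
  set a12 := z * (x * y * x) * z with ha12
  set a21 := y * (x * z * x) * y with ha21
  -- the nine points
  let tbl : ZMod 3 → ZMod 3 → G :=
    fun i j => ![![x, z, x * z * x], ![y, a11, a12], ![x * y * x, a21, y * z * y]] i j
  have h12 : x * a21 * x = a12 := by
    calc x * (y * (x * z * x) * y) * x = (x * y * x) * z * (x * y * x) := by simp only [mul_assoc]
      _ = a12 := bzc.symm
  have h21 : x * a12 * x = a21 := by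
    rw [← h12]; simp only [mul_assoc, cx, xx, mul_one]
  have y11 : y * a11 * y = a12 := by
    calc y * (x * (y * z * y) * x) * y = (y * x * y) * z * (y * x * y) := by simp only [mul_assoc]
      _ = (x * y * x) * z * (x * y * x) := by rw [← bxy]
      _ = a12 := bzc.symm
  have y12 : y * a12 * y = a11 := by rw [← y11]; simp only [mul_assoc, cy, yy, mul_one]
  have z11 : z * a11 * z = a21 := by
    calc z * (x * (y * z * y) * x) * z = z * (x * (z * y * z) * x) * z := by rw [byz]
      _ = (z * x * z) * y * (z * x * z) := by simp only [mul_assoc]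
      _ = (x * z * x) * y * (x * z * x) := by rw [← bxz]
      _ = a21 := byc.symm
  have z21 : z * a21 * z = a11 := by rw [← z11]; simp only [mul_assoc, cz, zz, mul_one]
  have x11 : x * a11 * x = y * z * y := by
    simp only [ha11, mul_assoc, cx, xx, mul_one]
  have ex : ∀ i j : ZMod 3, tbl (-i) (-j) = x * tbl i j * x := by
    intro i j
    fin_cases i <;> fin_cases j
    · show x = x * x * x
      rw [xx, one_mul]
    · rfl
    · show z = x * (x * z * x) * x
      simp only [mul_assoc, cx, xx, mul_one]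
    · rfl
    · exact x11.symm
    · exact h21.symm
    · show y = x * (x * y * x) * x
      simp only [mul_assoc, cx, xx, mul_one]
    · exact h12.symm
    · rfl
  have ey : ∀ i j : ZMod 3, tbl (2 - i) (-j) = y * tbl i j * y := by
    intro i j
    fin_cases i <;> fin_cases j
    · exact bxy
    · rfl
    · rfl
    · show y = y * y * y
      rw [yy, one_mul]
    · exact y11.symm
    · exact y12.symm
    · show x = y * (x * y * x) * y
      rw [bxy]; simp only [mul_assoc, cy, yy, mul_one]
    · show x * z * x = y * a21 * y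
      simp only [ha21, mul_assoc, cy, yy, mul_one]
    · show z = y * (y * z * y) * y
      simp only [mul_assoc, cy, yy, mul_one]
  have ez : ∀ i j : ZMod 3, tbl (-i) (2 - j) = z * tbl i j * z := by
    intro i j
    fin_cases i <;> fin_cases j
    · exact bxz
    · show z = z * z * z
      rw [zz, one_mul]
    · show x = z * (x * z * x) * z
      rw [bxz]; simp only [mul_assoc, cz, zz, mul_one]
    · exact byz
    · exact z11.symm
    · show x * y * x = z * a12 * z
      simp only [ha12, mul_assoc, cz, zz, mul_one]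
    · rfl
    · exact z21.symm
    · show y = z * (y * z * y) * z
      rw [byz]; simp only [mul_assoc, cz, zz, mul_one]
  let g : (Fin 2 → ZMod 3) → G := fun p => tbl (p 0) (p 1)
  have hgD : ∀ i j : ZMod 3, tbl i j ∈ D := by
    intro i j
    fin_cases i <;> fin_cases j
    exacts [hx, hz, hcj x hx z hz, hy, hcj x hx _ (hcj y hy z hz), hcj z hz _ (hcj x hx y hy),
      hcj x hx y hy, hcj y hy _ (hcj x hx z hz), hcj y hy z hz]
  -- conjugation by a point is the affine flip
  let Good : (Fin 2 → ZMod 3) → Prop := fun p => ∀ r, g (-p - r) = g p * g r * g p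
  have g0 : Good ![0, 0] := fun r => by
    simp only [g, Pi.sub_apply, Pi.neg_apply, Matrix.cons_val_zero, Matrix.cons_val_one, neg_zero,
      zero_sub]
    exact ex _ _
  have g1 : Good ![1, 0] := fun r => by
    simp only [g, Pi.sub_apply, Pi.neg_apply, Matrix.cons_val_zero, Matrix.cons_val_one, neg_zero,
      zero_sub, show (-1 : ZMod 3) = 2 from rfl]
    exact ey _ _
  have g2 : Good ![0, 1] := fun r => by
    simp only [g, Pi.sub_apply, Pi.neg_apply, Matrix.cons_val_zero, Matrix.cons_val_one, neg_zero,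
      zero_sub, show (-1 : ZMod 3) = 2 from rfl]
    exact ez _ _
  have three : ∀ v : Fin 2 → ZMod 3, v + v + v = 0 := fun v => funext fun i => by
    show v i + v i + v i = 0
    generalize v i = c
    exact (show ∀ c : ZMod 3, c + c + c = 0 by decide) c
  have hstep : ∀ p q, Good p → Good q → Good (-p - q) := by
    intro p q hp hq r
    have e : -(-p - q) - r = -p - (-q - (-p - r)) := by
      have := three p
      linear_combination (norm := module) this
    rw [e, hp, hq, hp, hp q]
    simp only [mul_assoc]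
  have hall : ∀ p, Good p := by
    have e20 := hstep _ _ g0 g1
    have e02 := hstep _ _ g0 g2
    have e22 := hstep _ _ g1 g2
    have e11 := hstep _ _ g0 e22
    have e21 := hstep _ _ g1 e02
    have e12 := hstep _ _ g2 e20
    have key : ∀ i j : ZMod 3, Good ![i, j] := by
      intro i j
      fin_cases i <;> fin_cases j
      · exact g0
      · exact g2
      · convert e02 using 1; decide
      · exact g1
      · convert e11 using 1; decide
      · convert e12 using 1; decide
      · convert e20 using 1; decide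
      · convert e21 using 1; decide
      · convert e22 using 1; decide
    intro p
    rw [show p = ![p 0, p 1] from funext fun i => by fin_cases i <;> rfl]
    exact key _ _
  have hginj : Function.Injective g := by
    intro p q hpq
    by_contra hne
    have hper : ∀ r, g (r + (p - q)) = g r := by
      intro r
      have h := (hall p (-q - (r + (p - q)))).trans
        ((by rw [hpq] : g p * g (-q - (r + (p - q))) * g p =
          g q * g (-q - (r + (p - q))) * g q).trans (hall q (-q - (r + (p - q)))).symm)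
      rw [show -q - (-q - (r + (p - q))) = r + (p - q) by abel,
        show -p - (-q - (r + (p - q))) = r by abel] at h
      exact h.symm
    have nxy : x ≠ y := fun e => hxy (by rw [e])
    have nxz : x ≠ z := fun e => hxz (by rw [e])
    have nyz : y ≠ z := fun e => hyz (by rw [e])
    have nyc : y ≠ x * z * x := fun e => hyc (by rw [← e])
    have key : ∀ i j : ZMod 3, (∀ u v : ZMod 3, tbl (u + i) (v + j) = tbl u v) → i = 0 ∧ j = 0 := by
      intro i j h
      fin_cases i <;> fin_cases j
      · exact ⟨rfl, rfl⟩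
      · exact absurd (h 0 0) (Ne.symm nxz)
      · exact absurd (h 0 1) nxz
      · exact absurd (h 0 0) (Ne.symm nxy)
      · exact absurd (h 0 2) nyc
      · exact absurd (h 0 1) nyz
      · exact absurd (h 1 0) nxy
      · exact absurd (h 1 0) (Ne.symm nyz)
      · exact absurd (h 1 0) (Ne.symm nyc)
    apply hne
    rw [← sub_eq_zero]
    obtain ⟨h0, h1⟩ := key ((p - q) 0) ((p - q) 1) fun u v => by
      have := hper ![u, v]
      simp only [g, Pi.add_apply, Matrix.cons_val_zero, Matrix.cons_val_one] at this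
      exact this
    funext i
    fin_cases i
    · exact h0
    · exact h1
  have hnc : ∀ p q, p ≠ q → ¬ Commute (g p) (g q) := by
    intro p q hpq hc
    have h := hall p q
    rw [hc.eq, mul_assoc, Screen.tt_mul_self hD.1 (hgD _ _), mul_one] at h
    have e := hginj h
    exact hpq (funext fun i => double_neg_three _ _ (congrFun e i))
  let f : (Fin 2 → ZMod 3) → D := fun p => ⟨g p, hgD _ _⟩
  have hf : Function.Injective f := fun p q h => hginj (congrArg Subtype.val h)
  have hop : ∀ p q, g (-p - q) = g q * g p * (g q)⁻¹ := by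
    intro p q
    rw [hinv _ (hgD _ _), ← hall q p]
    congr 1
    abel
  have haff : ∀ v w : Fin 2 → ZMod 3, w ≠ 0 → ∀ a b : ZMod 3, a ≠ b →
      {u : Fin 2 → ZMod 3 | ∃ c : ZMod 3, u = v + c • w} =
        {v + a • w, v + b • w, -(v + a • w) - (v + b • w)} := by
    intro v w _ a b hab
    have e : -(v + a • w) - (v + b • w) = v + (-a - b) • w := by
      have := three v
      linear_combination (norm := module) -this
    rw [e]
    ext u
    constructor
    · rintro ⟨c, rfl⟩
      rcases line_coord a b c hab with h | h | h <;> rw [h] <;> simp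
    · rintro (h | h | h) <;> exact ⟨_, h⟩
  let l₀ : Set (Fin 2 → ZMod 3) := {u | ∃ c : ZMod 3, u = ![0, 0] + c • ![1, 0]}
  let m₀ : Set (Fin 2 → ZMod 3) := {u | ∃ c : ZMod 3, u = ![0, 0] + c • ![0, 1]}
  have himg : ∀ (w : Fin 2 → ZMod 3) (a : D), w ≠ 0 → g w = a →
      f '' {u | ∃ c : ZMod 3, u = ![0, 0] + c • w} = FS.lineOf D ⟨x, hx⟩ a := by
    intro w a hw ea
    rw [haff _ _ hw 0 1 (by decide)]
    simp only [zero_smul, one_smul, add_zero, show (![0, 0] : Fin 2 → ZMod 3) = 0 by simp, zero_add]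
    rw [Set.image_insert_eq, Set.image_pair]
    ext u
    simp only [FS.lineOf, Set.mem_insert_iff, Set.mem_singleton_iff, Set.mem_setOf_eq, Subtype.ext_iff, f]
    rw [hop, ea]
    rfl
  have hl : f '' l₀ = FS.lineOf D ⟨x, hx⟩ ⟨y, hy⟩ :=
    himg _ _ (fun h => absurd (congrFun h 0) (show (1 : ZMod 3) ≠ 0 by decide)) rfl
  have hm : f '' m₀ = FS.lineOf D ⟨x, hx⟩ ⟨z, hz⟩ :=
    himg _ _ (fun h => absurd (congrFun h 1) (show (1 : ZMod 3) ≠ 0 by decide)) rfl
  rw [← hl, ← hm]
  refine FS.isomorphic_of_embedding hD _ f hf (fun p q => -p - q) ?_ ?_ (fun p q _ => hop p q) ?_ ?_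
  · rintro _ ⟨v, w, hw, rfl⟩ _ ⟨a, rfl⟩ _ ⟨b, rfl⟩ hne
    exact ⟨haff v w hw a b (fun e => hne (by rw [e])), hnc _ _ hne⟩
  · intro p q h
    have hne : q - p ≠ 0 := by
      intro e
      rw [sub_eq_zero] at e
      exact h (e ▸ Commute.refl _)
    exact ⟨_, ⟨p, q - p, hne, rfl⟩, ⟨0, by simp⟩, ⟨1, by simp⟩⟩
  · rintro _ ⟨v, w, hw, rfl⟩
    exact ⟨v, ⟨0, by simp⟩, v + w, ⟨1, by simp⟩, fun e => hw (by simpa using e)⟩
  · intro T hT hsub
    have hcl : ∀ p ∈ T, ∀ q ∈ T, p ≠ q → -p - q ∈ T := by
      intro p hp q hq hne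
      refine hsub _ ⟨p, q - p, sub_ne_zero.2 (Ne.symm hne), rfl⟩ p hp q hq hne ⟨0, by simp⟩
        ⟨1, by simp⟩ ⟨2, ?_⟩
      have := three p
      have := three q
      linear_combination (norm := module) -‹q + q + q = 0›
    have b0 : ∀ c, ![c, 0] ∈ T := fun c => hT (Or.inl ⟨c, by ext i; fin_cases i <;> simp⟩)
    have b1 : ∀ c, ![0, c] ∈ T := fun c => hT (Or.inr ⟨c, by ext i; fin_cases i <;> simp⟩)
    refine Set.eq_univ_of_forall fun u => ?_
    rw [show u = ![u 0, u 1] from funext fun i => by fin_cases i <;> rfl]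
    generalize u 0 = i, u 1 = j
    fin_cases i <;> fin_cases j
    · exact b0 0
    · exact b1 1
    · exact b1 2
    · exact b0 1
    · convert hcl _ (b0 2) _ (b1 2) (by decide) using 1; decide
    · convert hcl _ (b1 1) _ (b0 2) (by decide) using 1; decide
    · exact b0 2
    · convert hcl _ (b0 1) _ (b1 2) (by decide) using 1; decide
    · convert hcl _ (b0 1) _ (b1 1) (by decide) using 1; decide


/-- Let D be a conjugation-invariant generating set of 3-transpositions of a finite group G. Then the line system on D whose lines are the triples {x, y, y x y⁻¹} for non-commuting members x, y of D is a Fischer space: two points lie on at most one line, lines have three points, and two different meeting lines generate a subspace isomorphic to the dual affine plane of order two or to the affine plane of order three. -/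
theorem result {G : Type*} [Group G] [Finite G] {D : Set G} (hD : Cfsg.IsThreeTranspositionGroup D) : Cfsg.IsFischerSpace (Cfsg.threeTranspositionLines D) := by
  refine ⟨?_, ?_, ?_⟩
  · intro l hl m hm a b hab hal hbl ham hbm
    rw [(FGS3.FS.line_eq_lineOf hD hl hal hbl hab).2, (FGS3.FS.line_eq_lineOf hD hm ham hbm hab).2]
  · intro l hl
    obtain ⟨x, y, hxy, rfl⟩ := hl
    have hc : (y : G) * x * (y : G)⁻¹ ∈ D := hD.2.1 _ _ x.2
    obtain ⟨hxc, -⟩ := FGS3.FS.lineOf_rotate hD.1 (c := ⟨_, hc⟩) hxy rfl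
    have hn1 : x ≠ y := fun e => hxy (by rw [e])
    have hn2 : x ≠ ⟨_, hc⟩ := fun e => hxc (by rw [← e])
    have hn3 : y ≠ ⟨_, hc⟩ := by
      intro e
      have e' := congrArg Subtype.val e
      simp only at e'
      exact hn1 (Subtype.ext (mul_left_cancel (a := (y : G))
        (eq_mul_inv_iff_mul_eq.1 e').symm))
    refine Set.ncard_eq_three.2 ⟨x, y, ⟨_, hc⟩, hn1, hn2, hn3, ?_⟩
    ext w
    simp [Subtype.ext_iff]
  · intro l hl m hm hlm ⟨x, hxl, hxm⟩
    obtain ⟨p, q, hpq, hle⟩ := id hl
    obtain ⟨r, s, hrs, hme⟩ := id hm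
    -- the other points of the two lines do not lie on both
    have key : ∀ a ∈ l, a ≠ x → ∀ b ∈ m, b ≠ x →
        ¬ Commute (x : G) a ∧ ¬ Commute (x : G) b ∧ l = FGS3.FS.lineOf D x a ∧
          m = FGS3.FS.lineOf D x b ∧ a ≠ b := by
      intro a ha hax b hb hbx
      obtain ⟨h1, h2⟩ := FGS3.FS.line_eq_lineOf hD hl hxl ha (Ne.symm hax)
      obtain ⟨h3, h4⟩ := FGS3.FS.line_eq_lineOf hD hm hxm hb (Ne.symm hbx)
      exact ⟨h1, h3, h2, h4, fun e => hlm (by rw [h2, h4, e])⟩
    obtain ⟨y, hy, hyx⟩ : ∃ y ∈ l, y ≠ x := by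
      by_cases h : p = x
      · exact ⟨q, by rw [hle]; exact Or.inr (Or.inl rfl), fun e => hpq (by rw [h, e])⟩
      · exact ⟨p, by rw [hle]; exact Or.inl rfl, h⟩
    obtain ⟨z, hz, hzx⟩ : ∃ z ∈ m, z ≠ x := by
      by_cases h : r = x
      · exact ⟨s, by rw [hme]; exact Or.inr (Or.inl rfl), fun e => hrs (by rw [h, e])⟩
      · exact ⟨r, by rw [hme]; exact Or.inl rfl, h⟩
    by_cases hcom : ∃ a ∈ l, a ≠ x ∧ ∃ b ∈ m, b ≠ x ∧ Commute (a : G) b
    · obtain ⟨a, ha, hax, b, hb, hbx, hab⟩ := hcom
      obtain ⟨h1, h2, h3, h4, h5⟩ := key a ha hax b hb hbx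
      left
      rw [h3, h4]
      exact dual_case hD h1 h2 hab h5
    · push Not at hcom
      obtain ⟨h1, h2, h3, h4, -⟩ := key y hy hyx z hz hzx
      right
      have hx2 := Screen.tt_mul_self hD.1 x.2
      have hc : (x : G) * z * x ∈ D := by
        simpa [inv_eq_of_mul_eq_one_left hx2] using hD.2.1 x z z.2
      have hcm : (⟨_, hc⟩ : D) ∈ m := by
        rw [h4]
        refine Or.inr (Or.inr ?_)
        show (x : G) * z * x = (z : G) * x * (z : G)⁻¹
        rw [inv_eq_of_mul_eq_one_left (Screen.tt_mul_self hD.1 z.2)]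
        exact Screen.tt_braid hD.1 x.2 z.2 h2
      have hcx : (⟨_, hc⟩ : D) ≠ x := by
        intro e
        have e' : (x : G) * z * x = x := congrArg Subtype.val e
        have : (x : G) * z = 1 := by
          have := congrArg (· * (x : G)) e'
          simpa [mul_assoc, hx2] using this
        refine hzx (Subtype.ext ?_)
        rw [← inv_eq_of_mul_eq_one_left hx2]
        exact eq_inv_of_mul_eq_one_right this
      rw [h3, h4]
      exact affine_case hD h1 h2 (hcom y hy hyx z hz hzx) (hcom y hy hyx _ hcm hcx)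

end Cfsg.Agent.S5367
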