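import Cfsg.Statements.S5373
import Cfsg.Agent.Core.M22Order
import Cfsg.Agent.Core.ReflThreeSix

set_option autoImplicit false
open Cfsg

namespace Cfsg.Agent.S5373

open Cfsg.Agent.Core Cfsg.Agent.FGS3

/-- Let G be a finite group with trivial centre generated by a conjugation-invariant set D of 3-transpositions on which it acts primitively, of type M(22), and suppose some finite primitive 3-transposition group of type M(24) exists. Then D has exactly 3510 members, G has order 2^17 · 3^9 · 5^2 · 7 · 11 · 13, the width of D (largest number of pairwise commuting members) is 22, and for every d in D the centralizer of d is generated by the members of D other than d commuting with d. -/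
theorem result {G : Type*} [Group G] [Finite G] {D : Set G} (hD : Cfsg.IsThreeTranspositionGroup D) (hprim : Cfsg.IsPrimitiveUnderConj D) (ht : Cfsg.IsOfTypeM22 G D) (hex : ∃ (X : Type) (_ : Group X) (_ : Finite X) (E : Set X), Cfsg.IsThreeTranspositionClass E ∧ Cfsg.IsPrimitiveUnderConj E ∧ Cfsg.IsOfTypeM24 X E) : D.ncard = 3510 ∧ Nat.card G = 2 ^ 17 * 3 ^ 9 * 5 ^ 2 * 7 * 11 * 13 ∧ Cfsg.commutingWidth D = 22 ∧ ∀ d ∈ D, Subgroup.closure {y : G | y ∈ D ∧ y ≠ d ∧ Commute d y} = Subgroup.centralizer ({d} : Set G) := by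
  obtain ⟨F, iF, iT, hF, c⟩ := M22.exists_ctx hD hprim ht
  obtain ⟨-, d, hd, x, hx, hdx, -, c₃, hc₃, hL⟩ := ht
  set L := Subgroup.closure ({y : G | y ∈ D ∧ y ≠ d ∧ Commute d y} ∩ {y : G | y ∈ D ∧ y ≠ x ∧ Commute x y})
    with hLdef
  have hle : L ≤ Subgroup.centralizer ({d} : Set G) ⊓ Subgroup.centralizer ({x} : Set G) := by
    rw [hLdef, Subgroup.closure_le]
    rintro y ⟨h1, h2⟩
    exact ⟨Subgroup.mem_centralizer_singleton_iff.2 h1.2.2.eq.symm,
      Subgroup.mem_centralizer_singleton_iff.2 h2.2.2.eq.symm⟩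
  have hdvd := ((ReflSix.dvd_card_of_isProjReflection hc₃ hL).trans
    (Subgroup.card_quotient_dvd_card _)).trans (Subgroup.card_dvd_of_le hle)
  obtain ⟨h1, h2⟩ := c.order hd ⟨hx, hdx⟩ hdvd
  refine ⟨h1, h2, c.width hd, fun e he => le_antisymm ?_ ?_⟩
  · exact fun z hz => Subgroup.mem_centralizer_singleton_iff.2 (M22.commute_of_mem_nbGroup hz).eq
  · exact fun z hz => c.centraliser_member he (Subgroup.mem_centralizer_singleton_iff.1 hz)

end Cfsg.Agent.S5373
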