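import Cfsg.Statements.S5376
import Cfsg.Agent.Core.M22Centre
import Cfsg.Agent.S5361
import Cfsg.Agent.S0283

set_option autoImplicit false
open Cfsg

namespace Cfsg.Agent.S5376

open Cfsg.Agent.FGS3
open Cfsg.Agent.Core

/-- Let G be a finite group with trivial centre generated by a conjugation-invariant set D of 3-transpositions on which it acts primitively, of type M(22), and suppose some finite primitive 3-transposition group of type M(23) exists. Then G is simple, and for every d in D the subgroup generated by the members of D other than d commuting with d contains d and is quasisimple with centre generated by d. -/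
theorem result {G : Type*} [Group G] [Finite G] {D : Set G} (hD : Cfsg.IsThreeTranspositionGroup D) (hprim : Cfsg.IsPrimitiveUnderConj D) (ht : Cfsg.IsOfTypeM22 G D) (hex : ∃ (X : Type) (_ : Group X) (_ : Finite X) (E : Set X), Cfsg.IsThreeTranspositionClass E ∧ Cfsg.IsPrimitiveUnderConj E ∧ Cfsg.IsOfTypeM23 X E) : IsSimpleGroup G ∧ ∀ d ∈ D, d ∈ Subgroup.closure {y : G | y ∈ D ∧ y ≠ d ∧ Commute d y} ∧ Cfsg.IsQuasisimple ↥(Subgroup.closure {y : G | y ∈ D ∧ y ≠ d ∧ Commute d y}) ∧ Subgroup.center ↥(Subgroup.closure {y : G | y ∈ D ∧ y ≠ d ∧ Commute d y}) = (Subgroup.zpowers d).subgroupOf (Subgroup.closure {y : G | y ∈ D ∧ y ≠ d ∧ Commute d y}) := by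
  classical
  obtain ⟨F, _, _, hF, c⟩ := M22.exists_ctx hD hprim ht
  have hcls := c.prim.cls
  have hsimpPSU : IsSimpleGroup (Cfsg.PSU 6 F 2) := S0283.result hF 6 (by norm_num) (by norm_num)
  have main : ∀ d ∈ D, d ∈ Subgroup.closure (TT.Nb D d) ∧ Cfsg.IsQuasisimple ↥(Subgroup.closure (TT.Nb D d)) ∧
      Subgroup.center ↥(Subgroup.closure (TT.Nb D d)) = (Subgroup.zpowers d).subgroupOf (Subgroup.closure (TT.Nb D d)) := by
    intro d hd
    obtain ⟨l, hl, -, hprod⟩ := c.mem_nbGroup hd
    have hdH : d ∈ Subgroup.closure (TT.Nb D d) := by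
      have h := list_prod_mem (S := Subgroup.closure (TT.Nb D d)) fun y hy => Subgroup.subset_closure (hl y hy)
      rwa [hprod] at h
    have hle : Subgroup.closure (TT.Nb D d) ≤ Subgroup.centralizer ({d} : Set G) :=
      (Subgroup.closure_le _).2 fun y hy => Subgroup.mem_centralizer_singleton_iff.2 hy.2.2.eq.symm
    refine ⟨hdH, ⟨c.perfect hd, ?_⟩, ?_⟩
    · obtain ⟨φ, hφ, hker⟩ := c.proj d hd
      let e := (QuotientGroup.quotientMulEquivOfEq hker.symm).trans
        (QuotientGroup.quotientKerEquivOfSurjective φ hφ)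
      have := e.toEquiv.nontrivial
      exact IsSimpleGroup.isSimpleGroup_of_surjective e.symm.toMonoidHom e.symm.surjective
    · ext z
      rw [Subgroup.mem_center_iff, Subgroup.mem_subgroupOf, Subgroup.mem_zpowers_iff]
      constructor
      · intro hz
        rcases c.centraliser_nb hd (Subgroup.mem_centralizer_singleton_iff.1 (hle z.2))
          (fun y hy => (congrArg Subtype.val (hz ⟨y, Subgroup.subset_closure hy⟩)).symm) with h | h
        · exact ⟨0, by rw [zpow_zero, h]⟩
        · exact ⟨1, by rw [zpow_one, h]⟩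
      · rintro ⟨k, hk⟩ g
        have hgd : Commute (g : G) d := Subgroup.mem_centralizer_singleton_iff.1 (hle g.2)
        exact Subtype.ext (by rw [Subgroup.coe_mul, Subgroup.coe_mul, ← hk]; exact (hgd.zpow_right k).eq)
  refine ⟨?_, main⟩
  have hprimD : Cfsg.IsPrimitiveUnderConj D := hprim
  haveI hs : IsSimpleGroup (commutator G) := (S5361.result hcls c.centre c.prim.width).1.2 hprimD
  have htop : commutator G = ⊤ := by
    rw [eq_top_iff, ← hcls.2.2, Subgroup.closure_le]
    intro y hy
    obtain ⟨x, hx⟩ := c.prim.nb_nonempty hy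
    obtain ⟨-, ⟨hperf, -⟩, -⟩ := main x hx.1
    rw [Group.isPerfect_def] at hperf
    have hyH : y ∈ Subgroup.closure (TT.Nb D x) := Subgroup.subset_closure ⟨hy, Ne.symm hx.2.1, hx.2.2.symm⟩
    have h1 : (⟨y, hyH⟩ : ↥(Subgroup.closure (TT.Nb D x))) ∈ commutator ↥(Subgroup.closure (TT.Nb D x)) :=
      hperf ▸ Subgroup.mem_top _
    have h2 := Subgroup.mem_map_of_mem (Subgroup.subtype _) h1
    rw [commutator_def, Subgroup.map_commutator] at h2
    rw [commutator_def]
    exact Subgroup.commutator_mono le_top le_top h2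
  rw [htop] at hs
  have := (Subgroup.topEquiv (G := G)).symm.toEquiv.nontrivial
  exact IsSimpleGroup.isSimpleGroup_of_surjective (Subgroup.topEquiv (G := G)).toMonoidHom
    (Subgroup.topEquiv (G := G)).surjective

end Cfsg.Agent.S5376
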