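import Cfsg.Statements.S5387
import Cfsg.Agent.FGS4.CentralExt.L34

set_option autoImplicit false
open Cfsg
open scoped commutatorElement

namespace Cfsg.Agent.S5387

/-- Up to isomorphism there is at most one quasisimple group whose centre is elementary abelian of order 4 and whose central quotient is isomorphic to the projective special linear group of dimension 3 over the field with four elements: any two such groups are isomorphic. -/
theorem result {L₁ L₂ : Type*} [Group L₁] [Finite L₁] [Group L₂] [Finite L₂] (F : Type) [Field F] [Fintype F] (hF : Fintype.card F = 4) (h₁ : Cfsg.IsQuasisimple L₁) (h₂ : Cfsg.IsQuasisimple L₂) (hc₁ : Nat.card (Subgroup.center L₁) = 4) (hc₂ : Nat.card (Subgroup.center L₂) = 4) (he₁ : ∀ x ∈ Subgroup.center L₁, x * x = 1) (he₂ : ∀ x ∈ Subgroup.center L₂, x * x = 1) (e₁ : L₁ ⧸ Subgroup.center L₁ ≃* Matrix.ProjectiveSpecialLinearGroup (Fin 3) F) (e₂ : L₂ ⧸ Subgroup.center L₂ ≃* Matrix.ProjectiveSpecialLinearGroup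 (Fin 3) F) : Nonempty (L₁ ≃* L₂) := by
  classical
  haveI := h₁.1
  haveI := h₂.1
  let π₁ : L₁ →* Matrix.ProjectiveSpecialLinearGroup (Fin 3) F :=
    e₁.toMonoidHom.comp (QuotientGroup.mk' (Subgroup.center L₁))
  let π₂ : L₂ →* Matrix.ProjectiveSpecialLinearGroup (Fin 3) F :=
    e₂.toMonoidHom.comp (QuotientGroup.mk' (Subgroup.center L₂))
  have hk₁ : ∀ x, π₁ x = 1 ↔ x ∈ Subgroup.center L₁ := fun x => by
    simp [π₁, QuotientGroup.eq_one_iff]
  have hk₂ : ∀ x, π₂ x = 1 ↔ x ∈ Subgroup.center L₂ := fun x => by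
    simp [π₂, QuotientGroup.eq_one_iff]
  have hs₁ : Function.Surjective π₁ := e₁.surjective.comp (QuotientGroup.mk'_surjective _)
  have hs₂ : Function.Surjective π₂ := e₂.surjective.comp (QuotientGroup.mk'_surjective _)
  let K : Subgroup (L₁ × L₂) :=
    (π₁.comp (MonoidHom.fst L₁ L₂)).eqLocus (π₂.comp (MonoidHom.snd L₁ L₂))
  let D : Subgroup (L₁ × L₂) := ⁅K, K⁆
  have hDK : D ≤ K := Subgroup.commutator_le.2 fun x hx y hy =>
    mul_mem (mul_mem (mul_mem hx hy) (inv_mem hx)) (inv_mem hy)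
  have hm₁ : D.map (MonoidHom.fst L₁ L₂) = ⊤ := by
    have hK : K.map (MonoidHom.fst L₁ L₂) = ⊤ := eq_top_iff.2 fun x _ => by
      obtain ⟨y, hy⟩ := hs₂ (π₁ x)
      exact ⟨(x, y), hy.symm, rfl⟩
    rw [Subgroup.map_commutator, hK, ← commutator_def, Group.IsPerfect.commutator_eq_top]
  have hm₂ : D.map (MonoidHom.snd L₁ L₂) = ⊤ := by
    have hK : K.map (MonoidHom.snd L₁ L₂) = ⊤ := eq_top_iff.2 fun y _ => by
      obtain ⟨x, hx⟩ := hs₁ (π₂ y)
      exact ⟨(x, y), hx, rfl⟩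
    rw [Subgroup.map_commutator, hK, ← commutator_def, Group.IsPerfect.commutator_eq_top]
  have hsplit : ∀ k ∈ K, ∃ z ∈ Subgroup.center (L₁ × L₂), ∃ d ∈ D, k = z * d := by
    intro k hk
    obtain ⟨d, hd, hd1⟩ : k.1 ∈ D.map (MonoidHom.fst L₁ L₂) := hm₁ ▸ Subgroup.mem_top _
    have e1 : d.1 = k.1 := hd1
    have hz : (k * d⁻¹).2 ∈ Subgroup.center L₂ := by
      rw [← hk₂]
      have h1 : π₁ k.1 = π₂ k.2 := hk
      have h2 : π₁ d.1 = π₂ d.2 := hDK hd
      show π₂ (k.2 * d.2⁻¹) = 1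
      rw [map_mul, map_inv, ← h1, ← h2, e1, mul_inv_cancel]
    refine ⟨k * d⁻¹, Subgroup.mem_center_iff.2 fun g => Prod.ext ?_ ?_, d, hd, by simp⟩
    · simp [e1]
    · exact Subgroup.mem_center_iff.1 hz g.2
  have hperf : D ≤ ⁅D, D⁆ := Subgroup.commutator_le.2 fun x hx y hy => by
    obtain ⟨z, hz, d, hd, rfl⟩ := hsplit x hx
    obtain ⟨z', hz', d', hd', rfl⟩ := hsplit y hy
    have c1 := Subgroup.mem_center_iff.1 hz
    have c2 := Subgroup.mem_center_iff.1 hz'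
    have e : ⁅z * d, z' * d'⁆ = ⁅d, d'⁆ := by
      simp only [commutatorElement_def, mul_inv_rev]
      calc z * d * (z' * d') * (d⁻¹ * z⁻¹) * (d'⁻¹ * z'⁻¹)
          = z * (d * z') * d' * d⁻¹ * (z⁻¹ * d'⁻¹) * z'⁻¹ := by group
        _ = z * (z' * d) * d' * d⁻¹ * (d'⁻¹ * z⁻¹) * z'⁻¹ := by
            rw [c2 d, Subgroup.mem_center_iff.1 (inv_mem hz) d'⁻¹]
        _ = (z * z') * (d * d' * d⁻¹ * d'⁻¹) * (z⁻¹ * z'⁻¹) := by group
        _ = (d * d' * d⁻¹ * d'⁻¹) * (z * z') * (z⁻¹ * z'⁻¹) := by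
            rw [Subgroup.mem_center_iff.1 (mul_mem hz hz') _]
        _ = d * d' * d⁻¹ * d'⁻¹ := by rw [c2 z]; group
    rw [e]
    exact Subgroup.commutator_mem_commutator hd hd'
  have hDperf : commutator D = ⊤ := by
    apply Subgroup.map_injective D.subtype_injective
    rw [commutator_def, Subgroup.map_commutator, ← MonoidHom.range_eq_map, Subgroup.range_subtype]
    exact le_antisymm (Subgroup.commutator_le_self D) hperf
  let π : D →* Matrix.ProjectiveSpecialLinearGroup (Fin 3) F :=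
    π₁.comp ((MonoidHom.fst L₁ L₂).comp D.subtype)
  have hsurj : Function.Surjective π := fun g => by
    obtain ⟨x, rfl⟩ := hs₁ g
    obtain ⟨d, hd, hd1⟩ : x ∈ D.map (MonoidHom.fst L₁ L₂) := hm₁ ▸ Subgroup.mem_top _
    exact ⟨⟨d, hd⟩, congrArg π₁ hd1⟩
  have hker : ∀ a : D, a ∈ π.ker → a.1.1 ∈ Subgroup.center L₁ ∧ a.1.2 ∈ Subgroup.center L₂ := by
    intro a ha
    have h1 : π₁ a.1.1 = 1 := ha
    exact ⟨(hk₁ _).1 h1, (hk₂ _).1 ((hDK a.2).symm.trans h1)⟩
  have hcard : Nat.card π.ker ≤ 4 := FGS4.CentralExt.L34.card_ker_le hF π hsurj hDperf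
    (fun a ha => Subgroup.mem_center_iff.2 fun g => Subtype.ext (Prod.ext
      (Subgroup.mem_center_iff.1 (hker a ha).1 g.1.1) (Subgroup.mem_center_iff.1 (hker a ha).2 g.1.2)))
    (fun a ha => Subtype.ext (Prod.ext (he₁ _ (hker a ha).1) (he₂ _ (hker a ha).2)))
  have hD : Nat.card D ≤ 4 * Nat.card (Matrix.ProjectiveSpecialLinearGroup (Fin 3) F) := by
    rw [← π.ker.card_mul_index, Subgroup.index_ker, MonoidHom.range_eq_top.2 hsurj, Subgroup.card_top]
    exact Nat.mul_le_mul_right _ hcard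
  have hn₁ : Nat.card L₁ = 4 * Nat.card (Matrix.ProjectiveSpecialLinearGroup (Fin 3) F) := by
    rw [← (Subgroup.center L₁).card_mul_index, hc₁, Subgroup.index_eq_card, Nat.card_congr e₁.toEquiv]
  have hn₂ : Nat.card L₂ = 4 * Nat.card (Matrix.ProjectiveSpecialLinearGroup (Fin 3) F) := by
    rw [← (Subgroup.center L₂).card_mul_index, hc₂, Subgroup.index_eq_card, Nat.card_congr e₂.toEquiv]
  let p₁ : D →* L₁ := (MonoidHom.fst L₁ L₂).comp D.subtype
  let p₂ : D →* L₂ := (MonoidHom.snd L₁ L₂).comp D.subtype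
  have q₁ : Function.Surjective p₁ := fun x => by
    obtain ⟨d, hd, e⟩ : x ∈ D.map (MonoidHom.fst L₁ L₂) := hm₁ ▸ Subgroup.mem_top _
    exact ⟨⟨d, hd⟩, e⟩
  have q₂ : Function.Surjective p₂ := fun x => by
    obtain ⟨d, hd, e⟩ : x ∈ D.map (MonoidHom.snd L₁ L₂) := hm₂ ▸ Subgroup.mem_top _
    exact ⟨⟨d, hd⟩, e⟩
  have b₁ : Function.Bijective p₁ := (Nat.bijective_iff_surjective_and_card p₁).2
    ⟨q₁, le_antisymm (hn₁ ▸ hD) (Nat.card_le_card_of_surjective p₁ q₁)⟩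
  have b₂ : Function.Bijective p₂ := (Nat.bijective_iff_surjective_and_card p₂).2
    ⟨q₂, le_antisymm (hn₂ ▸ hD) (Nat.card_le_card_of_surjective p₂ q₂)⟩
  exact ⟨(MulEquiv.ofBijective p₁ b₁).symm.trans (MulEquiv.ofBijective p₂ b₂)⟩

end Cfsg.Agent.S5387
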