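import Cfsg.Statements.S5393
import Cfsg.Agent.OddChar.GolayPerm

set_option autoImplicit false
open Cfsg

namespace Cfsg.Agent.S5393

/-- The length-24 code built from the squares modulo 23 contains the all-ones word, and the code modulo the all-ones word is an irreducible module over the field with two elements for the code's automorphism group: a subspace of the code that contains the all-ones word and is invariant under every coordinate permutation preserving the code is either the span of the all-ones word or the whole code. -/
theorem result : (fun _ : Cfsg.GolayPt => (1 : ZMod 2)) ∈ Cfsg.golayCode ∧ ∀ W : Submodule (ZMod 2) (Cfsg.GolayPt → ZMod 2), (fun _ => (1 : ZMod 2)) ∈ W → W ≤ Cfsg.golayCode → (∀ σ ∈ Cfsg.M24, ∀ w ∈ W, (fun p => w (σ.symm p)) ∈ W) → W = Submodule.span (ZMod 2) {fun _ => (1 : ZMod 2)} ∨ W = Cfsg.golayCode := by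
  have h1C : (fun _ : Cfsg.GolayPt => (1 : ZMod 2)) ∈ Cfsg.golayCode :=
    Submodule.subset_span (Or.inr rfl)
  refine ⟨h1C, fun W h1 hWC hW => ?_⟩
  rcases Cfsg.Agent.OddChar.perm_module_subspaces W hW with h | h | h | h | h
  · exfalso
    rw [h, Submodule.mem_bot] at h1
    exact one_ne_zero (congrFun h1 none)
  · exact Or.inl h
  · exact Or.inr h
  · exfalso
    have hm : Cfsg.Agent.OddChar.gind {none, some 0} ∈ W := by
      show Cfsg.Agent.OddChar.gind {none, some 0} ∈ (W : Set (Cfsg.GolayPt → ZMod 2))
      rw [h]
      show (∑ p, Cfsg.Agent.OddChar.gind {none, some 0} p) = 0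
      decide
    have := Cfsg.Agent.Golay.card_of_mem_supports (Cfsg.Agent.OddChar.gind_mem_code.1 (hWC hm))
    simp at this
  · exfalso
    have := Cfsg.Agent.Golay.card_of_mem_supports
      (Cfsg.Agent.OddChar.gind_mem_code.1 (hWC (h ▸ Submodule.mem_top :
        Cfsg.Agent.OddChar.gind {none} ∈ W)))
    simp at this

end Cfsg.Agent.S5393
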