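import Cfsg.Statements.S5394
import Cfsg.Agent.M24Orbits.Elements2

set_option autoImplicit false
open Cfsg

namespace Cfsg.Agent.S5394

open scoped Pointwise

/-- The automorphism group of the length-24 code built from the squares modulo 23 has exactly two conjugacy classes of involutions: an involution either fixes exactly the eight points of an octad or has no fixed points, both kinds occur, and any two involutions of the same kind are conjugate in the group. -/
theorem result : (∀ g ∈ Cfsg.M24, orderOf g = 2 → (Finset.univ.filter fun p => g p = p) ∈ Cfsg.octads ∨ ∀ p, g p ≠ p) ∧ (∃ g ∈ Cfsg.M24, orderOf g = 2 ∧ (Finset.univ.filter fun p => g p = p) ∈ Cfsg.octads) ∧ (∃ g ∈ Cfsg.M24, orderOf g = 2 ∧ ∀ p, g p ≠ p) ∧ ∀ g ∈ Cfsg.M24, ∀ h ∈ Cfsg.M24, orderOf g = 2 → orderOf h = 2 → ((∀ p, g p ≠ p) ↔ (∀ p, h p ≠ p)) → ∃ k ∈ Cfsg.M24, k * g * k⁻¹ = h := by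
  classical
  have r2 := Cfsg.Agent.M24Orbits.rep_fix (r := Cfsg.Agent.M24Orbits.r2a) (by simp)
  have r2' := Cfsg.Agent.M24Orbits.rep_fix (r := Cfsg.Agent.M24Orbits.r2b) (by simp)
  have hA : Cfsg.Agent.M24Orbits.fixPts Cfsg.Agent.M24Orbits.r2a ∈ Cfsg.octads :=
    Cfsg.Agent.Golay.mem_octads_iff.2 (by decide +kernel)
  have hB : Cfsg.Agent.M24Orbits.fixPts Cfsg.Agent.M24Orbits.r2b = ∅ := by decide +kernel
  have fr : ∀ r, Cfsg.Agent.Golay.permOK r = true →
      (Finset.univ.filter fun p => Cfsg.Agent.Golay.permOf r p = p) = Cfsg.Agent.M24Orbits.fixPts r :=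
    fun r h => Cfsg.Agent.M24Orbits.filter_fix h
  refine ⟨fun g hg ho => ?_, ?_, ?_, fun g hg h hh ho ho' hiff => ?_⟩
  · rcases Cfsg.Agent.M24Orbits.two_classes hg ho with ⟨-, k, hk, rfl⟩ | ⟨h0, -⟩
    · left
      have himg : (Finset.univ.filter fun p =>
          (k * Cfsg.Agent.Golay.permOf Cfsg.Agent.M24Orbits.r2a * k⁻¹) p = p)
          = k • Cfsg.Agent.M24Orbits.fixPts Cfsg.Agent.M24Orbits.r2a := by
        rw [← fr _ r2.1]
        ext p
        rw [Finset.mem_filter, Finset.mem_smul_finset]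
        constructor
        · rintro ⟨-, e⟩
          refine ⟨k⁻¹ p, Finset.mem_filter.2 ⟨Finset.mem_univ _, ?_⟩, k.apply_symm_apply p⟩
          rw [Equiv.Perm.mul_apply, Equiv.Perm.mul_apply] at e
          exact k.injective (e.trans (k.apply_symm_apply p).symm)
        · rintro ⟨q, hq, rfl⟩
          refine ⟨Finset.mem_univ _, ?_⟩
          rw [Finset.mem_filter] at hq
          rw [Equiv.Perm.smul_def, Equiv.Perm.mul_apply, Equiv.Perm.mul_apply]
          exact congrArg k ((congrArg _ (k.symm_apply_apply q)).trans hq.2)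
      rw [himg]
      exact Cfsg.Agent.Golay.smul_mem_octads hk hA
    · right
      intro p e
      rw [Finset.card_eq_zero, Finset.filter_eq_empty_iff] at h0
      exact h0 (Finset.mem_univ p) e
  · refine ⟨_, r2.2.1, ?_, by rw [fr _ r2.1]; exact hA⟩
    exact orderOf_eq_prime (by decide +kernel) (by decide +kernel)
  · refine ⟨_, r2'.2.1, orderOf_eq_prime (by decide +kernel) (by decide +kernel), fun p e => ?_⟩
    have hm : p ∈ Finset.univ.filter fun p => Cfsg.Agent.Golay.permOf Cfsg.Agent.M24Orbits.r2b p = p :=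
      Finset.mem_filter.2 ⟨Finset.mem_univ p, e⟩
    rw [fr _ r2'.1, hB] at hm
    exact Finset.notMem_empty p hm
  · have key : ∀ x ∈ Cfsg.M24, orderOf x = 2 → ((∀ p, x p ≠ p) ↔ (Finset.univ.filter fun p => x p = p).card = 0) :=
      fun x _ _ => by simp [Finset.filter_eq_empty_iff]
    by_cases hz : ∀ p, g p ≠ p
    · obtain ⟨a, ha, ea⟩ := (Cfsg.Agent.M24Orbits.two_conj hg ho).2 ((key g hg ho).1 hz)
      obtain ⟨b, hb, eb⟩ := (Cfsg.Agent.M24Orbits.two_conj hh ho').2 ((key h hh ho').1 (hiff.1 hz))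
      exact ⟨b * a⁻¹, mul_mem hb (inv_mem ha), by rw [ea, eb]; group⟩
    · have h8 : ∀ x ∈ Cfsg.M24, orderOf x = 2 → ¬ (∀ p, x p ≠ p) →
          (Finset.univ.filter fun p => x p = p).card = 8 := fun x hx ox hn =>
        (Cfsg.Agent.M24Orbits.two_classes hx ox).elim (fun e => e.1) fun e => absurd ((key x hx ox).2 e.1) hn
      obtain ⟨a, ha, ea⟩ := (Cfsg.Agent.M24Orbits.two_conj hg ho).1 (h8 g hg ho hz)
      obtain ⟨b, hb, eb⟩ := (Cfsg.Agent.M24Orbits.two_conj hh ho').1 (h8 h hh ho' (mt hiff.2 hz))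
      exact ⟨b * a⁻¹, mul_mem hb (inv_mem ha), by rw [ea, eb]; group⟩

end Cfsg.Agent.S5394
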