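import Cfsg.Statements.S5398
import Cfsg.Agent.Core.M22Orbits

set_option autoImplicit false
open Cfsg

namespace Cfsg.Agent.S5398

open Cfsg.Agent.KnownA
open Cfsg.Agent.FGS3
open Cfsg.Agent.Core

variable {F : Type*} [Field F] [Fintype F] {hF : Fintype.card F = 2 ^ 2}
variable {G : Type*} [Group G] [Finite G] {D : Set G}

omit [Finite G] in
theorem sq_prod (hset : IsThreeTranspositionSet D) {m : ℕ} {x : G} {l : List G} (h : S5463.Sys D m x l) :
    x * x = 1 := by
  obtain ⟨-, -, hD, hc, rfl⟩ := h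
  induction l with
  | nil => simp
  | cons a l ih =>
    have hac : Commute a l.prod := Commute.list_prod_right _ _ fun b hb =>
      hc a (List.mem_cons_self ..) b (List.mem_cons_of_mem _ hb)
    rw [List.prod_cons, ← pow_two, hac.mul_pow, pow_two, pow_two, Screen.tt_mul_self hset (hD a (List.mem_cons_self ..)),
      ih (fun b hb => hD b (List.mem_cons_of_mem _ hb))
        (fun b hb b' hb' => hc b (List.mem_cons_of_mem _ hb) b' (List.mem_cons_of_mem _ hb')), one_mul]

theorem ne_one (c : M22.Ctx hF D) {m : ℕ} {x : G} {l : List G} (hm1 : 1 ≤ m) (hm3 : m ≤ 3)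
    (h : S5463.Sys D m x l) : x ≠ 1 := by
  have hset := c.prim.cls.1
  obtain ⟨hn, hlen, hD, hc, rfl⟩ := h
  intro e
  rcases l with _ | ⟨a, _ | ⟨b, _ | ⟨e', _ | ⟨f, l⟩⟩⟩⟩
  · simp at hlen; omega
  · have := hset.1 a (hD a (by simp))
    rw [show a = 1 by simpa using e, orderOf_one] at this; omega
  · simp at hn e
    exact hn (by rw [mul_eq_one_iff_eq_inv.1 e, TT.inv_eq hset (hD b (by simp))])
  · simp only [List.nodup_cons, List.mem_cons, List.not_mem_nil, or_false, not_or] at hn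
    simp only [List.prod_cons, List.prod_nil, mul_one] at e
    refine M22.no_two c (hD a (by simp)) (hD e' (by simp)) (hD b (by simp)) (Ne.symm hn.2.1)
      (hc e' (by simp) b (by simp)) ?_
    rw [mul_eq_one_iff_eq_inv.1 e, _root_.mul_inv_rev, TT.inv_eq hset (hD b (by simp)),
      TT.inv_eq hset (hD e' (by simp))]
  · simp at hlen; omega

theorem lt_false (c : M22.Ctx hF D) {m m' : ℕ} {x : G} {l l' : List G} (h : S5463.Sys D m x l)
    (h' : S5463.Sys D m' x l') (hm : 1 ≤ m) (hlt : m < m') (hm3 : m' ≤ 3) : False := by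
  classical
  have hcls := c.prim.cls
  have hset := hcls.1
  obtain ⟨hn, hlen, hD, hc, hp⟩ := h
  obtain ⟨hn', hlen', hD', hc', hp'⟩ := h'
  rcases (show m = 1 ∧ m' = 2 ∨ m = 1 ∧ m' = 3 ∨ m = 2 ∧ m' = 3 by omega) with ⟨rfl, rfl⟩ | ⟨rfl, rfl⟩ | ⟨rfl, rfl⟩
  · obtain ⟨a, rfl⟩ := List.length_eq_one_iff.1 hlen
    obtain ⟨p, q, rfl⟩ := List.length_eq_two.1 hlen'
    simp at hp hp' hn'
    exact M22.no_two c (hD a (by simp)) (hD' p (by simp)) (hD' q (by simp)) hn' (hc' p (by simp) q (by simp))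
      (hp.trans hp'.symm)
  · obtain ⟨a, rfl⟩ := List.length_eq_one_iff.1 hlen
    obtain ⟨p, q, r, rfl⟩ := List.length_eq_three.1 hlen'
    simp only [List.nodup_cons, List.mem_cons, List.not_mem_nil, or_false, not_or] at hn'
    simp at hp hp'
    exact M22.no_three c (hD a (by simp)) (hD' p (by simp)) (hD' q (by simp)) (hD' r (by simp)) hn'.1.1 hn'.1.2
      hn'.2.1 (hc' p (by simp) q (by simp)) (hc' p (by simp) r (by simp)) (hc' q (by simp) r (by simp))
      (by rw [hp, ← hp', mul_assoc])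
  · obtain ⟨a, b, rfl⟩ := List.length_eq_two.1 hlen
    obtain ⟨p, q, r, rfl⟩ := List.length_eq_three.1 hlen'
    simp only [List.nodup_cons, List.mem_cons, List.not_mem_nil, or_false, not_or] at hn'
    simp only [List.prod_cons, List.prod_nil, mul_one] at hp hp'
    have hab : a ≠ b := by simpa using hn
    have cab := hc a (by simp) b (by simp)
    have ha := hD a (by simp)
    have hb := hD b (by simp)
    have hpD := hD' p (by simp)
    have hqD := hD' q (by simp)
    have hrD := hD' r (by simp)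
    have cpq := hc' p (by simp) q (by simp)
    have cpr := hc' p (by simp) r (by simp)
    have cqr := hc' q (by simp) r (by simp)
    have hx' : x = p * q * r := by rw [mul_assoc]; exact hp'.symm
    have hax : ∀ w : G, w ∈ D → Commute w a → Commute w b → Commute w p ∧ Commute w q ∧ Commute w r := fun w hw h1 h2 =>
      S5463.commute_factor hset (fun g y hy => TT.conj_mem hcls g hy) hw hpD hqD hrD cpq cpr cqr hn'.1.1 hn'.1.2
        hn'.2.1 (hx' ▸ hp ▸ h1.mul_right h2)
    obtain ⟨cap, caq, car⟩ := hax a ha (Commute.refl a) cab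
    obtain ⟨cbp, cbq, cbr⟩ := hax b hb cab.symm (Commute.refl b)
    have ha2 := Screen.tt_mul_self hset ha
    have hb' : b = a * (p * (q * r)) := by rw [hp', ← hp, ← mul_assoc, ha2, one_mul]
    have hp2 := Screen.tt_mul_self hset hpD
    have hq2 := Screen.tt_mul_self hset hqD
    have hr2 := Screen.tt_mul_self hset hrD
    by_cases e1 : a = p
    · refine M22.no_two c hb hqD hrD hn'.2.1 cqr ?_
      rw [hb', e1, ← mul_assoc, hp2, one_mul]
    by_cases e2 : a = q
    · refine M22.no_two c hb hpD hrD hn'.1.2 cpr ?_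
      rw [hb', e2, ← mul_assoc q p, cpq.symm.eq, mul_assoc p q, ← mul_assoc q q, hq2, one_mul]
    by_cases e3 : a = r
    · refine M22.no_two c hb hpD hqD hn'.1.1 cpq ?_
      rw [hb', e3, ← mul_assoc p q r, ((cpr.symm.mul_right cqr.symm).mul_right (Commute.refl r)).eq, mul_assoc,
        hr2, mul_one]
    have hbd : ∀ w ∈ [a, p, q, r], w ≠ b := by
      simp only [List.mem_cons, List.not_mem_nil, or_false, forall_eq_or_imp, forall_eq]
      refine ⟨hab, ?_, ?_, ?_⟩ <;> intro e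
      · refine M22.no_two c ha hqD hrD hn'.2.1 cqr (mul_right_cancel (b := b) ?_)
        rw [hp, ← hp', ← e, (cpq.mul_right cpr).eq]
      · refine M22.no_two c ha hpD hrD hn'.1.2 cpr (mul_right_cancel (b := b) ?_)
        rw [hp, ← hp', ← e, mul_assoc, cqr.symm.eq]
      · refine M22.no_two c ha hpD hqD hn'.1.1 cpq (mul_right_cancel (b := b) ?_)
        rw [hp, ← hp', ← e, mul_assoc]
    refine M22.no_five c (R := [a, p, q, r]) hb rfl ?_ ?_ ?_ (by simp [hb'])
    · simp only [List.nodup_cons, List.mem_cons, List.not_mem_nil, or_false, not_or, List.nodup_nil,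
        not_false_iff, and_true]
      exact ⟨⟨e1, e2, e3⟩, hn'.1, hn'.2.1⟩
    · intro w hw
      refine ⟨?_, hbd w hw, ?_⟩ <;> simp only [List.mem_cons, List.not_mem_nil, or_false] at hw <;>
        rcases hw with rfl | rfl | rfl | rfl <;>
        first | assumption | exact cab.symm
    · simp only [List.mem_cons, List.not_mem_nil, or_false, forall_eq_or_imp, forall_eq]
      exact ⟨⟨Commute.refl a, cap, caq, car⟩, ⟨cap.symm, Commute.refl p, cpq, cpr⟩,
        ⟨caq.symm, cpq.symm, Commute.refl q, cqr⟩, car.symm, cpr.symm, cqr.symm, Commute.refl r⟩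

theorem exists_sys (c : M22.Ctx hF D) {m : ℕ} (h1 : 1 ≤ m) (h3 : m ≤ 3) :
    ∃ l : List G, S5463.Sys D m l.prod l := by
  obtain ⟨a, b, e, ha, hb, he, hab, hae, hbe, cab, cae, cbe⟩ := M22.trio_exists c
  rcases (show m = 1 ∨ m = 2 ∨ m = 3 by omega) with rfl | rfl | rfl
  · exact ⟨[a], List.nodup_singleton _, rfl, by simpa using ha, by simp, rfl⟩
  · refine ⟨[a, b], by simpa using hab, rfl, ?_, ?_, rfl⟩
    · simp only [List.mem_cons, List.not_mem_nil, or_false, forall_eq_or_imp, forall_eq]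
      exact ⟨ha, hb⟩
    · simp only [List.mem_cons, List.not_mem_nil, or_false, forall_eq_or_imp, forall_eq]
      exact ⟨⟨Commute.refl a, cab⟩, cab.symm, Commute.refl b⟩
  · refine ⟨[a, b, e], ?_, rfl, ?_, ?_, rfl⟩
    · simp only [List.nodup_cons, List.mem_cons, List.not_mem_nil, or_false, not_or, List.nodup_nil,
        not_false_iff, and_true]
      exact ⟨⟨hab, hae⟩, hbe⟩
    · simp only [List.mem_cons, List.not_mem_nil, or_false, forall_eq_or_imp, forall_eq]
      exact ⟨ha, hb, he⟩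
    · simp only [List.mem_cons, List.not_mem_nil, or_false, forall_eq_or_imp, forall_eq]
      exact ⟨⟨Commute.refl a, cab, cae⟩, ⟨cab.symm, Commute.refl b, cbe⟩, cae.symm, cbe.symm, Commute.refl e⟩

theorem conj_sys (c : M22.Ctx hF D) {m : ℕ} (h1 : 1 ≤ m) (h3 : m ≤ 3) {x y : G} {l l' : List G}
    (h : S5463.Sys D m x l) (h' : S5463.Sys D m y l') : IsConj x y := by
  obtain ⟨hn, hlen, hD, hc, rfl⟩ := h
  obtain ⟨hn', hlen', hD', hc', rfl⟩ := h'
  rcases (show m = 1 ∨ m = 2 ∨ m = 3 by omega) with rfl | rfl | rfl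
  · obtain ⟨a, rfl⟩ := List.length_eq_one_iff.1 hlen
    obtain ⟨a', rfl⟩ := List.length_eq_one_iff.1 hlen'
    obtain ⟨g, hg⟩ := TT.exists_conj c.prim.cls (hD a (by simp)) (hD' a' (by simp))
    exact isConj_iff.2 ⟨g, by simpa using hg⟩
  · obtain ⟨a, b, rfl⟩ := List.length_eq_two.1 hlen
    obtain ⟨a', b', rfl⟩ := List.length_eq_two.1 hlen'
    obtain ⟨g, ga, gb⟩ := M22.duo_move c (hD a (by simp)) (hD b (by simp)) (hD' a' (by simp)) (hD' b' (by simp))
      (by simpa using hn) (by simpa using hn') (hc a (by simp) b (by simp)) (hc' a' (by simp) b' (by simp))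
    refine isConj_iff.2 ⟨g, ?_⟩
    simp only [List.prod_cons, List.prod_nil, mul_one]
    rw [← ga, ← gb]; group
  · obtain ⟨a, b, e, rfl⟩ := List.length_eq_three.1 hlen
    obtain ⟨a', b', e', rfl⟩ := List.length_eq_three.1 hlen'
    simp only [List.nodup_cons, List.mem_cons, List.not_mem_nil, or_false, not_or] at hn hn'
    obtain ⟨g, ga, gb, ge⟩ := M22.trio_move c (hD a (by simp)) (hD b (by simp)) (hD e (by simp))
      (hD' a' (by simp)) (hD' b' (by simp)) (hD' e' (by simp)) hn.1.1 hn.1.2 hn.2.1 hn'.1.1 hn'.1.2 hn'.2.1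
      (hc a (by simp) b (by simp)) (hc a (by simp) e (by simp)) (hc b (by simp) e (by simp))
      (hc' a' (by simp) b' (by simp)) (hc' a' (by simp) e' (by simp)) (hc' b' (by simp) e' (by simp))
    refine isConj_iff.2 ⟨g, ?_⟩
    simp only [List.prod_cons, List.prod_nil, mul_one]
    rw [← ga, ← gb, ← ge]; group


/-- Let G be a finite group with trivial centre generated by a conjugation-invariant set D of 3-transpositions on which it acts primitively, such that for some d in D the subgroup generated by the members of D other than d commuting with d has central largest normal 2- and 3-subgroups, and suppose G with D is of type M(22). Then G has exactly 3 conjugacy classes of involutions: every involution is a product of m distinct pairwise commuting members of D for some m between 1 and 3; for each such m these products form one non-empty conjugacy class; and the value of m is determined by the involution. -/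
theorem result {G : Type*} [Group G] [Finite G] {D : Set G} (hD : Cfsg.IsThreeTranspositionGroup D) (hprim : Cfsg.IsPrimitiveUnderConj D) (d : G) (hd : d ∈ D) (h3 : Cfsg.pCore 3 ↥(Subgroup.closure {y : G | y ∈ D ∧ y ≠ d ∧ Commute d y}) ≤ Subgroup.center ↥(Subgroup.closure {y : G | y ∈ D ∧ y ≠ d ∧ Commute d y})) (h2 : Cfsg.pCore 2 ↥(Subgroup.closure {y : G | y ∈ D ∧ y ≠ d ∧ Commute d y}) ≤ Subgroup.center ↥(Subgroup.closure {y : G | y ∈ D ∧ y ≠ d ∧ Commute d y})) (ht : Cfsg.IsOfTypeM22 G D) : (∀ x : G, orderOf x = 2 → ∃ m : ℕ, 1 ≤ m ∧ m ≤ 3 ∧ (∃ l : List G, l.Nodup ∧ l.length = m ∧ (∀ a ∈ l, a ∈ D) ∧ (∀ a ∈ l, ∀ b ∈ l, Commute a b) ∧ l.prod = x)) ∧ (∀ m : ℕ, 1 ≤ m → m ≤ 3 → (∃ x : G, orderOf x = 2 ∧ (∃ l : List G, l.Nodup ∧ l.length = m ∧ (∀ a ∈ l, a ∈ D) ∧ (∀ a ∈ l, ∀ b ∈ l, Commute a b) ∧ l.prod = x)) ∧ ∀ x y : G, (∃ l : List G, l.Nodup ∧ l.length = m ∧ (∀ a ∈ l, a ∈ D) ∧ (∀ a ∈ l, ∀ b ∈ l, Commute a b) ∧ l.prod = x) → (∃ l : List G, l.Nodup ∧ l.length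 = m ∧ (∀ a ∈ l, a ∈ D) ∧ (∀ a ∈ l, ∀ b ∈ l, Commute a b) ∧ l.prod = y) → IsConj x y) ∧ ∀ (m m' : ℕ) (x : G), 1 ≤ m → m ≤ 3 → 1 ≤ m' → m' ≤ 3 → (∃ l : List G, l.Nodup ∧ l.length = m ∧ (∀ a ∈ l, a ∈ D) ∧ (∀ a ∈ l, ∀ b ∈ l, Commute a b) ∧ l.prod = x) → (∃ l : List G, l.Nodup ∧ l.length = m' ∧ (∀ a ∈ l, a ∈ D) ∧ (∀ a ∈ l, ∀ b ∈ l, Commute a b) ∧ l.prod = x) → m = m' := by
  obtain ⟨F, _, _, hF, c⟩ := M22.exists_ctx hD hprim ht
  refine ⟨fun x hx => ?_, fun m h1 h3 => ⟨?_, ?_⟩, ?_⟩
  · obtain ⟨m, h1, h3, l, hl⟩ := c.exists_short (x := x) (by rw [← pow_two, ← hx]; exact pow_orderOf_eq_one x)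
      fun e => by rw [e, orderOf_one] at hx; omega
    exact ⟨m, h1, h3, l, hl⟩
  · obtain ⟨l, hl⟩ := exists_sys c h1 h3
    exact ⟨l.prod, orderOf_eq_prime (by rw [pow_two]; exact sq_prod c.prim.cls.1 hl) (ne_one c h1 h3 hl), l, hl⟩
  · rintro x y ⟨l, hl⟩ ⟨l', hl'⟩
    exact conj_sys c h1 h3 hl hl'
  · rintro m m' x h1 h3 h1' h3' ⟨l, hl⟩ ⟨l', hl'⟩
    rcases lt_trichotomy m m' with h | h | h
    · exact (lt_false c hl hl' h1 h h3').elim
    · exact h
    · exact (lt_false c hl' hl h1' h h3).elim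

end Cfsg.Agent.S5398
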