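import Cfsg.Statements.S5405
import Cfsg.Agent.Core.OrthCohomologyData
-- import your own Cfsg.Agent.* helpers here

set_option autoImplicit false
set_option maxRecDepth 100000
open scoped MatrixGroups
open Cfsg

namespace Cfsg.Agent.S5405

open Cfsg.Agent.Forms Cfsg.Agent.Core.OrthCohomology

theorem principal {ι : Type} [Fintype ι] [DecidableEq ι] {n : ℕ} {Q : QuadraticForm (ZMod 2) (ι → ZMod 2)}
    (C : Cert Q n) (hgen : Subgroup.closure (reflectionSet Q) = ⊤)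
    (q : (ι → ZMod 2) → ZMod 2) (hq : ⇑Q = q) (f : ↥(Cfsg.Omega (ZMod 2) q) → ι → ZMod 2)
    (hf : ∀ g h : ↥(Cfsg.Omega (ZMod 2) q), f (g * h) = f g + Matrix.mulVec
      (((g : ↥(Cfsg.isometryGroup (ZMod 2) q)) : GL ι (ZMod 2)) : Matrix ι ι (ZMod 2)) (f h)) :
    ∃ v : ι → ZMod 2, ∀ g : ↥(Cfsg.Omega (ZMod 2) q), f g = Matrix.mulVec
      (((g : ↥(Cfsg.isometryGroup (ZMod 2) q)) : GL ι (ZMod 2)) : Matrix ι ι (ZMod 2)) v - v := by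
  subst hq
  exact C.principal hgen f hf

theorem disc_ne : (1 : ZMod 2) ^ 2 - 4 * 1 ≠ 0 := by decide

set_option synthInstance.maxSize 1000 in
set_option synthInstance.maxHeartbeats 200000 in
theorem gen_four : Subgroup.closure (reflectionSet (qMinus 1 (ZMod 2) 1 1)) = ⊤ := by
  have h2 : (2 : ZMod 2) = 0 := by decide
  refine closure_reflectionSet_two_of_bridge h2 (qMinus_nondegenerate _ _ disc_ne)
    (hasBridge_of_no_singular_plane h2 (qMinus_nondegenerate _ _ disc_ne) fun W hW => ?_)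
  have key : ∀ x y : (Fin 1 ⊕ Fin 1) ⊕ Fin 2 → ZMod 2, Cfsg.quadFormMinus 1 (ZMod 2) 1 1 x = 0 →
      Cfsg.quadFormMinus 1 (ZMod 2) 1 1 y = 0 → Cfsg.quadFormMinus 1 (ZMod 2) 1 1 (x + y) = 0 →
      x = 0 ∨ y = 0 ∨ x = y := by decide +kernel
  rcases eq_or_ne W ⊥ with rfl | hne
  · simp
  obtain ⟨x, hx, hx0⟩ := Submodule.exists_mem_ne_zero_of_ne_bot hne
  refine le_trans (Submodule.finrank_mono (t := Submodule.span (ZMod 2) {x}) fun y hy => ?_)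
    (finrank_span_singleton hx0).le
  have hq : ∀ w ∈ W, Cfsg.quadFormMinus 1 (ZMod 2) 1 1 w = 0 := fun w hw => by
    rw [← coe_qMinus]; exact hW w hw
  rcases key x y (hq x hx) (hq y hy) (hq _ (add_mem hx hy)) with h | h | h
  · exact absurd h hx0
  · rw [h]; exact zero_mem _
  · rw [← h]; exact Submodule.mem_span_singleton_self x

theorem gen_six : Subgroup.closure (reflectionSet (qMinus 2 (ZMod 2) 1 1)) = ⊤ :=
  closure_reflectionSet_two (by decide) (qMinus_nondegenerate _ _ disc_ne) (Or.inr (by simp))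

theorem gen_eight : Subgroup.closure (reflectionSet (qPlus 4 (ZMod 2))) = ⊤ :=
  closure_reflectionSet_two (by decide) qPlus_nondegenerate (Or.inr (by simp))

/-- Vanishing of first cohomology on the natural module for three small orthogonal groups over the field with two elements: for the commutator subgroup of the isometry group of the elliptic quadratic form in dimension 4, of the elliptic form in dimension 6, and of the hyperbolic form in dimension 8, every crossed homomorphism into the natural module (a map f with f(gh) = f(g) + g·f(h)) is principal (of the form g ↦ g·v − v). -/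
theorem result : (∀ f : ↥(Cfsg.Omega (ZMod 2) (Cfsg.quadFormMinus 1 (ZMod 2) 1 1)) → ((Fin 1 ⊕ Fin 1) ⊕ Fin 2 → ZMod 2), (∀ g h : ↥(Cfsg.Omega (ZMod 2) (Cfsg.quadFormMinus 1 (ZMod 2) 1 1)), f (g * h) = f g + Matrix.mulVec (((g : ↥(Cfsg.isometryGroup (ZMod 2) (Cfsg.quadFormMinus 1 (ZMod 2) 1 1))) : GL ((Fin 1 ⊕ Fin 1) ⊕ Fin 2) (ZMod 2)) : Matrix ((Fin 1 ⊕ Fin 1) ⊕ Fin 2) ((Fin 1 ⊕ Fin 1) ⊕ Fin 2) (ZMod 2)) (f h)) → ∃ v : (Fin 1 ⊕ Fin 1) ⊕ Fin 2 → ZMod 2, ∀ g : ↥(Cfsg.Omega (ZMod 2) (Cfsg.quadFormMinus 1 (ZMod 2) 1 1)), f g = Matrix.mulVec (((g : ↥(Cfsg.isometryGroup (ZMod 2) (Cfsg.quadFormMinus 1 (ZMod 2) 1 1))) : GL ((Fin 1 ⊕ Fin 1) ⊕ Fin 2) (ZMod 2)) : Matrix ((Fin 1 ⊕ Fin 1) ⊕ Fin 2) ((Fin 1 ⊕ Fin 1) ⊕ Fin 2) (ZMod 2)) v - v) ∧ (∀ f : ↥(Cfsg.Omega (ZMod 2) (Cfsg.quadFormMinus 2 (ZMod 2) 1 1)) → ((Fin 2 ⊕ Fin 2) ⊕ Fin 2 → ZMod 2), (∀ g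 h : ↥(Cfsg.Omega (ZMod 2) (Cfsg.quadFormMinus 2 (ZMod 2) 1 1)), f (g * h) = f g + Matrix.mulVec (((g : ↥(Cfsg.isometryGroup (ZMod 2) (Cfsg.quadFormMinus 2 (ZMod 2) 1 1))) : GL ((Fin 2 ⊕ Fin 2) ⊕ Fin 2) (ZMod 2)) : Matrix ((Fin 2 ⊕ Fin 2) ⊕ Fin 2) ((Fin 2 ⊕ Fin 2) ⊕ Fin 2) (ZMod 2)) (f h)) → ∃ v : (Fin 2 ⊕ Fin 2) ⊕ Fin 2 → ZMod 2, ∀ g : ↥(Cfsg.Omega (ZMod 2) (Cfsg.quadFormMinus 2 (ZMod 2) 1 1)), f g = Matrix.mulVec (((g : ↥(Cfsg.isometryGroup (ZMod 2) (Cfsg.quadFormMinus 2 (ZMod 2) 1 1))) : GL ((Fin 2 ⊕ Fin 2) ⊕ Fin 2) (ZMod 2)) : Matrix ((Fin 2 ⊕ Fin 2) ⊕ Fin 2) ((Fin 2 ⊕ Fin 2) ⊕ Fin 2) (ZMod 2)) v - v) ∧ (∀ f : ↥(Cfsg.Omega (ZMod 2) (Cfsg.quadFormPlus 4 (ZMod 2))) → (Fin 4 ⊕ Fin 4 → ZMod 2), (∀ g h : ↥(Cfsg.Omega (ZMod 2) (Cfsg.quadFormPlus 4 (ZMod 2))), f (g * h) = f g + Matrix.mulVec (((g : ↥(Cfsg.isometryGroup (ZMod 2) (Cfsg.quadFormPlus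 4 (ZMod 2)))) : GL (Fin 4 ⊕ Fin 4) (ZMod 2)) : Matrix (Fin 4 ⊕ Fin 4) (Fin 4 ⊕ Fin 4) (ZMod 2)) (f h)) → ∃ v : Fin 4 ⊕ Fin 4 → ZMod 2, ∀ g : ↥(Cfsg.Omega (ZMod 2) (Cfsg.quadFormPlus 4 (ZMod 2))), f g = Matrix.mulVec (((g : ↥(Cfsg.isometryGroup (ZMod 2) (Cfsg.quadFormPlus 4 (ZMod 2)))) : GL (Fin 4 ⊕ Fin 4) (ZMod 2)) : Matrix (Fin 4 ⊕ Fin 4) (Fin 4 ⊕ Fin 4) (ZMod 2)) v - v) := by
  exact ⟨fun f hf => principal fourCert gen_four _ (coe_qMinus _ _ _ _) f hf,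
    fun f hf => principal sixCert gen_six _ (coe_qMinus _ _ _ _) f hf,
    fun f hf => principal eightCert gen_eight _ (coe_qPlus _ _) f hf⟩

end Cfsg.Agent.S5405
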