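import Cfsg.Statements.S5427
import Cfsg.Agent.Fischer.LargeSimple

set_option autoImplicit false
open Cfsg Cfsg.Agent Cfsg.Agent.Fischer

namespace Cfsg.Agent.S5427

/-- Let z be an involution of the finite group G whose centralizer C has generalized Fitting subgroup Q, an extraspecial 2-group of width at least 2 (order 2^(2w+1), w ≥ 2). Let K be a subgroup of G such that the subgroup U generated by the K-conjugates of z is abelian and C is generated by the C-conjugates of U. Suppose that either some K-conjugate of z other than z lies in Q, or some element u of U ∩ Q outside the subgroup generated by z has z in the largest normal 2-subgroup of its centralizer. Then G is simple and Q is a large extraspecial 2-subgroup of G. -/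
theorem result {G : Type*} [Group G] [Finite G] (z : G) (hz : orderOf z = 2) (Q : Subgroup G) (hQC : Q ≤ Subgroup.centralizer ({z} : Set G)) (hF : (Cfsg.generalizedFittingSubgroup ↥(Subgroup.centralizer ({z} : Set G))).map (Subgroup.centralizer ({z} : Set G)).subtype = Q) (hQ : Cfsg.IsExtraspecial 2 ↥Q) (w : ℕ) (hw : 2 ≤ w) (hcard : Nat.card ↥Q = 2 ^ (2 * w + 1)) (K U : Subgroup G) (hU : U = Subgroup.closure {x : G | ∃ k ∈ K, x = k * z * k⁻¹}) (hUab : IsMulCommutative ↥U) (hgen : Subgroup.closure {x : G | ∃ c ∈ Subgroup.centralizer ({z} : Set G), ∃ u ∈ U, x = c * u * c⁻¹} = Subgroup.centralizer ({z} : Set G)) (h3 : (∃ k ∈ K, k * z * k⁻¹ ∈ Q ∧ k * z * k⁻¹ ≠ z) ∨ ∃ u ∈ U ⊓ Q, u ∉ Subgroup.zpowers z ∧ (∃ hz' : z ∈ Subgroup.centralizer ({u} : Set G), (⟨z, hz'⟩ : ↥(Subgroup.centralizer ({u} : Set G))) ∈ Cfsg.pCore 2 ↥(Subgroup.centralizer ({u} : Set G)))) : IsSimpleGroup G ∧ Cfsg.IsLargeExtraspecial Q := by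
  obtain ⟨hcore, -⟩ := coreLike_of_fstar hz hQC hF hQ
  have hUsq : ∀ u ∈ U, u * u = 1 := by
    intro u hu
    have hcm : ∀ a ∈ U, ∀ b ∈ U, a * b = b * a := fun a ha b hb =>
      congrArg Subtype.val (hUab.is_comm.comm ⟨a, ha⟩ ⟨b, hb⟩)
    have hu' := hu
    rw [hU] at hu
    induction hu using Subgroup.closure_induction with
    | mem a ha =>
      obtain ⟨k, -, rfl⟩ := ha
      rw [show k * z * k⁻¹ * (k * z * k⁻¹) = k * (z * z) * k⁻¹ by group, hcore.sq]; group
    | one => simp
    | mul a b ha hb iha ihb =>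
      have ha' : a ∈ U := hU ▸ ha
      have hb' : b ∈ U := hU ▸ hb
      calc a * b * (a * b) = a * (b * a) * b := by group
        _ = a * a * (b * b) := by rw [← hcm a ha' b hb']; group
        _ = 1 := by rw [iha ha', ihb hb', one_mul]
    | inv a ha iha => rw [← mul_inv_rev, iha (hU ▸ ha), inv_one]
  have hlarge : IsLargeExtraspecial Q := by
    rcases h3 with ⟨k, -, hk, hkne⟩ | ⟨u, hu, huz, hz', hcz⟩
    · exact large_of_conj hcore hQ hw hcard hk hkne
    · refine ⟨hQ, core_centralizer_eq hcore, core_normal hcore, fun L hL hn => ?_⟩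
      refine large_of_involution hQ (core_centralizer_eq hcore) (core_normal hcore) (b := u) hu.2 ?_ ?_ ?_ hL hn
      · rw [core_center_eq hcore]; exact huz
      · haveI := Fact.mk Nat.prime_two
        exact orderOf_eq_prime (by rw [pow_two]; exact hUsq u hu.1) fun e => huz (e ▸ one_mem _)
      · rw [core_center_eq hcore, Subgroup.zpowers_le]
        exact ⟨_, hcz, rfl⟩
  refine ⟨simple_of_large hcore hlarge fun N hN hzN => ?_, hlarge⟩
  have hUN : U ≤ N := by
    rw [hU, Subgroup.closure_le]
    rintro _ ⟨k, -, rfl⟩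
    exact hN.conj_mem z hzN k
  rw [← hgen, Subgroup.closure_le]
  rintro _ ⟨c, -, u, hu, rfl⟩
  exact hN.conj_mem u (hUN hu) c

end Cfsg.Agent.S5427
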