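import Cfsg.Statements.S5432
import Cfsg.Agent.PermGroups.ExtraTwoOut
import Cfsg.Agent.Forms.HyperbolicModel
import Cfsg.Agent.FGS3.Extraspecial

set_option autoImplicit false
open Cfsg

namespace Cfsg.Agent.S5432

open Module
open Cfsg.Agent.PermGroups.ExtraTwo
open scoped commutatorElement

theorem zmod_two_cases : ∀ c : ZMod 2, c = 0 ∨ c = 1 := by decide

/-- Transport of the extension data along an isometry. -/
theorem transport {E V W : Type*} [Group E] [AddCommGroup V] [Module (ZMod 2) V]
    [AddCommGroup W] [Module (ZMod 2) W] {z : E}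
    {π : E →* Multiplicative V} {Q : QuadraticForm (ZMod 2) V} (h : IsExt z π Q)
    (e : W ≃ₗ[ZMod 2] V) (Q' : QuadraticForm (ZMod 2) W) (he : ∀ x, Q (e x) = Q' x)
    (hn : (QuadraticMap.polarBilin Q').Nondegenerate) :
    IsExt z ((AddEquiv.toMultiplicative e.symm.toAddEquiv).toMonoidHom.comp π) Q' where
  ne_one := h.ne_one
  two := h.two
  central := h.central
  surj := (AddEquiv.toMultiplicative e.symm.toAddEquiv).surjective.comp h.surj
  ker x := by
    rw [← h.ker x]
    exact map_eq_one_iff _ (AddEquiv.toMultiplicative e.symm.toAddEquiv).injective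
  sq x := by
    rw [h.sq x, ← he]
    simp
  nondeg := hn

theorem exists_basis_fun {V : Type*} [AddCommGroup V] [Module (ZMod 2) V]
    [FiniteDimensional (ZMod 2) V] (S : Submodule (ZMod 2) V) {l : ℕ}
    (hl : l ≤ finrank (ZMod 2) S) :
    ∃ s : Fin l → V, LinearIndependent (ZMod 2) s ∧ ∀ i, s i ∈ S := by
  refine ⟨fun i => (finBasis (ZMod 2) S (Fin.castLE hl i) : V), ?_, fun i => Subtype.mem _⟩
  exact ((finBasis (ZMod 2) S).linearIndependent.map' S.subtype S.ker_subtype).comp _
    (Fin.castLE_injective hl)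

theorem zmod_two_eq_one {c : ZMod 2} (h : c ≠ 0) : c = 1 := by
  revert h; revert c; decide

/-- A non-degenerate form in dimension `2n` over `F_2` without totally singular subspace of
dimension `n` is the elliptic model. -/
theorem exists_qMinus_isom {V : Type*} [AddCommGroup V] [Module (ZMod 2) V] [Finite V]
    {Q : QuadraticForm (ZMod 2) V} (hQ : (QuadraticMap.polarBilin Q).Nondegenerate) {n : ℕ}
    (hn : 1 ≤ n) (hd : finrank (ZMod 2) V = 2 * n)
    (hno : ∀ S : Submodule (ZMod 2) V, (∀ x ∈ S, Q x = 0) → finrank (ZMod 2) S < n) :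
    ∃ e : ((Fin (n - 1) ⊕ Fin (n - 1)) ⊕ Fin 2 → ZMod 2) ≃ₗ[ZMod 2] V,
      ∀ x, Q (e x) = Forms.qMinus (n - 1) (ZMod 2) 1 1 x := by
  classical
  have hI := Forms.isForm_quadratic Q hQ
  have hps : ∀ v, QuadraticMap.polar Q v v = 0 := fun v => by
    rw [Forms.polar_self_two_mul, show (2 : ZMod 2) = 0 from rfl, zero_mul]
  have hadd : ∀ v w, Q (v + w) = Q v + Q w + QuadraticMap.polar Q v w := fun v w =>
    QuadraticMap.map_add Q v w
  obtain ⟨S, hS⟩ := (Set.toFinite {S : Submodule (ZMod 2) V | ∀ x ∈ S, Q x = 0}).exists_maximal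
    ⟨⊥, fun x hx => by rw [(Submodule.mem_bot _).1 hx, QuadraticMap.map_zero]⟩
  have hS0 : ∀ x ∈ S, Q x = 0 := hS.1
  have hk := hno S hS0
  set k := finrank (ZMod 2) S with hkdef
  set P := Forms.perp (QuadraticMap.polarBilin Q) S with hPdef
  have hPmem : ∀ {v}, v ∈ P ↔ ∀ s ∈ S, QuadraticMap.polar Q s v = 0 := Iff.rfl
  have hPdim := hI.finrank_perp S
  rw [← hPdef, ← hkdef, hd] at hPdim
  -- non-zero vectors of `P` outside `S` have value one
  have hone : ∀ x ∈ P, x ∉ S → Q x = 1 := by
    intro x hx hxS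
    refine zmod_two_eq_one fun h0 => hxS ?_
    have hsing : S ⊔ Submodule.span (ZMod 2) {x} ∈
        {S : Submodule (ZMod 2) V | ∀ x ∈ S, Q x = 0} := by
      intro y hy
      obtain ⟨a, ha, b, hb, rfl⟩ := Submodule.mem_sup.1 hy
      obtain ⟨c, rfl⟩ := Submodule.mem_span_singleton.1 hb
      rw [hadd, hS0 a ha, QuadraticMap.map_smul, h0, QuadraticMap.polar_smul_right,
        hPmem.1 hx a ha]
      simp
    exact hS.2 hsing le_sup_left (Submodule.mem_sup_right (Submodule.mem_span_singleton_self x))
  have hpol : ∀ x ∈ P, ∀ y ∈ P, x ∉ S → y ∉ S → x + y ∉ S → QuadraticMap.polar Q x y = 1 := by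
    intro x hx y hy hxS hyS hxy
    have h1 := hadd x y
    rw [hone x hx hxS, hone y hy hyS, hone _ (add_mem hx hy) hxy] at h1
    revert h1
    generalize QuadraticMap.polar Q x y = c
    revert c; decide
  -- two vectors of `P` independent modulo `S`
  have hexists : ∀ T : Submodule (ZMod 2) V, finrank (ZMod 2) T < finrank (ZMod 2) P →
      ∃ x ∈ P, x ∉ T := fun T hT => by
    by_contra! hc
    exact absurd (Submodule.finrank_mono (show P ≤ T from hc)) (not_le.2 hT)
  obtain ⟨u, huP, huS⟩ := hexists S (by omega)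
  have hSu : finrank (ZMod 2) (S ⊔ Submodule.span (ZMod 2) {u} : Submodule (ZMod 2) V) ≤ k + 1 := by
    have := Submodule.finrank_add_le_finrank_add_finrank S (Submodule.span (ZMod 2) {u})
    rw [finrank_span_singleton (fun h0 => huS (by rw [h0]; exact S.zero_mem))] at this
    exact this
  obtain ⟨v, hvP, hvSu⟩ := hexists (S ⊔ Submodule.span (ZMod 2) {u}) (by omega)
  have hvS : v ∉ S := fun h => hvSu (Submodule.mem_sup_left h)
  have huv : u + v ∉ S := fun h => hvSu (by
    have := sub_mem (Submodule.mem_sup_left (T := Submodule.span (ZMod 2) {u}) h)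
      (Submodule.mem_sup_right (S := S) (Submodule.mem_span_singleton_self u))
    rwa [add_sub_cancel_left] at this)
  have hQu := hone u huP huS
  have hQv := hone v hvP hvS
  have hBuv := hpol u huP v hvP huS hvS huv
  have hP2 : finrank (ZMod 2) P ≤ k + 2 := by
    by_contra hc
    obtain ⟨w, hwP, hwT⟩ := hexists
      (S ⊔ Submodule.span (ZMod 2) {u} ⊔ Submodule.span (ZMod 2) {v}) (by
      have := Submodule.finrank_add_le_finrank_add_finrank
        (S ⊔ Submodule.span (ZMod 2) {u}) (Submodule.span (ZMod 2) {v})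
      rw [finrank_span_singleton (fun h0 => hvS (by rw [h0]; exact S.zero_mem))] at this
      omega)
    set T := S ⊔ Submodule.span (ZMod 2) {u} ⊔ Submodule.span (ZMod 2) {v}
    have huT : u ∈ T := Submodule.mem_sup_left
      (Submodule.mem_sup_right (Submodule.mem_span_singleton_self u))
    have hvT : v ∈ T := Submodule.mem_sup_right (Submodule.mem_span_singleton_self v)
    have hST : S ≤ T := le_trans le_sup_left le_sup_left
    have n1 : w ∉ S := fun h => hwT (hST h)
    have n2 : u + w ∉ S := fun h => hwT ((Submodule.add_mem_iff_right T huT).1 (hST h))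
    have n3 : v + w ∉ S := fun h => hwT ((Submodule.add_mem_iff_right T hvT).1 (hST h))
    have n4 : u + v + w ∉ S := fun h => hwT ((Submodule.add_mem_iff_right T
      (add_mem huT hvT)).1 (hST h))
    have h1 := hone _ (add_mem (add_mem huP hvP) hwP) n4
    rw [hadd, hadd u v, QuadraticMap.polar_add_left, hQu, hQv, hBuv, hone w hwP n1,
      hpol u huP w hwP huS n1 n2, hpol v hvP w hwP hvS n1 n3] at h1
    revert h1; decide
  have hkn : k = n - 1 := by omega
  -- the orthogonal complement of the plane spanned by `u` and `v`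
  have hvu : QuadraticMap.polar Q v u = 1 := by rw [QuadraticMap.polar_comm, hBuv]
  set U := Submodule.span (ZMod 2) ({u, v} : Set V)
  set H := Forms.perp (QuadraticMap.polarBilin Q) U with hHdef
  have hHmem : ∀ {x}, x ∈ H ↔ QuadraticMap.polar Q u x = 0 ∧ QuadraticMap.polar Q v x = 0 := by
    intro x
    rw [hHdef, Forms.mem_perp_span]
    simp
  have hUnd : ∀ x ∈ U, (∀ y ∈ U, QuadraticMap.polarBilin Q x y = 0) → x = 0 := by
    intro x hx hxy
    obtain ⟨a, b, rfl⟩ := Submodule.mem_span_pair.1 hx
    have h1 := hxy u (Submodule.subset_span (by simp))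
    have h2 := hxy v (Submodule.subset_span (by simp))
    simp [hps, hBuv, hvu] at h1 h2
    simp [h1, h2]
  have hUdim : finrank (ZMod 2) U = 2 := by
    have hli : LinearIndependent (ZMod 2) ![u, v] := by
      rw [LinearIndependent.pair_iff]
      intro a b hab
      have h1 := congrArg (QuadraticMap.polarBilin Q u) hab
      have h2 := congrArg (QuadraticMap.polarBilin Q v) hab
      simp [hps, hBuv, hvu] at h1 h2
      exact ⟨h2, h1⟩
    have := finrank_span_eq_card hli
    rw [show Set.range ![u, v] = ({u, v} : Set V) by simp [Matrix.range_cons]; exact Set.pair_comm _ _,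
      Fintype.card_fin] at this
    exact this
  have hHdim := hI.finrank_perp U
  rw [← hHdef, hUdim, hd] at hHdim
  have hHnd : (QuadraticMap.polarBilin (Q.comp H.subtype)).Nondegenerate := by
    have key : ∀ x : H, (∀ y : H, QuadraticMap.polar (Q.comp H.subtype) x y = 0) → x = 0 := by
      intro x hx
      refine Subtype.ext (hI.perp_nondeg hUnd x.1 x.2 fun y hy => ?_)
      have := hx ⟨y, hy⟩
      simpa [QuadraticMap.polar] using this
    exact ⟨key, fun x hx => key x fun y => by rw [QuadraticMap.polar_comm]; exact hx y⟩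
  have hSH : S ≤ H := fun s hs => hHmem.2
    ⟨by rw [QuadraticMap.polar_comm]; exact hPmem.1 huP s hs,
      by rw [QuadraticMap.polar_comm]; exact hPmem.1 hvP s hs⟩
  obtain ⟨s, hsli, hsS⟩ := exists_basis_fun S (l := n - 1) (by omega)
  let s' : Fin (n - 1) → H := fun i => ⟨s i, hSH (hsS i)⟩
  have hs' : LinearIndependent (ZMod 2) s' := LinearIndependent.of_comp H.subtype hsli
  obtain ⟨f, hf⟩ := Forms.exists_qPlus_isom hHnd hs' (fun x hx => by
      have : Submodule.span (ZMod 2) (Set.range s') ≤ S.comap H.subtype := by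
        rw [Submodule.span_le]; rintro _ ⟨i, rfl⟩; exact hsS i
      exact hS0 _ (this hx))
    (show finrank (ZMod 2) H = 2 * (n - 1) by omega)
  let L : ((Fin (n - 1) ⊕ Fin (n - 1)) ⊕ Fin 2 → ZMod 2) →ₗ[ZMod 2] V :=
    H.subtype ∘ₗ f.toLinearMap ∘ₗ LinearMap.funLeft (ZMod 2) (ZMod 2) Sum.inl +
      (LinearMap.proj (Sum.inr 0)).smulRight u + (LinearMap.proj (Sum.inr 1)).smulRight v
  have hL : ∀ x, L x = (f (fun i => x (Sum.inl i)) : V) + x (Sum.inr 0) • u + x (Sum.inr 1) • v :=
    fun x => rfl
  have hinj : Function.Injective L := by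
    refine (injective_iff_map_eq_zero L).2 fun x hx => ?_
    rw [hL] at hx
    obtain ⟨hfu, hfv⟩ := hHmem.1 (f (fun i => x (Sum.inl i))).2
    have h1 := congrArg (QuadraticMap.polarBilin Q u) hx
    have h2 := congrArg (QuadraticMap.polarBilin Q v) hx
    simp [hps, hBuv, hvu, hfu, hfv] at h1 h2
    have h3 : f (fun i => x (Sum.inl i)) = 0 := by
      refine Subtype.ext ?_
      simpa [h1, h2] using hx
    funext i
    rcases i with i | i
    · exact congrFun ((LinearEquiv.map_eq_zero_iff f).1 h3) i
    · fin_cases i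
      · exact h2
      · exact h1
  refine ⟨LinearEquiv.ofInjectiveOfFinrankEq L hinj ?_, fun x => ?_⟩
  · simp [hd]; omega
  · show Q (L x) = _
    rw [hL]
    obtain ⟨hfu, hfv⟩ := hHmem.1 (f (fun i => x (Sum.inl i))).2
    have hQf : Q (f (fun i => x (Sum.inl i)) : V) = Forms.qPlus (n - 1) (ZMod 2)
        (fun i => x (Sum.inl i)) := hf _
    rw [hadd, hadd, QuadraticMap.map_smul, QuadraticMap.map_smul, QuadraticMap.polar_add_left,
      QuadraticMap.polar_smul_right, QuadraticMap.polar_smul_right,
      QuadraticMap.polar_smul_right, QuadraticMap.polar_smul_left, hQf, hQu, hQv, hBuv,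
      QuadraticMap.polar_comm Q _ u, QuadraticMap.polar_comm Q _ v, hfu, hfv]
    simp [Forms.coe_qPlus, Cfsg.quadFormPlus, Cfsg.quadFormMinus, smul_eq_mul]
    have hsq : ∀ c : ZMod 2, c ^ 2 = c := by decide
    have hcc : ∀ c : ZMod 2, c * c = c := by decide
    simp only [hcc, hsq]
    ring

/-- An extraspecial 2-group as an extension of a quadratic space. -/
theorem exists_ext.{u} {E : Type u} [Group E] [Finite E] (hE : Cfsg.IsExtraspecial 2 E) :
    ∃ (V : Type u) (_ : AddCommGroup V) (_ : Module (ZMod 2) V) (_ : Finite V) (z : E)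
      (π : E →* Multiplicative V) (Q : QuadraticForm (ZMod 2) V),
        IsExt z π Q ∧ Nat.card E = 2 * Nat.card V := by
  classical
  haveI : Fact (Nat.Prime 2) := ⟨Nat.prime_two⟩
  set Z := Subgroup.center E with hZ
  haveI : IsMulCommutative (E ⧸ Z) := ⟨⟨fun a b => by
    obtain ⟨x, rfl⟩ := QuotientGroup.mk'_surjective Z a
    obtain ⟨y, rfl⟩ := QuotientGroup.mk'_surjective Z b
    rw [← map_mul, ← map_mul, QuotientGroup.mk'_apply, QuotientGroup.mk'_apply,
      QuotientGroup.eq]
    have h1 : ⁅y⁻¹, x⁻¹⁆ ∈ Z := by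
      rw [hZ, ← FGS3.IsExtraspecial_commutator hE]
      exact Subgroup.commutator_mem_commutator (Subgroup.mem_top _) (Subgroup.mem_top _)
    rwa [show (x * y)⁻¹ * (y * x) = ⁅y⁻¹, x⁻¹⁆ by rw [commutatorElement_def]; group]⟩⟩
  letI : CommGroup (E ⧸ Z) :=
    { (inferInstance : Group (E ⧸ Z)) with mul_comm := mul_comm' }
  letI : Module (ZMod 2) (Additive (E ⧸ Z)) := AddCommGroup.zmodModule (n := 2) fun a => by
    obtain ⟨x, hx⟩ := QuotientGroup.mk'_surjective Z (Additive.toMul a)
    have h1 : QuotientGroup.mk' Z (x ^ 2) = 1 :=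
      (QuotientGroup.eq_one_iff _).2 (FGS3.IsExtraspecial_pow_mem hE x)
    rw [map_pow, hx] at h1
    exact Additive.toMul.injective (by rw [toMul_nsmul, h1]; rfl)
  haveI : Nat.card ↥Z = 2 := hE.2
  obtain ⟨z, hz1, hzall⟩ : ∃ z : ↥Z, z ≠ 1 ∧ ∀ y, y = 1 ∨ y = z := by
    obtain ⟨a, b, hab, huniv⟩ := Nat.card_eq_two_iff.1 hE.2
    have hmem : ∀ y : ↥Z, y = a ∨ y = b := fun y => by
      have : y ∈ ({a, b} : Set ↥Z) := huniv ▸ Set.mem_univ y
      simpa using this
    rcases hmem 1 with h | h
    · exact ⟨b, fun h' => hab (h.symm.trans h'.symm), fun y => h ▸ hmem y⟩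
    · exact ⟨a, fun h' => hab (h'.trans h), fun y => h ▸ (hmem y).symm⟩
  have hzc : ∀ x : E, x * (z : E) = (z : E) * x := Subgroup.mem_center_iff.1 z.2
  have hzne : (z : E) ≠ 1 := fun h => hz1 (Subtype.ext h)
  have hz2 : (z : E) * z = 1 := by
    rcases hzall (z * z) with h | h
    · exact congrArg Subtype.val h
    · exact absurd (mul_left_cancel (h.trans (mul_one z).symm)) hz1
  have hmemZ : ∀ {w : E}, w ∈ Z → w = zp (z : E) 0 ∨ w = zp (z : E) 1 := fun {w} hw => by
    rcases hzall ⟨w, hw⟩ with h | h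
    · left; simpa [zp] using congrArg Subtype.val h
    · right; simpa [zp, ZMod.val_one] using congrArg Subtype.val h
  let π : E →* Multiplicative (Additive (E ⧸ Z)) :=
    (MulEquiv.multiplicativeAdditive (E ⧸ Z)).symm.toMonoidHom.comp (QuotientGroup.mk' Z)
  have hker : ∀ x, π x = 1 ↔ x = 1 ∨ x = (z : E) := by
    intro x
    rw [show π x = 1 ↔ x ∈ Z from QuotientGroup.eq_one_iff x]
    refine ⟨fun h => ?_, ?_⟩
    · simpa [zp, ZMod.val_one] using hmemZ h
    · rintro (rfl | rfl)
      exacts [one_mem _, z.2]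
  have hsurj : Function.Surjective π := QuotientGroup.mk'_surjective Z
  have zadd : ∀ a b : ZMod 2, zp (z : E) (a + b) = zp (z : E) a * zp (z : E) b := fun a b => by
    rw [zp, zp, zp, ← pow_add, ZMod.val_add, ← pow_eq_pow_mod _ (by rw [pow_two]; exact hz2)]
  have zinj : ∀ a b : ZMod 2, zp (z : E) a = zp (z : E) b → a = b := by
    intro a b hab
    have key := zmod_two_cases
    rcases key a with rfl | rfl <;> rcases key b with rfl | rfl <;>
      simp [zp, ZMod.val_one, hzne, hzne.symm] at hab ⊢
  have zcomm : ∀ (a : ZMod 2) (x : E), x * zp (z : E) a = zp (z : E) a * x := fun a x =>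
    (show Commute x (z : E) from hzc x).pow_right _
  have hsqex : ∀ x : E, ∃ c : ZMod 2, x * x = zp (z : E) c := fun x => by
    rcases hmemZ (w := x * x) (by rw [← pow_two]; exact FGS3.IsExtraspecial_pow_mem hE x) with h | h
    exacts [⟨_, h⟩, ⟨_, h⟩]
  have hcex : ∀ x y : E, ∃ c : ZMod 2, y * x = zp (z : E) c * (x * y) := fun x y => by
    rcases hmemZ (w := ⁅y, x⁆) (by
      rw [hZ, ← FGS3.IsExtraspecial_commutator hE]
      exact Subgroup.commutator_mem_commutator (Subgroup.mem_top _) (Subgroup.mem_top _))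
      with h | h <;>
    exact ⟨_, by rw [← h, commutatorElement_def]; group⟩
  choose sq hsq using hsqex
  choose cm hcm using hcex
  have hcm_add : ∀ x x' y, cm (x * x') y = cm x y + cm x' y := fun x x' y => by
    refine zinj _ _ (mul_right_cancel (b := x * x' * y) ?_)
    rw [← hcm, zadd, ← mul_assoc y x x', hcm x y]
    calc zp (z : E) (cm x y) * (x * y) * x' = zp (z : E) (cm x y) * (x * (y * x')) := by group
      _ = zp (z : E) (cm x y) * (x * zp (z : E) (cm x' y) * (x' * y)) := by rw [hcm x' y]; group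
      _ = zp (z : E) (cm x y) * zp (z : E) (cm x' y) * (x * x' * y) := by rw [zcomm]; group
  have hsq_mul : ∀ x y, sq (x * y) = sq x + sq y + cm x y := fun x y => by
    refine zinj _ _ ?_
    rw [← hsq, zadd, zadd, ← hsq, ← hsq]
    calc x * y * (x * y) = x * (y * x) * y := by group
      _ = x * zp (z : E) (cm x y) * (x * y * y) := by rw [hcm x y]; group
      _ = zp (z : E) (cm x y) * (x * x * (y * y)) := by rw [zcomm]; group
      _ = x * x * (y * y) * zp (z : E) (cm x y) := (zcomm _ _).symm
  have hsq_wd : ∀ x y, π x = π y → sq x = sq y := fun x y hxy => by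
    refine zinj _ _ ?_
    rw [← hsq, ← hsq]
    have h1 : π (y⁻¹ * x) = 1 := by rw [map_mul, map_inv, hxy, inv_mul_cancel]
    rcases (hker _).1 h1 with h | h
    · rw [inv_mul_eq_one.1 h]
    · obtain rfl : x = y * z := by rw [← h, mul_inv_cancel_left]
      calc y * z * (y * z) = y * (z * y) * z := by group
        _ = y * y * (z * z) := by rw [← hzc]; group
        _ = y * y := by rw [hz2, mul_one]
  let s : Additive (E ⧸ Z) → E := fun v => Function.surjInv hsurj (Multiplicative.ofAdd v)
  have hs : ∀ v, π (s v) = Multiplicative.ofAdd v := fun v => Function.surjInv_eq hsurj _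
  let q : Additive (E ⧸ Z) → ZMod 2 := fun v => sq (s v)
  have hq : ∀ x, q (Multiplicative.toAdd (π x)) = sq x := fun x => hsq_wd _ _ (by rw [hs]; rfl)
  have hpol : ∀ x y, QuadraticMap.polar q (Multiplicative.toAdd (π x)) (Multiplicative.toAdd (π y))
      = cm x y := fun x y => by
    rw [QuadraticMap.polar, ← toAdd_mul, ← map_mul, hq, hq, hq, hsq_mul]
    ring
  have hrep : ∀ v : Additive (E ⧸ Z), ∃ x, v = Multiplicative.toAdd (π x) := fun v =>
    ⟨s v, by rw [hs]; rfl⟩
  have hpadd : ∀ v v' w, QuadraticMap.polar q (v + v') w =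
      QuadraticMap.polar q v w + QuadraticMap.polar q v' w := fun v v' w => by
    obtain ⟨x, rfl⟩ := hrep v
    obtain ⟨x', rfl⟩ := hrep v'
    obtain ⟨y, rfl⟩ := hrep w
    rw [← toAdd_mul, ← map_mul, hpol, hpol, hpol, hcm_add]
  have hq0 : q 0 = 0 := by
    have h := hq 1
    rw [map_one, toAdd_one] at h
    rw [h]
    exact zinj _ _ (by rw [← hsq, mul_one]; simp [zp])
  let Q : QuadraticForm (ZMod 2) (Additive (E ⧸ Z)) := QuadraticMap.ofPolar q
    (fun a v => by
      have key := zmod_two_cases
      rcases key a with rfl | rfl <;> simp [hq0])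
    hpadd
    (fun a v w => by
      have key := zmod_two_cases
      rcases key a with rfl | rfl <;> simp [QuadraticMap.polar, hq0])
  refine ⟨Additive (E ⧸ Z), inferInstance, inferInstance,
    Finite.of_equiv _ Additive.ofMul, (z : E), π, Q,
    ⟨hzne, hz2, hzc, hsurj, hker, fun x => ?_, ?_⟩, ?_⟩
  · show x * x = zp (z : E) (q _)
    rw [hq, hsq]
  · have key : ∀ v, (∀ w, QuadraticMap.polar q v w = 0) → v = 0 := by
      intro v hv
      obtain ⟨x, rfl⟩ := hrep v
      rw [toAdd_eq_zero, show π x = 1 ↔ x ∈ Z from QuotientGroup.eq_one_iff x,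
        Subgroup.mem_center_iff]
      intro y
      have h1 := hcm x y
      rw [← hpol, hv] at h1
      simpa [zp] using h1
    exact ⟨key, fun v hv => key v fun w => by rw [QuadraticMap.polar_comm]; exact hv w⟩
  · rw [Subgroup.card_eq_card_quotient_mul_card_subgroup Z, hE.2, mul_comm,
      Nat.card_congr Additive.ofMul]


/-- Let E be an extraspecial 2-group of order 2^(2n+1), n ≥ 1. If E contains an elementary abelian subgroup of order 2^(n+1) (plus type), then its outer automorphism group is isomorphic to the full isometry group of the hyperbolic quadratic form in dimension 2n over the field with two elements; otherwise (minus type) it is isomorphic to the full isometry group of the elliptic quadratic form in dimension 2n over that field. -/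
theorem result {E : Type*} [Group E] [Finite E] (hE : Cfsg.IsExtraspecial 2 E) (n : ℕ) (hn : 1 ≤ n) (hcard : Nat.card E = 2 ^ (2 * n + 1)) : ((∃ A : Subgroup E, Cfsg.IsElementaryAbelian 2 A ∧ Nat.card ↥A = 2 ^ (n + 1)) → Nonempty (Cfsg.Out E ≃* Cfsg.isometryGroup (ZMod 2) (Cfsg.quadFormPlus n (ZMod 2)))) ∧ ((¬ ∃ A : Subgroup E, Cfsg.IsElementaryAbelian 2 A ∧ Nat.card ↥A = 2 ^ (n + 1)) → Nonempty (Cfsg.Out E ≃* Cfsg.isometryGroup (ZMod 2) (Cfsg.quadFormMinus (n - 1) (ZMod 2) 1 1))) := by
  classical
  haveI : Fact (Nat.Prime 2) := ⟨Nat.prime_two⟩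
  obtain ⟨V, _, _, _, z, π, Q, h, hc⟩ := exists_ext hE
  have hV : Nat.card V = 2 ^ (2 * n) := by
    rw [hcard, pow_succ] at hc
    omega
  have hd : finrank (ZMod 2) V = 2 * n := by
    rw [Module.natCard_eq_pow_finrank (K := ZMod 2), Nat.card_zmod] at hV
    exact Nat.pow_right_injective le_rfl hV
  constructor
  · rintro ⟨A, hA, hAcard⟩
    let P : AddSubgroup V :=
      { carrier := {v | ∃ a ∈ A, Multiplicative.toAdd (π a) = v}
        zero_mem' := ⟨1, one_mem _, by simp⟩
        add_mem' := by
          rintro _ _ ⟨a, ha, rfl⟩ ⟨b, hb, rfl⟩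
          exact ⟨a * b, mul_mem ha hb, by rw [map_mul, toAdd_mul]⟩
        neg_mem' := by
          rintro _ ⟨a, ha, rfl⟩
          exact ⟨a⁻¹, inv_mem ha, by rw [map_inv, toAdd_inv]⟩ }
    let S := AddSubgroup.toZModSubmodule 2 P
    have hS0 : ∀ v ∈ S, Q v = 0 := by
      rintro _ ⟨a, ha, rfl⟩
      have h1 : a * a = 1 := by
        rw [← pow_two]
        exact hA.2 a ha
      exact h.zp_inj (by rw [← h.sq, h1]; simp [zp])
    have hfin : n ≤ finrank (ZMod 2) S := by
      let F : ↥A → ↥S × ZMod 2 := fun a => (⟨Multiplicative.toAdd (π a), a, a.2, rfl⟩,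
        if sec h (Multiplicative.toAdd (π a)) = (a : E) then 0 else 1)
      have hF : Function.Injective F := by
        intro a b hab
        simp only [F, Prod.mk.injEq] at hab
        obtain ⟨h1, h2⟩ := hab
        replace h1 : Multiplicative.toAdd (π (a : E)) = Multiplicative.toAdd (π (b : E)) :=
          congrArg Subtype.val h1
        obtain ⟨c, hc⟩ := h.eq_of_pv (Multiplicative.toAdd.injective h1)
        apply Subtype.ext
        rw [h1] at h2
        have key := zmod_two_cases
        rcases key c with rfl | rfl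
        · simpa [zp] using hc
        · obtain ⟨d, hd'⟩ := h.eq_of_pv (pv_sec h (Multiplicative.toAdd (π (b : E))))
          rcases key d with rfl | rfl <;> simp [zp, ZMod.val_one] at hc hd' <;>
            simp [hc, hd', h.ne_one] at h2 ⊢
      haveI : Finite ↥S := inferInstance
      have h1 := Nat.card_le_card_of_injective F hF
      rw [Nat.card_prod, Nat.card_zmod, hAcard, pow_succ,
        Module.natCard_eq_pow_finrank (K := ZMod 2) (V := ↥S), Nat.card_zmod] at h1
      exact (Nat.pow_le_pow_iff_right (by norm_num : 1 < 2)).1 (Nat.le_of_mul_le_mul_right h1 two_pos)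
    obtain ⟨s, hsli, hsS⟩ := exists_basis_fun S hfin
    obtain ⟨e, he⟩ := Forms.exists_qPlus_isom h.nondeg hsli (fun x hx =>
      hS0 x ((Submodule.span_le.2 (by rintro _ ⟨i, rfl⟩; exact hsS i)) hx)) hd
    rw [← Forms.coe_qPlus]
    exact out_equiv (transport h e _ he Forms.qPlus_nondegenerate)
  · intro hno
    have hno' : ∀ S : Submodule (ZMod 2) V, (∀ x ∈ S, Q x = 0) → finrank (ZMod 2) S < n := by
      intro S0 hS0
      by_contra hc
      obtain ⟨s, hsli, hsS⟩ := exists_basis_fun S0 (not_lt.1 hc)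
      set S := Submodule.span (ZMod 2) (Set.range s)
      have hSle : S ≤ S0 := Submodule.span_le.2 (by rintro _ ⟨i, rfl⟩; exact hsS i)
      refine hno ⟨(AddSubgroup.toSubgroup S.toAddSubgroup).comap π, ⟨?_, ?_⟩, ?_⟩
      · refine ⟨⟨fun a b => Subtype.ext ?_⟩⟩
        have ha : Multiplicative.toAdd (π a) ∈ S0 := hSle a.2
        have hb : Multiplicative.toAdd (π b) ∈ S0 := hSle b.2
        have h1 := h.swap (b : E) (a : E)
        rw [QuadraticMap.polar, hS0 _ (add_mem hb ha), hS0 _ ha, hS0 _ hb] at h1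
        simpa [zp] using h1
      · intro a ha'
        have ha : Multiplicative.toAdd (π a) ∈ S0 := hSle ha'
        rw [pow_two, h.sq, hS0 _ ha]
        simp [zp]
      · rw [Subgroup.card_eq_card_quotient_mul_card_subgroup
          ((AddSubgroup.toSubgroup S.toAddSubgroup).comap π)] at hcard
        have hidx : ((AddSubgroup.toSubgroup S.toAddSubgroup).comap π).index =
            (AddSubgroup.toSubgroup S.toAddSubgroup).index :=
          Subgroup.index_comap_of_surjective _ h.surj
        have h2 := (AddSubgroup.toSubgroup S.toAddSubgroup).card_mul_index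
        have hSc : Nat.card ↥(AddSubgroup.toSubgroup S.toAddSubgroup) = 2 ^ n := by
          rw [show Nat.card ↥(AddSubgroup.toSubgroup S.toAddSubgroup) = Nat.card ↥S from rfl,
            Module.natCard_eq_pow_finrank (K := ZMod 2), Nat.card_zmod,
            finrank_span_eq_card hsli, Fintype.card_fin]
        rw [hSc, ← hidx, Nat.card_congr Multiplicative.toAdd, hV, two_mul n, pow_add] at h2
        have hidx2 := Nat.eq_of_mul_eq_mul_left (by positivity) h2
        rw [Subgroup.index_eq_card] at hidx2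
        rw [hidx2] at hcard
        refine Nat.eq_of_mul_eq_mul_left (show 0 < 2 ^ n by positivity) ?_
        rw [hcard, ← pow_add]
        congr 1
        omega
    obtain ⟨e, he⟩ := exists_qMinus_isom h.nondeg hn hd hno'
    rw [← Forms.coe_qMinus]
    exact out_equiv (transport h e _ he (Forms.qMinus_nondegenerate 1 1 (by decide)))

end Cfsg.Agent.S5432
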