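import Cfsg.Statements.S5434
import Cfsg.Agent.Fischer.Large
import Mathlib
-- import your own Cfsg.Agent.* helpers here

set_option autoImplicit false
open Cfsg
open scoped commutatorElement

namespace Cfsg.Agent.S5434

section

variable {G : Type*} [Group G] [Finite G]

theorem extraspecial_factor {Q K L : Subgroup G} {z : G} (hQp : IsPGroup 2 Q) (hzQ : z ∈ Q) (hz1 : z ≠ 1)
    (hzc : ∀ q ∈ Q, q * z = z * q) (hcen : ∀ w ∈ Q, (∀ q ∈ Q, q * w = w * q) → w = 1 ∨ w = z)
    (hbr : ∀ a ∈ Q, ∀ b ∈ Q, ⁅a, b⁆ = 1 ∨ ⁅a, b⁆ = z) (hsq : ∀ a ∈ Q, a * a = 1 ∨ a * a = z)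
    (hKQ : K ≤ Q) (hsup : Q ≤ K ⊔ L)
    (hcomm : ∀ x ∈ K, ∀ y ∈ L, x * y = y * x) {w : G} (hw : w ∈ K) (hw' : w ≠ 1 ∧ w ≠ z) :
    IsExtraspecial 2 K := by
  haveI := Fact.mk Nat.prime_two
  have hKp : IsPGroup 2 K := hQp.to_le hKQ
  have hall : ∀ v ∈ K, (∀ k ∈ K, k * v = v * k) → v = 1 ∨ v = z := by
    intro v hv h
    refine hcen v (hKQ hv) fun q hq => ?_
    have hle : K ⊔ L ≤ Subgroup.centralizer {v} := sup_le
      (fun k hk => Subgroup.mem_centralizer_singleton_iff.2 (h k hk))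
      (fun y hy => Subgroup.mem_centralizer_singleton_iff.2 (hcomm v hv y hy).symm)
    exact Subgroup.mem_centralizer_singleton_iff.1 (hle (hsup hq))
  obtain ⟨k, hk, hkw⟩ : ∃ k ∈ K, k * w ≠ w * k := by
    by_contra h
    push Not at h
    exact (hall w hw h).elim hw'.1 hw'.2
  have hkwz : ⁅k, w⁆ = z := (hbr k (hKQ hk) w (hKQ hw)).resolve_left
    fun e => hkw (commutatorElement_eq_one_iff_mul_comm.1 e)
  have hzK : z ∈ K := hkwz ▸ Subgroup.commutator_le_self K (Subgroup.commutator_mem_commutator hk hw)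
  set ζ : K := ⟨z, hzK⟩
  have hζ : ζ ∈ Subgroup.center K := Subgroup.mem_center_iff.2 fun g => Subtype.ext (hzc g (hKQ g.2))
  have hZeq : ∀ v : K, v ∈ Subgroup.center K ↔ v = 1 ∨ v = ζ := by
    intro v
    constructor
    · intro hv
      rcases hall v v.2 (fun g hg => congrArg Subtype.val (Subgroup.mem_center_iff.1 hv ⟨g, hg⟩)) with e | e
      · exact Or.inl (Subtype.ext e)
      · exact Or.inr (Subtype.ext e)
    · rintro (rfl | rfl)
      · exact one_mem _
      · exact hζ
  have hle : commutator K ≤ Subgroup.center K := by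
    rw [commutator_def, Subgroup.commutator_le]
    intro a _ b _
    refine (hZeq _).2 ?_
    rcases hbr a (hKQ a.2) b (hKQ b.2) with e | e
    · exact Or.inl (Subtype.ext e)
    · exact Or.inr (Subtype.ext e)
  have hge : Subgroup.center K ≤ commutator K := by
    intro v hv
    rcases (hZeq v).1 hv with rfl | rfl
    · exact one_mem _
    · have : ⁅(⟨k, hk⟩ : K), ⟨w, hw⟩⁆ = ζ := Subtype.ext hkwz
      exact this ▸ Subgroup.commutator_mem_commutator (Subgroup.mem_top _) (Subgroup.mem_top _)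
  refine ⟨⟨hKp, le_antisymm ?_ ?_, le_antisymm hle hge⟩, ?_⟩
  · refine FGS3.frattini_le_of_elementary (p := 2) hle fun a => (hZeq _).2 ?_
    rcases hsq a (hKQ a.2) with e | e
    · exact Or.inl (Subtype.ext (by simpa [pow_two] using e))
    · exact Or.inr (Subtype.ext (by simpa [pow_two] using e))
  · exact hge.trans (FGS3.commutator_le_frattini hKp)
  · refine Nat.card_eq_two_iff.2 ⟨1, ⟨ζ, hζ⟩, fun e => hz1 (by simpa [ζ] using (congrArg (fun v : Subgroup.center K => ((v : K) : G)) e).symm),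
      Set.eq_univ_of_forall fun v => ?_⟩
    rcases (hZeq v).1 v.2 with e | e
    · exact Or.inl (Subtype.ext e)
    · exact Or.inr (Subtype.ext e)

end

/-- Let Q be a large extraspecial 2-subgroup of the finite group G (extraspecial; centralizer equal to its centre; normal in the centralizer of its centre; normalizing no non-trivial subgroup of odd order), and A a non-trivial subgroup of odd order of the normalizer of Q. Then Q is the central product of the centralizer of A in Q and the commutator subgroup [Q, A] (they generate Q and commute elementwise), [Q, A] is extraspecial, and the centralizer of A in Q is either the centre of Q or extraspecial. -/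
theorem result {G : Type*} [Group G] [Finite G] (Q : Subgroup G) (hQ : Cfsg.IsLargeExtraspecial Q) (A : Subgroup G) (hA : A ≤ Subgroup.normalizer (Q : Set G)) (hAodd : Odd (Nat.card ↥A)) (hA1 : A ≠ ⊥) : (Q ⊓ Subgroup.centralizer (A : Set G)) ⊔ ⁅Q, A⁆ = Q ∧ (∀ x ∈ Q ⊓ Subgroup.centralizer (A : Set G), ∀ y ∈ ⁅Q, A⁆, x * y = y * x) ∧ Cfsg.IsExtraspecial 2 ↥⁅Q, A⁆ ∧ (Q ⊓ Subgroup.centralizer (A : Set G) = ((Subgroup.center ↥Q).map Q.subtype) ∨ Cfsg.IsExtraspecial 2 ↥(Q ⊓ Subgroup.centralizer (A : Set G))) := by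
  classical
  haveI := Fact.mk Nat.prime_two
  obtain ⟨hE, hCQ, -, -⟩ := hQ
  have hQp : IsPGroup 2 Q := hE.1.1
  obtain ⟨⟨ζ, hζc⟩, hζ1⟩ : ∃ u : Subgroup.center Q, u ≠ 1 := by
    haveI : Nontrivial (Subgroup.center Q) := Finite.one_lt_card_iff_nontrivial.1 (by rw [hE.2]; norm_num)
    exact exists_ne 1
  set z : G := (ζ : G)
  have hz1 : z ≠ 1 := fun e => hζ1 (Subtype.ext (Subtype.ext e))
  have hzc : ∀ q ∈ Q, q * z = z * q := fun q hq =>
    congrArg Subtype.val (Subgroup.mem_center_iff.1 hζc ⟨q, hq⟩)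
  have hcen' : ∀ w : Q, w ∈ Subgroup.center Q → w = 1 ∨ w = ζ := fun w hw => by
    by_cases h : w = 1
    · exact Or.inl h
    · exact Or.inr (congrArg Subtype.val
        (Fischer.eq_of_center_two hE ⟨w, hw⟩ ⟨ζ, hζc⟩ (fun e => h (congrArg Subtype.val e)) hζ1))
  have hcen : ∀ w ∈ Q, (∀ q ∈ Q, q * w = w * q) → w = 1 ∨ w = z := fun w hw h => by
    rcases hcen' ⟨w, hw⟩ (Subgroup.mem_center_iff.2 fun g => Subtype.ext (h g g.2)) with e | e
    · exact Or.inl (congrArg Subtype.val e)
    · exact Or.inr (congrArg Subtype.val e)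
  have hbr : ∀ a ∈ Q, ∀ b ∈ Q, ⁅a, b⁆ = 1 ∨ ⁅a, b⁆ = z := fun a ha b hb => by
    rcases hcen' ⁅(⟨a, ha⟩ : Q), ⟨b, hb⟩⁆
      (hE.1.2.2 ▸ Subgroup.commutator_mem_commutator (Subgroup.mem_top _) (Subgroup.mem_top _)) with e | e
    · exact Or.inl (congrArg Subtype.val e)
    · exact Or.inr (congrArg Subtype.val e)
  have hsqm : ∀ a : Q, a * a ∈ Subgroup.center Q := fun a => by
    have := FGS3.pow_mem_frattini (p := 2) hQp a
    rwa [hE.1.2.1, pow_two] at this
  have hsq : ∀ a ∈ Q, a * a = 1 ∨ a * a = z := fun a ha => by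
    rcases hcen' _ (hsqm ⟨a, ha⟩) with e | e
    · exact Or.inl (congrArg Subtype.val e)
    · exact Or.inr (congrArg Subtype.val e)
  have hconj : ∀ a ∈ A, ∀ q ∈ Q, a * q * a⁻¹ ∈ Q := fun a ha q hq =>
    (Subgroup.mem_normalizer_iff.1 (hA ha) q).1 hq
  have hzA : ∀ a ∈ A, a * z = z * a := by
    intro a ha
    rcases hcen _ (hconj a ha z ζ.2) (fun q hq => by
      have h1 := hzc _ (hconj a⁻¹ (inv_mem ha) q hq)
      rw [inv_inv] at h1
      calc q * (a * z * a⁻¹) = a * ((a⁻¹ * q * a) * z) * a⁻¹ := by group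
        _ = a * (z * (a⁻¹ * q * a)) * a⁻¹ := by rw [h1]
        _ = a * z * a⁻¹ * q := by group) with e | e
    · exact absurd (conj_eq_one_iff.1 e) hz1
    · exact mul_inv_eq_iff_eq_mul.1 e
  set C := Q ⊓ Subgroup.centralizer (A : Set G) with hCdef
  set R := ⁅Q, A⁆ with hRdef
  have hRQ : R ≤ Q := Subgroup.le_normalizer_iff_commutator_le_left.1 hA
  have hzC : z ∈ C := ⟨ζ.2, Subgroup.mem_centralizer_iff.2 fun a ha => hzA a ha⟩
  -- C and R commute
  have hCR : ∀ x ∈ C, ∀ y ∈ R, x * y = y * x := by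
    intro c hc
    suffices R ≤ Subgroup.centralizer {c} from fun y hy =>
      (Subgroup.mem_centralizer_singleton_iff.1 (this hy)).symm
    rw [hRdef, Subgroup.commutator_le]
    intro q hq a ha
    rw [Subgroup.mem_centralizer_singleton_iff]
    have hca : a * c = c * a := Subgroup.mem_centralizer_iff.1 hc.2 a ha
    obtain ⟨v, hv, hcq⟩ : ∃ v : G, (v = 1 ∨ v = z) ∧ c * q = v * (q * c) := by
      refine ⟨_, hbr c hc.1 q hq, ?_⟩
      rw [commutatorElement_def]; group
    have hva : a * v = v * a ∧ q * v = v * q := by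
      rcases hv with rfl | rfl
      · simp
      · exact ⟨hzA a ha, hzc q hq⟩
    have h1 : c * q * c⁻¹ = v * q := by rw [hcq]; group
    have h2 : c * a * c⁻¹ = a := by rw [← hca]; group
    have h3 : c * ⁅q, a⁆ * c⁻¹ = ⁅q, a⁆ := by
      calc c * ⁅q, a⁆ * c⁻¹ = ⁅c * q * c⁻¹, c * a * c⁻¹⁆ := by simp only [commutatorElement_def]; group
        _ = ⁅v * q, a⁆ := by rw [h1, h2]
        _ = v * ⁅q, a⁆ * (a * v⁻¹ * a⁻¹) := by simp only [commutatorElement_def]; group
        _ = v * ⁅q, a⁆ * v⁻¹ := by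
          have : a * v⁻¹ * a⁻¹ = v⁻¹ := by
            rw [show a * v⁻¹ = v⁻¹ * a from (Commute.inv_right hva.1).eq]; group
          rw [this]
        _ = ⁅q, a⁆ := by
          have hqa : ⁅q, a⁆ ∈ Q := hRQ (Subgroup.commutator_mem_commutator hq ha)
          rcases hv with rfl | rfl
          · simp
          · rw [← hzc _ hqa, mul_inv_cancel_right]
    exact (mul_inv_eq_iff_eq_mul.1 h3).symm
  -- Q = C R by averaging modulo the centre
  have hsupQ : C ⊔ R = Q := by
    refine le_antisymm (sup_le inf_le_left hRQ) fun x hx => ?_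
    set Z := Subgroup.center Q
    letI : CommGroup (Q ⧸ Z) :=
      { (inferInstance : Group (Q ⧸ Z)) with
        mul_comm := by
          rintro ⟨a⟩ ⟨b⟩
          refine QuotientGroup.eq.2 ?_
          have : ⁅b⁻¹, a⁻¹⁆ ∈ Z := hE.1.2.2.le
            (Subgroup.commutator_mem_commutator (Subgroup.mem_top _) (Subgroup.mem_top _))
          simpa [commutatorElement_def, mul_assoc] using this }
    haveI := Fintype.ofFinite A
    let f : A → Q →* Q := fun a =>
      MonoidHom.mk' (fun q => ⟨a * q * (a : G)⁻¹, hconj a a.2 q q.2⟩) fun u v => Subtype.ext (by simp [mul_assoc])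
    have hfZ : ∀ a, Z ≤ Z.comap (f a) := fun a v hv => by
      rcases hcen' v hv with e | e
      · subst e; simp
      · rw [e, Subgroup.mem_comap, show f a ζ = ζ from Subtype.ext (mul_inv_eq_iff_eq_mul.2 (hzA a a.2))]
        exact hζc
    let π := QuotientGroup.mk' Z
    obtain ⟨y, hy⟩ := QuotientGroup.mk'_surjective Z (∏ a : A, π (f a ⟨x, hx⟩))
    have hyfix : ∀ b : A, π (f b y) = π y := by
      intro b
      calc π (f b y) = QuotientGroup.map Z Z (f b) (hfZ b) (π y) := rfl
        _ = ∏ a : A, π (f (b * a) ⟨x, hx⟩) := by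
          rw [hy, map_prod]
          refine Finset.prod_congr rfl fun a _ => ?_
          show π (f b (f a ⟨x, hx⟩)) = _
          exact congrArg π (Subtype.ext (by simp [f, mul_assoc]))
        _ = π y := by
          rw [hy]; exact Fintype.prod_equiv (Equiv.mulLeft b) _ _ fun a => rfl
    have hyC : (y : G) ∈ C := by
      refine ⟨y.2, Subgroup.mem_centralizer_iff.2 fun a ha => ?_⟩
      have h1 := QuotientGroup.eq.1 (hyfix ⟨a, ha⟩)
      rcases hcen' _ h1 with e | e
      · have e' := congrArg Subtype.val e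
        simp [f] at e'
        have : a * (y : G) * a⁻¹ = y := by
          have := congrArg (fun t => a * (y : G) * a⁻¹ * t) e'
          simpa [mul_assoc] using this.symm
        exact mul_inv_eq_iff_eq_mul.1 this
      · exfalso
        have h2 : (a * (y : G) * a⁻¹)⁻¹ * y = z := congrArg Subtype.val e
        have h3 : a * y * a⁻¹ = (y : G) * z⁻¹ := by rw [← h2]; group
        have hiter : ∀ n : ℕ, a ^ n * y * (a ^ n)⁻¹ = (y : G) * (z⁻¹) ^ n := by
          intro n
          induction n with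
          | zero => simp
          | succ n ih =>
            have hzn : a * z⁻¹ ^ n * a⁻¹ = z⁻¹ ^ n := by
              rw [show a * z⁻¹ ^ n = z⁻¹ ^ n * a from ((Commute.inv_right (hzA a ha)).pow_right n).eq]; group
            rw [pow_succ' a, mul_inv_rev]
            calc a * a ^ n * y * ((a ^ n)⁻¹ * a⁻¹) = a * (a ^ n * y * (a ^ n)⁻¹) * a⁻¹ := by group
              _ = (a * y * a⁻¹) * (a * z⁻¹ ^ n * a⁻¹) := by rw [ih]; group
              _ = y * z⁻¹ ^ (n + 1) := by rw [h3, hzn, pow_succ']; group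
        have h4 := hiter (orderOf a)
        rw [pow_orderOf_eq_one, one_mul, inv_one, mul_one, left_eq_mul] at h4
        have hz2 : orderOf z⁻¹ = 2 := by
          have := orderOf_dvd_natCard (⟨ζ, hζc⟩ : Z)
          rw [hE.2] at this
          rw [orderOf_inv]
          rcases (Nat.dvd_prime Nat.prime_two).1 this with e | e
          · exact absurd (orderOf_eq_one_iff.1 e) hζ1
          · rwa [Subgroup.orderOf_mk, ← Subgroup.orderOf_coe] at e
        have h5 := (hz2 ▸ orderOf_dvd_of_pow_eq_one h4 : 2 ∣ orderOf a).trans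
          (Subgroup.orderOf_dvd_natCard A ha)
        exact Nat.not_even_iff_odd.2 hAodd (even_iff_two_dvd.2 h5)
    -- x ≡ y modulo Z R
    let M : Subgroup Q := Z ⊔ R.subgroupOf Q
    haveI : M.Normal := ⟨fun n hn g => by
      have : ⁅g, n⁆ ∈ M := Subgroup.mem_sup_left (hE.1.2.2.le
        (Subgroup.commutator_mem_commutator (Subgroup.mem_top _) (Subgroup.mem_top _)))
      have := M.mul_mem this hn
      rwa [show ⁅g, n⁆ * n = g * n * g⁻¹ by rw [commutatorElement_def]; group] at this⟩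
    letI : CommGroup (Q ⧸ M) :=
      { (inferInstance : Group (Q ⧸ M)) with
        mul_comm := by
          rintro ⟨a⟩ ⟨b⟩
          refine QuotientGroup.eq.2 (Subgroup.mem_sup_left ?_)
          have : ⁅b⁻¹, a⁻¹⁆ ∈ Z := hE.1.2.2.le
            (Subgroup.commutator_mem_commutator (Subgroup.mem_top _) (Subgroup.mem_top _))
          simpa [commutatorElement_def, mul_assoc] using this }
    let ρ : Q ⧸ Z →* Q ⧸ M := QuotientGroup.map Z M (MonoidHom.id Q) le_sup_left
    have h6 : ρ (π y) = ρ (π ⟨x, hx⟩) ^ Fintype.card A := by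
      rw [hy, ← map_pow, ← Finset.card_univ, ← Finset.prod_const, map_prod, map_prod]
      refine Finset.prod_congr rfl fun a _ => ?_
      show ((f a ⟨x, hx⟩ : Q) : Q ⧸ M) = ((⟨x, hx⟩ : Q) : Q ⧸ M)
      refine QuotientGroup.eq.2 (Subgroup.mem_sup_right ?_)
      have hr : ⁅x⁻¹, (a : G)⁆⁻¹ ∈ R := inv_mem (Subgroup.commutator_mem_commutator (inv_mem hx) a.2)
      rw [Subgroup.mem_subgroupOf]
      simpa [f, commutatorElement_def, mul_assoc] using hr
    obtain ⟨m, hm⟩ : Odd (Fintype.card A) := by rwa [← Nat.card_eq_fintype_card]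
    have h7 : ρ (π y) = ρ (π ⟨x, hx⟩) := by
      have : π ⟨x, hx⟩ * π ⟨x, hx⟩ = 1 := by
        rw [← map_mul]; exact (QuotientGroup.eq_one_iff _).2 (hsqm _)
      rw [h6, ← map_pow, hm, pow_succ, pow_mul, pow_two, this, one_pow, one_mul]
    have h8 : y⁻¹ * ⟨x, hx⟩ ∈ M := QuotientGroup.eq.1 h7
    have hM : M.map Q.subtype ≤ C ⊔ R := by
      rw [Subgroup.map_sup]
      refine sup_le ?_ (le_trans ?_ le_sup_right)
      · rintro _ ⟨v, hv, rfl⟩
        rcases hcen' v hv with rfl | rfl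
        · exact one_mem _
        · exact Subgroup.mem_sup_left hzC
      · rintro _ ⟨v, hv, rfl⟩
        exact hv
    have := (C ⊔ R).mul_mem (Subgroup.mem_sup_left hyC) (hM (Subgroup.mem_map_of_mem _ h8))
    simpa using this
  have hR : ∃ w ∈ R, w ≠ 1 ∧ w ≠ z := by
    by_contra h
    push Not at h
    apply hA1
    have hQC : Q ≤ C := hsupQ ▸ sup_le le_rfl (fun w hw => by
      by_cases e : w = 1
      · exact e ▸ one_mem _
      · exact (h w hw e) ▸ hzC)
    have hAQ : A ≤ Subgroup.centralizer (Q : Set G) := fun a ha =>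
      Subgroup.mem_centralizer_iff.2 fun q hq => (Subgroup.mem_centralizer_iff.1 (hQC hq).2 a ha).symm
    rw [hCQ] at hAQ
    have := Fischer.inf_bot_of_odd_two hAodd hQp
    rwa [inf_eq_left.2 (hAQ.trans (Subgroup.map_subtype_le _))] at this
  obtain ⟨w, hw, hw'⟩ := hR
  refine ⟨hsupQ, hCR, extraspecial_factor hQp ζ.2 hz1 hzc hcen hbr hsq hRQ (by rw [sup_comm, hsupQ])
    (fun x hx y hy => (hCR y hy x hx).symm) hw hw', ?_⟩
  by_cases h : ∃ v ∈ C, v ≠ 1 ∧ v ≠ z
  · obtain ⟨v, hv, hv'⟩ := h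
    exact Or.inr (extraspecial_factor hQp ζ.2 hz1 hzc hcen hbr hsq inf_le_left hsupQ.ge hCR hv hv')
  · push Not at h
    left
    refine le_antisymm (fun v hv => ?_) ?_
    · by_cases e : v = 1
      · exact e ▸ one_mem _
      · exact (h v hv e) ▸ Subgroup.mem_map_of_mem _ hζc
    · rintro _ ⟨v, hv, rfl⟩
      rcases hcen' v hv with e | e <;> rw [e]
      · exact one_mem _
      · exact hzC

end Cfsg.Agent.S5434
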