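import Cfsg.Statements.S5436
import Cfsg.Agent.Fischer.LargeSimple

set_option autoImplicit false
open Cfsg Cfsg.Agent Cfsg.Agent.Fischer

namespace Cfsg.Agent.S5436

/-- Let z be an involution of the finite group G with centralizer H whose generalized Fitting subgroup Q is extraspecial of width at least 2 (order 2^(2w+1), w ≥ 2); suppose some conjugate of z other than z lies in Q, H/Q is a non-abelian simple group, H acts irreducibly by conjugation on Q modulo the subgroup generated by z (the only H-invariant subgroups of Q containing z are that subgroup and Q), and Q is not the subgroup generated by the conjugates of z lying in H. Then G is simple. -/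
theorem result {G : Type*} [Group G] [Finite G] (z : G) (hz : orderOf z = 2) (Q : Subgroup (Subgroup.centralizer ({z} : Set G))) [Q.Normal] (hF : Cfsg.generalizedFittingSubgroup ↥(Subgroup.centralizer ({z} : Set G)) = Q) (hQ : Cfsg.IsExtraspecial 2 ↥Q) (w : ℕ) (hw : 2 ≤ w) (hcard : Nat.card ↥Q = 2 ^ (2 * w + 1)) (hnwc : ∃ g : G, (∃ hq : g * z * g⁻¹ ∈ Subgroup.centralizer ({z} : Set G), (⟨g * z * g⁻¹, hq⟩ : Subgroup.centralizer ({z} : Set G)) ∈ Q) ∧ g * z * g⁻¹ ≠ z) (hsimp : IsSimpleGroup (↥(Subgroup.centralizer ({z} : Set G)) ⧸ Q)) (hna : ¬ IsMulCommutative (↥(Subgroup.centralizer ({z} : Set G)) ⧸ Q)) (hirr : ∀ W : Subgroup (Subgroup.centralizer ({z} : Set G)), W.Normal → W ≤ Q → (W = Q ∨ ∀ x ∈ W, (x : G) ∈ Subgroup.zpowers z)) (hwcl : Subgroup.closure {x : Subgroup.centralizer ({z} : Set G) | IsConj z (x : G)} ≠ Q) : IsSimpleGroup G := by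
  set Q' := Q.map (Subgroup.centralizer ({z} : Set G)).subtype with hQ'
  have hQC : Q' ≤ (Subgroup.centralizer ({z} : Set G)) := Subgroup.map_subtype_le _
  let e : ↥Q ≃* ↥Q' := Subgroup.equivMapOfInjective Q (Subgroup.centralizer ({z} : Set G)).subtype (Subgroup.centralizer ({z} : Set G)).subtype_injective
  have hQE : IsExtraspecial 2 ↥Q' := by
    obtain ⟨hsp, hcen⟩ := hQ
    exact Cfsg.Agent.Fischer.extraspecial_congr e ⟨hsp, hcen⟩
  obtain ⟨hcore, -⟩ := coreLike_of_fstar hz hQC (by rw [hF]) hQE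
  have hcard' : Nat.card ↥Q' = 2 ^ (2 * w + 1) := (Nat.card_congr e.toEquiv).symm.trans hcard
  obtain ⟨g, ⟨hgC, hgQ⟩, hgne⟩ := hnwc
  have hlarge := large_of_conj hcore hQE hw hcard' (g := g) ⟨_, hgQ, rfl⟩ hgne
  refine simple_of_large hcore hlarge fun N hN hzN => ?_
  set S := {x : ↥(Subgroup.centralizer ({z} : Set G)) | IsConj z (x : G)} with hS
  have hSN : Subgroup.closure S ≤ N.subgroupOf (Subgroup.centralizer ({z} : Set G)) := by
    rw [Subgroup.closure_le]
    intro x hx
    obtain ⟨c, hc⟩ := isConj_iff.1 hx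
    show (x : G) ∈ N
    rw [← hc]; exact hN.conj_mem z hzN c
  haveI hW : (Subgroup.closure S).Normal := by
    refine ⟨fun x hx a => ?_⟩
    induction hx using Subgroup.closure_induction with
    | mem y hy => exact Subgroup.subset_closure (IsConj.trans hy (isConj_iff.2 ⟨(a : G), rfl⟩))
    | one => simp
    | mul y y' _ _ ih ih' => simpa [mul_assoc] using mul_mem ih ih'
    | inv y _ ih => simpa [mul_assoc] using inv_mem ih
  have hgW : (⟨g * z * g⁻¹, hgC⟩ : ↥(Subgroup.centralizer ({z} : Set G))) ∈ Subgroup.closure S := Subgroup.subset_closure (isConj_iff.2 ⟨g, rfl⟩)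
  have hQW : Q ≤ Subgroup.closure S := by
    rcases hirr (Subgroup.closure S ⊓ Q) inferInstance inf_le_right with e | e
    · exact e ▸ inf_le_left
    · exfalso
      have := e _ ⟨hgW, hgQ⟩
      rw [← core_center_eq hcore] at this
      obtain ⟨c, hc, e'⟩ := this
      rcases hcore.center c c.2 (fun a ha => congrArg Subtype.val (Subgroup.mem_center_iff.1 hc ⟨a, ha⟩)) with r | r
      · exact hcore.ne (conj_eq_one_iff.1 (e'.symm.trans r))
      · exact hgne (e'.symm.trans r)
  haveI : ((Subgroup.closure S).map (QuotientGroup.mk' Q)).Normal := hW.map _ (QuotientGroup.mk'_surjective Q)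
  rcases hsimp.eq_bot_or_eq_top_of_normal ((Subgroup.closure S).map (QuotientGroup.mk' Q)) inferInstance with e | e
  · refine absurd (le_antisymm ?_ hQW) hwcl
    intro x hx
    have : QuotientGroup.mk' Q x ∈ (Subgroup.closure S).map (QuotientGroup.mk' Q) := Subgroup.mem_map_of_mem _ hx
    rw [e, Subgroup.mem_bot] at this
    exact (QuotientGroup.eq_one_iff x).1 this
  · intro c hc
    have : QuotientGroup.mk' Q ⟨c, hc⟩ ∈ (Subgroup.closure S).map (QuotientGroup.mk' Q) := e ▸ Subgroup.mem_top _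
    obtain ⟨a, ha, e'⟩ := this
    have h2 : a⁻¹ * ⟨c, hc⟩ ∈ Q := QuotientGroup.eq.1 e'
    have h3 := mul_mem ha (hQW h2)
    rw [mul_inv_cancel_left] at h3
    exact hSN h3

end Cfsg.Agent.S5436
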