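import Cfsg.Statements.S5437
import Cfsg.Agent.Fischer.RankOne

set_option autoImplicit false
open Cfsg Cfsg.Agent.Fischer

namespace Cfsg.Agent.S5437

/-- Let I be a set of involutions of the finite group G closed under conjugation, and H a subgroup of G. The following are equivalent: (1) for every member x of I lying in H, the conjugates of x lying in H form a single H-class and the centralizer of x lies in H; (2) for every g outside H, no member of I lies in both H and g H g⁻¹; (3) every member of I lying in H fixes exactly one coset in the action of G on the cosets of H. -/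
theorem result {G : Type*} [Group G] [Finite G] (I : Set G) (hI : ∀ x ∈ I, orderOf x = 2) (hIc : ∀ g : G, ∀ x ∈ I, g * x * g⁻¹ ∈ I) (H : Subgroup G) : ((∀ x ∈ I, x ∈ H → (∀ g : G, g * x * g⁻¹ ∈ H → ∃ h ∈ H, h * x * h⁻¹ = g * x * g⁻¹) ∧ Subgroup.centralizer ({x} : Set G) ≤ H) ↔ (∀ g : G, g ∉ H → ∀ x ∈ I, ¬ (x ∈ H ∧ x ∈ (H : Subgroup G).map (MulAut.conj g).toMonoidHom))) ∧ ((∀ g : G, g ∉ H → ∀ x ∈ I, ¬ (x ∈ H ∧ x ∈ (H : Subgroup G).map (MulAut.conj g).toMonoidHom)) ↔ ∀ x ∈ I, x ∈ H → ∃! c : G ⧸ H, x • c = c) := by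
  refine ⟨⟨?_, ?_⟩, ⟨?_, ?_⟩⟩
  · intro h g hg x hx hxm
    obtain ⟨hxH, hxg⟩ := hxm
    rw [mem_cb] at hxg
    have hy : g⁻¹ * x * g ∈ I := by simpa using hIc g⁻¹ x hx
    obtain ⟨k, hk, e⟩ := (h _ hy hxg).1 g (by simpa [mul_assoc] using hxH)
    have hc : g * k⁻¹ ∈ Subgroup.centralizer ({x} : Set G) := by
      rw [Subgroup.mem_centralizer_singleton_iff]
      have e' : k * (g⁻¹ * x * g) * k⁻¹ = x := e.trans (by group)
      calc g * k⁻¹ * x = g * k⁻¹ * (k * (g⁻¹ * x * g) * k⁻¹) := by rw [e']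
        _ = x * (g * k⁻¹) := by group
    have := mul_mem ((h x hx hxH).2 hc) hk
    exact hg (by simpa using this)
  · intro h x hx hxH
    refine ⟨fun g hg => ⟨g, ?_, rfl⟩, fun c hc => ?_⟩
    · by_contra hgH
      exact h g⁻¹ (fun e => hgH (inv_mem_iff.1 e)) x hx ⟨hxH, mem_cb.2 (by simpa using hg)⟩
    · by_contra hcH
      rw [Subgroup.mem_centralizer_singleton_iff] at hc
      refine h c hcH x hx ⟨hxH, mem_cb.2 ?_⟩
      rw [mul_assoc, ← hc]; simpa using hxH
  · intro h x hx hxH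
    refine ⟨((1 : G) : G ⧸ H), ?_, ?_⟩
    · show ((x * 1 : G) : G ⧸ H) = _
      rw [QuotientGroup.eq]; simpa using hxH
    · intro c hc
      obtain ⟨k, rfl⟩ := QuotientGroup.mk_surjective c
      have hk : ((x * k : G) : G ⧸ H) = (k : G ⧸ H) := hc
      rw [QuotientGroup.eq] at hk ⊢
      simp only [mul_one]
      by_contra hne
      refine h k (fun e => hne (inv_mem e)) x hx ⟨hxH, mem_cb.2 ?_⟩
      simpa [mul_assoc] using inv_mem hk
  · intro h g hg x hx hxm
    obtain ⟨hxH, hxg⟩ := hxm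
    rw [mem_cb] at hxg
    obtain ⟨c, -, huniq⟩ := h x hx hxH
    have h1 : x • ((1 : G) : G ⧸ H) = ((1 : G) : G ⧸ H) := by
      show ((x * 1 : G) : G ⧸ H) = _
      rw [QuotientGroup.eq]; simpa using hxH
    have h2 : x • (g : G ⧸ H) = (g : G ⧸ H) := by
      show ((x * g : G) : G ⧸ H) = _
      rw [QuotientGroup.eq]
      simpa [mul_assoc] using inv_mem hxg
    have := (huniq _ h2).trans (huniq _ h1).symm
    rw [QuotientGroup.eq] at this
    exact hg (by simpa using this)

end Cfsg.Agent.S5437
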