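import Cfsg.Statements.S5438
import Cfsg.Agent.Fischer.RankOne

set_option autoImplicit false
open Cfsg Cfsg.Agent.Fischer

namespace Cfsg.Agent.S5438

/-- Let z be a 2-central involution of the finite group G (an involution central in some Sylow 2-subgroup) and H a subgroup containing z such that the coset H is the only coset of H fixed by z (in the action of G on the cosets of H). Then H has odd index in G, and for every 2-element x of H the conjugates of x lying in H form a single H-class. -/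
theorem result {G : Type*} [Group G] [Finite G] (z : G) (hz : Cfsg.IsTwoCentralInvolution z) (H : Subgroup G) (hzH : z ∈ H) (hfix : ∀ g : G, g⁻¹ * z * g ∈ H → g ∈ H) : Odd H.index ∧ ∀ x ∈ H, (∃ k : ℕ, orderOf x = 2 ^ k) → ∀ g : G, g * x * g⁻¹ ∈ H → ∃ h ∈ H, h * x * h⁻¹ = g * x * g⁻¹ := by
  obtain ⟨hz2, P, hzP, hzc⟩ := hz
  have hsyl : ∀ (P' : Sylow 2 G), z ∈ (P' : Subgroup G) → (P' : Subgroup G) ≤ H := by
    intro P' hzP'
    obtain ⟨k, hk⟩ := MulAction.exists_smul_eq G P P'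
    have hmem : ∀ y, y ∈ (P' : Subgroup G) ↔ k⁻¹ * y * k ∈ (P : Subgroup G) := by
      intro y; rw [← hk, Sylow.smul_def]; exact mem_cb (A := (P : Subgroup G))
    have hPH : ∀ y ∈ (P : Subgroup G), y ∈ H := fun y hy => hfix y (by
      rw [mul_assoc, ← hzc y hy, inv_mul_cancel_left]; exact hzH)
    have hz' : k⁻¹ * z * k ∈ H := hPH _ ((hmem z).1 hzP')
    have hkH : k ∈ H := hfix k hz'
    intro y hy
    have := mul_mem (mul_mem hkH (hPH _ ((hmem y).1 hy))) (inv_mem hkH)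
    simpa [mul_assoc] using this
  refine ⟨?_, ?_⟩
  · haveI := Fact.mk Nat.prime_two
    have hnd := P.not_dvd_index
    rw [Nat.odd_iff, ← Nat.two_dvd_ne_zero]
    exact fun h => hnd (h.trans (Subgroup.index_dvd_of_le (hsyl P hzP)))
  · intro x hxH hx2 g hgH
    obtain ⟨k, hk⟩ := hx2
    haveI := Fact.mk Nat.prime_two
    -- move both x and g x g⁻¹ into P, where z is central
    have hsub : ∀ y ∈ H, (∃ k : ℕ, orderOf y = 2 ^ k) → ∃ h ∈ H, h * y * h⁻¹ ∈ (P : Subgroup G) := by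
      intro y hy hy2
      obtain ⟨j, hj⟩ := hy2
      have hp : IsPGroup 2 (Subgroup.zpowers (⟨y, hy⟩ : H)) :=
        IsPGroup.of_card (n := j) (by rw [Nat.card_zpowers, Subgroup.orderOf_mk, hj])
      obtain ⟨Q, hQ⟩ := hp.exists_le_sylow
      let PH : Sylow 2 H := P.subtype (hsyl P hzP)
      obtain ⟨h, hh⟩ := MulAction.exists_smul_eq H Q PH
      refine ⟨h, h.2, ?_⟩
      have : (MulAut.conj h) (⟨y, hy⟩ : H) ∈ (PH : Subgroup H) := by
        rw [← hh, Sylow.smul_def]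
        exact ⟨_, hQ (Subgroup.mem_zpowers _), rfl⟩
      exact this
    have hy2 : ∃ k : ℕ, orderOf (g * x * g⁻¹) = 2 ^ k :=
      ⟨k, by rw [show g * x * g⁻¹ = MulAut.conj g x from rfl, MulEquiv.orderOf_eq, hk]⟩
    obtain ⟨h₁, hh₁, hx1⟩ := hsub x hxH ⟨k, hk⟩
    obtain ⟨h₂, hh₂, hy1⟩ := hsub _ hgH hy2
    set x' := h₁ * x * h₁⁻¹ with hx'
    set g' := h₂ * g * h₁⁻¹ with hg'
    have hy' : g' * x' * g'⁻¹ ∈ (P : Subgroup G) := by
      convert hy1 using 1
      rw [hx', hg']; group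
    set C := Subgroup.centralizer ({x'} : Set G)
    have hzC : z ∈ C := Subgroup.mem_centralizer_singleton_iff.2 (hzc x' hx1).symm
    have hz'C : g'⁻¹ * z * g' ∈ C := by
      rw [Subgroup.mem_centralizer_singleton_iff]
      have := hzc _ hy'
      calc g'⁻¹ * z * g' * x' = g'⁻¹ * (z * (g' * x' * g'⁻¹)) * g' := by group
        _ = g'⁻¹ * ((g' * x' * g'⁻¹) * z) * g' := by rw [this]
        _ = x' * (g'⁻¹ * z * g') := by group
    have mk2 : ∀ w : G, orderOf w = 2 → ∀ hw : w ∈ C, IsPGroup 2 (Subgroup.zpowers (⟨w, hw⟩ : C)) :=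
      fun w hw2 hw => IsPGroup.of_card (n := 1) (by rw [Nat.card_zpowers, Subgroup.orderOf_mk, hw2, pow_one])
    obtain ⟨T, hT⟩ := (mk2 z hz2 hzC).exists_le_sylow
    have hord' : orderOf (g'⁻¹ * z * g') = 2 := by
      have : g'⁻¹ * z * g' = MulAut.conj g'⁻¹ z := by simp
      rw [this, MulEquiv.orderOf_eq, hz2]
    obtain ⟨T', hT'⟩ := (mk2 _ hord' hz'C).exists_le_sylow
    obtain ⟨c, hc⟩ := MulAction.exists_smul_eq C T' T
    have hTH : ∀ y : C, y ∈ (T : Subgroup C) → (y : G) ∈ H := by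
      have hpg : IsPGroup 2 ((T : Subgroup C).map C.subtype) := T.2.map C.subtype
      obtain ⟨S', hS'⟩ := hpg.exists_le_sylow
      intro y hy
      exact hsyl S' (hS' ⟨⟨z, hzC⟩, hT (Subgroup.mem_zpowers _), rfl⟩) (hS' ⟨y, hy, rfl⟩)
    have hmem : (MulAut.conj c) (⟨_, hz'C⟩ : C) ∈ (T : Subgroup C) := by
      rw [← hc, Sylow.smul_def]
      exact ⟨_, hT' (Subgroup.mem_zpowers _), rfl⟩
    have hH1 : (c : G) * (g'⁻¹ * z * g') * (c : G)⁻¹ ∈ H := hTH _ hmem
    have hgc : g' * (c : G)⁻¹ ∈ H := hfix _ (by convert hH1 using 1; group)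
    refine ⟨h₂⁻¹ * (g' * (c : G)⁻¹) * h₁, mul_mem (mul_mem (inv_mem hh₂) hgc) hh₁, ?_⟩
    have hcx : (c : G) * x' = x' * (c : G) := Subgroup.mem_centralizer_singleton_iff.1 c.2
    calc h₂⁻¹ * (g' * (c : G)⁻¹) * h₁ * x * (h₂⁻¹ * (g' * (c : G)⁻¹) * h₁)⁻¹
        = h₂⁻¹ * g' * ((c : G)⁻¹ * (x' * (c : G))) * g'⁻¹ * h₂ := by rw [hx']; group
      _ = h₂⁻¹ * g' * ((c : G)⁻¹ * ((c : G) * x')) * g'⁻¹ * h₂ := by rw [hcx]
      _ = g * x * g⁻¹ := by rw [hx', hg']; group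

end Cfsg.Agent.S5438
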