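import Cfsg.Statements.S5439
import Cfsg.Agent.Components.Dihedral

set_option autoImplicit false
open Cfsg

namespace Cfsg.Agent.S5439

/-- Let I and J be two different conjugacy classes of involutions of the finite group G and H a subgroup such that every member of I ∪ J fixes exactly one coset in the action on the cosets of H, and such that for every a in I ∩ H and every b in (I ∪ J) ∩ H different from a and commuting with it, the centralizer of a b lies in H. Then H = G. -/
theorem result {G : Type*} [Group G] [Finite G] (I J : Set G) (a₀ b₀ : G) (ha₀ : orderOf a₀ = 2) (hb₀ : orderOf b₀ = 2) (hI : I = {x | IsConj a₀ x}) (hJ : J = {x | IsConj b₀ x}) (hIJ : I ≠ J) (H : Subgroup G) (hfix : ∀ x ∈ I ∪ J, ∃! c : G ⧸ H, x • c = c) (hcent : ∀ a ∈ I, a ∈ H → ∀ b ∈ I ∪ J, b ∈ H → a ≠ b → a * b = b * a → Subgroup.centralizer ({a * b} : Set G) ≤ H) : H = ⊤ := by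
  have hconjI : ∀ {K : Set G} {c x : G}, K = {y | IsConj c y} → x ∈ K → ∀ g : G, g * x * g⁻¹ ∈ K := by
    rintro K c x rfl hx g
    exact (show IsConj c x from hx).trans (isConj_iff.2 ⟨g, rfl⟩)
  have hordI : ∀ {K : Set G} {c x : G}, K = {y | IsConj c y} → orderOf c = 2 → x ∈ K → orderOf x = 2 := by
    rintro K c x rfl hc hx
    obtain ⟨g, rfl⟩ := isConj_iff.1 (show IsConj c x from hx)
    rw [show g * c * g⁻¹ = MulAut.conj g c from rfl, MulEquiv.orderOf_eq, hc]
  have hne : ∀ {a b}, a ∈ I → b ∈ J → ¬ IsConj a b := by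
    intro a b ha hb h
    apply hIJ
    rw [hI] at ha; rw [hJ] at hb
    have hab : IsConj a₀ b₀ := ((show IsConj a₀ a from ha).trans h).trans (show IsConj b₀ b from hb).symm
    rw [hI, hJ]
    ext y; exact ⟨fun hy => hab.symm.trans hy, fun hy => hab.trans hy⟩
  have hfixof : ∀ {x} {k : G}, x ∈ I ∪ J → k⁻¹ * x * k ∈ H → x • (k : G ⧸ H) = (k : G ⧸ H) := by
    intro x k _ h
    show ((x * k : G) : G ⧸ H) = _
    rw [QuotientGroup.eq]
    simpa [mul_assoc] using inv_mem h
  have hmemof : ∀ {x k : G}, x • (k : G ⧸ H) = (k : G ⧸ H) → k⁻¹ * x * k ∈ H := by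
    intro x k h
    rw [show x • (k : G ⧸ H) = ((x * k : G) : G ⧸ H) from rfl, QuotientGroup.eq] at h
    simpa [mul_assoc] using inv_mem h
  have huniq : ∀ {x k : G}, x ∈ I ∪ J → x ∈ H → k⁻¹ * x * k ∈ H → k ∈ H := by
    intro x k hx hxH hk
    have := (hfix x hx).unique (hfixof hx hk) (hfixof (k := 1) hx (by simpa using hxH))
    rw [QuotientGroup.eq] at this
    simpa using this
  have hexH : ∀ {K : Set G} {c : G}, K = {y | IsConj c y} → K ⊆ I ∪ J → ∃ a ∈ K, a ∈ H := by
    intro K c hK hsub
    have hc : c ∈ K := hK ▸ IsConj.refl c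
    obtain ⟨q, hq, -⟩ := hfix c (hsub hc)
    obtain ⟨k, rfl⟩ := QuotientGroup.mk_surjective q
    exact ⟨_, by simpa using hconjI hK hc k⁻¹, hmemof hq⟩
  obtain ⟨a, haI, haH⟩ := hexH hI Set.subset_union_left
  obtain ⟨b', hb'J, hb'H⟩ := hexH hJ Set.subset_union_right
  have hJH : ∀ b ∈ J, b ∈ H := by
    intro b hb
    have ha2 := hordI hI ha₀ haI
    have hb2 := hordI hJ hb₀ hb
    have hev : Even (orderOf (a * b)) := by
      rcases Nat.even_or_odd (orderOf (a * b)) with h | h
      · exact h
      · exact absurd (Cfsg.Agent.Components.isConj_of_odd ha2 hb2 h) (hne haI hb)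
    obtain ⟨hz2, hza, hzb⟩ := Cfsg.Agent.Components.central_involution ha2 hb2 (orderOf_pos _).ne' hev
    set z := (a * b) ^ (orderOf (a * b) / 2) with hzdef
    have hzH : z ∈ H := by
      refine huniq (Or.inl haI) haH ?_
      rw [mul_assoc, ← hza.eq, inv_mul_cancel_left]
      exact haH
    set k := orderOf (a * b) / 2 with hkdef
    have hk2 : k + k = orderOf (a * b) := by obtain ⟨m, hm⟩ := hev; omega
    have hax : ∀ n : ℕ, (a * b) ^ n * a = a * ((a * b) ^ n)⁻¹ := by
      intro n
      have := Cfsg.Agent.Components.zpow_mul_invol ha2 hb2 (n : ℤ)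
      rwa [zpow_natCast, zpow_neg, zpow_natCast] at this
    have haz : z * a ∈ I ∪ J := by
      rcases Nat.even_or_odd' k with ⟨i, hi | hi⟩
      · left
        have := hconjI hI haI ((a * b) ^ i)
        rwa [mul_assoc, ← hax i, ← mul_assoc, ← pow_add, show i + i = k by omega] at this
      · right
        have hb'' : a * b * a ∈ J := by
          have := hconjI hJ hb a
          rwa [Cfsg.Agent.Components.invol_inv ha2] at this
        have := hconjI hJ hb'' ((a * b) ^ i)
        rwa [show (a * b) ^ i * (a * b * a) * ((a * b) ^ i)⁻¹ = (a * b) ^ i * (a * b) * (a * ((a * b) ^ i)⁻¹) by group,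
          ← hax i, ← mul_assoc, ← pow_succ, ← pow_add, show i + 1 + i = k by omega] at this
    have hcent' := hcent a haI haH (z * a) haz (mul_mem hzH haH)
      (fun e => Cfsg.Agent.Components.invol_ne_one hz2 (mul_eq_right.1 e.symm))
      (hza.symm.mul_right (Commute.refl a))
    have hprod : a * (z * a) = z := by
      rw [← mul_assoc, ← hza.eq, mul_assoc, Cfsg.Agent.Components.invol_mul_self ha2, mul_one]
    rw [hprod] at hcent'
    exact hcent' (Subgroup.mem_centralizer_singleton_iff.2 hzb.eq.symm)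
  rw [eq_top_iff]
  intro g _
  refine huniq (Or.inr hb'J) hb'H ?_
  have := hconjI hJ hb'J g⁻¹
  exact hJH _ (by simpa using this)

end Cfsg.Agent.S5439
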