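import Cfsg.Statements.S5452
import Cfsg.Agent.Core.SUInvLift
import Cfsg.Agent.Forms.UnitaryOrder

set_option autoImplicit false
open Cfsg

namespace Cfsg.Agent.S5452

/-- Let G be a finite group with an involution d whose centralizer C is quasisimple with C modulo the subgroup generated by d isomorphic to the projective special unitary group of dimension 6 over the field with four elements, and suppose some conjugate of d other than d commutes with d. Then every involution of C modulo the subgroup generated by d is the image of an involution of C, and d is not a square in G. -/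
theorem result {G : Type*} [Group G] [Finite G] (d : G) (hd : orderOf d = 2) (hq : Cfsg.IsQuasisimple ↥(Subgroup.centralizer ({d} : Set G))) [hzn : ((Subgroup.zpowers d).subgroupOf (Subgroup.centralizer ({d} : Set G))).Normal] (K : Type) [Field K] [Fintype K] (hK : Fintype.card K = 4) (e : ↥(Subgroup.centralizer ({d} : Set G)) ⧸ (Subgroup.zpowers d).subgroupOf (Subgroup.centralizer ({d} : Set G)) ≃* Cfsg.PSU 6 K 2) (hnwc : ∃ g : G, g * d * g⁻¹ ∈ Subgroup.centralizer ({d} : Set G) ∧ g * d * g⁻¹ ≠ d) : (∀ x : ↥(Subgroup.centralizer ({d} : Set G)) ⧸ (Subgroup.zpowers d).subgroupOf (Subgroup.centralizer ({d} : Set G)), orderOf x = 2 → ∃ y : ↥(Subgroup.centralizer ({d} : Set G)), orderOf y = 2 ∧ (QuotientGroup.mk y : ↥(Subgroup.centralizer ({d} : Set G)) ⧸ (Subgroup.zpowers d).subgroupOf (Subgroup.centralizer ({d} : Set G))) = x) ∧ ¬ ∃ g : G, g ^ 2 = d := by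
  set C := Subgroup.centralizer ({d} : Set G) with hC
  set Z := (Subgroup.zpowers d).subgroupOf C with hZdef
  have hK' : Fintype.card K = 2 ^ 2 := by rw [hK]; norm_num
  let π : ↥C →* Cfsg.PSU 6 K 2 := e.toMonoidHom.comp (QuotientGroup.mk' Z)
  have hπ : Function.Surjective π := e.surjective.comp (QuotientGroup.mk'_surjective Z)
  have hkerπ : π.ker = Z := by
    ext g
    rw [MonoidHom.mem_ker]
    show e (QuotientGroup.mk' Z g) = 1 ↔ _
    rw [map_eq_one_iff _ e.injective, QuotientGroup.mk'_apply, QuotientGroup.eq_one_iff]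
  have hd2 : d ^ 2 = 1 := hd ▸ pow_orderOf_eq_one d
  have hz2 : ∀ z ∈ π.ker, z * z = 1 := by
    intro z hz
    rw [hkerπ, hZdef, Subgroup.mem_subgroupOf, Subgroup.mem_zpowers_iff] at hz
    obtain ⟨k, hk⟩ := hz
    apply Subtype.ext
    rw [Subgroup.coe_mul, ← hk, ← zpow_add, ← two_mul, zpow_mul, zpow_two, ← pow_two, hd2, one_zpow]
    rfl
  have hcen : π.ker ≤ Subgroup.center ↥C := by
    intro z hz
    rw [hkerπ, hZdef, Subgroup.mem_subgroupOf, Subgroup.mem_zpowers_iff] at hz
    obtain ⟨k, hk⟩ := hz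
    rw [Subgroup.mem_center_iff]
    intro g
    apply Subtype.ext
    have hg : Commute (g : G) d := Subgroup.mem_centralizer_singleton_iff.1 g.2
    rw [Subgroup.coe_mul, Subgroup.coe_mul, ← hk]
    exact (hg.zpow_right k).eq
  have hc3 : ∀ c ∈ Subgroup.center ↥(Cfsg.SU 6 K 2), c ^ 3 = 1 := by
    intro c hc
    have h := Forms.card_center_SU hK' (n := 6) (by omega)
    have h1 : (⟨c, hc⟩ : ↥(Subgroup.center ↥(Cfsg.SU 6 K 2))) ^ Nat.card ↥(Subgroup.center ↥(Cfsg.SU 6 K 2)) = 1 :=
      pow_card_eq_one'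
    rw [h] at h1
    exact congrArg Subtype.val h1
  have hlift : ∀ x : ↥C ⧸ Z, orderOf x = 2 → ∃ y : ↥C, orderOf y = 2 ∧ (QuotientGroup.mk y : ↥C ⧸ Z) = x := by
    intro x hx
    have hx2 : e x * e x = 1 := by
      rw [← map_mul, ← pow_two, show x ^ 2 = 1 from hx ▸ pow_orderOf_eq_one x, map_one]
    obtain ⟨y, hy, hyx⟩ := Core.SU7.lift_involution hK' (by norm_num) hc3 π hπ hcen hz2 hx2
    have hmk : (QuotientGroup.mk y : ↥C ⧸ Z) = x := e.injective hyx
    refine ⟨y, orderOf_eq_prime (by rw [pow_two, hy]) ?_, hmk⟩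
    rintro rfl
    rw [← hmk, QuotientGroup.mk_one, orderOf_one] at hx
    exact absurd hx (by norm_num)
  refine ⟨hlift, ?_⟩
  rintro ⟨g, hg⟩
  have hgC : g ∈ C := by
    rw [hC, Subgroup.mem_centralizer_singleton_iff, ← hg, pow_two, mul_assoc]
  set g' : ↥C := ⟨g, hgC⟩
  set x : ↥C ⧸ Z := QuotientGroup.mk g' with hx
  have hd1 : d ≠ 1 := fun h => by rw [h, orderOf_one] at hd; norm_num at hd
  have hgg : g' * g' ∈ Z := by
    rw [hZdef, Subgroup.mem_subgroupOf]
    show g * g ∈ _
    rw [← pow_two, hg]; exact Subgroup.mem_zpowers d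
  have hx2 : x ^ 2 = 1 := by
    rw [hx, pow_two, ← QuotientGroup.mk_mul]; exact (QuotientGroup.eq_one_iff _).2 hgg
  have hsq : ∀ z ∈ Z, ∀ y : ↥C, (y * z) * (y * z) = y * y := by
    intro z hz y
    have hzk : z ∈ π.ker := hkerπ ▸ hz
    rw [mul_assoc, ← mul_assoc z, ← Subgroup.mem_center_iff.1 (hcen hzk) y, mul_assoc, hz2 z hzk, mul_one]
  have hfinal : ∀ y : ↥C, y * y = 1 → (QuotientGroup.mk y : ↥C ⧸ Z) = x → False := by
    intro y hy hyx
    have hz : y⁻¹ * g' ∈ Z := QuotientGroup.eq.1 hyx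
    have h1 := hsq _ hz y
    rw [mul_inv_cancel_left, hy] at h1
    have h2 : g * g = 1 := congrArg Subtype.val h1
    exact hd1 (by rw [← hg, pow_two, h2])
  by_cases hx1 : x = 1
  · exact hfinal 1 (one_mul 1) (by rw [hx1]; rfl)
  · obtain ⟨y, hy, hyx⟩ := hlift x (orderOf_eq_prime hx2 hx1)
    exact hfinal y (by rw [← pow_two]; exact hy ▸ pow_orderOf_eq_one y) hyx


end Cfsg.Agent.S5452
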