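import Cfsg.Statements.S5453
import Cfsg.Agent.Core.M22Invol
import Cfsg.Agent.FGS3.TTDich

set_option autoImplicit false
open Cfsg

namespace Cfsg.Agent.S5453

open Cfsg.Agent.KnownA
open Cfsg.Agent.FGS3
open Cfsg.Agent.Core
open scoped commutatorElement

/-- A product of commuting elements with the same square. -/
theorem prod_sq {C : Type*} [Group C] {z : C} : ∀ ys : List C, (∀ y ∈ ys, y * y = z) →
    (∀ a ∈ ys, ∀ b ∈ ys, Commute a b) → ys.prod * ys.prod = z ^ ys.length := by
  intro ys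
  induction ys with
  | nil => intros; simp
  | cons a ys ih =>
    intro h1 hc
    have hac : Commute a ys.prod := Commute.list_prod_right _ _ fun b hb =>
      hc a (List.mem_cons_self ..) b (List.mem_cons_of_mem _ hb)
    rw [List.prod_cons, ← pow_two, hac.mul_pow, pow_two, pow_two, h1 a (List.mem_cons_self ..),
      ih (fun y hy => h1 y (List.mem_cons_of_mem _ hy))
        (fun b hb b' hb' => hc b (List.mem_cons_of_mem _ hb) b' (List.mem_cons_of_mem _ hb')),
      List.length_cons, pow_succ']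

/-- In a central extension by a group of exponent two of a group of type M(22), the involutions lift. -/
theorem lift_all {F : Type*} [Field F] [Fintype F] {hF : Fintype.card F = 2 ^ 2} {C Q : Type*} [Group C]
    [Group Q] [Finite Q] {E : Set Q} (c : M22.Ctx hF E)
    (hCx : ∀ x ∈ E, ∀ z : Q, Commute z x → z ∈ Subgroup.closure (TT.Nb E x))
    (π : C →* Q) (hπ : Function.Surjective π) (hcen : π.ker ≤ Subgroup.center C)
    (hker : ∀ z ∈ π.ker, z * z = 1) {x : Q} (hx : x * x = 1) : ∃ y : C, y * y = 1 ∧ π y = x := by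
  classical
  have hcls := c.prim.cls
  choose L hL using hπ
  have hcomm : ∀ (z : ↥π.ker) (g : C), g * (z : C) = (z : C) * g := fun z g =>
    Subgroup.mem_center_iff.1 (hcen z.2) g
  letI : CommGroup ↥π.ker :=
    { (inferInstance : Group ↥π.ker) with mul_comm := fun a b => Subtype.ext (hcomm b a) }
  have hkz : ∀ {g : C}, π g = 1 → g ∈ π.ker := fun h => h
  -- lifts of commuting members commute
  have hcl : ∀ y ∈ E, ∀ a ∈ TT.Nb E y, Commute (L y) (L a) := by
    intro y hy a ha
    set H := Subgroup.closure (TT.Nb E y) with hH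
    set P := H.comap π with hP
    have hHy : ∀ h ∈ H, Commute y h := fun h hh => (Subgroup.mem_centralizer_singleton_iff.1
      ((Subgroup.closure_le _).2 (fun w hw => Subgroup.mem_centralizer_singleton_iff.2 hw.2.2.eq.symm) hh)).symm
    have hmem : ∀ g ∈ P, ⁅L y, g⁆ ∈ π.ker := fun g hg => by
      rw [MonoidHom.mem_ker, map_commutatorElement, hL]
      exact commutatorElement_eq_one_iff_commute.2 (hHy _ hg)
    let f : ↥P →* ↥π.ker := MonoidHom.mk' (fun g => ⟨⁅L y, (g : C)⁆, hmem g g.2⟩) (by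
      intro g h
      apply Subtype.ext
      show ⁅L y, (g : C) * h⁆ = ⁅L y, (g : C)⁆ * ⁅L y, (h : C)⁆
      have e2 : ⁅L y, (g : C) * h⁆ = ⁅L y, (g : C)⁆ * ((g : C) * ⁅L y, (h : C)⁆ * (g : C)⁻¹) := by
        simp only [commutatorElement_def]; group
      rw [e2, hcomm ⟨_, hmem h h.2⟩ (g : C), mul_inv_cancel_right])
    have hle : ⁅P, P⁆ ≤ (f.ker).map P.subtype := by
      rw [Subgroup.commutator_le]
      intro g hg h hh
      refine ⟨⁅(⟨g, hg⟩ : ↥P), (⟨h, hh⟩ : ↥P)⁆, ?_, rfl⟩
      rw [SetLike.mem_coe, MonoidHom.mem_ker, map_commutatorElement, commutatorElement_eq_one_iff_mul_comm]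
      exact mul_comm _ _
    have hperf : ⁅H, H⁆ = H := by
      have h := Group.isPerfect_def.1 (c.perfect hy)
      rw [← Subgroup.map_subtype_commutator H, h, ← MonoidHom.range_eq_map, Subgroup.range_subtype]
    have hsurj : Function.Surjective π := fun q => ⟨L q, hL q⟩
    have haP : a ∈ ⁅P, P⁆.map π := by
      rw [Subgroup.map_commutator, hP, Subgroup.map_comap_eq_self_of_surjective hsurj, hperf]
      exact Subgroup.subset_closure ha
    obtain ⟨g, hg, hga⟩ := haP
    obtain ⟨g', hg', hgg⟩ := hle hg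
    have h1 : ⁅L y, g⁆ = 1 := by
      rw [← hgg]; exact congrArg Subtype.val (MonoidHom.mem_ker.1 hg')
    have hk : g⁻¹ * L a ∈ π.ker := hkz (by rw [map_mul, map_inv, hga, hL, inv_mul_cancel])
    have hLa : L a = g * (⟨_, hk⟩ : ↥π.ker) := (mul_inv_cancel_left g _).symm
    rw [hLa]
    exact (commutatorElement_eq_one_iff_commute.1 h1).mul_right (hcomm ⟨_, hk⟩ (L y))
  have hclist : ∀ {l : List Q}, (∀ a ∈ l, a ∈ E) → (∀ a ∈ l, ∀ b ∈ l, Commute a b) →
      ∀ a ∈ l.map L, ∀ b ∈ l.map L, Commute a b := by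
    intro l hl hlc a ha b hb
    obtain ⟨u, hu, rfl⟩ := List.mem_map.1 ha
    obtain ⟨v, hv, rfl⟩ := List.mem_map.1 hb
    by_cases h : v = u
    · rw [h]
    · exact hcl u (hl u hu) v ⟨hl v hv, h, hlc u hu v hv⟩
  -- squares of lifts
  obtain ⟨a₀, ha₀⟩ : E.Nonempty := (c.prim.two).elim fun a h => ⟨a, h.1⟩
  set z0 := L a₀ * L a₀ with hz0
  have hsqk : ∀ a ∈ E, L a * L a ∈ π.ker := fun a ha => hkz (by
    rw [map_mul, hL, Screen.tt_mul_self hcls.1 ha])
  have hconst : ∀ a ∈ E, L a * L a = z0 := by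
    intro a ha
    obtain ⟨g, hg⟩ := TT.exists_conj hcls ha₀ ha
    set y := L g * L a₀ * (L g)⁻¹ with hy
    have hk : L a * y⁻¹ ∈ π.ker := hkz (by
      rw [hy, map_mul, map_inv, map_mul, map_mul, map_inv, hL, hL, hL, hg, mul_inv_cancel])
    set z : ↥π.ker := ⟨_, hk⟩
    have hLa : L a = (z : C) * y := by simp [z]
    calc L a * L a = (z : C) * (y * (z : C)) * y := by rw [hLa]; simp only [mul_assoc]
      _ = ((z : C) * (z : C)) * (y * y) := by rw [hcomm z y]; simp only [mul_assoc]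
      _ = y * y := by rw [hker _ z.2, one_mul]
      _ = L g * z0 * (L g)⁻¹ := by rw [hy, hz0]; group
      _ = z0 := by rw [hcomm ⟨z0, hsqk a₀ ha₀⟩ (L g), mul_inv_cancel_right]
  -- seven commuting members with product one
  have hz01 : z0 = 1 := by
    obtain ⟨l, hlN, hlen, hlc, hlp⟩ := c.oval_product ha₀
    set l7 := a₀ :: l with hl7
    have h7 : ∀ a ∈ l7, a ∈ E := fun a ha => (List.mem_cons.1 ha).elim (fun e => e ▸ ha₀) fun h => (hlN a h).1
    have h7c : ∀ a ∈ l7, ∀ b ∈ l7, Commute a b := by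
      intro a ha b hb
      rcases List.mem_cons.1 ha with h | h <;> rcases List.mem_cons.1 hb with h' | h'
      · rw [h, h']
      · rw [h]; exact (hlN b h').2.2
      · rw [h']; exact (hlN a h).2.2.symm
      · exact hlc a h b h'
    have hk : (l7.map L).prod ∈ π.ker := hkz (by
      rw [map_list_prod, List.map_map, show (π ∘ L) = id from funext hL, List.map_id, hl7, List.prod_cons, hlp,
        Screen.tt_mul_self hcls.1 ha₀])
    have h := prod_sq (l7.map L) (fun y hy => by
      obtain ⟨u, hu, rfl⟩ := List.mem_map.1 hy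
      exact hconst u (h7 u hu)) (hclist h7 h7c)
    have hlen7 : (l7.map L).length = 7 := by rw [List.length_map, hl7, List.length_cons, hlen]
    have h2 : z0 ^ 2 = 1 := by rw [pow_two]; exact hker _ (hsqk a₀ ha₀)
    rw [hker _ hk, hlen7, show 7 = 2 * 3 + 1 from rfl, pow_succ, pow_mul, h2, one_pow, one_mul] at h
    exact h.symm
  obtain ⟨l, hlE, hlc, hlp⟩ := c.exists_list hCx hx
  refine ⟨(l.map L).prod, ?_, by rw [map_list_prod, List.map_map, show (π ∘ L) = id from funext hL, List.map_id, hlp]⟩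
  rw [prod_sq (l.map L) (fun y hy => by
    obtain ⟨u, hu, rfl⟩ := List.mem_map.1 hy
    rw [hconst u (hlE u hu), hz01]) (hclist hlE hlc), one_pow]


/-- Let G be a finite group with an involution d whose centralizer C is quasisimple, such that C modulo the subgroup generated by d is of type M(22) with respect to some conjugacy class of 3-transpositions generating it and also has an involution whose own centralizer is quasisimple with quotient by it isomorphic to the projective special unitary group of dimension 6 over the field with four elements and which is not weakly closed in that centralizer; and suppose some conjugate of d other than d commutes with d. Then every involution of C modulo the subgroup generated by d is the image of an involution of C, and d is not a square in G. -/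
theorem result {G : Type*} [Group G] [Finite G] (d : G) (hd : orderOf d = 2) (hq : Cfsg.IsQuasisimple ↥(Subgroup.centralizer ({d} : Set G))) [hzn : ((Subgroup.zpowers d).subgroupOf (Subgroup.centralizer ({d} : Set G))).Normal] (htype : ∃ E : Set (↥(Subgroup.centralizer ({d} : Set G)) ⧸ (Subgroup.zpowers d).subgroupOf (Subgroup.centralizer ({d} : Set G))), Cfsg.IsThreeTranspositionClass E ∧ Cfsg.IsOfTypeM22 _ E) (hinvol : ∃ d' : ↥(Subgroup.centralizer ({d} : Set G)) ⧸ (Subgroup.zpowers d).subgroupOf (Subgroup.centralizer ({d} : Set G)), orderOf d' = 2 ∧ Cfsg.IsQuasisimple ↥(Subgroup.centralizer ({d'} : Set _)) ∧ (∃ (K : Type) (_ : Field K) (_ : Fintype K), Fintype.card K = 4 ∧ ∃ _ : ((Subgroup.zpowers d').subgroupOf (Subgroup.centralizer ({d'} : Set _))).Normal, Nonempty (↥(Subgroup.centralizer ({d'} : Set _)) ⧸ (Subgroup.zpowers d').subgroupOf (Subgroup.centralizer ({d'} : Set _)) ≃* Cfsg.PSU 6 K 2)) ∧ ∃ g, g * d' * g⁻¹ ∈ Subgroup.centralizer ({d'} : Set _) ∧ g * d'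 * g⁻¹ ≠ d') (hnwc : ∃ g : G, g * d * g⁻¹ ∈ Subgroup.centralizer ({d} : Set G) ∧ g * d * g⁻¹ ≠ d) : (∀ x : ↥(Subgroup.centralizer ({d} : Set G)) ⧸ (Subgroup.zpowers d).subgroupOf (Subgroup.centralizer ({d} : Set G)), orderOf x = 2 → ∃ y : ↥(Subgroup.centralizer ({d} : Set G)), orderOf y = 2 ∧ (QuotientGroup.mk y : ↥(Subgroup.centralizer ({d} : Set G)) ⧸ (Subgroup.zpowers d).subgroupOf (Subgroup.centralizer ({d} : Set G))) = x) ∧ ¬ ∃ g : G, g ^ 2 = d := by
  classical
  set C := Subgroup.centralizer ({d} : Set G) with hC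
  set Z := (Subgroup.zpowers d).subgroupOf C with hZdef
  have hkerπ : (QuotientGroup.mk' Z).ker = Z := QuotientGroup.ker_mk' Z
  have hd2 : d ^ 2 = 1 := hd ▸ pow_orderOf_eq_one d
  have hz2 : ∀ z ∈ Z, z * z = 1 := by
    intro z hz
    rw [hZdef, Subgroup.mem_subgroupOf, Subgroup.mem_zpowers_iff] at hz
    obtain ⟨k, hk⟩ := hz
    apply Subtype.ext
    rw [Subgroup.coe_mul, ← hk, ← zpow_add, ← two_mul, zpow_mul, zpow_two, ← pow_two, hd2, one_zpow]
    rfl
  have hcen : Z ≤ Subgroup.center ↥C := by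
    intro z hz
    rw [hZdef, Subgroup.mem_subgroupOf, Subgroup.mem_zpowers_iff] at hz
    obtain ⟨k, hk⟩ := hz
    rw [Subgroup.mem_center_iff]
    intro g
    apply Subtype.ext
    have hg : Commute (g : G) d := Subgroup.mem_centralizer_singleton_iff.1 g.2
    rw [Subgroup.coe_mul, Subgroup.coe_mul, ← hk]
    exact (hg.zpow_right k).eq
  obtain ⟨E, hcls, h22⟩ := htype
  have hQ : ∀ N : Subgroup (↥C ⧸ Z), N.Normal → N = ⊥ ∨ N = ⊤ := by
    intro N hN
    haveI := hq.2
    haveI : (N.comap (QuotientGroup.mk' Z)).Normal := hN.comap _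
    rcases ((this.map (QuotientGroup.mk' (Subgroup.center ↥C))
        (QuotientGroup.mk'_surjective _))).eq_bot_or_eq_top with h | h
    · refine Or.inl (eq_bot_iff.2 fun q hqN => ?_)
      rw [← h22.1, Subgroup.mem_center_iff]
      intro r
      obtain ⟨g, rfl⟩ := QuotientGroup.mk_surjective q
      obtain ⟨k, rfl⟩ := QuotientGroup.mk_surjective r
      rw [Subgroup.map_eq_bot_iff, QuotientGroup.ker_mk'] at h
      exact congrArg (QuotientGroup.mk' Z) (Subgroup.mem_center_iff.1 (h hqN) k)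
    · refine Or.inr (eq_top_iff.2 fun q _ => ?_)
      obtain ⟨g, rfl⟩ := QuotientGroup.mk_surjective q
      obtain ⟨k, hk, hkg⟩ := h.symm ▸ Subgroup.mem_top (QuotientGroup.mk' (Subgroup.center ↥C) g)
      have hz : k⁻¹ * g ∈ Subgroup.center ↥C := QuotientGroup.eq.1 hkg
      have hz1 : QuotientGroup.mk' Z (k⁻¹ * g) ∈ Subgroup.center (↥C ⧸ Z) := by
        rw [Subgroup.mem_center_iff]
        intro r
        obtain ⟨r, rfl⟩ := QuotientGroup.mk'_surjective Z r
        rw [← map_mul, Subgroup.mem_center_iff.1 hz r, map_mul]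
      rw [h22.1, Subgroup.mem_bot, map_mul, map_inv, inv_mul_eq_one] at hz1
      show QuotientGroup.mk' Z g ∈ N
      rw [← hz1]
      exact hk
  have hprim : IsPrimitiveUnderConj E := by
    obtain ⟨-, e, he, c', hc', hne, -, -⟩ := h22
    exact TT.Dich.primitive ⟨hcls, ⟨e, he, c', hc', fun h => hne (h ▸ Commute.refl e)⟩, fun N hN =>
      (hQ N hN).elim (fun h => Or.inl (h ▸ bot_le)) fun h => Or.inr (h ▸ le_top)⟩
  obtain ⟨F, _, _, hF, c⟩ := M22.exists_ctx (TT.isGroupClass hcls) hprim h22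
  obtain ⟨t, ht, -, ⟨K, _, _, hK4, hn, ⟨eK⟩⟩, -⟩ := hinvol
  have hK : Fintype.card K = 2 ^ 2 := by rw [hK4]; norm_num
  let Ct : Subgroup (↥C ⧸ Z) := Subgroup.centralizer ({t} : Set (↥C ⧸ Z))
  let ρ : ↥Ct →* Cfsg.PSU 6 K 2 := eK.toMonoidHom.comp (QuotientGroup.mk' ((Subgroup.zpowers t).subgroupOf Ct))
  have hρ : Function.Surjective ρ := eK.surjective.comp (QuotientGroup.mk'_surjective _)
  have ht2 : t * t = 1 := by rw [← pow_two, ← ht]; exact pow_orderOf_eq_one t
  have hkert : ∀ g, ρ g = 1 ↔ (g : ↥C ⧸ Z) = 1 ∨ (g : ↥C ⧸ Z) = t := fun g => by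
    show eK (QuotientGroup.mk' _ g) = 1 ↔ _
    rw [map_eq_one_iff _ eK.injective, QuotientGroup.mk'_apply, QuotientGroup.eq_one_iff,
      Subgroup.mem_subgroupOf, Subgroup.mem_zpowers_iff]
    constructor
    · rintro ⟨k, hk⟩
      rw [← hk]
      have h2 : t ^ (2 : ℤ) = 1 := by rw [zpow_two]; exact ht2
      rcases Int.even_or_odd k with ⟨i, rfl⟩ | ⟨i, rfl⟩
      · left; rw [← two_mul, zpow_mul, h2, one_zpow]
      · right; rw [zpow_add, zpow_mul, h2, one_zpow, one_mul, zpow_one]
    · rintro (h | h) <;> rw [h]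
      · exact ⟨0, zpow_zero t⟩
      · exact ⟨1, zpow_one _⟩
  have hlift : ∀ x : ↥C ⧸ Z, orderOf x = 2 → ∃ y : ↥C, orderOf y = 2 ∧ (QuotientGroup.mk y : ↥C ⧸ Z) = x := by
    intro x hx
    obtain ⟨y, hy, hyx⟩ := lift_all c (fun a ha z hz => c.centraliser_eq ht hK ρ hρ hkert ha hz)
      (QuotientGroup.mk' Z) (QuotientGroup.mk'_surjective Z) (hkerπ.le.trans hcen)
      (fun z hz => hz2 z (hkerπ.le hz)) (x := x) (by rw [← pow_two]; exact hx ▸ pow_orderOf_eq_one x)
    refine ⟨y, orderOf_eq_prime (by rw [pow_two, hy]) ?_, hyx⟩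
    rintro rfl
    rw [← hyx, map_one, orderOf_one] at hx
    exact absurd hx (by norm_num)
  refine ⟨hlift, ?_⟩
  rintro ⟨g, hg⟩
  have hgC : g ∈ C := by
    rw [hC, Subgroup.mem_centralizer_singleton_iff, ← hg, pow_two, mul_assoc]
  set g' : ↥C := ⟨g, hgC⟩
  set x : ↥C ⧸ Z := QuotientGroup.mk g' with hx
  have hd1 : d ≠ 1 := fun h => by rw [h, orderOf_one] at hd; norm_num at hd
  have hgg : g' * g' ∈ Z := by
    rw [hZdef, Subgroup.mem_subgroupOf]
    show g * g ∈ _
    rw [← pow_two, hg]; exact Subgroup.mem_zpowers d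
  have hx2 : x ^ 2 = 1 := by
    rw [hx, pow_two, ← QuotientGroup.mk_mul]; exact (QuotientGroup.eq_one_iff _).2 hgg
  have hsq : ∀ z ∈ Z, ∀ y : ↥C, (y * z) * (y * z) = y * y := by
    intro z hz y
    rw [mul_assoc, ← mul_assoc z, ← Subgroup.mem_center_iff.1 (hcen hz) y, mul_assoc, hz2 z hz, mul_one]
  have hfinal : ∀ y : ↥C, y * y = 1 → (QuotientGroup.mk y : ↥C ⧸ Z) = x → False := by
    intro y hy hyx
    have hz : y⁻¹ * g' ∈ Z := QuotientGroup.eq.1 hyx
    have h1 := hsq _ hz y
    rw [mul_inv_cancel_left, hy] at h1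
    have h2 : g * g = 1 := congrArg Subtype.val h1
    exact hd1 (by rw [← hg, pow_two, h2])
  by_cases hx1 : x = 1
  · exact hfinal 1 (one_mul 1) (by rw [hx1]; rfl)
  · obtain ⟨y, hy, hyx⟩ := hlift x (orderOf_eq_prime hx2 hx1)
    exact hfinal y (by rw [← pow_two]; exact hy ▸ pow_orderOf_eq_one y) hyx

end Cfsg.Agent.S5453
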