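import Cfsg.Statements.S5458
import Cfsg.Agent.S5463
import Cfsg.Agent.Core.M22Thompson
import Cfsg.Agent.LocalEven.Replacement

set_option autoImplicit false
set_option linter.unusedSectionVars false
set_option linter.unusedSimpArgs false
set_option linter.unusedVariables false
open Cfsg

namespace Cfsg.Agent.S5458

open Cfsg.Agent.Forms (frobQ)
open Cfsg.Agent.FGS3
open Cfsg.Agent.Core
open Cfsg.Agent.S5463 (Sys pair_unique)

variable {F : Type*} [Field F] [Fintype F] {hF : Fintype.card F = 2 ^ 2}
variable {G : Type*} [Group G] [Finite G] {D : Set G}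

/-- Members in a 2-group commute. -/
theorem commute_of_pgroup (hset : IsThreeTranspositionSet D) {T : Subgroup G} (hT : IsPGroup 2 T)
    {a b : G} (ha : a ∈ D) (hb : b ∈ D) (haT : a ∈ T) (hbT : b ∈ T) : Commute a b := by
  by_contra h
  have h3 : (a * b) ^ 3 = 1 := by
    have e := Screen.tt_braid hset ha hb h
    rw [pow_succ, pow_two]
    calc a * b * (a * b) * (a * b) = (a * b * a) * (b * a * b) := by simp only [mul_assoc]
      _ = (a * b * a) * (a * b * a) := by rw [e]
      _ = 1 := by
        simp only [mul_assoc]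
        rw [Screen.mul_mul_self_cancel (Screen.tt_mul_self hset ha),
          Screen.mul_mul_self_cancel (Screen.tt_mul_self hset hb), Screen.tt_mul_self hset ha]
  obtain ⟨k, hk⟩ := hT ⟨a * b, mul_mem haT hbT⟩
  have hk' : (a * b) ^ 2 ^ k = 1 := congrArg Subtype.val hk
  have h1 : a * b = 1 := by
    rw [← orderOf_eq_one_iff]
    exact Nat.eq_one_of_dvd_coprimes (Nat.Coprime.pow_left k (by norm_num))
      (orderOf_dvd_of_pow_eq_one hk') (orderOf_dvd_of_pow_eq_one h3)
  apply h
  rw [eq_inv_of_mul_eq_one_left h1]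
  exact (Commute.refl b).inv_left

/-- Generators that commute and square to one give an elementary abelian group. -/
theorem elementary_closure {S : Set G} (hc : ∀ a ∈ S, ∀ b ∈ S, Commute a b) (h2 : ∀ a ∈ S, a * a = 1) :
    IsMulCommutative (Subgroup.closure S) ∧ ∀ x ∈ Subgroup.closure S, x * x = 1 := by
  have hle : Subgroup.closure S ≤ Subgroup.centralizer (Subgroup.closure S : Set G) := by
    rw [Subgroup.centralizer_closure, Subgroup.closure_le]
    intro x hx
    rw [SetLike.mem_coe, Subgroup.mem_centralizer_iff]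
    exact fun y hy => (hc y hy x hx).eq
  refine ⟨Subgroup.le_centralizer_iff_isMulCommutative.1 hle, fun x hx => ?_⟩
  induction hx using Subgroup.closure_induction with
  | mem y hy => exact h2 y hy
  | one => exact one_mul 1
  | mul y z hy hz iy iz =>
    have e : z * y = y * z := Subgroup.mem_centralizer_iff.1 (hle hy) z hz
    calc y * z * (y * z) = y * (z * y) * z := by simp only [mul_assoc]
      _ = (y * y) * (z * z) := by rw [e]; simp only [mul_assoc]
      _ = 1 := by rw [iy, iz, one_mul]
  | inv y _ iy => rw [← mul_inv_rev, iy, inv_one]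

theorem members_generate (c : M22.Ctx hF D) {d : G} (hd : d ∈ D) (T : Sylow 2 G) :
    Subgroup.closure {x : G | x ∈ D ∧ x ∈ (T : Subgroup G)} = Cfsg.thompsonSubgroupOf 2 (T : Subgroup G) := by
  classical
  obtain ⟨fr⟩ := c.frame d hd
  obtain ⟨Bs⟩ := M22.exists_hbasis hF
  set E0 := insert d (M22.Plane fr Bs) with hE0
  set B := {x : G | x ∈ D ∧ x ∈ (T : Subgroup G)} with hB
  set A0 := Subgroup.closure B with hA0
  have hset : IsThreeTranspositionSet D := c.prim.cls.1
  have hsq : ∀ x ∈ D, x * x = 1 := fun x hx => Screen.tt_mul_self hset hx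
  have hBc : ∀ a ∈ B, ∀ b ∈ B, Commute a b := fun a ha b hb =>
    commute_of_pgroup hset T.isPGroup' ha.1 hb.1 ha.2 hb.2
  have hE0c : ∀ a ∈ E0, ∀ b ∈ E0, Commute a b := by
    intro a ha b hb
    rcases Set.mem_insert_iff.1 ha with rfl | ha <;> rcases Set.mem_insert_iff.1 hb with rfl | hb
    · exact Commute.refl _
    · exact hb.1.2.2
    · exact ha.1.2.2.symm
    · exact M22.plane_commute ha hb
  have hE0D : E0 ⊆ D := Set.insert_subset hd fun p hp => hp.1.1
  have hE0card : E0.ncard = 22 := by
    rw [hE0, Set.ncard_insert_of_notMem (fun h => h.1.2.1 rfl) (Set.toFinite _), ← Nat.card_coe_set_eq,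
      M22.plane_card fr Bs]
  have hB22 : B.ncard ≤ 22 := by
    rcases B.eq_empty_or_nonempty with h | ⟨e, he⟩
    · rw [h]; simp
    obtain ⟨fe⟩ := c.frame e he.1
    have h := M22.nb_commuting_le fe (T := B \ {e}) (fun y hy => ⟨hy.1.1, hy.2, hBc e he y hy.1⟩)
      (fun a ha b hb => hBc a ha.1 b hb.1)
    rw [Set.ncard_sdiff_singleton_of_mem he] at h
    omega
  obtain ⟨g, hg⟩ : ∃ g : G, ∀ x ∈ Subgroup.closure E0, g * x * g⁻¹ ∈ (T : Subgroup G) := by
    have hP : IsPGroup 2 (Subgroup.closure E0) := fun x => ⟨1, Subtype.ext (by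
      rw [Subgroup.coe_pow, pow_one, pow_two]
      exact (elementary_closure hE0c fun a ha => hsq a (hE0D ha)).2 x.1 x.2)⟩
    obtain ⟨S, hS⟩ := hP.exists_le_sylow
    obtain ⟨g, hg⟩ := MulAction.exists_smul_eq G S T
    refine ⟨g, fun x hx => ?_⟩
    rw [← hg]
    exact ⟨x, hS hx, rfl⟩
  have hBeq : B = (fun x => g * x * g⁻¹) '' E0 := by
    refine (Set.eq_of_subset_of_ncard_le ?_ ?_ (Set.toFinite _)).symm
    · rintro _ ⟨x, hx, rfl⟩
      exact ⟨TT.conj_mem c.prim.cls g (hE0D hx), hg x (Subgroup.subset_closure hx)⟩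
    · rw [Set.ncard_image_of_injective _ (fun x y e => mul_left_cancel (mul_right_cancel e)), hE0card]
      exact hB22
  have hBcard : B.ncard = 22 := by
    rw [hBeq, Set.ncard_image_of_injective _ (fun x y e => mul_left_cancel (mul_right_cancel e)), hE0card]
  have hA0T : A0 ≤ (T : Subgroup G) := (Subgroup.closure_le _).2 fun x hx => hx.2
  obtain ⟨hA0c, hA0sq⟩ := elementary_closure hBc fun a ha => hsq a ha.1
  have hTN : (T : Subgroup G) ≤ Subgroup.normalizer (A0 : Set G) := by
    have key : ∀ t ∈ (T : Subgroup G), ∀ x ∈ A0, t * x * t⁻¹ ∈ A0 := by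
      intro t ht x hx
      have h : A0 ≤ A0.comap (MulAut.conj t).toMonoidHom := by
        rw [hA0, Subgroup.closure_le]
        rintro y ⟨hyD, hyT⟩
        exact Subgroup.subset_closure ⟨TT.conj_mem c.prim.cls t hyD, mul_mem (mul_mem ht hyT) (inv_mem ht)⟩
      exact h hx
    intro t ht
    rw [Subgroup.mem_normalizer_iff]
    refine fun x => ⟨key t ht x, fun hx => ?_⟩
    have := key t⁻¹ (inv_mem ht) _ hx
    simpa [mul_assoc] using this
  have hcent : ∀ e : G, e * e = 1 → (∀ b ∈ B, Commute e b) → e ∈ A0 := by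
    intro e he hb
    have hz : ∀ x ∈ E0, Commute (g⁻¹ * e * g) x := by
      intro x hx
      have h := hb _ (show g * x * g⁻¹ ∈ B by rw [hBeq]; exact ⟨x, hx, rfl⟩)
      calc g⁻¹ * e * g * x = g⁻¹ * (e * (g * x * g⁻¹)) * g := by group
        _ = g⁻¹ * ((g * x * g⁻¹) * e) * g := by rw [h.eq]
        _ = x * (g⁻¹ * e * g) := by group
    have hmem := c.centralizer_plane hd fr Bs (hz d (Or.inl rfl))
      (show g⁻¹ * e * g * (g⁻¹ * e * g) = 1 by
        calc g⁻¹ * e * g * (g⁻¹ * e * g) = g⁻¹ * (e * e) * g := by group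
          _ = 1 := by rw [he]; group)
      fun p hp => hz p (Or.inr hp)
    have h2 := Subgroup.mem_map_of_mem (MulAut.conj g).toMonoidHom hmem
    rw [MonoidHom.map_closure] at h2
    have e1 : (MulAut.conj g).toMonoidHom (g⁻¹ * e * g) = e := by
      show g * (g⁻¹ * e * g) * g⁻¹ = e
      group
    rw [e1] at h2
    rw [hA0, hBeq]
    exact h2
  have hmove : ∀ e : G, e * e = 1 → e ∉ A0 → 16 ≤ {x | x ∈ B ∧ ¬ Commute e x}.ncard := by
    intro e he heA
    have h6 := c.fixed_le_six (S := B) (fun x hx => hx.1) hBc he (by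
      by_contra h
      push Not at h
      exact heA (hcent e he h))
    have hu : {x | x ∈ B ∧ ¬ Commute e x} ∪ {x | x ∈ B ∧ Commute e x} = B := by
      ext x; by_cases h : Commute e x <;> simp [h]
    have := Set.ncard_union_le {x | x ∈ B ∧ ¬ Commute e x} {x | x ∈ B ∧ Commute e x}
    rw [hu, hBcard] at this
    omega
  have hpair : ∀ {a b a' b' : G}, a ∈ B → b ∈ B → a ≠ b → a' ∈ B → b' ∈ B → a' ≠ b' → a * b = a' * b' →
      a' = a ∨ a' = b := by
    intro a b a' b' ha hb hab ha' hb' hab' e
    have mk : ∀ {p q : G}, p ∈ B → q ∈ B → p ≠ q → Sys D 2 (p * q) [p, q] := fun {p q} hp hq hpq =>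
      ⟨by simp [hpq], rfl, fun x hx => by
        simp only [List.mem_cons, List.not_mem_nil, or_false] at hx
        rcases hx with rfl | rfl
        exacts [hp.1, hq.1], fun x hx y hy => by
        simp only [List.mem_cons, List.not_mem_nil, or_false] at hx hy
        rcases hx with rfl | rfl <;> rcases hy with rfl | rfl <;> apply hBc <;> assumption, by simp⟩
    have h := (pair_unique hF c.prim (fun x hx => c.frame x hx) (a * b) [a, b] [a', b'] (mk ha hb hab)
      (e.symm ▸ mk ha' hb' hab') a').2 (by simp)
    simpa using h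
  have hBconj : ∀ e ∈ (T : Subgroup G), ∀ b ∈ B, e * b * e⁻¹ ∈ B := fun e he b hb =>
    ⟨TT.conj_mem c.prim.cls e hb.1, mul_mem (mul_mem he hb.2) (inv_mem he)⟩
  have main : ∀ n, ∀ E : Subgroup G, E ≤ (T : Subgroup G) → IsMulCommutative E → (∀ x ∈ E, x * x = 1) →
      Nat.card A0 ≤ Nat.card E → Nat.card A0 - Nat.card ↥(E ⊓ A0) = n → E = A0 := by
    intro n
    induction n using Nat.strong_induction_on with
    | _ n IH =>
      intro E hET hEc hEsq hcard hn
      by_cases hN : A0 ≤ Subgroup.normalizer (E : Set G)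
      · have hEcm : ∀ x ∈ E, ∀ y ∈ E, x * y = y * x := fun x hx y hy =>
          congrArg Subtype.val (mul_comm' (⟨x, hx⟩ : E) ⟨y, hy⟩)
        have hinv : ∀ x ∈ E, x⁻¹ = x := fun x hx => inv_eq_of_mul_eq_one_right (hEsq x hx)
        have hkey : ∀ e ∈ E, ∀ e' ∈ E, ∀ b ∈ B, ¬ Commute e b →
            e' * b * e'⁻¹ = b ∨ e' * b * e'⁻¹ = e * b * e⁻¹ := by
          intro e he e' he' b hb hne
          have hne' : b ≠ e * b * e⁻¹ := fun h => hne (mul_inv_eq_iff_eq_mul.1 h.symm)
          have hx : b * (e * b * e⁻¹) ∈ E := by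
            rw [← mul_assoc]
            refine mul_mem ?_ (inv_mem he)
            have := (Subgroup.mem_normalizer_iff.1 (hN (Subgroup.subset_closure hb)) e).1 he
            rwa [TT.inv_eq hset hb.1, mul_assoc] at this
          refine hpair hb (hBconj e (hET he) b hb) hne' (hBconj e' (hET he') b hb)
            (hBconj e' (hET he') _ (hBconj e (hET he) b hb))
            (fun h => hne' (mul_left_cancel (mul_right_cancel h))) ?_
          calc b * (e * b * e⁻¹) = b * (e * b * e⁻¹) * e' * e'⁻¹ := by group
            _ = e' * (b * (e * b * e⁻¹)) * e'⁻¹ := by rw [hEcm _ hx e' he']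
            _ = _ := by group
        refine Subgroup.eq_of_le_of_card_ge (fun e he => ?_) hcard
        by_contra heA
        have htwo : ∀ x ∈ E, x ∉ A0 → e * x ∈ A0 := by
          intro x hx hxA
          by_contra hex
          have hexsq := hEsq _ (mul_mem he hx)
          have h1 := hmove e (hEsq e he) heA
          have h2 := hmove x (hEsq x hx) hxA
          have h6 := c.fixed_le_six (S := B) (fun y hy => hy.1) hBc hexsq (by
            by_contra h
            push Not at h
            exact hex (hcent _ hexsq h))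
          have hsub : {y | y ∈ B ∧ ¬ Commute e y} ∩ {y | y ∈ B ∧ ¬ Commute x y} ⊆
              {y | y ∈ B ∧ Commute (e * x) y} := by
            rintro b ⟨⟨hb, hbe⟩, -, hbx⟩
            refine ⟨hb, ?_⟩
            rcases hkey e he x hx b hb hbe with h | h
            · exact absurd (mul_inv_eq_iff_eq_mul.1 h) hbx
            · refine mul_inv_eq_iff_eq_mul.1 ?_
              calc e * x * b * (e * x)⁻¹ = e * (x * b * x⁻¹) * e⁻¹ := by group
                _ = e * (e * b * e⁻¹) * e⁻¹ := by rw [h]
                _ = e * e * b * (e * e)⁻¹ := by group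
                _ = b := by rw [hEsq e he]; group
          have h3 := Set.ncard_le_ncard hsub (Set.toFinite _)
          have h4 := Set.ncard_union_add_ncard_inter {y | y ∈ B ∧ ¬ Commute e y} {y | y ∈ B ∧ ¬ Commute x y}
            (Set.toFinite _) (Set.toFinite _)
          have h5 := Set.ncard_le_ncard
            (Set.union_subset (fun y (hy : y ∈ {y | y ∈ B ∧ ¬ Commute e y}) => hy.1)
              (fun y (hy : y ∈ {y | y ∈ B ∧ ¬ Commute x y}) => hy.1)) (Set.toFinite B)
          omega
        have hle2 : Nat.card E ≤ 2 * Nat.card ↥(E ⊓ A0) := by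
          let f : E → Bool × ↥(E ⊓ A0) := fun x =>
            if h : x.1 ∈ A0 then (false, ⟨x.1, x.2, h⟩)
            else (true, ⟨e * x.1, mul_mem he x.2, htwo x.1 x.2 h⟩)
          have hf : Function.Injective f := by
            intro x y hxy
            have h1 := congrArg Prod.fst hxy
            have h2 := congrArg (fun p => (p.2 : G)) hxy
            by_cases hx : x.1 ∈ A0 <;> by_cases hy : y.1 ∈ A0 <;> simp [f, hx, hy] at h1 h2 <;>
              exact h2
          have := Nat.card_le_card_of_injective f hf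
          simpa [Nat.card_prod] using this
        set C := A0 ⊓ Subgroup.centralizer ({e} : Set G) with hC
        have hEC : E ⊓ A0 ≤ C := fun x hx => ⟨hx.2, Subgroup.mem_centralizer_singleton_iff.2 (hEcm x hx.1 e he)⟩
        have h16 := hmove e (hEsq e he) heA
        obtain ⟨b1, hb1, hb1e⟩ : {x | x ∈ B ∧ ¬ Commute e x}.Nonempty :=
          Set.nonempty_of_ncard_ne_zero (by omega)
        obtain ⟨b2, ⟨hb2, hb2e⟩, hb2n⟩ : ({x | x ∈ B ∧ ¬ Commute e x} \ {b1, e * b1 * e⁻¹}).Nonempty := by
          refine Set.nonempty_of_ncard_ne_zero ?_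
          have := Set.le_ncard_sdiff {b1, e * b1 * e⁻¹} {x | x ∈ B ∧ ¬ Commute e x} (Set.toFinite _)
          have h2 : ({b1, e * b1 * e⁻¹} : Set G).ncard ≤ 2 :=
            (Set.ncard_insert_le _ _).trans (by rw [Set.ncard_singleton])
          omega
        simp only [Set.mem_insert_iff, Set.mem_singleton_iff, not_or] at hb2n
        have hb1C : b1 ∉ C := fun h => hb1e (Subgroup.mem_centralizer_singleton_iff.1 h.2).symm
        have hb2C : b2 ∉ C := fun h => hb2e (Subgroup.mem_centralizer_singleton_iff.1 h.2).symm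
        have hb12 : b1 * b2 ∉ C := by
          intro h
          have hcc : b1 * b2 * e = e * (b1 * b2) := Subgroup.mem_centralizer_singleton_iff.1 h.2
          rcases hpair (hBconj e (hET he) b1 hb1) (hBconj e (hET he) b2 hb2)
            (fun h => Ne.symm hb2n.1 (mul_left_cancel (mul_right_cancel h))) hb2 hb1 hb2n.1 (by
              rw [← (hBc b1 hb1 b2 hb2).eq]
              calc e * b1 * e⁻¹ * (e * b2 * e⁻¹) = e * (b1 * b2) * e⁻¹ := by group
                _ = b1 * b2 := by rw [← hcc]; group) with h' | h'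
          · exact hb2n.2 h'
          · exact hb2e (mul_inv_eq_iff_eq_mul.1 h'.symm)
        have hle3 : Nat.card C * 3 ≤ Nat.card A0 := by
          have hb1A : b1 ∈ A0 := Subgroup.subset_closure hb1
          have hb2A : b2 ∈ A0 := Subgroup.subset_closure hb2
          let r : Fin 3 → G := ![1, b1, b2]
          have hr : ∀ i, r i ∈ A0 := by
            intro i; fin_cases i
            exacts [one_mem _, hb1A, hb2A]
          let f : C × Fin 3 → A0 := fun p => ⟨p.1.1 * r p.2, mul_mem p.1.2.1 (hr p.2)⟩
          have hf : Function.Injective f := by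
            rintro ⟨⟨x, hx⟩, i⟩ ⟨⟨y, hy⟩, j⟩ h
            have h' : x * r i = y * r j := congrArg Subtype.val h
            have h'' : r i * (r j)⁻¹ ∈ C := by
              rw [show r i * (r j)⁻¹ = x⁻¹ * y by
                rw [eq_inv_mul_of_mul_eq h'];
                group]
              exact mul_mem (inv_mem hx) hy
            have hij : i = j := by
              have hi1 := TT.inv_eq hset hb1.1
              have hi2 := TT.inv_eq hset hb2.1
              fin_cases i <;> fin_cases j <;>
                first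
                | rfl
                | (exfalso; simp [r, hi1, hi2] at h''; first | exact hb1C h'' | exact hb2C h'' | exact hb12 h'' |
                    exact hb12 ((hBc b1 hb1 b2 hb2).eq ▸ h''))
            subst hij
            rw [Prod.ext_iff]
            exact ⟨Subtype.ext (mul_right_cancel h'), rfl⟩
          have := Nat.card_le_card_of_injective f hf
          simpa [Nat.card_prod] using this
        have h4 : Nat.card ↥(E ⊓ A0) ≤ Nat.card C := Subgroup.card_le_of_le hEC
        have h5 : 0 < Nat.card C := Nat.card_pos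
        omega
      · exfalso
        have := hEc
        have := hA0c
        have hEp : IsPGroup 2 E := T.isPGroup'.to_le hET
        have hA0p : IsPGroup 2 A0 := T.isPGroup'.to_le hA0T
        obtain ⟨M, C, hM, hC, hMC, hcard', hNE, hlt⟩ :=
          LocalEven.thompson_replacement hEp hA0p (hET.trans hTN) hN
        have hMCT : M ⊔ C ≤ (T : Subgroup G) := sup_le (hM.trans hA0T) (hC.trans hET)
        have hMCsq : ∀ x ∈ M ⊔ C, x * x = 1 := by
          intro x hx
          rw [Subgroup.sup_eq_closure] at hx
          refine (elementary_closure (fun a ha b hb => ?_) (fun a ha => ?_)).2 x hx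
          · exact congrArg Subtype.val (mul_comm'
              (⟨a, by rw [Subgroup.sup_eq_closure]; exact Subgroup.subset_closure ha⟩ : ↥(M ⊔ C))
              ⟨b, by rw [Subgroup.sup_eq_closure]; exact Subgroup.subset_closure hb⟩)
          · rcases ha with ha | ha
            exacts [hA0sq a (hM ha), hEsq a (hC ha)]
        have hlt' : Nat.card ↥(E ⊓ A0) < Nat.card ↥((M ⊔ C) ⊓ A0) := Set.ncard_lt_ncard hlt
        have hle' : Nat.card ↥((M ⊔ C) ⊓ A0) ≤ Nat.card A0 := Subgroup.card_le_of_le inf_le_right
        have := IH _ (by omega) (M ⊔ C) hMCT hMC hMCsq (hcard.trans hcard') rfl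
        exact hN (this ▸ hNE)
  have hEA : ∀ A : Subgroup (T : Subgroup G), IsElementaryAbelian 2 A → Nat.card A0 ≤ Nat.card A →
      A = A0.subgroupOf (T : Subgroup G) := by
    intro A hA hcard
    have h1 : A.map (T : Subgroup G).subtype = A0 := by
      refine main _ _ (Subgroup.map_subtype_le A) ?_ ?_ ?_ rfl
      · haveI := hA.1; infer_instance
      · rintro _ ⟨x, hx, rfl⟩
        have := hA.2 x hx
        rw [pow_two] at this
        exact congrArg Subtype.val this
      · rwa [Subgroup.card_map_of_injective (Subgroup.subtype_injective _)]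
    rw [← h1, Subgroup.subgroupOf, Subgroup.comap_map_eq_self_of_injective (Subgroup.subtype_injective _)]
  have hmem : A0.subgroupOf (T : Subgroup G) ∈ maxElementaryAbelianSubgroups 2 (T : Subgroup G) := by
    have hcA : Nat.card (A0.subgroupOf (T : Subgroup G)) = Nat.card A0 :=
      Nat.card_congr (Subgroup.subgroupOfEquivOfLe hA0T).toEquiv
    refine ⟨⟨?_, fun a ha => Subtype.ext (by rw [Subgroup.coe_pow, pow_two]; exact hA0sq _ ha)⟩, fun A hA => ?_⟩
    · refine ⟨⟨fun x y => Subtype.ext (Subtype.ext ?_)⟩⟩
      show x.1.1 * y.1.1 = y.1.1 * x.1.1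
      exact congrArg Subtype.val ((hA0c).is_comm.comm (⟨x.1.1, x.2⟩ : A0) ⟨y.1.1, y.2⟩)
    · by_contra h
      push Not at h
      rw [hcA] at h
      rw [hEA A hA h.le, hcA] at h
      exact lt_irrefl _ h
  have hJ : thompsonSubgroup 2 (T : Subgroup G) = A0.subgroupOf (T : Subgroup G) := by
    refine le_antisymm (sSup_le fun A hA => ?_) (le_sSup hmem)
    refine (hEA A hA.1 ?_).le
    have := hA.2 _ hmem.1
    rwa [Nat.card_congr (Subgroup.subgroupOfEquivOfLe hA0T).toEquiv] at this
  rw [thompsonSubgroupOf, hJ, Subgroup.map_subgroupOf_eq_of_le hA0T]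

/-- Let G be a finite group with trivial centre generated by a conjugation-invariant set D of 3-transpositions on which it acts primitively, of type M(22), and suppose G also has an involution whose centralizer is quasisimple with quotient by it the projective special unitary group of dimension 6 over the field with four elements and which is not weakly closed in that centralizer. Let T be a Sylow 2-subgroup of G. Then the subgroup generated by the members of D lying in T is the Thompson subgroup of T (generated by the elementary abelian subgroups of T of largest order). -/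
theorem result {G : Type*} [Group G] [Finite G] {D : Set G} (hD : Cfsg.IsThreeTranspositionGroup D) (hprim : Cfsg.IsPrimitiveUnderConj D) (h22 : Cfsg.IsOfTypeM22 G D) (hM : ∃ d : G, orderOf d = 2 ∧ Cfsg.IsQuasisimple ↥(Subgroup.centralizer ({d} : Set G)) ∧ (∃ (_ : ((Subgroup.zpowers d).subgroupOf (Subgroup.centralizer ({d} : Set G))).Normal) (K : Type) (_ : Field K) (_ : Fintype K), Fintype.card K = 4 ∧ Nonempty (↥(Subgroup.centralizer ({d} : Set G)) ⧸ (Subgroup.zpowers d).subgroupOf (Subgroup.centralizer ({d} : Set G)) ≃* Cfsg.PSU 6 K 2)) ∧ ∃ g : G, g * d * g⁻¹ ∈ Subgroup.centralizer ({d} : Set G) ∧ g * d * g⁻¹ ≠ d) (T : Sylow 2 G) : Subgroup.closure {x : G | x ∈ D ∧ x ∈ (T : Subgroup G)} = Cfsg.thompsonSubgroupOf 2 (T : Subgroup G) := by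
  obtain ⟨F, _, _, hF, c⟩ := M22.exists_ctx hD hprim h22
  obtain ⟨-, d, hd, -⟩ := h22
  exact members_generate c hd T

end Cfsg.Agent.S5458
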