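import Cfsg.Statements.S5459
import Mathlib.GroupTheory.Commutator.Basic
import Mathlib.GroupTheory.QuotientGroup.Basic
-- import your own Cfsg.Agent.* helpers here

set_option autoImplicit false
open Cfsg
open scoped commutatorElement

namespace Cfsg.Agent.S5459

/-- Let G be a finite group with a quasisimple normal subgroup L and an involution d such that G is generated by L and d, the centre of L has odd order, and d inverts every element of the centre of L. If the commuting graph on the conjugacy class of the image of d in G modulo the centre of L is connected, then the commuting graph on the conjugacy class of d is connected. -/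
theorem result {G : Type*} [Group G] [Finite G] (L : Subgroup G) [L.Normal] (hL : Cfsg.IsQuasisimple ↥L) (d : G) (hd : orderOf d = 2) (hgen : L ⊔ Subgroup.zpowers d = ⊤) (hodd : Odd (Nat.card ↥(Subgroup.center ↥L))) (hinv : ∀ c ∈ (Subgroup.center ↥L).map L.subtype, d * c * d⁻¹ = c⁻¹) [hn : ((Subgroup.center ↥L).map L.subtype).Normal] (hconn : (Cfsg.commutingGraph (conjugatesOf (QuotientGroup.mk d : G ⧸ (Subgroup.center ↥L).map L.subtype))).Connected) : (Cfsg.commutingGraph (conjugatesOf d)).Connected := by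
  classical
  set Z := (Subgroup.center ↥L).map L.subtype with hZ
  let f := QuotientGroup.mk' Z
  have hd2 : d * d = 1 := by
    have h := pow_orderOf_eq_one d
    rwa [hd, pow_two] at h
  have hdinv : d⁻¹ = d := inv_eq_of_mul_eq_one_right hd2
  have hZL : ∀ z ∈ Z, ∀ l ∈ L, z * l = l * z := by
    rintro _ ⟨z, hz, rfl⟩ l hl
    exact congrArg Subtype.val (Subgroup.mem_center_iff.mp hz ⟨l, hl⟩).symm
  have hsqrt : ∀ z ∈ Z, ∃ w ∈ Z, w * w = z := by
    rintro _ ⟨⟨z, hz'⟩, hz, rfl⟩
    obtain ⟨m, hm⟩ := hodd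
    refine ⟨z ^ (m + 1), Z.pow_mem ⟨⟨z, hz'⟩, hz, rfl⟩ _, ?_⟩
    have h1 : (z : G) ^ Nat.card (Subgroup.center L) = 1 :=
      congrArg (fun u : Subgroup.center L => ((u : L) : G)) (pow_card_eq_one' (x := (⟨⟨z, hz'⟩, hz⟩ : Subgroup.center L)))
    rw [← pow_add, show m + 1 + (m + 1) = Nat.card (Subgroup.center L) + 1 by omega, pow_succ, h1, one_mul]
    rfl
  -- every conjugate of `d` inverts `Z`
  have hcinv : ∀ a, IsConj d a → ∀ z ∈ Z, a * z * a⁻¹ = z⁻¹ := by
    intro a ha z hz
    obtain ⟨g, rfl⟩ := isConj_iff.mp ha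
    have hz' : g⁻¹ * z * g ∈ Z := by simpa using hn.conj_mem z hz g⁻¹
    calc g * d * g⁻¹ * z * (g * d * g⁻¹)⁻¹ = g * (d * (g⁻¹ * z * g) * d⁻¹) * g⁻¹ := by group
      _ = g * (g⁻¹ * z * g)⁻¹ * g⁻¹ := by rw [hinv _ hz']
      _ = z⁻¹ := by group
  have hsqa : ∀ a, IsConj d a → a * a = 1 := by
    intro a ha
    obtain ⟨g, rfl⟩ := isConj_iff.mp ha
    calc g * d * g⁻¹ * (g * d * g⁻¹) = g * (d * d) * g⁻¹ := by group
      _ = 1 := by rw [hd2]; group
  let Gr := Cfsg.commutingGraph (conjugatesOf d)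
  have hd0 : d ∈ conjugatesOf d := mem_conjugatesOf_self
  -- a conjugation is a graph automorphism
  have hmap : ∀ (g : G) (a b : conjugatesOf d), Gr.Reachable a b →
      ∀ (ha' : g * a * g⁻¹ ∈ conjugatesOf d) (hb' : g * b * g⁻¹ ∈ conjugatesOf d),
        Gr.Reachable ⟨_, ha'⟩ ⟨_, hb'⟩ := by
    intro g a b hab
    obtain ⟨w⟩ := hab
    induction w with
    | nil => intro ha' hb'; exact SimpleGraph.Reachable.refl _
    | @cons u v w h p ih =>
      intro ha' hb'
      have hv' : g * (v : G) * g⁻¹ ∈ conjugatesOf d :=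
        IsConj.trans (show IsConj d (v : G) from v.2) (isConj_iff.mpr ⟨g, rfl⟩)
      refine SimpleGraph.Reachable.trans (SimpleGraph.Adj.reachable ?_) (ih hv' hb')
      have h' := (SimpleGraph.fromRel_adj _ u v).mp h
      refine (SimpleGraph.fromRel_adj _ _ _).mpr ⟨fun e => h'.1 (Subtype.ext ?_), ?_⟩
      · exact mul_left_cancel (mul_right_cancel (congrArg Subtype.val e))
      · rcases h'.2 with hc | hc
        · exact Or.inl (show Commute (g * (u : G) * g⁻¹) (g * (v : G) * g⁻¹) from hc.map (MulAut.conj g))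
        · exact Or.inr (show Commute (g * (v : G) * g⁻¹) (g * (u : G) * g⁻¹) from hc.map (MulAut.conj g))
  let S : Subgroup G :=
    { carrier := {g | Gr.Reachable ⟨d, hd0⟩ ⟨g * d * g⁻¹, isConj_iff.mpr ⟨g, rfl⟩⟩}
      one_mem' := by
        show Gr.Reachable _ _
        convert SimpleGraph.Reachable.refl (G := Gr) ⟨d, hd0⟩ using 2
        exact Subtype.ext (by simp)
      mul_mem' := by
        intro g h hg hh
        show Gr.Reachable _ _
        refine hg.trans ?_
        have h1 := hmap g _ _ hh (isConj_iff.mpr ⟨g, rfl⟩) (IsConj.trans (isConj_iff.mpr ⟨h, rfl⟩) (isConj_iff.mpr ⟨g, rfl⟩))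
        convert h1 using 2
        exact Subtype.ext (by group)
      inv_mem' := by
        intro g hg
        show Gr.Reachable _ _
        have h1 := hmap g⁻¹ _ _ hg (isConj_iff.mpr ⟨g⁻¹, rfl⟩) (IsConj.trans (isConj_iff.mpr ⟨g, rfl⟩) (isConj_iff.mpr ⟨g⁻¹, rfl⟩))
        convert h1.symm using 2
        exact Subtype.ext (by group) }
  have hSC : ∀ g, g * d = d * g → g ∈ S := fun g hg => by
    show Gr.Reachable _ _
    convert SimpleGraph.Reachable.refl (G := Gr) ⟨d, hd0⟩ using 2
    exact Subtype.ext (show g * d * g⁻¹ = d by rw [hg, mul_inv_cancel_right])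
  -- lifting paths
  have hlift : ∀ (u v : conjugatesOf (f d)), (Cfsg.commutingGraph (conjugatesOf (f d))).Reachable u v →
      ∀ a : conjugatesOf d, f a = (u : G ⧸ Z) → ∃ b : conjugatesOf d, f b = (v : G ⧸ Z) ∧ Gr.Reachable a b := by
    intro u v huv
    obtain ⟨w⟩ := huv
    induction w with
    | nil => intro a ha; exact ⟨a, ha, SimpleGraph.Reachable.refl _⟩
    | @cons u v w h p ih =>
      intro a ha
      have h' := (SimpleGraph.fromRel_adj _ u v).mp h
      obtain ⟨g, hg⟩ := isConj_iff.mp (show IsConj (f d) (v : G ⧸ Z) from v.2)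
      obtain ⟨g, rfl⟩ := QuotientGroup.mk'_surjective Z g
      set b := g * d * g⁻¹ with hb
      have hfb : f b = (v : G ⧸ Z) := by rw [hb, map_mul, map_mul, map_inv]; exact hg
      have hbc : IsConj d b := isConj_iff.mpr ⟨g, rfl⟩
      have hcommf : f a * f b = f b * f a := by
        rw [ha, hfb]
        rcases h'.2 with hc | hc
        · exact hc.eq
        · exact hc.eq.symm
      have hz : (a : G) * b * (a : G) * b ∈ Z := by
        rw [← QuotientGroup.ker_mk' Z, MonoidHom.mem_ker]
        show f _ = 1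
        calc f ((a : G) * b * a * b) = f a * (f b * f a) * f b := by simp only [map_mul]; group
          _ = f ((a : G) * a) * f (b * b) := by rw [← hcommf]; simp only [map_mul]; group
          _ = 1 := by rw [hsqa _ a.2, hsqa _ hbc, map_one, one_mul]
      obtain ⟨w', hw', hww⟩ := hsqrt _ hz
      obtain ⟨v', hv', hvv⟩ := hsqrt w' hw'
      have hb' : IsConj d (w' * b) := hbc.trans (isConj_iff.mpr ⟨v', by
        have h1 := hcinv b hbc v'⁻¹ (Z.inv_mem hv')
        rw [inv_inv] at h1
        calc v' * b * v'⁻¹ = v' * (b * v'⁻¹ * b⁻¹) * b := by group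
          _ = w' * b := by rw [h1, hvv]⟩)
      have hfb' : f (w' * b) = (v : G ⧸ Z) := by
        rw [map_mul, show f w' = 1 from (QuotientGroup.eq_one_iff _).mpr hw', one_mul, hfb]
      have hab : (a : G) * (w' * b) = (w' * b) * a := by
        have h1 := hcinv _ a.2 w' hw'
        have hkey : (a : G) * (w' * b) * a * (w' * b) = 1 := by
          have haa := hsqa _ a.2
          have hainv : (a : G)⁻¹ = a := inv_eq_of_mul_eq_one_right haa
          have hbb := hsqa _ hbc
          have hbinv : b⁻¹ = b := inv_eq_of_mul_eq_one_right hbb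
          have habinv : ((a : G) * b * a) * w' = w' ⁻¹ * ((a : G) * b * a) := by
            have hconj : IsConj d ((a : G) * b * a) := hbc.trans (isConj_iff.mpr ⟨(a : G), by rw [hainv]⟩)
            exact mul_inv_eq_iff_eq_mul.mp (hcinv _ hconj w' hw')
          calc (a : G) * (w' * b) * a * (w' * b) = ((a : G) * w' * (a : G)⁻¹) * ((a : G) * b * a * w') * b := by group
            _ = w'⁻¹ * (w'⁻¹ * ((a : G) * b * a)) * b := by rw [h1, habinv]
            _ = (w' * w')⁻¹ * ((a : G) * b * a * b) := by group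
            _ = 1 := by rw [hww, inv_mul_cancel]
        have h2 := mul_eq_one_iff_eq_inv.mp (show ((a : G) * (w' * b)) * (a * (w' * b)) = 1 by rw [← hkey]; group)
        rw [h2, mul_inv_rev, inv_eq_of_mul_eq_one_right (hsqa _ hb'), inv_eq_of_mul_eq_one_right (hsqa _ a.2)]
      obtain ⟨c, hc, hac⟩ := ih ⟨w' * b, hb'⟩ hfb'
      refine ⟨c, hc, SimpleGraph.Reachable.trans (SimpleGraph.Adj.reachable ?_) hac⟩
      refine (SimpleGraph.fromRel_adj _ _ _).mpr ⟨fun e => h'.1 (Subtype.ext ?_), Or.inl hab⟩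
      rw [← ha, ← hfb', e]
  -- `S` covers `G` modulo `Z`
  have hSZ : ∀ g : G, ∃ s ∈ S, ∃ z ∈ Z, g = s * z := by
    intro g
    have hmem : f (g * d * g⁻¹) ∈ conjugatesOf (f d) := isConj_iff.mpr ⟨f g, by simp⟩
    obtain ⟨⟨b, hbconj⟩, hb, hreach⟩ := hlift ⟨f d, mem_conjugatesOf_self⟩ ⟨_, hmem⟩ (hconn.preconnected _ _) ⟨d, hd0⟩ rfl
    obtain ⟨h, hh⟩ := isConj_iff.mp (show IsConj d b from hbconj)
    have hS : h ∈ S := by
      show Gr.Reachable _ _
      convert hreach using 2
      exact Subtype.ext hh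
    set k := h⁻¹ * g with hk
    have hkd : k * d * k⁻¹ * d⁻¹ ∈ Z := by
      rw [← QuotientGroup.ker_mk' Z, MonoidHom.mem_ker]
      have hb' : f b = f (g * d * g⁻¹) := hb
      rw [← hh] at hb'
      show f _ = 1
      calc f (k * d * k⁻¹ * d⁻¹) = (f h)⁻¹ * f (g * d * g⁻¹) * f h * (f d)⁻¹ := by
            rw [hk]; simp only [map_mul, map_inv, mul_inv_rev]; group
        _ = 1 := by rw [← hb']; simp only [map_mul, map_inv]; group
    obtain ⟨v, hv, hvv⟩ := hsqrt _ hkd
    have hvd : (v⁻¹ * k) * d = d * (v⁻¹ * k) := by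
      have h1 : k * d = v * v * d * k := by rw [hvv]; group
      have h2 : v * d = d * v⁻¹ := by
        have := hcinv d hd0 v⁻¹ (Z.inv_mem hv)
        rw [inv_inv] at this
        exact (mul_inv_eq_iff_eq_mul.mp this).symm
      calc v⁻¹ * k * d = v⁻¹ * (k * d) := by group
        _ = (v * d) * k := by rw [h1]; group
        _ = d * (v⁻¹ * k) := by rw [h2]; group
    refine ⟨h * (v⁻¹ * k), S.mul_mem hS (hSC _ hvd), k⁻¹ * v * k, ?_, by rw [hk]; group⟩
    simpa using hn.conj_mem v hv k⁻¹
  have hLS : L ≤ S := by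
    have hperf := hL.1
    have hle : ⁅L, L⁆ ≤ S := by
      rw [Subgroup.commutator_le]
      intro a ha b hb
      obtain ⟨s, hs, z, hz, rfl⟩ := hSZ a
      obtain ⟨t, ht, y, hy, rfl⟩ := hSZ b
      have hzL : z ∈ L := Subgroup.map_subtype_le _ hz
      have hyL : y ∈ L := Subgroup.map_subtype_le _ hy
      have hsL : s ∈ L := by simpa using L.mul_mem ha (L.inv_mem hzL)
      have htL : t ∈ L := by simpa using L.mul_mem hb (L.inv_mem hyL)
      have e : ⁅s * z, t * y⁆ = ⁅s, t⁆ := by
        have c1 : Commute z t := hZL z hz t htL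
        have c2 : Commute z y := hZL z hz y hyL
        have c3 : Commute y s := hZL y hy s hsL
        rw [commutatorElement_def, commutatorElement_def]
        calc s * z * (t * y) * (s * z)⁻¹ * (t * y)⁻¹ = s * (z * (t * y) * z⁻¹) * s⁻¹ * y⁻¹ * t⁻¹ := by group
          _ = s * (t * y) * s⁻¹ * y⁻¹ * t⁻¹ := by rw [(c1.mul_right c2).eq, mul_inv_cancel_right]
          _ = s * t * (y * s⁻¹) * y⁻¹ * t⁻¹ := by group
          _ = s * t * s⁻¹ * t⁻¹ := by rw [c3.inv_right.eq]; group
      rw [e, commutatorElement_def]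
      exact S.mul_mem (S.mul_mem (S.mul_mem hs ht) (S.inv_mem hs)) (S.inv_mem ht)
    have hLL : ⁅L, L⁆ = L := by
      have h := congrArg (Subgroup.map L.subtype) (hperf.commutator_eq_top)
      rw [commutator_def, Subgroup.map_commutator, ← MonoidHom.range_eq_map, Subgroup.range_subtype] at h
      exact h
    exact hLL ▸ hle
  have htop : S = ⊤ := eq_top_iff.mpr (hgen ▸ sup_le hLS (Subgroup.zpowers_le.mpr (hSC d rfl)))
  haveI : Nonempty (conjugatesOf d) := ⟨⟨d, hd0⟩⟩
  refine ⟨fun a b => ?_⟩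
  have key : ∀ a : conjugatesOf d, Gr.Reachable ⟨d, hd0⟩ a := fun a => by
    obtain ⟨g, hg⟩ := isConj_iff.mp (show IsConj d (a : G) from a.2)
    have hgS : Gr.Reachable _ _ := (htop ▸ Subgroup.mem_top g : g ∈ S)
    convert hgS using 2
    exact Subtype.ext hg.symm
  exact (key a).symm.trans (key b)

end Cfsg.Agent.S5459
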