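import Cfsg.Statements.S5462
import Cfsg.Agent.Core.M22QuadCentres
import Cfsg.Agent.Core.M22Transp

set_option autoImplicit false
open Cfsg
open Cfsg.Agent.FGS3
open Cfsg.Agent.Core

namespace Cfsg.Agent.S5462

/-- Let G be a finite group with trivial centre generated by a conjugation-invariant set D of 3-transpositions on which it acts primitively, such that for some d in D the subgroup generated by the members of D other than d commuting with d has central largest normal 2- and 3-subgroups, and suppose G with D is of type M(22). Then every automorphism of G of order 2 fixes some member of D. -/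
theorem result {G : Type*} [Group G] [Finite G] {D : Set G} (hD : Cfsg.IsThreeTranspositionGroup D) (hprim : Cfsg.IsPrimitiveUnderConj D) (d₀ : G) (hd₀ : d₀ ∈ D) (h3 : Cfsg.pCore 3 ↥(Subgroup.closure {y : G | y ∈ D ∧ y ≠ d₀ ∧ Commute d₀ y}) ≤ Subgroup.center ↥(Subgroup.closure {y : G | y ∈ D ∧ y ≠ d₀ ∧ Commute d₀ y})) (h2 : Cfsg.pCore 2 ↥(Subgroup.closure {y : G | y ∈ D ∧ y ≠ d₀ ∧ Commute d₀ y}) ≤ Subgroup.center ↥(Subgroup.closure {y : G | y ∈ D ∧ y ≠ d₀ ∧ Commute d₀ y})) (h22 : Cfsg.IsOfTypeM22 G D) (φ : MulAut G) (hφ : orderOf φ = 2) : ∃ d ∈ D, φ d = d := by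
  classical
  obtain ⟨F, iF, iT, hF, c⟩ := M22.exists_ctx hD hprim h22
  have hcls := c.prim.cls
  have hset := hcls.1
  have hD3510 : D.ncard = 3510 := by
    obtain ⟨-, d, hd, x, hx, hdx, -, c₃, hc₃, hL⟩ := h22
    set L := Subgroup.closure ({y : G | y ∈ D ∧ y ≠ d ∧ Commute d y} ∩ {y : G | y ∈ D ∧ y ≠ x ∧ Commute x y})
      with hLdef
    have hle : L ≤ Subgroup.centralizer ({d} : Set G) ⊓ Subgroup.centralizer ({x} : Set G) := by
      rw [hLdef, Subgroup.closure_le]
      rintro y ⟨h1, h2⟩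
      exact ⟨Subgroup.mem_centralizer_singleton_iff.2 h1.2.2.eq.symm,
        Subgroup.mem_centralizer_singleton_iff.2 h2.2.2.eq.symm⟩
    have hdvd := ((ReflSix.dvd_card_of_isProjReflection hc₃ hL).trans
      (Subgroup.card_quotient_dvd_card _)).trans (Subgroup.card_dvd_of_le hle)
    exact (c.order hd ⟨hx, hdx⟩ hdvd).1
  have hinv : ∀ x, φ (φ x) = x := fun x => by
    have h : φ * φ = 1 := by rw [← pow_two, ← hφ]; exact pow_orderOf_eq_one φ
    exact DFunLike.congr_fun h x
  have hcomm : ∀ {x y : G}, Commute x y → Commute (φ x) (φ y) := fun h => h.map φ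
  have hncomm : ∀ {x y : G}, ¬ Commute x y → ¬ Commute (φ x) (φ y) := fun {x y} h e =>
    h (by have := hcomm e; rwa [hinv, hinv] at this)
  have hne1 : ∀ {x : G}, x ∈ D → x ≠ 1 := fun {x} hx e => by
    have := hset.1 x hx
    rw [e, orderOf_one] at this; omega
  -- the class is invariant
  have hφD : ∀ d ∈ D, φ d ∈ D := by
    intro d hd
    obtain ⟨ψ, hψ, hker⟩ := c.proj d hd
    have hmem : ∀ g : ↥(Subgroup.centralizer ({φ d} : Set G)), φ (g : G) ∈ Subgroup.closure (TT.Nb D d) :=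
      fun g => c.centraliser_member hd (by
        have h : Commute (g : G) (φ d) := Subgroup.mem_centralizer_singleton_iff.1 g.2
        have := hcomm h
        rwa [hinv] at this)
    let ι : ↥(Subgroup.centralizer ({φ d} : Set G)) →* ↥(Subgroup.closure (TT.Nb D d)) :=
      (φ.toMonoidHom.comp (Subgroup.subtype _)).codRestrict _ hmem
    refine c.mem_of_proj ((φ.orderOf_eq d).trans (hset.1 d hd)) hF (ψ.comp ι) ?_ ?_
    · refine hψ.comp fun h => ⟨⟨φ (h : G), Subgroup.mem_centralizer_singleton_iff.2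
        (hcomm (M22.commute_of_mem_nbGroup h.2)).eq⟩, Subtype.ext (hinv _)⟩
    · intro g
      rw [MonoidHom.comp_apply, ← MonoidHom.mem_ker, hker, Subgroup.mem_center_iff]
      have hg : φ (φ (g : G)) = g := hinv _
      constructor
      · intro h
        have hc := M22.commute_of_mem_nbGroup (hmem g)
        rcases c.centraliser_nb hd hc
          (fun y hy => (congrArg Subtype.val (h ⟨y, Subgroup.subset_closure hy⟩)).symm) with e | e
        · left; rw [← hg, e, map_one]
        · right; rw [← hg, e]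
      · rintro (e | e) y <;> refine Subtype.ext ?_
        · show (y : G) * φ (g : G) = φ (g : G) * y
          rw [e, map_one, mul_one, one_mul]
        · show (y : G) * φ (g : G) = φ (g : G) * y
          rw [e, hinv]
          exact (M22.commute_of_mem_nbGroup y.2).eq
  by_contra hno
  push Not at hno
  have hcm : ∀ x ∈ D, Commute x (φ x) := by
    intro x hx
    by_contra hc
    refine hno (x * φ x * x) ?_ ?_
    · have := TT.conj_mem hcls x (hφD x hx)
      rwa [TT.inv_eq hset hx] at this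
    · rw [map_mul, map_mul, hinv]
      exact (Screen.tt_braid hset hx (hφD x hx) hc).symm
  have hD0 := hd₀
  set e := φ d₀ with he_def
  have heD : e ∈ D := hφD d₀ hd₀
  have heN : e ∈ TT.Nb D d₀ := ⟨heD, hno d₀ hd₀, hcm d₀ hd₀⟩
  obtain ⟨a, haN, hea⟩ : ∃ a ∈ TT.Nb D d₀, ¬ Commute e a := by
    by_contra hall
    push Not at hall
    have h1 : TT.Nb D d₀ \ {e} ⊆ {b | b ∈ TT.Nb D d₀ ∧ e ≠ b ∧ Commute e b} :=
      fun y hy => ⟨hy.1, Ne.symm hy.2, hall y hy.1⟩
    have h2 := Set.ncard_le_ncard h1 (Set.toFinite _)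
    have hn : (TT.Nb D d₀).ncard = 693 := by rw [← Nat.card_coe_set_eq, c.nb_card hd₀]
    have hc : {b | b ∈ TT.Nb D d₀ ∧ e ≠ b ∧ Commute e b}.ncard = 180 := by
      rw [← Nat.card_coe_set_eq]; exact c.common_card hd₀ heN
    rw [Set.ncard_sdiff_singleton_of_mem heN, hn, hc] at h2
    omega
  set b := φ a with hb_def
  have hae : φ e = d₀ := hinv d₀
  have hba' : φ b = a := hinv a
  have haD : a ∈ D := haN.1
  have hbD : b ∈ D := hφD a haD
  have cde : Commute d₀ e := heN.2.2
  have cda : Commute d₀ a := haN.2.2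
  have cbe : Commute b e := (hcomm cda).symm
  have cba : Commute b a := (hcm a haD).symm
  have hdb : ¬ Commute d₀ b := fun h => hea (by
    have := hcomm h
    rwa [hba', ← he_def] at this)
  set M := {x | x ∈ D ∧ Commute d₀ x ∧ Commute b x ∧ Commute e x ∧ Commute a x} with hM
  have hMφ : ∀ x ∈ M, φ x ∈ M := by
    rintro x ⟨hx, c1, c2, c3, c4⟩
    refine ⟨hφD x hx, ?_, hcomm c4, hcomm c1, ?_⟩
    · have := hcomm c3; rwa [hae] at this
    · have := hcomm c2; rwa [hba'] at this
  have hMnb : ∀ {x : G}, x ∈ M → d₀ ∈ TT.Nb D x ∧ b ∈ TT.Nb D x ∧ e ∈ TT.Nb D x ∧ a ∈ TT.Nb D x := by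
    intro x ⟨hx, c1, c2, c3, c4⟩
    exact ⟨⟨hd₀, fun h => hdb (h ▸ c2.symm), c1.symm⟩, ⟨hbD, fun h => hdb (h ▸ c1), c2.symm⟩,
      ⟨heD, fun h => hea (h ▸ c4.symm), c3.symm⟩, ⟨haD, fun h => hea (h ▸ c3), c4.symm⟩⟩
  let N : G → Set G := fun x => {y | y ∈ TT.Nb D x ∧ Commute d₀ y ∧ Commute b y ∧ Commute e y ∧ Commute a y}
  have hquad := fun {x : G} (hx : x ∈ M) => M22.quad_common c hx.1 (hMnb hx).1 (hMnb hx).2.1 (hMnb hx).2.2.1
    (hMnb hx).2.2.2 hdb hea cde cda cbe cba
  have hmemN : ∀ {x y : G}, y ∈ M → y ≠ x → Commute x y → y ∈ N x := fun h h1 h2 =>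
    ⟨⟨h.1, h1, h2⟩, h.2⟩
  obtain ⟨p, hp, ⟨-, -, cpd⟩, ⟨-, -, cpb⟩, ⟨-, -, cpe⟩, ⟨-, -, cpa⟩⟩ :=
    M22.quad_nb c hd₀ hbD heD haD hdb hea cde cda cbe cba
  have hpM : p ∈ M := ⟨hp, cpd.symm, cpb.symm, cpe.symm, cpa.symm⟩
  set w := φ p with hw_def
  have hwM : w ∈ M := hMφ p hpM
  have hw : w ∈ D := hwM.1
  have cpw : Commute p w := hcm p hp
  have hwp : w ≠ p := hno p hp
  -- every member commutes with one of `p`, `w`
  have hcover : M ⊆ N p ∪ N w := by
    intro u huM
    by_cases hup : u = p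
    · right; rw [hup]; exact hmemN hpM hwp.symm cpw.symm
    by_cases huw : u = w
    · left; rw [huw]; exact hmemN hwM hwp cpw
    by_cases cup : Commute p u
    · exact Or.inl (hmemN huM hup cup)
    by_cases cuw : Commute w u
    · exact Or.inr (hmemN huM huw cuw)
    exfalso
    have hu : u ∈ D := huM.1
    set v := φ u with hv_def
    have hvM := hMφ u huM
    have P2 := Screen.tt_mul_self hset hp
    have W2 := Screen.tt_mul_self hset hw
    have B1 := Screen.tt_braid hset hp hu cup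
    have B2 := Screen.tt_braid hset hw hu cuw
    have hvu : v ∈ N u := hmemN hvM (hno u hu) (hcm u hu)
    set u' := p * (w * u * w) * p with hu'
    have hu'M : u' ∈ M := by
      refine ⟨?_, ?_⟩
      · have h := TT.conj_mem hcls p (TT.conj_mem hcls w hu)
        rwa [TT.inv_eq hset hp, TT.inv_eq hset hw] at h
      · have hc : ∀ z : G, Commute z p → Commute z w → Commute z u → Commute z u' := fun z h1 h2 h3 =>
          (h1.mul_right ((h2.mul_right h3).mul_right h2)).mul_right h1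
        exact ⟨hc _ hpM.2.1 hwM.2.1 huM.2.1, hc _ hpM.2.2.1 hwM.2.2.1 huM.2.2.1,
          hc _ hpM.2.2.2.1 hwM.2.2.2.1 huM.2.2.2.1, hc _ hpM.2.2.2.2 hwM.2.2.2.2 huM.2.2.2.2⟩
    have huu : Commute u u' := by
      show u * u' = u' * u
      rw [hu']
      calc u * (p * (w * u * w) * p) = u * (p * (u * w * u) * p) := by rw [B2]
        _ = u * p * u * w * (u * p) := by simp only [mul_assoc]
        _ = p * u * p * w * (u * p) := by rw [← B1]
        _ = p * u * (w * p) * (u * p) := by rw [mul_assoc (p * u) p w, cpw.eq]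
        _ = p * u * w * (p * u * p) := by simp only [mul_assoc]
        _ = p * u * w * (u * p * u) := by rw [B1]
        _ = p * (u * w * u) * p * u := by simp only [mul_assoc]
        _ = p * (w * u * w) * p * u := by rw [B2]
    have hu'ne : u' ≠ u := by
      intro h
      rw [hu'] at h
      have h' : w * u * w = p * u * p := by
        calc w * u * w = p * (p * (w * u * w) * p) * p := by
              simp only [mul_assoc, Screen.mul_mul_self_cancel P2, P2, mul_one]
          _ = p * u * p := by rw [h]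
      rw [B1, B2] at h'
      exact hwp (mul_left_cancel (mul_right_cancel h'))
    have hu'N : u' ∈ N u := hmemN hu'M hu'ne huu
    by_cases hvu' : v = u'
    · have hr : p * u * p ∈ D := by
        have := TT.conj_mem hcls p hu
        rwa [TT.inv_eq hset hp] at this
      refine hno _ hr ?_
      have hφv : φ u' = u := by rw [← hvu', hv_def, hinv]
      rw [map_mul, map_mul, ← hw_def, ← hv_def, hvu', hu']
      rw [hu', map_mul, map_mul, map_mul, map_mul, ← hv_def, hvu', ← hw_def, hw_def, hinv, ← hw_def, hu'] at hφv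
      calc w * (p * (w * u * w) * p) * w = (w * p) * w * u * w * (p * w) := by simp only [mul_assoc]
        _ = (p * w) * w * u * w * (w * p) := by rw [cpw.eq]
        _ = p * u * p := by
          simp only [mul_assoc, Screen.mul_mul_self_cancel W2]
    · refine (hquad huM).2.1 v hvu u' hu'N hvu' ?_
      have hr : p * u * p ∈ D := by
        have := TT.conj_mem hcls p hu
        rwa [TT.inv_eq hset hp] at this
      have h1 := hcm _ hr
      rw [map_mul, map_mul, ← hw_def, ← hv_def] at h1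
      have h2 := (TT.commute_conj_iff w _ _).2 h1
      rw [TT.inv_eq hset hw] at h2
      rw [show w * (w * v * w) * w = v by simp only [mul_assoc, Screen.mul_mul_self_cancel W2, W2, mul_one],
        show w * (p * u * p) * w = u' by
          rw [hu']
          calc w * (p * u * p) * w = (w * p) * u * (p * w) := by simp only [mul_assoc]
            _ = (p * w) * u * (w * p) := by rw [cpw.eq]
            _ = p * (w * u * w) * p := by simp only [mul_assoc]] at h2
      exact h2.symm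
  have hM6 : M.ncard ≤ 6 := by
    refine le_trans (Set.ncard_le_ncard hcover (Set.toFinite _)) (le_trans (Set.ncard_union_le _ _) ?_)
    have h1 := (hquad hpM).1
    have h2 := (hquad hwM).1
    exact add_le_add h1 h2
  -- counting in the centraliser of `d₀` and `b`
  obtain ⟨hμ, hS⟩ := c.far_counts hD3510 hd₀ (show b ∈ M22.Far D d₀ from ⟨hbD, hdb⟩)
  rw [Nat.card_coe_set_eq] at hμ
  have hmut : ∀ {y : G}, y ∈ D → Commute d₀ y → Commute b y → y ∈ M22.Mutual D d₀ b := fun hy h1 h2 =>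
    (M22.mem_mutual_iff hbD (fun h => hdb h.symm)).2 ⟨hy, h2, h1⟩
  obtain ⟨hN3, -, m₁, m₂, hm₁, hm₂, hsix⟩ := hquad hpM
  set H0 := Subgroup.centralizer ({d₀} : Set G) ⊓ Subgroup.centralizer ({b} : Set G)
  set H1 := H0 ⊓ Subgroup.centralizer ({e} : Set G)
  set H2 := H1 ⊓ Subgroup.centralizer ({a} : Set G)
  set H3 := H2 ⊓ Subgroup.centralizer ({p} : Set G)
  set H4 := H3 ⊓ Subgroup.centralizer ({m₁} : Set G)
  set H5 := H4 ⊓ Subgroup.centralizer ({m₂} : Set G)
  have hg : ∀ {g x : G}, g ∈ Subgroup.centralizer ({x} : Set G) → Commute g x :=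
    fun h => Subgroup.mem_centralizer_singleton_iff.1 h
  have hconjc : ∀ {g x y : G}, Commute g x → Commute x y → Commute x (g * y * g⁻¹) := fun {g x y} h1 h2 => by
    have := (TT.commute_conj_iff g x y).2 h2
    rwa [h1.eq, mul_inv_cancel_right] at this
  have b0 : Nat.card ↥H0 ≤ 126 * Nat.card ↥H1 := hμ ▸ M22.orbit_bound H0 e _ fun g hgH =>
    hmut (TT.conj_mem hcls g heD) (hconjc (hg hgH.1) cde) (hconjc (hg hgH.2) cbe)
  have b1 : Nat.card ↥H1 ≤ 126 * Nat.card ↥H2 := hμ ▸ M22.orbit_bound H1 a _ fun g hgH =>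
    hmut (TT.conj_mem hcls g haD) (hconjc (hg hgH.1.1) cda) (hconjc (hg hgH.1.2) cba)
  have hfixM : ∀ g ∈ H2, ∀ x ∈ M, g * x * g⁻¹ ∈ M := fun g hgH x hx =>
    ⟨TT.conj_mem hcls g hx.1, hconjc (hg hgH.1.1.1) hx.2.1, hconjc (hg hgH.1.1.2) hx.2.2.1,
      hconjc (hg hgH.1.2) hx.2.2.2.1, hconjc (hg hgH.2) hx.2.2.2.2⟩
  have b2 : Nat.card ↥H2 ≤ 6 * Nat.card ↥H3 :=
    (M22.orbit_bound H2 p M fun g hgH => hfixM g hgH p hpM).trans (Nat.mul_le_mul_right _ hM6)
  have hfixN : ∀ g ∈ H3, ∀ x ∈ N p, g * x * g⁻¹ ∈ N p := fun g hgH x hx =>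
    ⟨M22.nb_of_commute hcls (hg hgH.2) hx.1, (hfixM g hgH.1 x ⟨hx.1.1, hx.2⟩).2⟩
  have b3 : Nat.card ↥H3 ≤ 3 * Nat.card ↥H4 :=
    (M22.orbit_bound H3 m₁ _ fun g hgH => hfixN g hgH m₁ hm₁).trans (Nat.mul_le_mul_right _ hN3)
  have b4 : Nat.card ↥H4 ≤ 3 * Nat.card ↥H5 :=
    (M22.orbit_bound H4 m₂ _ fun g hgH => hfixN g hgH.1 m₂ hm₂).trans (Nat.mul_le_mul_right _ hN3)
  have b5 : Nat.card ↥H5 ≤ 6 := hsix H5 fun g h =>
    ⟨hg h.1.1.2, hg h.1.1.1.1.1.1, hg h.1.1.1.1.1.2, hg h.1.1.1.1.2, hg h.1.1.1.2, hg h.1.2, hg h.2⟩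
  rw [hS] at b0
  omega

end Cfsg.Agent.S5462
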