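import Cfsg.Statements.S5464
import Cfsg.Agent.OddChar.Fischer.Main

set_option autoImplicit false
open Cfsg

namespace Cfsg.Agent.S5464

/-- Let G be a finite group with trivial centre generated by a conjugation-invariant set D of 3-transpositions on which it acts primitively, such that for some d in D the subgroup generated by the members of D other than d commuting with d has central largest normal 2- and 3-subgroups, and suppose G with D is of type M(23) or of type M(24). Then for m ≤ 3, a product of m distinct pairwise commuting members of D determines the set of factors: any two m-element sets of pairwise commuting members of D with the same product coincide. -/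
theorem result {G : Type*} [Group G] [Finite G] {D : Set G} (hD : Cfsg.IsThreeTranspositionGroup D) (hprim : Cfsg.IsPrimitiveUnderConj D) (d₀ : G) (hd₀ : d₀ ∈ D) (h3 : Cfsg.pCore 3 ↥(Subgroup.closure {y : G | y ∈ D ∧ y ≠ d₀ ∧ Commute d₀ y}) ≤ Subgroup.center ↥(Subgroup.closure {y : G | y ∈ D ∧ y ≠ d₀ ∧ Commute d₀ y})) (h2 : Cfsg.pCore 2 ↥(Subgroup.closure {y : G | y ∈ D ∧ y ≠ d₀ ∧ Commute d₀ y}) ≤ Subgroup.center ↥(Subgroup.closure {y : G | y ∈ D ∧ y ≠ d₀ ∧ Commute d₀ y})) (h : Cfsg.IsOfTypeM23 G D ∨ Cfsg.IsOfTypeM24 G D) (m : ℕ) (hm : m ≤ 3) (j : G) (l l' : List G) (hl : (l.Nodup ∧ l.length = m ∧ (∀ a ∈ l, a ∈ D) ∧ (∀ a ∈ l, ∀ b ∈ l, Commute a b) ∧ l.prod = j)) (hl' : (l'.Nodup ∧ l'.length = m ∧ (∀ a ∈ l', a ∈ D) ∧ (∀ a ∈ l', ∀ b ∈ l', Commute a b) ∧ l'.prod = j)) : (∀ x : G, x ∈ l ↔ x ∈ l') := by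
  have hcls : Cfsg.IsThreeTranspositionClass D := FGS3.TT.class_of_primitive hD hprim
  obtain ⟨hP, p, hp, q, hq, hg⟩ : FGS3.TT.Prim D ∧ ∃ a ∈ D, ∃ b ∈ FGS3.TT.Nb D a,
      OddChar.Fischer.Good (FGS3.TT.Nb D a ∩ FGS3.TT.Nb D b) :=
    h.elim (OddChar.Fischer.m23_pair hcls hprim) (OddChar.Fischer.m24_pair hcls hprim)
  have hg1 : ∀ a ∈ D, OddChar.Fischer.Good (FGS3.TT.Nb D a) := fun a ha =>
    OddChar.Fischer.good_nb hP hd₀ ha h2
  have hg2 : ∀ a ∈ D, ∀ b ∈ FGS3.TT.Nb D a,
      OddChar.Fischer.Good (FGS3.TT.Nb D a ∩ FGS3.TT.Nb D b) := fun a ha b hb =>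
    OddChar.Fischer.good_nb₂ hP hp hq ha hb hg
  have sub : ∀ k k' : List G, (k.Nodup ∧ k.length = m ∧ (∀ a ∈ k, a ∈ D) ∧ (∀ a ∈ k, ∀ b ∈ k, Commute a b) ∧ k.prod = j) →
      (k'.Nodup ∧ k'.length = m ∧ (∀ a ∈ k', a ∈ D) ∧ (∀ a ∈ k', ∀ b ∈ k', Commute a b) ∧ k'.prod = j) →
      ∀ x ∈ k', x ∈ k := by
    rintro k k' ⟨n1, l1, d1, c1, p1⟩ ⟨n2, l2, d2, c2, p2⟩
    interval_cases m
    · rw [List.length_eq_zero_iff] at l2
      simp [l2]
    · obtain ⟨a, rfl⟩ := List.length_eq_one_iff.1 l1
      obtain ⟨a', rfl⟩ := List.length_eq_one_iff.1 l2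
      simp_all
    · obtain ⟨a, b, rfl⟩ := List.length_eq_two.1 l1
      obtain ⟨a', b', rfl⟩ := List.length_eq_two.1 l2
      simp only [List.nodup_cons, List.mem_cons, List.not_mem_nil, or_false, not_or,
        List.prod_cons, List.prod_nil, mul_one, not_false_eq_true, List.nodup_nil, and_true] at n1 n2 p1 p2
      have hab := c1 a (by simp) b (by simp)
      have hab' := c2 a' (by simp) b' (by simp)
      have e := p1.trans p2.symm
      intro x hx
      simp only [List.mem_cons, List.not_mem_nil, or_false] at hx ⊢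
      rcases hx with rfl | rfl
      · exact OddChar.Fischer.pair_unique hP (d1 a (by simp)) (d1 b (by simp)) (d2 x (by simp))
          (d2 b' (by simp)) hab n1 hab' e
      · exact OddChar.Fischer.pair_unique hP (d1 a (by simp)) (d1 b (by simp)) (d2 x (by simp))
          (d2 a' (by simp)) hab n1 hab'.symm (e.trans hab'.eq)
    · obtain ⟨a, b, c, rfl⟩ := List.length_eq_three.1 l1
      obtain ⟨a', b', c', rfl⟩ := List.length_eq_three.1 l2
      simp only [List.nodup_cons, List.mem_cons, List.not_mem_nil, or_false, not_or,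
        List.prod_cons, List.prod_nil, mul_one, not_false_eq_true, List.nodup_nil, and_true, ← mul_assoc] at n1 n2 p1 p2
      obtain ⟨⟨nab, nac⟩, nbc⟩ := n1
      obtain ⟨⟨nab', nac'⟩, nbc'⟩ := n2
      have hab := c1 a (by simp) b (by simp)
      have hac := c1 a (by simp) c (by simp)
      have hbc := c1 b (by simp) c (by simp)
      have hab' := c2 a' (by simp) b' (by simp)
      have hac' := c2 a' (by simp) c' (by simp)
      have hbc' := c2 b' (by simp) c' (by simp)
      have ha := d1 a (by simp)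
      have hb := d1 b (by simp)
      have hc := d1 c (by simp)
      have ha' := d2 a' (by simp)
      have hb' := d2 b' (by simp)
      have hc' := d2 c' (by simp)
      have e := p1.trans p2.symm
      intro x hx
      simp only [List.mem_cons, List.not_mem_nil, or_false] at hx ⊢
      rcases hx with rfl | rfl | rfl
      · exact OddChar.Fischer.triple_mem hP hg1 hg2 ha hb hc ha' hb' hc' hab hac hbc nab nac nbc
          hab' hac' hbc' nab' nac' nbc' e
      · exact OddChar.Fischer.triple_mem hP hg1 hg2 ha hb hc hb' ha' hc' hab hac hbc nab nac nbc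
          hab'.symm hbc' hac' (Ne.symm nab') nbc' nac' (e.trans (by rw [hab'.eq]))
      · exact OddChar.Fischer.triple_mem hP hg1 hg2 ha hb hc hc' ha' hb' hab hac hbc nab nac nbc
          hac'.symm hbc'.symm hab' (Ne.symm nac') (Ne.symm nbc') nab'
          (e.trans (by rw [mul_assoc, hbc'.eq, ← mul_assoc, hac'.eq]))
  exact fun x => ⟨sub l' l hl' hl x, sub l l' hl hl' x⟩

end Cfsg.Agent.S5464
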