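import Cfsg.Statements.S5470
import Cfsg.Agent.Core.M22Count

set_option autoImplicit false
open Cfsg

namespace Cfsg.Agent.S5470

open Cfsg.Agent.FGS3
open Cfsg.Agent.Core

/-- Let G be a finite group with trivial centre generated by a conjugation-invariant set D of 3-transpositions on which it acts primitively, such that for some d in D the subgroup generated by the members of D other than d commuting with d has central largest normal 2- and 3-subgroups, and suppose G with D is of type M(22). Then the centralizer of a product of three distinct pairwise commuting members of D has order 2^16 · 3^3. -/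
theorem result {G : Type*} [Group G] [Finite G] {D : Set G} (hD : Cfsg.IsThreeTranspositionGroup D) (hprim : Cfsg.IsPrimitiveUnderConj D) (d₀ : G) (hd₀ : d₀ ∈ D) (h3 : Cfsg.pCore 3 ↥(Subgroup.closure {y : G | y ∈ D ∧ y ≠ d₀ ∧ Commute d₀ y}) ≤ Subgroup.center ↥(Subgroup.closure {y : G | y ∈ D ∧ y ≠ d₀ ∧ Commute d₀ y})) (h2 : Cfsg.pCore 2 ↥(Subgroup.closure {y : G | y ∈ D ∧ y ≠ d₀ ∧ Commute d₀ y}) ≤ Subgroup.center ↥(Subgroup.closure {y : G | y ∈ D ∧ y ≠ d₀ ∧ Commute d₀ y})) (h22 : Cfsg.IsOfTypeM22 G D) (d₁ d₂ d₃ : G) (h₁ : d₁ ∈ D) (h₂ : d₂ ∈ D) (h₃ : d₃ ∈ D) (h12 : d₁ ≠ d₂) (h13 : d₁ ≠ d₃) (h23 : d₂ ≠ d₃) (c12 : Commute d₁ d₂) (c13 : Commute d₁ d₃) (c23 : Commute d₂ d₃) : Nat.card ↥(Subgroup.centralizer ({d₁ * d₂ * d₃} : Set G)) = 2 ^ 16 * 3 ^ 3 := by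
  classical
  obtain ⟨F, _, _, hF, c⟩ := M22.exists_ctx hD hprim h22
  have hcls := c.prim.cls
  set x := d₁ * d₂ * d₃ with hx
  set C := Subgroup.centralizer ({x} : Set G) with hC
  have hfix : ∀ g y : G, g * y * g⁻¹ = y ↔ g ∈ Subgroup.centralizer ({y} : Set G) := fun g y => by
    rw [Subgroup.mem_centralizer_singleton_iff, mul_inv_eq_iff_eq_mul]
  set K := Subgroup.centralizer ({d₁} : Set G) ⊓ Subgroup.centralizer ({d₂} : Set G) ⊓
      Subgroup.centralizer ({d₃} : Set G) with hK
  have hKC : K ≤ C := fun g hg => by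
    rw [hK, Subgroup.mem_inf, Subgroup.mem_inf, ← hfix, ← hfix, ← hfix] at hg
    rw [hC, ← hfix, hx]
    calc g * (d₁ * d₂ * d₃) * g⁻¹ = g * d₁ * g⁻¹ * (g * d₂ * g⁻¹) * (g * d₃ * g⁻¹) := by group
      _ = _ := by rw [hg.1.1, hg.1.2, hg.2]
  let f : ↥C → List G := fun g => [(g : G) * d₁ * (g : G)⁻¹, (g : G) * d₂ * (g : G)⁻¹, (g : G) * d₃ * (g : G)⁻¹]
  have hf : ∀ g g' : ↥C, f g = f g' ↔ g⁻¹ * g' ∈ K.subgroupOf C := by
    intro g g'
    rw [Subgroup.mem_subgroupOf, hK, Subgroup.mem_inf, Subgroup.mem_inf, ← hfix, ← hfix, ← hfix]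
    have e : ∀ y : G, (g : G) * y * (g : G)⁻¹ = (g' : G) * y * (g' : G)⁻¹ ↔
        ((g⁻¹ * g' : ↥C) : G) * y * ((g⁻¹ * g' : ↥C) : G)⁻¹ = y := fun y => by
      constructor <;> intro h
      · calc ((g⁻¹ * g' : ↥C) : G) * y * ((g⁻¹ * g' : ↥C) : G)⁻¹
            = (g : G)⁻¹ * ((g' : G) * y * (g' : G)⁻¹) * (g : G) := by
              simp only [Subgroup.coe_mul, Subgroup.coe_inv]; group
          _ = y := by rw [← h]; group
      · conv_lhs => rw [← h]
        simp only [Subgroup.coe_mul, Subgroup.coe_inv]; group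
    simp only [f, List.cons.injEq, and_true, e]
    exact and_assoc.symm
  have hS : S5463.Sys D 3 x [d₁, d₂, d₃] := by
    refine ⟨?_, rfl, ?_, ?_, by simp [hx, mul_assoc]⟩
    · simp only [List.nodup_cons, List.mem_cons, List.not_mem_nil, or_false, not_or, List.nodup_nil,
        not_false_iff, and_true]
      exact ⟨⟨h12, h13⟩, h23⟩
    · simp only [List.mem_cons, List.not_mem_nil, or_false, forall_eq_or_imp, forall_eq]
      exact ⟨h₁, h₂, h₃⟩
    · simp only [List.mem_cons, List.not_mem_nil, or_false, forall_eq_or_imp, forall_eq]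
      exact ⟨⟨Commute.refl d₁, c12, c13⟩, ⟨c12.symm, Commute.refl d₂, c23⟩, c13.symm, c23.symm, Commute.refl d₃⟩
  obtain ⟨l₁, l₂, S1, S2, hne, huniq⟩ := S5463.triple_two hF c.prim c.centre c.frame x _ hS
  have hperm : ∀ {l m : List G}, S5463.Sys D 3 x l → l.Perm m → S5463.Sys D 3 x m := by
    intro l m hl hp
    obtain ⟨n, hlen, hm, hcm, hprod⟩ := hl
    refine ⟨hp.nodup_iff.1 n, hp.length_eq ▸ hlen, fun a ha => hm a (hp.mem_iff.2 ha),
      fun a ha b hb => hcm a (hp.mem_iff.2 ha) b (hp.mem_iff.2 hb), ?_⟩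
    rw [← hprod]
    exact (hp.prod_eq' (List.pairwise_of_forall_mem_list fun a ha b hb => hcm a ha b hb)).symm
  have hrange : Set.range f = ((l₁.permutations ++ l₂.permutations).toFinset : Set (List G)) := by
    ext l
    rw [Finset.mem_coe, List.mem_toFinset, List.mem_append, List.mem_permutations, List.mem_permutations]
    constructor
    · rintro ⟨g, rfl⟩
      have hgx : (g : G) * x * (g : G)⁻¹ = x := (hfix _ _).2 g.2
      obtain ⟨n, hlen, hm, hcm, hprod⟩ := hS
      have hl : S5463.Sys D 3 x (f g) := by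
        have he : f g = [d₁, d₂, d₃].map (MulAut.conj (g : G)).toMonoidHom := by simp [f]
        rw [he]
        refine ⟨n.map (MulAut.conj (g : G)).injective, by rw [List.length_map, hlen], fun w hw => ?_,
          fun w hw w' hw' => ?_, by rw [← map_list_prod, hprod]; exact hgx⟩
        · obtain ⟨v, hv, rfl⟩ := List.mem_map.1 hw
          exact TT.conj_mem hcls _ (hm v hv)
        · obtain ⟨v, hv, rfl⟩ := List.mem_map.1 hw
          obtain ⟨v', hv', rfl⟩ := List.mem_map.1 hw'
          exact (hcm v hv v' hv').map _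
      rcases huniq _ hl with h | h
      · exact Or.inl ((List.perm_ext_iff_of_nodup hl.1 S1.1).2 h)
      · exact Or.inr ((List.perm_ext_iff_of_nodup hl.1 S2.1).2 h)
    · intro h
      have hl : S5463.Sys D 3 x l := h.elim (fun h => hperm S1 h.symm) (fun h => hperm S2 h.symm)
      obtain ⟨n, hlen, hm, hcm, hprod⟩ := hl
      obtain ⟨a, b, e, rfl⟩ := List.length_eq_three.1 hlen
      simp only [List.nodup_cons, List.mem_cons, List.not_mem_nil, or_false, not_or] at n
      obtain ⟨g, ga, gb, ge⟩ := M22.trio_move c h₁ h₂ h₃ (hm a (by simp)) (hm b (by simp)) (hm e (by simp))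
        h12 h13 h23 n.1.1 n.1.2 n.2.1 c12 c13 c23 (hcm a (by simp) b (by simp)) (hcm a (by simp) e (by simp))
        (hcm b (by simp) e (by simp))
      have hgx : g * x * g⁻¹ = x := by
        conv_rhs => rw [← hprod]
        simp only [List.prod_cons, List.prod_nil, mul_one, ← ga, ← gb, ← ge, hx]
        group
      exact ⟨⟨g, (hfix g x).1 hgx⟩, by simp [f, ga, gb, ge]⟩
  have h12' : Nat.card (Set.range f) = 12 := by
    rw [hrange, Nat.card_coe_set_eq, Set.ncard_coe_finset, List.toFinset_card_of_nodup, List.length_append,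
      List.length_permutations, List.length_permutations, S1.2.1, S2.2.1]
    · rfl
    · refine List.nodup_append.2 ⟨List.nodup_permutations _ S1.1, List.nodup_permutations _ S2.1,
        fun a ha b hb e => hne fun w => ?_⟩
      rw [List.mem_permutations] at ha hb
      rw [← ha.mem_iff, e, hb.mem_iff]
  have h := M22.card_eq_range_mul f (K.subgroupOf C) hf
  rw [h12', Nat.card_congr (Subgroup.subgroupOfEquivOfLe hKC).toEquiv, hK,
    c.trio_card h₁ ⟨h₂, h12.symm, c12⟩ ⟨h₃, h13.symm, c13⟩ h23 c23] at h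
  rw [h]; norm_num

end Cfsg.Agent.S5470
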