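import Cfsg.Statements.S5471
import Cfsg.Agent.OddChar.Fischer.SymThree

set_option autoImplicit false
open Cfsg

namespace Cfsg.Agent.S5471

/-- Let G be a finite group with trivial centre generated by a conjugation-invariant set D of 3-transpositions on which it acts primitively, such that for some d in D the subgroup generated by the members of D other than d commuting with d has central largest normal 2- and 3-subgroups, and suppose G with D is of type M(23). Let d₁, d₂, d₃ be distinct pairwise commuting members of D and j their product. Then the joint centralizer of d₁, d₂, d₃ is normal in the centralizer of j with quotient isomorphic to the symmetric group of degree 3. -/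
theorem result {G : Type*} [Group G] [Finite G] {D : Set G} (hD : Cfsg.IsThreeTranspositionGroup D) (hprim : Cfsg.IsPrimitiveUnderConj D) (d₀ : G) (hd₀ : d₀ ∈ D) (h3 : Cfsg.pCore 3 ↥(Subgroup.closure {y : G | y ∈ D ∧ y ≠ d₀ ∧ Commute d₀ y}) ≤ Subgroup.center ↥(Subgroup.closure {y : G | y ∈ D ∧ y ≠ d₀ ∧ Commute d₀ y})) (h2 : Cfsg.pCore 2 ↥(Subgroup.closure {y : G | y ∈ D ∧ y ≠ d₀ ∧ Commute d₀ y}) ≤ Subgroup.center ↥(Subgroup.closure {y : G | y ∈ D ∧ y ≠ d₀ ∧ Commute d₀ y})) (h23 : Cfsg.IsOfTypeM23 G D) (d₁ d₂ d₃ : G) (h₁ : d₁ ∈ D) (h₂ : d₂ ∈ D) (h₃ : d₃ ∈ D) (h12 : d₁ ≠ d₂) (h13 : d₁ ≠ d₃) (h23 : d₂ ≠ d₃) (c12 : Commute d₁ d₂) (c13 : Commute d₁ d₃) (c23 : Commute d₂ d₃) (K C : Subgroup G) (hK : K = Subgroup.centralizer ({d₁, d₂, d₃} : Set G)) (hC : C = Subgroup.centralizer ({d₁ * d₂ * d₃} : Set G)) : K ≤ C ∧ ∃ _ : (K.subgroupOf C).Normal, Nonempty (↥C ⧸ K.subgroupOf C ≃* Equiv.Perm (Fin 3)) := by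
  have htype : Cfsg.IsOfTypeM23 G D := ‹Cfsg.IsOfTypeM23 G D›
  have hcls : Cfsg.IsThreeTranspositionClass D := FGS3.TT.class_of_primitive hD hprim
  obtain ⟨hP, p, hp, q, hq, hg⟩ := OddChar.Fischer.m23_pair hcls hprim htype
  have hg1 : ∀ a ∈ D, OddChar.Fischer.Good (FGS3.TT.Nb D a) := fun a ha =>
    OddChar.Fischer.good_nb hP hd₀ ha h2
  have hg2 : ∀ a ∈ D, ∀ b ∈ FGS3.TT.Nb D a,
      OddChar.Fischer.Good (FGS3.TT.Nb D a ∩ FGS3.TT.Nb D b) := fun a ha b hb =>
    OddChar.Fischer.good_nb₂ hP hp hq ha hb hg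
  subst hK hC
  set j := d₁ * d₂ * d₃ with hj
  let d : Fin 3 → G := ![d₁, d₂, d₃]
  have hd_inj : Function.Injective d := by
    intro i k hik
    fin_cases i <;> fin_cases k <;>
      simp [d, h12, h13, h23, h12.symm, h13.symm, h23.symm] at hik ⊢
  have hKC : Subgroup.centralizer ({d₁, d₂, d₃} : Set G) ≤ Subgroup.centralizer ({j} : Set G) := by
    intro g hg
    have hgi : ∀ x ∈ ({d₁, d₂, d₃} : Set G), Commute g x := fun x hx =>
      (Subgroup.mem_centralizer_iff.1 hg x hx).symm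
    exact Subgroup.mem_centralizer_singleton_iff.2
      (((hgi d₁ (by simp)).mul_right (hgi d₂ (by simp))).mul_right (hgi d₃ (by simp))).eq
  refine ⟨hKC, ?_⟩
  have hmove : ∀ (g : ↥(Subgroup.centralizer ({j} : Set G))) (i : Fin 3),
      ∃ k, d k = (g : G) * d i * (g : G)⁻¹ := by
    intro g i
    set a := (g : G) * d₁ * (g : G)⁻¹
    set b := (g : G) * d₂ * (g : G)⁻¹
    set c := (g : G) * d₃ * (g : G)⁻¹
    have ha : a ∈ D := FGS3.TT.conj_mem hcls _ h₁
    have hb : b ∈ D := FGS3.TT.conj_mem hcls _ h₂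
    have hc : c ∈ D := FGS3.TT.conj_mem hcls _ h₃
    have cab : Commute a b := (FGS3.TT.commute_conj_iff _ _ _).2 c12
    have cac : Commute a c := (FGS3.TT.commute_conj_iff _ _ _).2 c13
    have cbc : Commute b c := (FGS3.TT.commute_conj_iff _ _ _).2 c23
    have nab : a ≠ b := fun e => h12 (by simpa [a, b] using e)
    have nac : a ≠ c := fun e => h13 (by simpa [a, c] using e)
    have nbc : b ≠ c := fun e => h23 (by simpa [b, c] using e)
    have e : d₁ * d₂ * d₃ = a * b * c := by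
      have hgj : (g : G) * j * (g : G)⁻¹ = j := by
        rw [Subgroup.mem_centralizer_singleton_iff.1 g.2, mul_inv_cancel_right]
      rw [← hj]; conv_lhs => rw [← hgj]
      simp [a, b, c, hj, mul_assoc]
    have key : ∀ x, (x = d₁ ∨ x = d₂ ∨ x = d₃) → ∃ k, d k = x := by
      rintro x (rfl | rfl | rfl)
      · exact ⟨0, rfl⟩
      · exact ⟨1, rfl⟩
      · exact ⟨2, rfl⟩
    fin_cases i
    · exact key a (OddChar.Fischer.triple_mem hP hg1 hg2 h₁ h₂ h₃ ha hb hc c12 c13 c23 h12 h13 h23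
        cab cac cbc nab nac nbc e)
    · exact key b (OddChar.Fischer.triple_mem hP hg1 hg2 h₁ h₂ h₃ hb ha hc c12 c13 c23 h12 h13 h23
        cab.symm cbc cac nab.symm nbc nac (e.trans (by rw [cab.eq])))
    · exact key c (OddChar.Fischer.triple_mem hP hg1 hg2 h₁ h₂ h₃ hc ha hb c12 c13 c23 h12 h13 h23
        cac.symm cbc.symm cab nac.symm nbc.symm nab
        (e.trans (by rw [mul_assoc, cbc.eq, ← mul_assoc, cac.eq])))
  choose σ hσ using hmove
  have hone : ∀ i, σ 1 i = i := fun i => hd_inj (by rw [hσ]; simp)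
  have hmul : ∀ g k i, σ (g * k) i = σ g (σ k i) := fun g k i => hd_inj (by
    rw [hσ, hσ, hσ]; simp [mul_assoc])
  let ρ : ↥(Subgroup.centralizer ({j} : Set G)) →* Equiv.Perm (Fin 3) :=
    { toFun := fun g =>
        { toFun := σ g, invFun := σ g⁻¹,
          left_inv := fun i => by rw [← hmul, inv_mul_cancel, hone],
          right_inv := fun i => by rw [← hmul, mul_inv_cancel, hone] }
      map_one' := Equiv.ext hone
      map_mul' := fun g k => Equiv.ext (hmul g k) }
  have hρ : ∀ g i, ρ g i = σ g i := fun _ _ => rfl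
  have hker : (Subgroup.centralizer ({d₁, d₂, d₃} : Set G)).subgroupOf
      (Subgroup.centralizer ({j} : Set G)) = ρ.ker := by
    ext g
    rw [Subgroup.mem_subgroupOf, MonoidHom.mem_ker, Subgroup.mem_centralizer_iff]
    constructor
    · intro hg
      refine Equiv.ext fun i => hd_inj ?_
      rw [hρ, hσ, Equiv.Perm.one_apply]
      have : d i * (g : G) = g * d i := hg _ (by fin_cases i <;> simp [d])
      rw [← this, mul_inv_cancel_right]
    · intro hg x hx
      have key : ∀ i, d i * (g : G) = g * d i := by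
        intro i
        have := hσ g i
        rw [← hρ, hg, Equiv.Perm.one_apply] at this
        conv_lhs => rw [this]
        rw [inv_mul_cancel_right]
      rcases hx with rfl | rfl | rfl
      · exact key 0
      · exact key 1
      · exact key 2
  have hswap : ∀ (g : G) (s : Fin 3 → Fin 3), (∀ i, g * d i * g⁻¹ = d (s i)) →
      g * j * g⁻¹ = j → ∃ h ∈ ρ.range, ∀ i, h i = s i := by
    intro g s hs hgj
    have hg : g ∈ Subgroup.centralizer ({j} : Set G) :=
      Subgroup.mem_centralizer_singleton_iff.2 (mul_inv_eq_iff_eq_mul.1 hgj)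
    exact ⟨ρ ⟨g, hg⟩, ⟨_, rfl⟩, fun i => hd_inj (by rw [hρ, hσ]; exact hs i)⟩
  obtain ⟨g, ga, gb, gc⟩ := OddChar.Fischer.m23_swap hcls hprim htype hg1 h₁
    (b := d₂) (c := d₃) ⟨h₂, h12.symm, c12⟩ ⟨h₃, h13.symm, c13⟩ h23 c23
  obtain ⟨k, kc, ka, kb⟩ := OddChar.Fischer.m23_swap hcls hprim htype hg1 h₃
    (b := d₁) (c := d₂) ⟨h₁, h13, c13.symm⟩ ⟨h₂, h23, c23.symm⟩ h12 c12
  have hjc : ∀ (g : G) (a b c : G), g * d₁ * g⁻¹ = a → g * d₂ * g⁻¹ = b → g * d₃ * g⁻¹ = c →
      g * j * g⁻¹ = a * b * c := by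
    intro g a b c ea eb ec
    rw [← ea, ← eb, ← ec, hj]
    simp [mul_assoc]
  obtain ⟨u, hu, hu'⟩ := hswap g ![0, 2, 1]
    (fun i => by fin_cases i <;> simp [d, ga, gb, gc])
    (by rw [hjc g _ _ _ ga gb gc, mul_assoc, ← c23.eq, ← mul_assoc])
  obtain ⟨v, hv, hv'⟩ := hswap k ![1, 0, 2]
    (fun i => by fin_cases i <;> simp [d, ka, kb, kc])
    (by rw [hjc k _ _ _ ka kb kc, ← c12.eq])
  have eu : u = Equiv.swap 1 2 := Equiv.ext fun i => by rw [hu']; fin_cases i <;> rfl
  have ev : v = Equiv.swap 0 1 := Equiv.ext fun i => by rw [hv']; fin_cases i <;> rfl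
  have hall : ∀ w : Equiv.Perm (Fin 3), w = 1 ∨ w = Equiv.swap 1 2 ∨ w = Equiv.swap 0 1 ∨
      w = Equiv.swap 1 2 * Equiv.swap 0 1 ∨ w = Equiv.swap 0 1 * Equiv.swap 1 2 ∨
      w = Equiv.swap 1 2 * Equiv.swap 0 1 * Equiv.swap 1 2 := by decide
  have hsurj : Function.Surjective ρ := by
    intro w
    show w ∈ ρ.range
    rw [eu] at hu
    rw [ev] at hv
    rcases hall w with rfl | rfl | rfl | rfl | rfl | rfl
    · exact one_mem _
    · exact hu
    · exact hv
    · exact mul_mem hu hv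
    · exact mul_mem hv hu
    · exact mul_mem (mul_mem hu hv) hu
  refine ⟨hker ▸ inferInstance, ?_⟩
  haveI : ((Subgroup.centralizer ({d₁, d₂, d₃} : Set G)).subgroupOf
      (Subgroup.centralizer ({j} : Set G))).Normal := hker ▸ inferInstance
  exact ⟨(QuotientGroup.quotientMulEquivOfEq hker).trans
    (QuotientGroup.quotientKerEquivOfSurjective ρ hsurj)⟩

end Cfsg.Agent.S5471
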