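import Cfsg.Statements.S5547
import Cfsg.Agent.Chars.Fi22GL78.Inj
import Cfsg.Agent.Screen.CosetEnum.Fi22Ord.Main

set_option autoImplicit false
set_option maxRecDepth 20000
open Cfsg

namespace Cfsg.Agent.S5547

/-- The Fischer group Fi₂₂ (the finitely presented 3-transposition group of the definitions) is isomorphic to a subgroup of the general linear group of degree 78 over the field with 13 elements: there is an injective homomorphism into it. -/
theorem result : ∃ f : Cfsg.Spor.Fi22 →* GL (Fin 78) (ZMod 13), Function.Injective f :=
  Cfsg.Agent.Chars.Fi22GL78.exists_injective Cfsg.Agent.Screen.CosetEnum.Fi22Ord.isSimple_and_card.1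

end Cfsg.Agent.S5547
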