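import Cfsg.Statements.S5553
import Cfsg.Agent.OddChar.LeechTwist

set_option autoImplicit false
open Cfsg

namespace Cfsg.Agent.S5553

/-- The Leech lattice of the definitions has an additive subgroup A containing twice the lattice, of index 2^12 in the lattice, all of whose vectors have squared length divisible by 32: the invariant quadratic form 'squared length over 16 modulo 2' on the lattice modulo twice the lattice (a 24-dimensional space over the field with two elements) vanishes on a 12-dimensional subspace, so it is of plus type. -/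
theorem result : ∃ A : AddSubgroup (Cfsg.GolayPt → ℤ), A ≤ Cfsg.leechLattice ∧ (∀ v ∈ Cfsg.leechLattice, (2 : ℤ) • v ∈ A) ∧ (A.addSubgroupOf Cfsg.leechLattice).index = 2 ^ 12 ∧ ∀ v ∈ A, (32 : ℤ) ∣ Cfsg.sqNorm v := by
  refine ⟨(Cfsg.Agent.OddChar.leechClass.ker).map Cfsg.leechLattice.subtype, ?_, ?_, ?_, ?_⟩
  · rintro _ ⟨v, -, rfl⟩; exact v.2
  · intro v hv
    refine ⟨⟨v, hv⟩ + ⟨v, hv⟩, ?_, ?_⟩
    · show Cfsg.Agent.OddChar.leechClass _ = 0
      rw [map_add]
      exact Prod.ext (CharTwo.add_self_eq_zero _)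
        ((two_smul (ZMod 2) _).symm.trans
          ((congrArg (fun c : ZMod 2 => c • _) (show (2 : ZMod 2) = 0 from rfl)).trans (zero_smul _ _)))
    · show v + v = (2 : ℤ) • v
      rw [two_smul]
  · rw [AddSubgroup.addSubgroupOf, AddSubgroup.comap_map_eq_self_of_injective Subtype.val_injective,
      AddSubgroup.index_ker, AddMonoidHom.range_eq_top.2 Cfsg.Agent.OddChar.leechClass_surjective,
      AddSubgroup.card_top, Cfsg.Agent.OddChar.leechClass_card]
  · rintro _ ⟨⟨x, hx⟩, hk, rfl⟩
    show (32 : ℤ) ∣ Cfsg.sqNorm x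
    have h0 := congrArg Prod.fst hk
    have h1 := congrArg Prod.snd hk
    change ((x none : ℤ) : ZMod 2) = 0 at h0
    have h2 : (2 : ℤ) ∣ x none := by exact_mod_cast (ZMod.intCast_zmod_eq_zero_iff_dvd _ 2).1 h0
    change Submodule.Quotient.mk _ = 0 at h1
    rw [Submodule.Quotient.mk_eq_zero, Submodule.mem_span_singleton] at h1
    obtain ⟨c, hc⟩ := h1
    have hc' := congrArg Subtype.val hc
    obtain ⟨m, y, hxy, hw, hs⟩ := Cfsg.Agent.Golay.mem_leech_iff.1 hx
    obtain ⟨m', hm'⟩ : ∃ m', m = 2 * m' := ⟨m / 2, by have := hxy none; omega⟩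
    subst hm'
    have hcoord : ∀ i, (((y i - y none : ℤ)) : ZMod 2) = c := fun i => by
      have := congrFun hc' i
      simp only [SetLike.val_smul, Pi.smul_apply, Pi.one_apply, smul_eq_mul, mul_one,
        Cfsg.Agent.Golay.red2] at this
      rw [hxy i, hxy none, show (2 * m' + 2 * y i - (2 * m' + 2 * y none)) / 2 = y i - y none by omega] at this
      exact this.symm
    have hc0 : c = 0 := by have := hcoord none; simpa using this.symm
    have hev : ∀ i, (2 : ℤ) ∣ y i - y none := fun i => by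
      exact_mod_cast (ZMod.intCast_zmod_eq_zero_iff_dvd _ 2).1 ((hcoord i).trans hc0)
    -- write `x = 2 e + 4 z` with `e` constant
    obtain ⟨e, z, hz⟩ : ∃ (e : ℤ) (z : Cfsg.GolayPt → ℤ), ∀ i, x i = 2 * e + 4 * z i :=
      ⟨m' + y none, fun i => (y i - y none) / 2, fun i => by
        have := hxy i
        have := hev i
        show x i = 2 * (m' + y none) + 4 * ((y i - y none) / 2)
        omega⟩
    have hsx : ∑ i, x i = 48 * e + 4 * ∑ i, z i := by
      rw [Finset.sum_congr rfl fun i _ => hz i, Finset.sum_add_distrib, ← Finset.mul_sum,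
        Finset.sum_const, Finset.card_univ, Cfsg.Agent.Golay.card_golayPt, nsmul_eq_mul]
      simp only [Finset.mul_sum, Finset.sum_mul]; push_cast; ring
    have hsq : Cfsg.sqNorm x = 96 * e ^ 2 + 16 * (e * ∑ i, z i) + 16 * ∑ i, z i ^ 2 := by
      rw [Cfsg.sqNorm, Finset.sum_congr rfl fun i _ => show x i ^ 2 = 4 * e ^ 2 + (16 * (e * z i) + 16 * z i ^ 2) by
        rw [hz i]; ring, Finset.sum_add_distrib, Finset.sum_add_distrib, Finset.sum_const, Finset.card_univ,
        Cfsg.Agent.Golay.card_golayPt, nsmul_eq_mul, ← Finset.mul_sum, ← Finset.mul_sum, ← Finset.mul_sum]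
      push_cast; ring
    have hS : (2 : ℤ) ∣ ∑ i, z i := by omega
    have hS2 : (2 : ℤ) ∣ ∑ i, z i ^ 2 := by
      have hd : (2 : ℤ) ∣ ∑ i, z i ^ 2 - ∑ i, z i := by
        rw [← Finset.sum_sub_distrib]
        refine Finset.dvd_sum fun i _ => ?_
        rw [show z i ^ 2 - z i = (z i - 1) * z i by ring]
        rcases Int.even_or_odd (z i) with h | h
        · exact Dvd.dvd.mul_left (even_iff_two_dvd.1 h) _
        · exact Dvd.dvd.mul_right (even_iff_two_dvd.1 (h.sub_odd odd_one)) _
      omega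
    rw [hsq]
    obtain ⟨a, ha⟩ := hS; obtain ⟨b, hb⟩ := hS2
    rw [ha, hb]
    exact ⟨3 * e ^ 2 + e * a + b, by ring⟩

end Cfsg.Agent.S5553
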