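import Cfsg.Statements.S5594
import Cfsg.Agent.OddChar.LeechTwist

set_option autoImplicit false
open Cfsg

namespace Cfsg.Agent.S5594

/-- The automorphism group of the Leech lattice contains the negation map, and the subgroup of order 2 it generates has no complement: the automorphism group is a non-split extension of its quotient by that subgroup (it is not the direct product of a group of order 2 with the first Conway group). -/
theorem result :
    ∃ n : ↥Cfsg.Co0, (∀ v : ↥Cfsg.leechLattice, ((n • v : ↥Cfsg.leechLattice) : Cfsg.GolayPt → ℤ) = -(v : Cfsg.GolayPt → ℤ)) ∧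
    ∀ K : Subgroup ↥Cfsg.Co0, ¬ (Subgroup.zpowers n).IsComplement' K := by
  obtain ⟨g, hg⟩ : ∃ g : ↥Cfsg.Co0, (g : Equiv.Perm ↥Cfsg.leechLattice) = Cfsg.Agent.OddChar.twistPerm :=
    ⟨⟨_, Cfsg.Agent.OddChar.twistPerm_mem⟩, rfl⟩
  have happ : ∀ v : ↥Cfsg.leechLattice, (((g * g) • v : ↥Cfsg.leechLattice) : Cfsg.GolayPt → ℤ)
      = -(v : Cfsg.GolayPt → ℤ) := fun v => by
    show ((((g : Equiv.Perm ↥Cfsg.leechLattice) * (g : Equiv.Perm ↥Cfsg.leechLattice)) v : ↥Cfsg.leechLattice) : Cfsg.GolayPt → ℤ) = _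
    rw [hg]
    exact Cfsg.Agent.OddChar.twistVec_twistVec _
  refine ⟨g * g, happ, fun K hK => ?_⟩
  have hn1 : g * g ≠ 1 := by
    intro h
    have h2 := congrArg (fun f : ↥Cfsg.Co0 =>
      ((f • (⟨Cfsg.Agent.OddChar.oddVec, Cfsg.Agent.OddChar.oddVec_mem⟩ : ↥Cfsg.leechLattice) :
        ↥Cfsg.leechLattice) : Cfsg.GolayPt → ℤ) (some 0)) h
    simp only [one_smul] at h2
    rw [happ] at h2
    simp [Cfsg.Agent.OddChar.oddVec] at h2
  have hn2 : (g * g) * (g * g) = 1 := by
    refine Subtype.ext (Equiv.ext fun v => Subtype.ext ?_)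
    show ((((g * g) * (g * g)) • v : ↥Cfsg.leechLattice) : Cfsg.GolayPt → ℤ) = (v : Cfsg.GolayPt → ℤ)
    rw [mul_smul, happ, happ, neg_neg]
  have hidx : K.index = 2 := by
    rw [hK.index_eq_card, Nat.card_zpowers]
    exact orderOf_eq_prime (by rw [pow_two]; exact hn2) hn1
  exact hn1 (Subgroup.disjoint_def.1 hK.disjoint (Subgroup.mem_zpowers _)
    (Subgroup.mul_self_mem_of_index_two hidx g))

end Cfsg.Agent.S5594
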