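import Cfsg.Statements.S5613
import Cfsg.Agent.M24Orbits.OctadPairs

set_option autoImplicit false
open scoped Pointwise
open Cfsg Cfsg.Agent.Golay Cfsg.Agent.M24Orbits
open scoped Pointwise

namespace Cfsg.Agent.S5613

/-- In the group of the length-24 code, the joint stabiliser of two octads has order 10752, 1152 or 720 according as the octads meet in 0, 4 or 2 points. -/
theorem result (o o' : Finset Cfsg.GolayPt) (ho : o ∈ Cfsg.octads) (ho' : o' ∈ Cfsg.octads) : ((o ∩ o').card = 0 → Nat.card ↥(MulAction.stabilizer Cfsg.M24 o ⊓ MulAction.stabilizer Cfsg.M24 o') = 10752) ∧ ((o ∩ o').card = 4 → Nat.card ↥(MulAction.stabilizer Cfsg.M24 o ⊓ MulAction.stabilizer Cfsg.M24 o') = 1152) ∧ ((o ∩ o').card = 2 → Nat.card ↥(MulAction.stabilizer Cfsg.M24 o ⊓ MulAction.stabilizer Cfsg.M24 o') = 720) := by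
  refine ⟨fun h => ?_, fun h => ?_, fun h => ?_⟩
  · have := pair_stab_card o o' ho ho' 0 (by simp) h
    rw [if_pos rfl] at this; omega
  · have := pair_stab_card o o' ho ho' 4 (by simp) h
    rw [if_neg (by norm_num), if_pos rfl] at this; omega
  · have := pair_stab_card o o' ho ho' 2 (by simp) h
    rw [if_neg (by norm_num), if_neg (by norm_num)] at this; omega

end Cfsg.Agent.S5613
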