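import Cfsg.Statements.S5625
import Cfsg.Agent.OddChar.SteinerCounts

set_option autoImplicit false
open Cfsg

namespace Cfsg.Agent.S5625

/-- In any Steiner system S(5, 8, 24) and for any set Y of three points, the blocks meeting Y in exactly 3, 2, 1 and 0 points number 21, 168, 360 and 210 respectively (so there are 759 blocks in all). -/
theorem result (α : Type*) [Fintype α] [DecidableEq α] (hα : Fintype.card α = 24) (B : Set (Finset α)) (hB : Cfsg.IsSteinerSystem 5 8 B) (Y : Finset α) (hY : Y.card = 3) : {b : Finset α | b ∈ B ∧ (b ∩ Y).card = 3}.ncard = 21 ∧ {b : Finset α | b ∈ B ∧ (b ∩ Y).card = 2}.ncard = 168 ∧ {b : Finset α | b ∈ B ∧ (b ∩ Y).card = 1}.ncard = 360 ∧ {b : Finset α | b ∈ B ∧ (b ∩ Y).card = 0}.ncard = 210 := by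
  classical
  obtain ⟨Bf, rfl⟩ : ∃ Bf : Finset (Finset α), B = ↑Bf := ⟨B.toFinset, (Set.coe_toFinset B).symm⟩
  have e : ∀ j, {b : Finset α | b ∈ (↑Bf : Set (Finset α)) ∧ (b ∩ Y).card = j}.ncard
      = (Bf.filter fun b => (b ∩ Y).card = j).card := fun j => by
    rw [← Set.ncard_coe_finset, Finset.coe_filter]
    simp
  simp only [e]
  exact Cfsg.Agent.OddChar.steiner_meets hα (fun b hb => hB.1 b hb) (fun F hF => hB.2 F hF) Y hY

end Cfsg.Agent.S5625
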