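import Cfsg.Statements.S5627
import Cfsg.Agent.OddChar.PlaneFour

set_option autoImplicit false
open Cfsg

namespace Cfsg.Agent.S5627

/-- In a projective plane of order 4 (a Steiner system S(2, 5, 21)), call a set of points independent when no line meets it in more than two points. There are exactly 2520 independent 4-sets and exactly 168 independent 6-sets (hyperovals), and every independent 4-set lies in exactly one hyperoval. -/
theorem result {α : Type*} [Fintype α] [DecidableEq α] (hα : Fintype.card α = 21) (L : Set (Finset α)) (hL : Cfsg.IsSteinerSystem 2 5 L) : {S : Finset α | (S.card = 4 ∧ ∀ l ∈ L, (l ∩ S).card ≤ 2)}.ncard = 2520 ∧ {H : Finset α | (H.card = 6 ∧ ∀ l ∈ L, (l ∩ H).card ≤ 2)}.ncard = 168 ∧ ∀ S : Finset α, (S.card = 4 ∧ ∀ l ∈ L, (l ∩ S).card ≤ 2) → ∃! H : Finset α, (H.card = 6 ∧ ∀ l ∈ L, (l ∩ H).card ≤ 2) ∧ S ⊆ H := by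
  classical
  obtain ⟨Lf, rfl⟩ : ∃ Lf : Finset (Finset α), L = ↑Lf := ⟨L.toFinset, (Set.coe_toFinset L).symm⟩
  have hP : Cfsg.Agent.OddChar.IsPlaneFour Lf :=
    ⟨hα, fun l hl => hL.1 l hl, fun s hs => hL.2 s hs⟩
  have e : ∀ k, {S : Finset α | (S.card = k ∧ ∀ l ∈ (↑Lf : Set (Finset α)), (l ∩ S).card ≤ 2)}.ncard
      = (Finset.univ.filter fun S : Finset α => S.card = k ∧ Cfsg.Agent.OddChar.PIndep Lf S).card :=
    fun k => by
      rw [← Set.ncard_coe_finset, Finset.coe_filter]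
      simp [Cfsg.Agent.OddChar.PIndep]
  refine ⟨?_, ?_, fun S hS => Cfsg.Agent.OddChar.hyperoval_unique hP hS.2 hS.1⟩
  · rw [e 4]; exact (Cfsg.Agent.OddChar.indep_counts hP).1
  · rw [e 6]; exact (Cfsg.Agent.OddChar.indep_counts hP).2

end Cfsg.Agent.S5627
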