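import Cfsg.Statements.S5632
import Cfsg.Agent.GeomClasses.Basic

set_option autoImplicit false
open Cfsg

namespace Cfsg.Agent.S5632

/-- For a finite field F and subspaces 0 < W < U of F^n with dim W + dim U = n, the elements of SL_n(F) stabilising both W and U form a subgroup that is not maximal in SL_n(F): some subgroup lies strictly between it and SL_n(F). -/
theorem result {F : Type*} [Field F] [Fintype F] (n : ℕ) (W U : Submodule F (Fin n → F)) (hW0 : W ≠ ⊥) (hWU : W < U) (hdim : Module.finrank F W + Module.finrank F U = n) : ∃ K : Subgroup (Matrix.GeneralLinearGroup (Fin n) F), Cfsg.Geo.subspaceStabilizer W ⊓ Cfsg.Geo.subspaceStabilizer U ⊓ Cfsg.Geo.specialLinear (Fin n) F < K ∧ K < Cfsg.Geo.specialLinear (Fin n) F := by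
  obtain ⟨u, hu, huW⟩ := SetLike.exists_of_lt hWU
  have hU : U ≠ ⊤ := by
    intro h
    rw [h, finrank_top, Module.finrank_fin_fun] at hdim
    exact hW0 (Submodule.finrank_eq_zero.mp (by omega))
  obtain ⟨v, hv⟩ := SetLike.exists_not_mem_of_ne_top U hU rfl
  refine GeomClasses.exists_between_stab hW0 (ne_top_of_lt hWU) hu hv fun h => ?_
  obtain ⟨y, hy, z, hz, hyz⟩ := Submodule.mem_sup.mp h
  obtain ⟨a, rfl⟩ := Submodule.mem_span_singleton.mp hz
  by_cases ha : a = 0
  · rw [ha, zero_smul, add_zero] at hyz; exact huW (hyz ▸ hy)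
  apply hv
  have hav : a • v ∈ U := by
    rw [eq_sub_of_add_eq' hyz]; exact U.sub_mem hu (hWU.le hy)
  simpa [smul_smul, inv_mul_cancel₀ ha] using U.smul_mem a⁻¹ hav

end Cfsg.Agent.S5632
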