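import Cfsg.Statements.S5635
import Cfsg.Agent.GeomClasses.SmallDecomp

set_option autoImplicit false
open Cfsg

namespace Cfsg.Agent.S5635

/-- For a finite field F with q elements and n ≥ 13, let D be a decomposition of F^n into t ≥ 2 independent subspaces of equal dimension m spanning F^n, where m = 1 and q ≤ 4, or m = 2 and q = 2. Then the elements of SL_n(F) permuting the members of D form a subgroup that is not maximal: some subgroup lies strictly between it and SL_n(F). -/
theorem result {F : Type*} [Field F] [Fintype F] (n : ℕ) (hn : 13 ≤ n) {t : ℕ} (m : ℕ) (D : Fin t → Submodule F (Fin n → F)) (hD : Cfsg.Geo.IsMDecomposition m D) (h : (m = 1 ∧ Fintype.card F ≤ 4) ∨ (m = 2 ∧ Fintype.card F = 2)) : ∃ K : Subgroup (Matrix.GeneralLinearGroup (Fin n) F), Cfsg.Geo.decompositionStabilizer D ⊓ Cfsg.Geo.specialLinear (Fin n) F < K ∧ K < Cfsg.Geo.specialLinear (Fin n) F := by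
  classical
  refine Cfsg.Agent.GeomClasses.exists_between_linear hD ?_ h
  have hcard : n = t * m := by
    obtain ⟨e, -, -⟩ := Cfsg.Agent.GeomClasses.exists_blockCoords hD
      fun i => Module.finBasisOfFinrankEq F (D i) (hD.finrank_eq i)
    simpa using e.finrank_eq
  rcases h with ⟨rfl, -⟩ | ⟨rfl, -⟩ <;> omega

end Cfsg.Agent.S5635
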