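import Cfsg.Statements.S5649
import Cfsg.Agent.GeomClasses.TwoHalvesSymp

set_option autoImplicit false
open Cfsg

namespace Cfsg.Agent.S5649

/-- For a finite field F of odd order and m ≥ 7, let D be a decomposition of F^(2m) into two complementary subspaces of dimension m on each of which the standard alternating form vanishes identically. Then the elements of Sp_2m(F) preserving or interchanging the two subspaces form a maximal subgroup of Sp_2m(F). -/
theorem result {F : Type*} [Field F] [Fintype F] (m : ℕ) (hm : 7 ≤ m) (hodd : Odd (Fintype.card F)) (D : Fin 2 → Submodule F (Fin m ⊕ Fin m → F)) (hD : Cfsg.Geo.IsMDecomposition m D) (hts : ∀ i, Cfsg.Geo.IsTotallySingularFor (Cfsg.sympForm m F) (D i)) : Cfsg.Geo.IsMaximalIn (Cfsg.spGL m F) (Cfsg.Geo.decompositionStabilizer D ⊓ Cfsg.spGL m F) := by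
  refine GeomClasses.isMaximalIn_halves_symp ?_ (by omega) hD (fun i x hx y hy => by rw [Forms.sympB_apply]; exact hts i x hx y hy)
  intro h2
  have h : ringChar F = 2 := by
    haveI : CharP F 2 := (CharP.charP_iff_prime_eq_zero Nat.prime_two).mpr (by exact_mod_cast h2)
    exact ringChar.eq F 2
  exact Nat.not_even_iff_odd.mpr hodd (Nat.even_iff.mpr (FiniteField.even_card_iff_char_two.mp h))

end Cfsg.Agent.S5649
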