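import Cfsg.Statements.S5656
import Cfsg.Agent.GeomClasses.UnitaryFrameRefine

set_option autoImplicit false
open Cfsg

namespace Cfsg.Agent.S5656

/-- Let F be the field with 4 elements (q = 2) and n ≥ 13. Let D be a decomposition of F^n into t pairwise orthogonal 2-dimensional subspaces, each non-degenerate for the standard unitary form Σ u_i v_i². Then the elements of SU_n(2) permuting the members of D form a subgroup that is not maximal: some subgroup lies strictly between it and SU_n(2). -/
theorem result {F : Type*} [Field F] [Fintype F] (n : ℕ) (hF : Fintype.card F = 4) (hn : 13 ≤ n) {t : ℕ} (D : Fin t → Submodule F (Fin n → F)) (hD : Cfsg.Geo.IsNondegenerateMDecomposition (Cfsg.hermForm n F 2) 2 D) : ∃ K : Subgroup (Matrix.GeneralLinearGroup (Fin n) F), Cfsg.Geo.decompositionStabilizer D ⊓ (Cfsg.GU n F 2 ⊓ Cfsg.Geo.specialLinear (Fin n) F) < K ∧ K < (Cfsg.GU n F 2 ⊓ Cfsg.Geo.specialLinear (Fin n) F) := by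
  classical
  obtain ⟨e, -, -⟩ := Cfsg.Agent.GeomClasses.exists_blockCoords hD.decomp
    fun i => Module.finBasisOfFinrankEq F (D i) (hD.decomp.finrank_eq i)
  have hn' : n = t * 2 := by simpa using e.finrank_eq
  exact Cfsg.Agent.GeomClasses.UnitaryFrameRefine.exists_between hF D hD (by omega)

end Cfsg.Agent.S5656
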