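import Cfsg.Statements.S5663
import Cfsg.Agent.GeomClasses.Aschbacher.Rel.UMain

set_option autoImplicit false
open Cfsg

namespace Cfsg.Agent.S5663

/-- Subgroup structure of the finite unitary groups. Let F be the field with q² elements and n ≥ 3 with (n, q) ≠ (3, 2), and let SU_n(q) be the group of matrices of determinant one preserving the standard unitary form Σ u_i v_i^q on F^n. Let H be a subgroup of SU_n(q) whose product with the scalar matrices in SU_n(q) is not all of SU_n(q) (H does not cover PSU_n(q)). Then either H is contained in a member of one of the geometric classes of subgroups of the unitary group GU_n(q) (with the conditions built into InUnitaryClass), or H is in the residual class: modulo scalars it is almost simple, and the perfect preimage of its socle acts absolutely irreducibly, is realisable over no proper subfield of F, and fixes no non-degenerate quadratic form and no non-degenerate symplectic form on F^n. -/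
theorem result {F : Type*} [Field F] [Fintype F] (n q : ℕ) (hF : Fintype.card F = q ^ 2) (hn : 3 ≤ n) (hex : ¬ (n = 3 ∧ q = 2)) (H : Subgroup (Matrix.GeneralLinearGroup (Fin n) F)) (hH : H ≤ (Cfsg.GU n F q ⊓ Cfsg.Geo.specialLinear (Fin n) F)) (hproper : H ⊔ (Cfsg.Geo.scalars (Fin n) F ⊓ (Cfsg.GU n F q ⊓ Cfsg.Geo.specialLinear (Fin n) F)) ≠ (Cfsg.GU n F q ⊓ Cfsg.Geo.specialLinear (Fin n) F)) : (∃ M : Subgroup (Matrix.GeneralLinearGroup (Fin n) F), Cfsg.Geo.InUnitaryClass n F q M ∧ H ≤ M) ∨ Cfsg.Geo.InUnitaryResidualClass H := by
  exact Cfsg.Agent.GeomClasses.AschRel.u_structure hF hn H (hH.trans inf_le_left)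

end Cfsg.Agent.S5663
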