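import Cfsg.Statements.S5673
import Cfsg.Agent.GeomClasses.Aschbacher.Rel.OrthOddMain

set_option autoImplicit false
open Cfsg

namespace Cfsg.Agent.S5673

/-- Subgroup structure of the odd-dimensional orthogonal groups. Let F be a finite field of odd order and m ≥ 3, let Q be the standard quadratic form x₀² + Σ x_i y_i on F^(2m+1), and let Ω be the commutator subgroup of its isometry group, viewed inside GL_(2m+1)(F). Let H be a subgroup of Ω whose product with the scalar matrices in Ω is not all of Ω. Then either H is contained in a member of one of the geometric classes of subgroups of the isometry group (with the conditions built into InOrthogonalOddClass), or H is in the residual class: modulo scalars it is almost simple, and the perfect preimage of its socle acts absolutely irreducibly, is realisable over no proper subfield, and fixes no non-degenerate unitary form. -/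
theorem result {F : Type*} [Field F] [Fintype F] (hodd : Odd (Fintype.card F)) (m : ℕ) (hm : 3 ≤ m) (H : Subgroup (Matrix.GeneralLinearGroup (Unit ⊕ (Fin m ⊕ Fin m)) F)) (hH : H ≤ Cfsg.Geo.omegaGL (Cfsg.quadFormOdd m F)) (hproper : H ⊔ (Cfsg.Geo.scalars (Unit ⊕ (Fin m ⊕ Fin m)) F ⊓ Cfsg.Geo.omegaGL (Cfsg.quadFormOdd m F)) ≠ Cfsg.Geo.omegaGL (Cfsg.quadFormOdd m F)) : (∃ M : Subgroup (Matrix.GeneralLinearGroup (Unit ⊕ (Fin m ⊕ Fin m)) F), Cfsg.Geo.InOrthogonalOddClass m F M ∧ H ≤ M) ∨ Cfsg.Geo.InOrthogonalResidualClass H := by
  have h2 : (2 : F) ≠ 0 := by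
    intro h
    obtain ⟨p, hp⟩ := CharP.exists F
    haveI := hp
    have hp2 : ringChar F = 2 := by
      haveI : Fact p.Prime := ⟨CharP.char_is_prime F p⟩
      have : p ∣ 2 := (CharP.cast_eq_zero_iff F p 2).mp (by exact_mod_cast h)
      rw [ringChar.eq F p]
      exact (Nat.prime_dvd_prime_iff_eq Fact.out Nat.prime_two).mp this
    exact Nat.not_even_iff_odd.mpr hodd (Nat.even_iff.mpr (FiniteField.even_card_of_char_two hp2))
  exact Cfsg.Agent.GeomClasses.AschRel.odd_structure h2 hm H (hH.trans (Subgroup.map_subtype_le _))

end Cfsg.Agent.S5673
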