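import Cfsg.Statements.S5674
import Cfsg.Agent.GeomClasses.OmegaBridge

set_option autoImplicit false
open Cfsg

namespace Cfsg.Agent.S5674

/-- Let F be a finite field of odd order, m ≥ 6, Q the standard quadratic form x₀² + Σ x_i y_i on F^(2m+1) and Ω the commutator subgroup of its isometry group inside GL_(2m+1)(F). The elements of Ω stabilising a non-zero subspace on which Q vanishes form a maximal subgroup of Ω. -/
theorem result {F : Type*} [Field F] [Fintype F] (hodd : Odd (Fintype.card F)) (m : ℕ) (hm : 6 ≤ m) (W : Submodule F (Unit ⊕ (Fin m ⊕ Fin m) → F)) (hW0 : W ≠ ⊥) (hW : Cfsg.Geo.IsTotallySingularQuad (Cfsg.quadFormOdd m F) W) : Cfsg.Geo.IsMaximalIn (Cfsg.Geo.omegaGL (Cfsg.quadFormOdd m F)) (Cfsg.Geo.subspaceStabilizer W ⊓ Cfsg.Geo.omegaGL (Cfsg.quadFormOdd m F)) := by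
  have h2 : (2 : F) ≠ 0 := GeomClasses.two_ne_zero_of_odd_card hodd
  obtain ⟨Q', hQ', hB⟩ : ∃ Q' : QuadraticForm F (Unit ⊕ (Fin m ⊕ Fin m) → F),
      ⇑Q' = Cfsg.quadFormOdd m F ∧ (QuadraticMap.polarBilin Q').Nondegenerate :=
    ⟨_, Forms.coe_qOdd m F, Forms.qOdd_nondegenerate h2⟩
  rw [← hQ'] at hW ⊢
  refine GeomClasses.isMaximalIn_singular_orth Q' hB (by simp; omega) hW hW0 fun u hu huW hWu => ?_
  refine (GeomClasses.exists_nonsingular_or_half hB hW hu huW hWu).resolve_right fun h => ?_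
  obtain ⟨h1, -⟩ := h
  simp at h1
  omega

end Cfsg.Agent.S5674
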