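import Cfsg.Statements.S5675
import Cfsg.Agent.GeomClasses.NondegBridge

set_option autoImplicit false
open Cfsg

namespace Cfsg.Agent.S5675

/-- Let F be a finite field of odd order q, m ≥ 6, Q the standard quadratic form on F^(2m+1) and Ω the commutator subgroup of its isometry group. Let W be a non-zero subspace of even dimension on which the polar form of Q is non-degenerate; exclude the case q = 3, dim W = 2 with Q vanishing on some line of W (a plus-type plane). Then the elements of Ω stabilising W (equivalently, stabilising its orthogonal complement, of odd dimension) form a maximal subgroup of Ω. -/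
theorem result {F : Type*} [Field F] [Fintype F] (hodd : Odd (Fintype.card F)) (m : ℕ) (hm : 6 ≤ m) (W : Submodule F (Unit ⊕ (Fin m ⊕ Fin m) → F)) (hW0 : W ≠ ⊥) (hev : Even (Module.finrank F W)) (hW : Cfsg.Geo.IsNondegenerateOn (QuadraticMap.polar (Cfsg.quadFormOdd m F)) W) (hex : ¬ (Fintype.card F = 3 ∧ Module.finrank F W = 2 ∧ Cfsg.Geo.IsPlusTypeOn (Cfsg.quadFormOdd m F) W)) : Cfsg.Geo.IsMaximalIn (Cfsg.Geo.omegaGL (Cfsg.quadFormOdd m F)) (Cfsg.Geo.subspaceStabilizer W ⊓ Cfsg.Geo.omegaGL (Cfsg.quadFormOdd m F)) := by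
  have h2 : (2 : F) ≠ 0 := GeomClasses.two_ne_zero_of_odd_card hodd
  obtain ⟨Q', hQ', hB⟩ : ∃ Q' : QuadraticForm F (Unit ⊕ (Fin m ⊕ Fin m) → F),
      ⇑Q' = Cfsg.quadFormOdd m F ∧ (QuadraticMap.polarBilin Q').Nondegenerate :=
    ⟨_, Forms.coe_qOdd m F, Forms.qOdd_nondegenerate h2⟩
  rw [← hQ'] at hW hex ⊢
  have hcard : Fintype.card (Unit ⊕ (Fin m ⊕ Fin m)) = 2 * m + 1 := by simp; omega
  obtain ⟨j, hj⟩ := hev
  refine GeomClasses.isMaximalIn_nondeg hB (by omega) hW0 (fun h => ?_) hW (fun U hU hor => ?_) fun g h _ => by omega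
  · rw [h, finrank_top, Module.finrank_pi, hcard] at hj; omega
  · rcases hor with rfl | rfl
    · by_contra hc
      push Not at hc
      obtain ⟨hq, x, hx, hQx, hx0⟩ := hc
      rw [Nat.card_eq_fintype_card] at hq
      have hq' : Fintype.card F = 3 := by
        have h1 := Fintype.one_lt_card (α := F)
        rw [Nat.odd_iff] at hodd
        omega
      exact hex ⟨hq', hU, GeomClasses.isPlusTypeOn_of_singular hU hx hQx hx0⟩
    · have h1 := (Forms.isForm_quadratic Q' hB).finrank_perp W
      rw [Module.finrank_pi, hcard] at h1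
      omega

end Cfsg.Agent.S5675
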