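import Cfsg.Statements.S5676
import Cfsg.Agent.GeomClasses.OrthTools

set_option autoImplicit false
open Cfsg

namespace Cfsg.Agent.S5676

/-- Let F be the field with 3 elements, m ≥ 6, Q the standard quadratic form on F^(2m+1) and Ω the commutator subgroup of its isometry group. Let W be a 2-dimensional subspace on which the polar form is non-degenerate and which contains a line on which Q vanishes. Then the elements of Ω stabilising W form a subgroup that is not maximal: some subgroup lies strictly between it and Ω. -/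
theorem result {F : Type*} [Field F] [Fintype F] (hq : Fintype.card F = 3) (m : ℕ) (hm : 6 ≤ m) (W : Submodule F (Unit ⊕ (Fin m ⊕ Fin m) → F)) (hdim : Module.finrank F W = 2) (hW : Cfsg.Geo.IsNondegenerateOn (QuadraticMap.polar (Cfsg.quadFormOdd m F)) W) (hplus : Cfsg.Geo.IsPlusTypeOn (Cfsg.quadFormOdd m F) W) : ∃ K : Subgroup (Matrix.GeneralLinearGroup (Unit ⊕ (Fin m ⊕ Fin m)) F), Cfsg.Geo.subspaceStabilizer W ⊓ Cfsg.Geo.omegaGL (Cfsg.quadFormOdd m F) < K ∧ K < Cfsg.Geo.omegaGL (Cfsg.quadFormOdd m F) := by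
  classical
  have h2 : (2 : F) ≠ 0 := fun h => by
    have h3 : (Fintype.card F : F) = 0 := Nat.cast_card_eq_zero F
    rw [hq] at h3; push_cast at h3
    exact one_ne_zero (α := F) (by linear_combination h3 - h)
  have hQ : Cfsg.Geo.IsNondegenerateQuadraticForm (Cfsg.quadFormOdd m F) := by
    have hx : ∀ u v : Unit ⊕ (Fin m ⊕ Fin m) → F, QuadraticMap.polar (Cfsg.quadFormOdd m F) u v =
        2 * (u (.inl ()) * v (.inl ())) + ∑ i, (u (.inr (.inl i)) * v (.inr (.inr i)) + u (.inr (.inr i)) * v (.inr (.inl i))) := by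
      intro u v
      simp only [QuadraticMap.polar, Cfsg.quadFormOdd, Pi.add_apply]
      simp only [add_mul, mul_add, Finset.sum_add_distrib]
      rw [Finset.sum_congr rfl fun i (_ : i ∈ Finset.univ) => mul_comm (v (.inr (.inl i))) (u (.inr (.inr i)))]
      ring
    refine ⟨fun c v => ?_, ⟨fun x y v => ?_, fun c x v => ?_, fun v x y => ?_, fun c v x => ?_⟩, fun v hv => ?_⟩
    · simp only [Cfsg.quadFormOdd, Pi.smul_apply, smul_eq_mul, mul_add, Finset.mul_sum]
      congr 1
      · ring
      · exact Finset.sum_congr rfl fun i _ => by ring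
    · simp only [hx, Pi.add_apply, add_mul, mul_add, Finset.sum_add_distrib]; ring
    · simp only [hx, Pi.smul_apply, smul_eq_mul, mul_add, Finset.mul_sum]
      congr 1
      · ring
      · exact Finset.sum_congr rfl fun i _ => by ring
    · simp only [hx, Pi.add_apply, add_mul, mul_add, Finset.sum_add_distrib]; ring
    · simp only [hx, Pi.smul_apply, smul_eq_mul, mul_add, Finset.mul_sum]
      congr 1
      · ring
      · exact Finset.sum_congr rfl fun i _ => by ring
    · obtain ⟨j, hj⟩ := Function.ne_iff.mp hv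
      simp only [Pi.zero_apply] at hj
      suffices h : ∃ x, QuadraticMap.polar (Cfsg.quadFormOdd m F) v x ≠ 0 by
        obtain ⟨x, hx'⟩ := h
        exact ⟨⟨x, by rwa [QuadraticMap.polar_comm]⟩, ⟨x, hx'⟩⟩
      rcases j with j | j | j
      · exact ⟨Pi.single (.inl ()) 1, by simp [hx, hj, h2]⟩
      · exact ⟨Pi.single (.inr (.inr j)) 1, by simp [hx, Pi.single_apply, hj]⟩
      · exact ⟨Pi.single (.inr (.inl j)) 1, by simp [hx, Pi.single_apply, hj]⟩
  exact Cfsg.Agent.GeomClasses.exists_between_plane (Cfsg.Agent.GeomClasses.toQuadForm hQ) (by omega) hdim hW hplus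
    (by simp; omega) (Cfsg.Agent.GeomClasses.polarBilin_nondegenerate hQ)

end Cfsg.Agent.S5676
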