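import Cfsg.Statements.S5677
import Cfsg.Agent.GeomClasses.OrthImprimitiveBridge

set_option autoImplicit false
open Cfsg

namespace Cfsg.Agent.S5677

/-- Let F be a finite field of odd order q, m ≥ 6, Q the standard quadratic form on F^(2m+1) and Ω the commutator subgroup of its isometry group. Let D be a decomposition of F^(2m+1) into t ≥ 2 pairwise orthogonal, pairwise Q-isometric subspaces of equal dimension k > 1 on which the polar form is non-degenerate. Unless q = 3 and k = 3, the elements of Ω permuting the members of D form a maximal subgroup of Ω. -/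
theorem result {F : Type*} [Field F] [Fintype F] (hodd : Odd (Fintype.card F)) (m : ℕ) (hm : 6 ≤ m) {t : ℕ} (k : ℕ) (hk : 1 < k) (D : Fin t → Submodule F (Unit ⊕ (Fin m ⊕ Fin m) → F)) (hD : Cfsg.Geo.IsOrthogonalMDecomposition (Cfsg.quadFormOdd m F) k D) (hex : ¬ (Fintype.card F = 3 ∧ k = 3)) : Cfsg.Geo.IsMaximalIn (Cfsg.Geo.omegaGL (Cfsg.quadFormOdd m F)) (Cfsg.Geo.decompositionStabilizer D ⊓ Cfsg.Geo.omegaGL (Cfsg.quadFormOdd m F)) := by
  have h2 : (2 : F) ≠ 0 := GeomClasses.two_ne_zero_of_odd_card hodd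
  obtain ⟨Q', hQ', hB⟩ : ∃ Q' : QuadraticForm F (Unit ⊕ (Fin m ⊕ Fin m) → F),
      ⇑Q' = Cfsg.quadFormOdd m F ∧ (QuadraticMap.polarBilin Q').Nondegenerate :=
    ⟨_, Forms.coe_qOdd m F, Forms.qOdd_nondegenerate h2⟩
  rw [← hQ'] at hD ⊢
  have h : GeomClasses.OBlocks Q' k D := ⟨hD.decomp.decomp.iSup_eq_top, hD.decomp.decomp.finrank_eq,
    fun i j hij => hD.decomp.orthogonal i j hij, hB, fun i j => let ⟨e, he⟩ := hD.isometric i j; ⟨e, he⟩⟩
  have hodd' : Odd k := by
    have e : Module.finrank F (Unit ⊕ (Fin m ⊕ Fin m) → F) = t * k := by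
      rw [← finrank_top, ← hD.decomp.decomp.iSup_eq_top]
      have hint : DirectSum.IsInternal D :=
        DirectSum.isInternal_submodule_of_iSupIndep_of_iSup_eq_top hD.decomp.decomp.indep hD.decomp.decomp.iSup_eq_top
      rw [hD.decomp.decomp.iSup_eq_top, finrank_top,
        Module.finrank_eq_card_basis (hint.collectedBasis fun i => Module.finBasis F (D i)), Fintype.card_sigma]
      simp [hD.decomp.decomp.finrank_eq]
    rw [Module.finrank_pi] at e
    simp only [Fintype.card_sum, Fintype.card_unit, Fintype.card_fin] at e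
    exact (Nat.odd_mul.mp (e ▸ (by rw [Nat.odd_iff]; omega : Odd (1 + (m + m))))).2
  have hk3 : 3 ≤ k := by rw [Nat.odd_iff] at hodd'; omega
  refine GeomClasses.isMaximalIn_blocks hB h2 (by simp; omega) hD hk3 ?_
  rw [Nat.card_eq_fintype_card]
  by_cases hk5 : 5 ≤ k
  · exact Or.inr hk5
  · refine Or.inl ?_
    have h1 := Fintype.one_lt_card (α := F)
    rw [Nat.odd_iff] at hodd hodd'
    have hne : Fintype.card F ≠ 3 := fun h3 => hex ⟨h3, by omega⟩
    omega

end Cfsg.Agent.S5677
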