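import Cfsg.Statements.S5678
import Cfsg.Agent.GeomClasses.FrameRefine
import Cfsg.Agent.GeomClasses.BlockCoords
import Cfsg.Agent.GeomClasses.OrthImprimitiveBridge

set_option autoImplicit false
open Cfsg

namespace Cfsg.Agent.S5678

/-- Let F be the field with 3 elements, m ≥ 6, Q the standard quadratic form on F^(2m+1) and Ω the commutator subgroup of its isometry group. Let D be a decomposition of F^(2m+1) into t pairwise orthogonal, pairwise Q-isometric 3-dimensional subspaces on which the polar form is non-degenerate. Then the elements of Ω permuting the members of D form a subgroup that is not maximal: some subgroup lies strictly between it and Ω. -/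
theorem result {F : Type*} [Field F] [Fintype F] (hq : Fintype.card F = 3) (m : ℕ) (hm : 6 ≤ m) {t : ℕ} (D : Fin t → Submodule F (Unit ⊕ (Fin m ⊕ Fin m) → F)) (hD : Cfsg.Geo.IsOrthogonalMDecomposition (Cfsg.quadFormOdd m F) 3 D) : ∃ K : Subgroup (Matrix.GeneralLinearGroup (Unit ⊕ (Fin m ⊕ Fin m)) F), Cfsg.Geo.decompositionStabilizer D ⊓ Cfsg.Geo.omegaGL (Cfsg.quadFormOdd m F) < K ∧ K < Cfsg.Geo.omegaGL (Cfsg.quadFormOdd m F) := by
  classical
  obtain ⟨Q', hQ', -⟩ : ∃ Q' : QuadraticForm F (Unit ⊕ (Fin m ⊕ Fin m) → F),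
      ⇑Q' = Cfsg.quadFormOdd m F ∧ True := ⟨_, Cfsg.Agent.Forms.coe_qOdd m F, trivial⟩
  rw [← hQ'] at hD ⊢
  have hd := hD.decomp.decomp
  obtain ⟨e, -, -⟩ := Cfsg.Agent.GeomClasses.exists_blockCoords hd
    fun i => Module.finBasisOfFinrankEq F (D i) (hd.finrank_eq i)
  have hn : 1 + (m + m) = t * 3 := by simpa using e.finrank_eq
  exact Cfsg.Agent.GeomClasses.FrameRefine.exists_between_blocks hq Q' hD (by omega) (Or.inl rfl)

end Cfsg.Agent.S5678
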