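import Cfsg.Statements.S5686
import Cfsg.Agent.GeomClasses.HalfParity

set_option autoImplicit false
open Cfsg

namespace Cfsg.Agent.S5686

/-- Let F be a finite field with q elements, n ≥ 13 even, Q a non-degenerate quadratic form on F^n of plus type (some subspace of dimension n/2 is totally singular), and Ω the commutator subgroup of the isometry group of Q, viewed inside GL_n(F). The elements of Ω stabilising a subspace of dimension n/2 − 1 on which Q vanishes form a subgroup that is not maximal: some subgroup lies strictly between it and Ω. -/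
theorem result {F : Type*} [Field F] [Fintype F] {n : ℕ} (hn : 13 ≤ n) (heven : Even n) (Q : (Fin n → F) → F) (hQ : Cfsg.Geo.IsNondegenerateQuadraticForm Q) (hplus : Cfsg.Geo.IsPlusTypeOn Q ⊤) (W : Submodule F (Fin n → F)) (hW : Cfsg.Geo.IsTotallySingularQuad Q W) (hdim : 2 * (Module.finrank F W + 1) = n) : ∃ K : Subgroup (Matrix.GeneralLinearGroup (Fin n) F), Cfsg.Geo.subspaceStabilizer W ⊓ Cfsg.Geo.omegaGL Q < K ∧ K < Cfsg.Geo.omegaGL Q := by
  obtain ⟨Q', rfl, hB⟩ : ∃ Q' : QuadraticForm F (Fin n → F), ⇑Q' = Q ∧ (QuadraticMap.polarBilin Q').Nondegenerate :=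
    ⟨_, GeomClasses.coe_toQuadForm hQ, GeomClasses.polarBilin_nondegenerate hQ⟩
  have hn' : 13 ≤ Module.finrank F (Fin n → F) := by rw [Module.finrank_fin_fun]; exact hn
  have hI := Forms.isForm_quadratic Q' hB
  set N := Module.finrank F (Fin n → F) with hN
  have hNn : N = n := Module.finrank_fin_fun F
  obtain ⟨T0, -, hT0, hd0⟩ := hplus
  rw [finrank_top, ← hN] at hd0
  obtain ⟨t, ⟨htW, ht0⟩, htn⟩ : ∃ t, t ∈ Forms.perp (QuadraticMap.polarBilin Q') W ⊓ T0 ∧ t ∉ W := by
    refine SetLike.not_le_iff_exists.mp fun hle : Forms.perp (QuadraticMap.polarBilin Q') W ⊓ T0 ≤ W => ?_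
    have h1 := Submodule.finrank_mono (le_inf hle inf_le_right)
    have h2 : Forms.perp (QuadraticMap.polarBilin Q') (W ⊔ T0) ≤ Forms.perp (QuadraticMap.polarBilin Q') W ⊓ T0 :=
      le_inf (Forms.perp_antitone le_sup_left)
        ((Forms.perp_antitone le_sup_right).trans (GeomClasses.half_perp hB hT0 hd0).le)
    have h3 := Submodule.finrank_mono h2
    have h4 : Module.finrank F (Forms.perp (QuadraticMap.polarBilin Q') (W ⊔ T0)) + Module.finrank F ↥(W ⊔ T0) = N :=
      hI.finrank_perp _
    have h5 := Submodule.finrank_sup_add_finrank_inf_eq W T0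
    omega
  set T := W ⊔ Submodule.span F {t}
  have hQt : Q' t = 0 := hT0 t ht0
  have hTs : ∀ x ∈ T, Q' x = 0 := fun x hx => by
    obtain ⟨y, hy, z, hz, rfl⟩ := Submodule.mem_sup.mp hx
    obtain ⟨c, rfl⟩ := Submodule.mem_span_singleton.mp hz
    rw [QuadraticMap.map_add Q', QuadraticMap.map_smul, hW y hy, hQt, QuadraticMap.polar_smul_right]
    simp [show QuadraticMap.polar Q' y t = 0 from htW y hy]
  have htne : t ≠ 0 := fun h => htn (by rw [h]; exact zero_mem W)
  have hTdim : Module.finrank F T = Module.finrank F W + 1 := by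
    have h := Submodule.finrank_sup_add_finrank_inf_eq W (Submodule.span F {t})
    have h0 : W ⊓ Submodule.span F {t} = ⊥ := (Submodule.eq_bot_iff _).mpr fun x hx => by
      obtain ⟨c, rfl⟩ := Submodule.mem_span_singleton.mp hx.2
      by_contra hc
      have hc0 : c ≠ 0 := fun h0 => hc (by rw [h0, zero_smul])
      exact htn (by simpa [smul_smul, inv_mul_cancel₀ hc0] using W.smul_mem c⁻¹ hx.1)
    rw [h0, finrank_bot, finrank_span_singleton htne] at h
    change Module.finrank F ↥(W ⊔ Submodule.span F {t}) = _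
    omega
  have hT2 : 2 * Module.finrank F T = N := by rw [hTdim, hdim, hNn]
  refine ⟨Cfsg.Geo.subspaceStabilizer T ⊓ Cfsg.Geo.omegaGL ⇑Q', lt_of_le_of_ne ?_ ?_, ?_⟩
  · intro g hg
    refine ⟨?_, hg.2⟩
    obtain ⟨g', hg', rfl⟩ := Subgroup.mem_map.mp (GeomClasses.omegaGL_eq_map Q' ▸ hg.2)
    have hst := (GeomClasses.mem_stab_iff Q' W g').mp hg.1
    refine (GeomClasses.mem_stab_iff Q' T g').mpr ?_
    set T' := T.map ((g' : (Fin n → F) ≃ₗ[F] (Fin n → F)) : (Fin n → F) →ₗ[F] (Fin n → F))
    have hWT' : W ≤ T ⊓ T' := le_inf le_sup_left fun w hw => by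
      obtain ⟨z, hz, rfl⟩ : w ∈ W.map ((g' : (Fin n → F) ≃ₗ[F] (Fin n → F)) : (Fin n → F) →ₗ[F] (Fin n → F)) := by
        rwa [Submodule.eq_of_le_of_finrank_eq (Submodule.map_le_iff_le_comap.mpr fun x hx => hst x hx)
          (LinearEquiv.finrank_map_eq _ _)]
      exact ⟨z, Submodule.mem_sup_left hz, rfl⟩
    have h1 := Submodule.finrank_mono hWT'
    have h2 := Submodule.finrank_mono (inf_le_left : T ⊓ T' ≤ T)
    rcases Nat.lt_or_ge (Module.finrank F ↥(T ⊓ T')) (Module.finrank F T) with hlt | hge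
    · exfalso
      have hd := GeomClasses.dickson_of_image hB (by omega) hTs hT2 1 g' T' rfl (by omega)
      rw [GeomClasses.dickson_commutator hB (by omega) hg'] at hd
      exact absurd hd (by decide)
    · have h3 : T ⊓ T' = T := Submodule.eq_of_le_of_finrank_eq inf_le_left (by omega)
      have h4 : T = T' := Submodule.eq_of_le_of_finrank_eq (inf_eq_left.mp h3) (LinearEquiv.finrank_map_eq _ _).symm
      exact fun x hx => h4 ▸ (⟨x, hx, rfl⟩ : (g' : (Fin n → F) ≃ₗ[F] (Fin n → F)) x ∈ T')
  · intro heq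
    obtain ⟨y, hy, hy0⟩ := Submodule.exists_mem_ne_zero_of_ne_bot (p := W) (fun e => by rw [e, finrank_bot] at hdim; omega)
    obtain ⟨w, hw, hyw⟩ := hI.exists_perp_pairing (H := Submodule.span F {t}) (y := y) (fun hm => by
      obtain ⟨c, hc⟩ := Submodule.mem_span_singleton.mp hm
      have hc0 : c ≠ 0 := fun e => hy0 (by rw [← hc, e, zero_smul])
      exact htn (by simpa [← hc, smul_smul, inv_mul_cancel₀ hc0] using W.smul_mem c⁻¹ hy)) (1 : F)
    simp only [QuadraticMap.polarBilin_apply_apply] at hw hyw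
    have htw := hw t (Submodule.mem_span_singleton_self t)
    have htT : t ∈ T := Submodule.mem_sup_right (Submodule.mem_span_singleton_self t)
    set e := Forms.eichler Q' t w hQt htw
    have hmem : GeomClasses.orthToGL Q' e ∈ Cfsg.Geo.subspaceStabilizer T ⊓ Cfsg.Geo.omegaGL ⇑Q' :=
      ⟨(GeomClasses.mem_stab_iff Q' _ e).mpr fun x hx => by
        rw [Forms.eichler_apply, Forms.eichlerMap_apply, GeomClasses.polar_ts hTs htT hx, zero_smul, add_zero]
        exact sub_mem hx (T.smul_mem _ htT),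
        GeomClasses.omegaGL_eq_map Q' ▸ Subgroup.mem_map_of_mem _ (GeomClasses.eichler_mem_comm hB (by omega) _ _)⟩
    rw [← heq] at hmem
    have hm := (GeomClasses.mem_stab_iff Q' W e).mp hmem.1 y hy
    rw [Forms.eichler_apply, Forms.eichlerMap_apply, show QuadraticMap.polar Q' t y = 0 from
      GeomClasses.polar_ts hTs htT (Submodule.mem_sup_left hy), QuadraticMap.polar_comm _ w y, hyw] at hm
    exact htn (by simpa using sub_mem hy hm)
  · refine (GeomClasses.isMaximalIn_singular_orth Q' hB (by simp; omega) hTs (fun e => ?_) fun u _ hu hWu => ?_).1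
    · rw [e, finrank_bot] at hTdim; omega
    · exact absurd (GeomClasses.half_perp hB hTs hT2 ▸ hWu) hu

end Cfsg.Agent.S5686
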