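import Cfsg.Statements.S5689
import Cfsg.Agent.GeomClasses.NondegBridge

set_option autoImplicit false
open Cfsg

namespace Cfsg.Agent.S5689

/-- Let F be a finite field with q elements, n ≥ 13 even, Q a non-degenerate quadratic form on F^n of minus type (no subspace of dimension n/2 is totally singular), and Ω the commutator subgroup of the isometry group of Q, viewed inside GL_n(F). Let W be a non-zero proper subspace on which the polar form of Q is non-degenerate, not of odd dimension n/2. Exclude the case q ≤ 3 in which W, or its orthogonal complement, is a plane containing a line on which Q vanishes. Then the elements of Ω stabilising W form a maximal subgroup of Ω. -/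
theorem result {F : Type*} [Field F] [Fintype F] {n : ℕ} (hn : 13 ≤ n) (heven : Even n) (Q : (Fin n → F) → F) (hQ : Cfsg.Geo.IsNondegenerateQuadraticForm Q) (hminus : ¬ Cfsg.Geo.IsPlusTypeOn Q ⊤) (W : Submodule F (Fin n → F)) (hW0 : W ≠ ⊥) (hW1 : W ≠ ⊤) (hdim : ¬ (2 * Module.finrank F W = n ∧ Odd (Module.finrank F W))) (hW : Cfsg.Geo.IsNondegenerateOn (QuadraticMap.polar Q) W) (hex : ¬ (Fintype.card F ≤ 3 ∧ (∃ U : Submodule F (Fin n → F), Module.finrank F U = 2 ∧ Cfsg.Geo.IsNondegenerateOn (QuadraticMap.polar Q) U ∧ Cfsg.Geo.IsPlusTypeOn Q U ∧ (U = W ∨ (Cfsg.Geo.AreOrthogonalFor (QuadraticMap.polar Q) U W ∧ Module.finrank F U + Module.finrank F W = n))))) : Cfsg.Geo.IsMaximalIn (Cfsg.Geo.omegaGL Q) (Cfsg.Geo.subspaceStabilizer W ⊓ Cfsg.Geo.omegaGL Q) := by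
  obtain ⟨Q', rfl, hB⟩ : ∃ Q' : QuadraticForm F (Fin n → F), ⇑Q' = Q ∧ (QuadraticMap.polarBilin Q').Nondegenerate :=
    ⟨_, GeomClasses.coe_toQuadForm hQ, GeomClasses.polarBilin_nondegenerate hQ⟩
  refine GeomClasses.isMaximalIn_nondeg hB (by simp; omega) hW0 hW1 hW
    (GeomClasses.plane_hex hB hW (Fintype.card_fin n) hex) fun g h hmap => ?_
  rw [Fintype.card_fin] at h
  have hev : Even (Module.finrank F W) := Nat.not_odd_iff_even.mp fun ho => hdim ⟨h, ho⟩
  set W' := Forms.perp (QuadraticMap.polarBilin Q') W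
  have hI := Forms.isForm_quadratic Q' hB
  have h1 : Module.finrank F W' + Module.finrank F W = Module.finrank F (Fin n → F) := hI.finrank_perp W
  rw [Module.finrank_fin_fun] at h1
  have hdis : W ⊓ W' = ⊥ := (Submodule.eq_bot_iff _).mpr fun w hw => by
    by_contra hw0
    obtain ⟨⟨x, hx, hne⟩, -⟩ := hW w hw.1 hw0
    exact hne (hw.2 x hx)
  have hc : IsCompl W W' := by
    refine ⟨disjoint_iff.mpr hdis, codisjoint_iff.mpr (Submodule.eq_top_of_finrank_eq ?_)⟩
    have h2 := Submodule.finrank_sup_add_finrank_inf_eq W W'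
    rw [hdis, finrank_bot] at h2
    rw [Module.finrank_fin_fun]
    omega
  obtain ⟨T, hT, hdimT⟩ := GeomClasses.half_singular_of_isometric (Q := Q') (A := W) (B := W')
    ⟨hc, fun a ha b hb => hb a ha, hB⟩ hmap (by omega) hev (by omega)
  exact hminus ⟨T, le_top, hT, by rw [hdimT, finrank_top, Module.finrank_pi]⟩

end Cfsg.Agent.S5689
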