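import Cfsg.Statements.S5691
import Cfsg.Agent.GeomClasses.OmegaBridge

set_option autoImplicit false
open Cfsg

namespace Cfsg.Agent.S5691

/-- Let F be a finite field with q elements, n ≥ 13 even, Q a non-degenerate quadratic form on F^n (of either type), and Ω the commutator subgroup of the isometry group of Q, viewed inside GL_n(F). Suppose q is even and v is a vector with Q(v) ≠ 0. Then the elements of Ω stabilising the line spanned by v form a maximal subgroup of Ω. -/
theorem result {F : Type*} [Field F] [Fintype F] {n : ℕ} (hn : 13 ≤ n) (heven : Even n) (Q : (Fin n → F) → F) (hQ : Cfsg.Geo.IsNondegenerateQuadraticForm Q) (hchar : ¬ Odd (Fintype.card F)) (v : (Fin n → F)) (hv : Q v ≠ 0) : Cfsg.Geo.IsMaximalIn (Cfsg.Geo.omegaGL Q) (Cfsg.Geo.subspaceStabilizer (Submodule.span F {v}) ⊓ Cfsg.Geo.omegaGL Q) := by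
  obtain ⟨Q', rfl, hB⟩ : ∃ Q' : QuadraticForm F (Fin n → F), ⇑Q' = Q ∧ (QuadraticMap.polarBilin Q').Nondegenerate :=
    ⟨_, GeomClasses.coe_toQuadForm hQ, GeomClasses.polarBilin_nondegenerate hQ⟩
  have hev : (2 : F) = 0 := by
    have h1 : Fintype.card F % 2 = 0 := Nat.even_iff.mp (Nat.not_odd_iff_even.mp hchar)
    have h2 : ringChar F = 2 := FiniteField.even_card_iff_char_two.mpr h1
    have h3 : ((2 : ℕ) : F) = 0 := h2 ▸ ringChar.Nat.cast_ringChar
    simpa using h3
  haveI : CharP F 2 := CharTwo.of_one_ne_zero_of_two_eq_zero one_ne_zero hev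
  have hv0 : v ≠ 0 := fun h => hv (by rw [h, map_zero])
  have hI := Forms.isForm_quadratic Q' hB
  have hn' : 9 ≤ Module.finrank F (Fin n → F) := by rw [Module.finrank_fin_fun]; omega
  have fixv : ∀ g : Forms.orthGroup Q', (g : (Fin n → F) ≃ₗ[F] (Fin n → F)) v ∈ Submodule.span F {v} →
      (g : (Fin n → F) ≃ₗ[F] (Fin n → F)) v = v := by
    intro g hg
    obtain ⟨c, hc⟩ := Submodule.mem_span_singleton.mp hg
    have h1 : Q' ((g : (Fin n → F) ≃ₗ[F] (Fin n → F)) v) = Q' v := g.2.2 v
    rw [← hc, QuadraticMap.map_smul, smul_eq_mul] at h1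
    have h2 : c * c = 1 := mul_right_cancel₀ hv (by rw [one_mul]; exact h1)
    have h3 : (c + 1) ^ 2 = 0 := by rw [CharTwo.add_sq, sq, h2, one_pow]; exact CharTwo.add_self_eq_zero 1
    have h4 : c = 1 := CharTwo.add_eq_zero.mp (pow_eq_zero_iff two_ne_zero |>.mp h3)
    rw [← hc, h4, one_smul]
  refine GeomClasses.isMaximalIn_omega Q' (GeomClasses.mem_stab_iff Q' _) ?_ fun M hM g hg _ hgn => ?_
  · obtain ⟨x, -, hQx, -, hxv⟩ := GeomClasses.exists_sing_pair hB (U := ⊤) (S := ⊥) (fun d => ⟨d, trivial, fun _ _ => rfl⟩)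
      le_top (by simp; omega) (v := v) trivial (by simpa using hv0)
    -- a vector perpendicular to `x` pairing with `v`
    obtain ⟨w, hxw, hvw, hwx⟩ : ∃ w, QuadraticMap.polar Q' x w = 0 ∧ QuadraticMap.polar Q' v w = 1 ∧
        w ∉ Submodule.span F {x} := by
      obtain ⟨w, hw, hvw⟩ := hI.exists_perp_pairing (H := Submodule.span F {x}) (y := v) (fun h => by
        obtain ⟨c, hc⟩ := Submodule.mem_span_singleton.mp h
        exact hv (by rw [← hc, QuadraticMap.map_smul, hQx, smul_zero])) (1 : F)
      simp only [QuadraticMap.polarBilin_apply_apply] at hw hvw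
      have hxw := hw x (Submodule.mem_span_singleton_self x)
      obtain ⟨z, hz, hzx⟩ : ∃ z, z ∈ Forms.perp (QuadraticMap.polarBilin Q') (Submodule.span F {x, v}) ∧
          z ∉ Submodule.span F {x} := by
        refine SetLike.not_le_iff_exists.mp fun hle : Forms.perp (QuadraticMap.polarBilin Q') (Submodule.span F {x, v}) ≤
          Submodule.span F {x} => ?_
        have h1 := Submodule.finrank_mono hle
        have h2 := hI.finrank_perp (Submodule.span F {x, v})
        have h3 := GeomClasses.finrank_pair_le (F := F) x v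
        have h4 : Module.finrank F (Submodule.span F {x}) ≤ 1 := (finrank_span_le_card {x}).trans (by simp)
        omega
      by_cases hwx : w ∈ Submodule.span F {x}
      · refine ⟨w + z, ?_, ?_, fun h => hzx (by simpa using sub_mem h hwx)⟩
        · rw [QuadraticMap.polar_add_right, hxw, zero_add]
          exact hz x (Submodule.subset_span (by simp))
        · rw [QuadraticMap.polar_add_right, hvw, show QuadraticMap.polar Q' v z = 0 from
            hz v (Submodule.subset_span (by simp)), add_zero]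
      · exact ⟨w, hxw, hvw, hwx⟩
    refine ⟨Forms.eichler Q' x w hQx hxw, GeomClasses.eichler_mem_comm hB (by omega) hQx hxw, fun hst => hwx ?_⟩
    have h1 := fixv _ (hst v (Submodule.mem_span_singleton_self v))
    rw [Forms.eichler_apply, Forms.eichlerMap_apply, QuadraticMap.polar_comm _ w v, hvw, add_sub_assoc, add_eq_left,
      sub_eq_zero] at h1
    refine Submodule.mem_span_singleton.mpr
      ⟨(QuadraticMap.polar Q' x v)⁻¹ * (1 + Q' w * QuadraticMap.polar Q' x v), ?_⟩
    rw [← smul_smul, ← h1, smul_smul, inv_mul_cancel₀ hxv, one_smul]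
  · push Not at hgn
    obtain ⟨y, hy, hgy⟩ := hgn
    have hgv : (g : (Fin n → F) ≃ₗ[F] (Fin n → F)) v ∉ Submodule.span F {v} := fun h => hgy (by
      obtain ⟨c, rfl⟩ := Submodule.mem_span_singleton.mp hy
      rw [map_smul]; exact Submodule.smul_mem _ _ h)
    refine GeomClasses.fixer_maximal hB hn' (fun x hx hxv => hM x hx fun z hz => ?_) hg hgv fun hv' => hgv ?_
    · obtain ⟨c, rfl⟩ := Submodule.mem_span_singleton.mp hz
      rw [map_smul, hxv]; exact hz
    · obtain ⟨c, hc⟩ := Submodule.mem_span_singleton.mp hv'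
      have hc0 : c ≠ 0 := fun h => hv0 (by rw [← hc, h, zero_smul])
      refine Submodule.mem_span_singleton.mpr ⟨c⁻¹, ?_⟩
      conv_lhs => arg 2; rw [← hc]
      rw [smul_smul, inv_mul_cancel₀ hc0, one_smul]

end Cfsg.Agent.S5691
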