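import Cfsg.Statements.S5693
import Cfsg.Agent.GeomClasses.FrameRefinePlus
import Cfsg.Agent.GeomClasses.BlockCoords

set_option autoImplicit false
open Cfsg

namespace Cfsg.Agent.S5693

/-- Let F be a finite field with q elements, n ≥ 13 even, Q a non-degenerate quadratic form on F^n of plus type (some subspace of dimension n/2 is totally singular), and Ω the commutator subgroup of the isometry group of Q, viewed inside GL_n(F). Let D be a decomposition of F^n into t ≥ 2 pairwise orthogonal, pairwise Q-isometric subspaces of equal dimension k on which the polar form is non-degenerate (with, for even k, all members of plus type or t even; for odd k, q odd and square discriminant), in one of the cases: k = 2 with q = 3; k = 2 with plus-type members and q ∈ {2, 4, 5}; k = 3 with q = 3; k = 4 with plus-type members and q = 2. Then the elements of Ω permuting the members of D form a subgroup that is not maximal: some subgroup lies strictly between it and Ω. -/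
theorem result {F : Type*} [Field F] [Fintype F] {n : ℕ} (hn : 13 ≤ n) (heven : Even n) (Q : (Fin n → F) → F) (hQ : Cfsg.Geo.IsNondegenerateQuadraticForm Q) (hplus : Cfsg.Geo.IsPlusTypeOn Q ⊤) {t : ℕ} (k : ℕ) (D : Fin t → Submodule F (Fin n → F)) (hD : Cfsg.Geo.IsOrthogonalMDecomposition Q k D) (hke : Even k → ((∀ i, Cfsg.Geo.IsPlusTypeOn Q (D i)) ∨ Even t)) (hko : Odd k → (Odd (Fintype.card F) ∧ Cfsg.Geo.HasSquareDiscriminant Q)) (hcase : ((k = 2 ∧ (Fintype.card F = 3 ∨ ((∀ i, Cfsg.Geo.IsPlusTypeOn Q (D i)) ∧ (Fintype.card F = 2 ∨ Fintype.card F = 4 ∨ Fintype.card F = 5)))) ∨ (k = 3 ∧ Fintype.card F = 3) ∨ (k = 4 ∧ Fintype.card F = 2 ∧ ∀ i, Cfsg.Geo.IsPlusTypeOn Q (D i)))) : ∃ K : Subgroup (Matrix.GeneralLinearGroup (Fin n) F), Cfsg.Geo.decompositionStabilizer D ⊓ Cfsg.Geo.omegaGL Q < K ∧ K < Cfsg.Geo.omegaGL Q := by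
  classical
  obtain ⟨Q', hQ', hnd⟩ : ∃ Q' : QuadraticForm F (Fin n → F), ⇑Q' = Q ∧
      (QuadraticMap.polarBilin Q').Nondegenerate :=
    ⟨Cfsg.Agent.GeomClasses.toQuadForm hQ, rfl, Cfsg.Agent.GeomClasses.polarBilin_nondegenerate hQ⟩
  subst hQ'
  have hd := hD.decomp.decomp
  obtain ⟨e, -, -⟩ := Cfsg.Agent.GeomClasses.exists_blockCoords hd
    fun i => Module.finBasisOfFinrankEq F (D i) (hd.finrank_eq i)
  have hnk : n = t * k := by simpa using e.finrank_eq
  have hcard : 7 ≤ Fintype.card (Fin n) := by simp; omega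
  rcases hcase with ⟨rfl, h3 | ⟨hall, hq⟩⟩ | ⟨rfl, h3⟩ | ⟨rfl, hq, hall⟩
  · by_cases h : ∃ i, Cfsg.Geo.IsPlusTypeOn (⇑Q') (D i)
    · obtain ⟨i, hi⟩ := h
      have hall : ∀ j, Cfsg.Geo.IsPlusTypeOn (⇑Q') (D j) := by
        intro j
        obtain ⟨φ, hφ⟩ := hD.isometric i j
        obtain ⟨U, hU, hs, hdim⟩ := hi
        refine ⟨((U.comap (D i).subtype).map φ.toLinearMap).map (D j).subtype,
          Submodule.map_subtype_le _ _, ?_, ?_⟩
        · rintro _ ⟨x, ⟨y, hy, rfl⟩, rfl⟩
          show Q' ((φ y : D j) : Fin n → F) = 0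
          rw [hφ y]
          exact hs _ hy
        · rw [LinearEquiv.finrank_eq (Submodule.equivMapOfInjective _ Subtype.val_injective _).symm,
            LinearEquiv.finrank_map_eq, (Submodule.comapSubtypeEquivOfLe hU).finrank_eq, hdim,
            hd.finrank_eq, hd.finrank_eq]
      exact Cfsg.Agent.GeomClasses.FrameRefinePlus.exists_between_plane_odd Q' (Or.inl h3) hD hall (by omega)
    · exact Cfsg.Agent.GeomClasses.FrameRefine.exists_between_blocks h3 Q' hD (by omega)
        (Or.inr ⟨rfl, fun i hi => h ⟨i, hi⟩⟩)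
  · rcases hq with h | h | h
    · exact Cfsg.Agent.GeomClasses.FrameRefinePlus.exists_between_plane_char_two Q' (Or.inl h) hD hnd hall hcard (by omega)
    · exact Cfsg.Agent.GeomClasses.FrameRefinePlus.exists_between_plane_char_two Q' (Or.inr h) hD hnd hall hcard (by omega)
    · exact Cfsg.Agent.GeomClasses.FrameRefinePlus.exists_between_plane_odd Q' (Or.inr h) hD hall (by omega)
  · exact Cfsg.Agent.GeomClasses.FrameRefine.exists_between_blocks h3 Q' hD (by omega) (Or.inl rfl)
  · exact Cfsg.Agent.GeomClasses.FrameRefinePlus.exists_between_four Q' hq hD hnd hall hcard (by omega)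

end Cfsg.Agent.S5693
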