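import Cfsg.Statements.S5697
import Cfsg.Agent.GeomClasses.SiegelHalves

set_option autoImplicit false
open Cfsg

namespace Cfsg.Agent.S5697

/-- Let F be a finite field with q elements, n ≥ 13 even, Q a non-degenerate quadratic form on F^n of plus type (some subspace of dimension n/2 is totally singular), and Ω the commutator subgroup of the isometry group of Q, viewed inside GL_n(F). Suppose n/2 is even and let D be a decomposition of F^n into two complementary subspaces of dimension n/2 on each of which Q vanishes. Then the elements of Ω preserving or interchanging the two subspaces form a maximal subgroup of Ω. -/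
theorem result {F : Type*} [Field F] [Fintype F] {n : ℕ} (hn : 13 ≤ n) (heven : Even n) (Q : (Fin n → F) → F) (hQ : Cfsg.Geo.IsNondegenerateQuadraticForm Q) (hplus : Cfsg.Geo.IsPlusTypeOn Q ⊤) (k : ℕ) (hk : 2 * k = n) (hke : Even k) (D : Fin 2 → Submodule F (Fin n → F)) (hD : Cfsg.Geo.IsMDecomposition k D) (hts : ∀ i, Cfsg.Geo.IsTotallySingularQuad Q (D i)) : Cfsg.Geo.IsMaximalIn (Cfsg.Geo.omegaGL Q) (Cfsg.Geo.decompositionStabilizer D ⊓ Cfsg.Geo.omegaGL Q) := by
  classical
  have hB : (QuadraticMap.polarBilin (GeomClasses.toQuadForm hQ)).Nondegenerate := GeomClasses.polarBilin_nondegenerate hQ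
  obtain ⟨Q', rfl, hB⟩ : ∃ Q' : QuadraticForm F (Fin n → F), ⇑Q' = Q ∧ (QuadraticMap.polarBilin Q').Nondegenerate :=
    ⟨_, GeomClasses.coe_toQuadForm hQ, hB⟩
  have h : GeomClasses.Halves Q' (D 0) (D 1) :=
    ⟨GeomClasses.decomp_two_isCompl hD, hts 0, hts 1, by rw [hD.finrank_eq, hD.finrank_eq],
      by rw [hD.finrank_eq]; omega, hB⟩
  set e : Forms.orthGroup Q' →* GL (Fin n) F :=
    (Cfsg.isometryGroup F ⇑Q').subtype.comp (Forms.isometryEquiv Q').symm.toMonoidHom with he
  have happ : ∀ (g : Forms.orthGroup Q') (x : Fin n → F),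
      (e g : Matrix (Fin n) (Fin n) F).mulVec x = (g : (Fin n → F) ≃ₗ[F] (Fin n → F)) x := fun g x => by
    conv_rhs => rw [← (Forms.isometryEquiv Q').apply_symm_apply g]
    rfl
  have hom : Cfsg.Geo.omegaGL ⇑Q' = (commutator (Forms.orthGroup Q')).map e := by
    rw [he, ← Subgroup.map_map]
    refine congrArg (Subgroup.map (Cfsg.isometryGroup F ⇑Q').subtype) ?_
    ext g
    rw [Forms.mem_omega_iff, Subgroup.mem_map]
    exact ⟨fun hg => ⟨_, hg, (Forms.isometryEquiv Q').symm_apply_apply g⟩,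
      fun ⟨x, hx, hxg⟩ => by rw [← hxg]; simpa using hx⟩
  have hperm : ∀ g : Forms.orthGroup Q', e g ∈ Cfsg.Geo.decompositionStabilizer D ↔ GeomClasses.Permutes g (D 0) (D 1) := by
    intro g
    constructor
    · rintro ⟨σ, hσ⟩
      have hm : ∀ i, ∀ x ∈ D i, (g : (Fin n → F) ≃ₗ[F] (Fin n → F)) x ∈ D (σ i) := fun i x hx => by
        rw [← hσ i, ← happ]; exact ⟨x, hx, by simp⟩
      have hne : σ 0 ≠ σ 1 := σ.injective.ne (by decide)
      rcases eq_or_ne (σ 0) 0 with h0 | h0
      · have h1 : σ 1 = 1 := by omega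
        have e0 := hm 0
        have e1 := hm 1
        rw [h0] at e0; rw [h1] at e1
        exact Or.inl ⟨e0, e1⟩
      · have h0' : σ 0 = 1 := by omega
        have h1 : σ 1 = 0 := by omega
        have e0 := hm 0
        have e1 := hm 1
        rw [h0'] at e0; rw [h1] at e1
        exact Or.inr ⟨e0, e1⟩
    · intro hp
      refine GeomClasses.mem_decomp_two hD fun i => ?_
      rcases hp with hp | hp <;> fin_cases i
      · exact ⟨0, fun x hx => by rw [happ]; exact hp.1 x hx⟩
      · exact ⟨1, fun x hx => by rw [happ]; exact hp.2 x hx⟩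
      · exact ⟨1, fun x hx => by rw [happ]; exact hp.1 x hx⟩
      · exact ⟨0, fun x hx => by rw [happ]; exact hp.2 x hx⟩
  refine ⟨lt_of_le_of_ne inf_le_right fun heq => ?_, fun M hHM hMK => ?_⟩
  · obtain ⟨g, hg, hgp⟩ := GeomClasses.exists_not_permutes h
    have : e g ∈ Cfsg.Geo.omegaGL ⇑Q' := hom ▸ Subgroup.mem_map_of_mem e hg
    rw [← heq] at this
    exact hgp ((hperm g).mp this.1)
  · by_cases hex : ∀ g ∈ M, g ∈ Cfsg.Geo.decompositionStabilizer D
    · exact Or.inl (le_antisymm (fun g hg => ⟨hex g hg, hMK hg⟩) hHM)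
    · push Not at hex
      obtain ⟨g, hg, hgn⟩ := hex
      obtain ⟨g', hg', rfl⟩ := Subgroup.mem_map.mp (hom ▸ hMK hg)
      refine Or.inr (le_antisymm hMK ?_)
      rw [hom, Subgroup.map_le_iff_le_comap]
      exact GeomClasses.halves_maximal h (by rw [hD.finrank_eq]; exact hke)
        (fun x hx hxp => hHM ⟨(hperm x).mpr hxp, hom ▸ Subgroup.mem_map_of_mem e hx⟩) hg
        fun hp => hgn ((hperm g').mpr hp)

end Cfsg.Agent.S5697
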