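import Cfsg.Statements.S5698
import Cfsg.Agent.GeomClasses.HalfParity
import Cfsg.Agent.GeomClasses.TwoHalves

set_option autoImplicit false
open Cfsg

namespace Cfsg.Agent.S5698

/-- Let F be a finite field with q elements, n ≥ 13 even, Q a non-degenerate quadratic form on F^n of plus type (some subspace of dimension n/2 is totally singular), and Ω the commutator subgroup of the isometry group of Q, viewed inside GL_n(F). Suppose n/2 is odd and let D be a decomposition of F^n into two complementary subspaces of dimension n/2 on each of which Q vanishes. Then the elements of Ω preserving or interchanging the two subspaces form a subgroup that is not maximal: some subgroup lies strictly between it and Ω. -/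
theorem result {F : Type*} [Field F] [Fintype F] {n : ℕ} (hn : 13 ≤ n) (heven : Even n) (Q : (Fin n → F) → F) (hQ : Cfsg.Geo.IsNondegenerateQuadraticForm Q) (hplus : Cfsg.Geo.IsPlusTypeOn Q ⊤) (k : ℕ) (hk : 2 * k = n) (hko : Odd k) (D : Fin 2 → Submodule F (Fin n → F)) (hD : Cfsg.Geo.IsMDecomposition k D) (hts : ∀ i, Cfsg.Geo.IsTotallySingularQuad Q (D i)) : ∃ K : Subgroup (Matrix.GeneralLinearGroup (Fin n) F), Cfsg.Geo.decompositionStabilizer D ⊓ Cfsg.Geo.omegaGL Q < K ∧ K < Cfsg.Geo.omegaGL Q := by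
  classical
  obtain ⟨Q', rfl, hB⟩ : ∃ Q' : QuadraticForm F (Fin n → F), ⇑Q' = Q ∧ (QuadraticMap.polarBilin Q').Nondegenerate :=
    ⟨_, GeomClasses.coe_toQuadForm hQ, GeomClasses.polarBilin_nondegenerate hQ⟩
  have hn' : 13 ≤ Module.finrank F (Fin n → F) := by rw [Module.finrank_fin_fun]; exact hn
  have hk' : ∀ i, Module.finrank F (D i) = k := hD.finrank_eq
  have h : GeomClasses.Halves Q' (D 0) (D 1) :=
    ⟨GeomClasses.decomp_two_isCompl hD, hts 0, hts 1, by rw [hk', hk'], by rw [hk']; omega, hB⟩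
  have hd0 : 2 * Module.finrank F (D 0) = Module.finrank F (Fin n → F) := by rw [hk', Module.finrank_fin_fun, hk]
  have hbot : D 0 ≠ ⊥ := fun e => by have := hk' 0; rw [e, finrank_bot] at this; omega
  refine ⟨Cfsg.Geo.subspaceStabilizer (D 0) ⊓ Cfsg.Geo.omegaGL ⇑Q', lt_of_le_of_ne ?_ ?_, ?_⟩
  · intro g hg
    refine ⟨?_, hg.2⟩
    obtain ⟨g', hg', rfl⟩ := Subgroup.mem_map.mp (GeomClasses.omegaGL_eq_map Q' ▸ hg.2)
    obtain ⟨σ, hσ⟩ := hg.1
    have hm : ∀ x ∈ D 0, (g' : (Fin n → F) ≃ₗ[F] (Fin n → F)) x ∈ D (σ 0) := fun x hx => by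
      rw [← hσ 0, ← GeomClasses.orthToGL_mulVec]; exact ⟨x, hx, by simp⟩
    rcases eq_or_ne (σ 0) 0 with h0 | h0
    · exact (GeomClasses.mem_stab_iff Q' _ g').mpr (by rwa [h0] at hm)
    · exfalso
      have h1 : σ 0 = 1 := by omega
      rw [h1] at hm
      have hmap : (D 0).map ((g' : (Fin n → F) ≃ₗ[F] (Fin n → F)) : (Fin n → F) →ₗ[F] (Fin n → F)) = D 1 :=
        Submodule.eq_of_le_of_finrank_eq (Submodule.map_le_iff_le_comap.mpr fun x hx => hm x hx)
          (by rw [LinearEquiv.finrank_map_eq, hk', hk'])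
      have hd := GeomClasses.dickson_of_image hB (by omega) (hts 0) hd0 k g' (D 1) hmap (by
        rw [h.compl.inf_eq_bot, finrank_bot, hk', zero_add])
      rw [GeomClasses.dickson_commutator hB (by omega) hg', eq_comm, ZMod.natCast_eq_zero_iff_even] at hd
      exact Nat.not_even_iff_odd.mpr hko hd
  · intro heq
    obtain ⟨a, ha, ha0⟩ := h.exists_out 0 0
    obtain ⟨a', ha', haa⟩ := h.exists_out a a
    have hane : a ≠ 0 := fun e => ha0 (by rw [e]; exact zero_mem _)
    obtain ⟨y, hy, hy0, hy1⟩ := h.exists_pairing (S := Submodule.span F {a'})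
      ((Submodule.span_singleton_le_iff_mem _ _).mpr ha') ha (fun hm => by
        obtain ⟨c, hc⟩ := Submodule.mem_span_singleton.mp hm
        have hc0 : c ≠ 0 := fun e => hane (by rw [← hc, e, zero_smul])
        exact haa (by simpa [← hc, smul_smul, inv_mul_cancel₀ hc0] using
          Submodule.smul_mem _ c⁻¹ (Submodule.subset_span (s := ({a, a} : Set (Fin n → F))) (Or.inl rfl))))
    have haa' := GeomClasses.polar_ts h.tsl ha ha'
    set e := Forms.eichler Q' a a' (h.tsl a ha) haa'
    have hmem : GeomClasses.orthToGL Q' e ∈ Cfsg.Geo.subspaceStabilizer (D 0) ⊓ Cfsg.Geo.omegaGL ⇑Q' :=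
      ⟨(GeomClasses.mem_stab_iff Q' _ e).mpr fun x hx => by
        rw [Forms.eichler_apply, Forms.eichlerMap_apply]
        exact sub_mem (add_mem hx ((D 0).smul_mem _ ha')) ((D 0).smul_mem _ ha),
        GeomClasses.omegaGL_eq_map Q' ▸ Subgroup.mem_map_of_mem _ (GeomClasses.eichler_mem_comm hB (by omega) _ _)⟩
    rw [← heq] at hmem
    obtain ⟨σ, hσ⟩ := hmem.1
    have hm : (e : (Fin n → F) ≃ₗ[F] (Fin n → F)) y ∈ D (σ 1) := by
      rw [← hσ 1, ← GeomClasses.orthToGL_mulVec]; exact ⟨y, hy, by simp⟩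
    rw [Forms.eichler_apply, Forms.eichlerMap_apply, hy1, hy0 a' (Submodule.mem_span_singleton_self a'),
      h.tsl a' ha'] at hm
    simp only [one_smul, zero_mul, add_zero, zero_smul, sub_zero] at hm
    have hy' : y ≠ 0 := fun h0 => by simp [h0, QuadraticMap.polar] at hy1
    rcases eq_or_ne (σ 1) 1 with h1 | h1
    · rw [h1] at hm
      exact haa (Submodule.disjoint_def.mp h.compl.disjoint a' ha' ((Submodule.add_mem_iff_right _ hy).mp hm) ▸ zero_mem _)
    · rw [show σ 1 = 0 by omega] at hm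
      exact hy' (Submodule.disjoint_def.mp h.compl.disjoint y ((Submodule.add_mem_iff_left _ ha').mp hm) hy)
  · refine (GeomClasses.isMaximalIn_singular_orth Q' hB (by simp; omega) (hts 0) hbot fun u _ hu hWu => ?_).1
    exact absurd (GeomClasses.half_perp hB (hts 0) hd0 ▸ hWu) hu

end Cfsg.Agent.S5698
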