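import Cfsg.Statements.S5699
import Cfsg.Agent.GeomClasses.NondegBridge
import Cfsg.Agent.GeomClasses.TwoHalves

set_option autoImplicit false
open Cfsg

namespace Cfsg.Agent.S5699

/-- Let F be a finite field with q elements, n ≥ 13 even, Q a non-degenerate quadratic form on F^n (of either type), and Ω the commutator subgroup of the isometry group of Q, viewed inside GL_n(F). Let D be a decomposition of F^n into two orthogonal subspaces of odd dimension n/2 on which the polar form is non-degenerate and which are not Q-isometric to each other. Then the elements of Ω permuting (necessarily fixing) the two subspaces form a maximal subgroup of Ω. -/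
theorem result {F : Type*} [Field F] [Fintype F] {n : ℕ} (hn : 13 ≤ n) (heven : Even n) (Q : (Fin n → F) → F) (hQ : Cfsg.Geo.IsNondegenerateQuadraticForm Q) (k : ℕ) (hk : 2 * k = n) (hko : Odd k) (D : Fin 2 → Submodule F (Fin n → F)) (hD : Cfsg.Geo.IsNondegenerateMDecomposition (QuadraticMap.polar Q) k D) (hni : ¬ Cfsg.Geo.AreIsometricFor Q (D 0) (D 1)) : Cfsg.Geo.IsMaximalIn (Cfsg.Geo.omegaGL Q) (Cfsg.Geo.decompositionStabilizer D ⊓ Cfsg.Geo.omegaGL Q) := by
  classical
  obtain ⟨Q', rfl, hB⟩ : ∃ Q' : QuadraticForm F (Fin n → F), ⇑Q' = Q ∧ (QuadraticMap.polarBilin Q').Nondegenerate :=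
    ⟨_, GeomClasses.coe_toQuadForm hQ, GeomClasses.polarBilin_nondegenerate hQ⟩
  have hd := hD.decomp
  have hs : GeomClasses.OSplit Q' (D 0) (D 1) :=
    ⟨GeomClasses.decomp_two_isCompl hd, hD.orthogonal 0 1 (by decide), hB⟩
  have hn' : 13 ≤ Module.finrank F (Fin n → F) := by rw [Module.finrank_fin_fun]; exact hn
  have hk' : ∀ i, Module.finrank F (D i) = k := hd.finrank_eq
  have hperm : ∀ g : Forms.orthGroup Q', GeomClasses.orthToGL Q' g ∈ Cfsg.Geo.decompositionStabilizer D ↔
      ∀ x ∈ D 0, (g : (Fin n → F) ≃ₗ[F] (Fin n → F)) x ∈ D 0 := by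
    intro g
    constructor
    · rintro ⟨σ, hσ⟩
      have hm : ∀ x ∈ D 0, (g : (Fin n → F) ≃ₗ[F] (Fin n → F)) x ∈ D (σ 0) := fun x hx => by
        rw [← hσ 0, ← GeomClasses.orthToGL_mulVec]; exact ⟨x, hx, by simp⟩
      rcases eq_or_ne (σ 0) 0 with h0 | h0
      · rwa [h0] at hm
      · exfalso
        have h1 : σ 0 = 1 := by omega
        rw [h1] at hm
        have hmap : (D 0).map ((g : (Fin n → F) ≃ₗ[F] (Fin n → F)) : (Fin n → F) →ₗ[F] (Fin n → F)) = D 1 :=
          Submodule.eq_of_le_of_finrank_eq (Submodule.map_le_iff_le_comap.mpr fun x hx => hm x hx)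
            (by rw [LinearEquiv.finrank_map_eq, hk', hk'])
        exact hni ⟨((g : (Fin n → F) ≃ₗ[F] (Fin n → F)).submoduleMap (D 0)).trans (LinearEquiv.ofEq _ _ hmap),
          fun w => g.2.2 _⟩
    · intro hp
      refine GeomClasses.mem_decomp_two hd fun i => ?_
      fin_cases i
      · exact ⟨0, fun x hx => by rw [GeomClasses.orthToGL_mulVec]; exact hp x hx⟩
      · exact ⟨1, fun x hx => by rw [GeomClasses.orthToGL_mulVec]; exact hs.stable_right hp x hx⟩
  have hne : D 1 ≠ ⊥ := fun h => by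
    have := hk' 1
    rw [h, finrank_bot] at this
    exact absurd this (by omega)
  refine GeomClasses.isMaximalIn_omega Q' hperm ?_ fun M hM g hg _ hgn => ?_
  · obtain ⟨g, hg, ⟨x, hx, hgx⟩, -⟩ := GeomClasses.exists_moves_split hs (by omega) (by rw [hk']; omega) hne
    exact ⟨g, hg, fun h => hgx (h x hx)⟩
  · push Not at hgn
    refine GeomClasses.nondeg_stab_maximal hs hn' (by rw [hk', hk']) (fun h2 => ?_) (fun r hr h1 _ => hM r hr h1) hg hgn ?_
    · rw [hk'] at h2; omega
    · by_contra hno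
      push Not at hno
      have hmap : (D 0).map ((g : (Fin n → F) ≃ₗ[F] (Fin n → F)) : (Fin n → F) →ₗ[F] (Fin n → F)) = D 1 :=
        Submodule.eq_of_le_of_finrank_eq (Submodule.map_le_iff_le_comap.mpr fun x hx => hno x hx)
          (by rw [LinearEquiv.finrank_map_eq, hk', hk'])
      exact hni ⟨((g : (Fin n → F) ≃ₗ[F] (Fin n → F)).submoduleMap (D 0)).trans (LinearEquiv.ofEq _ _ hmap),
        fun w => g.2.2 _⟩

end Cfsg.Agent.S5699
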