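import Cfsg.Statements.S5707
import Cfsg.Agent.GeomClasses.SpinWreath
import Cfsg.Agent.GeomClasses.OrthTools
import Cfsg.Agent.Forms.SympBasis

set_option autoImplicit false
open Cfsg Matrix

namespace Cfsg.Agent.S5707

/-- Let F be a finite field with q elements, n ≥ 13 even, Q a non-degenerate quadratic form on F^n of plus type (some subspace of dimension n/2 is totally singular), and Ω the commutator subgroup of the isometry group of Q, viewed inside GL_n(F). Suppose q is even and that, through P and e, the polar form of Q is similar to the t-fold tensor power (t ≥ 2) of a non-degenerate symplectic form f₁ on F^k with k ≤ 4 and (q, k) ≠ (2, 2), Q vanishing on the images of all pure tensors. Then the elements of Ω in the stabiliser of this decomposition form a subgroup that is not maximal: some subgroup lies strictly between it and Ω. -/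
theorem result {F : Type*} [Field F] [Fintype F] {n : ℕ} (hn : 13 ≤ n) (heven : Even n) (Q : (Fin n → F) → F) (hQ : Cfsg.Geo.IsNondegenerateQuadraticForm Q) (hplus : Cfsg.Geo.IsPlusTypeOn Q ⊤) (hchar : ¬ Odd (Fintype.card F)) (k t : ℕ) (ht : 2 ≤ t) (hk : k ≤ 4) (hex1 : ¬ (Fintype.card F = 2 ∧ k = 2)) (e : (Fin n) ≃ (Fin t → Fin k)) (P : Matrix.GeneralLinearGroup (Fin n) F) (f₁ : (Fin k → F) → (Fin k → F) → F) (hf₁ : Cfsg.Geo.IsSymplecticForm f₁) (hT : Cfsg.Geo.IsTensorPowerFormStructure id (QuadraticMap.polar Q) f₁ e P) (hpure : (∀ xs : Fin t → (Fin k → F), Q (Matrix.mulVec (P : Matrix (Fin n) (Fin n) F) ((fun a : Fin t → Fin k => ∏ i, xs i (a i)) ∘ e)) = 0)) : ∃ K : Subgroup (Matrix.GeneralLinearGroup (Fin n) F), Cfsg.Geo.tensorWreathSubgroup k t e P ⊓ Cfsg.Geo.omegaGL Q < K ∧ K < Cfsg.Geo.omegaGL Q := by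
  classical
  haveI hc2 : CharP F 2 := by
    have h1 : ringChar F = 2 := FiniteField.even_card_iff_char_two.2 (Nat.not_odd_iff.1 hchar)
    exact h1 ▸ ringChar.charP F
  set Q0 := GeomClasses.toQuadForm hQ with hQ0
  -- the dimensions
  have hnk : n = k ^ t := by
    have := Fintype.card_congr e
    simpa using this
  have hk0 : k ≠ 0 := fun h => by rw [hnk, h, zero_pow (by omega)] at hn; omega
  -- a symplectic basis of one factor
  let Bf : LinearMap.BilinForm F (Fin k → F) := LinearMap.mk₂ F f₁ hf₁.bilinear.add_left hf₁.bilinear.smul_left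
    hf₁.bilinear.add_right hf₁.bilinear.smul_right
  have hsep : ∀ u, (∀ w, Bf u w = 0) → u = 0 := fun u h => by
    by_contra h0
    obtain ⟨-, w, hw⟩ := hf₁.nondegenerate u h0
    exact hw (h w)
  have hnd : Bf.Nondegenerate := ⟨hsep, fun u h => hsep u fun w => by
    show f₁ u w = 0
    rw [hf₁.skew, show f₁ w u = 0 from h w, neg_zero]⟩
  obtain ⟨m, v, hkm, hv⟩ := Forms.exists_symp_family (B := Bf) (Forms.isForm_alt _ hnd hf₁.alternating)
  rw [Module.finrank_fin_fun] at hkm
  have hm : m = 1 ∨ m = 2 := by omega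
  obtain ⟨φ, hφb, hφ⟩ : ∃ φ : (Fin m → Fin 2) → Fin m ⊕ Fin m, Function.Bijective φ ∧
      ∀ a b, Bf (v (φ a)) (v (φ b)) = if b = (fun s => Fin.rev (a s)) then 1 else 0 := by
    have hB : ∀ p q : Fin m ⊕ Fin m, Bf (v p) (v q) = if p.swap = q then 1 else 0 := by
      rintro (i | i) (j | j)
      · simp [hv.ll]
      · simp [hv.lr]
      · rw [show Bf (v (Sum.inr i)) (v (Sum.inl j)) = -Bf (v (Sum.inl j)) (v (Sum.inr i)) from hf₁.skew _ _, hv.lr,
          CharTwo.neg_eq]
        simp [eq_comm]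
      · simp [hv.rr]
    rcases hm with rfl | rfl
    · refine ⟨fun a => if a 0 = 0 then Sum.inl 0 else Sum.inr 0, by decide, fun a b => ?_⟩
      rw [hB]
      have key : ∀ a b : Fin 1 → Fin 2, ((if a 0 = 0 then (Sum.inl 0 : Fin 1 ⊕ Fin 1) else Sum.inr 0).swap =
          (if b 0 = 0 then Sum.inl 0 else Sum.inr 0)) ↔ b = fun s => Fin.rev (a s) := by decide
      exact if_congr (key a b) rfl rfl
    · refine ⟨fun a => if a 0 = 0 then Sum.inl (a 1) else Sum.inr (Fin.rev (a 1)), by decide, fun a b => ?_⟩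
      rw [hB]
      have key : ∀ a b : Fin 2 → Fin 2, ((if a 0 = 0 then (Sum.inl (a 1) : Fin 2 ⊕ Fin 2) else Sum.inr (Fin.rev (a 1))).swap =
          (if b 0 = 0 then Sum.inl (b 1) else Sum.inr (Fin.rev (b 1)))) ↔ b = fun s => Fin.rev (a s) := by decide
      exact if_congr (key a b) rfl rfl
  have hcardD : Fintype.card (Fin m → Fin 2) = k := by
    rw [Fintype.card_of_bijective hφb]
    simp [hkm, two_mul]
  let d : Fin k ≃ (Fin m → Fin 2) := (Fintype.equivFinOfCardEq hcardD).symm
  let e' : Fin n ≃ (Fin t → Fin m → Fin 2) := e.trans (Equiv.arrowCongr (Equiv.refl (Fin t)) d)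
  have htm : 4 ≤ t * m := by
    by_contra hlt
    have h1 : n = 2 ^ (t * m) := by
      rw [hnk, ← hcardD, Fintype.card_fun, Fintype.card_fin, Fintype.card_fin, ← pow_mul, mul_comm]
    have h2 := Nat.pow_le_pow_right (n := 2) (by norm_num) (show t * m ≤ 3 by omega)
    omega
  -- the change of basis
  have hli : LinearIndependent F (fun a => v (φ a)) := (hv.linearIndependent hf₁.alternating).comp φ hφb.injective
  let Sd : Matrix (Fin m → Fin 2) (Fin m → Fin 2) F := Matrix.of fun a b => v (φ b) (d.symm a)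
  have hSd : IsUnit Sd := by
    rw [← Matrix.linearIndependent_cols_iff_isUnit]
    exact hli.map' (LinearEquiv.funCongrLeft F F d.symm).toLinearMap (LinearEquiv.ker _)
  obtain ⟨Su, hSu⟩ := hSd
  obtain ⟨US, hUS⟩ : ∃ US : GL (Fin t → Fin m → Fin 2) F, (US : Matrix (Fin t → Fin m → Fin 2) (Fin t → Fin m → Fin 2) F) =
      GeomClasses.SpinWreath.tens 1 (fun _ => (Su : Matrix (Fin m → Fin 2) (Fin m → Fin 2) F)) := by
    refine ⟨⟨GeomClasses.SpinWreath.tens 1 (fun _ => (Su : Matrix (Fin m → Fin 2) (Fin m → Fin 2) F)),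
      GeomClasses.SpinWreath.tens 1 (fun _ => ((Su⁻¹ : GL (Fin m → Fin 2) F) : Matrix (Fin m → Fin 2) (Fin m → Fin 2) F)),
      ?_, ?_⟩, rfl⟩
    · rw [GeomClasses.SpinWreath.tens_mul]
      simp only [← Units.val_mul, mul_inv_cancel, Units.val_one]
      exact GeomClasses.SpinWreath.tens_one
    · rw [GeomClasses.SpinWreath.tens_mul]
      simp only [← Units.val_mul, inv_mul_cancel, Units.val_one]
      exact GeomClasses.SpinWreath.tens_one
  set P' := P * Cfsg.Geo.glReindex e'.symm US with hP'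
  let Ψ : GL (Fin t → Fin m → Fin 2) F →* GL (Fin n) F :=
    (MulAut.conj P').toMonoidHom.comp (Cfsg.Geo.glReindex e'.symm).toMonoidHom
  have hΨinj : Function.Injective Ψ := (MulAut.conj P').injective.comp (Cfsg.Geo.glReindex e'.symm).injective
  let Lm : ((Fin t → Fin m → Fin 2) → F) →ₗ[F] (Fin n → F) :=
    (P' : Matrix (Fin n) (Fin n) F).mulVecLin.comp (LinearMap.funLeft F F e')
  let R : QuadraticForm F ((Fin t → Fin m → Fin 2) → F) := Q0.comp Lm
  have hre : ∀ (w : GL (Fin t → Fin m → Fin 2) F) (z : (Fin t → Fin m → Fin 2) → F),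
      ((Cfsg.Geo.glReindex e'.symm w : GL (Fin n) F) : Matrix (Fin n) (Fin n) F) *ᵥ (z ∘ e') =
        ((w : Matrix _ _ F) *ᵥ z) ∘ e' := by
    intro w z
    show ((w : Matrix (Fin t → Fin m → Fin 2) (Fin t → Fin m → Fin 2) F).submatrix e' e') *ᵥ (z ∘ e') = _
    rw [Matrix.submatrix_mulVec_equiv]
    simp [Function.comp_assoc]
  have hΨL : ∀ (w : GL (Fin t → Fin m → Fin 2) F) z, ((Ψ w : GL (Fin n) F) : Matrix (Fin n) (Fin n) F) *ᵥ Lm z =
      Lm ((w : Matrix _ _ F) *ᵥ z) := by
    intro w z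
    show ((P' * Cfsg.Geo.glReindex e'.symm w * P'⁻¹ : GL (Fin n) F) : Matrix (Fin n) (Fin n) F) *ᵥ
      ((P' : Matrix (Fin n) (Fin n) F) *ᵥ (z ∘ e')) = (P' : Matrix (Fin n) (Fin n) F) *ᵥ (((w : Matrix _ _ F) *ᵥ z) ∘ e')
    rw [Matrix.mulVec_mulVec, ← Units.val_mul, inv_mul_cancel_right, Units.val_mul, ← Matrix.mulVec_mulVec, hre]
  have hsurj : Function.Surjective Lm := fun y => by
    refine ⟨(((P'⁻¹ : GL (Fin n) F) : Matrix (Fin n) (Fin n) F) *ᵥ y) ∘ e'.symm, ?_⟩
    show (P' : Matrix (Fin n) (Fin n) F) *ᵥ (((((P'⁻¹ : GL (Fin n) F) : Matrix (Fin n) (Fin n) F) *ᵥ y) ∘ e'.symm) ∘ e') = y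
    rw [Function.comp_assoc, Equiv.symm_comp_self, Function.comp_id, Matrix.mulVec_mulVec, ← Units.val_mul, mul_inv_cancel,
      Units.val_one, Matrix.one_mulVec]
  have hiso : ∀ w : GL (Fin t → Fin m → Fin 2) F, Ψ w ∈ Cfsg.isometryGroup F Q ↔ ∀ z, R ((w : Matrix _ _ F) *ᵥ z) = R z := by
    intro w
    rw [show Q = ⇑Q0 from rfl, Forms.mem_isometryGroup_iff]
    constructor
    · intro h z
      show Q0 (Lm _) = Q0 (Lm z)
      rw [← hΨL]
      exact h _
    · intro h y
      obtain ⟨z, rfl⟩ := hsurj y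
      rw [hΨL]
      exact h z
  -- the transported form
  obtain ⟨c, hc, hTf⟩ := hT
  let εv : (Fin t → Fin m → Fin 2) → (Fin t → Fin k) → F := fun x α => ∏ i, v (φ (x i)) (α i)
  have hLs : ∀ x, Lm (Pi.single x 1) = (P : Matrix (Fin n) (Fin n) F) *ᵥ (εv x ∘ e) := by
    intro x
    show (P' : Matrix (Fin n) (Fin n) F) *ᵥ ((Pi.single x (1 : F)) ∘ e') = _
    rw [hP', Units.val_mul, ← Matrix.mulVec_mulVec, hre, hUS, Matrix.mulVec_single_one]
    congr 1
    funext j
    simp [GeomClasses.SpinWreath.tens, hSu, Sd, εv, e']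
  have hR0 : ∀ x, R (Pi.single x 1) = 0 := fun x => by
    show Q0 (Lm _) = 0
    rw [hLs]
    exact hpure fun i => v (φ (x i))
  have hexp : ∀ u w : Fin k → F, f₁ u w = ∑ a, ∑ b, u a * Cfsg.Geo.gramMatrix f₁ a b * w b := by
    intro u w
    show Bf u w = _
    conv_lhs => rw [pi_eq_sum_univ' u, pi_eq_sum_univ' w]
    simp only [map_sum, LinearMap.sum_apply, map_smul, LinearMap.smul_apply, smul_eq_mul, Finset.mul_sum]
    rw [Finset.sum_comm]
    refine Finset.sum_congr rfl fun a _ => Finset.sum_congr rfl fun b _ => ?_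
    show _ = u a * Bf (Pi.single a 1) (Pi.single b 1) * w b
    ring
  have hR : ∀ x y, QuadraticMap.polar ⇑R (Pi.single x 1) (Pi.single y 1) =
      if y = GeomClasses.SpinWreath.bar x then c else 0 := by
    intro x y
    have h1 : QuadraticMap.polar ⇑R (Pi.single x 1) (Pi.single y 1) =
        QuadraticMap.polar Q (Lm (Pi.single x 1)) (Lm (Pi.single y 1)) := by
      simp only [QuadraticMap.polar, R, QuadraticMap.comp_apply, map_add]
      rfl
    have h2 : (∑ a, ∑ b, εv x a * (∏ i, Cfsg.Geo.gramMatrix f₁ (a i) (b i)) * εv y b) =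
        ∏ i, f₁ (v (φ (x i))) (v (φ (y i))) := by
      simp only [hexp, εv, Fintype.prod_sum, ← Finset.prod_mul_distrib]
    rw [h1, hLs, hLs, hTf]
    simp only [id]
    rw [h2]
    have h3 : ∀ a b, f₁ (v (φ a)) (v (φ b)) = if b = (fun s => Fin.rev (a s)) then 1 else 0 := hφ
    simp only [h3]
    by_cases hy : y = GeomClasses.SpinWreath.bar x
    · rw [if_pos hy, Finset.prod_eq_one, mul_one]
      intro i _
      rw [if_pos (by rw [hy]; rfl)]
    · rw [if_neg hy]
      obtain ⟨i, hi⟩ := Function.ne_iff.1 hy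
      rw [Finset.prod_eq_zero (Finset.mem_univ i) (if_neg hi), mul_zero]
  have hpolar : ∀ z w, QuadraticMap.polar ⇑R z w = c * ∑ x, z x * w (GeomClasses.SpinWreath.bar x) := by
    intro z w
    show R.polarBilin z w = _
    conv_lhs => rw [pi_eq_sum_univ' z, pi_eq_sum_univ' w]
    simp only [map_sum, LinearMap.sum_apply, map_smul, LinearMap.smul_apply, smul_eq_mul, QuadraticMap.polarBilin_apply_apply,
      hR, mul_ite, mul_zero, Finset.mul_sum]
    rw [Finset.sum_comm]
    refine Finset.sum_congr rfl fun x _ => ?_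
    simp [Finset.sum_ite_eq']
    ring
  -- generators of the standard group
  let θ := Cfsg.Geo.glReindex (F := F) (Equiv.arrowCongr (Equiv.refl (Fin t)) d)
  let dd : GL (Fin k) F →* GL (Fin m → Fin 2) F := (Cfsg.Geo.glReindex d).toMonoidHom
  have hθ : ∀ u ∈ Cfsg.Geo.tensorWreathStandard k t F, θ u ∈ GeomClasses.SpinWreath.twGroup F t m := by
    intro u hu
    suffices h : Cfsg.Geo.tensorWreathStandard k t F ≤ (GeomClasses.SpinWreath.twGroup F t m).comap θ.toMonoidHom from h hu
    rw [Cfsg.Geo.tensorWreathStandard, Subgroup.closure_le]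
    rintro g (⟨gs, hg⟩ | ⟨σ, hg⟩)
    · refine ⟨1, fun i => dd (gs i), ?_⟩
      ext x y
      show (g : Matrix (Fin t → Fin k) (Fin t → Fin k) F) (fun i => d.symm (x i)) (fun i => d.symm (y i)) = _
      rw [hg]
      rfl
    · refine ⟨σ.symm, fun _ => 1, ?_⟩
      ext x y
      show (g : Matrix (Fin t → Fin k) (Fin t → Fin k) F) (fun i => d.symm (x i)) (fun i => d.symm (y i)) = _
      rw [hg]
      simp only [GeomClasses.SpinWreath.tens, Matrix.of_apply, Units.val_one]
      by_cases h : (fun i => d.symm (y i)) = (fun i => d.symm (x i)) ∘ σ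
      · rw [if_pos h, Finset.prod_eq_one]
        intro i _
        have h1 := d.symm.injective (congrFun h (σ.symm i))
        rw [h1, σ.apply_symm_apply, Matrix.one_apply_eq]
      · rw [if_neg h]
        obtain ⟨i, hi⟩ := Function.ne_iff.1 h
        refine (Finset.prod_eq_zero (f := fun i => (1 : Matrix (Fin m → Fin 2) (Fin m → Fin 2) F) (x i) (y (σ.symm i)))
          (Finset.mem_univ (σ i)) (Matrix.one_apply_ne ?_)).symm
        rw [σ.symm_apply_apply]
        exact fun e => hi (by rw [Function.comp_apply, e])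
  have hΨrange : ∀ g ∈ Cfsg.Geo.tensorWreathSubgroup k t e P, ∃ w ∈ GeomClasses.SpinWreath.twGroup F t m, Ψ w = g := by
    intro g hg
    obtain ⟨_, ⟨u, hu, rfl⟩, rfl⟩ := hg
    have hUm : US ∈ GeomClasses.SpinWreath.twGroup F t m := ⟨1, fun _ => Su, hUS⟩
    refine ⟨US⁻¹ * θ u * US, mul_mem (mul_mem (inv_mem hUm) (hθ u hu)) hUm, ?_⟩
    have hr : Cfsg.Geo.glReindex e'.symm (θ u) = Cfsg.Geo.glReindex e.symm u := Units.ext (by
      ext i j
      show (u : Matrix (Fin t → Fin k) (Fin t → Fin k) F) (fun l => d.symm (d (e i l))) (fun l => d.symm (d (e j l))) = _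
      simp only [Equiv.symm_apply_apply]
      rfl)
    show P' * Cfsg.Geo.glReindex e'.symm (US⁻¹ * θ u * US) * P'⁻¹ = P * Cfsg.Geo.glReindex e.symm u * P⁻¹
    rw [map_mul, map_mul, map_inv, hr, hP']
    group
  -- the subgroup
  have hΩeq : Cfsg.Geo.omegaGL Q = ⁅Cfsg.isometryGroup F Q, Cfsg.isometryGroup F Q⁆ := by
    rw [Cfsg.Geo.omegaGL]; exact Subgroup.map_subtype_commutator _
  have hΩle : Cfsg.Geo.omegaGL Q ≤ Cfsg.isometryGroup F Q := by
    rintro g ⟨g', -, rfl⟩; exact g'.2
  let i0 : Fin t := ⟨0, by omega⟩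
  let i1 : Fin t := ⟨1, by omega⟩
  let s0 : Fin m := ⟨0, by omega⟩
  let si : Fin t × Fin m := (i0, s0)
  let sj : Fin t × Fin m := (i1, s0)
  have hij : si ≠ sj := fun h => by simpa [si, sj, i0, i1] using congrArg Prod.fst h
  have hex : ∀ T : Finset (Fin t × Fin m), T.card ≤ 3 → ∃ p, p ∉ T := fun T hT => by
    by_contra hh
    push_neg at hh
    have := Finset.card_le_card (show (Finset.univ : Finset (Fin t × Fin m)) ⊆ T from fun p _ => hh p)
    simp at this
    omega
  obtain ⟨sl, hsl⟩ := hex {si, sj} (le_trans Finset.card_le_two (by norm_num))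
  obtain ⟨ss, hss⟩ := hex {si, sj, sl} Finset.card_le_three
  simp only [Finset.mem_insert, Finset.mem_singleton, not_or] at hsl hss
  let v0 : Fin t → Fin m → Fin 2 := fun _ _ => 0
  let w0 : Fin t → Fin m → Fin 2 := fun a b => if (a, b) = sl then 1 else 0
  have hvw : ∀ p, p ≠ sl → v0 p.1 p.2 = w0 p.1 p.2 := fun p hp => by simp [v0, w0, hp]
  have hvl : v0 sl.1 sl.2 ≠ w0 sl.1 sl.2 := by simp [v0, w0]
  -- a product of two site sets is a commutator
  have hcomm : ∀ (A' B' : Finset (Fin t × Fin m)), Disjoint A' B' → sl ∉ A' → sl ∉ B' → A'.Nonempty → B'.Nonempty →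
      (∃ r, r ∉ insert sl A') → (∃ r, r ∉ insert sl B') → ∀ (hD : (A' ∪ B').Nonempty),
      Ψ (GeomClasses.SpinWreath.unitOp F hD v0) ∈ Cfsg.Geo.omegaGL Q := by
    intro A' B' hd hA hB hA0 hB0 ⟨r, hr⟩ ⟨r', hr'⟩ hD
    set a := GeomClasses.SpinWreath.unitOp F (Finset.insert_nonempty sl A') v0 with ha
    set b := GeomClasses.SpinWreath.unitOp F (Finset.insert_nonempty sl B') w0 with hb
    have hai : Ψ a ∈ Cfsg.isometryGroup F Q := (hiso a).2 (GeomClasses.SpinWreath.unitOp_isometry hR0 hR _ hr _)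
    have hbi : Ψ b ∈ Cfsg.isometryGroup F Q := (hiso b).2 (GeomClasses.SpinWreath.unitOp_isometry hR0 hR _ hr' _)
    have e1 : GeomClasses.SpinWreath.unitOp F hD v0 = a * b * a⁻¹ * b⁻¹ := by
      obtain ⟨h1, h2, h3⟩ := GeomClasses.SpinWreath.nop_pair (F := F) hd hA hB hA0 hB0 hvw hvl
      have hAA := GeomClasses.SpinWreath.nop_sq (F := F) (Finset.insert_nonempty sl A') v0
      have hBB := GeomClasses.SpinWreath.nop_sq (F := F) (Finset.insert_nonempty sl B') w0
      refine Units.ext ?_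
      show 1 + GeomClasses.SpinWreath.nop F (A' ∪ B') v0 = _ * _ * _ * _
      rw [← h1]
      show _ = (1 + _) * (1 + _) * (1 + _) * (1 + _)
      simp only [add_mul, mul_add, one_mul, mul_one, ← mul_assoc, hAA, hBB, h2, h3, zero_mul, add_zero, zero_add]
      have t2 : (2 : Matrix (Fin t → Fin m → Fin 2) (Fin t → Fin m → Fin 2) F) = 0 := CharTwo.two_eq_zero
      have t3 : (3 : Matrix (Fin t → Fin m → Fin 2) (Fin t → Fin m → Fin 2) F) = 1 := by
        rw [show (3 : Matrix (Fin t → Fin m → Fin 2) (Fin t → Fin m → Fin 2) F) = 2 + 1 by norm_num, t2, zero_add]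
      abel_nf
      simp [two_nsmul, CharTwo.add_self_eq_zero, t2, t3, mul_assoc, hBB]
    rw [hΩeq, e1, map_mul, map_mul, map_mul, map_inv, map_inv, ← commutatorElement_def]
    exact Subgroup.commutator_mem_commutator hai hbi
  refine ⟨(GeomClasses.SpinWreath.siteStab F t m).map Ψ ⊓ Cfsg.Geo.omegaGL Q, ?_, ?_⟩
  · refine lt_of_le_not_ge (fun g hg => ⟨?_, hg.2⟩) fun hle => ?_
    · obtain ⟨w, hw, rfl⟩ := hΨrange g hg.1
      obtain ⟨σ, gs, hws⟩ := hw
      refine ⟨w, GeomClasses.SpinWreath.tw_mem_siteStab hm hws ?_, rfl⟩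
      have hwi := (hiso w).1 (hΩle hg.2)
      intro i
      let M : Fin t → Matrix (Fin m → Fin 2) (Fin m → Fin 2) F := fun l =>
        ((gs l : Matrix (Fin m → Fin 2) (Fin m → Fin 2) F))ᵀ * GeomClasses.SpinWreath.jd F m * (gs l : Matrix _ _ F)
      have hM : ∀ y z : Fin t → Fin m → Fin 2, ∏ l, M l (y (σ l)) (z (σ l)) = ∏ l, GeomClasses.SpinWreath.jd F m (y l) (z l) := by
        intro y z
        have h1 : QuadraticMap.polar ⇑R ((w : Matrix _ _ F) *ᵥ Pi.single y 1) ((w : Matrix _ _ F) *ᵥ Pi.single z 1) =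
            QuadraticMap.polar ⇑R (Pi.single y 1) (Pi.single z 1) := by
          simp only [QuadraticMap.polar, ← Matrix.mulVec_add, hwi]
        rw [hpolar, hR, Matrix.mulVec_single_one, Matrix.mulVec_single_one] at h1
        refine mul_left_cancel₀ hc (Eq.trans ?_ (h1.trans ?_))
        · congr 1
          have hM' : ∀ l a b, M l a b = ∑ x, (gs l : Matrix (Fin m → Fin 2) (Fin m → Fin 2) F) x a *
              (gs l : Matrix (Fin m → Fin 2) (Fin m → Fin 2) F) (fun s => Fin.rev (x s)) b := by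
            intro l a b
            simp only [M, Matrix.mul_assoc, Matrix.mul_apply, Matrix.transpose_apply, GeomClasses.SpinWreath.jd, Matrix.of_apply]
            simp
          simp only [hM', Fintype.prod_sum, Finset.prod_mul_distrib, hws, GeomClasses.SpinWreath.tens, Matrix.col_apply,
            Matrix.of_apply]
          rfl
        · by_cases h : z = GeomClasses.SpinWreath.bar y
          · rw [if_pos h, Finset.prod_eq_one, mul_one]
            intro l _
            rw [GeomClasses.SpinWreath.jd, Matrix.of_apply, if_pos (by rw [h]; rfl)]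
          · rw [if_neg h]
            obtain ⟨l, hl⟩ := Function.ne_iff.1 h
            rw [Finset.prod_eq_zero (Finset.mem_univ l) (by rw [GeomClasses.SpinWreath.jd, Matrix.of_apply, if_neg]; exact hl), mul_zero]
      set κ := ∏ l ∈ Finset.univ.erase i, M l (fun _ => 0) (fun _ => Fin.rev 0) with hκ
      have hMi : ∀ a b, M i a b * κ = GeomClasses.SpinWreath.jd F m a b := by
        intro a b
        have h1 := hM (Function.update (fun _ _ => 0) (σ i) a) (Function.update (fun _ _ => Fin.rev 0) (σ i) b)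
        rw [← Finset.mul_prod_erase Finset.univ _ (Finset.mem_univ i),
          ← Finset.mul_prod_erase Finset.univ (fun l => GeomClasses.SpinWreath.jd F m _ _) (Finset.mem_univ (σ i)),
          Function.update_self, Function.update_self] at h1
        rw [Finset.prod_congr rfl (g := fun l => M l (fun _ => 0) (fun _ => Fin.rev 0)) (fun l hl => by
            rw [Function.update_of_ne (fun h => (Finset.mem_erase.1 hl).1 (σ.injective h)),
              Function.update_of_ne (fun h => (Finset.mem_erase.1 hl).1 (σ.injective h))]),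
          Finset.prod_eq_one (s := Finset.univ.erase (σ i)) (fun l hl => by
            rw [Function.update_of_ne (Finset.mem_erase.1 hl).1, Function.update_of_ne (Finset.mem_erase.1 hl).1]
            simp [GeomClasses.SpinWreath.jd]), mul_one] at h1
        exact h1
      have hκ0 : κ ≠ 0 := fun h => by
        have := hMi (fun _ => 0) (fun _ => Fin.rev 0)
        rw [h, mul_zero] at this
        simp [GeomClasses.SpinWreath.jd] at this
      refine ⟨κ⁻¹, ?_⟩
      ext a b
      show M i a b = κ⁻¹ * GeomClasses.SpinWreath.jd F m a b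
      rw [← hMi, mul_comm, mul_assoc, mul_inv_cancel₀ hκ0, mul_one]
    · have hD : ({si} ∪ {sj} : Finset (Fin t × Fin m)).Nonempty := ⟨si, by simp⟩
      have h1 : Ψ (GeomClasses.SpinWreath.unitOp F (Finset.insert_nonempty si {sj}) v0) ∈
          (GeomClasses.SpinWreath.siteStab F t m).map Ψ ⊓ Cfsg.Geo.omegaGL Q := by
        refine ⟨⟨_, GeomClasses.SpinWreath.unitOp_mem_siteStab hij _, rfl⟩, ?_⟩
        have h2 := hcomm {si} {sj} (by simp [hij]) (by simp [hsl.1]) (by simp [hsl.2]) ⟨si, by simp⟩ ⟨sj, by simp⟩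
          ⟨ss, by simp [hss.1, hss.2.2]⟩ ⟨ss, by simp [hss.2.1, hss.2.2]⟩ hD
        exact h2
      obtain ⟨w, hw, hwe⟩ := hΨrange _ (hle h1).1
      exact GeomClasses.SpinWreath.unitOp_notMem_tw (show si.1 ≠ sj.1 by simp [si, sj, i0, i1]) (hΨinj hwe ▸ hw)
  · refine lt_of_le_not_ge inf_le_right fun hle => ?_
    have hD : ({si, sj} ∪ {ss} : Finset (Fin t × Fin m)).Nonempty := ⟨si, by simp⟩
    have h2 := hcomm {si, sj} {ss} (by simp [hss.1, hss.2.1, Ne.symm hss.1, Ne.symm hss.2.1])
      (by simp [hsl.1, hsl.2]) (by simp [Ne.symm hss.2.2]) ⟨si, by simp⟩ ⟨ss, by simp⟩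
      ⟨ss, by simp [hss.1, hss.2.1, hss.2.2]⟩ ⟨si, by simp [hij, Ne.symm hsl.1, Ne.symm hss.1]⟩ hD
    obtain ⟨w, hw, hwe⟩ := (hle h2).1
    obtain rfl := hΨinj hwe
    refine GeomClasses.SpinWreath.unitOp_notMem_siteStab (F := F) hij (Ne.symm hss.1) (Ne.symm hss.2.1) ?_
    have e : GeomClasses.SpinWreath.unitOp F hD v0 = GeomClasses.SpinWreath.unitOp F (Finset.insert_nonempty si {sj, ss}) v0 :=
      Units.ext (by
        show 1 + GeomClasses.SpinWreath.nop F ({si, sj} ∪ {ss}) v0 = 1 + GeomClasses.SpinWreath.nop F {si, sj, ss} v0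
        rw [show ({si, sj} ∪ {ss} : Finset (Fin t × Fin m)) = {si, sj, ss} by ext p; simp])
    rw [← e]
    exact hw

end Cfsg.Agent.S5707
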