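import Cfsg.Statements.S5775
import Cfsg.Agent.GeomClasses.MaxList.Exclusions
import Cfsg.Agent.GeomClasses.MaxList.FieldFour

set_option autoImplicit false
open Cfsg

namespace Cfsg.Agent.S5775

/-- Every maximal subgroup of SL_3(q) is of one of the listed geometric types or lies in the residual class. Let F be a finite field with q elements and H a maximal subgroup of SL_3(F) (viewed inside GL_3(F)). Then H is the intersection with SL_3(F) of one of: the stabiliser of a proper non-zero subspace; for q ≥ 5, the stabiliser of a decomposition of F^3 into three independent lines; for q ≠ 4, the normaliser of a degree-3 subfield of the matrix algebra; a subfield group for a subfield F₀ with |F| = |F₀|^r, r prime; for q = p ≡ 1 mod 3 prime, the normaliser of an absolutely irreducible 3-subgroup R of exponent 3 with centre of order 3, all of whose characteristic abelian subgroups are cyclic, of order 3^(1+2m) for some m ≥ 1, with F the smallest field of characteristic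 p containing the cube roots of unity (so R is extraspecial of order 27); for q odd, the similarity group of a non-degenerate quadratic form; the similarity group of a non-degenerate unitary form — or else H lies in the residual class of the linear case (modulo scalars H is almost simple, with absolutely irreducible perfect socle preimage realisable over no proper subfield and fixing no non-degenerate quadratic, symplectic or unitary form). -/
theorem result {F : Type*} [Field F] [Fintype F] (H : Subgroup (Matrix.GeneralLinearGroup (Fin 3) F)) (hH : Cfsg.Geo.IsMaximalIn (Cfsg.Geo.specialLinear (Fin 3) F) H) :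
    (∃ W : Submodule F (Fin 3 → F), W ≠ ⊥ ∧ W ≠ ⊤ ∧ H = Cfsg.Geo.subspaceStabilizer W ⊓ Cfsg.Geo.specialLinear (Fin 3) F) ∨
    (5 ≤ Fintype.card F ∧ ∃ D : Fin 3 → Submodule F (Fin 3 → F), Cfsg.Geo.IsMDecomposition 1 D ∧ H = Cfsg.Geo.decompositionStabilizer D ⊓ Cfsg.Geo.specialLinear (Fin 3) F) ∨
    (Fintype.card F ≠ 4 ∧ ∃ K : Subalgebra F (Matrix (Fin 3) (Fin 3) F), Cfsg.Geo.IsFieldSubalgebra 3 K ∧ H = Cfsg.Geo.subalgebraNormalizer K ⊓ Cfsg.Geo.specialLinear (Fin 3) F) ∨
    (∃ (F₀ : Subfield F) (r : ℕ) (P : Matrix.GeneralLinearGroup (Fin 3) F), r.Prime ∧ Fintype.card F = Nat.card F₀ ^ r ∧ H = Cfsg.Geo.subfieldSubgroup F₀ P ⊓ Cfsg.Geo.specialLinear (Fin 3) F) ∨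
    (∃ (p : ℕ) (R : Subgroup (Matrix.GeneralLinearGroup (Fin 3) F)), p.Prime ∧ Fintype.card F = p ∧ p % 3 = 1 ∧ Cfsg.Geo.IsLinearSymplecticTypeData 3 R ∧ H = Cfsg.Geo.subgroupNormalizer R ⊓ Cfsg.Geo.specialLinear (Fin 3) F) ∨
    (Odd (Fintype.card F) ∧ ∃ Q : (Fin 3 → F) → F, Cfsg.Geo.IsNondegenerateQuadraticForm Q ∧ H = Cfsg.Geo.quadSimilarityGroup Q ⊓ Cfsg.Geo.specialLinear (Fin 3) F) ∨
    (∃ (σ : F ≃+* F) (f : (Fin 3 → F) → (Fin 3 → F) → F), Cfsg.Geo.IsUnitaryForm σ f ∧ H = Cfsg.Geo.similarityGroup f ⊓ Cfsg.Geo.specialLinear (Fin 3) F) ∨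
    Cfsg.Geo.InLinearResidualClass H := by
  have hn : 3 ≤ 3 := le_rfl
  rcases GeomClasses.MaxList.sl_cases hn H hH with ⟨W, h0, h1, e⟩ | ⟨t, m, D, hD, htm, e⟩ | ⟨r, K, hr, hrn, hK, e⟩ |
    ⟨n₁, n₂, eq, P, h1, h2, h12, e⟩ | ⟨F₀, r, P, hr, hc, e⟩ | ⟨r, R, hR, hr, ⟨m, hm, hnm⟩, e⟩ |
    ⟨m, t, eq, P, hm, ht, hmt, hle⟩ | ⟨hev, f, hf, e⟩ | ⟨σ, f, hf, e⟩ | ⟨hq, Q, hQ, e⟩ | hres
  · exact Or.inl ⟨W, h0, h1, e⟩
  · have ht := hD.two_le
    have hm0 := hD.pos
    have hm2 : 2 * m ≤ 3 := htm ▸ Nat.mul_le_mul_right m ht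
    obtain ⟨rfl, rfl⟩ : (m = 1 ∧ t = 3) := by
      have : m = 1 := by omega
      subst this; omega
    by_cases hq : 5 ≤ Fintype.card F
    · iterate 1 right
      exact Or.inl ⟨hq, D, hD, e⟩
    rcases GeomClasses.MaxList.monomial_small hn (by omega) hH hD (e.le.trans inf_le_left) with ⟨W, h0, h1, e⟩ | ⟨σ, f, hf, e⟩ | ⟨hq, Q, hQ, e⟩
    · exact Or.inl ⟨W, h0, h1, e⟩
    · iterate 6 right
      exact Or.inl ⟨σ, f, hf, e⟩
    · iterate 5 right
      exact Or.inl ⟨hq, Q, hQ, e⟩
  · have := Nat.le_of_dvd (by norm_num) hrn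
    obtain rfl : r = 3 := by
      interval_cases r <;> first | omega | (exfalso; revert hr; decide)
    by_cases hq : Fintype.card F = 4
    · iterate 3 right
      exact Or.inl (GeomClasses.MaxList.field_four hq hH hK (e.le.trans inf_le_left))
    · iterate 2 right
      exact Or.inl ⟨hq, K, hK, e⟩
  · have hb : n₁ * 3 ≤ 3 := h12 ▸ Nat.mul_le_mul_left n₁ (by omega)
    omega
  · iterate 3 right
    exact Or.inl ⟨F₀, r, P, hr, hc, e⟩
  · have hrn : r ∣ 3 := hnm ▸ dvd_pow_self r (by omega)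
    obtain rfl : r = 3 := (Nat.prime_dvd_prime_iff_eq hr (by norm_num)).mp hrn
    obtain ⟨p, hp, hc, hmod⟩ := GeomClasses.MaxList.symp_field_small hn hR (by norm_num)
    iterate 4 right
    exact Or.inl ⟨p, R, hp, hc, hmod, hR, e⟩
  · exfalso
    have h9 : 3 ^ 2 ≤ m ^ t := le_trans (Nat.pow_le_pow_left hm 2) (Nat.pow_le_pow_right (by omega) ht)
    omega
  · exact absurd hev (by decide)
  · iterate 6 right
    exact Or.inl ⟨σ, f, hf, e⟩
  · iterate 5 right
    exact Or.inl ⟨hq, Q, hQ, e⟩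
  · iterate 7 right
    exact hres

end Cfsg.Agent.S5775
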