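import Cfsg.Statements.S5778
import Cfsg.Agent.GeomClasses.MaxList.USympSmall
import Cfsg.Agent.GeomClasses.MaxList.U3.Mono
import Cfsg.Agent.GeomClasses.MaxList.U3.Orth
import Cfsg.Agent.GeomClasses.MaxList.U3.Singer
import Cfsg.Agent.GeomClasses.MaxList.U3.Extra

set_option autoImplicit false
open Cfsg

namespace Cfsg.Agent.S5778

/-- Every maximal subgroup of SU_3(q), q ≥ 3, is of one of the listed geometric types or lies in the residual class. Let F be the field with q² elements, f the standard unitary form Σ u_i v_i^q on F^3, and H a maximal subgroup of SU_3(q) (the determinant-one isometries of f, inside GL_3(F)). Then H is the intersection with SU_3(q) of one of: the stabiliser of a non-zero subspace on which f vanishes; the stabiliser of a non-degenerate 1-space; for q ≠ 5, the stabiliser of a decomposition into three mutually orthogonal non-degenerate 1-spaces; for q ≠ 3, 5, the normaliser of an adjoint-closed degree-3 subfield of the matrix algebra; a subfield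 group of odd prime index whose F₀-structure carries f; for q odd, q ≥ 7, a subfield group of index 2 whose F₀-structure carries f; for q = p ≡ 2 mod 3 prime with p ≥ 11, the normaliser of an absolutely irreducible subgroup of order 27 with centre of order 3, exponent 3 and all characteristic abelian subgroups cyclic, contained in the similarity group of f — or else H lies in the residual class of the unitary case. -/
theorem result {F : Type*} [Field F] [Fintype F] (q : ℕ) (hF : Fintype.card F = q ^ 2) (hq : 3 ≤ q) (H : Subgroup (Matrix.GeneralLinearGroup (Fin 3) F)) (hH : Cfsg.Geo.IsMaximalIn (Cfsg.GU 3 F q ⊓ Cfsg.Geo.specialLinear (Fin 3) F) H) :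
    (∃ W : Submodule F (Fin 3 → F), W ≠ ⊥ ∧ Cfsg.Geo.IsTotallySingularFor (Cfsg.hermForm 3 F q) W ∧ H = Cfsg.Geo.subspaceStabilizer W ⊓ (Cfsg.GU 3 F q ⊓ Cfsg.Geo.specialLinear (Fin 3) F)) ∨
    (∃ W : Submodule F (Fin 3 → F), W ≠ ⊥ ∧ Cfsg.Geo.IsNondegenerateOn (Cfsg.hermForm 3 F q) W ∧ 2 * Module.finrank F W < 3 ∧ H = Cfsg.Geo.subspaceStabilizer W ⊓ (Cfsg.GU 3 F q ⊓ Cfsg.Geo.specialLinear (Fin 3) F)) ∨
    (q ≠ 5 ∧ ∃ D : Fin 3 → Submodule F (Fin 3 → F), Cfsg.Geo.IsNondegenerateMDecomposition (Cfsg.hermForm 3 F q) 1 D ∧ H = Cfsg.Geo.decompositionStabilizer D ⊓ (Cfsg.GU 3 F q ⊓ Cfsg.Geo.specialLinear (Fin 3) F)) ∨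
    (q ≠ 3 ∧ q ≠ 5 ∧ ∃ K : Subalgebra F (Matrix (Fin 3) (Fin 3) F), Cfsg.Geo.IsFieldSubalgebra 3 K ∧ Cfsg.Geo.IsAdjointClosedFor (Cfsg.hermForm 3 F q) K ∧ H = Cfsg.Geo.subalgebraNormalizer K ⊓ (Cfsg.GU 3 F q ⊓ Cfsg.Geo.specialLinear (Fin 3) F)) ∨
    (∃ (F₀ : Subfield F) (r : ℕ) (P : Matrix.GeneralLinearGroup (Fin 3) F), r.Prime ∧ Odd r ∧ Fintype.card F = Nat.card F₀ ^ r ∧ Cfsg.Geo.IsFormRationalStructure (Cfsg.hermForm 3 F q) F₀ 1 P ∧ H = Cfsg.Geo.subfieldSubgroup F₀ P ⊓ (Cfsg.GU 3 F q ⊓ Cfsg.Geo.specialLinear (Fin 3) F)) ∨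
    (Odd q ∧ 7 ≤ q ∧ ∃ (F₀ : Subfield F) (P : Matrix.GeneralLinearGroup (Fin 3) F), Fintype.card F = Nat.card F₀ ^ 2 ∧ Cfsg.Geo.IsFormRationalStructure (Cfsg.hermForm 3 F q) F₀ 1 P ∧ H = Cfsg.Geo.subfieldSubgroup F₀ P ⊓ (Cfsg.GU 3 F q ⊓ Cfsg.Geo.specialLinear (Fin 3) F)) ∨
    (∃ (p : ℕ) (R : Subgroup (Matrix.GeneralLinearGroup (Fin 3) F)), p.Prime ∧ q = p ∧ p % 3 = 2 ∧ 11 ≤ p ∧ Cfsg.Geo.IsSymplecticTypeGroup 3 R ∧ Cfsg.Geo.ActsAbsolutelyIrreducibly (Cfsg.Geo.matrixSet R) ∧ R ≤ Cfsg.Geo.similarityGroup (Cfsg.hermForm 3 F q) ∧ Nat.card R = 27 ∧ Nat.card (Subgroup.center R) = 3 ∧ H = Cfsg.Geo.subgroupNormalizer R ⊓ (Cfsg.GU 3 F q ⊓ Cfsg.Geo.specialLinear (Fin 3) F)) ∨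
    Cfsg.Geo.InUnitaryResidualClass H := by
  have hn : (2 : ℕ) ≤ 3 := by norm_num
  rcases GeomClasses.AschRel.u_structure hF (n := 3) le_rfl H (hH.1.le.trans inf_le_left) with ⟨M, hM, hle⟩ | hres
  swap
  · iterate 7 right
    exact hres
  rcases hM with hP | ⟨r, K, hr, hro, hK, hadj, rfl⟩ | ⟨n₁, n₂, e, P, f₁, f₂, h1, h2, -, -, -, rfl⟩ |
    ⟨m, t, e, P, f₁, hm, ht, -, -, -, rfl⟩
  · rcases hP with ⟨W, h0, hW, rfl⟩ | ⟨W, h0, hW, hdim, rfl⟩ | ⟨t, k, D, hD, rfl⟩ | ⟨k, D, hk, hD, hW, rfl⟩ |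
      ⟨F₀, r, P, hr, hro, hc, hs, rfl⟩ | ⟨F₀, P, hodd, hc, hs, rfl⟩ | ⟨F₀, P, ζ, hev, hc, hζ, hζq, hs, hal, rfl⟩ |
      ⟨r, R, p, e, k, hst, habs, hsim, hrp, hm, hdis, rfl⟩
    · refine Or.inl ⟨W, h0, hW, GeomClasses.MaxList.eq_of_le hH (hle.trans inf_le_left)
        (GeomClasses.MaxList.u_subspace_proper hF hn h0 (fun h => ?_) (Or.inl hW))⟩
      obtain ⟨u, -, huu⟩ := GeomClasses.Unitary.exists_unit hF (GeomClasses.Unitary.nonDeg_top (n := 3) hF)
        (fun h' => h0 (by rw [h, h']))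
      exact one_ne_zero (huu.symm.trans (hW u (h ▸ trivial) u (h ▸ trivial)))
    · refine Or.inr <| Or.inl ⟨W, h0, hW, hdim, GeomClasses.MaxList.eq_of_le hH (hle.trans inf_le_left)
        (GeomClasses.MaxList.u_subspace_proper hF hn h0 (fun h => ?_) (Or.inr hW))⟩
      rw [h, finrank_top, Module.finrank_fin_fun] at hdim; omega
    · have htk := GeomClasses.MaxList.card_decomp hD.decomp
      have ht2 := hD.decomp.two_le
      have hk0 := hD.decomp.pos
      have hk2 : 2 * k ≤ 3 := htk ▸ Nat.mul_le_mul_right k ht2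
      obtain rfl : k = 1 := by omega
      obtain rfl : t = 3 := by omega
      by_cases h5 : q = 5
      · subst h5
        exact (GeomClasses.MaxList.U3.monomial_five hF hH hD (hle.trans inf_le_left)).elim
      · exact Or.inr <| Or.inr <| Or.inl ⟨h5, D, hD, GeomClasses.MaxList.eq_of_le hH (hle.trans inf_le_left)
          (GeomClasses.MaxList.u_monomial_proper hF le_rfl (by omega) hD)⟩
    · omega
    · iterate 4 right
      exact Or.inl ⟨F₀, r, P, hr, hro, hc, hs, GeomClasses.MaxList.eq_of_le hH (hle.trans inf_le_left)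
        (GeomClasses.MaxList.u_subfield_proper hF le_rfl hr hc P)⟩
    · by_cases h7 : 7 ≤ q
      · iterate 5 right
        exact Or.inl ⟨hodd, h7, F₀, P, hc, hs, GeomClasses.MaxList.eq_of_le hH (hle.trans inf_le_left)
          (GeomClasses.MaxList.u_subfield_proper hF le_rfl Nat.prime_two hc P)⟩
      · have h35 : q = 3 ∨ q = 5 := by
          have := Nat.odd_iff.mp hodd
          omega
        rcases h35 with rfl | rfl
        · obtain ⟨D, hD, hsub⟩ := GeomClasses.MaxList.U3.orth_three hF hc hs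
          exact Or.inr <| Or.inr <| Or.inl ⟨by norm_num, D, hD, GeomClasses.MaxList.eq_of_le hH
            ((le_inf (hle.trans inf_le_left) (hH.1.le.trans inf_le_left)).trans hsub)
            (GeomClasses.MaxList.u_monomial_proper hF le_rfl (by norm_num) hD)⟩
        · exact (GeomClasses.MaxList.U3.orth_five hF hH hc hs (hle.trans inf_le_left)).elim
    · exact absurd hev (by decide)
    · rcases hdis with ⟨ho, hz, hk1, hR⟩ | ⟨rfl, rfl, hz, hR⟩
      swap
      · exfalso
        have hnk := GeomClasses.MaxList.u_data (n := 3) (r := 2) (k := k) le_rfl hst habs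
          (by rw [hz]; rfl) (by rw [hR, pow_add]; rfl)
        rcases k with _ | k
        · simp at hnk
        · rw [pow_succ] at hnk; omega
      have hg : Nat.gcd 2 r = 1 := Nat.coprime_two_left.mpr ho
      have hnk := GeomClasses.MaxList.u_data (n := 3) (r := r) (k := k) le_rfl hst habs
        (by rw [hg, mul_one]; exact hz) (by rw [hg, mul_one, hR, pow_add, pow_one])
      have hr3 : r = 3 := ((Nat.prime_dvd_prime_iff_eq hst.prime Nat.prime_three).mp
        (hnk ▸ dvd_pow_self r (by omega)))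
      subst hr3
      obtain rfl : k = 1 := Nat.pow_right_injective (by norm_num : 2 ≤ 3) (hnk.symm.trans (pow_one 3).symm)
      rw [hz] at hm
      obtain ⟨f, he, hf0, hqf, hdvd, -, hlow⟩ := GeomClasses.MaxList.minimal_half hF Nat.prime_three hrp hm
      have he2 := Nat.le_of_dvd (by norm_num) hdvd
      obtain rfl : f = 1 := by omega
      subst he
      rw [pow_one] at hqf
      have hp1 := hlow 1 one_pos (by norm_num)
      rw [pow_one] at hp1
      have hpp := hm.1
      haveI : CharP F p := hm.2.1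
      have hp3 : p % 3 ≠ 0 := fun h => hrp ((Nat.prime_dvd_prime_iff_eq Nat.prime_three hpp).mp (Nat.dvd_of_mod_eq_zero h))
      have h27 : Nat.card R = 27 := hR.trans (by norm_num)
      by_cases h11 : 11 ≤ p
      · iterate 6 right
        exact Or.inl ⟨p, R, hpp, hqf, by omega, h11, hst, habs, hsim, h27, hz,
          GeomClasses.MaxList.eq_of_le hH (hle.trans inf_le_left)
            (GeomClasses.MaxList.USympSmall.three_proper hF hpp (by omega) hst habs h27 hz)⟩
      · obtain rfl : q = 5 := by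
          have := hpp.two_le
          interval_cases p <;> first | omega | (exfalso; revert hpp; norm_num)
        exact (GeomClasses.MaxList.U3.extra_five hF hH hst habs hsim h27 hz (hle.trans inf_le_left)).elim
  · have hd := GeomClasses.MaxList.field_dvd hK hr.two_le
    obtain rfl : r = 3 := (Nat.prime_dvd_prime_iff_eq hr Nat.prime_three).mp hd
    by_cases h3 : q = 3
    · subst h3
      exact (GeomClasses.MaxList.U3.singer_three hF hH hK hadj (hle.trans inf_le_left)).elim
    by_cases h5 : q = 5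
    · subst h5
      exact (GeomClasses.MaxList.U3.singer_five hF hH hK hadj (hle.trans inf_le_left)).elim
    exact Or.inr <| Or.inr <| Or.inr <| Or.inl ⟨h3, h5, K, hK, hadj, GeomClasses.MaxList.eq_of_le hH (hle.trans inf_le_left)
      (GeomClasses.MaxList.u_field_proper hF le_rfl (by norm_num) hK)⟩
  · exfalso
    have h := Fintype.card_congr e
    simp only [Fintype.card_prod, Fintype.card_fin] at h
    have h3 : 2 * 3 ≤ n₁ * n₂ := Nat.mul_le_mul h1 (by omega)
    omega
  · exfalso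
    have h : 3 = m ^ t := by simpa using Fintype.card_congr e
    have h9 : 3 ^ 2 ≤ m ^ t := le_trans (Nat.pow_le_pow_left hm 2) (Nat.pow_le_pow_right (by omega) ht)
    omega

end Cfsg.Agent.S5778
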