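import Cfsg.Statements.S5781
import Cfsg.Agent.GeomClasses.MaxList.SLFour

set_option autoImplicit false
open Cfsg

namespace Cfsg.Agent.S5781

/-- Every maximal subgroup of SL_4(q) is of one of the listed geometric types or lies in the residual class. Let F be a finite field with q elements and H a maximal subgroup of SL_4(F) (inside GL_4(F)). Then H is the intersection with SL_4(F) of one of: the stabiliser of a proper non-zero subspace; for q ≥ 7, the stabiliser of a decomposition into four independent lines; for q ≥ 4, the stabiliser of a decomposition into two independent planes; the normaliser of a degree-2 subfield of the matrix algebra; a subfield group for a subfield F₀ with |F| = |F₀|^r, r prime; for q = p ≡ 1 mod 4 prime, the normaliser of an absolutely irreducible 2-subgroup R of exponent 4 with centre of order 4, all of whose characteristic abelian subgroups are cyclic, of order 2^(2+2m) for some m (here |R| = 64), with 4 dividing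 p − 1; for q odd, the similarity group of a non-degenerate quadratic form; the similarity group of a non-degenerate symplectic form; the similarity group of a non-degenerate unitary form — or else H lies in the residual class of the linear case. -/
theorem result {F : Type*} [Field F] [Fintype F] (H : Subgroup (Matrix.GeneralLinearGroup (Fin 4) F)) (hH : Cfsg.Geo.IsMaximalIn (Cfsg.Geo.specialLinear (Fin 4) F) H) :
    (∃ W : Submodule F (Fin 4 → F), W ≠ ⊥ ∧ W ≠ ⊤ ∧ H = Cfsg.Geo.subspaceStabilizer W ⊓ Cfsg.Geo.specialLinear (Fin 4) F) ∨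
    (7 ≤ Fintype.card F ∧ ∃ D : Fin 4 → Submodule F (Fin 4 → F), Cfsg.Geo.IsMDecomposition 1 D ∧ H = Cfsg.Geo.decompositionStabilizer D ⊓ Cfsg.Geo.specialLinear (Fin 4) F) ∨
    (4 ≤ Fintype.card F ∧ ∃ D : Fin 2 → Submodule F (Fin 4 → F), Cfsg.Geo.IsMDecomposition 2 D ∧ H = Cfsg.Geo.decompositionStabilizer D ⊓ Cfsg.Geo.specialLinear (Fin 4) F) ∨
    (∃ K : Subalgebra F (Matrix (Fin 4) (Fin 4) F), Cfsg.Geo.IsFieldSubalgebra 2 K ∧ H = Cfsg.Geo.subalgebraNormalizer K ⊓ Cfsg.Geo.specialLinear (Fin 4) F) ∨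
    (∃ (F₀ : Subfield F) (r : ℕ) (P : Matrix.GeneralLinearGroup (Fin 4) F), r.Prime ∧ Fintype.card F = Nat.card F₀ ^ r ∧ H = Cfsg.Geo.subfieldSubgroup F₀ P ⊓ Cfsg.Geo.specialLinear (Fin 4) F) ∨
    (∃ (p : ℕ) (R : Subgroup (Matrix.GeneralLinearGroup (Fin 4) F)), p.Prime ∧ Fintype.card F = p ∧ p % 4 = 1 ∧ Cfsg.Geo.IsLinearSymplecticTypeData 2 R ∧ H = Cfsg.Geo.subgroupNormalizer R ⊓ Cfsg.Geo.specialLinear (Fin 4) F) ∨
    (Odd (Fintype.card F) ∧ ∃ Q : (Fin 4 → F) → F, Cfsg.Geo.IsNondegenerateQuadraticForm Q ∧ H = Cfsg.Geo.quadSimilarityGroup Q ⊓ Cfsg.Geo.specialLinear (Fin 4) F) ∨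
    (∃ f : (Fin 4 → F) → (Fin 4 → F) → F, Cfsg.Geo.IsSymplecticForm f ∧ H = Cfsg.Geo.similarityGroup f ⊓ Cfsg.Geo.specialLinear (Fin 4) F) ∨
    (∃ (σ : F ≃+* F) (f : (Fin 4 → F) → (Fin 4 → F) → F), Cfsg.Geo.IsUnitaryForm σ f ∧ H = Cfsg.Geo.similarityGroup f ⊓ Cfsg.Geo.specialLinear (Fin 4) F) ∨
    Cfsg.Geo.InLinearResidualClass H := by
  have hn : 3 ≤ 4 := by norm_num
  rcases GeomClasses.MaxList.sl_cases hn H hH with ⟨W, h0, h1, e⟩ | ⟨t, m, D, hD, htm, e⟩ | ⟨r, K, hr, hrn, hK, e⟩ |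
    ⟨n₁, n₂, eq, P, h1, h2, h12, e⟩ | ⟨F₀, r, P, hr, hc, e⟩ | ⟨r, R, hR, hr, ⟨m, hm, hnm⟩, e⟩ |
    ⟨m, t, eq, P, hm, ht, hmt, hle⟩ | ⟨hev, f, hf, e⟩ | ⟨σ, f, hf, e⟩ | ⟨hq, Q, hQ, e⟩ | hres
  · exact Or.inl ⟨W, h0, h1, e⟩
  · have ht := hD.two_le
    have hm0 := hD.pos
    have hm2 : 2 * m ≤ 4 := htm ▸ Nat.mul_le_mul_right m ht
    have hm3 : m ≤ 2 := by omega
    obtain ⟨rfl, rfl⟩ | ⟨rfl, rfl⟩ : (m = 1 ∧ t = 4) ∨ (m = 2 ∧ t = 2) := by
      interval_cases m <;> omega
    · by_cases hq : 7 ≤ Fintype.card F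
      · iterate 1 right
        exact Or.inl ⟨hq, D, hD, e⟩
      have hq4 : Fintype.card F ≤ 4 := by
        have h6 : Fintype.card F ≠ 6 := fun h => by
          obtain ⟨p, hp⟩ := CharP.exists F
          obtain ⟨k, hpp, hk⟩ := FiniteField.card F p
          rw [h] at hk
          have h2 : 2 ∣ p ^ (k : ℕ) := hk ▸ by norm_num
          have h3 : 3 ∣ p ^ (k : ℕ) := hk ▸ by norm_num
          have e2 := (Nat.prime_dvd_prime_iff_eq Nat.prime_two hpp).mp (Nat.prime_two.dvd_of_dvd_pow h2)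
          have e3 := (Nat.prime_dvd_prime_iff_eq Nat.prime_three hpp).mp (Nat.prime_three.dvd_of_dvd_pow h3)
          omega
        have h5 : Fintype.card F ≠ 5 := fun h =>
          GeomClasses.MaxList.monomial_five h hH rfl hD (e.le.trans inf_le_left)
        omega
      rcases GeomClasses.MaxList.monomial_small hn hq4 hH hD (e.le.trans inf_le_left) with ⟨W, h0, h1, e⟩ | ⟨σ, f, hf, e⟩ | ⟨hq, Q, hQ, e⟩
      · exact Or.inl ⟨W, h0, h1, e⟩
      · iterate 8 right
        exact Or.inl ⟨σ, f, hf, e⟩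
      · iterate 6 right
        exact Or.inl ⟨hq, Q, hQ, e⟩
    · by_cases hq : 4 ≤ Fintype.card F
      · iterate 2 right
        exact Or.inl ⟨hq, D, hD, e⟩
      obtain ⟨f, hf, e⟩ := GeomClasses.MaxList.planes_small (by omega) hH hD (e.le.trans inf_le_left)
      iterate 7 right
      exact Or.inl ⟨f, hf, e⟩
  · have := Nat.le_of_dvd (by norm_num) hrn
    obtain rfl : r = 2 := by
      interval_cases r <;> first | omega | (exfalso; revert hr; decide)
    iterate 3 right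
    exact Or.inl ⟨K, hK, e⟩
  · have hb : n₁ * 3 ≤ 4 := h12 ▸ Nat.mul_le_mul_left n₁ (by omega)
    omega
  · iterate 4 right
    exact Or.inl ⟨F₀, r, P, hr, hc, e⟩
  · have hrn : r ∣ 2 ^ 2 := by rw [show (2 : ℕ) ^ 2 = 4 from rfl, hnm]; exact dvd_pow_self r (by omega)
    obtain rfl : r = 2 := (Nat.prime_dvd_prime_iff_eq hr Nat.prime_two).mp (hr.dvd_of_dvd_pow hrn)
    obtain ⟨p, hp, hc, hmod⟩ := GeomClasses.MaxList.symp_field_two hn hR
    iterate 5 right
    exact Or.inl ⟨p, R, hp, hc, hmod, hR, e⟩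
  · exfalso
    have h9 : 3 ^ 2 ≤ m ^ t := le_trans (Nat.pow_le_pow_left hm 2) (Nat.pow_le_pow_right (by omega) ht)
    omega
  · iterate 7 right
    exact Or.inl ⟨f, hf, e⟩
  · iterate 8 right
    exact Or.inl ⟨σ, f, hf, e⟩
  · iterate 6 right
    exact Or.inl ⟨hq, Q, hQ, e⟩
  · iterate 9 right
    exact hres

end Cfsg.Agent.S5781
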