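import Cfsg.Statements.S5784
import Cfsg.Agent.GeomClasses.MaxList.USympSmall
import Cfsg.Agent.GeomClasses.MaxList.U4Small
import Cfsg.Agent.GeomClasses.MaxList.U4Mono

set_option autoImplicit false
open Cfsg

namespace Cfsg.Agent.S5784

/-- Every maximal subgroup of SU_4(q) is of one of the listed geometric types or lies in the residual class. Let F be the field with q² elements, f the standard unitary form Σ u_i v_i^q on F^4, and H a maximal subgroup of SU_4(q) (inside GL_4(F)). Then H is the intersection with SU_4(q) of one of: the stabiliser of a non-zero subspace on which f vanishes; the stabiliser of a non-degenerate 1-space; for q ≠ 3, the stabiliser of a decomposition into four mutually orthogonal non-degenerate 1-spaces; for q ≥ 3, of a decomposition into two orthogonal non-degenerate 2-spaces; for q ≥ 4, of a decomposition into two totally isotropic 2-spaces; a subfield group of odd prime index whose F₀-structure carries f; a subfield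 group of index 2 whose F₀-structure carries ζ f, vanishing on pairs (u, u), for some non-zero ζ with ζ + ζ^q = 0; for q odd, a subfield group of index 2 whose F₀-structure carries f; for q = p ≡ 3 mod 4 prime, the normaliser of an absolutely irreducible symplectic-type 2-group of exponent 4, order 64 and centre of order 4 inside the similarity group of f — or else H lies in the residual class of the unitary case. -/
theorem result {F : Type*} [Field F] [Fintype F] (q : ℕ) (hF : Fintype.card F = q ^ 2) (H : Subgroup (Matrix.GeneralLinearGroup (Fin 4) F)) (hH : Cfsg.Geo.IsMaximalIn (Cfsg.GU 4 F q ⊓ Cfsg.Geo.specialLinear (Fin 4) F) H) :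
    (∃ W : Submodule F (Fin 4 → F), W ≠ ⊥ ∧ Cfsg.Geo.IsTotallySingularFor (Cfsg.hermForm 4 F q) W ∧ H = Cfsg.Geo.subspaceStabilizer W ⊓ (Cfsg.GU 4 F q ⊓ Cfsg.Geo.specialLinear (Fin 4) F)) ∨
    (∃ W : Submodule F (Fin 4 → F), W ≠ ⊥ ∧ Cfsg.Geo.IsNondegenerateOn (Cfsg.hermForm 4 F q) W ∧ 2 * Module.finrank F W < 4 ∧ H = Cfsg.Geo.subspaceStabilizer W ⊓ (Cfsg.GU 4 F q ⊓ Cfsg.Geo.specialLinear (Fin 4) F)) ∨
    (q ≠ 3 ∧ ∃ D : Fin 4 → Submodule F (Fin 4 → F), Cfsg.Geo.IsNondegenerateMDecomposition (Cfsg.hermForm 4 F q) 1 D ∧ H = Cfsg.Geo.decompositionStabilizer D ⊓ (Cfsg.GU 4 F q ⊓ Cfsg.Geo.specialLinear (Fin 4) F)) ∨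
    (3 ≤ q ∧ ∃ D : Fin 2 → Submodule F (Fin 4 → F), Cfsg.Geo.IsNondegenerateMDecomposition (Cfsg.hermForm 4 F q) 2 D ∧ H = Cfsg.Geo.decompositionStabilizer D ⊓ (Cfsg.GU 4 F q ⊓ Cfsg.Geo.specialLinear (Fin 4) F)) ∨
    (4 ≤ q ∧ ∃ D : Fin 2 → Submodule F (Fin 4 → F), Cfsg.Geo.IsMDecomposition 2 D ∧ (∀ i, Cfsg.Geo.IsTotallySingularFor (Cfsg.hermForm 4 F q) (D i)) ∧ H = Cfsg.Geo.decompositionStabilizer D ⊓ (Cfsg.GU 4 F q ⊓ Cfsg.Geo.specialLinear (Fin 4) F)) ∨
    (∃ (F₀ : Subfield F) (r : ℕ) (P : Matrix.GeneralLinearGroup (Fin 4) F), r.Prime ∧ Odd r ∧ Fintype.card F = Nat.card F₀ ^ r ∧ Cfsg.Geo.IsFormRationalStructure (Cfsg.hermForm 4 F q) F₀ 1 P ∧ H = Cfsg.Geo.subfieldSubgroup F₀ P ⊓ (Cfsg.GU 4 F q ⊓ Cfsg.Geo.specialLinear (Fin 4) F)) ∨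
    (∃ (F₀ : Subfield F) (P : Matrix.GeneralLinearGroup (Fin 4) F) (ζ : F), Fintype.card F = Nat.card F₀ ^ 2 ∧ ζ ≠ 0 ∧ ζ + ζ ^ q = 0 ∧ Cfsg.Geo.IsFormRationalStructure (Cfsg.hermForm 4 F q) F₀ ζ P ∧ (∀ u : Fin 4 → F, (∀ i, u i ∈ F₀) → (Cfsg.hermForm 4 F q) (Matrix.mulVec (P : Matrix (Fin 4) (Fin 4) F) u) (Matrix.mulVec (P : Matrix (Fin 4) (Fin 4) F) u) = 0) ∧ H = Cfsg.Geo.subfieldSubgroup F₀ P ⊓ (Cfsg.GU 4 F q ⊓ Cfsg.Geo.specialLinear (Fin 4) F)) ∨
    (Odd q ∧ ∃ (F₀ : Subfield F) (P : Matrix.GeneralLinearGroup (Fin 4) F), Fintype.card F = Nat.card F₀ ^ 2 ∧ Cfsg.Geo.IsFormRationalStructure (Cfsg.hermForm 4 F q) F₀ 1 P ∧ H = Cfsg.Geo.subfieldSubgroup F₀ P ⊓ (Cfsg.GU 4 F q ⊓ Cfsg.Geo.specialLinear (Fin 4) F)) ∨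
    (∃ (p : ℕ) (R : Subgroup (Matrix.GeneralLinearGroup (Fin 4) F)), p.Prime ∧ q = p ∧ p % 4 = 3 ∧ Cfsg.Geo.IsSymplecticTypeGroup 2 R ∧ Cfsg.Geo.ActsAbsolutelyIrreducibly (Cfsg.Geo.matrixSet R) ∧ R ≤ Cfsg.Geo.similarityGroup (Cfsg.hermForm 4 F q) ∧ Nat.card R = 64 ∧ Nat.card (Subgroup.center R) = 4 ∧ H = Cfsg.Geo.subgroupNormalizer R ⊓ (Cfsg.GU 4 F q ⊓ Cfsg.Geo.specialLinear (Fin 4) F)) ∨
    Cfsg.Geo.InUnitaryResidualClass H := by
  have hn : (2 : ℕ) ≤ 4 := by norm_num
  have hq2 := Cfsg.Agent.Forms.two_le_q hF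
  rcases GeomClasses.AschRel.u_structure hF (n := 4) (by norm_num) H (hH.1.le.trans inf_le_left) with ⟨M, hM, hle⟩ | hres
  swap
  · iterate 9 right
    exact hres
  have hle' : H ≤ M := hle
  rcases hM with hP | ⟨r, K, hr, hro, hK, -, rfl⟩ | ⟨n₁, n₂, e, P, f₁, f₂, h1, h2, -, -, -, rfl⟩ |
    ⟨m, t, e, P, f₁, hm, ht, -, -, -, rfl⟩
  · rcases hP with ⟨W, h0, hW, rfl⟩ | ⟨W, h0, hW, hdim, rfl⟩ | ⟨t, k, D, hD, rfl⟩ | ⟨k, D, hk, hD, hW, rfl⟩ |
      ⟨F₀, r, P, hr, hro, hc, hs, rfl⟩ | ⟨F₀, P, hq, hc, hs, rfl⟩ | ⟨F₀, P, ζ, hev, hc, hζ, hζq, hs, hal, rfl⟩ |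
      ⟨r, R, p, e, k, hst, habs, hsim, hrp, hm, hdis, rfl⟩
    · refine Or.inl ⟨W, h0, hW, GeomClasses.MaxList.eq_of_le hH (hle.trans inf_le_left)
        (GeomClasses.MaxList.u_subspace_proper hF hn h0 (fun h => ?_) (Or.inl hW))⟩
      obtain ⟨u, -, huu⟩ := GeomClasses.Unitary.exists_unit hF (GeomClasses.Unitary.nonDeg_top (n := 4) hF)
        (fun h' => h0 (by rw [h, h']))
      exact one_ne_zero (huu.symm.trans (hW u (h ▸ trivial) u (h ▸ trivial)))
    · refine Or.inr <| Or.inl ⟨W, h0, hW, hdim, GeomClasses.MaxList.eq_of_le hH (hle.trans inf_le_left)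
        (GeomClasses.MaxList.u_subspace_proper hF hn h0 (fun h => ?_) (Or.inr hW))⟩
      rw [h, finrank_top, Module.finrank_fin_fun] at hdim; omega
    · have htk := GeomClasses.MaxList.card_decomp hD.decomp
      have ht2 := hD.decomp.two_le
      have hk0 := hD.decomp.pos
      have hk2 : 2 * k ≤ 4 := htk ▸ Nat.mul_le_mul_right k ht2
      rcases (show k = 1 ∨ k = 2 by omega) with rfl | rfl
      · obtain rfl : t = 4 := by omega
        by_cases h3 : q = 3
        · subst h3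
          exact (GeomClasses.MaxList.U4.monomial_three hF hH hD (hle.trans inf_le_left)).elim
        · exact Or.inr <| Or.inr <| Or.inl ⟨h3, D, hD, GeomClasses.MaxList.eq_of_le hH (hle.trans inf_le_left)
            (GeomClasses.MaxList.u_monomial_proper hF (by norm_num) (by omega) hD)⟩
      · obtain rfl : t = 2 := by omega
        by_cases h3 : 3 ≤ q
        · exact Or.inr <| Or.inr <| Or.inr <| Or.inl ⟨h3, D, hD, GeomClasses.MaxList.eq_of_le hH (hle.trans inf_le_left)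
            (GeomClasses.MaxList.u_blocks_proper hF hn hD.decomp le_rfl fun i => Or.inr (hD.nondegenerate i))⟩
        · obtain ⟨E, hE, e⟩ := GeomClasses.MaxList.u_planes_two hF (by omega) le_rfl hH hD (hle.trans inf_le_left)
          exact Or.inr <| Or.inr <| Or.inl ⟨by omega, E, hE, e⟩
    · obtain rfl : k = 2 := by omega
      by_cases h4 : 4 ≤ q
      · iterate 4 right
        exact Or.inl ⟨h4, D, hD, hW, GeomClasses.MaxList.eq_of_le hH (hle.trans inf_le_left)
          (GeomClasses.MaxList.u_blocks_proper hF hn hD le_rfl fun i => Or.inl (hW i))⟩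
      · obtain ⟨F₀, P, ζ, hc, hζ, hζq, hs, hal, hsub⟩ :=
          GeomClasses.MaxList.U4.halves_small hF (by omega) hD hW
        iterate 6 right
        exact Or.inl ⟨F₀, P, ζ, hc, hζ, hζq, hs, hal, GeomClasses.MaxList.eq_of_le hH
          ((le_inf (hle.trans inf_le_left) hH.1.le).trans hsub)
          (GeomClasses.MaxList.u_subfield_proper hF (by norm_num) Nat.prime_two hc P)⟩
    · iterate 5 right
      exact Or.inl ⟨F₀, r, P, hr, hro, hc, hs, GeomClasses.MaxList.eq_of_le hH (hle.trans inf_le_left)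
        (GeomClasses.MaxList.u_subfield_proper hF (by norm_num) hr hc P)⟩
    · iterate 7 right
      exact Or.inl ⟨hq, F₀, P, hc, hs, GeomClasses.MaxList.eq_of_le hH (hle.trans inf_le_left)
        (GeomClasses.MaxList.u_subfield_proper hF (by norm_num) Nat.prime_two hc P)⟩
    · iterate 6 right
      exact Or.inl ⟨F₀, P, ζ, hc, hζ, hζq, hs, hal, GeomClasses.MaxList.eq_of_le hH (hle.trans inf_le_left)
        (GeomClasses.MaxList.u_subfield_proper hF (by norm_num) Nat.prime_two hc P)⟩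
    · rcases hdis with ⟨ho, hz, -, hR⟩ | ⟨rfl, rfl, hz, hR⟩
      · exfalso
        have hnk := GeomClasses.MaxList.u_data (n := 4) (r := r) (k := k) (by norm_num) hst habs
          (by rw [show Nat.gcd 2 r = 1 from Nat.coprime_two_left.mpr ho, mul_one]; exact hz)
          (by rw [show Nat.gcd 2 r = 1 from Nat.coprime_two_left.mpr ho, mul_one, hR, pow_add, pow_one])
        have : Odd (4 : ℕ) := hnk ▸ ho.pow
        exact absurd this (by decide)
      · have hnk := GeomClasses.MaxList.u_data (n := 4) (r := 2) (k := k) (by norm_num) hst habs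
          (by rw [hz]; rfl) (by rw [hR, pow_add]; rfl)
        obtain rfl : k = 2 := Nat.pow_right_injective le_rfl (hnk.symm.trans (by norm_num))
        rw [hz] at hm
        obtain ⟨hqp, hmod⟩ := GeomClasses.MaxList.u_field_two hF hm
        haveI : CharP F p := hm.2.1
        iterate 8 right
        exact Or.inl ⟨p, R, hm.1, hqp, hmod, hst, habs, hsim, hR.trans (by norm_num), hz,
          GeomClasses.MaxList.eq_of_le hH (hle.trans inf_le_left)
            (GeomClasses.MaxList.USympSmall.four_proper hF hm.1 hqp hmod hst habs (hR.trans (by norm_num)) hz)⟩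
  · exfalso
    have hd := GeomClasses.MaxList.field_dvd hK hr.two_le
    have := Nat.le_of_dvd (by norm_num) hd
    have h2 := hr.two_le
    have hodd := Nat.odd_iff.mp hro
    interval_cases r <;> omega
  · exfalso
    have h := Fintype.card_congr e
    simp only [Fintype.card_prod, Fintype.card_fin] at h
    have h3 : n₁ * 3 ≤ n₁ * n₂ := Nat.mul_le_mul_left n₁ (by omega)
    omega
  · exfalso
    have h : 4 = m ^ t := by simpa using Fintype.card_congr e
    have h9 : 3 ^ 2 ≤ m ^ t := le_trans (Nat.pow_le_pow_left hm 2) (Nat.pow_le_pow_right (by omega) ht)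
    omega

end Cfsg.Agent.S5784
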