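import Cfsg.Statements.S5787
import Cfsg.Agent.GeomClasses.SpCases.SympType
import Cfsg.Agent.GeomClasses.SpCases.FourPair
import Cfsg.Agent.GeomClasses.SpCases.FourQuat

set_option autoImplicit false
open Cfsg

namespace Cfsg.Agent.S5787

/-- Every maximal subgroup of Sp_4(q), q odd, is of one of the listed geometric types or lies in the residual class. Let F be a finite field of odd order q, f the standard alternating form on F^4 (coordinates Fin 2 ⊕ Fin 2), and H a maximal subgroup of the isometry group Sp_4(F) (inside GL_4(F)). Then H is the intersection with Sp_4(F) of one of: the stabiliser of a non-zero totally isotropic subspace; the stabiliser of a decomposition into two orthogonal non-degenerate 2-spaces; for q ≥ 5, of a decomposition into two totally isotropic 2-spaces; the normaliser of a degree-2 subfield K of the matrix algebra, self-adjoint with f(k v, v) = 0; for q ≥ 5, the normaliser of a degree-2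 subfield closed under adjoints but not self-adjoint; a subfield group whose F₀-structure carries a non-zero multiple of f, |F| = |F₀|^r with r prime; for q = p prime, the normaliser of an absolutely irreducible symplectic-type 2-group of exponent 4, order 32, centre of order 2 and minus type inside the similarity group of f — or else H lies in the residual class of the symplectic case. -/
theorem result {F : Type*} [Field F] [Fintype F] (hodd : Odd (Fintype.card F)) (H : Subgroup (Matrix.GeneralLinearGroup (Fin 2 ⊕ Fin 2) F)) (hH : Cfsg.Geo.IsMaximalIn (Cfsg.spGL 2 F) H) :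
    (∃ W : Submodule F (Fin 2 ⊕ Fin 2 → F), W ≠ ⊥ ∧ Cfsg.Geo.IsTotallySingularFor (Cfsg.sympForm 2 F) W ∧ H = Cfsg.Geo.subspaceStabilizer W ⊓ Cfsg.spGL 2 F) ∨
    (∃ D : Fin 2 → Submodule F (Fin 2 ⊕ Fin 2 → F), Cfsg.Geo.IsNondegenerateMDecomposition (Cfsg.sympForm 2 F) 2 D ∧ H = Cfsg.Geo.decompositionStabilizer D ⊓ Cfsg.spGL 2 F) ∨
    (5 ≤ Fintype.card F ∧ ∃ D : Fin 2 → Submodule F (Fin 2 ⊕ Fin 2 → F), Cfsg.Geo.IsMDecomposition 2 D ∧ (∀ i, Cfsg.Geo.IsTotallySingularFor (Cfsg.sympForm 2 F) (D i)) ∧ H = Cfsg.Geo.decompositionStabilizer D ⊓ Cfsg.spGL 2 F) ∨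
    (∃ K : Subalgebra F (Matrix (Fin 2 ⊕ Fin 2) (Fin 2 ⊕ Fin 2) F), Cfsg.Geo.IsFieldSubalgebra 2 K ∧ Cfsg.Geo.IsSelfAdjointFor (Cfsg.sympForm 2 F) K ∧ (∀ k ∈ K, ∀ v : (Fin 2 ⊕ Fin 2 → F), (Cfsg.sympForm 2 F) (Matrix.mulVec k v) v = 0) ∧ H = Cfsg.Geo.subalgebraNormalizer K ⊓ Cfsg.spGL 2 F) ∨
    (5 ≤ Fintype.card F ∧ ∃ K : Subalgebra F (Matrix (Fin 2 ⊕ Fin 2) (Fin 2 ⊕ Fin 2) F), Cfsg.Geo.IsFieldSubalgebra 2 K ∧ Cfsg.Geo.IsAdjointClosedFor (Cfsg.sympForm 2 F) K ∧ ¬ Cfsg.Geo.IsSelfAdjointFor (Cfsg.sympForm 2 F) K ∧ H = Cfsg.Geo.subalgebraNormalizer K ⊓ Cfsg.spGL 2 F) ∨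
    (∃ (F₀ : Subfield F) (r : ℕ) (P : Matrix.GeneralLinearGroup (Fin 2 ⊕ Fin 2) F) (ζ : F), r.Prime ∧ Fintype.card F = Nat.card F₀ ^ r ∧ ζ ≠ 0 ∧ Cfsg.Geo.IsFormRationalStructure (Cfsg.sympForm 2 F) F₀ ζ P ∧ H = Cfsg.Geo.subfieldSubgroup F₀ P ⊓ Cfsg.spGL 2 F) ∨
    (∃ (p : ℕ) (R : Subgroup (Matrix.GeneralLinearGroup (Fin 2 ⊕ Fin 2) F)), p.Prime ∧ Fintype.card F = p ∧ Cfsg.Geo.IsSymplecticTypeGroup 2 R ∧ Cfsg.Geo.ActsAbsolutelyIrreducibly (Cfsg.Geo.matrixSet R) ∧ R ≤ Cfsg.Geo.similarityGroup (Cfsg.sympForm 2 F) ∧ Nat.card R = 32 ∧ Nat.card (Subgroup.center R) = 2 ∧ Cfsg.Geo.IsOfMinusType 2 R ∧ H = Cfsg.Geo.subgroupNormalizer R ⊓ Cfsg.spGL 2 F) ∨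
    Cfsg.Geo.InSymplecticResidualClass H := by
  rcases GeomClasses.SpCases.sp_cases (le_refl 2) hH with ⟨W, h0, hW, e⟩ | ⟨W, h0, hW, hd, hd2, e⟩ |
    ⟨t, k, D, hD, ht, hk, hev, htk, e⟩ | ⟨hq, D, hD, hts, e⟩ | ⟨r, K, hr, hrm, hK, hsa, halt, e⟩ | ⟨hq, K, hK, hcl, hnsa, e⟩ |
    ⟨hq, n₁, n₂, eq, P, f₁, f₂, h1, h3, hev, h12, -⟩ |
    ⟨F₀, r, P, ζ, hr, hc, hζ, hR, e⟩ | ⟨hq, -⟩ |
    ⟨R, p, k, hst, habs, hsim, hp, hpo, hpc, hcard, hz, hminus, hle⟩ |
    ⟨k, t, eq, P, f₁, -, -, ht, hk, -, hkt, -⟩ | hres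
  · exact Or.inl ⟨W, h0, hW, e⟩
  · omega
  · obtain ⟨s, rfl⟩ := hev
    have h2t : s + s ≤ 2 := by
      have := Nat.mul_le_mul_right (s + s) ht
      omega
    obtain rfl : s = 1 := by omega
    obtain rfl : t = 2 := by omega
    exact Or.inr (Or.inl ⟨D, hD, e⟩)
  · by_cases h3 : Fintype.card F = 3
    · obtain ⟨D', hD', e'⟩ := GeomClasses.SpCases.pair_three h3 hH hD hts (e.le.trans inf_le_left)
      exact Or.inr (Or.inl ⟨D', hD', e'⟩)
    · iterate 2 right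
      exact Or.inl ⟨GeomClasses.SpCases.five_le_of_odd hq h3, D, hD, hts, e⟩
  · obtain rfl : r = 2 := (Nat.prime_dvd_prime_iff_eq hr Nat.prime_two).mp hrm
    iterate 3 right
    exact Or.inl ⟨K, hK, hsa, halt, e⟩
  · by_cases h3 : Fintype.card F = 3
    · exact (GeomClasses.SpCases.unitary_three_false h3 hH hK hcl hnsa (e.le.trans inf_le_left)).elim
    · iterate 4 right
      exact Or.inl ⟨GeomClasses.SpCases.five_le_of_odd hq h3, K, hK, hcl, hnsa, e⟩
  · exfalso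
    have := Nat.mul_le_mul h1 h3
    omega
  · iterate 5 right
    exact Or.inl ⟨F₀, r, P, ζ, hr, hc, hζ, hR, e⟩
  · exact absurd hodd hq
  · have h := GeomClasses.SpCases.symp_degree (by norm_num) hst habs hcard hz
    obtain rfl : k = 2 := Nat.pow_right_injective le_rfl (show 2 ^ k = 2 ^ 2 by omega)
    iterate 6 right
    exact Or.inl ⟨p, R, hp, hpc, hst, habs, hsim, by rw [hcard]; norm_num, hz, hminus,
      GeomClasses.MaxList.eq_of_le hH hle (GeomClasses.SpCases.symp_type_not_full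
        (Or.inr ⟨rfl, GeomClasses.SpCases.three_le_of_ne_two fun h2 => absurd hodd (by rw [h2]; decide)⟩) hst hsim
        (by rw [hcard]; norm_num) hz)⟩
  · exfalso
    have h1 := Nat.pow_le_pow_left hk t
    have h2 := Nat.pow_le_pow_right (show 0 < 2 by norm_num) ht
    omega
  · iterate 7 right
    exact hres

end Cfsg.Agent.S5787
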