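import Cfsg.Statements.S5796
import Cfsg.Agent.GeomClasses.MaxList.U5Excl

set_option autoImplicit false
open Cfsg

namespace Cfsg.Agent.S5796

/-- Every maximal subgroup of SU_5(q) is of one of the listed geometric types or lies in the residual class. Let F be the field with q² elements (characteristic p), f the standard unitary form Σ u_i v_i^q on F^5, and H a maximal subgroup of SU_5(q) (inside GL_5(F)). Then H is the intersection with SU_5(q) of one of: the stabiliser of a non-zero totally isotropic subspace; the stabiliser of a non-degenerate 1-space or 2-space; the stabiliser of a decomposition into five mutually orthogonal non-degenerate 1-spaces; for q ≥ 3, the normaliser of an adjoint-closed degree-5 subfield of the matrix algebra; a subfield group of odd prime index whose F₀-structure carries f; for q odd, a subfield group of index 2 whose F₀-structure carries f; for q = p ≡ 4 mod 5 or q = p² with p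 ≡ 2, 3 mod 5, the normaliser of an absolutely irreducible 5-group of exponent 5, order 125 and centre of order 5 with all characteristic abelian subgroups cyclic inside the similarity group of f — or else H lies in the residual class of the unitary case. -/
theorem result {F : Type*} [Field F] [Fintype F] (q : ℕ) (hF : Fintype.card F = q ^ 2) (H : Subgroup (Matrix.GeneralLinearGroup (Fin 5) F)) (hH : Cfsg.Geo.IsMaximalIn (Cfsg.GU 5 F q ⊓ Cfsg.Geo.specialLinear (Fin 5) F) H) :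
    (∃ W : Submodule F (Fin 5 → F), W ≠ ⊥ ∧ Cfsg.Geo.IsTotallySingularFor (Cfsg.hermForm 5 F q) W ∧ H = Cfsg.Geo.subspaceStabilizer W ⊓ (Cfsg.GU 5 F q ⊓ Cfsg.Geo.specialLinear (Fin 5) F)) ∨
    (∃ W : Submodule F (Fin 5 → F), W ≠ ⊥ ∧ Cfsg.Geo.IsNondegenerateOn (Cfsg.hermForm 5 F q) W ∧ 2 * Module.finrank F W < 5 ∧ H = Cfsg.Geo.subspaceStabilizer W ⊓ (Cfsg.GU 5 F q ⊓ Cfsg.Geo.specialLinear (Fin 5) F)) ∨
    (∃ D : Fin 5 → Submodule F (Fin 5 → F), Cfsg.Geo.IsNondegenerateMDecomposition (Cfsg.hermForm 5 F q) 1 D ∧ H = Cfsg.Geo.decompositionStabilizer D ⊓ (Cfsg.GU 5 F q ⊓ Cfsg.Geo.specialLinear (Fin 5) F)) ∨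
    (3 ≤ q ∧ ∃ K : Subalgebra F (Matrix (Fin 5) (Fin 5) F), Cfsg.Geo.IsFieldSubalgebra 5 K ∧ Cfsg.Geo.IsAdjointClosedFor (Cfsg.hermForm 5 F q) K ∧ H = Cfsg.Geo.subalgebraNormalizer K ⊓ (Cfsg.GU 5 F q ⊓ Cfsg.Geo.specialLinear (Fin 5) F)) ∨
    (∃ (F₀ : Subfield F) (r : ℕ) (P : Matrix.GeneralLinearGroup (Fin 5) F), r.Prime ∧ Odd r ∧ Fintype.card F = Nat.card F₀ ^ r ∧ Cfsg.Geo.IsFormRationalStructure (Cfsg.hermForm 5 F q) F₀ 1 P ∧ H = Cfsg.Geo.subfieldSubgroup F₀ P ⊓ (Cfsg.GU 5 F q ⊓ Cfsg.Geo.specialLinear (Fin 5) F)) ∨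
    (Odd q ∧ ∃ (F₀ : Subfield F) (P : Matrix.GeneralLinearGroup (Fin 5) F), Fintype.card F = Nat.card F₀ ^ 2 ∧ Cfsg.Geo.IsFormRationalStructure (Cfsg.hermForm 5 F q) F₀ 1 P ∧ H = Cfsg.Geo.subfieldSubgroup F₀ P ⊓ (Cfsg.GU 5 F q ⊓ Cfsg.Geo.specialLinear (Fin 5) F)) ∨
    (∃ (p : ℕ) (R : Subgroup (Matrix.GeneralLinearGroup (Fin 5) F)), p.Prime ∧ CharP F p ∧ ((q = p ∧ p % 5 = 4) ∨ (q = p ^ 2 ∧ (p % 5 = 2 ∨ p % 5 = 3))) ∧ Cfsg.Geo.IsSymplecticTypeGroup 5 R ∧ Cfsg.Geo.ActsAbsolutelyIrreducibly (Cfsg.Geo.matrixSet R) ∧ R ≤ Cfsg.Geo.similarityGroup (Cfsg.hermForm 5 F q) ∧ Nat.card R = 125 ∧ Nat.card (Subgroup.center R) = 5 ∧ H = Cfsg.Geo.subgroupNormalizer R ⊓ (Cfsg.GU 5 F q ⊓ Cfsg.Geo.specialLinear (Fin 5) F)) ∨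
    Cfsg.Geo.InUnitaryResidualClass H := by
  have hn : 5 ≤ 5 := by norm_num
  have hq2 : 2 ≤ q := Cfsg.Agent.Forms.two_le_q hF
  rcases GeomClasses.MaxList.u_cases hF hn H hH with ⟨W, h0, hW, e⟩ | ⟨W, h0, hW, hd, e⟩ | ⟨t, m, D, hD, htm, e⟩ |
    ⟨k, D, hk, hD, hW, e⟩ | ⟨r, K, hr, hro, hrn, hK, hadj, e⟩ | ⟨n₁, n₂, eq, P, f₁, f₂, h1, h2, h12, hf₁, hf₂, hs, e⟩ |
    ⟨F₀, r, P, hr, hro, hc, hs, e⟩ | ⟨hev, F₀, P, ζ, hc, hζ, hζq, hs, hal, e⟩ | ⟨hq, F₀, P, hc, hs, e⟩ |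
    ⟨r, R, p, ee, k, hr, hp, hcp, hst, habs, hsim, hrp, hnk, hk, hm, he2, hcen, hcard, e⟩ |
    ⟨m, t, eq, P, f₁, hm, ht, hex, hmt, hf₁, hs, hle⟩ | hres
  ·
    exact Or.inl ⟨W, h0, hW, e⟩
  ·
    iterate 1 right
    exact Or.inl ⟨W, h0, hW, hd, e⟩
  · have ht := hD.decomp.two_le
    have hm0 := hD.decomp.pos
    have hm2 : 2 * m ≤ 5 := htm ▸ Nat.mul_le_mul_right m ht
    have hm3 : m ≤ 2 := by omega
    obtain ⟨rfl, rfl⟩ : (m = 1 ∧ t = 5) := by
      interval_cases m <;> omega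
    iterate 2 right
    exact Or.inl ⟨D, hD, e⟩
  · exfalso; omega
  · have := Nat.le_of_dvd (by norm_num) hrn
    obtain rfl : r = 5 := by
      interval_cases r <;> first | omega | (exfalso; revert hr; decide) | (exfalso; revert hro; decide)
    by_cases hq3 : 3 ≤ q
    ·
      iterate 3 right
      exact Or.inl ⟨hq3, K, hK, hadj, e⟩
    obtain rfl : q = 2 := by omega
    exact (GeomClasses.MaxList.u5_field_excl hF hH hK hadj (e.le.trans inf_le_left)).elim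
  · have hb : n₁ * 3 ≤ 5 := h12 ▸ Nat.mul_le_mul_left n₁ (by omega)
    have hb2 : n₁ ≤ 1 := by omega
    exfalso
    interval_cases n₁ <;> omega
  ·
    iterate 4 right
    exact Or.inl ⟨F₀, r, P, hr, hro, hc, hs, e⟩
  · exact absurd hev (by decide)
  ·
    iterate 5 right
    exact Or.inl ⟨hq, F₀, P, hc, hs, e⟩
  · have hlt : k < 5 := hnk ▸ Nat.lt_pow_self hr.one_lt
    have hrn : r ∣ 5 := hnk ▸ dvd_pow_self r (by omega)
    have := Nat.le_of_dvd (by norm_num) hrn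
    obtain rfl : r = 5 := by
      interval_cases r <;> first | omega | (exfalso; revert hr; decide)
    have hcen' : Nat.card (Subgroup.center R) = 5 := hcen.trans (by decide)
    have hcard' : Nat.card R = 125 := hcard.trans (by norm_num)
    rw [show 5 * Nat.gcd 2 5 = 5 from by decide] at hm
    have hnum := GeomClasses.MaxList.u_field_small hF hrp hm hr
    iterate 6 right
    exact Or.inl ⟨p, R, hp, hcp, hnum.2.1 rfl, hst, habs, hsim, hcard', hcen', e⟩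
  · exfalso
    have h9 : 3 ^ 2 ≤ m ^ t := le_trans (Nat.pow_le_pow_left hm 2) (Nat.pow_le_pow_right (by omega) ht)
    omega
  ·
    iterate 7 right
    exact hres

end Cfsg.Agent.S5796
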