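import Cfsg.Statements.S5805
import Cfsg.Agent.GeomClasses.SpCases.SympType
import Cfsg.Agent.GeomClasses.SpCases.Planes

set_option autoImplicit false
open Cfsg

namespace Cfsg.Agent.S5805

/-- Every maximal subgroup of Sp_6(q) is of one of the listed geometric types or lies in the residual class. Let F be a finite field with q elements, f the standard alternating form on F^6 (coordinates Fin 3 ⊕ Fin 3), and H a maximal subgroup of Sp_6(F) (inside GL_6(F)). Then H is the intersection with Sp_6(F) of one of: the stabiliser of a non-zero totally isotropic subspace; the stabiliser of a non-degenerate 2-space; for q ≥ 3, the stabiliser of a decomposition into three mutually orthogonal non-degenerate 2-spaces; for q odd, of a decomposition into two totally isotropic 3-spaces; the normaliser of a degree-3 subfield K of the matrix algebra, self-adjoint with f(k v, v) = 0; for q odd, the normaliser of a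 degree-2 subfield closed under adjoints but not self-adjoint; for q odd, q ≥ 5, the stabiliser of a tensor decomposition of f into an alternating form on F^2 and a symmetric form on F^3; a subfield group (|F| = |F₀|^r, r prime) whose F₀-structure carries a non-zero multiple of f; for q even, the similarity group of a non-degenerate quadratic form polarising to f — or else H lies in the residual class of the symplectic case. -/
theorem result {F : Type*} [Field F] [Fintype F] (H : Subgroup (Matrix.GeneralLinearGroup (Fin 3 ⊕ Fin 3) F)) (hH : Cfsg.Geo.IsMaximalIn (Cfsg.spGL 3 F) H) :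
    (∃ W : Submodule F (Fin 3 ⊕ Fin 3 → F), W ≠ ⊥ ∧ Cfsg.Geo.IsTotallySingularFor (Cfsg.sympForm 3 F) W ∧ H = Cfsg.Geo.subspaceStabilizer W ⊓ Cfsg.spGL 3 F) ∨
    (∃ W : Submodule F (Fin 3 ⊕ Fin 3 → F), W ≠ ⊥ ∧ Cfsg.Geo.IsNondegenerateOn (Cfsg.sympForm 3 F) W ∧ Module.finrank F W < 3 ∧ H = Cfsg.Geo.subspaceStabilizer W ⊓ Cfsg.spGL 3 F) ∨
    (3 ≤ Fintype.card F ∧ ∃ D : Fin 3 → Submodule F (Fin 3 ⊕ Fin 3 → F), Cfsg.Geo.IsNondegenerateMDecomposition (Cfsg.sympForm 3 F) 2 D ∧ H = Cfsg.Geo.decompositionStabilizer D ⊓ Cfsg.spGL 3 F) ∨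
    (Odd (Fintype.card F) ∧ ∃ D : Fin 2 → Submodule F (Fin 3 ⊕ Fin 3 → F), Cfsg.Geo.IsMDecomposition 3 D ∧ (∀ i, Cfsg.Geo.IsTotallySingularFor (Cfsg.sympForm 3 F) (D i)) ∧ H = Cfsg.Geo.decompositionStabilizer D ⊓ Cfsg.spGL 3 F) ∨
    (∃ K : Subalgebra F (Matrix (Fin 3 ⊕ Fin 3) (Fin 3 ⊕ Fin 3) F), Cfsg.Geo.IsFieldSubalgebra 3 K ∧ Cfsg.Geo.IsSelfAdjointFor (Cfsg.sympForm 3 F) K ∧ (∀ k ∈ K, ∀ v : (Fin 3 ⊕ Fin 3 → F), (Cfsg.sympForm 3 F) (Matrix.mulVec k v) v = 0) ∧ H = Cfsg.Geo.subalgebraNormalizer K ⊓ Cfsg.spGL 3 F) ∨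
    (Odd (Fintype.card F) ∧ ∃ K : Subalgebra F (Matrix (Fin 3 ⊕ Fin 3) (Fin 3 ⊕ Fin 3) F), Cfsg.Geo.IsFieldSubalgebra 2 K ∧ Cfsg.Geo.IsAdjointClosedFor (Cfsg.sympForm 3 F) K ∧ ¬ Cfsg.Geo.IsSelfAdjointFor (Cfsg.sympForm 3 F) K ∧ H = Cfsg.Geo.subalgebraNormalizer K ⊓ Cfsg.spGL 3 F) ∨
    (Odd (Fintype.card F) ∧ 5 ≤ Fintype.card F ∧ ∃ (e : (Fin 3 ⊕ Fin 3) ≃ Fin 2 × Fin 3) (P : Matrix.GeneralLinearGroup (Fin 3 ⊕ Fin 3) F) (f₁ : (Fin 2 → F) → (Fin 2 → F) → F) (f₂ : (Fin 3 → F) → (Fin 3 → F) → F), Cfsg.Geo.IsSymplecticForm f₁ ∧ Cfsg.Geo.IsSymmetricForm f₂ ∧ Cfsg.Geo.IsTensorFormStructure id (Cfsg.sympForm 3 F) f₁ f₂ e P ∧ H = Cfsg.Geo.tensorProductSubgroup 2 3 e P ⊓ Cfsg.spGL 3 F) ∨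
    (∃ (F₀ : Subfield F) (r : ℕ) (P : Matrix.GeneralLinearGroup (Fin 3 ⊕ Fin 3) F) (ζ : F), r.Prime ∧ Fintype.card F = Nat.card F₀ ^ r ∧ ζ ≠ 0 ∧ Cfsg.Geo.IsFormRationalStructure (Cfsg.sympForm 3 F) F₀ ζ P ∧ H = Cfsg.Geo.subfieldSubgroup F₀ P ⊓ Cfsg.spGL 3 F) ∨
    (¬ Odd (Fintype.card F) ∧ ∃ Q : (Fin 3 ⊕ Fin 3 → F) → F, Cfsg.Geo.IsNondegenerateQuadraticForm Q ∧ (∀ u v : (Fin 3 ⊕ Fin 3 → F), QuadraticMap.polar Q u v = (Cfsg.sympForm 3 F) u v) ∧ H = Cfsg.Geo.quadSimilarityGroup Q ⊓ Cfsg.spGL 3 F) ∨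
    Cfsg.Geo.InSymplecticResidualClass H := by
  rcases GeomClasses.SpCases.sp_cases (by norm_num : 2 ≤ 3) hH with ⟨W, h0, hW, e⟩ | ⟨W, h0, hW, hd, hd2, e⟩ |
    ⟨t, k, D, hD, ht, hk, hev, htk, e⟩ | ⟨hq, D, hD, hts, e⟩ | ⟨r, K, hr, hrm, hK, hsa, halt, e⟩ | ⟨hq, K, hK, hcl, hnsa, e⟩ |
    ⟨hq, n₁, n₂, eq, P, f₁, f₂, h1, h3, hev, h12, hf₁, hf₂, hT, e⟩ |
    ⟨F₀, r, P, ζ, hr, hc, hζ, hR, e⟩ | ⟨hq, Q, hQ, hpol, e⟩ | ⟨R, p, k, hst, habs, -, -, -, -, hcard, hz, -, -⟩ |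
    ⟨k, t, eq, P, f₁, -, -, ht, hk, -, hkt, -⟩ | hres
  · exact Or.inl ⟨W, h0, hW, e⟩
  · exact Or.inr (Or.inl ⟨W, h0, hW, hd, e⟩)
  · obtain ⟨s, rfl⟩ := hev
    have hs : s ≤ 1 := by
      have := Nat.mul_le_mul_right (s + s) ht
      omega
    obtain ⟨rfl, rfl⟩ : s = 1 ∧ t = 3 := by
      interval_cases s <;> omega
    by_cases h2 : Fintype.card F = 2
    · obtain ⟨Q, hQ, hpol, e'⟩ := GeomClasses.SpCases.planes_two_quad (by norm_num : 2 ≤ 3) h2 hH hD (e.le.trans inf_le_left)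
      iterate 8 right
      exact Or.inl ⟨by rw [h2]; decide, Q, hQ, hpol, e'⟩
    · iterate 2 right
      exact Or.inl ⟨GeomClasses.SpCases.three_le_of_ne_two h2, D, hD, e⟩
  ·
    iterate 3 right
    exact Or.inl ⟨hq, D, hD, hts, e⟩
  · obtain rfl : r = 3 := (Nat.prime_dvd_prime_iff_eq hr (by norm_num)).mp hrm
    iterate 4 right
    exact Or.inl ⟨K, hK, hsa, halt, e⟩
  ·
    iterate 5 right
    exact Or.inl ⟨hq, K, hK, hcl, hnsa, e⟩
  · obtain ⟨s, rfl⟩ := hev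
    have hb : (s + s) * 3 ≤ 6 := by
      have := Nat.mul_le_mul_left (s + s) h3
      omega
    obtain rfl : s = 1 := by omega
    obtain rfl : n₂ = 3 := by omega
    by_cases h3' : Fintype.card F = 3
    · exact (GeomClasses.SpCases.tensor_three_false h3' hH (by norm_num) hf₁ hf₂ hT (e.le.trans inf_le_left)).elim
    iterate 6 right
    exact Or.inl ⟨hq, GeomClasses.SpCases.five_le_of_odd hq h3', eq, P, f₁, f₂, hf₁, hf₂, hT, e⟩
  ·
    iterate 7 right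
    exact Or.inl ⟨F₀, r, P, ζ, hr, hc, hζ, hR, e⟩
  ·
    iterate 8 right
    exact Or.inl ⟨hq, Q, hQ, hpol, e⟩
  · exfalso
    have h := GeomClasses.SpCases.symp_degree (by norm_num) hst habs hcard hz
    have hk : k ≤ 4 := by
      by_contra hk
      have := Nat.pow_le_pow_right (show 0 < 2 by norm_num) (show 5 ≤ k by omega)
      omega
    interval_cases k <;> omega
  · exfalso
    have h1 := Nat.pow_le_pow_left hk t
    have h2 := Nat.pow_le_pow_right (show 0 < 2 by norm_num) ht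
    have hk4 : k ≤ 6 := by
      have := Nat.le_self_pow (show t ≠ 0 by omega) k
      omega
    have ht4 : t ≤ 3 := by
      by_contra h4
      have := Nat.pow_le_pow_right (show 0 < 2 by norm_num) (show 4 ≤ t by omega)
      omega
    obtain rfl : t = 3 := by omega
    have h27 : k ≤ 2 := by
      by_contra h4
      have := Nat.pow_le_pow_left (show 3 ≤ k by omega) 3
      omega
    obtain rfl : k = 2 := by omega
    omega
  ·
    iterate 9 right
    exact hres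

end Cfsg.Agent.S5805
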