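import Cfsg.Statements.S5808
import Cfsg.Agent.GeomClasses.MaxList.Exclusions

set_option autoImplicit false
open Cfsg

namespace Cfsg.Agent.S5808

/-- Every maximal subgroup of SL_7(q) is of one of the listed geometric types or lies in the residual class. Let F be a finite field with q elements (p its characteristic) and H a maximal subgroup of SL_7(F) (inside GL_7(F)). Then H is the intersection with SL_7(F) of one of: the stabiliser of a proper non-zero subspace; for q ≥ 5, the stabiliser of a decomposition into 7 independent 1-spaces; the normaliser of a degree-7 subfield of the matrix algebra; a subfield group for a subfield F₀ with |F| = |F₀|^r, r prime; for q = p prime with p ≡ 1 mod 7, or q = p³ with p ≡ 2 or 4 mod 7, the normaliser of an absolutely irreducible 7-subgroup R of exponent 7 and order 7^(1+2m) with centre of order 7, all of whose characteristic abelian subgroups are cyclic, F being the smallest field of characteristic p containing the seventh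 roots of unity (here R is extraspecial of order 343); for q odd, the similarity group of a non-degenerate quadratic form; the similarity group of a non-degenerate unitary form — or else H lies in the residual class of the linear case (modulo scalars H is almost simple, with absolutely irreducible perfect socle preimage realisable over no proper subfield and fixing no non-degenerate quadratic, symplectic or unitary form). -/
theorem result {F : Type*} [Field F] [Fintype F] (H : Subgroup (Matrix.GeneralLinearGroup (Fin 7) F)) (hH : Cfsg.Geo.IsMaximalIn (Cfsg.Geo.specialLinear (Fin 7) F) H) :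
    (∃ W : Submodule F (Fin 7 → F), W ≠ ⊥ ∧ W ≠ ⊤ ∧ H = Cfsg.Geo.subspaceStabilizer W ⊓ Cfsg.Geo.specialLinear (Fin 7) F) ∨
    (5 ≤ Fintype.card F ∧ ∃ D : Fin 7 → Submodule F (Fin 7 → F), Cfsg.Geo.IsMDecomposition 1 D ∧ H = Cfsg.Geo.decompositionStabilizer D ⊓ Cfsg.Geo.specialLinear (Fin 7) F) ∨
    (∃ K : Subalgebra F (Matrix (Fin 7) (Fin 7) F), Cfsg.Geo.IsFieldSubalgebra 7 K ∧ H = Cfsg.Geo.subalgebraNormalizer K ⊓ Cfsg.Geo.specialLinear (Fin 7) F) ∨
    (∃ (F₀ : Subfield F) (r : ℕ) (P : Matrix.GeneralLinearGroup (Fin 7) F), r.Prime ∧ Fintype.card F = Nat.card F₀ ^ r ∧ H = Cfsg.Geo.subfieldSubgroup F₀ P ⊓ Cfsg.Geo.specialLinear (Fin 7) F) ∨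
    ((∃ p : ℕ, p.Prime ∧ CharP F p ∧ ((Fintype.card F = p ∧ p % 7 = 1) ∨ (Fintype.card F = p ^ 3 ∧ (p % 7 = 2 ∨ p % 7 = 4)))) ∧ ∃ R : Subgroup (Matrix.GeneralLinearGroup (Fin 7) F), Cfsg.Geo.IsLinearSymplecticTypeData 7 R ∧ H = Cfsg.Geo.subgroupNormalizer R ⊓ Cfsg.Geo.specialLinear (Fin 7) F) ∨
    (Odd (Fintype.card F) ∧ ∃ Q : (Fin 7 → F) → F, Cfsg.Geo.IsNondegenerateQuadraticForm Q ∧ H = Cfsg.Geo.quadSimilarityGroup Q ⊓ Cfsg.Geo.specialLinear (Fin 7) F) ∨
    (∃ (σ : F ≃+* F) (f : (Fin 7 → F) → (Fin 7 → F) → F), Cfsg.Geo.IsUnitaryForm σ f ∧ H = Cfsg.Geo.similarityGroup f ⊓ Cfsg.Geo.specialLinear (Fin 7) F) ∨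
    Cfsg.Geo.InLinearResidualClass H := by
  have hn : 3 ≤ 7 := by norm_num
  rcases GeomClasses.MaxList.sl_cases hn H hH with ⟨W, h0, h1, e⟩ | ⟨t, m, D, hD, htm, e⟩ | ⟨r, K, hr, hrn, hK, e⟩ |
    ⟨n₁, n₂, eq, P, h1, h2, h12, e⟩ | ⟨F₀, r, P, hr, hc, e⟩ | ⟨r, R, hR, hr, ⟨m, hm, hnm⟩, e⟩ |
    ⟨m, t, eq, P, hm, ht, hmt, hle⟩ | ⟨hev, f, hf, e⟩ | ⟨σ, f, hf, e⟩ | ⟨hq, Q, hQ, e⟩ | hres
  ·
    exact Or.inl ⟨W, h0, h1, e⟩
  · have ht := hD.two_le
    have hm0 := hD.pos
    have hm2 : 2 * m ≤ 7 := htm ▸ Nat.mul_le_mul_right m ht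
    have hm3 : m ≤ 3 := by omega
    obtain ⟨rfl, rfl⟩ : (m = 1 ∧ t = 7) := by
      interval_cases m <;> omega
    by_cases hq : 5 ≤ Fintype.card F
    ·
      iterate 1 right
      exact Or.inl ⟨hq, D, hD, e⟩
    rcases GeomClasses.MaxList.monomial_small hn (by omega) hH hD (e.le.trans inf_le_left) with ⟨W, h0, h1, e⟩ | ⟨σ, f, hf, e⟩ | ⟨hq, Q, hQ, e⟩
    ·
      exact Or.inl ⟨W, h0, h1, e⟩
    ·
      iterate 6 right
      exact Or.inl ⟨σ, f, hf, e⟩
    ·
      iterate 5 right
      exact Or.inl ⟨hq, Q, hQ, e⟩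
  · have := Nat.le_of_dvd (by norm_num) hrn
    obtain rfl : r = 7 := by
      interval_cases r <;> first | omega | (exfalso; revert hr; decide)
    iterate 2 right
    exact Or.inl ⟨K, hK, e⟩
  · have hb : n₁ * 3 ≤ 7 := h12 ▸ Nat.mul_le_mul_left n₁ (by omega)
    have hb2 : n₁ ≤ 2 := by omega
    exfalso
    interval_cases n₁ <;> omega
  ·
    iterate 3 right
    exact Or.inl ⟨F₀, r, P, hr, hc, e⟩
  · have hlt : m < 7 := hnm ▸ Nat.lt_pow_self hr.one_lt
    have hrn : r ∣ 7 := hnm ▸ dvd_pow_self r (by omega)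
    have := Nat.le_of_dvd (by norm_num) hrn
    obtain rfl : r = 7 := by
      interval_cases r <;> first | omega | (exfalso; revert hr; decide)
    have hp := GeomClasses.MaxList.symp_field_seven hn hR
    iterate 4 right
    exact Or.inl ⟨hp, R, hR, e⟩
  · exfalso
    have h9 : 3 ^ 2 ≤ m ^ t := le_trans (Nat.pow_le_pow_left hm 2) (Nat.pow_le_pow_right (by omega) ht)
    omega
  · exact absurd hev (by decide)
  ·
    iterate 6 right
    exact Or.inl ⟨σ, f, hf, e⟩
  ·
    iterate 5 right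
    exact Or.inl ⟨hq, Q, hQ, e⟩
  ·
    iterate 7 right
    exact hres

end Cfsg.Agent.S5808
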