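import Cfsg.Statements.S5832
import Cfsg.Agent.GeomClasses.MaxList.UExcl

set_option autoImplicit false
open Cfsg

namespace Cfsg.Agent.S5832

/-- Every maximal subgroup of SU_9(q) is of one of the listed geometric types or lies in the residual class. Let F be the field with q² elements, f the standard unitary form Σ u_i v_i^q on F^9, and H a maximal subgroup of SU_9(q) (inside GL_9(F)). Then H is the intersection with SU_9(q) of one of: the stabiliser of a non-zero totally isotropic subspace; the stabiliser of a non-degenerate 1-, 2-, 3- or 4-space; the stabiliser of a decomposition into nine mutually orthogonal non-degenerate 1-spaces; of a decomposition into three mutually orthogonal non-degenerate 3-spaces; the normaliser of an adjoint-closed degree-3 subfield of the matrix algebra; a subfield group of odd prime index whose F₀-structure carries f; for q odd, a subfield group of index 2 whose F₀-structure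 carries f; for q = p ≡ 2 mod 3 prime, the normaliser of an absolutely irreducible extraspecial group 3_+^(1+4) of exponent 3 inside the similarity group of f; for q ≥ 3, the stabiliser of a tensor decomposition of f as a tensor square of a unitary form on F^3 — or else H lies in the residual class of the unitary case. -/
theorem result {F : Type*} [Field F] [Fintype F] (q : ℕ) (hF : Fintype.card F = q ^ 2) (H : Subgroup (Matrix.GeneralLinearGroup (Fin 9) F)) (hH : Cfsg.Geo.IsMaximalIn (Cfsg.GU 9 F q ⊓ Cfsg.Geo.specialLinear (Fin 9) F) H) :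
    (∃ W : Submodule F (Fin 9 → F), W ≠ ⊥ ∧ Cfsg.Geo.IsTotallySingularFor (Cfsg.hermForm 9 F q) W ∧ H = Cfsg.Geo.subspaceStabilizer W ⊓ (Cfsg.GU 9 F q ⊓ Cfsg.Geo.specialLinear (Fin 9) F)) ∨
    (∃ W : Submodule F (Fin 9 → F), W ≠ ⊥ ∧ Cfsg.Geo.IsNondegenerateOn (Cfsg.hermForm 9 F q) W ∧ 2 * Module.finrank F W < 9 ∧ H = Cfsg.Geo.subspaceStabilizer W ⊓ (Cfsg.GU 9 F q ⊓ Cfsg.Geo.specialLinear (Fin 9) F)) ∨
    (∃ D : Fin 9 → Submodule F (Fin 9 → F), Cfsg.Geo.IsNondegenerateMDecomposition (Cfsg.hermForm 9 F q) 1 D ∧ H = Cfsg.Geo.decompositionStabilizer D ⊓ (Cfsg.GU 9 F q ⊓ Cfsg.Geo.specialLinear (Fin 9) F)) ∨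
    (∃ D : Fin 3 → Submodule F (Fin 9 → F), Cfsg.Geo.IsNondegenerateMDecomposition (Cfsg.hermForm 9 F q) 3 D ∧ H = Cfsg.Geo.decompositionStabilizer D ⊓ (Cfsg.GU 9 F q ⊓ Cfsg.Geo.specialLinear (Fin 9) F)) ∨
    (∃ K : Subalgebra F (Matrix (Fin 9) (Fin 9) F), Cfsg.Geo.IsFieldSubalgebra 3 K ∧ Cfsg.Geo.IsAdjointClosedFor (Cfsg.hermForm 9 F q) K ∧ H = Cfsg.Geo.subalgebraNormalizer K ⊓ (Cfsg.GU 9 F q ⊓ Cfsg.Geo.specialLinear (Fin 9) F)) ∨
    (∃ (F₀ : Subfield F) (r : ℕ) (P : Matrix.GeneralLinearGroup (Fin 9) F), r.Prime ∧ Odd r ∧ Fintype.card F = Nat.card F₀ ^ r ∧ Cfsg.Geo.IsFormRationalStructure (Cfsg.hermForm 9 F q) F₀ 1 P ∧ H = Cfsg.Geo.subfieldSubgroup F₀ P ⊓ (Cfsg.GU 9 F q ⊓ Cfsg.Geo.specialLinear (Fin 9) F)) ∨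
    (Odd q ∧ ∃ (F₀ : Subfield F) (P : Matrix.GeneralLinearGroup (Fin 9) F), Fintype.card F = Nat.card F₀ ^ 2 ∧ Cfsg.Geo.IsFormRationalStructure (Cfsg.hermForm 9 F q) F₀ 1 P ∧ H = Cfsg.Geo.subfieldSubgroup F₀ P ⊓ (Cfsg.GU 9 F q ⊓ Cfsg.Geo.specialLinear (Fin 9) F)) ∨
    (∃ (p : ℕ) (R : Subgroup (Matrix.GeneralLinearGroup (Fin 9) F)), p.Prime ∧ q = p ∧ p % 3 = 2 ∧ Cfsg.Geo.IsSymplecticTypeGroup 3 R ∧ Cfsg.Geo.ActsAbsolutelyIrreducibly (Cfsg.Geo.matrixSet R) ∧ R ≤ Cfsg.Geo.similarityGroup (Cfsg.hermForm 9 F q) ∧ Nat.card R = 243 ∧ Nat.card (Subgroup.center R) = 3 ∧ H = Cfsg.Geo.subgroupNormalizer R ⊓ (Cfsg.GU 9 F q ⊓ Cfsg.Geo.specialLinear (Fin 9) F)) ∨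
    (3 ≤ q ∧ ∃ (e : Fin 9 ≃ (Fin 2 → Fin 3)) (P : Matrix.GeneralLinearGroup (Fin 9) F) (f₁ : (Fin 3 → F) → (Fin 3 → F) → F), Cfsg.Geo.IsUnitaryFormPow q f₁ ∧ Cfsg.Geo.IsTensorPowerFormStructure (fun x : F => x ^ q) (Cfsg.hermForm 9 F q) f₁ e P ∧ H = Cfsg.Geo.tensorWreathSubgroup 3 2 e P ⊓ (Cfsg.GU 9 F q ⊓ Cfsg.Geo.specialLinear (Fin 9) F)) ∨
    Cfsg.Geo.InUnitaryResidualClass H := by
  have hn : 5 ≤ 9 := by norm_num
  have hq2 : 2 ≤ q := Cfsg.Agent.Forms.two_le_q hF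
  rcases GeomClasses.MaxList.u_cases hF hn H hH with ⟨W, h0, hW, e⟩ | ⟨W, h0, hW, hd, e⟩ | ⟨t, m, D, hD, htm, e⟩ |
    ⟨k, D, hk, hD, hW, e⟩ | ⟨r, K, hr, hro, hrn, hK, hadj, e⟩ | ⟨n₁, n₂, eq, P, f₁, f₂, h1, h2, h12, hf₁, hf₂, hs, e⟩ |
    ⟨F₀, r, P, hr, hro, hc, hs, e⟩ | ⟨hev, F₀, P, ζ, hc, hζ, hζq, hs, hal, e⟩ | ⟨hq, F₀, P, hc, hs, e⟩ |
    ⟨r, R, p, ee, k, hr, hp, hcp, hst, habs, hsim, hrp, hnk, hk, hm, he2, hcen, hcard, e⟩ |
    ⟨m, t, eq, P, f₁, hm, ht, hex, hmt, hf₁, hs, hle⟩ | hres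
  ·
    exact Or.inl ⟨W, h0, hW, e⟩
  ·
    iterate 1 right
    exact Or.inl ⟨W, h0, hW, hd, e⟩
  · have ht := hD.decomp.two_le
    have hm0 := hD.decomp.pos
    have hm2 : 2 * m ≤ 9 := htm ▸ Nat.mul_le_mul_right m ht
    have hm3 : m ≤ 4 := by omega
    obtain ⟨rfl, rfl⟩ | ⟨rfl, rfl⟩ : (m = 1 ∧ t = 9) ∨ (m = 3 ∧ t = 3) := by
      interval_cases m <;> omega
    ·
      iterate 2 right
      exact Or.inl ⟨D, hD, e⟩
    ·
      iterate 3 right
      exact Or.inl ⟨D, hD, e⟩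
  · exfalso; omega
  · have := Nat.le_of_dvd (by norm_num) hrn
    obtain rfl : r = 3 := by
      interval_cases r <;> first | omega | (exfalso; revert hr; decide) | (exfalso; revert hro; decide)
    iterate 4 right
    exact Or.inl ⟨K, hK, hadj, e⟩
  · have hb : n₁ * 3 ≤ 9 := h12 ▸ Nat.mul_le_mul_left n₁ (by omega)
    have hb2 : n₁ ≤ 3 := by omega
    exfalso
    interval_cases n₁ <;> omega
  ·
    iterate 5 right
    exact Or.inl ⟨F₀, r, P, hr, hro, hc, hs, e⟩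
  · exact absurd hev (by decide)
  ·
    iterate 6 right
    exact Or.inl ⟨hq, F₀, P, hc, hs, e⟩
  · have hlt : k < 9 := hnk ▸ Nat.lt_pow_self hr.one_lt
    have hrn : r ∣ 9 := hnk ▸ dvd_pow_self r (by omega)
    have := Nat.le_of_dvd (by norm_num) hrn
    obtain rfl : r = 3 := by
      interval_cases r <;> first | omega | (exfalso; revert hr; decide)
    have hcen' : Nat.card (Subgroup.center R) = 3 := hcen.trans (by decide)
    have hcard' : Nat.card R = 243 := hcard.trans (by norm_num)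
    rw [show 3 * Nat.gcd 2 3 = 3 from by decide] at hm
    have hnum := GeomClasses.MaxList.u_field_small hF hrp hm hr
    obtain ⟨hqp, hp3⟩ := hnum.1 rfl
    iterate 7 right
    exact Or.inl ⟨p, R, hp, hqp, hp3, hst, habs, hsim, hcard', hcen', e⟩
  · have hm2 : m * m ≤ 9 := hmt ▸ (pow_two m ▸ Nat.pow_le_pow_right (by omega) ht)
    obtain rfl : m = 3 := by nlinarith
    obtain rfl : t = 2 := Nat.pow_right_injective (le_of_lt hm) hmt
    have hq3 : 3 ≤ q := by omega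
    iterate 8 right
    exact Or.inl ⟨hq3, eq, P, f₁, hf₁, hs, GeomClasses.MaxList.eq_of_le hH hle (GeomClasses.MaxList.u_wreath_proper hF hm (by norm_num) eq P)⟩
  ·
    iterate 9 right
    exact hres

end Cfsg.Agent.S5832
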