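import Cfsg.Statements.S5841
import Cfsg.Agent.GeomClasses.MaxList.UExcl

set_option autoImplicit false
open Cfsg

namespace Cfsg.Agent.S5841

/-- Every maximal subgroup of SU_10(q) is of one of the listed geometric types or lies in the residual class. Let F be the field with q² elements (characteristic p), f the standard unitary form Σ u_i v_i^q on F^10, and H a maximal subgroup of SU_10(q) (inside GL_10(F)). Then H is the intersection with SU_10(q) of one of: the stabiliser of a non-zero totally isotropic subspace; the stabiliser of a non-zero non-degenerate subspace W with 2 dim W < 10; the stabiliser of a decomposition into 10 mutually orthogonal non-degenerate 1-spaces; for q ≥ 3, the stabiliser of a decomposition into 5 mutually orthogonal non-degenerate 2-spaces; the stabiliser of a decomposition into 2 mutually orthogonal non-degenerate 5-spaces; of a decomposition into two totally isotropic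 5-spaces; the normaliser of an adjoint-closed degree-5 subfield of the matrix algebra; for q ≥ 3, the stabiliser of a tensor decomposition of f into unitary forms on F^2 and F^5; a subfield group of odd prime index whose F₀-structure carries f; a subfield group of index 2 and symplectic type; for q odd, a subfield group of index 2 whose F₀-structure carries f — or else H lies in the residual class of the unitary case (modulo scalars H is almost simple, with absolutely irreducible perfect socle preimage realisable over no proper subfield and fixing no non-degenerate quadratic or symplectic form). -/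
theorem result {F : Type*} [Field F] [Fintype F] (q : ℕ) (hF : Fintype.card F = q ^ 2) (H : Subgroup (Matrix.GeneralLinearGroup (Fin 10) F)) (hH : Cfsg.Geo.IsMaximalIn (Cfsg.GU 10 F q ⊓ Cfsg.Geo.specialLinear (Fin 10) F) H) :
    (∃ W : Submodule F (Fin 10 → F), W ≠ ⊥ ∧ Cfsg.Geo.IsTotallySingularFor (Cfsg.hermForm 10 F q) W ∧ H = Cfsg.Geo.subspaceStabilizer W ⊓ (Cfsg.GU 10 F q ⊓ Cfsg.Geo.specialLinear (Fin 10) F)) ∨
    (∃ W : Submodule F (Fin 10 → F), W ≠ ⊥ ∧ Cfsg.Geo.IsNondegenerateOn (Cfsg.hermForm 10 F q) W ∧ 2 * Module.finrank F W < 10 ∧ H = Cfsg.Geo.subspaceStabilizer W ⊓ (Cfsg.GU 10 F q ⊓ Cfsg.Geo.specialLinear (Fin 10) F)) ∨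
    (∃ D : Fin 10 → Submodule F (Fin 10 → F), Cfsg.Geo.IsNondegenerateMDecomposition (Cfsg.hermForm 10 F q) 1 D ∧ H = Cfsg.Geo.decompositionStabilizer D ⊓ (Cfsg.GU 10 F q ⊓ Cfsg.Geo.specialLinear (Fin 10) F)) ∨
    (3 ≤ q ∧ ∃ D : Fin 5 → Submodule F (Fin 10 → F), Cfsg.Geo.IsNondegenerateMDecomposition (Cfsg.hermForm 10 F q) 2 D ∧ H = Cfsg.Geo.decompositionStabilizer D ⊓ (Cfsg.GU 10 F q ⊓ Cfsg.Geo.specialLinear (Fin 10) F)) ∨
    (∃ D : Fin 2 → Submodule F (Fin 10 → F), Cfsg.Geo.IsNondegenerateMDecomposition (Cfsg.hermForm 10 F q) 5 D ∧ H = Cfsg.Geo.decompositionStabilizer D ⊓ (Cfsg.GU 10 F q ⊓ Cfsg.Geo.specialLinear (Fin 10) F)) ∨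
    (∃ D : Fin 2 → Submodule F (Fin 10 → F), Cfsg.Geo.IsMDecomposition 5 D ∧ (∀ i, Cfsg.Geo.IsTotallySingularFor (Cfsg.hermForm 10 F q) (D i)) ∧ H = Cfsg.Geo.decompositionStabilizer D ⊓ (Cfsg.GU 10 F q ⊓ Cfsg.Geo.specialLinear (Fin 10) F)) ∨
    (∃ K : Subalgebra F (Matrix (Fin 10) (Fin 10) F), Cfsg.Geo.IsFieldSubalgebra 5 K ∧ Cfsg.Geo.IsAdjointClosedFor (Cfsg.hermForm 10 F q) K ∧ H = Cfsg.Geo.subalgebraNormalizer K ⊓ (Cfsg.GU 10 F q ⊓ Cfsg.Geo.specialLinear (Fin 10) F)) ∨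
    (3 ≤ q ∧ ∃ (e : Fin 10 ≃ Fin 2 × Fin 5) (P : Matrix.GeneralLinearGroup (Fin 10) F) (f₁ : (Fin 2 → F) → (Fin 2 → F) → F) (f₂ : (Fin 5 → F) → (Fin 5 → F) → F), Cfsg.Geo.IsUnitaryFormPow q f₁ ∧ Cfsg.Geo.IsUnitaryFormPow q f₂ ∧ Cfsg.Geo.IsTensorFormStructure (fun x : F => x ^ q) (Cfsg.hermForm 10 F q) f₁ f₂ e P ∧ H = Cfsg.Geo.tensorProductSubgroup 2 5 e P ⊓ (Cfsg.GU 10 F q ⊓ Cfsg.Geo.specialLinear (Fin 10) F)) ∨
    (∃ (F₀ : Subfield F) (r : ℕ) (P : Matrix.GeneralLinearGroup (Fin 10) F), r.Prime ∧ Odd r ∧ Fintype.card F = Nat.card F₀ ^ r ∧ Cfsg.Geo.IsFormRationalStructure (Cfsg.hermForm 10 F q) F₀ 1 P ∧ H = Cfsg.Geo.subfieldSubgroup F₀ P ⊓ (Cfsg.GU 10 F q ⊓ Cfsg.Geo.specialLinear (Fin 10) F)) ∨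
    (∃ (F₀ : Subfield F) (P : Matrix.GeneralLinearGroup (Fin 10) F) (ζ : F), Fintype.card F = Nat.card F₀ ^ 2 ∧ ζ ≠ 0 ∧ ζ + ζ ^ q = 0 ∧ Cfsg.Geo.IsFormRationalStructure (Cfsg.hermForm 10 F q) F₀ ζ P ∧ (∀ u : Fin 10 → F, (∀ i, u i ∈ F₀) → (Cfsg.hermForm 10 F q) (Matrix.mulVec (P : Matrix (Fin 10) (Fin 10) F) u) (Matrix.mulVec (P : Matrix (Fin 10) (Fin 10) F) u) = 0) ∧ H = Cfsg.Geo.subfieldSubgroup F₀ P ⊓ (Cfsg.GU 10 F q ⊓ Cfsg.Geo.specialLinear (Fin 10) F)) ∨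
    (Odd q ∧ ∃ (F₀ : Subfield F) (P : Matrix.GeneralLinearGroup (Fin 10) F), Fintype.card F = Nat.card F₀ ^ 2 ∧ Cfsg.Geo.IsFormRationalStructure (Cfsg.hermForm 10 F q) F₀ 1 P ∧ H = Cfsg.Geo.subfieldSubgroup F₀ P ⊓ (Cfsg.GU 10 F q ⊓ Cfsg.Geo.specialLinear (Fin 10) F)) ∨
    Cfsg.Geo.InUnitaryResidualClass H := by
  have hn : 5 ≤ 10 := by norm_num
  have hq2 : 2 ≤ q := Cfsg.Agent.Forms.two_le_q hF
  rcases GeomClasses.MaxList.u_cases hF hn H hH with ⟨W, h0, hW, e⟩ | ⟨W, h0, hW, hd, e⟩ | ⟨t, m, D, hD, htm, e⟩ |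
    ⟨k, D, hk, hD, hW, e⟩ | ⟨r, K, hr, hro, hrn, hK, hadj, e⟩ | ⟨n₁, n₂, eq, P, f₁, f₂, h1, h2, h12, hf₁, hf₂, hs, e⟩ |
    ⟨F₀, r, P, hr, hro, hc, hs, e⟩ | ⟨hev, F₀, P, ζ, hc, hζ, hζq, hs, hal, e⟩ | ⟨hq, F₀, P, hc, hs, e⟩ |
    ⟨r, R, p, ee, k, hr, hp, hcp, hst, habs, hsim, hrp, hnk, hk, hm, he2, hcen, hcard, e⟩ |
    ⟨m, t, eq, P, f₁, hm, ht, hex, hmt, hf₁, hs, hle⟩ | hres
  ·
    exact Or.inl ⟨W, h0, hW, e⟩
  ·
    iterate 1 right
    exact Or.inl ⟨W, h0, hW, hd, e⟩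
  · have ht := hD.decomp.two_le
    have hm0 := hD.decomp.pos
    have hm2 : 2 * m ≤ 10 := htm ▸ Nat.mul_le_mul_right m ht
    have hm3 : m ≤ 5 := by omega
    obtain ⟨rfl, rfl⟩ | ⟨rfl, rfl⟩ | ⟨rfl, rfl⟩ : (m = 1 ∧ t = 10) ∨ (m = 2 ∧ t = 5) ∨ (m = 5 ∧ t = 2) := by
      interval_cases m <;> omega
    ·
      iterate 2 right
      exact Or.inl ⟨D, hD, e⟩
    ·
      by_cases hq : 3 ≤ q
      ·
        iterate 3 right
        exact Or.inl ⟨hq, D, hD, e⟩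
      obtain ⟨D, hD, e⟩ := GeomClasses.MaxList.u_planes_two hF (by omega) (by norm_num) hH hD (e.le.trans inf_le_left)
      iterate 2 right
      exact Or.inl ⟨D, hD, e⟩
    ·
      iterate 4 right
      exact Or.inl ⟨D, hD, e⟩
  ·
    obtain rfl : k = 5 := by omega
    iterate 5 right
    exact Or.inl ⟨D, hD, hW, e⟩
  · have := Nat.le_of_dvd (by norm_num) hrn
    obtain rfl : r = 5 := by
      interval_cases r <;> first | omega | (exfalso; revert hr; decide) | (exfalso; revert hro; decide)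
    iterate 6 right
    exact Or.inl ⟨K, hK, hadj, e⟩
  · have hb : n₁ * 3 ≤ 10 := h12 ▸ Nat.mul_le_mul_left n₁ (by omega)
    have hb2 : n₁ ≤ 3 := by omega
    obtain ⟨rfl, rfl⟩ : (n₁ = 2 ∧ n₂ = 5) := by
      interval_cases n₁ <;> omega
    by_cases hq : 3 ≤ q
    ·
      iterate 7 right
      exact Or.inl ⟨hq, eq, P, f₁, f₂, hf₁, hf₂, hs, e⟩
    obtain ⟨D, hD, e⟩ := GeomClasses.MaxList.u_tensor_two hF (by omega) (by norm_num) hH (by norm_num) eq P f₁ f₂ hf₁ hf₂ hs (e.le.trans inf_le_left)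
    iterate 4 right
    exact Or.inl ⟨D, hD, e⟩
  ·
    iterate 8 right
    exact Or.inl ⟨F₀, r, P, hr, hro, hc, hs, e⟩
  ·
    iterate 9 right
    exact Or.inl ⟨F₀, P, ζ, hc, hζ, hζq, hs, hal, e⟩
  ·
    iterate 10 right
    exact Or.inl ⟨hq, F₀, P, hc, hs, e⟩
  · have hlt : k < 10 := hnk ▸ Nat.lt_pow_self hr.one_lt
    have hrn : r ∣ 10 := hnk ▸ dvd_pow_self r (by omega)
    have := Nat.le_of_dvd (by norm_num) hrn
    exfalso
    interval_cases r <;> first | omega | (revert hr; decide) | (interval_cases k <;> omega)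
  · exfalso
    have h9 : 3 ^ 2 ≤ m ^ t := le_trans (Nat.pow_le_pow_left hm 2) (Nat.pow_le_pow_right (by omega) ht)
    have hm2 : m * m ≤ 10 := hmt ▸ (pow_two m ▸ Nat.pow_le_pow_right (by omega) ht)
    obtain rfl : m = 3 := by nlinarith
    rcases (show t = 2 ∨ 3 ≤ t by omega) with rfl | ht3
    · omega
    · have := Nat.pow_le_pow_right (show 3 > 0 by norm_num) ht3
      omega
  ·
    iterate 11 right
    exact hres

end Cfsg.Agent.S5841
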