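import Cfsg.Statements.S5856
import Cfsg.Agent.GeomClasses.MaxList.UExcl

set_option autoImplicit false
open Cfsg

namespace Cfsg.Agent.S5856

/-- Every maximal subgroup of SU_11(q) is of one of the listed geometric types or lies in the residual class. Let F be the field with q² elements (characteristic p), f the standard unitary form Σ u_i v_i^q on F^11, and H a maximal subgroup of SU_11(q) (inside GL_11(F)). Then H is the intersection with SU_11(q) of one of: the stabiliser of a non-zero totally isotropic subspace; the stabiliser of a non-zero non-degenerate subspace W with 2 dim W < 11; the stabiliser of a decomposition into 11 mutually orthogonal non-degenerate 1-spaces; the normaliser of an adjoint-closed degree-11 subfield of the matrix algebra; a subfield group of odd prime index whose F₀-structure carries f; for q odd, a subfield group of index 2 whose F₀-structure carries f; for q = p with p ≡ 10 mod 11, or q = p⁵ with p ≡ 2,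 6, 7 or 8 mod 11, the normaliser of an absolutely irreducible 11-group of exponent 11, order 11³ and centre of order 11 with all characteristic abelian subgroups cyclic consisting of isometries of f — or else H lies in the residual class of the unitary case (modulo scalars H is almost simple, with absolutely irreducible perfect socle preimage realisable over no proper subfield and fixing no non-degenerate quadratic or symplectic form). -/
theorem result {F : Type*} [Field F] [Fintype F] (q : ℕ) (hF : Fintype.card F = q ^ 2) (H : Subgroup (Matrix.GeneralLinearGroup (Fin 11) F)) (hH : Cfsg.Geo.IsMaximalIn (Cfsg.GU 11 F q ⊓ Cfsg.Geo.specialLinear (Fin 11) F) H) :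
    (∃ W : Submodule F (Fin 11 → F), W ≠ ⊥ ∧ Cfsg.Geo.IsTotallySingularFor (Cfsg.hermForm 11 F q) W ∧ H = Cfsg.Geo.subspaceStabilizer W ⊓ (Cfsg.GU 11 F q ⊓ Cfsg.Geo.specialLinear (Fin 11) F)) ∨
    (∃ W : Submodule F (Fin 11 → F), W ≠ ⊥ ∧ Cfsg.Geo.IsNondegenerateOn (Cfsg.hermForm 11 F q) W ∧ 2 * Module.finrank F W < 11 ∧ H = Cfsg.Geo.subspaceStabilizer W ⊓ (Cfsg.GU 11 F q ⊓ Cfsg.Geo.specialLinear (Fin 11) F)) ∨
    (∃ D : Fin 11 → Submodule F (Fin 11 → F), Cfsg.Geo.IsNondegenerateMDecomposition (Cfsg.hermForm 11 F q) 1 D ∧ H = Cfsg.Geo.decompositionStabilizer D ⊓ (Cfsg.GU 11 F q ⊓ Cfsg.Geo.specialLinear (Fin 11) F)) ∨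
    (∃ K : Subalgebra F (Matrix (Fin 11) (Fin 11) F), Cfsg.Geo.IsFieldSubalgebra 11 K ∧ Cfsg.Geo.IsAdjointClosedFor (Cfsg.hermForm 11 F q) K ∧ H = Cfsg.Geo.subalgebraNormalizer K ⊓ (Cfsg.GU 11 F q ⊓ Cfsg.Geo.specialLinear (Fin 11) F)) ∨
    (∃ (F₀ : Subfield F) (r : ℕ) (P : Matrix.GeneralLinearGroup (Fin 11) F), r.Prime ∧ Odd r ∧ Fintype.card F = Nat.card F₀ ^ r ∧ Cfsg.Geo.IsFormRationalStructure (Cfsg.hermForm 11 F q) F₀ 1 P ∧ H = Cfsg.Geo.subfieldSubgroup F₀ P ⊓ (Cfsg.GU 11 F q ⊓ Cfsg.Geo.specialLinear (Fin 11) F)) ∨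
    (Odd q ∧ ∃ (F₀ : Subfield F) (P : Matrix.GeneralLinearGroup (Fin 11) F), Fintype.card F = Nat.card F₀ ^ 2 ∧ Cfsg.Geo.IsFormRationalStructure (Cfsg.hermForm 11 F q) F₀ 1 P ∧ H = Cfsg.Geo.subfieldSubgroup F₀ P ⊓ (Cfsg.GU 11 F q ⊓ Cfsg.Geo.specialLinear (Fin 11) F)) ∨
    (∃ (p : ℕ) (R : Subgroup (Matrix.GeneralLinearGroup (Fin 11) F)), p.Prime ∧ CharP F p ∧ ((q = p ∧ p % 11 = 10) ∨ (q = p ^ 5 ∧ (p % 11 = 2 ∨ p % 11 = 6 ∨ p % 11 = 7 ∨ p % 11 = 8))) ∧ Cfsg.Geo.IsSymplecticTypeGroup 11 R ∧ Cfsg.Geo.ActsAbsolutelyIrreducibly (Cfsg.Geo.matrixSet R) ∧ R ≤ Cfsg.GU 11 F q ∧ Nat.card R = 1331 ∧ Nat.card (Subgroup.center R) = 11 ∧ H = Cfsg.Geo.subgroupNormalizer R ⊓ (Cfsg.GU 11 F q ⊓ Cfsg.Geo.specialLinear (Fin 11) F)) ∨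
    Cfsg.Geo.InUnitaryResidualClass H := by
  have hn : 5 ≤ 11 := by norm_num
  have hq2 : 2 ≤ q := Cfsg.Agent.Forms.two_le_q hF
  rcases GeomClasses.MaxList.u_cases hF hn H hH with ⟨W, h0, hW, e⟩ | ⟨W, h0, hW, hd, e⟩ | ⟨t, m, D, hD, htm, e⟩ |
    ⟨k, D, hk, hD, hW, e⟩ | ⟨r, K, hr, hro, hrn, hK, hadj, e⟩ | ⟨n₁, n₂, eq, P, f₁, f₂, h1, h2, h12, hf₁, hf₂, hs, e⟩ |
    ⟨F₀, r, P, hr, hro, hc, hs, e⟩ | ⟨hev, F₀, P, ζ, hc, hζ, hζq, hs, hal, e⟩ | ⟨hq, F₀, P, hc, hs, e⟩ |
    ⟨r, R, p, ee, k, hr, hp, hcp, hst, habs, hsim, hrp, hnk, hk, hm, he2, hcen, hcard, e⟩ |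
    ⟨m, t, eq, P, f₁, hm, ht, hex, hmt, hf₁, hs, hle⟩ | hres
  ·
    exact Or.inl ⟨W, h0, hW, e⟩
  ·
    iterate 1 right
    exact Or.inl ⟨W, h0, hW, hd, e⟩
  · have ht := hD.decomp.two_le
    have hm0 := hD.decomp.pos
    have hm2 : 2 * m ≤ 11 := htm ▸ Nat.mul_le_mul_right m ht
    have hm3 : m ≤ 5 := by omega
    obtain ⟨rfl, rfl⟩ : (m = 1 ∧ t = 11) := by
      interval_cases m <;> omega
    iterate 2 right
    exact Or.inl ⟨D, hD, e⟩
  · exfalso; omega
  · have := Nat.le_of_dvd (by norm_num) hrn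
    obtain rfl : r = 11 := by
      interval_cases r <;> first | omega | (exfalso; revert hr; decide) | (exfalso; revert hro; decide)
    iterate 3 right
    exact Or.inl ⟨K, hK, hadj, e⟩
  · have hb : n₁ * 3 ≤ 11 := h12 ▸ Nat.mul_le_mul_left n₁ (by omega)
    have hb2 : n₁ ≤ 3 := by omega
    exfalso
    interval_cases n₁ <;> omega
  ·
    iterate 4 right
    exact Or.inl ⟨F₀, r, P, hr, hro, hc, hs, e⟩
  · exact absurd hev (by decide)
  ·
    iterate 5 right
    exact Or.inl ⟨hq, F₀, P, hc, hs, e⟩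
  · have hlt : k < 11 := hnk ▸ Nat.lt_pow_self hr.one_lt
    have hrn : r ∣ 11 := hnk ▸ dvd_pow_self r (by omega)
    have := Nat.le_of_dvd (by norm_num) hrn
    obtain rfl : r = 11 := by
      interval_cases r <;> first | omega | (exfalso; revert hr; decide)
    have hcen' : Nat.card (Subgroup.center R) = 11 := hcen.trans (by decide)
    have hcard' : Nat.card R = 1331 := hcard.trans (by norm_num)
    rw [show 11 * Nat.gcd 2 11 = 11 from by decide] at hm
    have hnum := GeomClasses.MaxList.u_field_small hF hrp hm hr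
    have hd := hnum.2.2.2 rfl
    have hco : Nat.Coprime 11 (q - 1) := by
      refine (Nat.Prime.coprime_iff_not_dvd hr).mpr fun hdvd => ?_
      rcases hd with ⟨hq, hp'⟩ | ⟨hq, hp'⟩
      · omega
      · have hh' := Nat.pow_mod p 5 11
        have h5 : 1 ≤ p ^ 5 := Nat.one_le_pow _ _ hp.pos
        rcases hp' with hp' | hp' | hp' | hp' <;> rw [hp'] at hh' <;> omega
    have hGU := GeomClasses.MaxList.le_GU_of_similar hF (by norm_num) hco hsim (hst.exponent_eq.trans (by decide))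
    iterate 6 right
    exact Or.inl ⟨p, R, hp, hcp, hd, hst, habs, hGU, hcard', hcen', e⟩
  · exfalso
    have h9 : 3 ^ 2 ≤ m ^ t := le_trans (Nat.pow_le_pow_left hm 2) (Nat.pow_le_pow_right (by omega) ht)
    have hm2 : m * m ≤ 11 := hmt ▸ (pow_two m ▸ Nat.pow_le_pow_right (by omega) ht)
    obtain rfl : m = 3 := by nlinarith
    rcases (show t = 2 ∨ 3 ≤ t by omega) with rfl | ht3
    · omega
    · have := Nat.pow_le_pow_right (show 3 > 0 by norm_num) ht3
      omega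
  ·
    iterate 7 right
    exact hres

end Cfsg.Agent.S5856
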