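import Cfsg.Statements.S5862
import Cfsg.Agent.GeomClasses.MaxList.Exclusions

set_option autoImplicit false
open Cfsg

namespace Cfsg.Agent.S5862

/-- Every maximal subgroup of SL_12(q) is of one of the listed geometric types or lies in the residual class. Let F be a finite field with q elements (p its characteristic) and H a maximal subgroup of SL_12(F) (inside GL_12(F)). Then H is the intersection with SL_12(F) of one of: the stabiliser of a proper non-zero subspace; for q ≥ 5, the stabiliser of a decomposition into 12 independent 1-spaces; for q ≥ 3, the stabiliser of a decomposition into 6 independent 2-spaces; the stabiliser of a decomposition into 4 independent 3-spaces; the stabiliser of a decomposition into 3 independent 4-spaces; the stabiliser of a decomposition into 2 independent 6-spaces; the normaliser of a degree-2 subfield of the matrix algebra; the normaliser of a degree-3 subfield of the matrix algebra; for q ≥ 3, the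 stabiliser of a tensor decomposition F^2 ⊗ F^6; the stabiliser of a tensor decomposition F^3 ⊗ F^4; a subfield group for a subfield F₀ with |F| = |F₀|^r, r prime; for q odd, the similarity group of a non-degenerate quadratic form; the similarity group of a non-degenerate symplectic form; the similarity group of a non-degenerate unitary form — or else H lies in the residual class of the linear case (modulo scalars H is almost simple, with absolutely irreducible perfect socle preimage realisable over no proper subfield and fixing no non-degenerate quadratic, symplectic or unitary form). -/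
theorem result {F : Type*} [Field F] [Fintype F] (H : Subgroup (Matrix.GeneralLinearGroup (Fin 12) F)) (hH : Cfsg.Geo.IsMaximalIn (Cfsg.Geo.specialLinear (Fin 12) F) H) :
    (∃ W : Submodule F (Fin 12 → F), W ≠ ⊥ ∧ W ≠ ⊤ ∧ H = Cfsg.Geo.subspaceStabilizer W ⊓ Cfsg.Geo.specialLinear (Fin 12) F) ∨
    (5 ≤ Fintype.card F ∧ ∃ D : Fin 12 → Submodule F (Fin 12 → F), Cfsg.Geo.IsMDecomposition 1 D ∧ H = Cfsg.Geo.decompositionStabilizer D ⊓ Cfsg.Geo.specialLinear (Fin 12) F) ∨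
    (3 ≤ Fintype.card F ∧ ∃ D : Fin 6 → Submodule F (Fin 12 → F), Cfsg.Geo.IsMDecomposition 2 D ∧ H = Cfsg.Geo.decompositionStabilizer D ⊓ Cfsg.Geo.specialLinear (Fin 12) F) ∨
    (∃ D : Fin 4 → Submodule F (Fin 12 → F), Cfsg.Geo.IsMDecomposition 3 D ∧ H = Cfsg.Geo.decompositionStabilizer D ⊓ Cfsg.Geo.specialLinear (Fin 12) F) ∨
    (∃ D : Fin 3 → Submodule F (Fin 12 → F), Cfsg.Geo.IsMDecomposition 4 D ∧ H = Cfsg.Geo.decompositionStabilizer D ⊓ Cfsg.Geo.specialLinear (Fin 12) F) ∨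
    (∃ D : Fin 2 → Submodule F (Fin 12 → F), Cfsg.Geo.IsMDecomposition 6 D ∧ H = Cfsg.Geo.decompositionStabilizer D ⊓ Cfsg.Geo.specialLinear (Fin 12) F) ∨
    (∃ K : Subalgebra F (Matrix (Fin 12) (Fin 12) F), Cfsg.Geo.IsFieldSubalgebra 2 K ∧ H = Cfsg.Geo.subalgebraNormalizer K ⊓ Cfsg.Geo.specialLinear (Fin 12) F) ∨
    (∃ K : Subalgebra F (Matrix (Fin 12) (Fin 12) F), Cfsg.Geo.IsFieldSubalgebra 3 K ∧ H = Cfsg.Geo.subalgebraNormalizer K ⊓ Cfsg.Geo.specialLinear (Fin 12) F) ∨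
    (3 ≤ Fintype.card F ∧ ∃ (e : Fin 12 ≃ Fin 2 × Fin 6) (P : Matrix.GeneralLinearGroup (Fin 12) F), H = Cfsg.Geo.tensorProductSubgroup 2 6 e P ⊓ Cfsg.Geo.specialLinear (Fin 12) F) ∨
    (∃ (e : Fin 12 ≃ Fin 3 × Fin 4) (P : Matrix.GeneralLinearGroup (Fin 12) F), H = Cfsg.Geo.tensorProductSubgroup 3 4 e P ⊓ Cfsg.Geo.specialLinear (Fin 12) F) ∨
    (∃ (F₀ : Subfield F) (r : ℕ) (P : Matrix.GeneralLinearGroup (Fin 12) F), r.Prime ∧ Fintype.card F = Nat.card F₀ ^ r ∧ H = Cfsg.Geo.subfieldSubgroup F₀ P ⊓ Cfsg.Geo.specialLinear (Fin 12) F) ∨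
    (Odd (Fintype.card F) ∧ ∃ Q : (Fin 12 → F) → F, Cfsg.Geo.IsNondegenerateQuadraticForm Q ∧ H = Cfsg.Geo.quadSimilarityGroup Q ⊓ Cfsg.Geo.specialLinear (Fin 12) F) ∨
    (∃ f : (Fin 12 → F) → (Fin 12 → F) → F, Cfsg.Geo.IsSymplecticForm f ∧ H = Cfsg.Geo.similarityGroup f ⊓ Cfsg.Geo.specialLinear (Fin 12) F) ∨
    (∃ (σ : F ≃+* F) (f : (Fin 12 → F) → (Fin 12 → F) → F), Cfsg.Geo.IsUnitaryForm σ f ∧ H = Cfsg.Geo.similarityGroup f ⊓ Cfsg.Geo.specialLinear (Fin 12) F) ∨
    Cfsg.Geo.InLinearResidualClass H := by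
  have hn : 3 ≤ 12 := by norm_num
  rcases GeomClasses.MaxList.sl_cases hn H hH with ⟨W, h0, h1, e⟩ | ⟨t, m, D, hD, htm, e⟩ | ⟨r, K, hr, hrn, hK, e⟩ |
    ⟨n₁, n₂, eq, P, h1, h2, h12, e⟩ | ⟨F₀, r, P, hr, hc, e⟩ | ⟨r, R, hR, hr, ⟨m, hm, hnm⟩, e⟩ |
    ⟨m, t, eq, P, hm, ht, hmt, hle⟩ | ⟨hev, f, hf, e⟩ | ⟨σ, f, hf, e⟩ | ⟨hq, Q, hQ, e⟩ | hres
  ·
    exact Or.inl ⟨W, h0, h1, e⟩
  · have ht := hD.two_le
    have hm0 := hD.pos
    have hm2 : 2 * m ≤ 12 := htm ▸ Nat.mul_le_mul_right m ht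
    have hm3 : m ≤ 6 := by omega
    obtain ⟨rfl, rfl⟩ | ⟨rfl, rfl⟩ | ⟨rfl, rfl⟩ | ⟨rfl, rfl⟩ | ⟨rfl, rfl⟩ : (m = 1 ∧ t = 12) ∨ (m = 2 ∧ t = 6) ∨ (m = 3 ∧ t = 4) ∨ (m = 4 ∧ t = 3) ∨ (m = 6 ∧ t = 2) := by
      interval_cases m <;> omega
    · by_cases hq : 5 ≤ Fintype.card F
      ·
        iterate 1 right
        exact Or.inl ⟨hq, D, hD, e⟩
      rcases GeomClasses.MaxList.monomial_small hn (by omega) hH hD (e.le.trans inf_le_left) with ⟨W, h0, h1, e⟩ | ⟨σ, f, hf, e⟩ | ⟨hq, Q, hQ, e⟩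
      ·
        exact Or.inl ⟨W, h0, h1, e⟩
      ·
        iterate 13 right
        exact Or.inl ⟨σ, f, hf, e⟩
      ·
        iterate 11 right
        exact Or.inl ⟨hq, Q, hQ, e⟩
    · by_cases hq : 3 ≤ Fintype.card F
      ·
        iterate 2 right
        exact Or.inl ⟨hq, D, hD, e⟩
      obtain ⟨f, hf, e⟩ := GeomClasses.MaxList.planes_two hn (le_antisymm (by omega) Fintype.one_lt_card) hH hD (e.le.trans inf_le_left)
      iterate 12 right
      exact Or.inl ⟨f, hf, e⟩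
    ·
      iterate 3 right
      exact Or.inl ⟨D, hD, e⟩
    ·
      iterate 4 right
      exact Or.inl ⟨D, hD, e⟩
    ·
      iterate 5 right
      exact Or.inl ⟨D, hD, e⟩
  · have := Nat.le_of_dvd (by norm_num) hrn
    obtain rfl | rfl : r = 2 ∨ r = 3 := by
      interval_cases r <;> first | omega | (exfalso; revert hr; decide)
    ·
      iterate 6 right
      exact Or.inl ⟨K, hK, e⟩
    ·
      iterate 7 right
      exact Or.inl ⟨K, hK, e⟩
  · have hb : n₁ * 3 ≤ 12 := h12 ▸ Nat.mul_le_mul_left n₁ (by omega)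
    have hb2 : n₁ ≤ 4 := by omega
    obtain ⟨rfl, rfl⟩ | ⟨rfl, rfl⟩ : (n₁ = 2 ∧ n₂ = 6) ∨ (n₁ = 3 ∧ n₂ = 4) := by
      interval_cases n₁ <;> omega
    · by_cases hq : 3 ≤ Fintype.card F
      ·
        iterate 8 right
        exact Or.inl ⟨hq, eq, P, e⟩
      obtain ⟨K, hK, e⟩ := GeomClasses.MaxList.tensor_two hn (le_antisymm (by omega) Fintype.one_lt_card) hH (by norm_num) eq P (e.le.trans inf_le_left)
      iterate 6 right
      exact Or.inl ⟨K, hK, e⟩
    ·
      iterate 9 right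
      exact Or.inl ⟨eq, P, e⟩
  ·
    iterate 10 right
    exact Or.inl ⟨F₀, r, P, hr, hc, e⟩
  · have hlt : m < 12 := hnm ▸ Nat.lt_pow_self hr.one_lt
    have hrn : r ∣ 12 := hnm ▸ dvd_pow_self r (by omega)
    have := Nat.le_of_dvd (by norm_num) hrn
    exfalso
    interval_cases r <;> first | omega | (revert hr; decide) | (interval_cases m <;> omega)
  · exfalso
    have h9 : 3 ^ 2 ≤ m ^ t := le_trans (Nat.pow_le_pow_left hm 2) (Nat.pow_le_pow_right (by omega) ht)
    have hm2 : m * m ≤ 12 := hmt ▸ (pow_two m ▸ Nat.pow_le_pow_right (by omega) ht)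
    obtain rfl : m = 3 := by nlinarith
    rcases (show t = 2 ∨ 3 ≤ t by omega) with rfl | ht3
    · omega
    · have := Nat.pow_le_pow_right (show 3 > 0 by norm_num) ht3
      omega
  ·
    iterate 12 right
    exact Or.inl ⟨f, hf, e⟩
  ·
    iterate 13 right
    exact Or.inl ⟨σ, f, hf, e⟩
  ·
    iterate 11 right
    exact Or.inl ⟨hq, Q, hQ, e⟩
  ·
    iterate 14 right
    exact hres

end Cfsg.Agent.S5862
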