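import Cfsg.Statements.S5942
import Cfsg.Agent.Linear.PSL2MaxExist
-- import your own Cfsg.Agent.* helpers here

set_option autoImplicit false
open Cfsg

namespace Cfsg.Agent.S5942

/-- Let K and F be finite fields of odd characteristic with #F = (#K)^r for an odd prime r. Then PSL_2(F) has a maximal subgroup isomorphic to PSL_2(K). -/
theorem result {F K : Type*} [Field F] [Fintype F] [Field K] [Fintype K] (q r : ℕ) (hK : Fintype.card K = q) (hF : Fintype.card F = q ^ r) (hq : Odd q) (hr : r.Prime) (hr2 : r ≠ 2) : ∃ H : Subgroup (Matrix.ProjectiveSpecialLinearGroup (Fin 2) F), IsCoatom H ∧ Nonempty (H ≃* Matrix.ProjectiveSpecialLinearGroup (Fin 2) K) := by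
  obtain ⟨p, hc⟩ := CharP.exists F
  haveI := hc
  haveI : Fact p.Prime := ⟨CharP.char_is_prime F p⟩
  exact Cfsg.Agent.Linear.PSL2Max.exists_psl p hr (by rw [hK]; exact hF) (Or.inl ⟨by rw [hK]; exact hq, hr2⟩)

end Cfsg.Agent.S5942
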