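import Cfsg.Statements.S5944
import Cfsg.Agent.GeomClasses.SymSubgroupsIndex

set_option autoImplicit false
open Cfsg

namespace Cfsg.Agent.S5944

/-- For n ≠ 4, every proper subgroup of the symmetric group S_n other than the alternating group A_n has index at least n. -/
theorem result (n : ℕ) (hn : n ≠ 4) (H : Subgroup (Equiv.Perm (Fin n))) (hH : H ≠ ⊤) (hA : H ≠ alternatingGroup (Fin n)) : n ≤ H.index := by
  have h1 : H.index ≠ 1 := fun h => hH (Subgroup.index_eq_one.mp h)
  have h0 : H.index ≠ 0 := Subgroup.index_ne_zero_of_finite
  rcases Nat.lt_or_ge n 5 with h5 | h5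
  · by_contra hlt
    have h2 : H.index = 2 := by omega
    exact hA (Equiv.Perm.eq_alternatingGroup_of_index_eq_two h2)
  · have h' := GeomClasses.card_le_index (α := Fin n) (by simpa using h5) H
    rw [Fintype.card_fin] at h'
    by_cases hle : alternatingGroup (Fin n) ≤ H
    · exfalso
      have h3 := GeomClasses.alternating_index_le (α := Fin n)
      have h4 := Subgroup.index_antitone hle
      exact hA (Equiv.Perm.eq_alternatingGroup_of_index_eq_two (by omega))
    · exact h' hle

end Cfsg.Agent.S5944
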