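import Cfsg.Statements.S5945
import Cfsg.Agent.GeomClasses.SymSubgroupsIndex

set_option autoImplicit false
open Cfsg

namespace Cfsg.Agent.S5945

/-- The symmetric group S_6 has exactly 12 subgroups of index 6; each of them is isomorphic to S_5, and at least one of them is not the stabilizer of any point. -/
theorem result : Nat.card {H : Subgroup (Equiv.Perm (Fin 6)) // H.index = 6} = 12 ∧ (∀ H : Subgroup (Equiv.Perm (Fin 6)), H.index = 6 → Nonempty (H ≃* Equiv.Perm (Fin 5))) ∧ ∃ H : Subgroup (Equiv.Perm (Fin 6)), H.index = 6 ∧ ∀ a : Fin 6, H ≠ MulAction.stabilizer (Equiv.Perm (Fin 6)) a := by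
  classical
  have h6 : Fintype.card (Fin 6) = 6 := Fintype.card_fin 6
  obtain ⟨τ, hτ, hfpf⟩ := GeomClasses.exists_exotic h6
  set S := fun x : Fin 6 => MulAction.stabilizer (Equiv.Perm (Fin 6)) x with hS
  have hidx : ∀ a, (S a).index = 6 := fun a => by
    rw [hS, MulAction.index_stabilizer_of_transitive, Nat.card_fin]
  have hidx' : ∀ a, ((S a).map τ).index = 6 := fun a => by rw [Subgroup.index_map_of_bijective hτ, hidx]
  have hiso : ∀ a, Nonempty (S a ≃* Equiv.Perm (Fin 5)) := fun a => by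
    let e : {x : Fin 6 // x ≠ a} ≃ Fin 5 := Fintype.equivFinOfCardEq (by
      rw [Fintype.card_subtype_compl, Fintype.card_subtype_eq, Fintype.card_fin])
    refine ⟨MulEquiv.trans ?_ (Equiv.permCongrHom e)⟩
    refine MulEquiv.symm (MulEquiv.ofBijective
      ((Equiv.Perm.ofSubtype (p := fun x : Fin 6 => x ≠ a)).codRestrict (S a) fun g => ?_) ⟨?_, ?_⟩)
    · rw [MulAction.mem_stabilizer_iff, Equiv.Perm.smul_def]
      exact Equiv.Perm.ofSubtype_apply_of_not_mem g (by simp)
    · intro g h hgh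
      exact Equiv.Perm.ofSubtype_injective (congrArg Subtype.val hgh)
    · rintro ⟨g, hg⟩
      rw [MulAction.mem_stabilizer_iff, Equiv.Perm.smul_def] at hg
      refine ⟨g.subtypePerm fun x => ⟨fun h hx => h (by rw [hx, hg]), fun h hx => h (g.injective (by rw [hx, hg]))⟩, Subtype.ext ?_⟩
      exact Equiv.Perm.ofSubtype_subtypePerm _ fun x hx hxa => hx (by rw [hxa]; exact hg)
  refine ⟨?_, fun H hH => ?_, ?_⟩
  · let F : Fin 6 ⊕ Fin 6 → {H : Subgroup (Equiv.Perm (Fin 6)) // H.index = 6} :=
      Sum.elim (fun a => ⟨S a, hidx a⟩) (fun a => ⟨(S a).map τ, hidx' a⟩)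
    have hF : Function.Bijective F := by
      constructor
      · rintro (a | a) (b | b) h <;> have h := congrArg Subtype.val h
        · exact congrArg _ (GeomClasses.stabilizer_injective (by omega) h)
        · exact absurd h.symm (GeomClasses.map_ne_stabilizer h6 τ hfpf b a)
        · exact absurd h (GeomClasses.map_ne_stabilizer h6 τ hfpf a b)
        · exact congrArg _ (GeomClasses.stabilizer_injective (by omega) (Subgroup.map_injective hτ.1 h))
      · rintro ⟨H, hH⟩
        obtain ⟨a, rfl | rfl⟩ := GeomClasses.index_six_cases h6 τ hτ hfpf H hH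
        · exact ⟨Sum.inl a, rfl⟩
        · exact ⟨Sum.inr a, rfl⟩
    rw [← Nat.card_congr (Equiv.ofBijective F hF), Nat.card_eq_fintype_card, Fintype.card_sum, h6]
  · obtain ⟨a, rfl | rfl⟩ := GeomClasses.index_six_cases h6 τ hτ hfpf H hH
    · exact hiso a
    · obtain ⟨i⟩ := hiso a
      exact ⟨((S a).equivMapOfInjective τ hτ.1).symm.trans i⟩
  · exact ⟨(S 0).map τ, hidx' 0, fun c => GeomClasses.map_ne_stabilizer h6 τ hfpf 0 c⟩

end Cfsg.Agent.S5945
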