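import Cfsg.Statements.S5949
import Cfsg.Agent.GeomClasses.SubspaceDerange

set_option autoImplicit false
open scoped MatrixGroups
open Cfsg

namespace Cfsg.Agent.S5949

/-- Elements of prime order of PSL_n(q) with no fixed `m`-space. Here `T = PSL_n(F)` for a field `F` with `q = p^f` elements (`n ≥ 2`, `(n, q) ≠ (2, 2), (2, 3)`); an element of `T` of prime order `r` is represented by a matrix `x` of determinant 1 with `x^r` scalar and `x` not scalar; `i` denotes the multiplicative order of `q` modulo `r` (when `r ≠ p`), and `(a)_r` the `r`-part of `a`. Let `1 ≤ m ≤ n/2` and let `r` be a prime dividing the number of `m`-dimensional subspaces of `F^n`. Then every element of `T` of order `r` fixes some `m`-dimensional subspace (the action on `m`-spaces is `r`-elusive) if and only if `r ≠ p` and either (i) `i = 1` and (`r ∣ m`, or `(q−1)_r ≥ (n)_r` where in addition `q ≡ 1 (mod 4)` is required when `r = 2` and `n` is even), or (ii) `2 ≤ i ≤ m` and `n mod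 i ≥ m mod i`. -/
theorem result {F : Type*} [Field F] [Fintype F] {p : ℕ} [Fact p.Prime] [CharP F p] {q : ℕ} (hq : Fintype.card F = q)
    (n m : ℕ) (hn : 2 ≤ n) (hT : (n, q) ≠ (2, 2) ∧ (n, q) ≠ (2, 3)) (hm : 1 ≤ m) (hmn : 2 * m ≤ n)
    (r : ℕ) [Fact r.Prime] (hrΩ : r ∣ Nat.card {W : Submodule F (Fin n → F) // Module.finrank F ↥W = m}) :
    (∀ x : Matrix.SpecialLinearGroup (Fin n) F,
      (∃ c : F, ((x ^ r : Matrix.SpecialLinearGroup (Fin n) F) : Matrix (Fin n) (Fin n) F) = c • (1 : Matrix (Fin n) (Fin n) F)) →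
      (∀ c : F, (x : Matrix (Fin n) (Fin n) F) ≠ c • (1 : Matrix (Fin n) (Fin n) F)) →
      ∃ W : Submodule F (Fin n → F), Module.finrank F ↥W = m ∧ W.map (Matrix.toLin' (x : Matrix (Fin n) (Fin n) F)) ≤ W) ↔
    (r ≠ p ∧
      ((orderOf (q : ZMod r) = 1 ∧ (r ∣ m ∨ (padicValNat r n ≤ padicValNat r (q - 1) ∧ (r = 2 → Even n → q % 4 = 1)))) ∨
       (2 ≤ orderOf (q : ZMod r) ∧ orderOf (q : ZMod r) ≤ m ∧ m % orderOf (q : ZMod r) ≤ n % orderOf (q : ZMod r)))) := by
  classical
  have hp : p.Prime := Fact.out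
  have hr : r.Prime := Fact.out
  have hn0 : n ≠ 0 := by omega
  have hrp : r ≠ p := fun h => GeomClasses.SubspaceDerange.not_dvd_card (p := p) hq (by omega : m ≤ n) (h ▸ hrΩ)
  obtain ⟨f₀, -, hf₀⟩ := FiniteField.card F p
  have hrq : ¬ r ∣ q := fun h =>
    hrp ((Nat.prime_dvd_prime_iff_eq hr hp).1 (hr.dvd_of_dvd_pow (hq.symm.trans hf₀ ▸ h)))
  have hrF : (r : F) ≠ 0 := fun h =>
    hrp (((Nat.prime_dvd_prime_iff_eq hp hr).1 ((CharP.cast_eq_zero_iff F p r).1 h)).symm)
  obtain ⟨W₀, -, -, hW₀⟩ := GeomClasses.SubspaceDerange.exists_between (bot_le (a := (⊤ : Submodule F (Fin n → F))))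
    (d := m) (by simp) (by simp; omega)
  obtain ⟨a, ha1, ha2, ha3⟩ := GeomClasses.SubspaceDerange.exists_multiple hq (by omega : m ≤ n) hrΩ
  obtain ⟨hi0, -⟩ := GeomClasses.SubspaceDerange.dvd_pow_sub_one hrq (i := orderOf (q : ZMod r)) rfl
  set i := orderOf (q : ZMod r) with hi
  constructor
  · intro H
    refine ⟨hrp, ?_⟩
    have key : ∀ (T : Module.End F (Fin n → F)) (z : F), T ^ r = z • 1 → LinearMap.det T = 1 →
        ∃ W : Submodule F (Fin n → F), Module.finrank F W = m ∧ ∀ v ∈ W, T v ∈ W := by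
      intro T z hT hd
      obtain ⟨x, hx, hxr⟩ := GeomClasses.SubspaceDerange.sl_of_end hT hd
      by_cases hs : ∃ c : F, (x : Matrix (Fin n) (Fin n) F) = c • 1
      · obtain ⟨c, hc⟩ := hs
        exact ⟨W₀, hW₀, fun v hv => hx ▸ GeomClasses.SubspaceDerange.map_le_of_scalar hc W₀ ⟨v, hv, rfl⟩⟩
      · obtain ⟨W, hW, hW'⟩ := H x ⟨z, hxr⟩ (not_exists.1 hs)
        exact ⟨W, hW, fun v hv => hx ▸ hW' ⟨v, hv, rfl⟩⟩
    rcases (show i = 1 ∨ 2 ≤ i by omega) with h1 | h2
    · refine Or.inl ⟨h1, ?_⟩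
      by_contra hc
      push_neg at hc
      obtain ⟨T, z, hT, hd, hno⟩ := GeomClasses.SubspaceDerange.derange_one (n := n) hq hrq h1 hn0 hc.1
        (fun h => by obtain ⟨e1, e2, e3⟩ := hc.2 h.1; exact e3 (h.2 e1 e2))
      obtain ⟨W, hW, hW'⟩ := key T z hT hd
      exact hno W hW hW'
    · obtain ⟨T, hT, hd, hker⟩ := GeomClasses.SubspaceDerange.derange_two (n := n) hq hrq hi h2
      obtain ⟨W, hW, hW'⟩ := key T 1 (by rw [hT, one_smul]) hd
      have hmod := GeomClasses.SubspaceDerange.dim_mod hq hrq hi hT hW'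
      have hle : Module.finrank F ↥(W ⊓ LinearMap.ker (T - 1)) ≤ n % i :=
        hker ▸ Submodule.finrank_mono inf_le_right
      have hlt := Nat.mod_lt n hi0
      rw [hW, Nat.ModEq, Nat.mod_eq_of_lt (hle.trans_lt hlt)] at hmod
      refine Or.inr ⟨h2, not_lt.1 fun him => ?_, hmod ▸ hle⟩
      rw [Nat.mod_eq_of_lt him] at hmod
      obtain ⟨c, rfl⟩ := ha3
      have e1 : c ≤ n / i := (Nat.le_div_iff_mul_le hi0).2 (by rw [mul_comm]; exact ha2)
      have e2 := Nat.div_add_mod n i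
      have e3 := Nat.mul_le_mul_left i e1
      omega
  · rintro ⟨-, hcond⟩ x ⟨z, hz⟩ -
    obtain ⟨hT, hd⟩ := GeomClasses.SubspaceDerange.end_of_sl x hz
    have hex : ∃ U W : Submodule F (Fin n → F), U ≤ W ∧ Module.finrank F U = m ∧ Module.finrank F W = m ∧
        (∀ v ∈ U, Matrix.toLin' (x : Matrix (Fin n) (Fin n) F) v ∈ U) ∧
        ∀ v ∈ W, Matrix.toLin' (x : Matrix (Fin n) (Fin n) F) v ∈ W := by
      rcases hcond with ⟨h1, hC⟩ | ⟨h2, him, hmod⟩
      · exact GeomClasses.SubspaceDerange.exists_of_one hq hrq hrF h1 hn0 hT hd le_rfl (by omega) (Or.inl rfl) hC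
      · refine GeomClasses.SubspaceDerange.exists_of_two hq hrq hrF hi h2 hn0 hT hd fun k f hkf => ?_
        have hd1 := Nat.div_add_mod' m i
        refine ⟨min k (m / i), min k (m / i), m - min k (m / i) * i, m - min k (m / i) * i, le_rfl,
          min_le_left _ _, le_rfl, ?_, ?_, ?_⟩
        · rcases le_total (m / i) k with h | h
          · rw [min_eq_right h]
            have : n % i ≤ f := by rw [← hkf, Nat.mul_add_mod_self_right]; exact Nat.mod_le _ _
            omega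
          · rw [min_eq_left h]; omega
        all_goals
          have := Nat.mul_le_mul_right i (min_le_right k (m / i))
          omega
    obtain ⟨U, W, -, -, hW, -, hW'⟩ := hex
    exact ⟨W, hW, Submodule.map_le_iff_le_comap.2 hW'⟩

end Cfsg.Agent.S5949
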