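import Cfsg.Statements.S5950
import Cfsg.Agent.GeomClasses.PairDerange

set_option autoImplicit false
open scoped MatrixGroups
open Cfsg

namespace Cfsg.Agent.S5950

/-- Elements of prime order of PSL_n(q) fixing no decomposition `F^n = U ⊕ W` with `dim U = m`. Here `T = PSL_n(F)` for a field `F` with `q = p^f` elements (`n ≥ 2`, `(n, q) ≠ (2, 2), (2, 3)`); an element of `T` of prime order `r` is represented by a matrix `x` of determinant 1 with `x^r` scalar and `x` not scalar; `i` denotes the multiplicative order of `q` modulo `r` (when `r ≠ p`), and `(a)_r` the `r`-part of `a`. Let `n ≥ 3`, `1 ≤ m < n/2`, and let `r` be a prime dividing the number of such decompositions (unordered pairs `{U, W}` of complementary subspaces with `dim U = m`; since `m ≠ n − m` these are the ordered pairs with `dim U = m`). Then every element of `T` of order `r` fixes such a pair (fixes both `U` and `W` for some complementary `U, W` with `dim U = m`) if and only if one of: (i) `r = p > 2` and every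 partition of `n` into parts of size at most `p` contains, as a sub-multiset, a partition of `m`; (ii) `r = p = 2` and `n` is odd or `m` is even; (iii) `r ≠ p`, `i = 1`, and `r ∣ m` or `(q−1)_r ≥ (n)_r` (with `q ≡ 1 (mod 4)` required when `r = 2` and `n` is even); (iv) `r ≠ p`, `2 ≤ i ≤ m` and `n mod i ≥ m mod i`. -/
theorem result {F : Type*} [Field F] [Fintype F] {p : ℕ} [Fact p.Prime] [CharP F p] {q : ℕ} (hq : Fintype.card F = q)
    (n m : ℕ) (hn : 3 ≤ n) (hm : 1 ≤ m) (hmn : 2 * m < n)
    (r : ℕ) [Fact r.Prime]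
    (hrΩ : r ∣ Nat.card {P : Submodule F (Fin n → F) × Submodule F (Fin n → F) // IsCompl P.1 P.2 ∧ Module.finrank F ↥P.1 = m}) :
    (∀ x : Matrix.SpecialLinearGroup (Fin n) F,
      (∃ c : F, ((x ^ r : Matrix.SpecialLinearGroup (Fin n) F) : Matrix (Fin n) (Fin n) F) = c • (1 : Matrix (Fin n) (Fin n) F)) →
      (∀ c : F, (x : Matrix (Fin n) (Fin n) F) ≠ c • (1 : Matrix (Fin n) (Fin n) F)) →
      ∃ U W : Submodule F (Fin n → F), IsCompl U W ∧ Module.finrank F ↥U = m ∧
        U.map (Matrix.toLin' (x : Matrix (Fin n) (Fin n) F)) ≤ U ∧ W.map (Matrix.toLin' (x : Matrix (Fin n) (Fin n) F)) ≤ W) ↔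
    ((r = p ∧ 2 < p ∧ (∀ μ : Multiset ℕ, (∀ a ∈ μ, 0 < a ∧ a ≤ p) → μ.sum = n → ∃ ν : Multiset ℕ, ν ≤ μ ∧ ν.sum = m)) ∨
     (r = p ∧ p = 2 ∧ (Odd n ∨ Even m)) ∨
     (r ≠ p ∧
      ((orderOf (q : ZMod r) = 1 ∧ (r ∣ m ∨ (padicValNat r n ≤ padicValNat r (q - 1) ∧ (r = 2 → Even n → q % 4 = 1)))) ∨
       (2 ≤ orderOf (q : ZMod r) ∧ orderOf (q : ZMod r) ≤ m ∧ m % orderOf (q : ZMod r) ≤ n % orderOf (q : ZMod r))))) := by
  classical
  have hp : p.Prime := Fact.out
  have hr : r.Prime := Fact.out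
  have hn0 : n ≠ 0 := by omega
  have : NeZero n := ⟨hn0⟩
  obtain ⟨W₀, -, -, hW₀⟩ := GeomClasses.SubspaceDerange.exists_between (bot_le (a := (⊤ : Submodule F (Fin n → F))))
    (d := m) (by simp) (by simp; omega)
  obtain ⟨W₁, hW₁⟩ := W₀.exists_isCompl
  constructor
  · intro H
    have key : ∀ (T : Module.End F (Fin n → F)) (z : F), T ^ r = z • 1 → LinearMap.det T = 1 →
        ∃ U W : Submodule F (Fin n → F), IsCompl U W ∧ Module.finrank F U = m ∧ (∀ v ∈ U, T v ∈ U) ∧ ∀ v ∈ W, T v ∈ W := by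
      intro T z hT hd
      obtain ⟨x, hx, hxr⟩ := GeomClasses.SubspaceDerange.sl_of_end hT hd
      by_cases hs : ∃ c : F, (x : Matrix (Fin n) (Fin n) F) = c • 1
      · obtain ⟨c, hc⟩ := hs
        exact ⟨W₀, W₁, hW₁, hW₀, fun v hv => hx ▸ GeomClasses.SubspaceDerange.map_le_of_scalar hc W₀ ⟨v, hv, rfl⟩,
          fun v hv => hx ▸ GeomClasses.SubspaceDerange.map_le_of_scalar hc W₁ ⟨v, hv, rfl⟩⟩
      · obtain ⟨U, W, hc, hU, hU', hW'⟩ := H x ⟨z, hxr⟩ (not_exists.1 hs)
        exact ⟨U, W, hc, hU, fun v hv => hx ▸ hU' ⟨v, hv, rfl⟩, fun v hv => hx ▸ hW' ⟨v, hv, rfl⟩⟩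
    by_cases hrp : r = p
    · subst hrp
      have hall : ∀ μ : Multiset ℕ, (∀ a ∈ μ, 0 < a ∧ a ≤ r) → μ.sum = n → ∃ ν : Multiset ℕ, ν ≤ μ ∧ ν.sum = m := by
        intro μ hμ hsum
        by_contra hc
        push_neg at hc
        obtain ⟨T, hT, hd, hno⟩ := GeomClasses.PairDerange.exists_derangement (F := F) (p := r) (n := n) (m := m)
          (fun a ha => (hμ a ha).2) hsum hc
        obtain ⟨U, W, hcU, hU, hU', hW'⟩ := key T 1 (by rw [hT, one_smul]) hd
        exact hno U W hcU hU hU' hW'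
      rcases hp.eq_two_or_odd' with h2 | hodd
      · refine Or.inr (Or.inl ⟨rfl, h2, ?_⟩)
        rcases Nat.even_or_odd n with ⟨k, hk⟩ | h
        · obtain ⟨ν, hν, hνm⟩ := hall (Multiset.replicate k 2)
            (fun a ha => by rw [Multiset.eq_of_mem_replicate ha]; omega) (by simp; omega)
          obtain ⟨a, -, rfl⟩ := Multiset.le_replicate_iff.1 hν
          refine Or.inr ⟨a, ?_⟩
          simp at hνm
          omega
        · exact Or.inl h
      · exact Or.inl ⟨rfl, lt_of_le_of_ne hp.two_le (fun h => by rw [← h] at hodd; exact absurd hodd (by decide)), hall⟩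
    · refine Or.inr (Or.inr ⟨hrp, ?_⟩)
      obtain ⟨f₀, -, hf₀⟩ := FiniteField.card F p
      have hrq : ¬ r ∣ q := fun h =>
        hrp ((Nat.prime_dvd_prime_iff_eq hr hp).1 (hr.dvd_of_dvd_pow (hq.symm.trans hf₀ ▸ h)))
      rw [GeomClasses.PairDerange.card_pairs hq] at hrΩ
      have hrN := (hr.dvd_mul.1 hrΩ).resolve_right (fun h => hrq (hr.dvd_of_dvd_pow h))
      obtain ⟨a, ha1, ha2, ha3⟩ := GeomClasses.SubspaceDerange.exists_multiple hq (by omega : m ≤ n) hrN
      obtain ⟨hi0, -⟩ := GeomClasses.SubspaceDerange.dvd_pow_sub_one hrq (i := orderOf (q : ZMod r)) rfl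
      set i := orderOf (q : ZMod r) with hi
      rcases (show i = 1 ∨ 2 ≤ i by omega) with h1 | h2
      · refine Or.inl ⟨h1, ?_⟩
        by_contra hc
        push_neg at hc
        obtain ⟨T, z, hT, hd, hno⟩ := GeomClasses.SubspaceDerange.derange_one (n := n) hq hrq h1 hn0 hc.1
          (fun h => by obtain ⟨e1, e2, e3⟩ := hc.2 h.1; exact e3 (h.2 e1 e2))
        obtain ⟨U, W, -, hU, hU', -⟩ := key T z hT hd
        exact hno U hU hU'
      · obtain ⟨T, hT, hd, hker⟩ := GeomClasses.SubspaceDerange.derange_two (n := n) hq hrq hi h2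
        obtain ⟨W, -, -, hW, hW', -⟩ := key T 1 (by rw [hT, one_smul]) hd
        have hmod := GeomClasses.SubspaceDerange.dim_mod hq hrq hi hT hW'
        have hle : Module.finrank F ↥(W ⊓ LinearMap.ker (T - 1)) ≤ n % i :=
          hker ▸ Submodule.finrank_mono inf_le_right
        have hlt := Nat.mod_lt n hi0
        rw [hW, Nat.ModEq, Nat.mod_eq_of_lt (hle.trans_lt hlt)] at hmod
        refine Or.inr ⟨h2, not_lt.1 fun him => ?_, hmod ▸ hle⟩
        rw [Nat.mod_eq_of_lt him] at hmod
        obtain ⟨c, rfl⟩ := ha3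
        have e1 : c ≤ n / i := (Nat.le_div_iff_mul_le hi0).2 (by rw [mul_comm]; exact ha2)
        have e2 := Nat.div_add_mod n i
        have e3 := Nat.mul_le_mul_left i e1
        omega
  · rintro hcond x ⟨z, hz⟩ -
    obtain ⟨hT, hd⟩ := GeomClasses.SubspaceDerange.end_of_sl x hz
    have hz0 : z ≠ 0 := GeomClasses.SubspaceDerange.scalar_ne_zero hT hd
    have hex : ∃ U W : Submodule F (Fin n → F), IsCompl U W ∧ Module.finrank F U = m ∧
        (∀ v ∈ U, Matrix.toLin' (x : Matrix (Fin n) (Fin n) F) v ∈ U) ∧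
        ∀ v ∈ W, Matrix.toLin' (x : Matrix (Fin n) (Fin n) F) v ∈ W := by
      rcases hcond with ⟨rfl, -, H⟩ | ⟨rfl, rfl, h2⟩ | ⟨hrp, hcase⟩
      · exact GeomClasses.PairDerange.exists_pair H hT hz0
      · refine GeomClasses.PairDerange.exists_pair (fun μ hμ hsum => ?_) hT hz0
        obtain ⟨b, c, hbc⟩ : ∃ b c, μ = Multiset.replicate b 1 + Multiset.replicate c 2 := by
          clear hsum
          induction μ using Multiset.induction with
          | empty => exact ⟨0, 0, rfl⟩
          | cons a s ih =>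
            obtain ⟨b, c, hbc⟩ := ih fun x hx => hμ x (Multiset.mem_cons_of_mem hx)
            have := hμ a (Multiset.mem_cons_self a s)
            rcases (show a = 1 ∨ a = 2 by omega) with rfl | rfl
            · exact ⟨b + 1, c, by rw [hbc, Multiset.replicate_succ, Multiset.cons_add]⟩
            · exact ⟨b, c + 1, by rw [hbc, Multiset.replicate_succ, Multiset.add_cons]⟩
        subst hbc
        simp at hsum
        refine ⟨Multiset.replicate (m - 2 * min c (m / 2)) 1 + Multiset.replicate (min c (m / 2)) 2,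
          add_le_add ((Multiset.replicate_le_replicate _).2 ?_) ((Multiset.replicate_le_replicate _).2 (min_le_left _ _)), ?_⟩
        · rcases h2 with ⟨k, hk⟩ | ⟨k, hk⟩ <;> omega
        · simp; omega
      · obtain ⟨f₀, -, hf₀⟩ := FiniteField.card F p
        have hrq : ¬ r ∣ q := fun h =>
          hrp ((Nat.prime_dvd_prime_iff_eq hr hp).1 (hr.dvd_of_dvd_pow (hq.symm.trans hf₀ ▸ h)))
        have hrF : (r : F) ≠ 0 := fun h =>
          hrp (((Nat.prime_dvd_prime_iff_eq hp hr).1 ((CharP.cast_eq_zero_iff F p r).1 h)).symm)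
        obtain ⟨U, -, -, hU, -, hU', -⟩ : ∃ U W : Submodule F (Fin n → F), U ≤ W ∧ Module.finrank F U = m ∧
            Module.finrank F W = m ∧ (∀ v ∈ U, Matrix.toLin' (x : Matrix (Fin n) (Fin n) F) v ∈ U) ∧
            ∀ v ∈ W, Matrix.toLin' (x : Matrix (Fin n) (Fin n) F) v ∈ W := by
          rcases hcase with ⟨h1, hC⟩ | ⟨h2, him, hmod⟩
          · exact GeomClasses.SubspaceDerange.exists_of_one hq hrq hrF h1 hn0 hT hd le_rfl (by omega) (Or.inl rfl) hC
          · refine GeomClasses.SubspaceDerange.exists_of_two hq hrq hrF rfl h2 hn0 hT hd fun k f hkf => ?_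
            generalize orderOf (q : ZMod r) = i at *
            have hd1 := Nat.div_add_mod' m i
            refine ⟨min k (m / i), min k (m / i), m - min k (m / i) * i, m - min k (m / i) * i, le_rfl,
              min_le_left _ _, le_rfl, ?_, ?_, ?_⟩
            · rcases le_total (m / i) k with h | h
              · rw [min_eq_right h]
                have : n % i ≤ f := by rw [← hkf, Nat.mul_add_mod_self_right]; exact Nat.mod_le _ _
                omega
              · rw [min_eq_left h]; omega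
            all_goals
              have := Nat.mul_le_mul_right i (min_le_right k (m / i))
              omega
        obtain ⟨W, hc, hW'⟩ := GeomClasses.SubspaceDerange.exists_compl hr.pos hrF hz0 hT hU'
        exact ⟨U, W, hc, hU, hU', hW'⟩
    obtain ⟨U, W, hc, hU, hU', hW'⟩ := hex
    exact ⟨U, W, hc, hU, Submodule.map_le_iff_le_comap.2 hU', Submodule.map_le_iff_le_comap.2 hW'⟩

end Cfsg.Agent.S5950
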