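import Cfsg.Statements.S5951
import Cfsg.Agent.GeomClasses.FlagDerange

set_option autoImplicit false
open scoped MatrixGroups
open Cfsg

namespace Cfsg.Agent.S5951

/-- Elements of prime order of PSL_n(q) fixing no pair of subspaces `U < W` with `dim U = m`, `dim W = n − m`. Here `T = PSL_n(F)` for a field `F` with `q = p^f` elements (`n ≥ 2`, `(n, q) ≠ (2, 2), (2, 3)`); an element of `T` of prime order `r` is represented by a matrix `x` of determinant 1 with `x^r` scalar and `x` not scalar; `i` denotes the multiplicative order of `q` modulo `r` (when `r ≠ p`), and `(a)_r` the `r`-part of `a`. Let `1 ≤ m < n/2` and let `r` be a prime dividing the number of such pairs. Then every element of `T` of order `r` fixes such a pair (both `U` and `W`) if and only if `r ≠ p` and either (i) `i = 1` and (`r ∣ m`, or `(q−1)_r ≥ (n)_r` with `q ≡ 1 (mod 4)` required when `r = 2` and `n` is even), or (ii) `2 ≤ i ≤ m` and `n mod i ≥ 2 (m mod i)`. -/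
theorem result {F : Type*} [Field F] [Fintype F] {p : ℕ} [Fact p.Prime] [CharP F p] {q : ℕ} (hq : Fintype.card F = q)
    (n m : ℕ) (hn : 2 ≤ n) (hT : (n, q) ≠ (2, 2) ∧ (n, q) ≠ (2, 3)) (hm : 1 ≤ m) (hmn : 2 * m < n)
    (r : ℕ) [Fact r.Prime]
    (hrΩ : r ∣ Nat.card {P : Submodule F (Fin n → F) × Submodule F (Fin n → F) //
        P.1 ≤ P.2 ∧ Module.finrank F ↥P.1 = m ∧ Module.finrank F ↥P.2 = n - m}) :
    (∀ x : Matrix.SpecialLinearGroup (Fin n) F,
      (∃ c : F, ((x ^ r : Matrix.SpecialLinearGroup (Fin n) F) : Matrix (Fin n) (Fin n) F) = c • (1 : Matrix (Fin n) (Fin n) F)) →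
      (∀ c : F, (x : Matrix (Fin n) (Fin n) F) ≠ c • (1 : Matrix (Fin n) (Fin n) F)) →
      ∃ U W : Submodule F (Fin n → F), U ≤ W ∧ Module.finrank F ↥U = m ∧ Module.finrank F ↥W = n - m ∧
        U.map (Matrix.toLin' (x : Matrix (Fin n) (Fin n) F)) ≤ U ∧ W.map (Matrix.toLin' (x : Matrix (Fin n) (Fin n) F)) ≤ W) ↔
    (r ≠ p ∧
      ((orderOf (q : ZMod r) = 1 ∧ (r ∣ m ∨ (padicValNat r n ≤ padicValNat r (q - 1) ∧ (r = 2 → Even n → q % 4 = 1)))) ∨
       (2 ≤ orderOf (q : ZMod r) ∧ orderOf (q : ZMod r) ≤ m ∧ 2 * (m % orderOf (q : ZMod r)) ≤ n % orderOf (q : ZMod r)))) := by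
  classical
  have hp : p.Prime := Fact.out
  have hr : r.Prime := Fact.out
  have hn0 : n ≠ 0 := by omega
  rw [GeomClasses.FlagDerange.card_flags hq (by omega : m + m ≤ n)] at hrΩ
  have hrp : r ≠ p := fun h => by
    subst h
    rcases hr.dvd_mul.1 hrΩ with h | h <;>
      exact GeomClasses.SubspaceDerange.not_dvd_card (p := r) hq (by omega) h
  obtain ⟨f₀, -, hf₀⟩ := FiniteField.card F p
  have hrq : ¬ r ∣ q := fun h =>
    hrp ((Nat.prime_dvd_prime_iff_eq hr hp).1 (hr.dvd_of_dvd_pow (hq.symm.trans hf₀ ▸ h)))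
  have hrF : (r : F) ≠ 0 := fun h =>
    hrp (((Nat.prime_dvd_prime_iff_eq hp hr).1 ((CharP.cast_eq_zero_iff F p r).1 h)).symm)
  obtain ⟨W₁, -, -, hW₁⟩ := GeomClasses.SubspaceDerange.exists_between (bot_le (a := (⊤ : Submodule F (Fin n → F))))
    (d := n - m) (by simp) (by simp)
  obtain ⟨W₀, -, hW₀le, hW₀⟩ := GeomClasses.SubspaceDerange.exists_between (bot_le (a := W₁))
    (d := m) (by simp) (by omega)
  obtain ⟨a, ha1, ha2, ha3⟩ : ∃ a, n < a + 2 * m ∧ a ≤ n ∧ orderOf (q : ZMod r) ∣ a := by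
    rcases hr.dvd_mul.1 hrΩ with h | h
    · obtain ⟨a, h1, h2, h3⟩ := GeomClasses.SubspaceDerange.exists_multiple hq (by omega : m ≤ n) h
      exact ⟨a, by omega, h2, h3⟩
    · obtain ⟨a, h1, h2, h3⟩ := GeomClasses.SubspaceDerange.exists_multiple hq (by omega : m ≤ n - m) h
      exact ⟨a, by omega, by omega, h3⟩
  obtain ⟨hi0, -⟩ := GeomClasses.SubspaceDerange.dvd_pow_sub_one hrq (i := orderOf (q : ZMod r)) rfl
  set i := orderOf (q : ZMod r) with hi
  constructor
  · intro H
    refine ⟨hrp, ?_⟩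
    have key : ∀ (T : Module.End F (Fin n → F)) (z : F), T ^ r = z • 1 → LinearMap.det T = 1 →
        ∃ U W : Submodule F (Fin n → F), U ≤ W ∧ Module.finrank F U = m ∧ Module.finrank F W = n - m ∧
          (∀ v ∈ U, T v ∈ U) ∧ ∀ v ∈ W, T v ∈ W := by
      intro T z hT hd
      obtain ⟨x, hx, hxr⟩ := GeomClasses.SubspaceDerange.sl_of_end hT hd
      by_cases hs : ∃ c : F, (x : Matrix (Fin n) (Fin n) F) = c • 1
      · obtain ⟨c, hc⟩ := hs
        exact ⟨W₀, W₁, hW₀le, hW₀, hW₁, fun v hv => hx ▸ GeomClasses.SubspaceDerange.map_le_of_scalar hc W₀ ⟨v, hv, rfl⟩,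
          fun v hv => hx ▸ GeomClasses.SubspaceDerange.map_le_of_scalar hc W₁ ⟨v, hv, rfl⟩⟩
      · obtain ⟨U, W, hUW, hU, hW, hU', hW'⟩ := H x ⟨z, hxr⟩ (not_exists.1 hs)
        exact ⟨U, W, hUW, hU, hW, fun v hv => hx ▸ hU' ⟨v, hv, rfl⟩, fun v hv => hx ▸ hW' ⟨v, hv, rfl⟩⟩
    rcases (show i = 1 ∨ 2 ≤ i by omega) with h1 | h2
    · refine Or.inl ⟨h1, ?_⟩
      by_contra hc
      push_neg at hc
      obtain ⟨T, z, hT, hd, hno⟩ := GeomClasses.SubspaceDerange.derange_one (n := n) hq hrq h1 hn0 hc.1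
        (fun h => by obtain ⟨e1, e2, e3⟩ := hc.2 h.1; exact e3 (h.2 e1 e2))
      obtain ⟨U, W, -, hU, -, hU', -⟩ := key T z hT hd
      exact hno U hU hU'
    · obtain ⟨T, hT, hd, hker⟩ := GeomClasses.SubspaceDerange.derange_two (n := n) hq hrq hi h2
      obtain ⟨U, W, hUW, hU, hW, hU', hW'⟩ := key T 1 (by rw [hT, one_smul]) hd
      have hmod := GeomClasses.SubspaceDerange.dim_mod hq hrq hi hT hU'
      have hmod' := GeomClasses.SubspaceDerange.dim_mod hq hrq hi hT hW'
      have hle : Module.finrank F ↥(W ⊓ LinearMap.ker (T - 1)) ≤ n % i :=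
        hker ▸ Submodule.finrank_mono inf_le_right
      have hle' : Module.finrank F ↥(U ⊓ LinearMap.ker (T - 1)) ≤ Module.finrank F ↥(W ⊓ LinearMap.ker (T - 1)) :=
        Submodule.finrank_mono (inf_le_inf_right _ hUW)
      have hlt := Nat.mod_lt n hi0
      rw [hU] at hmod
      rw [hW] at hmod'
      generalize Module.finrank F ↥(U ⊓ LinearMap.ker (T - 1)) = e at *
      generalize Module.finrank F ↥(W ⊓ LinearMap.ker (T - 1)) = e' at *
      rw [Nat.ModEq, Nat.mod_eq_of_lt ((hle'.trans hle).trans_lt hlt)] at hmod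
      have hsum : n % i = (e + e') % i := by
        have hm1 : m ≡ e [MOD i] := by rw [Nat.ModEq, hmod, Nat.mod_eq_of_lt ((hle'.trans hle).trans_lt hlt)]
        have h := hm1.add hmod'
        rwa [Nat.add_sub_cancel' (by omega : m ≤ n)] at h
      have hs2 : 2 * (m % i) ≤ n % i := by
        rcases lt_or_ge (e + e') i with h | h
        · rw [Nat.mod_eq_of_lt h] at hsum
          omega
        · rw [Nat.mod_eq_sub_mod h, Nat.mod_eq_of_lt (show e + e' - i < i by omega)] at hsum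
          omega
      refine Or.inr ⟨h2, not_lt.1 fun him => ?_, hs2⟩
      rw [Nat.mod_eq_of_lt him] at hs2
      obtain ⟨c, rfl⟩ := ha3
      have e1 : c ≤ n / i := (Nat.le_div_iff_mul_le hi0).2 (by rw [mul_comm]; exact ha2)
      have e2 := Nat.div_add_mod n i
      have e3 := Nat.mul_le_mul_left i e1
      omega
  · rintro ⟨-, hcond⟩ x ⟨z, hz⟩ -
    obtain ⟨hT, hd⟩ := GeomClasses.SubspaceDerange.end_of_sl x hz
    have hex : ∃ U W : Submodule F (Fin n → F), U ≤ W ∧ Module.finrank F U = m ∧ Module.finrank F W = n - m ∧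
        (∀ v ∈ U, Matrix.toLin' (x : Matrix (Fin n) (Fin n) F) v ∈ U) ∧
        ∀ v ∈ W, Matrix.toLin' (x : Matrix (Fin n) (Fin n) F) v ∈ W := by
      rcases hcond with ⟨h1, hC⟩ | ⟨h2, him, hmod⟩
      · exact GeomClasses.SubspaceDerange.exists_of_one hq hrq hrF h1 hn0 hT hd (by omega) (by omega) (Or.inr (by omega)) hC
      · refine GeomClasses.SubspaceDerange.exists_of_two hq hrq hrF hi h2 hn0 hT hd fun k f hkf => ?_
        have hd1 := Nat.div_add_mod' m i
        have hf : n % i ≤ f := by rw [← hkf, Nat.mul_add_mod_self_right]; exact Nat.mod_le _ _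
        set j := min k (m / i) with hj
        set l := min (k - j) (m / i) with hl
        have hjm : j * i ≤ (m / i) * i := Nat.mul_le_mul_right i (min_le_right _ _)
        have hlm : l * i ≤ (m / i) * i := Nat.mul_le_mul_right i (min_le_right _ _)
        have hjl : j + l ≤ k := by omega
        have hsub : (k - l) * i + l * i = k * i := by rw [← Nat.add_mul, Nat.sub_add_cancel (by omega)]
        have hcase : (j = m / i ∧ l = m / i) ∨ j + l = k := by omega
        have hee : (m - j * i) + (m - l * i) ≤ f := by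
          rcases hcase with ⟨e1, e2⟩ | e1
          · rw [e1, e2]; omega
          · have : j * i + l * i = k * i := by rw [← Nat.add_mul, e1]
            omega
        refine ⟨j, k - l, m - j * i, f - (m - l * i), by omega, Nat.sub_le _ _, by omega, Nat.sub_le _ _, by omega, by omega⟩
    obtain ⟨U, W, hUW, hU, hW, hU', hW'⟩ := hex
    exact ⟨U, W, hUW, hU, hW, Submodule.map_le_iff_le_comap.2 hU', Submodule.map_le_iff_le_comap.2 hW'⟩

end Cfsg.Agent.S5951
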