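import Cfsg.Statements.S5952
-- import your own Cfsg.Agent.* helpers here

set_option autoImplicit false
open Cfsg

namespace Cfsg.Agent.S5952

/-- Which dimensions of invariant subspaces a semisimple linear map has. Let `V` be a finite-dimensional vector space over a field `F` and `f` an invertible semisimple linear map of `V`. Suppose `V` is the internal direct sum of the fixed space `C_V(f)` (the eigenspace for 1) and subspaces `U_1, …, U_s`, each `f`-invariant of dimension `a ≥ 1` on which `f` acts irreducibly (no `f`-invariant subspaces other than 0 and `U_j`). Let `0 < m < dim V` and `ℓ = m mod a`. Then `f` leaves some `m`-dimensional subspace invariant if and only if `dim C_V(f) ≥ m`, or `a ≤ m` and `dim C_V(f) ≥ ℓ`. -/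
theorem result {F V : Type*} [Field F] [AddCommGroup V] [Module F V]
    [FiniteDimensional F V] (f : V →ₗ[F] V) (hf : Function.Bijective f) (hss : Module.End.IsSemisimple f)
    {s a : ℕ} (ha : 1 ≤ a) (U : Fin s → Submodule F V)
    (hUinv : ∀ j, (U j).map f ≤ U j) (hUdim : ∀ j, Module.finrank F ↥(U j) = a)
    (hUirr : ∀ j, ∀ W : Submodule F V, W ≤ U j → W.map f ≤ W → W = ⊥ ∨ W = U j)
    (hdec : DirectSum.IsInternal (fun o : Option (Fin s) => o.elim (Module.End.eigenspace f 1) U))
    (m : ℕ) (hm : 0 < m) (hmV : m < Module.finrank F V) :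
    (∃ W : Submodule F V, Module.finrank F ↥W = m ∧ W.map f ≤ W) ↔
    (m ≤ Module.finrank F ↥(Module.End.eigenspace f 1) ∨
      (a ≤ m ∧ m % a ≤ Module.finrank F ↥(Module.End.eigenspace f 1))) := by
  classical
  set E := Module.End.eigenspace f 1 with hE
  have hEinv : ∀ L : Submodule F V, L ≤ E → L.map f ≤ L := by
    intro L hL
    rw [Submodule.map_le_iff_le_comap]
    intro v hv
    have := Module.End.mem_eigenspace_iff.1 (hL hv)
    rw [Submodule.mem_comap, this, one_smul]
    exact hv
  let T : Finset (Fin s) → Submodule F V := fun S => S.sup U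
  have hTinv : ∀ S, (T S).map f ≤ T S := by
    intro S
    induction S using Finset.induction_on with
    | empty => simp [T]
    | insert j S hj ih =>
      simp only [T, Finset.sup_insert, Submodule.map_sup] at ih ⊢
      exact sup_le_sup (hUinv j) ih
  -- independence
  have hdim : ∀ L : Submodule F V, L ≤ E → ∀ S : Finset (Fin s),
      Module.finrank F ↥(L ⊔ T S) = Module.finrank F ↥L + S.card * a := by
    intro L hL S
    induction S using Finset.induction_on with
    | empty => rw [show T ∅ = ⊥ from Finset.sup_empty, sup_bot_eq]; simp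
    | insert j S hj ih =>
      have h1 : Disjoint (U j) (L ⊔ T S) := by
        refine (hdec.submodule_iSupIndep (some j)).mono_right (sup_le ?_ (Finset.sup_le fun i hi => ?_))
        · exact hL.trans (le_iSup₂_of_le (none : Option (Fin s)) (by simp) le_rfl)
        · exact le_iSup₂_of_le (some i) (by simpa using fun h : i = j => hj (h ▸ hi)) le_rfl
      have h2 : L ⊔ T (insert j S) = U j ⊔ (L ⊔ T S) := by
        simp only [T, Finset.sup_insert]
        exact sup_left_comm L (U j) (S.sup U)
      have h3 := Submodule.finrank_sup_add_finrank_inf_eq (U j) (L ⊔ T S)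
      rw [h1.eq_bot, finrank_bot] at h3
      rw [h2, Finset.card_insert_of_notMem hj, add_mul, one_mul]
      have := hUdim j
      omega
  have htop : E ⊔ T Finset.univ = ⊤ := by
    rw [eq_top_iff, ← hdec.submodule_iSup_eq_top]
    refine iSup_le fun o => ?_
    cases o with
    | none => exact le_sup_left
    | some j => exact le_sup_of_le_right (Finset.le_sup (f := U) (Finset.mem_univ j))
  have hV : Module.finrank F V = Module.finrank F ↥E + s * a := by
    have := hdim E le_rfl Finset.univ
    rw [htop, finrank_top, Finset.card_univ, Fintype.card_fin] at this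
    exact this
  constructor
  · rintro ⟨W, hWm, hWf⟩
    have key : ∀ S : Finset (Fin s), ∃ k : ℕ,
        Module.finrank F ↥(W ⊓ (E ⊔ T S)) = Module.finrank F ↥(W ⊓ E) + k * a := by
      intro S
      induction S using Finset.induction_on with
      | empty => exact ⟨0, by rw [show T ∅ = ⊥ from Finset.sup_empty, sup_bot_eq]; simp⟩
      | insert j S hj ih =>
        obtain ⟨k, hk⟩ := ih
        set B := E ⊔ T S with hB
        have hBinv : B.map f ≤ B := by
          rw [hB, Submodule.map_sup]
          exact sup_le_sup (hEinv E le_rfl) (hTinv S)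
        have h2 : E ⊔ T (insert j S) = B ⊔ U j := by
          simp only [T, Finset.sup_insert, hB]
          rw [sup_comm (U j), sup_assoc]
        rw [h2]
        set X := W ⊓ (B ⊔ U j) with hX
        have hXinv : X.map f ≤ X := by
          refine (Submodule.map_inf_le f).trans (inf_le_inf hWf ?_)
          rw [Submodule.map_sup]
          exact sup_le_sup hBinv (hUinv j)
        have hXB : X ⊓ B = W ⊓ B := by
          rw [hX, inf_assoc, inf_of_le_right (le_sup_left : B ≤ B ⊔ U j)]
        have hd := Submodule.finrank_sup_add_finrank_inf_eq X B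
        rw [hXB] at hd
        have hmod : B ⊔ U j ⊓ (X ⊔ B) = X ⊔ B := by
          rw [← sup_inf_assoc_of_le _ (le_sup_right : B ≤ X ⊔ B)]
          exact inf_of_le_right (sup_le inf_le_right le_sup_left)
        have hinv : (U j ⊓ (X ⊔ B)).map f ≤ U j ⊓ (X ⊔ B) := by
          refine (Submodule.map_inf_le f).trans (inf_le_inf (hUinv j) ?_)
          rw [Submodule.map_sup]
          exact sup_le_sup hXinv hBinv
        rcases hUirr j _ inf_le_left hinv with h | h
        · rw [h, sup_bot_eq] at hmod
          rw [← hmod] at hd
          exact ⟨k, by omega⟩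
        · rw [h] at hmod
          rw [← hmod] at hd
          have hd2 := Submodule.finrank_sup_add_finrank_inf_eq B (U j)
          have hinv2 : (U j ⊓ B).map f ≤ U j ⊓ B :=
            (Submodule.map_inf_le f).trans (inf_le_inf (hUinv j) hBinv)
          rw [hUdim, inf_comm B] at hd2
          rcases hUirr j _ inf_le_left hinv2 with h' | h'
          · rw [h', finrank_bot] at hd2
            exact ⟨k + 1, by rw [add_mul, one_mul]; omega⟩
          · rw [h', hUdim] at hd2
            exact ⟨k, by omega⟩
    obtain ⟨k, hk⟩ := key Finset.univ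
    rw [htop, inf_top_eq, hWm] at hk
    have hle : Module.finrank F ↥(W ⊓ E) ≤ Module.finrank F ↥E := Submodule.finrank_mono inf_le_right
    rcases Nat.eq_zero_or_pos k with h | h
    · left
      subst h
      omega
    · right
      refine ⟨?_, ?_⟩
      · have : 1 * a ≤ k * a := Nat.mul_le_mul_right a h
        omega
      · rw [hk, Nat.add_mul_mod_self_right]
        exact (Nat.mod_le _ _).trans hle
  · intro h
    obtain ⟨L, S, hLm⟩ : ∃ (l : ℕ) (S : Finset (Fin s)), l ≤ Module.finrank F ↥E ∧ l + S.card * a = m := by
      rcases h with h | ⟨ham, h⟩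
      · exact ⟨m, ∅, h, by simp⟩
      · rcases le_or_gt (m / a) s with hs | hs
        · obtain ⟨S, hS⟩ := Finset.exists_subset_card_eq (s := (Finset.univ : Finset (Fin s))) (n := m / a)
            (by simpa using hs)
          exact ⟨m % a, S, h, by rw [hS.2, mul_comm]; exact Nat.mod_add_div m a⟩
        · refine ⟨m - s * a, Finset.univ, by omega, ?_⟩
          have h1 : (s + 1) * a ≤ m / a * a := Nat.mul_le_mul_right a hs
          have h2 := Nat.div_mul_le_self m a
          rw [add_mul, one_mul] at h1
          rw [Finset.card_univ, Fintype.card_fin]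
          omega
    obtain ⟨b⟩ : Nonempty (Module.Basis (Fin (Module.finrank F ↥E)) F ↥E) := ⟨Module.finBasis F ↥E⟩
    let L' : Submodule F V := (Submodule.span F (Set.range (b ∘ Fin.castLE hLm.1))).map E.subtype
    have hL' : L' ≤ E := Submodule.map_subtype_le E _
    have hfin : Module.finrank F ↥L' = L := by
      rw [Submodule.finrank_map_subtype_eq, finrank_span_eq_card (b.linearIndependent.comp _ (Fin.castLE_injective _)),
        Fintype.card_fin]
    refine ⟨L' ⊔ T S, by rw [hdim L' hL', hfin]; exact hLm.2, ?_⟩
    rw [Submodule.map_sup]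
    exact sup_le_sup (hEinv L' hL') (hTinv S)

end Cfsg.Agent.S5952
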