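import Cfsg.Statements.S5953
import Cfsg.Agent.GeomClasses.SUNondeg
import Cfsg.Agent.GeomClasses.SUIsotropicDerange
import Cfsg.Agent.GeomClasses.SUDerangeTools

set_option autoImplicit false
open scoped MatrixGroups
open Cfsg

namespace Cfsg.Agent.S5953

/-- Elements of prime order of PSU_n(q) with no fixed totally isotropic `m`-space. Here `T = PSU_n(q)` (`n ≥ 3`, `(n, q) ≠ (3, 2)`), realised through the matrices of determinant 1 over the field `F` with `q²` elements preserving the Hermitian form `h(u, v) = Σ u_i v_i^q`; an element of `T` of prime order `r` is such a matrix `x` with `x^r` scalar and `x` not scalar. For `r ≠ p` let `i` be the multiplicative order of `q` modulo `r`, `b = i/2` for `i` even and `b = i` for `i` odd, `c = i, i/2, 2i` according as `i ≡ 0, 2 (mod 4)` or `i` odd, and write `k = n mod c`, `ℓ = m mod b`, `ℓ' = m mod c`, `n' = ⌊n/b⌋`, `m' = ⌊m/b⌋`, `s = (r−1)/b`; `(a)_r` is the `r`-part of `a`. Let `1 ≤ m ≤ n/2` and let `r` be a prime dividing the number of totally isotropic `m`-spaces.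 Then every element of `T` of order `r` fixes a totally isotropic `m`-space if and only if either (i) `r = 2`, `p ≠ 2`, and (`m < n/2` or `(q+1)_2 ≤ (n)_2`); or (ii) `r ≠ p`, `r > 2`, `b ≤ m`, `k ≥ 2ℓ`, and either `i ≢ 2 (mod 4)`, or `i ≡ 2 (mod 4)`, `n' − 2m' ≥ s` and (`i > 2`, or `i = 2` and (`r ∣ m` or `(q+1)_r ≥ (n)_r`)). -/
theorem result {F : Type*} [Field F] [Fintype F] {p : ℕ} [Fact p.Prime] [CharP F p] {q : ℕ} (hq : Fintype.card F = q ^ 2)
    (n m : ℕ) (hn : 3 ≤ n) (hT : (n, q) ≠ (3, 2)) (hm : 1 ≤ m) (hmn : 2 * m ≤ n)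
    (r : ℕ) [Fact r.Prime]
    (hrΩ : r ∣ Nat.card {W : Submodule F (Fin n → F) // Module.finrank F ↥W = m ∧ (∀ u ∈ W, ∀ v ∈ W, Cfsg.hermForm n F q u v = 0)})
    (i b c : ℕ) (hi : i = orderOf (q : ZMod r)) (hb : b = if Even i then i / 2 else i)
    (hc : c = if i % 4 = 0 then i else if i % 4 = 2 then i / 2 else 2 * i) :
    (∀ x : Matrix.SpecialLinearGroup (Fin n) F, x ∈ Cfsg.SU n F q →
      (∃ z : F, ((x ^ r : Matrix.SpecialLinearGroup (Fin n) F) : Matrix (Fin n) (Fin n) F) = z • (1 : Matrix (Fin n) (Fin n) F)) →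
      (∀ z : F, (x : Matrix (Fin n) (Fin n) F) ≠ z • (1 : Matrix (Fin n) (Fin n) F)) →
      ∃ W : Submodule F (Fin n → F), Module.finrank F ↥W = m ∧ (∀ u ∈ W, ∀ v ∈ W, Cfsg.hermForm n F q u v = 0) ∧
        W.map (Matrix.toLin' (x : Matrix (Fin n) (Fin n) F)) ≤ W) ↔
    ((r = 2 ∧ p ≠ 2 ∧ (2 * m < n ∨ padicValNat 2 (q + 1) ≤ padicValNat 2 n)) ∨
     (r ≠ p ∧ 2 < r ∧ b ≤ m ∧ 2 * (m % b) ≤ n % c ∧
       (i % 4 ≠ 2 ∨ (i % 4 = 2 ∧ (r - 1) / b + 2 * (m / b) ≤ n / b ∧
         (2 < i ∨ (i = 2 ∧ (r ∣ m ∨ padicValNat r n ≤ padicValNat r (q + 1)))))))) := by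
  classical
  have hp : p.Prime := Fact.out
  have hr : r.Prime := Fact.out
  obtain ⟨f₀, -, hf₀⟩ := FiniteField.card F p
  have hqp : q ^ 2 = p ^ (f₀ : ℕ) := hq.symm.trans hf₀
  have hq2 := Cfsg.Agent.Forms.two_le_q hq
  have : NeZero n := ⟨by omega⟩
  obtain ⟨l, hl1, hl2, hl⟩ := GeomClasses.SUIsotropic.exists_dvd hq hr hmn hrΩ
  have hrp : r ≠ p := by
    rintro rfl
    have h1 : r ∣ q := hp.dvd_of_dvd_pow (hqp ▸ dvd_pow_self r f₀.pos.ne')
    rw [← ZMod.natCast_eq_zero_iff] at h1
    rw [h1, neg_zero, zero_pow (by omega)] at hl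
    exact zero_ne_one hl
  have hrq : ¬ r ∣ q := fun h =>
    hrp ((Nat.prime_dvd_prime_iff_eq hr hp).1 (hr.dvd_of_dvd_pow (hqp ▸ dvd_pow h two_ne_zero)))
  have hrF : (r : F) ≠ 0 := fun h =>
    hrp (((Nat.prime_dvd_prime_iff_eq hp hr).1 ((CharP.cast_eq_zero_iff F p r).1 h)).symm)
  -- deranged endomorphisms give deranged elements
  have lift : ∀ (T : Module.End F (Fin n → F)) (z : F), T ^ r = z • 1 → LinearMap.det T = 1 →
      (∀ u v, Cfsg.hermForm n F q (T u) (T v) = Cfsg.hermForm n F q u v) → (∀ e : F, T ≠ e • 1) →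
      (∀ x : Matrix.SpecialLinearGroup (Fin n) F, x ∈ Cfsg.SU n F q →
        (∃ z : F, ((x ^ r : Matrix.SpecialLinearGroup (Fin n) F) : Matrix (Fin n) (Fin n) F) = z • (1 : Matrix (Fin n) (Fin n) F)) →
        (∀ z : F, (x : Matrix (Fin n) (Fin n) F) ≠ z • (1 : Matrix (Fin n) (Fin n) F)) →
        ∃ W : Submodule F (Fin n → F), Module.finrank F ↥W = m ∧ (∀ u ∈ W, ∀ v ∈ W, Cfsg.hermForm n F q u v = 0) ∧
          W.map (Matrix.toLin' (x : Matrix (Fin n) (Fin n) F)) ≤ W) →
      ∃ W : Submodule F (Fin n → F), GeomClasses.SUIsotropic.TI q W ∧ Module.finrank F W = m ∧ ∀ v ∈ W, T v ∈ W := by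
    intro T z hT hdet hTB hns H
    obtain ⟨x, hx, hxr⟩ := GeomClasses.SubspaceDerange.sl_of_end hT hdet
    obtain ⟨W, hWd, hWn, hWi⟩ := H x (fun u v => by
      have := hTB u v
      rw [← hx] at this
      exact this) ⟨z, hxr⟩ (fun e he => hns e (by rw [← hx, he, map_smul, Matrix.toLin'_one]; rfl))
    refine ⟨W, hWn, hWd, fun v hv => ?_⟩
    have := hWi ⟨v, hv, rfl⟩
    rwa [hx] at this
  -- invariant subspaces give fixed points
  have back : (∀ (T : Module.End F (Fin n → F)) (z : F), T ^ r = z • 1 → LinearMap.det T = 1 →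
      (∀ u v, Cfsg.hermForm n F q (T u) (T v) = Cfsg.hermForm n F q u v) →
      ∃ W : Submodule F (Fin n → F), GeomClasses.SUIsotropic.TI q W ∧ Module.finrank F W = m ∧ ∀ v ∈ W, T v ∈ W) →
      ∀ x : Matrix.SpecialLinearGroup (Fin n) F, x ∈ Cfsg.SU n F q →
        (∃ z : F, ((x ^ r : Matrix.SpecialLinearGroup (Fin n) F) : Matrix (Fin n) (Fin n) F) = z • (1 : Matrix (Fin n) (Fin n) F)) →
        (∀ z : F, (x : Matrix (Fin n) (Fin n) F) ≠ z • (1 : Matrix (Fin n) (Fin n) F)) →
        ∃ W : Submodule F (Fin n → F), Module.finrank F ↥W = m ∧ (∀ u ∈ W, ∀ v ∈ W, Cfsg.hermForm n F q u v = 0) ∧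
          W.map (Matrix.toLin' (x : Matrix (Fin n) (Fin n) F)) ≤ W := by
    intro G x hx hxr _
    obtain ⟨z, hz⟩ := hxr
    obtain ⟨hT, hdet⟩ := GeomClasses.SubspaceDerange.end_of_sl x hz
    obtain ⟨W, hWn, hWd, hWi⟩ := G _ z hT hdet fun u v => hx u v
    refine ⟨W, hWd, hWn, ?_⟩
    rintro _ ⟨v, hv, rfl⟩
    exact hWi v hv
  by_cases hr2 : r = 2
  · -- involutions
    subst hr2
    have hp2 : p ≠ 2 := fun h => hrp h.symm
    have h2F : (2 : F) ≠ 0 := by simpa using hrF
    have hodd : q % 2 = 1 := Nat.two_dvd_ne_zero.1 hrq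
    have hev : Even (q + 1) := Nat.even_iff.2 (by omega)
    have h21 : q ^ 2 - 1 = (q + 1) * (q - 1) := by rw [← Nat.sq_sub_sq, one_pow]
    constructor
    · intro H
      refine Or.inl ⟨rfl, hp2, ?_⟩
      by_contra hcon
      push_neg at hcon
      have hn2 : n = 2 * m := by omega
      set a := padicValNat 2 (q + 1)
      set v := padicValNat 2 n
      obtain ⟨u, hu, hua, hua'⟩ := GeomClasses.SUDerangeTools.exists_order hq Nat.prime_two (a := v + 1) (by omega)
        ((pow_dvd_pow 2 hcon.2).trans pow_padicValNat_dvd)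
      rw [Nat.add_sub_cancel] at hua'
      obtain ⟨k, hk⟩ : 2 ^ v ∣ n := pow_padicValNat_dvd
      have hko : Odd k := by
        refine Nat.odd_iff.2 (Nat.two_dvd_ne_zero.1 fun h2 => ?_)
        obtain ⟨s, rfl⟩ := h2
        exact pow_succ_padicValNat_not_dvd (p := 2) (show n ≠ 0 by omega) ⟨s, hk.trans (by rw [pow_succ]; ring)⟩
      have hum : u ^ 2 ^ v = -1 := by
        refine (mul_self_eq_one_iff.1 ?_).resolve_left hua'
        rw [← pow_two, ← pow_mul, ← pow_succ, hua]
      have hun : u ^ n = -1 := by rw [hk, pow_mul, hum, hko.neg_one_pow]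
      let sg : Fin n → F := fun x => if x = 0 then -u else u
      let T : Module.End F (Fin n → F) :=
        { toFun := fun v x => sg x * v x
          map_add' := fun u v => funext fun x => by simp [mul_add]
          map_smul' := fun a v => funext fun x => by simp [mul_left_comm] }
      have hTv : ∀ v x, T v x = sg x * v x := fun v x => rfl
      have hsg : ∀ x, sg x * sg x ^ q = 1 := fun x => by
        rw [← pow_succ']
        simp only [sg]
        split_ifs
        · rw [hev.neg_pow, hu]
        · exact hu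
      have hTB : ∀ v w, Cfsg.hermForm n F q (T v) (T w) = Cfsg.hermForm n F q v w := fun v w => by
        simp only [Cfsg.hermForm]
        refine Finset.sum_congr rfl fun x _ => ?_
        rw [hTv, hTv, mul_pow, mul_mul_mul_comm, hsg, one_mul]
      have hT2 : T ^ 2 = (u ^ 2) • 1 := LinearMap.ext fun v => funext fun x => by
        rw [pow_two T, Module.End.mul_apply, hTv, hTv, ← mul_assoc]
        simp only [LinearMap.smul_apply, Module.End.one_apply, Pi.smul_apply, smul_eq_mul, sg]
        split_ifs <;> ring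
      obtain ⟨W, hWt, hWd, hWi⟩ := lift T _ hT2 (by
        rw [show T = Matrix.toLin' (Matrix.diagonal sg) from LinearMap.ext fun v => funext fun x => by
          rw [Matrix.toLin'_apply, Matrix.mulVec_diagonal, hTv], LinearMap.det_toLin', Matrix.det_diagonal,
          ← Finset.mul_prod_erase Finset.univ sg (Finset.mem_univ 0), Finset.prod_congr rfl (fun x hx => show sg x = u from
            if_neg (Finset.ne_of_mem_erase hx)), Finset.prod_const, Finset.card_erase_of_mem (Finset.mem_univ 0),
          Finset.card_univ, Fintype.card_fin, show sg 0 = -u from if_pos rfl, neg_mul, ← pow_succ',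
          Nat.sub_add_cancel (by omega : 1 ≤ n), hun, neg_neg]) hTB (fun e he => by
        have h0 := congrArg (fun f : Module.End F (Fin n → F) => f (Pi.single 0 1) 0) he
        have h1 := congrArg (fun f : Module.End F (Fin n → F) => f (Pi.single ⟨1, by omega⟩ 1) ⟨1, by omega⟩) he
        simp only [hTv, LinearMap.smul_apply, Module.End.one_apply, Pi.smul_apply, Pi.single_eq_same, smul_eq_mul,
          mul_one] at h0 h1
        have e0 : sg 0 = -u := if_pos rfl
        have e1 : sg ⟨1, by omega⟩ = u := if_neg (Fin.ne_of_val_ne (by simp))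
        rw [e0] at h0
        rw [e1] at h1
        have : (2 : F) * u = 0 := by linear_combination h1 - h0
        have hu0 : u ≠ 0 := fun h => by rw [h, zero_pow (Nat.succ_ne_zero q)] at hu; exact zero_ne_one hu
        exact hu0 ((mul_eq_zero.1 this).resolve_left h2F)) H
      let K : Submodule F (Fin n → F) := LinearMap.ker (LinearMap.proj (R := F) (φ := fun _ : Fin n => F) 0)
      have hWK : W ≤ K := by
        intro v hv
        have hu0 : u ≠ 0 := fun h => by rw [h, zero_pow (Nat.succ_ne_zero q)] at hu; exact zero_ne_one hu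
        have hmem : (u • v - T v) ∈ W := sub_mem (W.smul_mem u hv) (hWi v hv)
        have hiso := hWt _ hmem _ hmem
        rw [show u • v - T v = Pi.single 0 (2 * u * v 0) from funext fun x => by
          rcases eq_or_ne x 0 with rfl | hx
          · simp [hTv, sg]; ring
          · simp [hTv, sg, hx],
          Cfsg.hermForm, Finset.sum_eq_single 0 (fun c _ hc => by simp [hc]) (by simp)] at hiso
        simp only [Pi.single_eq_same, ← pow_succ'] at hiso
        exact (mul_eq_zero.1 ((pow_eq_zero_iff (Nat.succ_ne_zero q)).1 hiso)).resolve_left (mul_ne_zero h2F hu0)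
      have hKn : GeomClasses.Unitary.NonDeg q K := by
        intro v hv h
        funext x
        rcases eq_or_ne x 0 with rfl | hx
        · exact hv
        · have := h (Pi.single x 1) (by simp [K, hx.symm])
          rw [Cfsg.hermForm, Finset.sum_eq_single x (fun c _ hc => by
            rw [Pi.single_eq_of_ne hc, zero_pow (by omega), mul_zero]) (by simp)] at this
          simpa using this
      have hKd : Module.finrank F K < n := by
        refine (Submodule.finrank_lt ?_).trans_eq (Module.finrank_fin_fun F)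
        intro h
        have : (Pi.single 0 1 : Fin n → F) ∈ K := h ▸ Submodule.mem_top
        simp [K] at this
      have := GeomClasses.SUIsotropic.ti_le hq hKn hWK hWt
      omega
    · intro hcond
      have hcond' : 2 * m < n ∨ padicValNat 2 (q + 1) ≤ padicValNat 2 n := by
        rcases hcond with ⟨-, -, h⟩ | ⟨-, h, -⟩
        · exact h
        · exact absurd h (lt_irrefl 2)
      refine back fun T z hT hdet hTB => ?_
      have hz := GeomClasses.SUDerangeTools.scalar_norm hq (by omega) hTB hT
      have hz0 : z ≠ 0 := fun h => by rw [h, zero_pow (Nat.succ_ne_zero q)] at hz; exact zero_ne_one hz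
      obtain ⟨w, hw⟩ : ∃ w : F, w ^ 2 = z := by
        refine (GeomClasses.SubspaceDerange.exists_root_iff hq (h21 ▸ (Dvd.dvd.mul_right (by omega) _)) hz0).2 ?_
        rw [h21, Nat.mul_div_assoc _ (show 2 ∣ q - 1 by omega), pow_mul, hz, one_pow]
      have hw0 : w ≠ 0 := fun e => by rw [e, zero_pow two_ne_zero] at hw; exact hz0 hw.symm
      have hTT : T * T = (w * w) • 1 := by rw [← pow_two, hT, ← pow_two, hw]
      have hsq : (w * w ^ q) * (w * w ^ q) = 1 := by
        rw [← pow_succ', ← pow_two, ← pow_mul, mul_comm, pow_mul, hw, hz]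
      rcases mul_self_eq_one_iff.1 hsq with hww | hww
      swap
      · have h1 := GeomClasses.SUNondeg.root_halves hq hTB h2F hww hTT (X := ⊤) (fun _ _ => trivial)
          (GeomClasses.SUStructure.nonDeg_top hq)
        rw [top_inf_eq, finrank_top, Module.finrank_fin_fun] at h1
        obtain ⟨W, -, hW, hWd⟩ := GeomClasses.SubspaceDerange.exists_between
          (bot_le (a := LinearMap.ker (T - w • 1))) (d := m) (by rw [finrank_bot]; omega) (by omega)
        have hmem : ∀ v ∈ W, T v = w • v := fun v hv => sub_eq_zero.1 (hW hv)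
        exact ⟨W, fun a ha b hb => GeomClasses.SUNondeg.root_isotropic hq hTB h2F hww (Or.inl rfl) (hmem a ha) (hmem b hb),
          hWd, fun v hv => by rw [hmem v hv]; exact W.smul_mem w hv⟩
      -- an involution up to a scalar
      obtain ⟨hS, hback⟩ := GeomClasses.SubspaceDerange.scaled (r := 2) hw hz0 hT
      set S := w⁻¹ • T with hSdef
      have hSB : ∀ u v, Cfsg.hermForm n F q (S u) (S v) = Cfsg.hermForm n F q u v := fun u v => by
        simp only [hSdef, LinearMap.smul_apply]
        rw [GeomClasses.Unitary.hh_smul_left hq, GeomClasses.Unitary.hh_smul_right hq, hTB, ← mul_assoc, inv_pow,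
          ← mul_inv, hww, inv_one, one_mul]
      have hinj : Function.Injective S := fun a b h => by
        have := congrArg S h
        rwa [← Module.End.mul_apply, ← Module.End.mul_apply, ← pow_two, hS, Module.End.one_apply, Module.End.one_apply] at this
      have hKn : GeomClasses.Unitary.NonDeg q (LinearMap.ker (S - 1)) := by
        have := GeomClasses.SUStructure.nd_fixed hq hSB hS hrF (W := ⊤) (fun _ _ => trivial) (GeomClasses.SUStructure.nonDeg_top hq)
        rwa [top_inf_eq] at this
      set K := LinearMap.ker (S - 1)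
      obtain ⟨hMn, hMd, -⟩ := GeomClasses.SUStructure.nd_split hq hKn (GeomClasses.SUStructure.nonDeg_top hq) le_top
      rw [top_inf_eq] at hMn hMd
      rw [finrank_top, Module.finrank_fin_fun] at hMd
      set M := Cfsg.Agent.Forms.perp (Cfsg.Agent.Forms.hermB n hq) K
      have hc' := GeomClasses.Unitary.isCompl_perp' hq hKn
      have hK : ∀ v ∈ K, S v = v := fun v hv => sub_eq_zero.1 hv
      have hM : ∀ v ∈ M, S v = -v := fun v hv => by
        refine eq_neg_iff_add_eq_zero.2 (Submodule.disjoint_def.1 hc'.disjoint _ ?_ (add_mem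
          (GeomClasses.SUStructure.orth_invariant hq hSB hinj (fun w hw => by rwa [hK w hw]) v hv) hv))
        show (S - 1) _ = 0
        rw [LinearMap.sub_apply, map_add, ← Module.End.mul_apply, ← pow_two, hS, Module.End.one_apply, Module.End.one_apply]
        abel
      have hsum : m ≤ Module.finrank F K / 2 + Module.finrank F M / 2 := by
        by_contra hlt
        have hn2 : n = 2 * m := by omega
        have hK1 : Module.finrank F M % 2 = 1 := by omega
        -- the determinant
        have hdet' : LinearMap.det S = (-1) ^ Module.finrank F M := by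
          set e := Submodule.prodEquivOfIsCompl K M hc'
          have h : S = e.toLinearMap ∘ₗ ((1 : Module.End F K).prodMap ((-1 : F) • (1 : Module.End F M))) ∘ₗ e.symm.toLinearMap := by
            refine LinearMap.ext fun x => ?_
            obtain ⟨⟨a, a'⟩, rfl⟩ := e.surjective x
            simp [e, hK _ a.2, hM _ a'.2]
          rw [h, LinearMap.det_conj, LinearMap.det_prodMap, LinearMap.det_smul, map_one, map_one, one_mul, mul_one]
        rw [hSdef, LinearMap.det_smul, hdet, mul_one, Module.finrank_fin_fun, (Nat.odd_iff.2 hK1).neg_one_pow, inv_pow,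
          inv_eq_iff_eq_inv, inv_neg, inv_one] at hdet'
        have hv := hcond'.resolve_left (by omega)
        obtain ⟨t, ht⟩ : 2 ^ padicValNat 2 (q + 1) ∣ n := (pow_dvd_pow 2 hv).trans pow_padicValNat_dvd
        obtain ⟨s, hs⟩ : 2 ^ padicValNat 2 (q + 1) ∣ q + 1 := pow_padicValNat_dvd
        have hso : Odd s := by
          refine Nat.odd_iff.2 (Nat.two_dvd_ne_zero.1 fun h2 => ?_)
          obtain ⟨s', rfl⟩ := h2
          exact pow_succ_padicValNat_not_dvd (p := 2) (show q + 1 ≠ 0 by omega) ⟨s', hs.trans (by rw [pow_succ]; ring)⟩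
        have h1 : ((-1 : F)) ^ s = 1 := by
          rw [← hdet', ht, ← pow_mul, mul_right_comm, ← hs, pow_mul, pow_succ', hww, one_pow]
        rw [hso.neg_one_pow] at h1
        exact h2F (by linear_combination -h1)
      obtain ⟨E₁, hE₁K, hE₁, hd₁⟩ := GeomClasses.SUIsotropic.exists_ti_half hq (min m (Module.finrank F K / 2)) hKn (by omega)
      obtain ⟨E₂, hE₂M, hE₂, hd₂⟩ := GeomClasses.SUIsotropic.exists_ti_half hq (m - min m (Module.finrank F K / 2)) hMn (by omega)
      refine ⟨E₁ ⊔ E₂, GeomClasses.SUIsotropic.ti_sup hq hE₁ hE₂ (fun u hu v hv => GeomClasses.Unitary.hh_comm_zero hq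
        ((GeomClasses.Unitary.mem_perp_iff hq).1 (hE₂M hv) u (hE₁K hu))), ?_, hback _ fun v hv => ?_⟩
      · rw [GeomClasses.SubspaceDerange.finrank_sup_of_disjoint (le_bot_iff.1 ((inf_le_inf hE₁K hE₂M).trans
          hc'.inf_eq_bot.le)), hd₁, hd₂]
        omega
      · obtain ⟨x, hx, y, hy, rfl⟩ := Submodule.mem_sup.1 hv
        rw [map_add, hK x (hE₁K hx), hM y (hE₂M hy)]
        exact add_mem (Submodule.mem_sup_left hx) (Submodule.mem_sup_right (neg_mem hy))
  -- odd primes
  have hr3 : 2 < r := lt_of_le_of_ne hr.two_le (Ne.symm hr2)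
  obtain ⟨hi0, hb', hc', hi2, hic⟩ := GeomClasses.SUDerangeTools.order_facts hr3 hrq hi hb hc
  obtain ⟨hb0, -⟩ := GeomClasses.SubspaceDerange.dvd_pow_sub_one (fun h => hrq (hr.dvd_of_dvd_pow h)) hb'
  have hE : i % 4 = 2 ↔ (-(q : ZMod r)) ^ b = 1 := by
    have hcE : (c = b ↔ (-(q : ZMod r)) ^ b = 1) := by
      rw [hc']; split_ifs with h
      · exact iff_of_true rfl h
      · exact iff_of_false (by omega) h
    rw [← hcE]
    by_cases he : Even i
    · rw [if_pos he] at hb
      rw [Nat.even_iff] at he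
      rcases (show i % 4 = 0 ∨ i % 4 = 2 by omega) with h | h
      · rw [if_pos h] at hc; omega
      · rw [if_neg (by omega), if_pos h] at hc; omega
    · rw [if_neg he] at hb
      rw [Nat.not_even_iff] at he
      rw [if_neg (by omega), if_neg (by omega)] at hc
      omega
  set t := (r - 1) / b with ht'
  have hbd : b ∣ r - 1 := by
    rw [hb']
    exact orderOf_dvd_of_pow_eq_one (ZMod.pow_card_sub_one_eq_one fun h =>
      hrq (hr.dvd_of_dvd_pow ((ZMod.natCast_eq_zero_iff _ r).1 h)))
  have ht : t * b = r - 1 := Nat.div_mul_cancel hbd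
  have hcl : c ∣ l := GeomClasses.SUDerangeTools.c_dvd hb' hc' hl
  have hc0 : 0 < c := Nat.pos_of_dvd_of_pos hcl (by omega)
  have hcn : c ≤ n := (Nat.le_of_dvd (by omega) hcl).trans hl2
  have hkm : n % c < 2 * m := by
    obtain ⟨w, rfl⟩ := hcl
    have hle : w ≤ n / c := (Nat.le_div_iff_mul_le hc0).2 (by rw [mul_comm]; exact hl2)
    have := Nat.mul_le_mul_left c hle
    have := Nat.div_add_mod n c
    omega
  have hcrit : ∀ P : Prop, (((r = 2 ∧ p ≠ 2 ∧ (2 * m < n ∨ padicValNat 2 (q + 1) ≤ padicValNat 2 n)) ∨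
      (r ≠ p ∧ 2 < r ∧ P))) ↔ P := fun P =>
    ⟨fun h => (h.resolve_left fun h => hr2 h.1).2.2, fun h => Or.inr ⟨hrp, hr3, h⟩⟩
  rw [hcrit]
  constructor
  · intro H
    have hmk : 2 * (m % b) ≤ n % c := by
      by_cases hi22 : i = 2
      · have hb1 : b = 1 := by rw [hb, hi22]; rfl
        rw [hb1, Nat.mod_one]; omega
      by_contra hcon
      have hcop : Nat.Coprime r (q + 1) := hr.coprime_iff_not_dvd.2 fun h => hi22 (hi2.2 h)
      have hgcd : ∀ a : F, a ^ r = 1 → a ^ (q + 1) = 1 → a = 1 := fun a h1 h2 => by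
        have := pow_gcd_eq_one.2 ⟨h1, h2⟩
        rwa [hcop.gcd_eq_one, pow_one] at this
      obtain ⟨T, hTr, hTB, hker⟩ := GeomClasses.SUNondeg.exists_moving (n := n) hq hrF hrq hb' hc'
        (j := n / c) (Nat.div_mul_le_self _ _)
      rw [show n - n / c * c = n % c by have := Nat.div_add_mod' n c; omega] at hker
      obtain ⟨W, hWt, hWd, hWi⟩ := lift T 1 (by rw [one_smul, hTr])
        (hgcd _ (by rw [← map_pow, hTr, map_one]) (GeomClasses.SUNondeg.det_norm hq hTB)) hTB (fun e he => by
        have he1 : e ^ r = 1 := by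
          have h := congrArg (fun f : Module.End F (Fin n → F) => f (Pi.single 0 1) 0) hTr
          simpa [he, smul_pow] using h
        have he2 : e ^ (q + 1) = 1 := GeomClasses.SUDerangeTools.scalar_norm hq (r := 1) (by omega) hTB (by rw [pow_one, he])
        rw [he, hgcd e he1 he2, one_smul, sub_self, LinearMap.ker_zero, finrank_top, Module.finrank_fin_fun] at hker
        have := Nat.mod_lt n hc0
        omega) H
      have hKn : GeomClasses.Unitary.NonDeg q (LinearMap.ker (T - 1)) := by
        have := GeomClasses.SUStructure.nd_fixed hq hTB hTr hrF (W := ⊤) (fun _ _ => trivial) (GeomClasses.SUStructure.nonDeg_top hq)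
        rwa [top_inf_eq] at this
      have hle := GeomClasses.SUIsotropic.ti_le hq hKn (X := W ⊓ LinearMap.ker (T - 1)) inf_le_right
        fun a ha c hc => hWt a ha.1 c hc.1
      rw [hker] at hle
      have hmod := GeomClasses.SubspaceDerange.dim_mod hq (fun h => hrq (hr.dvd_of_dvd_pow h)) hb' hTr hWi
      rw [hWd, Nat.ModEq] at hmod
      have := Nat.mod_le (Module.finrank F ↥(W ⊓ LinearMap.ker (T - 1))) b
      omega
    have hbm : b ≤ m := by
      by_contra hlt
      rw [Nat.mod_eq_of_lt (by omega)] at hmk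
      omega
    refine ⟨hbm, hmk, ?_⟩
    by_cases hi4 : i % 4 = 2
    swap
    · exact Or.inl hi4
    refine Or.inr ⟨hi4, ?_⟩
    have hEb := hE.1 hi4
    have hcb : c = b := by rw [hc', if_pos hEb]
    have ht1 : 1 ≤ t := Nat.div_pos (Nat.le_of_dvd (by omega) hbd) hb0
    have hnd := Nat.div_add_mod' n b
    have hmd := Nat.div_add_mod' m b
    by_cases hi22 : i = 2
    · have hb1 : b = 1 := by rw [hb, hi22]; rfl
      have hrd : r ∣ q + 1 := hi2.1 hi22
      have hfirst : t + 2 * (m / b) ≤ n / b := by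
        by_contra hcon
        have hr1 : Even (r - 1) := (hr.even_sub_one hr2)
        rw [ht', hb1, Nat.div_one, Nat.div_one, Nat.div_one] at hcon
        obtain ⟨T, hTr, hTB, hdet, hns, hprop⟩ := GeomClasses.SUIsotropicDerange.exists_diag (n := n) hq hr2 hrd
          (u := min (n - n % 2) (r - 1)) (min_le_right _ _) ((min_le_left _ _).trans (Nat.sub_le _ _))
          (by
            rcases min_choice (n - n % 2) (r - 1) with h | h <;> rw [h]
            · exact Nat.even_iff.2 (by omega)
            · exact hr1)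
          (le_min (by omega) (by omega))
        obtain ⟨W, hWt, hWd, hWi⟩ := lift T 1 (by rw [one_smul, hTr]) hdet hTB hns H
        have := hprop W hWi hWt
        omega
      refine ⟨hfirst, Or.inr ⟨hi22, ?_⟩⟩
      by_contra hcon
      push_neg at hcon
      have hnd1 : ¬ r ∣ q - 1 := fun h => by
        have := Nat.dvd_sub hrd h
        rw [show q + 1 - (q - 1) = 2 by omega] at this
        have := Nat.le_of_dvd (by norm_num) this
        omega
      have hcop : Nat.Coprime r (q - 1) := hr.coprime_iff_not_dvd.2 hnd1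
      have h21 : q ^ 2 - 1 = (q + 1) * (q - 1) := by rw [← Nat.sq_sub_sq, one_pow]
      set a := padicValNat r (q + 1)
      have ha : 1 ≤ a := one_le_padicValNat_of_dvd (by omega) hrd
      obtain ⟨z, hz, hza, hza'⟩ := GeomClasses.SUDerangeTools.exists_order hq hr ha pow_padicValNat_dvd
      obtain ⟨k, hk⟩ : r ∣ n := by
        have h1 : r ^ (a + 1) ∣ n := (pow_dvd_pow r hcon.2).trans pow_padicValNat_dvd
        exact (dvd_pow_self r (by omega)).trans h1
      have hnp : ∀ b : F, b ^ r ≠ z := by
        intro b hb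
        have hb0 : b ≠ 0 := fun h => by
          rw [← hb, h, zero_pow hr.ne_zero, zero_pow (Nat.succ_ne_zero q)] at hz
          exact zero_ne_one hz
        have h1 : b ^ r ^ (a + 1) = 1 := by rw [pow_succ', pow_mul, hb, hza]
        have h2 : b ^ (q ^ 2 - 1) = 1 := hq ▸ FiniteField.pow_card_sub_one_eq_one b hb0
        obtain ⟨j, hj, hjg⟩ := (Nat.dvd_prime_pow hr).1 (Nat.gcd_dvd_left (r ^ (a + 1)) (q ^ 2 - 1))
        have h3 := pow_gcd_eq_one.2 ⟨h1, h2⟩
        rw [hjg] at h3
        by_cases hja : j ≤ a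
        · apply hza'
          obtain ⟨d, hd⟩ := Nat.exists_eq_add_of_le hja
          rw [← hb, ← pow_mul, ← pow_succ', Nat.sub_add_cancel ha, hd, pow_add, pow_mul, h3, one_pow]
        · have h4 : r ^ (a + 1) ∣ q ^ 2 - 1 := by
            rw [show a + 1 = j by omega, ← hjg]; exact Nat.gcd_dvd_right _ _
          rw [h21] at h4
          exact pow_succ_padicValNat_not_dvd (p := r) (show q + 1 ≠ 0 by omega)
            (((hcop.pow_left (a + 1))).dvd_of_dvd_mul_right h4)
      obtain ⟨T, hT, hTB⟩ := GeomClasses.SUNondeg.exists_monomial (n := n) hq hz hr.two_le hk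
      obtain ⟨k', hk', hdet', -⟩ := GeomClasses.SubspaceDerange.nonpower hnp hT
      rw [Module.finrank_fin_fun] at hk'
      obtain rfl : k = k' := Nat.eq_of_mul_eq_mul_left hr.pos (hk.symm.trans hk')
      have hzk : z ^ k = 1 := by
        have h1 : r ^ (a + 1) ∣ r * k := hk ▸ (pow_dvd_pow r hcon.2).trans pow_padicValNat_dvd
        rw [pow_succ'] at h1
        obtain ⟨s, hs⟩ := Nat.dvd_of_mul_dvd_mul_left hr.pos h1
        rw [hs, pow_mul, hza, one_pow]
      obtain ⟨W, hWn, hWd, hWi⟩ := lift T z hT (by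
        rw [hdet', (hr.odd_of_ne_two hr2).add_one.neg_one_pow, one_mul, hzk]) hTB (fun e he => hnp e (by
        have h := congrArg (fun f : Module.End F (Fin n → F) => f (Pi.single 0 1) 0) hT
        simpa [he, smul_pow] using h)) H
      exact hcon.1 (hWd ▸ GeomClasses.SubspaceDerange.dvd_of_nonpower hnp hT hWi)
    · refine ⟨?_, Or.inl (by omega)⟩
      by_contra hcon
      have hn1 : 1 ≤ n / b := Nat.div_pos (hcb ▸ hcn) hb0
      obtain ⟨T, hTr, hTB, hker, hprop⟩ := GeomClasses.SUIsotropicDerange.exists_derangement (n := n) hq hrp hrF hrq hb' hEb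
        (u := min (n / b) t) (by rw [← ht]; exact Nat.mul_le_mul_right b (min_le_right _ _))
        ((Nat.mul_le_mul_right b (min_le_left _ _)).trans (Nat.div_mul_le_self _ _))
      have hcop : Nat.Coprime r (q + 1) := hr.coprime_iff_not_dvd.2 fun h => hi22 (hi2.2 h)
      have hgcd : ∀ a : F, a ^ r = 1 → a ^ (q + 1) = 1 → a = 1 := fun a h1 h2 => by
        have := pow_gcd_eq_one.2 ⟨h1, h2⟩
        rwa [hcop.gcd_eq_one, pow_one] at this
      have hupos : 0 < min (n / b) t * b := Nat.mul_pos (lt_min hn1 ht1) hb0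
      obtain ⟨W, hWt, hWd, hWi⟩ := lift T 1 (by rw [one_smul, hTr])
        (hgcd _ (by rw [← map_pow, hTr, map_one]) (GeomClasses.SUNondeg.det_norm hq hTB)) hTB (fun e he => by
        have he1 : e ^ r = 1 := by
          have h := congrArg (fun f : Module.End F (Fin n → F) => f (Pi.single 0 1) 0) hTr
          simpa [he, smul_pow] using h
        have he2 : e ^ (q + 1) = 1 := GeomClasses.SUDerangeTools.scalar_norm hq (r := 1) (by omega) hTB (by rw [pow_one, he])
        rw [he, hgcd e he1 he2, one_smul, sub_self, LinearMap.ker_zero, finrank_top, Module.finrank_fin_fun] at hker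
        omega) H
      have h := hprop W hWi hWt
      rw [hWd] at h
      rcases le_total (n / b) t with hnt | hnt
      · rw [min_eq_left hnt] at h
        rw [hcb] at hkm
        omega
      · rw [min_eq_right hnt] at h
        have h1 := Nat.mul_le_mul_right b (show n / b + 1 ≤ t + 2 * (m / b) by omega)
        have := Nat.mod_lt n hb0
        rw [add_mul, add_mul, one_mul, mul_assoc] at h1
        omega
  · rintro ⟨hbm, hmk, hcase⟩
    refine back fun T z hT hdet hTB => ?_
    have hz := GeomClasses.SUDerangeTools.scalar_norm hq (by omega) hTB hT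
    have hz0 : z ≠ 0 := fun h => by rw [h, zero_pow (Nat.succ_ne_zero q)] at hz; exact zero_ne_one hz
    by_cases hpw : ∃ w : F, w ^ r = z ∧ w * w ^ q = 1
    · obtain ⟨w, hw, hww⟩ := hpw
      obtain ⟨hS, hback⟩ := GeomClasses.SubspaceDerange.scaled hw hz0 hT
      set S := w⁻¹ • T with hSdef
      have hSB : ∀ u v, Cfsg.hermForm n F q (S u) (S v) = Cfsg.hermForm n F q u v := fun u v => by
        simp only [hSdef, LinearMap.smul_apply]
        rw [GeomClasses.Unitary.hh_smul_left hq, GeomClasses.Unitary.hh_smul_right hq, hTB, ← mul_assoc, inv_pow,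
          ← mul_inv, hww, inv_one, one_mul]
      have hinj : Function.Injective S := fun a a' h => by
        have := congrArg (S ^ (r - 1)) h
        rwa [← Module.End.mul_apply, ← Module.End.mul_apply, ← pow_succ, Nat.sub_add_cancel hr.one_lt.le, hS,
          Module.End.one_apply, Module.End.one_apply] at this
      have hmod := GeomClasses.SUStructure.dim_mod hq hSB hS hrF hrq hb' hc' (W := ⊤) (fun _ _ => trivial)
        (GeomClasses.SUStructure.nonDeg_top hq)
      have hKn : GeomClasses.Unitary.NonDeg q (LinearMap.ker (S - 1)) := by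
        have := GeomClasses.SUStructure.nd_fixed hq hSB hS hrF (W := ⊤) (fun _ _ => trivial) (GeomClasses.SUStructure.nonDeg_top hq)
        rwa [top_inf_eq] at this
      rw [top_inf_eq, finrank_top, Module.finrank_fin_fun, Nat.ModEq] at hmod
      set K := LinearMap.ker (S - 1)
      have hK : ∀ v ∈ K, S v = v := fun v hv => sub_eq_zero.1 hv
      obtain ⟨hRn, hRd, -⟩ := GeomClasses.SUStructure.nd_split hq hKn (GeomClasses.SUStructure.nonDeg_top hq) le_top
      rw [top_inf_eq] at hRn hRd
      rw [finrank_top, Module.finrank_fin_fun] at hRd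
      set R := Cfsg.Agent.Forms.perp (Cfsg.Agent.Forms.hermB n hq) K
      have hkf : n % c ≤ Module.finrank F K := hmod ▸ Nat.mod_le _ _
      obtain ⟨g, hg⟩ := (Nat.modEq_iff_dvd' (show Module.finrank F K ≤ n by omega)).1 hmod.symm
      have hmd := Nat.div_add_mod' m b
      obtain ⟨j, hjR, hjc, hjm, hje⟩ : ∃ j, 2 * (j * b) ≤ Module.finrank F R ∧
          (j = 0 ∨ (-(q : ZMod r)) ^ b ≠ 1 ∨ 2 * (j * b) + t * b ≤ Module.finrank F R + b) ∧
          j * b ≤ m ∧ 2 * (m - j * b) ≤ Module.finrank F K := by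
        by_cases hi4 : i % 4 = 2
        · have hEb := hE.1 hi4
          have hcb : c = b := by rw [hc', if_pos hEb]
          have hcase' : t + 2 * (m / b) ≤ n / b := (hcase.resolve_left (not_not.2 hi4)).2.1
          rw [hcb] at hg hmk
          have hnd := Nat.div_add_mod' n b
          have hti := Nat.mul_le_mul_right b hcase'
          rw [add_mul, mul_assoc] at hti
          have ht1 : 1 ≤ t := Nat.div_pos (Nat.le_of_dvd (by omega) hbd) hb0
          rcases le_total (m / b) ((g + 1 - t) / 2) with hle | hle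
          · refine ⟨m / b, ?_, ?_, by omega, ?_⟩
            · have := Nat.mul_le_mul_right b (show 2 * (m / b) ≤ g by
                rcases Nat.eq_zero_or_pos (m / b) with h | h
                · omega
                · omega)
              rw [mul_assoc, mul_comm g] at this
              omega
            · rcases Nat.eq_zero_or_pos (m / b) with h | h
              · exact Or.inl h
              · have := Nat.mul_le_mul_right b (show 2 * (m / b) + t ≤ g + 1 by omega)
                rw [add_mul, add_mul, one_mul, mul_assoc, mul_comm g] at this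
                exact Or.inr (Or.inr (by omega))
            · rw [hcb] at hkf
              omega
          · set j := (g + 1 - t) / 2 with hj
            have hA1 := Nat.mul_le_mul_right b (show j ≤ m / b from hle)
            have hA2 := Nat.mul_le_mul_right b (show g ≤ 2 * j + t by omega)
            rw [add_mul, mul_assoc, mul_comm g] at hA2
            refine ⟨j, ?_, ?_, by omega, by omega⟩
            · have := Nat.mul_le_mul_right b (show 2 * j ≤ g by omega)
              rw [mul_assoc, mul_comm g] at this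
              omega
            · rcases Nat.eq_zero_or_pos j with h | h
              · exact Or.inl h
              · have := Nat.mul_le_mul_right b (show 2 * j + t ≤ g + 1 by omega)
                rw [add_mul, add_mul, one_mul, mul_assoc, mul_comm g] at this
                exact Or.inr (Or.inr (by omega))
        · have hEb : (-(q : ZMod r)) ^ b ≠ 1 := fun h => hi4 (hE.2 h)
          have hcb : c = 2 * b := by rw [hc', if_neg hEb]
          rw [hcb, mul_assoc, mul_comm b g] at hg
          rcases le_total (m / b) g with hle | hle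
          · have := Nat.mul_le_mul_right b hle
            exact ⟨m / b, by omega, Or.inr (Or.inl hEb), by omega, by omega⟩
          · have := Nat.mul_le_mul_right b hle
            exact ⟨g, by omega, Or.inr (Or.inl hEb), by omega, by omega⟩
      have hKi : ∀ v ∈ K, S v ∈ K := fun v hv => by rwa [hK v hv]
      obtain ⟨X, hXR, hXi, hXt, hXd⟩ := GeomClasses.SUIsotropic.exists_ti_sub hq hSB hS hrF hrq hb' ht hr2 j R
        (GeomClasses.SUStructure.orth_invariant hq hSB hinj hKi) hRn
        (by rw [inf_comm]; exact (GeomClasses.Unitary.isCompl_perp' hq hKn).inf_eq_bot) hjR hjc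
      obtain ⟨E, hEK, hEt, hEd⟩ := GeomClasses.SUIsotropic.exists_ti_half hq (m - j * b) hKn hje
      refine ⟨E ⊔ X, GeomClasses.SUIsotropic.ti_sup hq hEt hXt (fun u hu v hv => GeomClasses.Unitary.hh_comm_zero hq
        ((GeomClasses.Unitary.mem_perp_iff hq).1 (hXR hv) u (hEK hu))), ?_, hback _ fun v hv => ?_⟩
      · rw [GeomClasses.SubspaceDerange.finrank_sup_of_disjoint (le_bot_iff.1 ((inf_le_inf hEK hXR).trans
          (GeomClasses.Unitary.isCompl_perp' hq hKn).inf_eq_bot.le)), hEd, hXd]
        omega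
      · obtain ⟨x, hx, y, hy, rfl⟩ := Submodule.mem_sup.1 hv
        rw [map_add, hK x (hEK hx)]
        exact add_mem (Submodule.mem_sup_left hx) (Submodule.mem_sup_right (hXi y hy))
    -- the scalar is no power
    by_cases hi22 : i = 2
    swap
    · exfalso
      apply hpw
      have hcop : Nat.Coprime r (q + 1) := hr.coprime_iff_not_dvd.2 fun h => hi22 (hi2.2 h)
      obtain ⟨a, ha⟩ := Nat.exists_mul_mod_eq_one_of_coprime hcop (by omega : 1 < q + 1)
      refine ⟨z ^ a, ?_, by rw [← pow_succ', ← pow_mul, mul_comm, pow_mul, hz, one_pow]⟩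
      rw [← pow_mul, mul_comm a r, pow_eq_pow_mod (r * a) hz, ha.2, pow_one]
    have hb1 : b = 1 := by rw [hb, hi22]; rfl
    have hrd : r ∣ q + 1 := hi2.1 hi22
    have hnd1 : ¬ r ∣ q - 1 := fun h => by
      have := Nat.dvd_sub hrd h
      rw [show q + 1 - (q - 1) = 2 by omega] at this
      have := Nat.le_of_dvd (by norm_num) this
      omega
    have hcop : Nat.Coprime r (q - 1) := hr.coprime_iff_not_dvd.2 hnd1
    have h21 : q ^ 2 - 1 = (q + 1) * (q - 1) := by rw [← Nat.sq_sub_sq, one_pow]
    have hpw' : ∀ w : F, w ^ r ≠ z := fun w hw => hpw ⟨w, hw, by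
      have hw0 : w ≠ 0 := fun h => hz0 (by rw [← hw, h, zero_pow hr.ne_zero])
      rw [← pow_succ']
      have h1 : (w ^ (q + 1)) ^ r = 1 := by rw [← pow_mul, mul_comm, pow_mul, hw, hz]
      have h2 : (w ^ (q + 1)) ^ (q - 1) = 1 := by
        rw [← pow_mul, ← h21, ← hq, FiniteField.pow_card_sub_one_eq_one w hw0]
      have := pow_gcd_eq_one.2 ⟨h1, h2⟩
      rwa [hcop.gcd_eq_one, pow_one] at this⟩
    obtain ⟨k, hk, hd, -⟩ := GeomClasses.SubspaceDerange.nonpower hpw' hT
    rw [Module.finrank_fin_fun] at hk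
    have hcase' : r ∣ m ∨ padicValNat r n ≤ padicValNat r (q + 1) := by
      rcases hcase with h | ⟨-, -, h | ⟨-, h⟩⟩
      · omega
      · omega
      · exact h
    rcases hcase' with ⟨j, hj⟩ | hv
    · have hinj : Function.Injective T := fun u v h => by
        have h' := congrArg (T ^ (r - 1)) h
        rw [← Module.End.mul_apply, ← Module.End.mul_apply, ← pow_succ, Nat.sub_add_cancel hr.one_lt.le, hT,
          LinearMap.smul_apply, LinearMap.smul_apply] at h'
        exact smul_right_injective _ hz0 h'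
      obtain ⟨s, hs⟩ := hr.odd_of_ne_two hr2
      have hTS : T * T ^ q ^ r = 1 := by
        have hS : ((∑ i ∈ Finset.range r, (-(q : ℤ)) ^ i : ℤ) : ZMod r) = 0 := by
          push_cast
          rw [show (-(q : ZMod r)) = 1 by
            rw [← ZMod.natCast_eq_zero_iff] at hrd; push_cast at hrd; linear_combination -hrd]
          simp
        obtain ⟨S', hS'⟩ := (ZMod.intCast_zmod_eq_zero_iff_dvd _ r).1 hS
        have hgeo := geom_sum_mul_neg (-(q : ℤ)) r
        rw [hS', (hr.odd_of_ne_two hr2).neg_pow] at hgeo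
        obtain ⟨e, he⟩ : r ∣ q ^ r + 1 := by
          refine Int.natCast_dvd_natCast.1 ⟨(1 + q) * S', ?_⟩
          push_cast; linear_combination -hgeo
        have hdvd : q + 1 ∣ e := by
          refine Int.natCast_dvd_natCast.1 ⟨S', ?_⟩
          have he' : ((q : ℤ) ^ r + 1) = r * e := by exact_mod_cast he
          push_cast
          refine mul_left_cancel₀ (show (r : ℤ) ≠ 0 by exact_mod_cast hr.ne_zero) ?_
          linear_combination -hgeo - he'
        obtain ⟨d, rfl⟩ := hdvd
        rw [← pow_succ', he, pow_mul, hT, smul_pow, one_pow, pow_mul, hz, one_pow, one_smul]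
      have hkill : ∀ w : Fin n → F, Polynomial.aeval T (Polynomial.X ^ r - Polynomial.C z) w = 0 := fun w => by
        simp [hT, Algebra.algebraMap_eq_smul_one]
      have hPi := X_pow_sub_C_irreducible_of_prime hr hpw'
      have atom : ∀ X : Submodule F (Fin n → F), (∀ x ∈ X, T x ∈ X) → GeomClasses.Unitary.NonDeg q X → X ≠ ⊥ →
          ∃ U ≤ X, (∀ u ∈ U, T u ∈ U) ∧ GeomClasses.Unitary.NonDeg q U ∧ Module.finrank F U = r := by
        intro X hX hXn hX0
        obtain ⟨u, hu, hu0⟩ := (Submodule.ne_bot_iff X).1 hX0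
        obtain ⟨v, hv, huv⟩ := GeomClasses.SUNondeg.nd_iff.1 hXn u hu hu0
        exact GeomClasses.SUStructure.exists_nd_cyclic hq hTB hinj (Polynomial.monic_X_pow_sub_C z hr.ne_zero)
          Polynomial.natDegree_X_pow_sub_C hX (fun w _ => hkill w)
          (fun U _ hUi hU0 => Nat.le_of_dvd (Nat.pos_of_ne_zero fun e => hU0 (Submodule.finrank_eq_zero.1 e))
            (GeomClasses.SubspaceDerange.dvd_of_nonpower hpw' hT hUi)) ⟨u, hu, v, hv, huv⟩
      suffices key : ∀ j (R : Submodule F (Fin n → F)), (∀ x ∈ R, T x ∈ R) → GeomClasses.Unitary.NonDeg q R →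
          2 * (j * r) ≤ Module.finrank F R →
          ∃ X ≤ R, GeomClasses.SUIsotropic.TI q X ∧ Module.finrank F X = j * r ∧ ∀ x ∈ X, T x ∈ X by
        obtain ⟨X, -, hXt, hXd, hXi⟩ := key j ⊤ (fun _ _ => trivial) (GeomClasses.SUStructure.nonDeg_top hq)
          (by rw [finrank_top, Module.finrank_fin_fun, mul_comm j, ← hj]; exact hmn)
        exact ⟨X, hXt, by rw [hXd, hj, mul_comm], hXi⟩
      intro j
      induction j with
      | zero => exact fun R _ _ _ => ⟨⊥, bot_le, GeomClasses.SUIsotropic.ti_bot hq, by simp,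
          fun v hv => by rw [Submodule.mem_bot] at hv; simp [hv]⟩
      | succ j ih =>
        intro R hR hRn hd
        rw [add_mul, one_mul] at hd ⊢
        have := hr.pos
        obtain ⟨U, hUR, hUi, hUn, hUd⟩ := atom R hR hRn (fun e => by rw [e, finrank_bot] at hd; omega)
        obtain ⟨hYn, hYd, -⟩ := GeomClasses.SUStructure.nd_split hq hUn hRn hUR
        have hYi : ∀ v ∈ R ⊓ Cfsg.Agent.Forms.perp (Cfsg.Agent.Forms.hermB n hq) U,
            T v ∈ R ⊓ Cfsg.Agent.Forms.perp (Cfsg.Agent.Forms.hermB n hq) U :=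
          fun v hv => ⟨hR v hv.1, GeomClasses.SUStructure.orth_invariant hq hTB hinj hUi v hv.2⟩
        obtain ⟨U', hU'Y, hU'i, hU'n, hU'd⟩ := atom _ hYi hYn (fun e => by rw [e, finrank_bot] at hYd; omega)
        have hUU : U' ≤ Cfsg.Agent.Forms.perp (Cfsg.Agent.Forms.hermB n hq) U := hU'Y.trans inf_le_right
        obtain ⟨X₁, hX₁, hX₁i, hX₁t, hX₁d⟩ := GeomClasses.SUIsotropic.exists_pair hq hTB hs hTS
          (Polynomial.monic_X_pow_sub_C z hr.ne_zero) hPi Polynomial.natDegree_X_pow_sub_C hUi hUn hUd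
          (fun w _ => hkill w) hU'i hU'n hU'd (fun w _ => hkill w) hUU
        have hZn := GeomClasses.SUStructure.nd_sup hq hUn hU'n hUU
        have hZR : U ⊔ U' ≤ R := sup_le hUR (hU'Y.trans inf_le_left)
        have hZd := GeomClasses.SUStructure.finrank_sup_perp hq hUn hUU
        have hZi : ∀ v ∈ U ⊔ U', T v ∈ U ⊔ U' := fun v hv => by
          obtain ⟨x, hx, y, hy, rfl⟩ := Submodule.mem_sup.1 hv
          rw [map_add]
          exact add_mem (Submodule.mem_sup_left (hUi x hx)) (Submodule.mem_sup_right (hU'i y hy))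
        obtain ⟨hY'n, hY'd, -⟩ := GeomClasses.SUStructure.nd_split hq hZn hRn hZR
        obtain ⟨X, hXY, hXt, hXd, hXi⟩ := ih (R ⊓ Cfsg.Agent.Forms.perp (Cfsg.Agent.Forms.hermB n hq) (U ⊔ U'))
          (fun v hv => ⟨hR v hv.1, GeomClasses.SUStructure.orth_invariant hq hTB hinj hZi v hv.2⟩) hY'n (by omega)
        refine ⟨X₁ ⊔ X, sup_le (hX₁.trans hZR) (hXY.trans inf_le_left), GeomClasses.SUIsotropic.ti_sup hq hX₁t hXt
          (fun u hu x hx => GeomClasses.Unitary.hh_comm_zero hq
            ((GeomClasses.Unitary.mem_perp_iff hq).1 (hXY hx).2 u (hX₁ hu))), ?_, fun v hv => ?_⟩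
        · rw [GeomClasses.SubspaceDerange.finrank_sup_of_disjoint (le_bot_iff.1 ((inf_le_inf hX₁ (hXY.trans inf_le_right)).trans
            (GeomClasses.Unitary.isCompl_perp' hq hZn).inf_eq_bot.le)), hX₁d, hXd, add_comm]
        · obtain ⟨x, hx, y, hy, rfl⟩ := Submodule.mem_sup.1 hv
          rw [map_add]
          exact add_mem (Submodule.mem_sup_left (hX₁i x hx)) (Submodule.mem_sup_right (hXi y hy))
    · exfalso
      rw [hdet, (hr.odd_of_ne_two hr2).add_one.neg_one_pow, one_mul] at hd
      have hk0 : k ≠ 0 := fun h => by rw [h, mul_zero] at hk; omega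
      have hg : z ^ Nat.gcd k (q + 1) = 1 := pow_gcd_eq_one.2 ⟨hd.symm, hz⟩
      have hgd : Nat.gcd k (q + 1) ∣ (q + 1) / r := by
        obtain ⟨w, hw⟩ := Nat.gcd_dvd_right k (q + 1)
        by_cases hto : r ∣ w
        · obtain ⟨d, rfl⟩ := hto
          exact ⟨d, by conv_lhs => rw [hw, show Nat.gcd k (q + 1) * (r * d) = Nat.gcd k (q + 1) * d * r by ring,
            Nat.mul_div_cancel _ hr.pos]⟩
        · exfalso
          have hv' := congrArg (padicValNat r) hw
          rw [padicValNat.mul (fun h => hk0 (Nat.eq_zero_of_gcd_eq_zero_left h)) (by rintro rfl; exact hto (dvd_zero r)),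
            padicValNat.eq_zero_of_not_dvd hto, add_zero] at hv'
          have hle : padicValNat r (Nat.gcd k (q + 1)) ≤ padicValNat r k :=
            (padicValNat_dvd_iff_le hk0).1 (pow_padicValNat_dvd.trans (Nat.gcd_dvd_left _ _))
          have hvn : padicValNat r n = 1 + padicValNat r k := by
            rw [hk, padicValNat.mul hr.ne_zero hk0, padicValNat_self]
          omega
      obtain ⟨w, hw⟩ := hgd
      obtain ⟨b₀, hb₀⟩ := (GeomClasses.SubspaceDerange.exists_root_iff (r := r) hq (h21 ▸ hrd.mul_right _) hz0).2 (by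
        rw [h21, Nat.mul_comm (q + 1), Nat.mul_div_assoc _ hrd, hw, mul_comm, mul_assoc, pow_mul, hg, one_pow])
      exact hpw' b₀ hb₀

end Cfsg.Agent.S5953
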