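import Cfsg.Statements.S5954
import Cfsg.Agent.GeomClasses.SUNondeg
import Cfsg.Agent.GeomClasses.SUUnipotent
import Cfsg.Agent.GeomClasses.SUDerangeTools
import Cfsg.Agent.Linear.GUUnipotentClasses
import Cfsg.Agent.Linear.JordanTypeParity

set_option autoImplicit false
open scoped MatrixGroups
open Cfsg

namespace Cfsg.Agent.S5954

/-- Elements of prime order of PSU_n(q) with no fixed nondegenerate `m`-space. Here `T = PSU_n(q)` (`n ≥ 3`, `(n, q) ≠ (3, 2)`), realised through the matrices of determinant 1 over the field `F` with `q²` elements preserving the Hermitian form `h(u, v) = Σ u_i v_i^q`; an element of `T` of prime order `r` is such a matrix `x` with `x^r` scalar and `x` not scalar. For `r ≠ p` let `i` be the multiplicative order of `q` modulo `r`, `b = i/2` for `i` even and `b = i` for `i` odd, `c = i, i/2, 2i` according as `i ≡ 0, 2 (mod 4)` or `i` odd, and write `k = n mod c`, `ℓ = m mod b`, `ℓ' = m mod c`, `n' = ⌊n/b⌋`, `m' = ⌊m/b⌋`, `s = (r−1)/b`; `(a)_r` is the `r`-part of `a`. Let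 `1 ≤ m < n/2` and let `r` be a prime dividing the number of nondegenerate `m`-spaces. Then every element of `T` of order `r` fixes a nondegenerate `m`-space if and only if one of: (i) `r = p > 2` and every partition of `n` into parts of size at most `p` contains (as a sub-multiset) a partition of `m`; (ii) `r = p = 2` and (`n` is odd or `m` is even); (iii) `r = 2 ≠ p` and (`n` is odd, or `m` is even, or `(q+1)_2 ≥ (n)_2` and `q ≡ 3 (mod 4)`); (iv) `r ≠ p`, `r > 2`, and either `i ≠ 2`, `c ≤ m` and `k ≥ ℓ'`, or `i = 2` and (`r ∣ m` or `(q+1)_r ≥ (n)_r`). -/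
theorem result {F : Type*} [Field F] [Fintype F] {p : ℕ} [Fact p.Prime] [CharP F p] {q : ℕ} (hq : Fintype.card F = q ^ 2)
    (n m : ℕ) (hn : 3 ≤ n) (hT : (n, q) ≠ (3, 2)) (hm : 1 ≤ m) (hmn : 2 * m < n)
    (r : ℕ) [Fact r.Prime]
    (hrΩ : r ∣ Nat.card {W : Submodule F (Fin n → F) // Module.finrank F ↥W = m ∧ (∀ u ∈ W, u ≠ 0 → ∃ v ∈ W, Cfsg.hermForm n F q u v ≠ 0)})
    (i b c : ℕ) (hi : i = orderOf (q : ZMod r)) (hb : b = if Even i then i / 2 else i)
    (hc : c = if i % 4 = 0 then i else if i % 4 = 2 then i / 2 else 2 * i) :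
    (∀ x : Matrix.SpecialLinearGroup (Fin n) F, x ∈ Cfsg.SU n F q →
      (∃ z : F, ((x ^ r : Matrix.SpecialLinearGroup (Fin n) F) : Matrix (Fin n) (Fin n) F) = z • (1 : Matrix (Fin n) (Fin n) F)) →
      (∀ z : F, (x : Matrix (Fin n) (Fin n) F) ≠ z • (1 : Matrix (Fin n) (Fin n) F)) →
      ∃ W : Submodule F (Fin n → F), Module.finrank F ↥W = m ∧ (∀ u ∈ W, u ≠ 0 → ∃ v ∈ W, Cfsg.hermForm n F q u v ≠ 0) ∧
        W.map (Matrix.toLin' (x : Matrix (Fin n) (Fin n) F)) ≤ W) ↔
    ((r = p ∧ 2 < p ∧ (∀ μ : Multiset ℕ, (∀ a ∈ μ, 0 < a ∧ a ≤ p) → μ.sum = n → ∃ ν : Multiset ℕ, ν ≤ μ ∧ ν.sum = m)) ∨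
     (r = p ∧ p = 2 ∧ (Odd n ∨ Even m)) ∨
     (r = 2 ∧ p ≠ 2 ∧ (Odd n ∨ Even m ∨ (padicValNat 2 n ≤ padicValNat 2 (q + 1) ∧ q % 4 = 3))) ∨
     (r ≠ p ∧ 2 < r ∧ ((i ≠ 2 ∧ c ≤ m ∧ m % c ≤ n % c) ∨ (i = 2 ∧ (r ∣ m ∨ padicValNat r n ≤ padicValNat r (q + 1)))))) := by
  classical
  have hp : p.Prime := Fact.out
  have hr : r.Prime := Fact.out
  obtain ⟨f₀, -, hf₀⟩ := FiniteField.card F p
  have hqp : q ^ 2 = p ^ (f₀ : ℕ) := hq.symm.trans hf₀
  have hq2 := Cfsg.Agent.Forms.two_le_q hq
  have hrq : r ≠ p → ¬ r ∣ q := fun hne h =>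
    hne ((Nat.prime_dvd_prime_iff_eq hr hp).1 (hr.dvd_of_dvd_pow (hqp ▸ dvd_pow h two_ne_zero)))
  have hrF : r ≠ p → (r : F) ≠ 0 := fun hne h =>
    hne (((Nat.prime_dvd_prime_iff_eq hp hr).1 ((CharP.cast_eq_zero_iff F p r).1 h)).symm)
  have : NeZero n := ⟨by omega⟩
  haveI : Nontrivial (Module.End F (Fin n → F)) := inferInstance
  haveI : CharP (Module.End F (Fin n → F)) p :=
    charP_of_injective_algebraMap (algebraMap F (Module.End F (Fin n → F))).injective p
  have frob1 : ∀ a : F, a ^ p = 1 → a = 1 := fun a h => by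
    have h1 : (a - 1) ^ p = 0 := by rw [sub_pow_char, h, one_pow, sub_self]
    exact sub_eq_zero.1 ((pow_eq_zero_iff hp.ne_zero).1 h1)
  -- deranged endomorphisms give deranged elements
  have lift : ∀ (T : Module.End F (Fin n → F)) (z : F), T ^ r = z • 1 → LinearMap.det T = 1 →
      (∀ u v, Cfsg.hermForm n F q (T u) (T v) = Cfsg.hermForm n F q u v) → (∀ e : F, T ≠ e • 1) →
      (∀ x : Matrix.SpecialLinearGroup (Fin n) F, x ∈ Cfsg.SU n F q →
        (∃ z : F, ((x ^ r : Matrix.SpecialLinearGroup (Fin n) F) : Matrix (Fin n) (Fin n) F) = z • (1 : Matrix (Fin n) (Fin n) F)) →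
        (∀ z : F, (x : Matrix (Fin n) (Fin n) F) ≠ z • (1 : Matrix (Fin n) (Fin n) F)) →
        ∃ W : Submodule F (Fin n → F), Module.finrank F ↥W = m ∧ (∀ u ∈ W, u ≠ 0 → ∃ v ∈ W, Cfsg.hermForm n F q u v ≠ 0) ∧
          W.map (Matrix.toLin' (x : Matrix (Fin n) (Fin n) F)) ≤ W) →
      ∃ W : Submodule F (Fin n → F), GeomClasses.Unitary.NonDeg q W ∧ Module.finrank F W = m ∧ ∀ v ∈ W, T v ∈ W := by
    intro T z hT hdet hTB hns H
    obtain ⟨x, hx, hxr⟩ := GeomClasses.SubspaceDerange.sl_of_end hT hdet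
    obtain ⟨W, hWd, hWn, hWi⟩ := H x (fun u v => by
      have := hTB u v
      rw [← hx] at this
      exact this) ⟨z, hxr⟩ (fun e he => hns e (by rw [← hx, he, map_smul, Matrix.toLin'_one]; rfl))
    refine ⟨W, GeomClasses.SUNondeg.nd_iff.2 hWn, hWd, fun v hv => ?_⟩
    have := hWi ⟨v, hv, rfl⟩
    rwa [hx] at this
  -- invariant subspaces give fixed points
  have back : (∀ (T : Module.End F (Fin n → F)) (z : F), T ^ r = z • 1 → LinearMap.det T = 1 →
      (∀ u v, Cfsg.hermForm n F q (T u) (T v) = Cfsg.hermForm n F q u v) →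
      ∃ W : Submodule F (Fin n → F), GeomClasses.Unitary.NonDeg q W ∧ Module.finrank F W = m ∧ ∀ v ∈ W, T v ∈ W) →
      ∀ x : Matrix.SpecialLinearGroup (Fin n) F, x ∈ Cfsg.SU n F q →
        (∃ z : F, ((x ^ r : Matrix.SpecialLinearGroup (Fin n) F) : Matrix (Fin n) (Fin n) F) = z • (1 : Matrix (Fin n) (Fin n) F)) →
        (∀ z : F, (x : Matrix (Fin n) (Fin n) F) ≠ z • (1 : Matrix (Fin n) (Fin n) F)) →
        ∃ W : Submodule F (Fin n → F), Module.finrank F ↥W = m ∧ (∀ u ∈ W, u ≠ 0 → ∃ v ∈ W, Cfsg.hermForm n F q u v ≠ 0) ∧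
          W.map (Matrix.toLin' (x : Matrix (Fin n) (Fin n) F)) ≤ W := by
    intro G x hx hxr _
    obtain ⟨z, hz⟩ := hxr
    obtain ⟨hT, hdet⟩ := GeomClasses.SubspaceDerange.end_of_sl x hz
    obtain ⟨W, hWn, hWd, hWi⟩ := G _ z hT hdet fun u v => hx u v
    refine ⟨W, hWd, GeomClasses.SUNondeg.nd_iff.1 hWn, ?_⟩
    rintro _ ⟨v, hv, rfl⟩
    exact hWi v hv
  by_cases hrp : r = p
  · -- unipotent elements
    have hμiff : p = 2 → ((Odd n ∨ Even m) ↔
        ∀ μ : Multiset ℕ, (∀ a ∈ μ, 0 < a ∧ a ≤ p) → μ.sum = n → ∃ ν : Multiset ℕ, ν ≤ μ ∧ ν.sum = m) := by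
      rintro rfl
      constructor
      · intro h μ hμ hsum
        have he : μ = Multiset.replicate (μ.count 2) 2 + Multiset.replicate (μ.count 1) 1 := by
          refine Multiset.ext.2 fun a => ?_
          rw [Multiset.count_add, Multiset.count_replicate, Multiset.count_replicate]
          by_cases ha : a ∈ μ
          · obtain ⟨h1, h2⟩ := hμ a ha
            rcases (show a = 1 ∨ a = 2 by omega) with rfl | rfl <;> simp
          · rw [Multiset.count_eq_zero_of_notMem ha]
            split_ifs with e1 e2 e2 <;> simp_all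
        have hs : μ.count 2 * 2 + μ.count 1 = n := by
          rw [← hsum]
          conv_rhs => rw [he]
          simp
        rcases Nat.even_or_odd m with ⟨l, hl⟩ | ⟨l, hl⟩
        · refine ⟨Multiset.replicate (min l (μ.count 2)) 2 + Multiset.replicate (m - 2 * min l (μ.count 2)) 1, ?_, ?_⟩
          · conv_rhs => rw [he]
            exact add_le_add ((Multiset.replicate_le_replicate 2).2 (min_le_right _ _))
              ((Multiset.replicate_le_replicate 1).2 (by omega))
          · simp; omega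
        · have hno : n % 2 = 1 := by
            rcases h with h | h
            · exact Nat.odd_iff.1 h
            · exact absurd h (by rw [Nat.even_iff]; omega)
          refine ⟨Multiset.replicate (min l (μ.count 2)) 2 + Multiset.replicate (m - 2 * min l (μ.count 2)) 1, ?_, ?_⟩
          · conv_rhs => rw [he]
            exact add_le_add ((Multiset.replicate_le_replicate 2).2 (min_le_right _ _))
              ((Multiset.replicate_le_replicate 1).2 (by omega))
          · simp; omega
      · intro h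
        by_contra hcon
        push_neg at hcon
        obtain ⟨l, hl⟩ := Nat.not_odd_iff_even.1 hcon.1
        obtain ⟨ν, hν, hsum⟩ := h (Multiset.replicate l 2) (fun a ha => by
          rw [Multiset.eq_of_mem_replicate ha]; omega) (by simp; omega)
        obtain ⟨k, -, rfl⟩ := Multiset.le_replicate_iff.1 hν
        exact hcon.2 ⟨k, by simp at hsum; omega⟩
    constructor
    · intro H
      have hμ : ∀ μ : Multiset ℕ, (∀ a ∈ μ, 0 < a ∧ a ≤ p) → μ.sum = n → ∃ ν : Multiset ℕ, ν ≤ μ ∧ ν.sum = m := by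
        intro μ hμ hsum
        by_cases hone : ∀ a ∈ μ, a = 1
        · have hrep : μ = Multiset.replicate μ.card 1 := Multiset.eq_replicate_card.2 hone
          refine ⟨Multiset.replicate m 1, ?_, by simp⟩
          rw [hrep, Multiset.replicate_le_replicate]
          rw [hrep] at hsum
          simp at hsum
          omega
        · let dd : Fin μ.toList.length → ℕ := μ.toList.get
          have hmap : (Finset.univ : Finset (Fin μ.toList.length)).val.map dd = μ := by
            rw [Fin.univ_val_map, List.ofFn_get, Multiset.coe_toList]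
          have hprof : ∀ k, Cfsg.Agent.Linear.JordanTypeParity.r dd k = GeomClasses.SympUnipotent.prof μ k := fun k => by
            conv_rhs => rw [← hmap]
            rw [GeomClasses.SympUnipotent.prof, Multiset.map_map]; rfl
          have hdd : ∀ k, 1 ≤ dd k := fun k => (hμ _ (Multiset.mem_toList.1 (List.get_mem _ _))).1
          have e : Cfsg.Agent.Linear.UnipotentCent.Idx dd ≃ Fin n := Fintype.equivFinOfCardEq (by
            rw [Fintype.card_sigma]
            simp only [Fintype.card_fin]
            rw [← hsum]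
            conv_rhs => rw [← hmap]
            rfl)
          obtain ⟨⟨A, hA⟩, hconj⟩ := Cfsg.Agent.Linear.GUUnipotentClasses.exists_of_type hq hdd e
          set T : Module.End F (Fin n → F) := Matrix.toLin' (A : Matrix (Fin n) (Fin n) F) with hTdef
          have hrank : ∀ k, Module.finrank F ((⊤ : Submodule F (Fin n → F)).map ((T - 1) ^ k)) =
              GeomClasses.SympUnipotent.prof μ k := fun k => by
            rw [← hprof, ← Cfsg.Agent.Linear.JordanTypeParity.rank_sub_one_pow e hconj k, hTdef,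
              ← show Matrix.toLin' (1 : Matrix (Fin n) (Fin n) F) = 1 from Matrix.toLin'_one,
              ← map_sub, ← Matrix.toLin'_pow, Submodule.map_top]
            rfl
          have hnil : (T - 1) ^ p = 0 := LinearMap.range_eq_bot.1 (Submodule.finrank_eq_zero.1 (by
            rw [← Submodule.map_top, hrank]
            refine Multiset.sum_eq_zero_iff.2 fun b hb => ?_
            obtain ⟨a, ha, rfl⟩ := Multiset.mem_map.1 hb
            have := (hμ a ha).2
            omega))
          have hTp : T ^ r = 1 := by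
            have h := sub_pow_char_of_commute p (Commute.one_right T)
            rw [hnil, one_pow] at h
            rw [hrp]
            exact sub_eq_zero.1 h.symm
          have hTB : ∀ u v, Cfsg.hermForm n F q (T u) (T v) = Cfsg.hermForm n F q u v := fun u v => hA u v
          have hinj : Function.Injective T := fun u v h => by
            have h' := congrArg (T ^ (r - 1)) h
            rwa [← Module.End.mul_apply, ← Module.End.mul_apply, ← pow_succ, Nat.sub_add_cancel hr.one_lt.le, hTp,
              Module.End.one_apply, Module.End.one_apply] at h'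
          obtain ⟨W, hWn, hWd, hWi⟩ := lift T 1 (by rw [one_smul, hTp]) (frob1 _ (by
            rw [← hrp, ← map_pow, hTp, map_one])) hTB (fun ε he => hone (by
            have hε : ε = 1 := by
              have h := hnil
              rw [he, show ε • (1 : Module.End F (Fin n → F)) - 1 = (ε - 1) • 1 by ext v; simp [sub_smul],
                smul_pow, one_pow] at h
              rcases smul_eq_zero.1 h with h | h
              · exact sub_eq_zero.1 ((pow_eq_zero_iff hp.ne_zero).1 h)
              · exact absurd h one_ne_zero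
            intro a ha
            have h1 := hrank 1
            rw [he, hε, one_smul, sub_self, pow_one, Submodule.map_zero, finrank_bot] at h1
            have h2 := Multiset.sum_eq_zero_iff.1 h1.symm _ (Multiset.mem_map.2 ⟨a, ha, rfl⟩)
            have := (hμ a ha).1
            omega)) H
          obtain ⟨ν, hν, hνs⟩ := GeomClasses.SUUnipotent.exists_part hq hTB hnil hinj (fun a ha => (hμ a ha).1) hrank hWi hWn
          exact ⟨ν, hν, hνs.trans hWd⟩
      rcases eq_or_lt_of_le hp.two_le with h2 | h2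
      · exact Or.inr (Or.inl ⟨hrp, h2.symm, (hμiff h2.symm).2 hμ⟩)
      · exact Or.inl ⟨hrp, h2, hμ⟩
    · intro hcond
      have hμ : ∀ μ : Multiset ℕ, (∀ a ∈ μ, 0 < a ∧ a ≤ p) → μ.sum = n → ∃ ν : Multiset ℕ, ν ≤ μ ∧ ν.sum = m := by
        rcases hcond with ⟨-, -, h⟩ | ⟨-, h2, h⟩ | ⟨h2, hne, -⟩ | ⟨hne, -⟩
        · exact h
        · exact (hμiff h2).1 h
        · exact absurd (hrp.symm.trans h2) hne
        · exact absurd hrp hne
      refine back fun T z hT hdet hTB => ?_
      have hz := GeomClasses.SUDerangeTools.scalar_norm hq (by omega) hTB hT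
      obtain ⟨w, hw⟩ : ∃ w : F, w ^ p = z := by
        obtain ⟨w, hw⟩ := surjective_frobenius F p z
        exact ⟨w, hw⟩
      have hw0 : w ≠ 0 := fun h => by
        rw [← hw, h, zero_pow hp.ne_zero, zero_pow (Nat.succ_ne_zero q)] at hz
        exact zero_ne_one hz
      have hww : w * w ^ q = 1 := by
        rw [← pow_succ']
        refine frob1 _ ?_
        rw [← pow_mul, mul_comm, pow_mul, hw, hz]
      obtain ⟨hS, hback⟩ := GeomClasses.SubspaceDerange.scaled (r := r) (b := w) (by rw [hrp, hw]) (fun h => by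
        rw [h, zero_pow (Nat.succ_ne_zero q)] at hz
        exact zero_ne_one hz) hT
      set S := w⁻¹ • T
      have hSB : ∀ u v, Cfsg.hermForm n F q (S u) (S v) = Cfsg.hermForm n F q u v := fun u v => by
        simp only [S, LinearMap.smul_apply]
        rw [GeomClasses.Unitary.hh_smul_left hq, GeomClasses.Unitary.hh_smul_right hq, hTB, ← mul_assoc, inv_pow,
          ← mul_inv, hww, inv_one, one_mul]
      have hnil : (S - 1) ^ p = 0 := by
        rw [sub_pow_char_of_commute p (Commute.one_right S), one_pow, ← hrp, hS, sub_self]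
      have hinj : Function.Injective S := fun u v h => by
        have h' := congrArg (S ^ (r - 1)) h
        rwa [← Module.End.mul_apply, ← Module.End.mul_apply, ← pow_succ, Nat.sub_add_cancel hr.one_lt.le, hS,
          Module.End.one_apply, Module.End.one_apply] at h'
      obtain ⟨μ, hμ', hμr, hμs⟩ := GeomClasses.SUUnipotent.exists_pieces hq hSB hnil hinj (W := ⊤) (fun _ _ => trivial)
        (GeomClasses.SUStructure.nonDeg_top hq)
      obtain ⟨ν, hν, hνm⟩ := hμ μ hμ' (by
        rw [← GeomClasses.SympUnipotent.prof_zero, ← hμr, pow_zero, Module.End.one_eq_id, Submodule.map_id, finrank_top,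
          Module.finrank_fin_fun])
      obtain ⟨U, -, hUi, hUn, hUd⟩ := hμs ν hν
      exact ⟨U, hUn, hUd.trans hνm, hback U hUi⟩
  by_cases hr2 : r = 2
  · -- involutions
    subst hr2
    have hp2 : p ≠ 2 := fun h => hrp h.symm
    have h2F : (2 : F) ≠ 0 := by simpa using hrF hrp
    have hodd : q % 2 = 1 := Nat.two_dvd_ne_zero.1 (hrq hrp)
    have hb1 : (1 : ℕ) = orderOf ((q ^ 2 : ℕ) : ZMod 2) := by
      have : ((q ^ 2 : ℕ) : ZMod 2) = 1 := by
        rw [← Nat.cast_one, ZMod.natCast_eq_natCast_iff', Nat.pow_mod, hodd]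
      rw [this, orderOf_one]
    have hc1 : (1 : ℕ) = if (-(q : ZMod 2)) ^ 1 = 1 then 1 else 2 * 1 := by
      rw [if_pos]
      rw [pow_one, show ((q : ZMod 2)) = 1 by rw [← Nat.cast_one, ZMod.natCast_eq_natCast_iff', hodd]]
      rfl
    have hhalf : (q + 1) / 2 * 2 = q + 1 := Nat.div_mul_cancel (by omega)
    constructor
    · intro H
      refine Or.inr (Or.inr (Or.inl ⟨rfl, hp2, ?_⟩))
      by_contra hcon
      push_neg at hcon
      obtain ⟨k, hk⟩ := Nat.not_odd_iff_even.1 hcon.1
      obtain ⟨z, hz, hzh, hzk⟩ : ∃ z : F, z ^ (q + 1) = 1 ∧ z ^ ((q + 1) / 2) = -1 ∧ (-z) ^ k = 1 := by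
        rcases (show q % 4 = 1 ∨ q % 4 = 3 by omega) with h4 | h4
        · exact ⟨-1, Even.neg_one_pow (Nat.even_iff.2 (by omega)), Odd.neg_one_pow (Nat.odd_iff.2 (by omega)),
            by rw [neg_neg, one_pow]⟩
        · have hlt : padicValNat 2 (q + 1) < padicValNat 2 n := by
            by_contra h
            exact hcon.2.2 (not_lt.1 h) h4
          set a := padicValNat 2 (q + 1)
          have ha : 1 ≤ a := one_le_padicValNat_of_dvd (by omega) (by omega)
          obtain ⟨u, hu, hua, hua'⟩ := GeomClasses.SUDerangeTools.exists_order hq Nat.prime_two ha pow_padicValNat_dvd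
          have heven : Even (q + 1) := Nat.even_iff.2 (by omega)
          have heven2 : Even ((q + 1) / 2) := Nat.even_iff.2 (by omega)
          obtain ⟨t, ht⟩ : 2 ^ a ∣ q + 1 := pow_padicValNat_dvd
          have hto : Odd t := by
            refine Nat.odd_iff.2 (Nat.two_dvd_ne_zero.1 fun h2 => ?_)
            obtain ⟨s, rfl⟩ := h2
            exact pow_succ_padicValNat_not_dvd (p := 2) (show q + 1 ≠ 0 by omega) ⟨s, ht.trans (by rw [pow_succ]; ring)⟩
          have hum : u ^ 2 ^ (a - 1) = -1 := by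
            refine (mul_self_eq_one_iff.1 ?_).resolve_left hua'
            rw [← pow_two, ← pow_mul, ← pow_succ, Nat.sub_add_cancel ha, hua]
          have h2a : 2 ^ a = 2 ^ (a - 1) * 2 := by rw [← pow_succ, Nat.sub_add_cancel ha]
          refine ⟨-u, by rw [heven.neg_pow, hu], ?_, ?_⟩
          · rw [heven2.neg_pow, show (q + 1) / 2 = 2 ^ (a - 1) * t by
              rw [ht, h2a, mul_right_comm, Nat.mul_div_cancel _ (by norm_num)], pow_mul, hum, hto.neg_one_pow]
          · obtain ⟨s, hs⟩ : 2 ^ a ∣ k := by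
              have h1 : 2 ^ (a + 1) ∣ n := (pow_dvd_pow 2 hlt).trans pow_padicValNat_dvd
              rw [show n = k * 2 by omega, pow_succ] at h1
              exact Nat.dvd_of_mul_dvd_mul_right (by norm_num) h1
            rw [neg_neg, hs, pow_mul, hua, one_pow]
      obtain ⟨T, hT, hTB⟩ := GeomClasses.SUNondeg.exists_monomial (n := n) hq hz le_rfl (k := k) (by omega)
      obtain ⟨w, hw⟩ : ∃ w : F, w ^ 2 = z := by
        have h21 : q ^ 2 - 1 = (q + 1) * (q - 1) := by rw [← Nat.sq_sub_sq, one_pow]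
        have hz0 : z ≠ 0 := fun h => by rw [h, zero_pow (Nat.succ_ne_zero q)] at hz; exact zero_ne_one hz
        refine (GeomClasses.SubspaceDerange.exists_root_iff hq (h21 ▸ (Dvd.dvd.mul_right (by omega) _)) hz0).2 ?_
        rw [h21, Nat.mul_div_assoc _ (show 2 ∣ q - 1 by omega), pow_mul, hz, one_pow]
      have hww : w * w ^ q = -1 := by rw [← pow_succ', ← hhalf, mul_comm, pow_mul, hw, hzh]
      have hTT : T * T = (w * w) • 1 := by rw [← pow_two, hT, ← pow_two, hw]
      obtain ⟨W, hWn, hWd, hWi⟩ := lift T z hT (by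
        rw [GeomClasses.SUNondeg.root_det hq hTB h2F hww hTT (k := k) (by omega), ← pow_two, hw, hzk]) hTB (fun e he => by
        have h1 := GeomClasses.SUNondeg.root_halves hq hTB h2F hww hTT (X := ⊤) (fun _ _ => trivial)
          (GeomClasses.SUStructure.nonDeg_top hq)
        rw [top_inf_eq, finrank_top, Module.finrank_fin_fun, he,
              show e • (1 : Module.End F (Fin n → F)) - w • 1 = (e - w) • 1 by ext v; simp [sub_smul]] at h1
        rcases eq_or_ne e w with rfl | hne
        · rw [sub_self, zero_smul, LinearMap.ker_zero, finrank_top, Module.finrank_fin_fun] at h1; omega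
        · rw [LinearMap.ker_smul _ _ (sub_ne_zero.2 hne), Module.End.one_eq_id, LinearMap.ker_id, finrank_bot] at h1
          omega) H
      have h1 := GeomClasses.SUNondeg.root_halves hq hTB h2F hww hTT hWi hWn
      exact hcon.2.1 ⟨_, by rw [← hWd, ← h1, two_mul]⟩
    · intro hcond
      have hcond' : Odd n ∨ Even m ∨ (padicValNat 2 n ≤ padicValNat 2 (q + 1) ∧ q % 4 = 3) := by
        rcases hcond with ⟨h, -⟩ | ⟨h, -⟩ | ⟨-, -, h⟩ | ⟨-, h, -⟩
        · exact absurd h hrp
        · exact absurd h hrp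
        · exact h
        · exact absurd h (lt_irrefl 2)
      refine back fun T z hT hdet hTB => ?_
      have hz := GeomClasses.SUDerangeTools.scalar_norm hq (by omega) hTB hT
      have hz0 : z ≠ 0 := fun h => by rw [h, zero_pow (Nat.succ_ne_zero q)] at hz; exact zero_ne_one hz
      obtain ⟨w, hw⟩ : ∃ w : F, w ^ 2 = z := by
        have h21 : q ^ 2 - 1 = (q + 1) * (q - 1) := by rw [← Nat.sq_sub_sq, one_pow]
        refine (GeomClasses.SubspaceDerange.exists_root_iff hq (h21 ▸ (Dvd.dvd.mul_right (by omega) _)) hz0).2 ?_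
        rw [h21, Nat.mul_div_assoc _ (show 2 ∣ q - 1 by omega), pow_mul, hz, one_pow]
      have hsq : (w * w ^ q) * (w * w ^ q) = 1 := by
        rw [← pow_succ', ← pow_two, ← pow_mul, mul_comm, pow_mul, hw, hz]
      rcases mul_self_eq_one_iff.1 hsq with hww | hww
      · exact GeomClasses.SUDerangeTools.power_case hq (hrF hrp) (hrq hrp) hb1 hc1 hTB hT hw hww (by omega) (by simp [Nat.mod_one])
      have hTT : T * T = (w * w) • 1 := by rw [← pow_two, hT, ← pow_two, hw]
      have h1 := GeomClasses.SUNondeg.root_halves hq hTB h2F hww hTT (X := ⊤) (fun _ _ => trivial)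
        (GeomClasses.SUStructure.nonDeg_top hq)
      rw [top_inf_eq, finrank_top, Module.finrank_fin_fun] at h1
      have hinj : Function.Injective T := fun u v h => by
        have h' := congrArg T h
        rw [← Module.End.mul_apply, ← Module.End.mul_apply, hTT, LinearMap.smul_apply, LinearMap.smul_apply] at h'
        exact smul_right_injective _ (mul_ne_zero (fun e => by rw [e, zero_mul] at hsq; rw [e, zero_pow two_ne_zero] at hw; exact hz0 hw.symm)
          (fun e => by rw [e, zero_pow two_ne_zero] at hw; exact hz0 hw.symm)) h'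
      rcases hcond' with ho | he | ⟨hv, h4⟩
      · exact absurd ⟨Module.finrank F ↥(LinearMap.ker (T - w • 1)), by rw [← two_mul, h1]⟩ (Nat.not_even_iff_odd.2 ho)
      · obtain ⟨l, hl⟩ := he
        obtain ⟨U, hUi, hUn, hUd⟩ := GeomClasses.SUNondeg.iterate hq hTB hinj
          (GeomClasses.SUNondeg.root_step hq hTB h2F hww hTT) l (by omega)
        exact ⟨U, hUn, by omega, hUi⟩
      · exfalso
        set k := Module.finrank F ↥(LinearMap.ker (T - w • 1))
        have hd := GeomClasses.SUNondeg.root_det hq hTB h2F hww hTT (k := k) (by omega)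
        rw [hdet, ← pow_two, hw] at hd
        have hzq : (-z) ^ (q + 1) = 1 := by rw [(Nat.even_iff.2 (by omega : (q + 1) % 2 = 0)).neg_pow, hz]
        have hg : (-z) ^ Nat.gcd k (q + 1) = 1 := pow_gcd_eq_one.2 ⟨hd.symm, hzq⟩
        have hk0 : k ≠ 0 := by omega
        have hgd : Nat.gcd k (q + 1) ∣ (q + 1) / 2 := by
          obtain ⟨t, ht⟩ := Nat.gcd_dvd_right k (q + 1)
          by_cases hto : 2 ∣ t
          · obtain ⟨d, rfl⟩ := hto
            exact ⟨d, by conv_lhs => rw [ht, show Nat.gcd k (q + 1) * (2 * d) = Nat.gcd k (q + 1) * d * 2 by ring,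
              Nat.mul_div_cancel _ (by norm_num : 0 < 2)]⟩
          · exfalso
            have hv' := congrArg (padicValNat 2) ht
            rw [padicValNat.mul (fun h => hk0 (Nat.eq_zero_of_gcd_eq_zero_left h)) (by rintro rfl; exact hto (dvd_zero 2)),
              padicValNat.eq_zero_of_not_dvd hto, add_zero] at hv'
            have hle : padicValNat 2 (Nat.gcd k (q + 1)) ≤ padicValNat 2 k :=
              (padicValNat_dvd_iff_le hk0).1 (pow_padicValNat_dvd.trans (Nat.gcd_dvd_left _ _))
            have hvn : padicValNat 2 n = 1 + padicValNat 2 k := by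
              rw [show n = 2 * k by omega, padicValNat.mul two_ne_zero hk0, padicValNat_self]
            omega
        obtain ⟨t, ht⟩ := hgd
        have h3 : z ^ ((q + 1) / 2) = 1 := by
          rw [← (Nat.even_iff.2 (by omega : (q + 1) / 2 % 2 = 0)).neg_pow, ht, pow_mul, hg, one_pow]
        rw [← hw, ← pow_mul, mul_comm, hhalf, pow_succ', hww] at h3
        exact h2F (by linear_combination -h3)
  -- odd primes different from the characteristic
  have hr3 : 2 < r := lt_of_le_of_ne hr.two_le (Ne.symm hr2)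
  have hrq' := hrq hrp
  obtain ⟨hi0, hb', hc', hi2, hic⟩ := GeomClasses.SUDerangeTools.order_facts hr3 hrq' hi hb hc
  obtain ⟨l, hl1, hl2, hl⟩ := GeomClasses.SUNondeg.exists_dvd hq hr hrq' (by omega) hrΩ
  have hcl : c ∣ l := GeomClasses.SUDerangeTools.c_dvd hb' hc' hl
  have hc0 : 0 < c := Nat.pos_of_dvd_of_pos hcl (by omega)
  have hkm : n % c < m := by
    obtain ⟨t, rfl⟩ := hcl
    have hle : t ≤ n / c := (Nat.le_div_iff_mul_le hc0).2 (by rw [mul_comm]; exact hl2)
    have := Nat.mul_le_mul_left c hle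
    have := Nat.div_add_mod n c
    omega
  have hcrit : ∀ P : Prop, (((r = p ∧ 2 < p ∧ (∀ μ : Multiset ℕ, (∀ a ∈ μ, 0 < a ∧ a ≤ p) → μ.sum = n → ∃ ν : Multiset ℕ, ν ≤ μ ∧ ν.sum = m)) ∨
     (r = p ∧ p = 2 ∧ (Odd n ∨ Even m)) ∨
     (r = 2 ∧ p ≠ 2 ∧ (Odd n ∨ Even m ∨ (padicValNat 2 n ≤ padicValNat 2 (q + 1) ∧ q % 4 = 3))) ∨
     (r ≠ p ∧ 2 < r ∧ P))) ↔ P := fun P =>
    ⟨fun h => by
      rcases h with ⟨e, -⟩ | ⟨e, -⟩ | ⟨e, -⟩ | ⟨-, -, h⟩
      · exact absurd e hrp
      · exact absurd e hrp
      · exact absurd e hr2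
      · exact h, fun h => Or.inr (Or.inr (Or.inr ⟨hrp, hr3, h⟩))⟩
  rw [hcrit]
  by_cases hi22 : i = 2
  swap
  · have hnd : ¬ r ∣ q + 1 := fun h => hi22 (hi2.2 h)
    have hcop : Nat.Coprime r (q + 1) := hr.coprime_iff_not_dvd.2 hnd
    constructor
    · intro H
      have hmc : m % c ≤ n % c := by
        by_contra hcon
        push_neg at hcon
        obtain ⟨T, hTr, hTB, hker⟩ := GeomClasses.SUNondeg.exists_moving (n := n) hq (hrF hrp) hrq' hb' hc'
          (j := n / c) (Nat.div_mul_le_self _ _)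
        rw [show n - n / c * c = n % c by have := Nat.div_add_mod' n c; omega] at hker
        have hgcd : ∀ a : F, a ^ r = 1 → a ^ (q + 1) = 1 → a = 1 := fun a h1 h2 => by
          have := pow_gcd_eq_one.2 ⟨h1, h2⟩
          rwa [hcop.gcd_eq_one, pow_one] at this
        obtain ⟨W, hWn, hWd, hWi⟩ := lift T 1 (by rw [one_smul, hTr])
          (hgcd _ (by rw [← map_pow, hTr, map_one]) (GeomClasses.SUNondeg.det_norm hq hTB)) hTB (fun e he => by
          have he1 : e ^ r = 1 := by
            have h := congrArg (fun f : Module.End F (Fin n → F) => f (Pi.single 0 1) 0) hTr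
            simpa [he, smul_pow] using h
          have he2 : e ^ (q + 1) = 1 := GeomClasses.SUDerangeTools.scalar_norm hq (r := 1) (by omega) hTB (by rw [pow_one, he])
          rw [he, hgcd e he1 he2, one_smul, sub_self, LinearMap.ker_zero, finrank_top, Module.finrank_fin_fun] at hker
          have := Nat.mod_lt n hc0
          have : c ≤ n := (Nat.le_of_dvd (by omega) hcl).trans hl2
          omega) H
        have hmod := GeomClasses.SUStructure.dim_mod hq hTB hTr (hrF hrp) hrq' hb' hc' hWi hWn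
        have hle : Module.finrank F ↥(W ⊓ LinearMap.ker (T - 1)) ≤ n % c :=
          hker ▸ Submodule.finrank_mono inf_le_right
        rw [hWd, Nat.ModEq] at hmod
        have := Nat.mod_le (Module.finrank F ↥(W ⊓ LinearMap.ker (T - 1))) c
        omega
      refine Or.inl ⟨hi22, ?_, hmc⟩
      by_contra hlt
      rw [Nat.mod_eq_of_lt (show m < c by omega)] at hmc
      omega
    · intro hcond
      have hmc : m % c ≤ n % c := by
        rcases hcond with ⟨-, -, h⟩ | ⟨h, -⟩
        · exact h
        · exact absurd h hi22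
      refine back fun T z hT hdet hTB => ?_
      have hz := GeomClasses.SUDerangeTools.scalar_norm hq (by omega) hTB hT
      obtain ⟨a, ha⟩ := Nat.exists_mul_mod_eq_one_of_coprime hcop (by omega : 1 < q + 1)
      have hw : (z ^ a) ^ r = z := by
        rw [← pow_mul, mul_comm a r, pow_eq_pow_mod (r * a) hz, ha.2, pow_one]
      exact GeomClasses.SUDerangeTools.power_case hq (hrF hrp) hrq' hb' hc' hTB hT hw
        (by rw [← pow_succ', ← pow_mul, mul_comm, pow_mul, hz, one_pow]) (by omega) hmc
  -- `r` divides `q + 1`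
  have hrd : r ∣ q + 1 := hi2.1 hi22
  have hc1 := hic hi22
  have hnd1 : ¬ r ∣ q - 1 := fun h => by
    have := Nat.dvd_sub hrd h
    rw [show q + 1 - (q - 1) = 2 by omega] at this
    have := Nat.le_of_dvd (by norm_num) this
    omega
  have hcop : Nat.Coprime r (q - 1) := hr.coprime_iff_not_dvd.2 hnd1
  have h21 : q ^ 2 - 1 = (q + 1) * (q - 1) := by rw [← Nat.sq_sub_sq, one_pow]
  constructor
  · intro H
    refine Or.inr ⟨hi22, ?_⟩
    by_contra hcon
    push_neg at hcon
    set a := padicValNat r (q + 1)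
    have ha : 1 ≤ a := one_le_padicValNat_of_dvd (by omega) hrd
    obtain ⟨z, hz, hza, hza'⟩ := GeomClasses.SUDerangeTools.exists_order hq hr ha pow_padicValNat_dvd
    obtain ⟨k, hk⟩ : r ∣ n := by
      have h1 : r ^ (a + 1) ∣ n := (pow_dvd_pow r hcon.2).trans pow_padicValNat_dvd
      exact (dvd_pow_self r (by omega)).trans h1
    have hnp : ∀ b : F, b ^ r ≠ z := by
      intro b hb
      have hb0 : b ≠ 0 := fun h => by
        rw [← hb, h, zero_pow hr.ne_zero, zero_pow (Nat.succ_ne_zero q)] at hz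
        exact zero_ne_one hz
      have h1 : b ^ r ^ (a + 1) = 1 := by rw [pow_succ', pow_mul, hb, hza]
      have h2 : b ^ (q ^ 2 - 1) = 1 := hq ▸ FiniteField.pow_card_sub_one_eq_one b hb0
      obtain ⟨j, hj, hjg⟩ := (Nat.dvd_prime_pow hr).1 (Nat.gcd_dvd_left (r ^ (a + 1)) (q ^ 2 - 1))
      have h3 := pow_gcd_eq_one.2 ⟨h1, h2⟩
      rw [hjg] at h3
      by_cases hja : j ≤ a
      · apply hza'
        obtain ⟨d, hd⟩ := Nat.exists_eq_add_of_le hja
        rw [← hb, ← pow_mul, ← pow_succ', Nat.sub_add_cancel ha, hd, pow_add, pow_mul, h3, one_pow]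
      · have h4 : r ^ (a + 1) ∣ q ^ 2 - 1 := by
          rw [show a + 1 = j by omega, ← hjg]; exact Nat.gcd_dvd_right _ _
        rw [h21] at h4
        exact pow_succ_padicValNat_not_dvd (p := r) (show q + 1 ≠ 0 by omega)
          (((hcop.pow_left (a + 1))).dvd_of_dvd_mul_right h4)
    obtain ⟨T, hT, hTB⟩ := GeomClasses.SUNondeg.exists_monomial (n := n) hq hz hr.two_le hk
    obtain ⟨k', hk', hdet', -⟩ := GeomClasses.SubspaceDerange.nonpower hnp hT
    rw [Module.finrank_fin_fun] at hk'
    obtain rfl : k = k' := Nat.eq_of_mul_eq_mul_left hr.pos (hk.symm.trans hk')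
    have hzk : z ^ k = 1 := by
      have h1 : r ^ (a + 1) ∣ r * k := hk ▸ (pow_dvd_pow r hcon.2).trans pow_padicValNat_dvd
      rw [pow_succ'] at h1
      obtain ⟨t, ht⟩ := Nat.dvd_of_mul_dvd_mul_left hr.pos h1
      rw [ht, pow_mul, hza, one_pow]
    obtain ⟨W, hWn, hWd, hWi⟩ := lift T z hT (by
      rw [hdet', (hr.odd_of_ne_two hr2).add_one.neg_one_pow, one_mul, hzk]) hTB (fun e he => hnp e (by
      have h := congrArg (fun f : Module.End F (Fin n → F) => f (Pi.single 0 1) 0) hT
      simpa [he, smul_pow] using h)) H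
    exact hcon.1 (hWd ▸ GeomClasses.SubspaceDerange.dvd_of_nonpower hnp hT hWi)
  · intro hcond
    have hcond' : r ∣ m ∨ padicValNat r n ≤ padicValNat r (q + 1) := by
      rcases hcond with ⟨h, -⟩ | ⟨-, h⟩
      · exact absurd hi22 h
      · exact h
    refine back fun T z hT hdet hTB => ?_
    have hz := GeomClasses.SUDerangeTools.scalar_norm hq (by omega) hTB hT
    have hz0 : z ≠ 0 := fun h => by rw [h, zero_pow (Nat.succ_ne_zero q)] at hz; exact zero_ne_one hz
    by_cases hpw : ∃ b : F, b ^ r = z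
    · obtain ⟨w, hw⟩ := hpw
      have hww : w * w ^ q = 1 := by
        have hw0 : w ≠ 0 := fun h => hz0 (by rw [← hw, h, zero_pow hr.ne_zero])
        rw [← pow_succ']
        have h1 : (w ^ (q + 1)) ^ r = 1 := by rw [← pow_mul, mul_comm, pow_mul, hw, hz]
        have h2 : (w ^ (q + 1)) ^ (q - 1) = 1 := by
          rw [← pow_mul, ← h21, ← hq, FiniteField.pow_card_sub_one_eq_one w hw0]
        have := pow_gcd_eq_one.2 ⟨h1, h2⟩
        rwa [hcop.gcd_eq_one, pow_one] at this
      exact GeomClasses.SUDerangeTools.power_case hq (hrF hrp) hrq' hb' hc' hTB hT hw hww (by omega)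
        (by rw [hc1, Nat.mod_one, Nat.mod_one])
    push_neg at hpw
    obtain ⟨k, hk, hd, -⟩ := GeomClasses.SubspaceDerange.nonpower hpw hT
    rw [Module.finrank_fin_fun] at hk
    rcases hcond' with ⟨j, hj⟩ | hv
    · have hinj : Function.Injective T := fun u v h => by
        have h' := congrArg (T ^ (r - 1)) h
        rw [← Module.End.mul_apply, ← Module.End.mul_apply, ← pow_succ, Nat.sub_add_cancel hr.one_lt.le, hT,
          LinearMap.smul_apply, LinearMap.smul_apply] at h'
        exact smul_right_injective _ hz0 h'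
      obtain ⟨U, hUi, hUn, hUd⟩ := GeomClasses.SUNondeg.iterate hq hTB hinj (d := r) (fun X hX hXn hX0 => by
        obtain ⟨u, hu, hu0⟩ := (Submodule.ne_bot_iff X).1 hX0
        obtain ⟨v, hv, huv⟩ := GeomClasses.SUNondeg.nd_iff.1 hXn u hu hu0
        exact GeomClasses.SUStructure.exists_nd_cyclic hq hTB hinj (Polynomial.monic_X_pow_sub_C z hr.ne_zero)
          Polynomial.natDegree_X_pow_sub_C hX (fun w _ => by simp [hT, Algebra.algebraMap_eq_smul_one])
          (fun U _ hUi hU0 => Nat.le_of_dvd (Nat.pos_of_ne_zero fun e => hU0 (Submodule.finrank_eq_zero.1 e))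
            (GeomClasses.SubspaceDerange.dvd_of_nonpower hpw hT hUi)) ⟨u, hu, v, hv, huv⟩) j (by rw [mul_comm]; omega)
      exact ⟨U, hUn, by rw [hUd, hj, mul_comm], hUi⟩
    · exfalso
      rw [hdet, (hr.odd_of_ne_two hr2).add_one.neg_one_pow, one_mul] at hd
      have hk0 : k ≠ 0 := fun h => by rw [h, mul_zero] at hk; omega
      have hg : z ^ Nat.gcd k (q + 1) = 1 := pow_gcd_eq_one.2 ⟨hd.symm, hz⟩
      have hgd : Nat.gcd k (q + 1) ∣ (q + 1) / r := by
        obtain ⟨t, ht⟩ := Nat.gcd_dvd_right k (q + 1)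
        by_cases hto : r ∣ t
        · obtain ⟨d, rfl⟩ := hto
          exact ⟨d, by conv_lhs => rw [ht, show Nat.gcd k (q + 1) * (r * d) = Nat.gcd k (q + 1) * d * r by ring,
            Nat.mul_div_cancel _ hr.pos]⟩
        · exfalso
          have hv' := congrArg (padicValNat r) ht
          rw [padicValNat.mul (fun h => hk0 (Nat.eq_zero_of_gcd_eq_zero_left h)) (by rintro rfl; exact hto (dvd_zero r)),
            padicValNat.eq_zero_of_not_dvd hto, add_zero] at hv'
          have hle : padicValNat r (Nat.gcd k (q + 1)) ≤ padicValNat r k :=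
            (padicValNat_dvd_iff_le hk0).1 (pow_padicValNat_dvd.trans (Nat.gcd_dvd_left _ _))
          have hvn : padicValNat r n = 1 + padicValNat r k := by
            rw [hk, padicValNat.mul hr.ne_zero hk0, padicValNat_self]
          omega
      obtain ⟨t, ht⟩ := hgd
      obtain ⟨b₀, hb₀⟩ := (GeomClasses.SubspaceDerange.exists_root_iff (r := r) hq (h21 ▸ hrd.mul_right _) hz0).2 (by
        rw [h21, Nat.mul_comm (q + 1), Nat.mul_div_assoc _ hrd, ht, mul_comm, mul_assoc, pow_mul, hg, one_pow])
      exact hpw b₀ hb₀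

end Cfsg.Agent.S5954
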