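import Cfsg.Statements.S5955
import Cfsg.Agent.GeomClasses.SympIsotropicDerange
import Cfsg.Agent.GeomClasses.SympDecompDerange

set_option autoImplicit false
open scoped MatrixGroups
open Cfsg

namespace Cfsg.Agent.S5955

/-- Elements of prime order of PSp_n(q) with no fixed totally isotropic `m`-space. Here `T = PSp_n(q)` with `n = 2d ≥ 4`, `(n, q) ≠ (4, 2)`, realised through the symplectic matrices over the field `F` with `q` elements (preserving the standard alternating form); an element of `T` of prime order `r` is such a matrix `x` with `x^r` scalar and `x` not scalar. For `r ≠ p` let `i` be the multiplicative order of `q` modulo `r`, `c = i` for `i` even and `c = 2i` for `i` odd, and write `k = n mod c`, `ℓ = m mod i`, `ℓ' = m mod c`, `n' = ⌊n/i⌋`, `m' = ⌊m/i⌋`, `t = (r−1)/i`. Let `1 ≤ m ≤ n/2` and let `r` be a prime dividing the number of totally isotropic `m`-spaces. Then every element of `T` of order `r` fixes a totally isotropic `m`-space if and only if either (i) `r = 2 ≠ p` and (`m` is even or `q ≡ 1 (mod 4)`);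 or (ii) `r ≠ p`, `r > 2`, `i ≤ m`, `k ≥ 2ℓ`, and (`i` is odd or `n' − 2m' ≥ t`). -/
theorem result {F : Type*} [Field F] [Fintype F] {p : ℕ} [Fact p.Prime] [CharP F p] {q : ℕ} (hq : Fintype.card F = q)
    (d m : ℕ) (hd : 2 ≤ d) (hT : (d, q) ≠ (2, 2)) (hm : 1 ≤ m) (hmd : m ≤ d)
    (r : ℕ) [Fact r.Prime]
    (hrΩ : r ∣ Nat.card {W : Submodule F (Fin d ⊕ Fin d → F) // Module.finrank F ↥W = m ∧ (∀ u ∈ W, ∀ v ∈ W, Cfsg.sympForm d F u v = 0)})
    (i c : ℕ) (hi : i = orderOf (q : ZMod r)) (hc : c = if Even i then i else 2 * i) :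
    (∀ x : ↥(Matrix.symplecticGroup (Fin d) F),
      (∃ z : F, ((x ^ r : ↥(Matrix.symplecticGroup (Fin d) F)) : Matrix (Fin d ⊕ Fin d) (Fin d ⊕ Fin d) F) = z • (1 : Matrix (Fin d ⊕ Fin d) (Fin d ⊕ Fin d) F)) →
      (∀ z : F, (x : Matrix (Fin d ⊕ Fin d) (Fin d ⊕ Fin d) F) ≠ z • (1 : Matrix (Fin d ⊕ Fin d) (Fin d ⊕ Fin d) F)) →
      ∃ W : Submodule F (Fin d ⊕ Fin d → F), Module.finrank F ↥W = m ∧ (∀ u ∈ W, ∀ v ∈ W, Cfsg.sympForm d F u v = 0) ∧
        W.map (Matrix.toLin' (x : Matrix (Fin d ⊕ Fin d) (Fin d ⊕ Fin d) F)) ≤ W) ↔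
    ((r = 2 ∧ p ≠ 2 ∧ (Even m ∨ q % 4 = 1)) ∨
     (r ≠ p ∧ 2 < r ∧ i ≤ m ∧ 2 * (m % i) ≤ (2 * d) % c ∧ (Odd i ∨ (r - 1) / i + 2 * (m / i) ≤ (2 * d) / i))) := by
  classical
  have hp : p.Prime := Fact.out
  have hr : r.Prime := Fact.out
  obtain ⟨f₀, -, hf₀⟩ := FiniteField.card F p
  let B := Cfsg.Agent.Forms.sympB d F
  have hA : B.IsAlt := Cfsg.Agent.Forms.sympB_isAlt
  have hB : B.Nondegenerate := Cfsg.Agent.Forms.sympB_nondegenerate
  have hV : Module.finrank F (Fin d ⊕ Fin d → F) = 2 * d := by
    rw [Module.finrank_pi, Fintype.card_sum, Fintype.card_fin]; omega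
  let i0 : Fin d := ⟨0, by omega⟩
  have hsquare : ∀ z : F, (∀ u v : Fin d ⊕ Fin d → F, Cfsg.sympForm d F (z • u) (z • v) = Cfsg.sympForm d F u v) → z * z = 1 := by
    intro z h
    have h1 := h (Pi.single (Sum.inr i0) 1) (Pi.single (Sum.inl i0) 1)
    simpa [Cfsg.Agent.Forms.sympForm_eq, Pi.single_apply, mul_assoc] using h1
  obtain ⟨l, hl1, hl2, hl⟩ := GeomClasses.SympIsotropic.exists_dvd hq hr hmd hrΩ
  have hrp : r ≠ p := by
    rintro rfl
    have h1 : r ∣ q ^ (2 * l) := (dvd_pow (hq ▸ hf₀.symm ▸ dvd_pow_self r f₀.pos.ne' : r ∣ q) (by omega))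
    have := Nat.dvd_sub h1 hl
    rw [Nat.sub_sub_self (Nat.one_le_pow _ _ (hq ▸ Fintype.card_pos)), Nat.dvd_one] at this
    exact hr.one_lt.ne' this
  have hrq : ¬ r ∣ q := fun h =>
    hrp ((Nat.prime_dvd_prime_iff_eq hr hp).1 (hr.dvd_of_dvd_pow (hq.symm.trans hf₀ ▸ h)))
  have hrF : (r : F) ≠ 0 := fun h =>
    hrp (((Nat.prime_dvd_prime_iff_eq hp hr).1 ((CharP.cast_eq_zero_iff F p r).1 h)).symm)
  obtain ⟨hi0, -⟩ := GeomClasses.SubspaceDerange.dvd_pow_sub_one hrq hi
  have hid : i ∣ r - 1 := hi ▸ orderOf_dvd_of_pow_eq_one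
    (ZMod.pow_card_sub_one_eq_one fun h => hrq ((ZMod.natCast_eq_zero_iff q r).1 h))
  have ht : (r - 1) / i * i = r - 1 := Nat.div_mul_cancel hid
  have ht1 : 1 ≤ (r - 1) / i := Nat.div_pos (Nat.le_of_dvd (by have := hr.two_le; omega) hid) hi0
  have hc0 : 0 < c := by rw [hc]; split_ifs <;> omega
  have hcl : c ∣ 2 * l := by
    have h' : q ^ 0 ≡ q ^ (2 * l) [MOD r] :=
      (Nat.modEq_iff_dvd' (Nat.pow_le_pow_right (hq ▸ Fintype.card_pos) (Nat.zero_le _))).2 (by simpa using hl)
    have hd' : i ∣ 2 * l := by
      simpa using (Nat.modEq_iff_dvd' (Nat.zero_le _)).1 (GeomClasses.SubspaceDerange.pow_modEq hrq hi h')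
    rw [hc]
    split_ifs with he
    · exact hd'
    · exact Nat.mul_dvd_mul_left 2 ((Nat.prime_two.coprime_iff_not_dvd.2
        (fun h => he (even_iff_two_dvd.2 h))).symm.dvd_of_dvd_mul_left hd')
  have hcn : c ≤ 2 * d := (Nat.le_of_dvd (by omega) hcl).trans (by omega)
  have hk : (2 * d) % c < c := Nat.mod_lt _ hc0
  have hdiv := Nat.div_add_mod (2 * d) c
  constructor
  · intro H
    by_cases hr2 : r = 2
    · refine Or.inl ⟨hr2, fun hp2 => hrp (hr2.trans hp2.symm), ?_⟩
      by_contra hcon
      push_neg at hcon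
      have hp2 : p ≠ 2 := fun hp2 => hrp (hr2.trans hp2.symm)
      have hodd : q % 2 = 1 := by
        rw [← hq, hf₀, ← Nat.odd_iff]; exact (hp.odd_of_ne_two hp2).pow
      have hnsq : ¬ IsSquare (-1 : F) := by
        rw [FiniteField.isSquare_neg_one_iff, hq]
        omega
      obtain ⟨W, hWd, -, hWi⟩ := H ⟨Matrix.J (Fin d) F, SymplecticGroup.J_mem (Fin d) F⟩ ⟨-1, by
        rw [hr2, SubmonoidClass.coe_pow, pow_two, neg_one_smul]; exact Matrix.J_squared (Fin d) F⟩ (fun e he => by
          have := congrFun (congrFun (show Matrix.J (Fin d) F = e • 1 from he) (Sum.inr i0)) (Sum.inl i0)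
          simp [Matrix.J] at this)
      let J : Module.End F (Fin d ⊕ Fin d → F) := Matrix.toLin' (Matrix.J (Fin d) F)
      have hJ : ∀ w ∈ W, J w ∈ W := fun w hw => hWi ⟨w, hw, rfl⟩
      have hJJ : (J.restrict hJ) * (J.restrict hJ) = (-1 : F) • 1 := LinearMap.ext fun w => Subtype.ext (by
        show J (J (w : Fin d ⊕ Fin d → F)) = _
        rw [← Module.End.mul_apply, Module.End.mul_eq_comp, ← Matrix.toLin'_mul, Matrix.J_squared]
        simp)
      have hdet := congrArg LinearMap.det hJJ
      rw [map_mul, LinearMap.det_smul, map_one, mul_one, hWd, (Nat.not_even_iff_odd.1 hcon.1).neg_one_pow] at hdet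
      exact hnsq ⟨_, hdet.symm⟩
    · have hodd := hr.odd_of_ne_two hr2
      have key : ∀ T : Module.End F (Fin d ⊕ Fin d → F), T ^ r = 1 → (∀ u v, B (T u) (T v) = B u v) →
          Module.finrank F (LinearMap.ker (T - 1)) ≠ 2 * d →
          ∃ W : Submodule F (Fin d ⊕ Fin d → F), Module.finrank F W = m ∧ GeomClasses.SympIsotropic.TI B W ∧
            ∀ w ∈ W, T w ∈ W := by
        intro T hT' hTB hne
        have hmem : LinearMap.toMatrix' T ∈ Matrix.symplecticGroup (Fin d) F :=
          Cfsg.Agent.Forms.mem_symplectic_iff.2 fun u v => by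
            simp only [LinearMap.toMatrix'_mulVec]; simpa [B] using hTB u v
        have hx : Matrix.toLin' (LinearMap.toMatrix' T) = T := Matrix.toLin'_toMatrix' T
        obtain ⟨W, hWd, hWt, hWi⟩ := H ⟨_, hmem⟩ ⟨1, by
          rw [one_smul, SubmonoidClass.coe_pow]
          refine Matrix.toLin'.injective ?_
          rw [Matrix.toLin'_pow, hx, hT', Matrix.toLin'_one]; rfl⟩ (fun e he => hne (by
          have hTe : T = e • 1 := by
            rw [← hx, show LinearMap.toMatrix' T = e • 1 from he, map_smul, Matrix.toLin'_one]; rfl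
          have he2 : e * e = 1 := hsquare e fun u v => by
            have h := hTB u v
            simp only [B, hTe, LinearMap.smul_apply, Module.End.one_apply, Cfsg.Agent.Forms.sympB_apply] at h
            exact h
          have her : e ^ r = 1 := by
            have h := congrArg (fun f : Module.End F (Fin d ⊕ Fin d → F) => f (Pi.single (Sum.inl i0) 1) (Sum.inl i0)) hT'
            simpa [hTe, smul_pow] using h
          obtain ⟨s, rfl⟩ := hodd
          rw [pow_succ, pow_mul, pow_two, he2, one_pow, one_mul] at her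
          rw [hTe, her, one_smul, sub_self, LinearMap.ker_zero, finrank_top, hV]))
        refine ⟨W, hWd, fun u hu v hv => ?_, fun w hw => ?_⟩
        · rw [Cfsg.Agent.Forms.sympB_apply]; exact hWt u hu v hv
        · have := hWi ⟨w, hw, rfl⟩
          rwa [hx] at this
      obtain ⟨T, hTr, hTB, hker⟩ := GeomClasses.SympDecompDerange.exists_moving (r := r) hA hB hrF hq hrq hi hc
        (j := (2 * d) / c) (by rw [hV]; exact Nat.div_mul_le_self _ _)
      rw [hV, show 2 * d - 2 * d / c * c = (2 * d) % c by rw [Nat.mul_comm (2 * d / c) c]; omega] at hker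
      obtain ⟨W, hWd, hWt, hWi⟩ := key T hTr hTB (by omega)
      have hKn : GeomClasses.SympStructure.Nd B (LinearMap.ker (T - 1)) := by
        have := GeomClasses.SympStructure.nd_fixed hA hTB hTr hrF (W := ⊤) (fun _ _ => trivial) (GeomClasses.SympStructure.nd_top hB)
        rwa [top_inf_eq] at this
      have hle := GeomClasses.SympIsotropic.ti_le hA (X := W ⊓ LinearMap.ker (T - 1)) hKn inf_le_right
        fun u hu v hv => hWt u hu.1 v hv.1
      rw [hker] at hle
      have hmod := GeomClasses.SubspaceDerange.dim_mod hq hrq hi hTr hWi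
      rw [hWd] at hmod
      have hmk : 2 * (m % i) ≤ (2 * d) % c := by
        have := Nat.mod_le (Module.finrank F ↥(W ⊓ LinearMap.ker (T - 1))) i
        rw [Nat.ModEq] at hmod
        omega
      have him : i ≤ m := by
        by_contra hlt
        rw [Nat.mod_eq_of_lt (show m < i by omega)] at hmk
        obtain ⟨w, hw⟩ := hcl
        have h1 : w ≤ 2 * d / c := (Nat.le_div_iff_mul_le hc0).2 (by rw [Nat.mul_comm]; omega)
        have := Nat.mul_le_mul_left c h1
        omega
      refine Or.inr ⟨hrp, lt_of_le_of_ne hr.two_le (Ne.symm hr2), him, hmk, ?_⟩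
      by_cases hie : Even i
      swap
      · exact Or.inl (Nat.not_even_iff_odd.1 hie)
      refine Or.inr ?_
      rw [hc, if_pos hie] at hcn
      by_contra hcon
      set t := (r - 1) / i
      set n' := 2 * d / i
      set m' := m / i
      have hn1 : 1 ≤ n' := Nat.div_pos hcn hi0
      have hnd : i * n' + (2 * d) % i = 2 * d := Nat.div_add_mod _ _
      have hmd' : i * m' + m % i = m := Nat.div_add_mod _ _
      obtain ⟨T₂, hTr₂, hTB₂, hker₂, hprop⟩ := GeomClasses.SympIsotropicDerange.exists_derangement (F := F) (d := d)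
        hq hrp hrq hi hie (u := min n' t) (le_min hn1 ht1) (by rw [← ht]; exact Nat.mul_le_mul_right i (min_le_right _ _))
        ((Nat.mul_le_mul_right i (min_le_left _ _)).trans (Nat.div_mul_le_self _ _))
      have hupos : 0 < min n' t * i := Nat.mul_pos (lt_min hn1 ht1) hi0
      obtain ⟨W₂, hW₂d, hW₂t, hW₂i⟩ := key T₂ hTr₂ hTB₂ (by omega)
      have h := hprop W₂ hW₂i hW₂t
      rw [hW₂d] at h
      have hkl := Nat.mod_lt (2 * d) hi0
      rcases le_total n' t with hnt | hnt
      · rw [min_eq_left hnt, Nat.mul_comm n' i] at h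
        omega
      · rw [min_eq_right hnt] at h
        have h1 : i * (n' + 1) ≤ i * (t + 2 * m') := Nat.mul_le_mul_left i (by omega)
        rw [Nat.mul_add, Nat.mul_one, Nat.mul_add, Nat.mul_comm i t, Nat.mul_left_comm] at h1
        omega
  · rintro hcond x ⟨z, hz⟩ hns
    set T : Module.End F (Fin d ⊕ Fin d → F) := Matrix.toLin' (x : Matrix (Fin d ⊕ Fin d) (Fin d ⊕ Fin d) F) with hTdef
    have hTB : ∀ u v, B (T u) (T v) = B u v := fun u v => by
      simp only [B, hTdef, Matrix.toLin'_apply, Cfsg.Agent.Forms.sympB_apply]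
      exact Cfsg.Agent.Forms.mem_symplectic_iff.1 x.2 u v
    have hT' : T ^ r = z • 1 := by
      rw [SubmonoidClass.coe_pow] at hz
      rw [hTdef, ← Matrix.toLin'_pow, hz, map_smul, Matrix.toLin'_one]; rfl
    have hz2 : z * z = 1 := by
      refine hsquare z fun u v => ?_
      have h : ∀ k u v, B ((T ^ k) u) ((T ^ k) v) = B u v := by
        intro k
        induction k with
        | zero => intro u v; rfl
        | succ k ih => intro u v; rw [pow_succ', Module.End.mul_apply, Module.End.mul_apply, hTB, ih]
      have h' := h r u v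
      simp only [B, hT', LinearMap.smul_apply, Module.End.one_apply, Cfsg.Agent.Forms.sympB_apply] at h'
      exact h'
    suffices ∃ W : Submodule F (Fin d ⊕ Fin d → F), Module.finrank F W = m ∧ GeomClasses.SympIsotropic.TI B W ∧
        ∀ w ∈ W, T w ∈ W by
      obtain ⟨W, hWd, hWt, hWi⟩ := this
      exact ⟨W, hWd, fun u hu v hv => by rw [← Cfsg.Agent.Forms.sympB_apply]; exact hWt u hu v hv,
        by rintro _ ⟨w, hw, rfl⟩; exact hWi w hw⟩
    rcases hcond with ⟨hr2, hp2, hcase⟩ | ⟨-, hr3, him, hmk, hcase⟩
    · have h2 : (2 : F) ≠ 0 := fun h => hp2 ((Nat.prime_dvd_prime_iff_eq hp Nat.prime_two).1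
        ((CharP.cast_eq_zero_iff F p 2).1 (by exact_mod_cast h)))
      have hT2 : ∀ v, T (T v) = z • v := fun v => by rw [← Module.End.mul_apply, ← pow_two, ← hr2, hT']; rfl
      have hinj : Function.Injective T := fun u v h => by
        have := congrArg T h
        rw [hT2, hT2] at this
        exact smul_right_injective _ (fun e => by rw [e, zero_mul] at hz2; exact zero_ne_one hz2 : z ≠ 0) this
      rcases mul_self_eq_one_iff.1 hz2 with rfl | rfl
      · simp only [one_smul] at hT2
        have hKn : GeomClasses.SympStructure.Nd B (LinearMap.ker (T - 1)) := by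
          have := GeomClasses.SympStructure.nd_fixed (r := r) hA hTB (T := T) (by rw [hT', one_smul]) hrF (W := ⊤)
            (fun _ _ => trivial) (GeomClasses.SympStructure.nd_top hB)
          rwa [top_inf_eq] at this
        set K := LinearMap.ker (T - 1)
        have hKi : ∀ v ∈ K, T v ∈ K := fun v hv => by rwa [show T v = v from sub_eq_zero.1 hv]
        have hMn : GeomClasses.SympStructure.Nd B (B.orthogonal K) := by
          have := (GeomClasses.SympStructure.nd_split hA hKn (GeomClasses.SympStructure.nd_top hB) le_top).1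
          rwa [top_inf_eq] at this
        have hc' := GeomClasses.SympStructure.nd_isCompl hA hKn
        have hM : ∀ v ∈ B.orthogonal K, T v = -v := fun v hv => eq_neg_iff_add_eq_zero.2 <| by
          have h1 : T v + v ∈ K := by
            show (T - 1) _ = 0
            rw [LinearMap.sub_apply, map_add, hT2, Module.End.one_apply]; abel
          exact Submodule.disjoint_def.1 hc'.disjoint _ h1
            (add_mem (GeomClasses.SympStructure.orth_invariant hTB hinj hKi v hv) hv)
        have hd' := Submodule.finrank_add_eq_of_isCompl hc'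
        rw [hV] at hd'
        obtain ⟨a, ha⟩ := GeomClasses.SympStructure.nd_even hA hKn
        obtain ⟨E₁, hE₁K, hE₁, hd₁⟩ := GeomClasses.SympIsotropic.exists_ti_half hA hKn (e := min m a) (by omega)
        obtain ⟨E₂, hE₂M, hE₂, hd₂⟩ := GeomClasses.SympIsotropic.exists_ti_half hA hMn (e := m - min m a) (by omega)
        refine ⟨E₁ ⊔ E₂, ?_, GeomClasses.SympIsotropic.ti_sup hA hE₁ hE₂ (hE₂M.trans (B.orthogonal_le hE₁K)), fun w hw => ?_⟩
        · rw [GeomClasses.SubspaceDerange.finrank_sup_of_disjoint (le_bot_iff.1 ((inf_le_inf hE₁K hE₂M).trans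
            hc'.inf_eq_bot.le)), hd₁, hd₂]
          omega
        · obtain ⟨u, hu, v, hv, rfl⟩ := Submodule.mem_sup.1 hw
          rw [map_add, show T u = u from sub_eq_zero.1 (hE₁K hu), hM v (hE₂M hv)]
          exact add_mem (Submodule.mem_sup_left hu) (Submodule.mem_sup_right (neg_mem hv))
      · simp only [neg_one_smul] at hT2
        by_cases hsq : IsSquare (-1 : F)
        · obtain ⟨e, he⟩ := hsq
          have he0 : e ≠ 0 := fun h => by rw [h, zero_mul] at he; exact neg_ne_zero.2 one_ne_zero he
          let L : F → Submodule F (Fin d ⊕ Fin d → F) := fun a => LinearMap.ker (T - a • 1)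
          have hL : ∀ a v, v ∈ L a ↔ T v = a • v := fun a v => by simp [L, sub_eq_zero]
          have hti : ∀ a, a * a = -1 → GeomClasses.SympIsotropic.TI B (L a) := fun a ha u hu v hv => by
            have := hTB u v
            rw [(hL a u).1 hu, (hL a v).1 hv, map_smul, map_smul, LinearMap.smul_apply, smul_smul, ha, neg_one_smul] at this
            have h' : (2 : F) * B u v = 0 := by linear_combination -this
            exact (mul_eq_zero.1 h').resolve_left h2
          have hsup : L e ⊔ L (-e) = ⊤ := eq_top_iff.2 fun v _ => by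
            refine Submodule.mem_sup.2 ⟨(2 * e)⁻¹ • (e • v + T v), ?_, (2 * e)⁻¹ • (e • v - T v), ?_, ?_⟩
            · rw [hL, map_smul, map_add, map_smul, hT2]
              match_scalars <;> first | ring1 | linear_combination (2 * e)⁻¹ * he | linear_combination -(2 * e)⁻¹ * he
            · rw [hL, map_smul, map_sub, map_smul, hT2]
              match_scalars <;> first | ring1 | linear_combination (2 * e)⁻¹ * he | linear_combination -(2 * e)⁻¹ * he
            · have hne : (2 * e) ≠ 0 := mul_ne_zero h2 he0
              rw [← smul_add, show e • v + T v + (e • v - T v) = (2 * e) • v by rw [two_mul, add_smul]; abel, smul_smul,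
                inv_mul_cancel₀ hne, one_smul]
          have hd1 := Submodule.finrank_add_le_finrank_add_finrank (L e) (L (-e))
          rw [hsup, finrank_top, hV] at hd1
          have h1 := GeomClasses.SympIsotropic.ti_le hA (GeomClasses.SympStructure.nd_top hB) le_top (hti e he.symm)
          have h2' := GeomClasses.SympIsotropic.ti_le hA (GeomClasses.SympStructure.nd_top hB) le_top
            (hti (-e) (by rw [neg_mul_neg]; exact he.symm))
          rw [finrank_top, hV] at h1 h2'
          obtain ⟨W, -, hW, hWd⟩ := GeomClasses.SubspaceDerange.exists_between (bot_le (a := L e)) (d := m)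
            (by rw [finrank_bot]; omega) (by omega)
          refine ⟨W, hWd, fun u hu v hv => hti e he.symm u (hW hu) v (hW hv), fun w hw => ?_⟩
          rw [(hL e w).1 (hW hw)]
          exact W.smul_mem e hw
        · have hme : Even m := hcase.resolve_right fun h => hsq (by rw [FiniteField.isSquare_neg_one_iff, hq]; omega)
          obtain ⟨a, ha⟩ := hme
          obtain ⟨X, hX, hXt, hXd⟩ := GeomClasses.SympIsotropic.exists_ti_sq hA hB hTB h2 hsq hT2 a (by omega)
          exact ⟨X, by omega, hXt, hX⟩
    · have hr2 : r ≠ 2 := by omega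
      obtain ⟨s₀, hs₀⟩ := hr.odd_of_ne_two hr2
      have hzr : z ^ r = z := by rw [hs₀, pow_succ, pow_mul, pow_two, hz2, one_pow, one_mul]
      have hz0 : z ≠ 0 := fun e => by rw [e, zero_mul] at hz2; exact zero_ne_one hz2
      set S := z • T with hSdef
      have hS : S ^ r = 1 := by rw [hSdef, smul_pow, hT', smul_smul, hzr, hz2, one_smul]
      have hSB : ∀ u v, B (S u) (S v) = B u v := fun u v => by
        simp only [hSdef, LinearMap.smul_apply, map_smul, smul_eq_mul]
        rw [hTB, ← mul_assoc, hz2, one_mul]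
      have hinj : Function.Injective S := fun a b h => by
        have := congrArg (S ^ (r - 1)) h
        rwa [← Module.End.mul_apply, ← Module.End.mul_apply, ← pow_succ, Nat.sub_add_cancel hr.one_lt.le, hS,
          Module.End.one_apply, Module.End.one_apply] at this
      have htop : ∀ v ∈ (⊤ : Submodule F (Fin d ⊕ Fin d → F)), S v ∈ (⊤ : Submodule F (Fin d ⊕ Fin d → F)) := fun _ _ => trivial
      have hKn : GeomClasses.SympStructure.Nd B (LinearMap.ker (S - 1)) := by
        have := GeomClasses.SympStructure.nd_fixed hA hSB hS hrF htop (GeomClasses.SympStructure.nd_top hB)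
        rwa [top_inf_eq] at this
      have hmod := GeomClasses.SympStructure.dim_mod hA hSB hS hrF hq hrq hi hc htop (GeomClasses.SympStructure.nd_top hB)
      rw [finrank_top, hV, top_inf_eq] at hmod
      set K := LinearMap.ker (S - 1)
      have hKi : ∀ v ∈ K, S v ∈ K := fun v hv => by rwa [show S v = v from sub_eq_zero.1 hv]
      have hc' := GeomClasses.SympStructure.nd_isCompl hA hKn
      have hRn : GeomClasses.SympStructure.Nd B (B.orthogonal K) := by
        have := (GeomClasses.SympStructure.nd_split hA hKn (GeomClasses.SympStructure.nd_top hB) le_top).1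
        rwa [top_inf_eq] at this
      have hd' := Submodule.finrank_add_eq_of_isCompl hc'
      rw [hV] at hd'
      have hfk : (2 * d) % c ≤ Module.finrank F K := by rw [hmod]; exact Nat.mod_le _ _
      obtain ⟨g, hg⟩ := (Nat.modEq_iff_dvd' (show Module.finrank F K ≤ 2 * d by omega)).1 hmod.symm
      have hmd' : i * (m / i) + m % i = m := Nat.div_add_mod _ _
      obtain ⟨j, hjR, hjc, hje⟩ : ∃ j, 2 * (j * i) ≤ Module.finrank F (B.orthogonal K) ∧
          (j = 0 ∨ Odd i ∨ 2 * (j * i) + (r - 1) / i * i ≤ Module.finrank F (B.orthogonal K) + i) ∧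
          (j * i ≤ m ∧ 2 * (m - j * i) ≤ Module.finrank F K) := by
        by_cases hie : Even i
        · have hcase' := hcase.resolve_left (Nat.not_odd_iff_even.2 hie)
          rw [hc, if_pos hie] at hg hmk hfk
          set t := (r - 1) / i
          have hti : i * (t + 2 * (m / i)) ≤ i * (2 * d / i) := Nat.mul_le_mul_left i hcase'
          rw [Nat.mul_add, Nat.mul_left_comm i 2] at hti
          have hnd : i * (2 * d / i) + (2 * d) % i = 2 * d := Nat.div_add_mod _ _
          rcases le_total (m / i) ((g + 1 - t) / 2) with hle | hle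
          · refine ⟨m / i, ?_, ?_, ?_⟩
            · have := Nat.mul_le_mul_left i (show 2 * (m / i) ≤ g by omega)
              rw [Nat.mul_left_comm] at this
              rw [Nat.mul_comm (m / i)]
              omega
            · rcases Nat.eq_zero_or_pos (m / i) with h | h
              · exact Or.inl h
              · have := Nat.mul_le_mul_left i (show 2 * (m / i) + t ≤ g + 1 by omega)
                rw [Nat.mul_add, Nat.mul_add, Nat.mul_left_comm, Nat.mul_one] at this
                exact Or.inr (Or.inr (by rw [Nat.mul_comm (m / i), Nat.mul_comm t]; omega))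
            · rw [Nat.mul_comm (m / i)]
              omega
          · set j := (g + 1 - t) / 2 with hj
            have hA1 := Nat.mul_le_mul_left i (show j ≤ m / i from hle)
            have hA2 := Nat.mul_le_mul_left i (show g ≤ 2 * j + t by omega)
            rw [Nat.mul_add, Nat.mul_left_comm] at hA2
            refine ⟨j, ?_, ?_, by rw [Nat.mul_comm j]; omega, by rw [Nat.mul_comm j]; omega⟩
            · have := Nat.mul_le_mul_left i (show 2 * j ≤ g by omega)
              rw [Nat.mul_left_comm] at this
              rw [Nat.mul_comm j]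
              omega
            · rcases Nat.eq_zero_or_pos j with h | h
              · exact Or.inl h
              · have := Nat.mul_le_mul_left i (show 2 * j + t ≤ g + 1 by omega)
                rw [Nat.mul_add, Nat.mul_add, Nat.mul_left_comm, Nat.mul_one] at this
                exact Or.inr (Or.inr (by rw [Nat.mul_comm j, Nat.mul_comm t]; omega))
        · rw [hc, if_neg hie, Nat.mul_assoc] at hg
          have hgi : i * g = g * i := Nat.mul_comm _ _
          rcases le_total (m / i) g with hle | hle
          · have := Nat.mul_le_mul_left i hle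
            refine ⟨m / i, by rw [Nat.mul_comm (m / i)]; omega, Or.inr (Or.inl (Nat.not_even_iff_odd.1 hie)), ?_⟩
            rw [Nat.mul_comm (m / i)]
            omega
          · have := Nat.mul_le_mul_left i hle
            exact ⟨g, by omega, Or.inr (Or.inl (Nat.not_even_iff_odd.1 hie)), by omega, by omega⟩
      obtain ⟨X, hXR, hXi, hXt, hXd⟩ := GeomClasses.SympIsotropicOdd.exists_ti_sub hA hSB hS hrF hr2 hq hrq hi ht j
        (B.orthogonal K) (GeomClasses.SympStructure.orth_invariant hSB hinj hKi) hRn
        (by rw [inf_comm]; exact hc'.inf_eq_bot) hjR hjc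
      obtain ⟨E, hEK, hEt, hEd⟩ := GeomClasses.SympIsotropic.exists_ti_half hA hKn hje.2
      refine ⟨E ⊔ X, ?_, GeomClasses.SympIsotropic.ti_sup hA hEt hXt (hXR.trans (B.orthogonal_le hEK)), fun w hw => ?_⟩
      · rw [GeomClasses.SubspaceDerange.finrank_sup_of_disjoint (le_bot_iff.1 ((inf_le_inf hEK hXR).trans
          hc'.inf_eq_bot.le)), hEd, hXd]
        omega
      · have hSw : S w ∈ E ⊔ X := by
          obtain ⟨u, hu, v, hv, rfl⟩ := Submodule.mem_sup.1 hw
          rw [map_add, show S u = u from sub_eq_zero.1 (hEK hu)]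
          exact add_mem (Submodule.mem_sup_left hu) (Submodule.mem_sup_right (hXi v hv))
        rwa [hSdef, LinearMap.smul_apply, Submodule.smul_mem_iff _ hz0] at hSw

end Cfsg.Agent.S5955
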