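import Cfsg.Statements.S5956
import Cfsg.Agent.GeomClasses.SympNondegModels
import Cfsg.Agent.GeomClasses.SympDecompDerange
import Cfsg.Agent.Linear.JordanTypeGroups

set_option autoImplicit false
open scoped MatrixGroups
open Cfsg

namespace Cfsg.Agent.S5956

/-- Elements of prime order of PSp_n(q) with no fixed nondegenerate `m`-space. Here `T = PSp_n(q)` with `n = 2d ≥ 4`, `(n, q) ≠ (4, 2)`, realised through the symplectic matrices over the field `F` with `q` elements (preserving the standard alternating form); an element of `T` of prime order `r` is such a matrix `x` with `x^r` scalar and `x` not scalar. For `r ≠ p` let `i` be the multiplicative order of `q` modulo `r`, `c = i` for `i` even and `c = 2i` for `i` odd, and write `k = n mod c`, `ℓ = m mod i`, `ℓ' = m mod c`, `n' = ⌊n/i⌋`, `m' = ⌊m/i⌋`, `t = (r−1)/i`. Let `m` be even with `2 ≤ m < n/2` and let `r` be a prime dividing the number of nondegenerate `m`-spaces. Then every element of `T` of order `r` fixes a nondegenerate `m`-space if and only if one of: (i)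 `r = p > 2` and every partition of `n` into parts of size at most `p` in which every odd part has even multiplicity contains (as a sub-multiset) a partition of `m` in which every odd part has even multiplicity; (ii) `r = p = 2` and (`n ≡ 2 (mod 4)` or `m ≡ 0 (mod 4)`); (iii) `r = 2 ≠ p`; (iv) `r ≠ p`, `r > 2`, `c ≤ m` and `k ≥ ℓ'`. -/
theorem result {F : Type*} [Field F] [Fintype F] {p : ℕ} [Fact p.Prime] [CharP F p] {q : ℕ} (hq : Fintype.card F = q)
    (d m : ℕ) (hd : 2 ≤ d) (hT : (d, q) ≠ (2, 2)) (hm : 2 ≤ m) (hme : Even m) (hmd : m < d)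
    (r : ℕ) [Fact r.Prime]
    (hrΩ : r ∣ Nat.card {W : Submodule F (Fin d ⊕ Fin d → F) // Module.finrank F ↥W = m ∧ (∀ u ∈ W, u ≠ 0 → ∃ v ∈ W, Cfsg.sympForm d F u v ≠ 0)})
    (i c : ℕ) (hi : i = orderOf (q : ZMod r)) (hc : c = if Even i then i else 2 * i) :
    (∀ x : ↥(Matrix.symplecticGroup (Fin d) F),
      (∃ z : F, ((x ^ r : ↥(Matrix.symplecticGroup (Fin d) F)) : Matrix (Fin d ⊕ Fin d) (Fin d ⊕ Fin d) F) = z • (1 : Matrix (Fin d ⊕ Fin d) (Fin d ⊕ Fin d) F)) →
      (∀ z : F, (x : Matrix (Fin d ⊕ Fin d) (Fin d ⊕ Fin d) F) ≠ z • (1 : Matrix (Fin d ⊕ Fin d) (Fin d ⊕ Fin d) F)) →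
      ∃ W : Submodule F (Fin d ⊕ Fin d → F), Module.finrank F ↥W = m ∧ (∀ u ∈ W, u ≠ 0 → ∃ v ∈ W, Cfsg.sympForm d F u v ≠ 0) ∧
        W.map (Matrix.toLin' (x : Matrix (Fin d ⊕ Fin d) (Fin d ⊕ Fin d) F)) ≤ W) ↔
    ((r = p ∧ 2 < p ∧ (∀ μ : Multiset ℕ, (∀ a ∈ μ, 0 < a ∧ a ≤ p) → (∀ a : ℕ, Odd a → Even (μ.count a)) → μ.sum = 2 * d →
        ∃ ν : Multiset ℕ, ν ≤ μ ∧ ν.sum = m ∧ ∀ a : ℕ, Odd a → Even (ν.count a))) ∨
     (r = p ∧ p = 2 ∧ ((2 * d) % 4 = 2 ∨ m % 4 = 0)) ∨
     (r = 2 ∧ p ≠ 2) ∨
     (r ≠ p ∧ 2 < r ∧ c ≤ m ∧ m % c ≤ (2 * d) % c)) := by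
  classical
  have hp : p.Prime := Fact.out
  have hr : r.Prime := Fact.out
  obtain ⟨f₀, -, hf₀⟩ := FiniteField.card F p
  let B := Cfsg.Agent.Forms.sympB d F
  have hA : B.IsAlt := Cfsg.Agent.Forms.sympB_isAlt
  have hB : B.Nondegenerate := Cfsg.Agent.Forms.sympB_nondegenerate
  have hV : Module.finrank F (Fin d ⊕ Fin d → F) = 2 * d := by
    rw [Module.finrank_pi, Fintype.card_sum, Fintype.card_fin]; omega
  have hnd : ∀ W : Submodule F (Fin d ⊕ Fin d → F), GeomClasses.SympStructure.Nd B W ↔
      ∀ u ∈ W, u ≠ 0 → ∃ v ∈ W, Cfsg.sympForm d F u v ≠ 0 := fun W => GeomClasses.SympNondeg.nd_iff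
  let i0 : Fin d := ⟨0, by omega⟩
  have hsquare : ∀ z : F, (∀ u v : Fin d ⊕ Fin d → F, Cfsg.sympForm d F (z • u) (z • v) = Cfsg.sympForm d F u v) → z * z = 1 := by
    intro z h
    have h1 := h (Pi.single (Sum.inr i0) 1) (Pi.single (Sum.inl i0) 1)
    simpa [Cfsg.Agent.Forms.sympForm_eq, Pi.single_apply, mul_assoc] using h1
  haveI : Nonempty (Fin d ⊕ Fin d) := ⟨Sum.inl i0⟩
  haveI : Nontrivial (Fin d ⊕ Fin d → F) := inferInstance
  haveI : CharP (Module.End F (Fin d ⊕ Fin d → F)) p :=
    charP_of_injective_algebraMap (algebraMap F (Module.End F (Fin d ⊕ Fin d → F))).injective p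
  let Fixes : Module.End F (Fin d ⊕ Fin d → F) → Prop := fun T =>
    ∃ W : Submodule F (Fin d ⊕ Fin d → F), Module.finrank F W = m ∧ GeomClasses.SympStructure.Nd B W ∧ ∀ w ∈ W, T w ∈ W
  -- an endomorphism as an element of the group
  have lift : ∀ T : Module.End F (Fin d ⊕ Fin d → F), T ^ r = 1 → (∀ u v, B (T u) (T v) = B u v) → (∀ e : F, T ≠ e • 1) →
      (∀ x : ↥(Matrix.symplecticGroup (Fin d) F),
        (∃ z : F, ((x ^ r : ↥(Matrix.symplecticGroup (Fin d) F)) : Matrix (Fin d ⊕ Fin d) (Fin d ⊕ Fin d) F) = z • (1 : Matrix (Fin d ⊕ Fin d) (Fin d ⊕ Fin d) F)) →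
        (∀ z : F, (x : Matrix (Fin d ⊕ Fin d) (Fin d ⊕ Fin d) F) ≠ z • (1 : Matrix (Fin d ⊕ Fin d) (Fin d ⊕ Fin d) F)) →
        ∃ W : Submodule F (Fin d ⊕ Fin d → F), Module.finrank F ↥W = m ∧ (∀ u ∈ W, u ≠ 0 → ∃ v ∈ W, Cfsg.sympForm d F u v ≠ 0) ∧
          W.map (Matrix.toLin' (x : Matrix (Fin d ⊕ Fin d) (Fin d ⊕ Fin d) F)) ≤ W) → Fixes T := by
    intro T hTr hTB hns H
    have hmem : LinearMap.toMatrix' T ∈ Matrix.symplecticGroup (Fin d) F :=
      Cfsg.Agent.Forms.mem_symplectic_iff.2 fun u v => by
        simp only [LinearMap.toMatrix'_mulVec]; simpa [B] using hTB u v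
    have hx : Matrix.toLin' (LinearMap.toMatrix' T) = T := Matrix.toLin'_toMatrix' T
    obtain ⟨W, hWd, hWn, hWi⟩ := H ⟨_, hmem⟩ ⟨1, by
      rw [one_smul, SubmonoidClass.coe_pow]
      refine Matrix.toLin'.injective ?_
      rw [Matrix.toLin'_pow, hx, hTr, Matrix.toLin'_one]; rfl⟩ (fun e he => hns e (by
        rw [← hx, show LinearMap.toMatrix' T = e • 1 from he, map_smul, Matrix.toLin'_one]; rfl))
    exact ⟨W, hWd, (hnd W).2 hWn, fun w hw => by
      have := hWi ⟨w, hw, rfl⟩
      rwa [hx] at this⟩
  constructor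
  · intro H
    by_cases hr2 : r = 2 ∧ p ≠ 2
    · exact Or.inr (Or.inr (Or.inl hr2))
    by_cases hrp : r = p
    · by_cases hp2 : p = 2
      · refine Or.inr (Or.inl ⟨hrp, hp2, ?_⟩)
        by_contra hcon
        obtain ⟨l, hl⟩ := hme
        have hde : Even d := Nat.even_iff.2 (by omega)
        have h2 : (2 : F) = 0 := by
          have h := CharP.cast_eq_zero F p
          rw [hp2] at h
          exact_mod_cast h
        obtain ⟨T, hTB, hTsq, hTrk, hTsing⟩ := GeomClasses.SympNondegModels.exists_involution (F := F) d hde h2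
        have hT2 : T ^ r = 1 := by
          have h := sub_pow_char_of_commute p (Commute.one_right T)
          rw [hp2, hTsq, one_pow] at h
          rw [hrp, hp2]
          exact sub_eq_zero.1 h.symm
        obtain ⟨W, hWd, hWn, hWi⟩ := lift T hT2 hTB (fun e he => by
          have he1 : e = 1 := by
            have h := hTsq
            rw [he, show e • (1 : Module.End F (Fin d ⊕ Fin d → F)) - 1 = (e - 1) • 1 by ext v; simp [sub_smul],
              smul_pow, one_pow] at h
            rcases smul_eq_zero.1 h with h | h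
            · exact sub_eq_zero.1 ((pow_eq_zero_iff two_ne_zero).1 h)
            · exact absurd h one_ne_zero
          rw [he, he1, one_smul, sub_self, LinearMap.range_zero, finrank_bot] at hTrk
          omega) H
        have hinj : Function.Injective T := fun u v h => by
          have h' := congrArg (T ^ (r - 1)) h
          rwa [← Module.End.mul_apply, ← Module.End.mul_apply, ← pow_succ, Nat.sub_add_cancel hr.one_lt.le, hT2,
            Module.End.one_apply, Module.End.one_apply] at h'
        have hYn : GeomClasses.SympStructure.Nd B (B.orthogonal W) := by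
          have := (GeomClasses.SympStructure.nd_split hA hWn (GeomClasses.SympStructure.nd_top hB) le_top).1
          rwa [top_inf_eq] at this
        have hsplit := GeomClasses.SympNondegModels.rank_split hA hinj hTB hWi hWn 1
        rw [pow_one, hTrk] at hsplit
        have hd' := Submodule.finrank_add_eq_of_isCompl (GeomClasses.SympStructure.nd_isCompl hA hWn)
        have main : ∀ U : Submodule F (Fin d ⊕ Fin d → F), (∀ u ∈ U, T u ∈ U) → GeomClasses.SympStructure.Nd B U →
            Even (Module.finrank F (U.map (T - 1))) ∧ 2 * Module.finrank F (U.map (T - 1)) ≤ Module.finrank F U := by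
          intro U hU hUn
          obtain ⟨P, hP, hprof, -⟩ := GeomClasses.SympUnipotent.exists_pieces hA hTB hTsq hU hUn
          have h1 := hprof 1
          have h0 := hprof 0
          rw [pow_one] at h1
          rw [pow_zero, Module.End.one_eq_id, Submodule.map_id] at h0
          rw [h1, h0, GeomClasses.SympNondegModels.prof_parts, GeomClasses.SympNondegModels.prof_parts]
          refine ⟨even_iff_two_dvd.2 (Multiset.dvd_sum fun a ha => ?_), ?_⟩
          · obtain ⟨x, hx, rfl⟩ := Multiset.mem_map.1 ha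
            obtain ⟨hx1, hx2, hx3, hx4⟩ := hP x hx
            rcases hx3 with ⟨hs, he⟩ | ⟨hs, -⟩
            · obtain ⟨v, -, hv⟩ := hx4 hs
              obtain ⟨b, hb⟩ := he
              rw [show x.1 - 1 = 1 by omega, pow_one] at hv
              exact absurd (hTsing v) hv
            · exact Dvd.intro _ (by rw [hs])
          · rw [← Multiset.sum_map_mul_left]
            refine Multiset.sum_map_le_sum_map _ _ fun x hx => ?_
            obtain ⟨hx1, hx2, -, -⟩ := hP x hx
            rw [Nat.mul_left_comm]
            exact Nat.mul_le_mul_left _ (by omega)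
        obtain ⟨⟨e₁, he₁⟩, hle₁⟩ := main W hWi hWn
        obtain ⟨-, hle₂⟩ := main _ (GeomClasses.SympStructure.orth_invariant hTB hinj hWi) hYn
        rw [hWd, hV] at hd'
        simp only [B] at hsplit hd' hle₂
        omega
      · refine Or.inl ⟨hrp, lt_of_le_of_ne hp.two_le (Ne.symm hp2), fun μ hμ hpar hsum => ?_⟩
        by_cases hone : GeomClasses.SympUnipotent.prof μ 1 = 0
        · have hrep : μ = Multiset.replicate (Multiset.card μ) 1 := Multiset.eq_replicate_card.2 fun a ha => by
            have h := Multiset.sum_eq_zero_iff.1 hone (a - 1) (Multiset.mem_map_of_mem (fun a => a - 1) ha)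
            have := (hμ a ha).1
            omega
          refine ⟨Multiset.replicate m 1, ?_, by simp, fun a _ => ?_⟩
          · rw [hrep, Multiset.replicate_le_replicate]
            rw [hrep, Multiset.sum_replicate, smul_eq_mul, mul_one] at hsum
            omega
          · rw [Multiset.count_replicate]
            split_ifs
            · exact hme
            · exact Even.zero
        · let dd : Fin μ.toList.length → ℕ := μ.toList.get
          have hmap : (Finset.univ : Finset (Fin μ.toList.length)).val.map dd = μ := by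
            rw [Fin.univ_val_map, List.ofFn_get, Multiset.coe_toList]
          have hprof : ∀ k, Cfsg.Agent.Linear.JordanTypeParity.r dd k = GeomClasses.SympUnipotent.prof μ k := fun k => by
            conv_rhs => rw [← hmap]
            rw [GeomClasses.SympUnipotent.prof, Multiset.map_map]; rfl
          have hdd : ∀ k, dd k ∈ μ := fun k => Multiset.mem_toList.1 (List.get_mem _ _)
          obtain ⟨e, A, hconj⟩ := (Cfsg.Agent.Linear.JordanTypeGroups.sp_jordan_types (F := F) (m := d) dd
            (fun k => (hμ _ (hdd k)).1) (by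
              rw [← Cfsg.Agent.Linear.JordanTypeGroups.card_idx_of_r_zero, hprof, GeomClasses.SympUnipotent.prof_zero, hsum])).2
            (fun j hj => by
              have h := hpar j hj
              rw [← hmap, Multiset.count_map] at h
              convert h using 1
              simp only [Finset.card_def, Finset.filter_val]
              exact congrArg Multiset.card (Multiset.filter_congr fun k _ => eq_comm))
          set T : Module.End F (Fin d ⊕ Fin d → F) := Matrix.toLin' (A : Matrix (Fin d ⊕ Fin d) (Fin d ⊕ Fin d) F) with hTdef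
          have hrank : ∀ k, Module.finrank F (LinearMap.range ((T - 1) ^ k)) = GeomClasses.SympUnipotent.prof μ k := fun k => by
            rw [← hprof, ← Cfsg.Agent.Linear.JordanTypeParity.rank_sub_one_pow e hconj k, hTdef,
              ← show Matrix.toLin' (1 : Matrix (Fin d ⊕ Fin d) (Fin d ⊕ Fin d) F) = 1 from Matrix.toLin'_one,
              ← map_sub, ← Matrix.toLin'_pow]
            rfl
          have hnil : (T - 1) ^ p = 0 := LinearMap.range_eq_bot.1 (Submodule.finrank_eq_zero.1 (by
            rw [hrank]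
            refine Multiset.sum_eq_zero_iff.2 fun b hb => ?_
            obtain ⟨a, ha, rfl⟩ := Multiset.mem_map.1 hb
            have := (hμ a ha).2
            omega))
          have hTp : T ^ r = 1 := by
            have h := sub_pow_char_of_commute p (Commute.one_right T)
            rw [hnil, one_pow] at h
            rw [hrp]
            exact sub_eq_zero.1 h.symm
          have hTB : ∀ u v, B (T u) (T v) = B u v := fun u v => by
            simp only [B, hTdef, Matrix.toLin'_apply, Cfsg.Agent.Forms.sympB_apply]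
            exact Cfsg.Agent.Forms.mem_symplectic_iff.1 A.2 u v
          obtain ⟨W, hWd, hWn, hWi⟩ := lift T hTp hTB (fun e he => hone (by
            have he1 : e = 1 := by
              have h := hnil
              rw [he, show e • (1 : Module.End F (Fin d ⊕ Fin d → F)) - 1 = (e - 1) • 1 by ext v; simp [sub_smul],
                smul_pow, one_pow] at h
              rcases smul_eq_zero.1 h with h | h
              · exact sub_eq_zero.1 ((pow_eq_zero_iff hp.ne_zero).1 h)
              · exact absurd h one_ne_zero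
            rw [← hrank, he, he1, one_smul, sub_self, pow_one, LinearMap.range_zero, finrank_bot])) H
          have hinj : Function.Injective T := fun u v h => by
            have h' := congrArg (T ^ (r - 1)) h
            rwa [← Module.End.mul_apply, ← Module.End.mul_apply, ← pow_succ, Nat.sub_add_cancel hr.one_lt.le, hTp,
              Module.End.one_apply, Module.End.one_apply] at h'
          have hYn : GeomClasses.SympStructure.Nd B (B.orthogonal W) := by
            have := (GeomClasses.SympStructure.nd_split hA hWn (GeomClasses.SympStructure.nd_top hB) le_top).1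
            rwa [top_inf_eq] at this
          obtain ⟨P₁, hP₁, hprof₁, -⟩ := GeomClasses.SympUnipotent.exists_pieces hA hTB hnil hWi hWn
          obtain ⟨P₂, hP₂, hprof₂, -⟩ := GeomClasses.SympUnipotent.exists_pieces hA hTB hnil
            (GeomClasses.SympStructure.orth_invariant hTB hinj hWi) hYn
          have hadd : GeomClasses.SympUnipotent.parts P₁ + GeomClasses.SympUnipotent.parts P₂ = μ := by
            refine GeomClasses.SympUnipotent.eq_of_prof (fun a ha => ?_) (fun a ha => (hμ a ha).1) fun k => ?_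
            · rcases Multiset.mem_add.1 ha with h | h
              · exact (GeomClasses.SympNondegModels.parts_pos (fun x hx => ⟨(hP₁ x hx).1, (hP₁ x hx).2.1⟩) a h).1
              · exact (GeomClasses.SympNondegModels.parts_pos (fun x hx => ⟨(hP₂ x hx).1, (hP₂ x hx).2.1⟩) a h).1
            · rw [GeomClasses.SympUnipotent.prof_add, ← hprof₁, ← hprof₂,
                ← GeomClasses.SympNondegModels.rank_split hA hinj hTB hWi hWn, hrank]
          refine ⟨_, hadd ▸ Multiset.le_add_right _ _, ?_, GeomClasses.SympUnipotent.parity fun x hx => ?_⟩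
          · rw [← GeomClasses.SympUnipotent.prof_zero, ← hprof₁, pow_zero, Module.End.one_eq_id, Submodule.map_id, hWd]
          · exact (hP₁ x hx).2.2.1.imp_right fun h => h.1
    · have hr2' : r ≠ 2 := fun h => hr2 ⟨h, fun hp2 => hrp (h.trans hp2.symm)⟩
      have hrq : ¬ r ∣ q := fun h =>
        hrp ((Nat.prime_dvd_prime_iff_eq hr hp).1 (hr.dvd_of_dvd_pow (hq.symm.trans hf₀ ▸ h)))
      have hrF : (r : F) ≠ 0 := fun h =>
        hrp (((Nat.prime_dvd_prime_iff_eq hp hr).1 ((CharP.cast_eq_zero_iff F p r).1 h)).symm)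
      refine Or.inr (Or.inr (Or.inr ⟨hrp, lt_of_le_of_ne hr.two_le (Ne.symm hr2'), ?_⟩))
      obtain ⟨l, hl1, hl2, hl⟩ := GeomClasses.SympNondeg.exists_dvd hq hr hrq hme (by omega) hrΩ
      obtain ⟨hi0, -⟩ := GeomClasses.SubspaceDerange.dvd_pow_sub_one hrq hi
      have hcl : c ∣ 2 * l := by
        have h' : q ^ 0 ≡ q ^ (2 * l) [MOD r] :=
          (Nat.modEq_iff_dvd' (Nat.pow_le_pow_right (hq ▸ Fintype.card_pos) (Nat.zero_le _))).2 (by simpa using hl)
        have hd' : i ∣ 2 * l := by
          simpa using (Nat.modEq_iff_dvd' (Nat.zero_le _)).1 (GeomClasses.SubspaceDerange.pow_modEq hrq hi h')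
        rw [hc]
        split_ifs with he
        · exact hd'
        · exact Nat.mul_dvd_mul_left 2 ((Nat.prime_two.coprime_iff_not_dvd.2
            (fun h => he (even_iff_two_dvd.2 h))).symm.dvd_of_dvd_mul_left hd')
      have hc0 : 0 < c := by rw [hc]; split_ifs <;> omega
      have hcn : c ≤ 2 * d := (Nat.le_of_dvd (by omega) hcl).trans (by omega)
      have hdiv := Nat.div_add_mod (2 * d) c
      have hk : (2 * d) % c < c := Nat.mod_lt _ hc0
      obtain ⟨T, hTr, hTB, hker⟩ := GeomClasses.SympDecompDerange.exists_moving (r := r) hA hB hrF hq hrq hi hc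
        (j := (2 * d) / c) (by rw [hV]; exact Nat.div_mul_le_self _ _)
      rw [hV, show 2 * d - 2 * d / c * c = (2 * d) % c by rw [Nat.mul_comm (2 * d / c) c]; omega] at hker
      obtain ⟨W, hWd, hWn, hWi⟩ := lift T hTr hTB (fun e he => by
        have hodd := hr.odd_of_ne_two hr2'
        have he2 : e * e = 1 := hsquare e fun u v => by
          have h := hTB u v
          simp only [B, he, LinearMap.smul_apply, Module.End.one_apply, Cfsg.Agent.Forms.sympB_apply] at h
          exact h
        have her : e ^ r = 1 := by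
          have h := congrArg (fun f : Module.End F (Fin d ⊕ Fin d → F) => f (Pi.single (Sum.inl i0) 1) (Sum.inl i0)) hTr
          simpa [he, smul_pow] using h
        obtain ⟨s, rfl⟩ := hodd
        rw [pow_succ, pow_mul, pow_two, he2, one_pow, one_mul] at her
        rw [he, her, one_smul, sub_self, LinearMap.ker_zero, finrank_top, hV] at hker
        omega) H
      have hmod := GeomClasses.SympStructure.dim_mod hA hTB hTr hrF hq hrq hi hc hWi hWn
      have hf : Module.finrank F ↥(W ⊓ LinearMap.ker (T - 1)) ≤ (2 * d) % c := hker ▸ Submodule.finrank_mono inf_le_right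
      rw [hWd, Nat.ModEq, Nat.mod_eq_of_lt (hf.trans_lt hk)] at hmod
      have hmk : m % c ≤ (2 * d) % c := hmod.trans_le hf
      refine ⟨?_, hmk⟩
      by_contra hlt
      rw [Nat.mod_eq_of_lt (show m < c by omega)] at hmk
      have := Nat.le_mul_of_pos_left c (Nat.div_pos hcn hc0)
      obtain ⟨w, hw⟩ := hcl
      have : w ≤ 2 * d / c := (Nat.le_div_iff_mul_le hc0).2 (by rw [Nat.mul_comm]; omega)
      have := Nat.mul_le_mul_left c this
      omega
  · rintro hcond x ⟨z, hz⟩ hns
    set T : Module.End F (Fin d ⊕ Fin d → F) := Matrix.toLin' (x : Matrix (Fin d ⊕ Fin d) (Fin d ⊕ Fin d) F) with hTdef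
    have hTB : ∀ u v, B (T u) (T v) = B u v := fun u v => by
      simp only [B, hTdef, Matrix.toLin'_apply, Cfsg.Agent.Forms.sympB_apply]
      exact Cfsg.Agent.Forms.mem_symplectic_iff.1 x.2 u v
    have hT' : T ^ r = z • 1 := by
      rw [SubmonoidClass.coe_pow] at hz
      rw [hTdef, ← Matrix.toLin'_pow, hz, map_smul, Matrix.toLin'_one]; rfl
    have hz2 : z * z = 1 := by
      refine hsquare z fun u v => ?_
      have h : ∀ k u v, B ((T ^ k) u) ((T ^ k) v) = B u v := by
        intro k
        induction k with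
        | zero => intro u v; rfl
        | succ k ih => intro u v; rw [pow_succ', Module.End.mul_apply, Module.End.mul_apply, hTB, ih]
      have h' := h r u v
      simp only [B, hT', LinearMap.smul_apply, Module.End.one_apply, Cfsg.Agent.Forms.sympB_apply] at h'
      exact h'
    suffices Fixes T by
      obtain ⟨W, hWd, hWn, hWi⟩ := this
      exact ⟨W, hWd, (hnd W).1 hWn, by rintro _ ⟨w, hw, rfl⟩; exact hWi w hw⟩
    obtain ⟨l, hl⟩ := hme
    by_cases hr2 : r = 2 ∧ p ≠ 2
    · have h2 : (2 : F) ≠ 0 := fun h => hr2.2 ((Nat.prime_dvd_prime_iff_eq hp Nat.prime_two).1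
        ((CharP.cast_eq_zero_iff F p 2).1 (by exact_mod_cast h)))
      obtain ⟨W, hWi, hWn, hWd⟩ := GeomClasses.SympNondegModels.exists_of_sq hA hTB h2 (mul_self_eq_one_iff.1 hz2)
        (fun v => by rw [← Module.End.mul_apply, ← pow_two, ← hr2.1, hT']; rfl) hB l (by rw [hV]; omega)
      exact ⟨W, by omega, hWn, hWi⟩
    -- the remaining cases after scaling
    have hzr : z ^ r = z := by
      rcases hr.eq_two_or_odd' with h | ⟨s, hs⟩
      · have hp2 : p = 2 := by_contra fun hp2 => hr2 ⟨h, hp2⟩
        have h20 : (2 : F) = 0 := by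
          have h' := CharP.cast_eq_zero F p
          rw [hp2] at h'
          exact_mod_cast h'
        have hz1 : z = 1 := by
          rcases mul_self_eq_one_iff.1 hz2 with e | e
          · exact e
          · rw [e]; linear_combination -h20
        rw [hz1, one_pow]
      · rw [hs, pow_succ, pow_mul, pow_two, hz2, one_pow, one_mul]
    have hz0 : z ≠ 0 := fun e => by rw [e, zero_mul] at hz2; exact zero_ne_one hz2
    set S := z • T with hSdef
    have hS : S ^ r = 1 := by rw [hSdef, smul_pow, hT', smul_smul, hzr, hz2, one_smul]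
    have hSB : ∀ u v, B (S u) (S v) = B u v := fun u v => by
      simp only [hSdef, LinearMap.smul_apply, map_smul, smul_eq_mul]
      rw [hTB, ← mul_assoc, hz2, one_mul]
    have back : ∀ W : Submodule F (Fin d ⊕ Fin d → F), (∀ w ∈ W, S w ∈ W) → ∀ w ∈ W, T w ∈ W := fun W h w hw => by
      have := h w hw
      rwa [hSdef, LinearMap.smul_apply, Submodule.smul_mem_iff _ hz0] at this
    have htop : ∀ v ∈ (⊤ : Submodule F (Fin d ⊕ Fin d → F)), S v ∈ (⊤ : Submodule F (Fin d ⊕ Fin d → F)) := fun _ _ => trivial
    by_cases hrp : r = p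
    · have hnil : (S - 1) ^ p = 0 := by
        rw [sub_pow_char_of_commute p (Commute.one_right S), one_pow, ← hrp, hS, sub_self]
      obtain ⟨P, hP, hprof, hsub⟩ := GeomClasses.SympUnipotent.exists_pieces hA hSB hnil htop
        (GeomClasses.SympStructure.nd_top hB)
      have hsum : (GeomClasses.SympUnipotent.parts P).sum = 2 * d := by
        rw [← GeomClasses.SympUnipotent.prof_zero, ← hprof, pow_zero, Module.End.one_eq_id, Submodule.map_id, finrank_top, hV]
      by_cases hp2 : p = 2
      · have hc' : (2 * d) % 4 = 2 ∨ m % 4 = 0 := by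
          rcases hcond with ⟨-, h, -⟩ | ⟨-, -, h⟩ | h | ⟨h, -⟩
          · omega
          · exact h
          · exact absurd hp2 h.2
          · exact absurd hrp h
        have hD : ∀ a ∈ P.map (fun y => y.2 * y.1), a = 2 ∨ a = 4 := fun a ha => by
          obtain ⟨y, hy, rfl⟩ := Multiset.mem_map.1 ha
          obtain ⟨hy1, hy2, hy3, -⟩ := hP y hy
          rcases hy3 with ⟨hs, b, hb⟩ | ⟨hs, -⟩
          · rw [hs]; omega
          · rw [hs]; omega
        rw [GeomClasses.SympNondegModels.sum_parts] at hsum
        obtain ⟨D, hDle, hDsum⟩ := GeomClasses.SympUnipotent.exists_subsum hD (m := m) ⟨l, hl⟩ (by omega) (by rwa [hsum])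
        obtain ⟨Q, hQ, rfl⟩ := GeomClasses.SympUnipotent.exists_map_eq _ D hDle
        obtain ⟨U, -, hUi, hUn, hUd⟩ := hsub Q hQ
        exact ⟨U, by rw [hUd, GeomClasses.SympNondegModels.sum_parts, hDsum], hUn, back U hUi⟩
      · have h2 : (2 : F) ≠ 0 := fun h => hp2 ((Nat.prime_dvd_prime_iff_eq hp Nat.prime_two).1
          ((CharP.cast_eq_zero_iff F p 2).1 (by exact_mod_cast h)))
        have hpart : ∀ y ∈ P, (y.2 = 1 ∧ Even y.1) ∨ (y.2 = 2 ∧ Odd y.1) := fun y hy =>
          (hP y hy).2.2.1.imp_right fun h => ⟨h.1, h.2.resolve_left h2⟩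
        obtain ⟨ν, hν, hνs, hνp⟩ : ∃ ν : Multiset ℕ, ν ≤ GeomClasses.SympUnipotent.parts P ∧ ν.sum = m ∧
            ∀ a : ℕ, Odd a → Even (ν.count a) := by
          rcases hcond with ⟨-, -, h⟩ | ⟨-, h, -⟩ | h | ⟨h, -⟩
          · exact h _ (GeomClasses.SympNondegModels.parts_pos fun y hy => ⟨(hP y hy).1, (hP y hy).2.1⟩)
              (GeomClasses.SympUnipotent.parity fun y hy => (hpart y hy).imp_right fun h => h.1) hsum
          · exact absurd h hp2
          · exact absurd (hrp.symm.trans h.1) hp2
          · exact absurd hrp h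
        obtain ⟨Q, hQ, rfl⟩ := GeomClasses.SympUnipotent.exists_select hpart ν hν hνp
        obtain ⟨U, -, hUi, hUn, hUd⟩ := hsub Q hQ
        exact ⟨U, by rw [hUd, hνs], hUn, back U hUi⟩
    · obtain ⟨hr3, hcm, hmk⟩ : 2 < r ∧ c ≤ m ∧ m % c ≤ (2 * d) % c := by
        rcases hcond with ⟨h, -⟩ | ⟨h, -⟩ | h | ⟨-, h⟩
        · exact absurd h hrp
        · exact absurd h hrp
        · exact absurd h hr2
        · exact h
      have hrq : ¬ r ∣ q := fun h =>
        hrp ((Nat.prime_dvd_prime_iff_eq hr hp).1 (hr.dvd_of_dvd_pow (hq.symm.trans hf₀ ▸ h)))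
      have hrF : (r : F) ≠ 0 := fun h =>
        hrp (((Nat.prime_dvd_prime_iff_eq hp hr).1 ((CharP.cast_eq_zero_iff F p r).1 h)).symm)
      have hr2' : r ≠ 2 := by omega
      obtain ⟨hi0, -⟩ := GeomClasses.SubspaceDerange.dvd_pow_sub_one hrq hi
      have hce : Even c := by
        rw [hc]; split_ifs with h
        · exact h
        · exact even_two_mul i
      have hmod := GeomClasses.SympStructure.dim_mod hA hSB hS hrF hq hrq hi hc htop (GeomClasses.SympStructure.nd_top hB)
      rw [finrank_top, hV] at hmod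
      set f := Module.finrank F ↥((⊤ : Submodule F (Fin d ⊕ Fin d → F)) ⊓ LinearMap.ker (S - 1)) with hf
      have hfle : f ≤ 2 * d := hV ▸ Submodule.finrank_le _
      obtain ⟨g, hg⟩ := (Nat.modEq_iff_dvd' hfle).1 hmod.symm
      have hfk : (2 * d) % c ≤ f := by rw [hmod]; exact Nat.mod_le _ _
      have hm1 := Nat.div_add_mod m c
      obtain ⟨j, e, hje, hj, he⟩ : ∃ j e, m = j * c + 2 * e ∧ j * c + f ≤ 2 * d ∧ 2 * e ≤ f := by
        obtain ⟨b, hb⟩ := hce
        have hcg : c * g = 2 * (b * g) := by rw [hb]; ring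
        by_cases hle : m ≤ c * g
        · have : c * (m / c) = 2 * (b * (m / c)) := by rw [hb]; ring
          exact ⟨m / c, (l + l - c * (m / c)) / 2, by rw [Nat.mul_comm (m / c)]; omega, by
            rw [Nat.mul_comm (m / c)]; omega, by omega⟩
        · exact ⟨g, (m - c * g) / 2, by rw [Nat.mul_comm g]; omega, by rw [Nat.mul_comm g]; omega, by omega⟩
      obtain ⟨U, -, hUi, hUn, hUd⟩ := GeomClasses.SympStructure.exists_sub hA hSB hS hrF hr2' hq hrq hi hc htop
        (GeomClasses.SympStructure.nd_top hB) (j := j) (e := e) (by rw [finrank_top, hV]; exact hj) he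
      exact ⟨U, by omega, hUn, back U hUi⟩

end Cfsg.Agent.S5956
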