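import Cfsg.Statements.S5958
import Cfsg.Agent.GeomClasses.DecompDerange
import Cfsg.Agent.GeomClasses.SympFormDerange

set_option autoImplicit false
open scoped MatrixGroups
open Cfsg

namespace Cfsg.Agent.S5958

/-- Elements of odd prime order of PSL_n(q) and imprimitive subgroups. Here `T = PSL_n(F)` for a field `F` with `q = p^f` elements (`n ≥ 2`, `(n, q) ≠ (2, 2), (2, 3)`), `n = a·t` with `t ≥ 2`, and Ω is the set of direct-sum decompositions of `F^n` into `t` subspaces of dimension `a` (unordered; their number is the number of ordered ones divided by `t!`), whose stabilizers are the imprimitive subgroups of type GL_a(q) ≀ S_t (maximal except in some small cases; maximality is not assumed); an element of `T` of prime order `r` (a matrix `x` of determinant 1 with `x^r` scalar, `x` not scalar) fixes a point of Ω when it permutes the summands of some such decomposition. Let `r ≠ p` be an odd prime dividing the number of such decompositions, let `c` be the multiplicative order of `q` modulo `r`, and write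 `k = n mod c`, `ℓ = a mod c`. Then every element of `T` of order `r` stabilizes such a decomposition if and only if either `a = 1`, `c = r − 1 > 1` and `n ≤ k·r`, or `c ≤ a` and `k = t·ℓ`. -/
theorem result {F : Type*} [Field F] [Fintype F] {p : ℕ} [Fact p.Prime] [CharP F p] {q : ℕ} (hq : Fintype.card F = q)
    (n a t : ℕ) (hn : 2 ≤ n) (hT : (n, q) ≠ (2, 2) ∧ (n, q) ≠ (2, 3)) (hat : n = a * t) (ha : 1 ≤ a) (ht : 2 ≤ t)
    (r : ℕ) [Fact r.Prime] (hr2 : r ≠ 2) (hrp : r ≠ p) (hΩ : r ∣ Nat.card {D : Fin t → Submodule F (Fin n → F) // Cfsg.Geo.IsMDecomposition a D} / Nat.factorial t)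
    (c : ℕ) (hc : c = orderOf (q : ZMod r)) :
    (∀ x : Matrix.SpecialLinearGroup (Fin n) F,
      (∃ z : F, ((x ^ r : Matrix.SpecialLinearGroup (Fin n) F) : Matrix (Fin n) (Fin n) F) = z • (1 : Matrix (Fin n) (Fin n) F)) →
      (∀ z : F, (x : Matrix (Fin n) (Fin n) F) ≠ z • (1 : Matrix (Fin n) (Fin n) F)) →
      ∃ D : Fin t → Submodule F (Fin n → F), Cfsg.Geo.IsMDecomposition a D ∧
        ∃ σ : Equiv.Perm (Fin t), ∀ j, (D j).map (Matrix.toLin' (x : Matrix (Fin n) (Fin n) F)) = D (σ j)) ↔
    ((a = 1 ∧ 1 < c ∧ c = r - 1 ∧ n ≤ (n % c) * r) ∨ (c ≤ a ∧ n % c = t * (a % c))) := by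
  classical
  have hp : p.Prime := Fact.out
  have hr : r.Prime := Fact.out
  have hn0 : n ≠ 0 := by omega
  obtain ⟨f₀, -, hf₀⟩ := FiniteField.card F p
  have hrq : ¬ r ∣ q := fun h =>
    hrp ((Nat.prime_dvd_prime_iff_eq hr hp).1 (hr.dvd_of_dvd_pow (hq.symm.trans hf₀ ▸ h)))
  have hrF : (r : F) ≠ 0 := fun h =>
    hrp (((Nat.prime_dvd_prime_iff_eq hp hr).1 ((CharP.cast_eq_zero_iff F p r).1 h)).symm)
  obtain ⟨hc0, hcdvd⟩ := GeomClasses.SubspaceDerange.dvd_pow_sub_one hrq hc
  have : NeZero n := ⟨hn0⟩
  have hmap : ∀ {T : Module.End F (Fin n → F)}, Function.Injective T → ∀ {W : Submodule F (Fin n → F)},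
      (∀ v ∈ W, T v ∈ W) → W.map T = W := fun {T} hT {W} hW =>
    Submodule.eq_of_le_of_finrank_eq (Submodule.map_le_iff_le_comap.2 hW) (Submodule.equivMapOfInjective T hT W).finrank_eq.symm
  constructor
  · intro H
    rcases (show c = 1 ∨ 2 ≤ c by omega) with h1 | h2
    · exact Or.inr ⟨by omega, by rw [h1, Nat.mod_one, Nat.mod_one, mul_zero]⟩
    have key : ∀ (T : Module.End F (Fin n → F)), T ^ r = 1 → LinearMap.det T = 1 →
        ∃ D : Fin t → Submodule F (Fin n → F), Cfsg.Geo.IsMDecomposition a D ∧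
          ∃ σ : Equiv.Perm (Fin t), ∀ j, (D j).map T = D (σ j) := by
      intro T hT' hd
      obtain ⟨x, hx, hxr⟩ := GeomClasses.SubspaceDerange.sl_of_end (z := (1 : F)) (by rw [hT', one_smul]) hd
      by_cases hs : ∃ d : F, (x : Matrix (Fin n) (Fin n) F) = d • 1
      · obtain ⟨d, hd'⟩ := hs
        let e : Fin t × Fin a ≃ Fin n := finProdFinEquiv.trans (finCongr (by rw [hat, mul_comm]))
        refine GeomClasses.DecompDerange.of_blocks ha ht hat
          (GeomClasses.DecompDerange.injective_of_pow (z := (1 : F)) (r := r) (by rw [hT', one_smul]) one_ne_zero)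
          (Fintype.card_fin t) (Fintype.card_fin a) (fun y => Pi.basisFun F (Fin n) (e y)) ?_ 1 ?_
        · rw [eq_top_iff, ← (Pi.basisFun F (Fin n)).span_eq, Submodule.span_le]
          rintro _ ⟨m, rfl⟩
          exact Submodule.subset_span ⟨e.symm m, by simp⟩
        · intro j y
          rw [← hx, Matrix.toLin'_apply, hd', Matrix.smul_mulVec, Matrix.one_mulVec]
          exact Submodule.smul_mem _ _ (Submodule.subset_span ⟨y, rfl⟩)
      · obtain ⟨D, hD, σ, hσ⟩ := H x ⟨1, hxr⟩ (not_exists.1 hs)
        exact ⟨D, hD, σ, fun j => hx ▸ hσ j⟩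
    have hcn : c ≤ n := by
      have h := GeomClasses.DecompDerange.dvd_card_GL hat ha ht hΩ
      rw [Matrix.card_GL_field, hq] at h
      obtain ⟨j, -, hj⟩ := (Prime.dvd_finset_prod_iff hr.prime _).1 h
      have h' : q ^ (j : ℕ) ≡ q ^ n [MOD r] :=
        (Nat.modEq_iff_dvd' (Nat.pow_le_pow_right (hq ▸ Fintype.card_pos) j.2.le)).2 hj
      have h'' := (Nat.modEq_iff_dvd' j.2.le).1 (GeomClasses.SubspaceDerange.pow_modEq hrq hc h')
      have := Nat.le_of_dvd (by omega) h''
      omega
    have hcr : c ≤ r - 1 := by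
      have : (q : ZMod r) ≠ 0 := fun h => hrq ((ZMod.natCast_eq_zero_iff q r).1 h)
      exact hc ▸ orderOf_le_of_pow_eq_one (by have := hr.two_le; omega) (ZMod.pow_card_sub_one_eq_one this)
    have hndvd : ¬ r ∣ q - 1 := GeomClasses.SubspaceDerange.not_dvd_sub_one hq (hc ▸ h2)
    -- first element
    have hcase : (a = 1 ∧ c = r - 1) ∨ c ≤ a := by
      obtain ⟨x, hxr, hrank⟩ := GeomClasses.SympFormDerange.exists_small hq hrq hrF hc0 hcn hcdvd (fun k hk hkc hdvd => by
        have h' : q ^ 0 ≡ q ^ k [MOD r] := (Nat.modEq_iff_dvd' (Nat.pow_le_pow_right (hq ▸ Fintype.card_pos) (Nat.zero_le k))).2 (by simpa using hdvd)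
        have h'' := GeomClasses.SubspaceDerange.pow_modEq hrq hc h'
        rw [Nat.ModEq, Nat.zero_mod, Nat.mod_eq_of_lt hkc] at h''
        omega)
      set T : Module.End F (Fin n → F) := Matrix.toLinAlgEquiv' x with hTdef
      have hTr : T ^ r = 1 := by rw [hTdef, ← map_pow, hxr, map_one]
      have hdet : LinearMap.det T = 1 := by
        by_contra hne
        have h := congrArg LinearMap.det hTr
        rw [map_pow, map_one] at h
        have hord := orderOf_eq_prime (p := r) h hne
        have h0 : LinearMap.det T ≠ 0 := fun h0 => by rw [h0, zero_pow hr.ne_zero] at h; exact zero_ne_one h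
        exact hndvd (hord ▸ orderOf_dvd_of_pow_eq_one (hq ▸ FiniteField.pow_card_sub_one_eq_one _ h0))
      have hrange : Module.finrank F (LinearMap.range (T - 1)) = c := by
        rw [← hrank, hTdef, ← map_one (Matrix.toLinAlgEquiv' (R := F) (n := Fin n)), ← map_sub]
        rfl
      obtain ⟨D, hD, σ, hσ⟩ := key T hTr hdet
      by_cases hfix : ∀ j, σ j = j
      · obtain ⟨j, hj⟩ : ∃ j, ¬ D j ≤ LinearMap.ker (T - 1) := by
          by_contra hcon
          push_neg at hcon
          have h : (⊤ : Submodule F (Fin n → F)) ≤ LinearMap.ker (T - 1) := hD.iSup_eq_top ▸ iSup_le hcon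
          rw [LinearMap.range_eq_bot.2 (LinearMap.ker_eq_top.1 (eq_top_iff.2 h)), finrank_bot] at hrange
          omega
        have hinv : ∀ v ∈ D j, T v ∈ D j := fun v hv => by
          have := hσ j
          rw [hfix j] at this
          exact this ▸ ⟨v, hv, rfl⟩
        have hmod := GeomClasses.SubspaceDerange.dim_mod hq hrq hc hTr hinv
        have hlt : Module.finrank F ↥(D j ⊓ LinearMap.ker (T - 1)) < a :=
          hD.finrank_eq j ▸ Submodule.finrank_lt_finrank_of_lt (lt_of_le_of_ne inf_le_left (fun h => hj (inf_eq_left.1 h)))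
        rw [hD.finrank_eq] at hmod
        have := Nat.le_of_dvd (by omega) ((Nat.modEq_iff_dvd' hlt.le).1 hmod.symm)
        exact Or.inr (by omega)
      · push_neg at hfix
        obtain ⟨j, hj⟩ := hfix
        have h := (GeomClasses.DecompDerange.moved_bound hTr hat hD hσ hj).2
        rw [hrange] at h
        have h' : (r - 1) * a ≤ (r - 1) * 1 := by omega
        have := Nat.le_of_mul_le_mul_left h' (by omega)
        obtain rfl : a = 1 := by omega
        exact Or.inl ⟨rfl, by omega⟩
    -- second element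
    obtain ⟨T, hTr, hdet, hker⟩ := GeomClasses.SubspaceDerange.derange_two (n := n) hq hrq hc h2
    obtain ⟨D, hD, σ, hσ⟩ := key T hTr hdet
    have hlt := Nat.mod_lt n hc0
    rcases le_or_gt c a with hca | hca
    · refine Or.inr ⟨hca, ?_⟩
      have hfix : ∀ j, σ j = j := fun j => by
        by_contra hj
        have h := (GeomClasses.DecompDerange.moved_bound hTr hat hD hσ hj).1
        omega
      have hb := GeomClasses.DecompDerange.fixed_bound hTr hat hD hσ hfix
      have hd : ∀ j, Module.finrank F ↥(D j ⊓ LinearMap.ker (T - 1)) = a % c := fun j => by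
        have hinv : ∀ v ∈ D j, T v ∈ D j := fun v hv => by
          have := hσ j
          rw [hfix j] at this
          exact this ▸ ⟨v, hv, rfl⟩
        have hmod := GeomClasses.SubspaceDerange.dim_mod hq hrq hc hTr hinv
        have hle : Module.finrank F ↥(D j ⊓ LinearMap.ker (T - 1)) ≤ n % c := hker ▸ Submodule.finrank_mono inf_le_right
        rw [hD.finrank_eq, Nat.ModEq, Nat.mod_eq_of_lt (hle.trans_lt hlt)] at hmod
        omega
      simp only [hd, Finset.sum_const, Finset.card_univ, Fintype.card_fin, smul_eq_mul, hker] at hb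
      rw [← Nat.mod_eq_of_lt (show t * (a % c) < c by omega), hat, mul_comm a t, Nat.mul_mod_mod]
    · obtain ⟨rfl, hcr'⟩ : a = 1 ∧ c = r - 1 := hcase.resolve_right (by omega)
      obtain rfl : t = n := by omega
      refine Or.inl ⟨rfl, by omega, hcr', ?_⟩
      have h := GeomClasses.DecompDerange.lines_bound hrF hTr hD hσ (fun j hj v hv => by
        have hinv : ∀ v ∈ D j, T v ∈ D j := fun v hv => by
          have := hσ j
          rw [hj] at this
          exact this ▸ ⟨v, hv, rfl⟩
        have hmod := GeomClasses.SubspaceDerange.dim_mod hq hrq hc hTr hinv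
        have hle : Module.finrank F ↥(D j ⊓ LinearMap.ker (T - 1)) ≤ 1 :=
          hD.finrank_eq j ▸ Submodule.finrank_mono inf_le_left
        rw [hD.finrank_eq, Nat.ModEq, Nat.mod_eq_of_lt (show 1 < c by omega), Nat.mod_eq_of_lt (hle.trans_lt (show 1 < c by omega))] at hmod
        have heq := Submodule.eq_of_le_of_finrank_eq (inf_le_left : D j ⊓ LinearMap.ker (T - 1) ≤ D j)
          (by rw [← hmod, hD.finrank_eq])
        exact sub_eq_zero.1 (LinearMap.mem_ker.1 (inf_eq_left.1 heq hv)))
      rwa [hker] at h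
  · intro hcond x hx _
    obtain ⟨z, hz⟩ := hx
    obtain ⟨hTz, hdet⟩ := GeomClasses.SubspaceDerange.end_of_sl x hz
    set T := Matrix.toLin' (x : Matrix (Fin n) (Fin n) F)
    have hz0 : z ≠ 0 := GeomClasses.SubspaceDerange.scalar_ne_zero hTz hdet
    by_cases hpow : ∃ b : F, b ^ r = z
    · obtain ⟨b, hb⟩ := hpow
      obtain ⟨hS, hinv⟩ := GeomClasses.SubspaceDerange.scaled hb hz0 hTz
      have hinj := GeomClasses.DecompDerange.injective_of_pow hTz hz0
      by_cases hbins : t * (a % c) < c
      · obtain ⟨D, hD, hDi⟩ := GeomClasses.DecompDerange.exists_bins hq hrq hrF hc ha ht hat hS hbins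
        exact ⟨D, hD, 1, fun j => hmap hinj (hinv (D j) (hDi j))⟩
      · rcases hcond with ⟨rfl, -, hcr, hle⟩ | ⟨-, hk⟩
        · obtain rfl : t = n := by omega
          obtain ⟨D, hD, τ, hτ⟩ := GeomClasses.DecompDerange.decomp_lines hq hrq hrF hc hcr hn hle hS
          have hb0 : b ≠ 0 := fun h => hz0 (by rw [← hb, h, zero_pow hr.ne_zero])
          exact ⟨D, hD, τ, fun j => by rw [← hτ j, Submodule.map_smul _ _ _ (inv_ne_zero hb0)]⟩
        · exact absurd (hk ▸ Nat.mod_lt n hc0) hbins
    · push_neg at hpow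
      exact GeomClasses.DecompDerange.decomp_nonpower ha ht hat hz0 hpow hTz

end Cfsg.Agent.S5958
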