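import Cfsg.Statements.S5959
import Cfsg.Agent.GeomClasses.JordanType

set_option autoImplicit false
open scoped MatrixGroups
open Cfsg

namespace Cfsg.Agent.S5959

/-- Elements of order `p` of PSL_n(q) and imprimitive subgroups: a necessary condition. Here `T = PSL_n(F)` for a field `F` with `q = p^f` elements (`n ≥ 2`, `(n, q) ≠ (2, 2), (2, 3)`), `n = a·t` with `t ≥ 2`, and Ω is the set of direct-sum decompositions of `F^n` into `t` subspaces of dimension `a` (unordered; their number is the number of ordered ones divided by `t!`), whose stabilizers are the imprimitive subgroups of type GL_a(q) ≀ S_t (maximal except in some small cases; maximality is not assumed); an element of `T` of prime order `r` (a matrix `x` of determinant 1 with `x^r` scalar, `x` not scalar) fixes a point of Ω when it permutes the summands of some such decomposition. Suppose `p > 2` divides the number of such decompositions. If every element of `T` of order `p` stabilizes such a decomposition, then every partition of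 `n` into parts of size at most `p` in which the part `p` occurs fewer than `a` times contains (as a sub-multiset) a partition of `a`. -/
theorem result {F : Type*} [Field F] [Fintype F] {p : ℕ} [Fact p.Prime] [CharP F p] {q : ℕ} (hq : Fintype.card F = q)
    (n a t : ℕ) (hn : 2 ≤ n) (hT : (n, q) ≠ (2, 2) ∧ (n, q) ≠ (2, 3)) (hat : n = a * t) (ha : 1 ≤ a) (ht : 2 ≤ t)
    (hp : 2 < p) (hΩ : p ∣ Nat.card {D : Fin t → Submodule F (Fin n → F) // Cfsg.Geo.IsMDecomposition a D} / Nat.factorial t)
    (h : ∀ x : Matrix.SpecialLinearGroup (Fin n) F,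
      (∃ z : F, ((x ^ p : Matrix.SpecialLinearGroup (Fin n) F) : Matrix (Fin n) (Fin n) F) = z • (1 : Matrix (Fin n) (Fin n) F)) →
      (∀ z : F, (x : Matrix (Fin n) (Fin n) F) ≠ z • (1 : Matrix (Fin n) (Fin n) F)) →
      ∃ D : Fin t → Submodule F (Fin n → F), Cfsg.Geo.IsMDecomposition a D ∧
        ∃ σ : Equiv.Perm (Fin t), ∀ j, (D j).map (Matrix.toLin' (x : Matrix (Fin n) (Fin n) F)) = D (σ j)) :
    (∀ μ : Multiset ℕ, (∀ b ∈ μ, 0 < b ∧ b ≤ p) → μ.sum = n → μ.count p < a → ∃ ν : Multiset ℕ, ν ≤ μ ∧ ν.sum = a) := by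
  intro μ hμ hsum hcount
  classical
  have hprime := (Fact.out : p.Prime)
  have han : a ≤ n := by rw [hat]; exact Nat.le_mul_of_pos_right _ (by omega)
  by_cases hall : ∀ b ∈ μ, b = 1
  · have hμ1 : μ = Multiset.replicate (Multiset.card μ) 1 := Multiset.eq_replicate.2 ⟨rfl, hall⟩
    have hc : Multiset.card μ = n := by rw [← hsum]; nth_rw 2 [hμ1]; simp
    refine ⟨Multiset.replicate a 1, ?_, by simp⟩
    rw [hμ1, hc]
    exact (Multiset.replicate_le_replicate 1).2 han
  let l := μ.toList
  let L : Fin l.length → ℕ := fun b => l.get b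
  have hLμ : Finset.univ.val.map L = μ := by
    rw [Fin.univ_def]
    simp [L, l]
  have hLp : ∀ b, L b ≤ p := fun b => (hμ _ (Multiset.mem_toList.1 (List.get_mem l b))).2
  have hcard : Fintype.card (Σ b, Fin (L b)) = n := by
    rw [Fintype.card_sigma, ← hsum, ← hLμ]
    simp [List.sum_ofFn]
  let e : (Σ b, Fin (L b)) ≃ Fin n := Fintype.equivFinOfCardEq hcard
  let φ : (Fin n → F) ≃ₗ[F] ((Σ b, Fin (L b)) → F) := LinearEquiv.funCongrLeft F F e
  set N : ((Σ b, Fin (L b)) → F) →ₗ[F] ((Σ b, Fin (L b)) → F) := Cfsg.Agent.GeomClasses.JordanType.shift L with hN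
  let M0 : (Fin n → F) →ₗ[F] (Fin n → F) := φ.symm.toLinearMap ∘ₗ N ∘ₗ φ.toLinearMap
  have hM0 : ∀ (k : ℕ) v, φ ((M0 ^ k) v) = (N ^ k) (φ v) := by
    intro k
    induction k with
    | zero => intro v; rfl
    | succ k ih => intro v; rw [pow_succ, pow_succ, Module.End.mul_apply, Module.End.mul_apply, ih]; simp [M0]
  set M := LinearMap.toMatrix' M0
  have hMv : ∀ (k : ℕ) v, φ (Matrix.mulVec (M ^ k) v) = (N ^ k) (φ v) := fun k v => by
    rw [← hM0]
    congr 1
    rw [← Matrix.toLin'_apply, Matrix.toLin'_pow, Matrix.toLin'_toMatrix']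
  have hMp : M ^ p = 0 := by
    refine Matrix.toLin'.injective (LinearMap.ext fun v => φ.injective ?_)
    rw [Matrix.toLin'_apply, hMv, hN, Cfsg.Agent.GeomClasses.JordanType.shift_pow_eq_zero L hLp]
    simp
  haveI : Nonempty (Fin n) := ⟨⟨0, by omega⟩⟩
  haveI : CharP (Matrix (Fin n) (Fin n) F) p := inferInstance
  have hxp : (1 + M) ^ p = 1 := by rw [add_pow_char_of_commute _ (Commute.one_left M), one_pow, hMp, add_zero]
  have hdet : (1 + M).det = 1 := by
    have h1 : (1 + M).det ^ p = 1 := by rw [← Matrix.det_pow, hxp, Matrix.det_one]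
    have h2 : ((1 + M).det - 1) ^ p = 0 := by rw [sub_pow_char, one_pow, h1, sub_self]
    exact sub_eq_zero.1 (eq_zero_of_pow_eq_zero h2)
  obtain ⟨x, hx⟩ : ∃ x : Matrix.SpecialLinearGroup (Fin n) F, (x : Matrix (Fin n) (Fin n) F) = 1 + M := ⟨⟨_, hdet⟩, rfl⟩
  obtain ⟨D, hD, σ, hσ⟩ := h x ⟨1, by rw [Matrix.SpecialLinearGroup.coe_pow, hx, hxp, one_smul]⟩ (fun z hz => by
    push_neg at hall
    obtain ⟨c, hc, hc1⟩ := hall
    obtain ⟨i, hi⟩ := List.mem_iff_get.1 (Multiset.mem_toList.2 hc)
    have hc2 : 2 ≤ L i := by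
      have := (hμ c hc).1
      show 2 ≤ l.get i
      rw [hi]; omega
    let s0 : Σ b, Fin (L b) := ⟨i, ⟨0, by omega⟩⟩
    have h1 : φ (Matrix.mulVec (M ^ 1) (φ.symm (Pi.single s0 1))) ⟨i, ⟨1, by omega⟩⟩ = 1 := by
      rw [hMv, LinearEquiv.apply_symm_apply, hN, Cfsg.Agent.GeomClasses.JordanType.shift_pow]
      simp [s0]
    have hMz : M = (z - 1) • 1 := by rw [sub_smul, one_smul, ← hz, hx, add_sub_cancel_left]
    rw [pow_one, hMz, Matrix.smul_mulVec, Matrix.one_mulVec, map_smul, LinearEquiv.apply_symm_apply] at h1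
    simp [s0] at h1)
  simp only [hx] at hσ
  have hinjD : Function.Injective D := hD.indep.injective fun j e => by
    have := hD.finrank_eq j
    rw [e, finrank_bot] at this
    omega
  have hpow : ∀ (k : ℕ) j, (D j).map (Matrix.toLin' ((1 + M) ^ k)) = D ((σ ^ k) j) := by
    intro k
    induction k with
    | zero => intro j; simp
    | succ k ih =>
      intro j
      rw [pow_succ', Matrix.toLin'_mul, Submodule.map_comp, ih, hσ, pow_succ', Equiv.Perm.mul_apply]
  have hσp : ∀ j, (σ ^ p) j = j := fun j => hinjD (by rw [← hpow, hxp, Matrix.toLin'_one, Submodule.map_id])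
  by_cases hfix : ∀ j, σ j = j
  · let j0 : Fin t := ⟨0, by omega⟩
    have hinv : ∀ W : Submodule F (Fin n → F), W.map (Matrix.toLin' (1 + M)) ≤ W →
        (W.map φ.toLinearMap).map N ≤ W.map φ.toLinearMap := by
      rintro W hW _ ⟨_, ⟨v, hv, rfl⟩, rfl⟩
      refine ⟨Matrix.mulVec M v, ?_, ?_⟩
      · have h1 : Matrix.mulVec (1 + M) v ∈ W := by
          have := hW ⟨v, hv, rfl⟩
          rwa [Matrix.toLin'_apply] at this
        rw [Matrix.add_mulVec, Matrix.one_mulVec] at h1
        have := W.sub_mem h1 hv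
        simpa using this
      · have := hMv 1 v
        simpa using this
    let E : Submodule F (Fin n → F) := ⨆ (j) (_ : j ≠ j0), D j
    have hcompl : IsCompl (D j0) E := by
      refine ⟨hD.indep j0, codisjoint_iff.2 (eq_top_iff.2 ?_)⟩
      rw [← hD.iSup_eq_top]
      refine iSup_le fun j => ?_
      by_cases hj : j = j0
      · subst hj; exact le_sup_left
      · exact le_sup_of_le_right (le_iSup₂_of_le j hj le_rfl)
    obtain ⟨ν, hν, hνs⟩ := Cfsg.Agent.GeomClasses.JordanType.exists_sub L p hLp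
      (hinv (D j0) (by rw [hσ, hfix])) (hinv E (by
        simp only [E, Submodule.map_iSup]
        exact iSup₂_le fun j hj => le_iSup₂_of_le j hj (by rw [hσ, hfix])))
      (hcompl.map (Submodule.orderIsoMapComap φ))
    refine ⟨ν, hLμ ▸ hν, hνs.trans ?_⟩
    rw [← (Submodule.equivMapOfInjective _ φ.injective (D j0)).finrank_eq, hD.finrank_eq]
  · exfalso
    push_neg at hfix
    obtain ⟨j, hj⟩ := hfix
    have hper : Function.minimalPeriod σ j = p := by
      have hd : Function.IsPeriodicPt σ p j := by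
        show σ^[p] j = j
        rw [← Equiv.Perm.coe_pow]; exact hσp j
      rcases (Nat.dvd_prime hprime).1 hd.minimalPeriod_dvd with e | e
      · exact absurd (Function.minimalPeriod_eq_one_iff_isFixedPt.1 e) hj
      · exact e
    have hgeom : M ^ (p - 1) = ∑ k ∈ Finset.range p, (1 + M) ^ k := by
      have hpoly : (Polynomial.X - 1 : Polynomial F) ^ (p - 1) = ∑ k ∈ Finset.range p, Polynomial.X ^ k := by
        refine mul_right_cancel₀ (b := (Polynomial.X - 1 : Polynomial F)) (Polynomial.X_sub_C_ne_zero (1 : F) |> fun h => by simpa using h) ?_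
        rw [geom_sum_mul, ← pow_succ, Nat.sub_add_cancel hprime.one_lt.le, sub_pow_char, one_pow]
      have := congrArg (Polynomial.aeval (1 + M)) hpoly
      simpa [map_pow, map_sum, map_sub] using this
    let Ψ : D j →ₗ[F] ((Σ b, Fin (L b)) → F) := (N ^ (p - 1)) ∘ₗ φ.toLinearMap ∘ₗ (D j).subtype
    have hΨ : Function.Injective Ψ := by
      refine (injective_iff_map_eq_zero _).2 fun ⟨v, hv⟩ h0 => Subtype.ext ?_
      have h1 : Matrix.mulVec (M ^ (p - 1)) v = 0 := φ.injective (by rw [hMv, map_zero]; exact h0)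
      rw [hgeom, Matrix.sum_mulVec, ← Finset.add_sum_erase _ _ (Finset.mem_range.2 hprime.pos), pow_zero, Matrix.one_mulVec] at h1
      refine (Submodule.mem_bot F).1 ((hD.indep j).le_bot ⟨hv, ?_⟩)
      show v ∈ (⨆ (j') (_ : j' ≠ j), D j' : Submodule F (Fin n → F))
      rw [eq_neg_of_add_eq_zero_left h1]
      refine Submodule.neg_mem _ (Submodule.sum_mem _ fun k hk => ?_)
      obtain ⟨hk0, hkp⟩ := Finset.mem_erase.1 hk
      refine Submodule.mem_iSup_of_mem ((σ ^ k) j) (Submodule.mem_iSup_of_mem (fun e => hk0 ?_) ?_)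
      · rw [Equiv.Perm.coe_pow] at e
        exact Function.iterate_injOn_Iio_minimalPeriod (by rw [Set.mem_Iio, hper]; exact Finset.mem_range.1 hkp)
          (by rw [Set.mem_Iio, hper]; exact hprime.pos) e
      · rw [← hpow]; exact ⟨v, hv, Matrix.toLin'_apply _ _⟩
    have hle := Submodule.finrank_mono (show LinearMap.range Ψ ≤ Submodule.map (N ^ (p - 1)) ⊤ by
      rintro _ ⟨v, rfl⟩; exact ⟨_, trivial, rfl⟩)
    rw [LinearMap.finrank_range_of_inj hΨ, hD.finrank_eq] at hle
    have hcalc : Module.finrank F ↥(Submodule.map (N ^ (p - 1)) (⊤ : Submodule F ((Σ b, Fin (L b)) → F))) = μ.count p := by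
      show Cfsg.Agent.GeomClasses.JordanType.imDim N ⊤ (p - 1) = _
      rw [hN, Cfsg.Agent.GeomClasses.JordanType.imDim_shift, ← hLμ, Multiset.count_map]
      show _ = (Finset.univ.filter fun b => p = L b).card
      rw [Finset.card_filter]
      refine Finset.sum_congr rfl fun b _ => ?_
      have := hLp b
      have := hprime.two_le
      split_ifs <;> omega
    omega

end Cfsg.Agent.S5959
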