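import Cfsg.Statements.S5960
import Cfsg.Agent.GeomClasses.PlanePerm

set_option autoImplicit false
open scoped MatrixGroups
open Cfsg

namespace Cfsg.Agent.S5960

/-- Involutions of PSp_n(q) and imprimitive subgroups. Here `T = PSp_n(q)`, `n = 2d ≥ 4`, `(n, q) ≠ (4, 2)`, realised through the symplectic matrices over the field `F` with `q` elements and the standard alternating form; `n = a·t` with `a` even and `t ≥ 2`, and Ω is the (nonempty) set of orthogonal decompositions of `F^n` into `t` nondegenerate subspaces of dimension `a` (unordered; counted as ordered ones divided by `t!`), whose stabilizers are the imprimitive subgroups of type Sp_a(q) ≀ S_t (maximality is not assumed); an element of `T` of prime order `r` (a symplectic matrix `x` with `x^r` scalar, `x` not scalar) fixes a point of Ω when it permutes the summands of some such decomposition. If the number of such decompositions is even, then every involution of `T` stabilizes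 one of them (the action is 2-elusive). -/
theorem result {F : Type*} [Field F] [Fintype F] {p : ℕ} [Fact p.Prime] [CharP F p] {q : ℕ} (hq : Fintype.card F = q)
    (d : ℕ) (hd : 2 ≤ d) (hT : (d, q) ≠ (2, 2))
    (a t : ℕ) (hat : 2 * d = a * t) (ha : 2 ≤ a) (hae : Even a) (ht : 2 ≤ t) (hΩ : 2 ∣ Nat.card {D : Fin t → Submodule F (Fin d ⊕ Fin d → F) // (Cfsg.Geo.IsMDecomposition a D ∧ (∀ j, ∀ u ∈ D j, u ≠ 0 → ∃ v ∈ D j, Cfsg.sympForm d F u v ≠ 0) ∧
          (∀ j j', j ≠ j' → ∀ u ∈ D j, ∀ v ∈ D j', Cfsg.sympForm d F u v = 0))} / Nat.factorial t)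
    (x : ↥(Matrix.symplecticGroup (Fin d) F))
    (hx1 : ∃ z : F, ((x ^ 2 : ↥(Matrix.symplecticGroup (Fin d) F)) : Matrix (Fin d ⊕ Fin d) (Fin d ⊕ Fin d) F) = z • (1 : Matrix (Fin d ⊕ Fin d) (Fin d ⊕ Fin d) F))
    (hx2 : ∀ z : F, (x : Matrix (Fin d ⊕ Fin d) (Fin d ⊕ Fin d) F) ≠ z • (1 : Matrix (Fin d ⊕ Fin d) (Fin d ⊕ Fin d) F)) :
    ∃ D : Fin t → Submodule F (Fin d ⊕ Fin d → F), (Cfsg.Geo.IsMDecomposition a D ∧ (∀ j, ∀ u ∈ D j, u ≠ 0 → ∃ v ∈ D j, Cfsg.sympForm d F u v ≠ 0) ∧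
          (∀ j j', j ≠ j' → ∀ u ∈ D j, ∀ v ∈ D j', Cfsg.sympForm d F u v = 0)) ∧
        ∃ σ : Equiv.Perm (Fin t), ∀ j, (D j).map (Matrix.toLin' (x : Matrix (Fin d ⊕ Fin d) (Fin d ⊕ Fin d) F)) = D (σ j) := by
  obtain ⟨z, hz⟩ := hx1
  obtain ⟨b, hb⟩ := hae
  have hB := Cfsg.Agent.Forms.mem_symplectic_iff.1 x.2
  have hf : ∀ v, Matrix.toLin' (x : Matrix (Fin d ⊕ Fin d) (Fin d ⊕ Fin d) F)
      (Matrix.toLin' (x : Matrix (Fin d ⊕ Fin d) (Fin d ⊕ Fin d) F) v) = z • v := fun v => by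
    rw [Matrix.toLin'_apply, Matrix.toLin'_apply, Matrix.mulVec_mulVec]
    rw [pow_two, Submonoid.coe_mul] at hz
    rw [hz, Matrix.smul_mulVec, Matrix.one_mulVec]
  have hz0 : z ≠ 0 := by
    intro h
    let i : Fin d ⊕ Fin d := Sum.inl ⟨0, by omega⟩
    have hdet : IsUnit ((x ^ 2 : ↥(Matrix.symplecticGroup (Fin d) F)) : Matrix (Fin d ⊕ Fin d) (Fin d ⊕ Fin d) F).det :=
      SymplecticGroup.symplectic_det (x ^ 2).2
    haveI : Nonempty (Fin d ⊕ Fin d) := ⟨i⟩
    rw [hz, h, zero_smul, Matrix.det_zero] at hdet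
    exact not_isUnit_zero hdet
  have hat' : 2 * b * t = a * t := by rw [hb]; ring
  obtain ⟨D, hdim, hind, htop, hnd, hort, σ, hσ⟩ := Cfsg.Agent.GeomClasses.PlanePerm.exists_decomposition
    (Cfsg.Agent.Forms.sympB d F) Cfsg.Agent.Forms.sympB_isAlt
    (fun v hv => by
      by_contra h
      push_neg at h
      exact hv (Cfsg.Agent.Forms.sympB_nondegenerate.1 v h))
    (Matrix.toLin' (x : Matrix (Fin d ⊕ Fin d) (Fin d ⊕ Fin d) F))
    (fun u v => by simp only [Cfsg.Agent.Forms.sympB_apply, Matrix.toLin'_apply]; exact hB u v) hz0 hf b t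
    (by omega) (by simp [hat', ← hat]; omega)
  refine ⟨D, ⟨⟨ht, by omega, fun j => by rw [hdim]; omega, hind, htop⟩,
    fun j u hu hu0 => ?_, fun j j' h u hu v hv => by simpa using hort j j' h u hu v hv⟩, σ, hσ⟩
  obtain ⟨v, hv, huv⟩ := hnd j u hu hu0
  exact ⟨v, hv, by simpa using huv⟩

end Cfsg.Agent.S5960
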