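import Cfsg.Statements.S5961
import Cfsg.Agent.GeomClasses.SympDecompDerange

set_option autoImplicit false
open scoped MatrixGroups
open Cfsg

namespace Cfsg.Agent.S5961

/-- Elements of odd prime order of PSp_n(q) and imprimitive subgroups. Here `T = PSp_n(q)`, `n = 2d ≥ 4`, `(n, q) ≠ (4, 2)`, realised through the symplectic matrices over the field `F` with `q` elements and the standard alternating form; `n = a·t` with `a` even and `t ≥ 2`, and Ω is the (nonempty) set of orthogonal decompositions of `F^n` into `t` nondegenerate subspaces of dimension `a` (unordered; counted as ordered ones divided by `t!`), whose stabilizers are the imprimitive subgroups of type Sp_a(q) ≀ S_t (maximality is not assumed); an element of `T` of prime order `r` (a symplectic matrix `x` with `x^r` scalar, `x` not scalar) fixes a point of Ω when it permutes the summands of some such decomposition. Let `r ≠ p` be an odd prime dividing the number of such decompositions, let `i` be the multiplicative order of `q`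 modulo `r`, `c = i` if `i` is even and `c = 2i` if `i` is odd, and write `k = n mod c`, `ℓ = a mod c`. Then every element of `T` of order `r` stabilizes such a decomposition if and only if `c ≤ a` and `k = t·ℓ`. -/
theorem result {F : Type*} [Field F] [Fintype F] {p : ℕ} [Fact p.Prime] [CharP F p] {q : ℕ} (hq : Fintype.card F = q)
    (d : ℕ) (hd : 2 ≤ d) (hT : (d, q) ≠ (2, 2))
    (a t : ℕ) (hat : 2 * d = a * t) (ha : 2 ≤ a) (hae : Even a) (ht : 2 ≤ t)
    (r : ℕ) [Fact r.Prime] (hr2 : r ≠ 2) (hrp : r ≠ p) (hΩ : r ∣ Nat.card {D : Fin t → Submodule F (Fin d ⊕ Fin d → F) // (Cfsg.Geo.IsMDecomposition a D ∧ (∀ j, ∀ u ∈ D j, u ≠ 0 → ∃ v ∈ D j, Cfsg.sympForm d F u v ≠ 0) ∧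
          (∀ j j', j ≠ j' → ∀ u ∈ D j, ∀ v ∈ D j', Cfsg.sympForm d F u v = 0))} / Nat.factorial t)
    (i c : ℕ) (hi : i = orderOf (q : ZMod r)) (hc : c = if Even i then i else 2 * i) :
    (∀ x : ↥(Matrix.symplecticGroup (Fin d) F),
      (∃ z : F, ((x ^ r : ↥(Matrix.symplecticGroup (Fin d) F)) : Matrix (Fin d ⊕ Fin d) (Fin d ⊕ Fin d) F) = z • (1 : Matrix (Fin d ⊕ Fin d) (Fin d ⊕ Fin d) F)) →
      (∀ z : F, (x : Matrix (Fin d ⊕ Fin d) (Fin d ⊕ Fin d) F) ≠ z • (1 : Matrix (Fin d ⊕ Fin d) (Fin d ⊕ Fin d) F)) →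
      ∃ D : Fin t → Submodule F (Fin d ⊕ Fin d → F), (Cfsg.Geo.IsMDecomposition a D ∧ (∀ j, ∀ u ∈ D j, u ≠ 0 → ∃ v ∈ D j, Cfsg.sympForm d F u v ≠ 0) ∧
          (∀ j j', j ≠ j' → ∀ u ∈ D j, ∀ v ∈ D j', Cfsg.sympForm d F u v = 0)) ∧
        ∃ σ : Equiv.Perm (Fin t), ∀ j, (D j).map (Matrix.toLin' (x : Matrix (Fin d ⊕ Fin d) (Fin d ⊕ Fin d) F)) = D (σ j)) ↔
    (c ≤ a ∧ (2 * d) % c = t * (a % c)) := by
  classical
  have hp : p.Prime := Fact.out
  have hr : r.Prime := Fact.out
  obtain ⟨f₀, -, hf₀⟩ := FiniteField.card F p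
  have hrq : ¬ r ∣ q := fun h =>
    hrp ((Nat.prime_dvd_prime_iff_eq hr hp).1 (hr.dvd_of_dvd_pow (hq.symm.trans hf₀ ▸ h)))
  have hrF : (r : F) ≠ 0 := fun h =>
    hrp (((Nat.prime_dvd_prime_iff_eq hp hr).1 ((CharP.cast_eq_zero_iff F p r).1 h)).symm)
  obtain ⟨hi0, hidvd⟩ := GeomClasses.SubspaceDerange.dvd_pow_sub_one hrq hi
  have hodd := hr.odd_of_ne_two hr2
  have hce : Even c := by
    rw [hc]; split_ifs with h
    · exact h
    · exact even_two_mul i
  have hc0 : 0 < c := by rw [hc]; split_ifs <;> omega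
  let B := Cfsg.Agent.Forms.sympB d F
  have hA : B.IsAlt := Cfsg.Agent.Forms.sympB_isAlt
  have hB : B.Nondegenerate := Cfsg.Agent.Forms.sympB_nondegenerate
  have hV : Module.finrank F (Fin d ⊕ Fin d → F) = 2 * d := by
    rw [Module.finrank_pi, Fintype.card_sum, Fintype.card_fin]; omega
  let i0 : Fin d := ⟨0, by omega⟩
  have hsquare : ∀ z : F, (∀ u v : Fin d ⊕ Fin d → F, Cfsg.sympForm d F (z • u) (z • v) = Cfsg.sympForm d F u v) → z * z = 1 := by
    intro z h
    have h1 := h (Pi.single (Sum.inr i0) 1) (Pi.single (Sum.inl i0) 1)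
    simpa [Cfsg.Agent.Forms.sympForm_eq, Pi.single_apply, mul_assoc] using h1
  constructor
  · intro H
    have key : ∀ T : Module.End F (Fin d ⊕ Fin d → F), T ^ r = 1 → (∀ u v, B (T u) (T v) = B u v) →
        Module.finrank F (LinearMap.ker (T - 1)) ≠ 2 * d →
        ∃ D : Fin t → Submodule F (Fin d ⊕ Fin d → F), GeomClasses.SympDecompDerange.Good a D ∧
          ∃ σ : Equiv.Perm (Fin t), ∀ j, (D j).map T = D (σ j) := by
      intro T hT' hTB hne
      have hmem : LinearMap.toMatrix' T ∈ Matrix.symplecticGroup (Fin d) F :=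
        Cfsg.Agent.Forms.mem_symplectic_iff.2 fun u v => by
          simp only [LinearMap.toMatrix'_mulVec]; simpa [B] using hTB u v
      have hx : Matrix.toLin' (LinearMap.toMatrix' T) = T := Matrix.toLin'_toMatrix' T
      obtain ⟨D, hD, σ, hσ⟩ := H ⟨_, hmem⟩ ⟨1, by
        rw [one_smul, SubmonoidClass.coe_pow]
        refine Matrix.toLin'.injective ?_
        rw [Matrix.toLin'_pow, hx, hT', Matrix.toLin'_one]; rfl⟩ (fun e he => hne (by
        have hTe : T = e • 1 := by
          rw [← hx, show LinearMap.toMatrix' T = e • 1 from he, map_smul, Matrix.toLin'_one]; rfl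
        have he2 : e * e = 1 := hsquare e fun u v => by
          have h := hTB u v
          simp only [B, hTe, LinearMap.smul_apply, Module.End.one_apply, Cfsg.Agent.Forms.sympB_apply] at h
          exact h
        have her : e ^ r = 1 := by
          have h := congrArg (fun f : Module.End F (Fin d ⊕ Fin d → F) => f (Pi.single (Sum.inl i0) 1) (Sum.inl i0)) hT'
          simpa [hTe, smul_pow] using h
        obtain ⟨l, rfl⟩ := hodd
        rw [pow_succ, pow_mul, pow_two, he2, one_pow, one_mul] at her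
        rw [hTe, her, one_smul, sub_self, LinearMap.ker_zero, finrank_top, hV]))
      exact ⟨D, hD, σ, fun j => by rw [← hσ j]; exact congrArg (fun f => (D j).map f) hx.symm⟩
    have hcn : c ≤ 2 * d := by
      have h := GeomClasses.SympDecompDerange.dvd_card_Sp (F := F) (d := d) hat (by omega) hae ht hΩ
      rw [Cfsg.Agent.Forms.card_symplecticGroup hq] at h
      obtain ⟨l, hl, hdl⟩ := hr.prime.exists_mem_finset_dvd ((hr.dvd_mul.1 h).resolve_left fun h => hrq (hr.dvd_of_dvd_pow h))
      rw [Finset.mem_range] at hl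
      have h' : q ^ 0 ≡ q ^ (2 * (l + 1)) [MOD r] :=
        (Nat.modEq_iff_dvd' (Nat.pow_le_pow_right (hq ▸ Fintype.card_pos) (Nat.zero_le _))).2 (by simpa using hdl)
      have hd' : i ∣ 2 * (l + 1) := by
        simpa using (Nat.modEq_iff_dvd' (Nat.zero_le _)).1 (GeomClasses.SubspaceDerange.pow_modEq hrq hi h')
      rw [hc]
      split_ifs with he
      · have := Nat.le_of_dvd (by omega) hd'
        omega
      · have := Nat.le_of_dvd (by omega) ((Nat.prime_two.coprime_iff_not_dvd.2
          (fun h => he (even_iff_two_dvd.2 h))).symm.dvd_of_dvd_mul_left hd')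
        omega
    have hcr : c ≤ r - 1 := by
      have hq0 : (q : ZMod r) ≠ 0 := fun h => hrq ((ZMod.natCast_eq_zero_iff q r).1 h)
      have h1 : i ∣ r - 1 := hi ▸ orderOf_dvd_of_pow_eq_one (ZMod.pow_card_sub_one_eq_one hq0)
      have h2 : r - 1 ≠ 0 := by have := hr.two_le; omega
      rw [hc]
      split_ifs with he
      · exact Nat.le_of_dvd (by omega) h1
      · refine Nat.le_of_dvd (by omega) (Nat.Coprime.mul_dvd_of_dvd_of_dvd
          (Nat.prime_two.coprime_iff_not_dvd.2 (fun h => he (even_iff_two_dvd.2 h))) ?_ h1)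
        obtain ⟨l, hl⟩ := hodd
        exact ⟨l, by omega⟩
    let e := LinearEquiv.funCongrLeft F F ((finCongr (by omega : 2 * d = d + d)).trans finSumFinEquiv.symm)
    have hfin : ∀ (T : Module.End F (Fin d ⊕ Fin d → F)) (D : Fin t → Submodule F (Fin d ⊕ Fin d → F)),
        T ^ r = 1 → (∀ u v, B (T u) (T v) = B u v) → GeomClasses.SympDecompDerange.Good a D → ∀ σ : Equiv.Perm (Fin t),
        (∀ j, (D j).map T = D (σ j)) → ∀ j, σ j = j → Module.finrank F ↥(D j ⊓ LinearMap.ker (T - 1)) % c = a % c ∧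
          Module.finrank F ↥(D j ⊓ LinearMap.ker (T - 1)) ≤ a := by
      intro T D hT' hTB hD σ hσ j hj
      have hinv : ∀ v ∈ D j, T v ∈ D j := fun v hv => by
        have := hσ j
        rw [hj] at this
        exact this ▸ ⟨v, hv, rfl⟩
      have hmod := GeomClasses.SympStructure.dim_mod hA hTB hT' hrF hq hrq hi hc hinv
        (GeomClasses.SympDecompDerange.nd_of_stmt (hD.2.1 j))
      rw [hD.1.finrank_eq] at hmod
      exact ⟨hmod.symm, hD.1.finrank_eq j ▸ Submodule.finrank_mono inf_le_left⟩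
    -- first element
    have hca : c ≤ a := by
      obtain ⟨T, hTr, hTB, hker⟩ := GeomClasses.SympDecompDerange.exists_moving (r := r) hA hB hrF hq hrq hi hc (j := 1) (by omega)
      rw [hV, one_mul] at hker
      obtain ⟨D, hD, σ, hσ⟩ := key T hTr hTB (by omega)
      obtain ⟨hmov, hfx⟩ := GeomClasses.SympDecompDerange.bounds e hat (by omega) ht hTr hD.1.finrank_eq hD.1.iSup_eq_top hσ
      have hrange := LinearMap.finrank_range_add_finrank_ker (T - 1)
      have hfix : ∀ j, σ j = j := fun j => by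
        by_contra hj
        have h := (hmov j hj).2
        have h2 : (r - 1) * 2 ≤ (r - 1) * a := Nat.mul_le_mul_left _ ha
        have := hr.two_le
        omega
      by_contra hlt
      have hall : ∀ j, Module.finrank F ↥(D j ⊓ LinearMap.ker (T - 1)) = a := fun j => by
        obtain ⟨h1, h2⟩ := hfin T D hTr hTB hD σ hσ j (hfix j)
        rwa [Nat.mod_eq_of_lt (show _ < c from h2.trans_lt (by omega)), Nat.mod_eq_of_lt (show a < c by omega)] at h1
      have h := hfx hfix
      simp only [hall, Finset.sum_const, Finset.card_univ, Fintype.card_fin, smul_eq_mul, hker] at h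
      rw [mul_comm t a, ← hat] at h
      omega
    refine ⟨hca, ?_⟩
    -- second element
    have hle : 2 * d / c * c ≤ Module.finrank F (Fin d ⊕ Fin d → F) := hV ▸ Nat.div_mul_le_self _ _
    obtain ⟨T, hTr, hTB, hker⟩ := GeomClasses.SympDecompDerange.exists_moving (r := r) hA hB hrF hq hrq hi hc hle
    have hdm := Nat.div_add_mod' (2 * d) c
    have hlt := Nat.mod_lt (2 * d) hc0
    rw [hV, show 2 * d - 2 * d / c * c = 2 * d % c by omega] at hker
    obtain ⟨D, hD, σ, hσ⟩ := key T hTr hTB (by omega)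
    obtain ⟨hmov, hfx⟩ := GeomClasses.SympDecompDerange.bounds e hat (by omega) ht hTr hD.1.finrank_eq hD.1.iSup_eq_top hσ
    have hfix : ∀ j, σ j = j := fun j => by
      by_contra hj
      have h := (hmov j hj).1
      omega
    have hall : ∀ j, Module.finrank F ↥(D j ⊓ LinearMap.ker (T - 1)) = a % c := fun j => by
      obtain ⟨h1, -⟩ := hfin T D hTr hTB hD σ hσ j (hfix j)
      have hle : Module.finrank F ↥(D j ⊓ LinearMap.ker (T - 1)) ≤ 2 * d % c := hker ▸ Submodule.finrank_mono inf_le_right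
      rwa [Nat.mod_eq_of_lt (hle.trans_lt hlt)] at h1
    have hb := hfx hfix
    simp only [hall, Finset.sum_const, Finset.card_univ, Fintype.card_fin, smul_eq_mul, hker] at hb
    rw [← Nat.mod_eq_of_lt (show t * (a % c) < c by omega), hat, mul_comm a t, Nat.mul_mod_mod]
  · rintro ⟨-, hk⟩ x ⟨z, hz⟩ -
    set T := Matrix.toLin' (x : Matrix (Fin d ⊕ Fin d) (Fin d ⊕ Fin d) F)
    have hTB : ∀ u v, Cfsg.sympForm d F (T u) (T v) = Cfsg.sympForm d F u v := fun u v => by
      simp only [T, Matrix.toLin'_apply]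
      exact Cfsg.Agent.Forms.mem_symplectic_iff.1 x.2 u v
    have hTr : T ^ r = z • (1 : Module.End F (Fin d ⊕ Fin d → F)) := by
      rw [← Matrix.toLin'_pow, ← SubmonoidClass.coe_pow, hz, map_smul, Matrix.toLin'_one]; rfl
    have hpres : ∀ (m : ℕ) u v, Cfsg.sympForm d F ((T ^ m) u) ((T ^ m) v) = Cfsg.sympForm d F u v := by
      intro m
      induction m with
      | zero => simp
      | succ m ih => intro u v; rw [pow_succ', Module.End.mul_apply, Module.End.mul_apply, hTB, ih]
    have hz2 : z * z = 1 := hsquare z fun u v => by simpa [hTr] using hpres r u v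
    have hz0 : z ≠ 0 := fun h => by rw [h, zero_mul] at hz2; exact zero_ne_one hz2
    have hS : (z • T) ^ r = 1 := by
      obtain ⟨l, rfl⟩ := hodd
      rw [smul_pow, hTr, smul_smul, pow_succ, pow_mul, pow_two, hz2, one_pow, one_mul, hz2, one_smul]
    have hSB : ∀ u v, B ((z • T) u) ((z • T) v) = B u v := fun u v => by
      simp only [B, LinearMap.smul_apply, map_smul, smul_eq_mul, ← mul_assoc, hz2, one_mul, Cfsg.Agent.Forms.sympB_apply, hTB]
    obtain ⟨D, hD, horth, hsup⟩ := GeomClasses.SympDecompDerange.exists_bins hA hB hSB hS hrF hr2 hq hrq hi hc hae (t := t)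
      (by rw [hV, hat, mul_comm]) (by have := Nat.mod_lt (2 * d) hc0; omega)
    refine ⟨D, GeomClasses.SympDecompDerange.good_of (by omega) ht (fun j => ⟨(hD j).1, (hD j).2.1⟩) horth hsup, 1, fun j => ?_⟩
    have hinv : (D j).map (z • T) ≤ D j := Submodule.map_le_iff_le_comap.2 (hD j).2.2
    rw [Submodule.map_smul _ _ _ hz0] at hinv
    refine Submodule.eq_of_le_of_finrank_eq hinv ?_
    refine (Submodule.equivMapOfInjective _ (fun u v huv => ?_) (D j)).finrank_eq.symm
    exact (smul_right_injective _ hz0) (by simpa [hTr] using (show (T ^ r) u = (T ^ r) v by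
      rw [← Nat.sub_add_cancel hr.one_lt.le, pow_succ, Module.End.mul_apply, Module.End.mul_apply, huv]))

end Cfsg.Agent.S5961
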