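import Cfsg.Statements.S5963
import Cfsg.Agent.GeomClasses.PolarPairDerange

set_option autoImplicit false
open scoped MatrixGroups
open Cfsg

namespace Cfsg.Agent.S5963

/-- Derangements of odd prime order of PSp_n(q), q odd, on pairs of complementary totally isotropic subspaces. Here `T = PSp_n(q)`, `n = 2d ≥ 4`, `q` odd, realised through the symplectic matrices over the field `F` with `q` elements; Ω is the set of unordered pairs `{U, W}` of complementary totally isotropic `d`-spaces (`F^n = U ⊕ W`), whose stabilizers are the subgroups of type GL_d(q).2 (maximal except in some small cases; maximality is not assumed); an element of `T` of prime order `r` (a symplectic matrix `x` with `x^r` scalar, `x` not scalar) fixes such a pair when it fixes or interchanges `U` and `W`. For every odd prime `r ≠ p` dividing the number of such pairs, some element of `T` of order `r` fixes no such pair (the action is never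 `r`-elusive for odd `r ≠ p`). -/
theorem result {F : Type*} [Field F] [Fintype F] {p : ℕ} [Fact p.Prime] [CharP F p] {q : ℕ} (hq : Fintype.card F = q)
    (d : ℕ) (hd : 2 ≤ d) (hT : (d, q) ≠ (2, 2)) (hodd : Odd q)
    (r : ℕ) [Fact r.Prime] (hr2 : r ≠ 2) (hrp : r ≠ p) (hΩ : r ∣ Nat.card {P : Submodule F (Fin d ⊕ Fin d → F) × Submodule F (Fin d ⊕ Fin d → F) // IsCompl P.1 P.2 ∧ (∀ u ∈ P.1, ∀ v ∈ P.1, Cfsg.sympForm d F u v = 0) ∧ (∀ u ∈ P.2, ∀ v ∈ P.2, Cfsg.sympForm d F u v = 0)} / 2) :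
    ∃ x : ↥(Matrix.symplecticGroup (Fin d) F),
      (∃ z : F, ((x ^ r : ↥(Matrix.symplecticGroup (Fin d) F)) : Matrix (Fin d ⊕ Fin d) (Fin d ⊕ Fin d) F) = z • (1 : Matrix (Fin d ⊕ Fin d) (Fin d ⊕ Fin d) F)) ∧
      (∀ z : F, (x : Matrix (Fin d ⊕ Fin d) (Fin d ⊕ Fin d) F) ≠ z • (1 : Matrix (Fin d ⊕ Fin d) (Fin d ⊕ Fin d) F)) ∧
      ¬ (∃ U W : Submodule F (Fin d ⊕ Fin d → F), IsCompl U W ∧ (∀ u ∈ U, ∀ v ∈ U, Cfsg.sympForm d F u v = 0) ∧ (∀ u ∈ W, ∀ v ∈ W, Cfsg.sympForm d F u v = 0) ∧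
        ((U.map (Matrix.toLin' (x : Matrix (Fin d ⊕ Fin d) (Fin d ⊕ Fin d) F)) = U ∧ W.map (Matrix.toLin' (x : Matrix (Fin d ⊕ Fin d) (Fin d ⊕ Fin d) F)) = W) ∨
         (U.map (Matrix.toLin' (x : Matrix (Fin d ⊕ Fin d) (Fin d ⊕ Fin d) F)) = W ∧ W.map (Matrix.toLin' (x : Matrix (Fin d ⊕ Fin d) (Fin d ⊕ Fin d) F)) = U))) := by
  classical
  have hr := (Fact.out : r.Prime)
  obtain ⟨nn, -, hn⟩ := FiniteField.card F p
  have hrq : ¬ r ∣ q := by
    rw [← hq, hn]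
    exact fun h => hrp ((Nat.prime_dvd_prime_iff_eq hr Fact.out).1 (hr.dvd_of_dvd_pow h))
  have hrF : (r : F) ≠ 0 := fun h => hrp ((Nat.prime_dvd_prime_iff_eq Fact.out hr).1
    ((CharP.cast_eq_zero_iff F p r).1 h)).symm
  have heven : 2 ∣ ∏ i ∈ Finset.range d, (q ^ (i + 1) * (q ^ (i + 1) + 1)) :=
    dvd_trans (Dvd.dvd.mul_left ((hodd.pow (n := 0 + 1)).add_one.two_dvd) _)
      (Finset.dvd_prod_of_mem _ (Finset.mem_range.2 (show 0 < d by omega)))
  have hdvd : r ∣ ∏ i ∈ Finset.range d, (q ^ (i + 1) * (q ^ (i + 1) + 1)) := by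
    rw [Cfsg.Agent.GeomClasses.PolarPairDerange.card_pairs hq] at hΩ
    exact hΩ.trans (Nat.div_dvd_of_dvd heven)
  obtain ⟨i, hi, hdi⟩ := hr.prime.exists_mem_finset_dvd hdvd
  rw [Finset.mem_range] at hi
  have hex : ∃ j, 1 ≤ j ∧ r ∣ q ^ j + 1 :=
    ⟨i + 1, by omega, (hr.dvd_mul.1 hdi).resolve_left fun h => hrq (hr.dvd_of_dvd_pow h)⟩
  have hle : Nat.find hex ≤ d :=
    (Nat.find_min' hex ⟨Nat.le_add_left 1 i, (hr.dvd_mul.1 hdi).resolve_left fun h => hrq (hr.dvd_of_dvd_pow h)⟩).trans hi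
  obtain ⟨hj1, hj2⟩ := Nat.find_spec hex
  obtain ⟨x, hx, hns, hder⟩ := Cfsg.Agent.GeomClasses.PolarPairDerange.exists_derangement hq hr2 hrq hrF hj1 hle hj2
    (fun k hk hk2 => Cfsg.Agent.GeomClasses.PolarPairDerange.exists_half hr2 hj1 hj2
      (fun l hl hlj hd' => Nat.find_min hex hlj ⟨hl, hd'⟩) hk hk2)
  exact ⟨x, ⟨1, by rw [hx, one_smul]; rfl⟩, fun z hz => hns ⟨z, hz⟩, hder⟩

end Cfsg.Agent.S5963
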