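import Cfsg.Statements.S5964
import Cfsg.Agent.GeomClasses.SubfieldInvolution

set_option autoImplicit false
open scoped MatrixGroups
open Cfsg

namespace Cfsg.Agent.S5964

/-- Involutions of PSL_n(q) and subfield subgroups. Here `T = PSL_n(F)` for a field `F` with `q = p^f` elements (`n ≥ 2`, `(n, q) ≠ (2, 2), (2, 3)`), `F₀` is the subfield with `q₀` elements where `q = q₀^k` for a prime `k`, and `H` is the subgroup of matrices of determinant 1 lying in the subfield group of `F₀` (invertible matrices over `F₀` times scalars) — a maximal subgroup of type GL_n(q₀) (the case `n = 2`, `q₀ = 2` is excluded); Ω is the set of `T`-conjugates of `H` (cosets of `H`), so an element of `T` of prime order `r` (a matrix `x` of determinant 1 with `x^r` scalar, `x` not scalar) fixes a point of Ω when some conjugate of `x` by a matrix of determinant 1 lies in `H`. Suppose the index of `H` is even. Then every involution of `T` is conjugate in `T` into `H` if and only if either `q` is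 even, or `k = 2` and `(n)_2 ≤ (q − 1)_2`. (For `q` odd and `k` odd the index of `H` is odd, so that case does not arise.) -/
theorem result {F : Type*} [Field F] [Fintype F] {p : ℕ} [Fact p.Prime] [CharP F p] {q : ℕ} (hq : Fintype.card F = q)
    (n : ℕ) (hn : 2 ≤ n) (hT : (n, q) ≠ (2, 2) ∧ (n, q) ≠ (2, 3))
    (F₀ : Subfield F) (k q₀ : ℕ) (hk : k.Prime) (hF₀ : Nat.card ↥F₀ = q₀) (hqk : q = q₀ ^ k) (hC5 : ¬ (n = 2 ∧ q₀ = 2)) (hΩ : 2 ∣ ((Cfsg.Geo.subfieldSubgroup F₀ 1).comap (Matrix.SpecialLinearGroup.toGL : Matrix.SpecialLinearGroup (Fin n) F →* GL (Fin n) F)).index) :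
    (∀ x : Matrix.SpecialLinearGroup (Fin n) F,
      (∃ z : F, ((x ^ 2 : Matrix.SpecialLinearGroup (Fin n) F) : Matrix (Fin n) (Fin n) F) = z • (1 : Matrix (Fin n) (Fin n) F)) →
      (∀ z : F, (x : Matrix (Fin n) (Fin n) F) ≠ z • (1 : Matrix (Fin n) (Fin n) F)) →
      ∃ P : Matrix.SpecialLinearGroup (Fin n) F, P⁻¹ * x * P ∈ ((Cfsg.Geo.subfieldSubgroup F₀ 1).comap (Matrix.SpecialLinearGroup.toGL : Matrix.SpecialLinearGroup (Fin n) F →* GL (Fin n) F))) ↔
    (Odd q → (k = 2 ∧ padicValNat 2 n ≤ padicValNat 2 (q - 1))) := by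
  classical
  have hp := (Fact.out : p.Prime)
  have hq1 : 1 < q := hq ▸ Fintype.one_lt_card
  have hn1 : 1 ≤ n := by omega
  haveI hne : Nonempty (Fin n) := ⟨⟨0, hn1⟩⟩
  have hz : ∀ (x : Matrix.SpecialLinearGroup (Fin n) F) (z : F),
      ((x ^ 2 : Matrix.SpecialLinearGroup (Fin n) F) : Matrix (Fin n) (Fin n) F) = z • (1 : Matrix (Fin n) (Fin n) F) →
      z ≠ 0 ∧ ∀ v, Matrix.mulVec (x : Matrix (Fin n) (Fin n) F) (Matrix.mulVec (x : Matrix (Fin n) (Fin n) F) v) = z • v := by
    intro x z hx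
    refine ⟨fun h => ?_, fun v => ?_⟩
    · have := congrArg Matrix.det hx
      rw [(x ^ 2).2, h, zero_smul, Matrix.det_zero] at this
      exact one_ne_zero this
    · rw [Matrix.SpecialLinearGroup.coe_pow, pow_two] at hx
      rw [Matrix.mulVec_mulVec, hx, Matrix.smul_mulVec, Matrix.one_mulVec]
  have hchar : ringChar F = p := ringChar.eq F p
  by_cases hodd : Odd q
  swap
  · refine ⟨fun _ h => absurd h hodd, fun _ x ⟨z, hx⟩ hns => ?_⟩
    have hp2 : p = 2 := by
      by_contra h
      obtain ⟨nn, -, hnn⟩ := FiniteField.card F p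
      exact hodd (by rw [← hq, hnn]; exact (hp.odd_of_ne_two h).pow)
    subst hp2
    obtain ⟨hz0, hz'⟩ := hz x z hx
    exact Cfsg.Agent.GeomClasses.SubfieldInvolution.conj_two hn1 x hz0 hz'
  have hk2 : k = 2 := by
    rcases hk.eq_two_or_odd' with h | h
    · exact h
    · have := Cfsg.Agent.GeomClasses.SubfieldInvolution.index_odd hn1 hq hF₀ hqk h hodd
      exact absurd (even_iff_two_dvd.2 hΩ) (Nat.not_even_iff_odd.2 this)
  subst hk2
  haveI := Fintype.ofFinite F₀
  have hF₀' : Fintype.card F₀ = q₀ := by rw [← hF₀, Nat.card_eq_fintype_card]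
  have hq0odd : Odd q₀ := by
    rcases Nat.even_or_odd q₀ with h | h
    · rw [hqk] at hodd; exact absurd (h.pow_of_ne_zero two_ne_zero) (Nat.not_even_iff_odd.2 hodd)
    · exact h
  have h2F : ringChar F ≠ 2 := fun e => by
    obtain ⟨nn, -, hnn⟩ := FiniteField.card F p
    rw [hchar] at e
    rw [← hq, hnn, e] at hodd
    exact absurd ((even_two).pow_of_ne_zero (PNat.ne_zero nn)) (Nat.not_even_iff_odd.2 hodd)
  have h2 : (2 : F) ≠ 0 := Ring.two_ne_zero h2F
  -- elements of the subfield are squares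
  have hsq : ∀ a ∈ F₀, a ≠ 0 → IsSquare a := by
    intro a ha ha0
    rw [FiniteField.isSquare_iff h2F ha0, hq]
    obtain ⟨t, ht⟩ := hq0odd
    have h1 : (⟨a, ha⟩ : F₀) ^ (q₀ - 1) = 1 :=
      hF₀' ▸ FiniteField.pow_card_sub_one_eq_one _ (fun e => ha0 (congrArg Subtype.val e))
    have h1' : a ^ (q₀ - 1) = 1 := by simpa using congrArg Subtype.val h1
    rw [show q / 2 = (q₀ - 1) * (t + 1) by
      rw [hqk, ht, Nat.add_sub_cancel]
      have : (2 * t + 1) ^ 2 = 2 * (2 * t * (t + 1)) + 1 := by ring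
      omega, pow_mul, h1', one_pow]
  have hq4 : q % 4 = 1 := by
    obtain ⟨t, ht⟩ := hq0odd
    rw [hqk, ht]
    have : (2 * t + 1) ^ 2 = 4 * (t * t + t) + 1 := by ring
    omega
  have hm1 : IsSquare (-1 : F) := by
    rw [FiniteField.isSquare_neg_one_iff, hq]; omega
  set v := padicValNat 2 n
  set e := padicValNat 2 (q - 1)
  have hn0 : n ≠ 0 := by omega
  obtain ⟨u, hu⟩ := IsCyclic.exists_ofOrder_eq_natCard (α := Fˣ)
  rw [Nat.card_units, Nat.card_eq_fintype_card, hq] at hu
  constructor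
  · intro h _
    refine ⟨rfl, not_lt.1 fun hlt => ?_⟩
    -- a derangement
    obtain ⟨a, ha⟩ : 2 ^ e ∣ q - 1 := pow_padicValNat_dvd
    have ha0 : a ≠ 0 := fun h => by rw [h, mul_zero] at ha; omega
    set w := u ^ a
    have hw : orderOf w = 2 ^ e := by
      rw [orderOf_pow' u ha0, hu, ha, Nat.gcd_mul_left_left, Nat.mul_div_cancel _ (Nat.pos_of_ne_zero ha0)]
    have he1 : 1 ≤ e := one_le_padicValNat_of_dvd (by omega) (by omega)
    obtain ⟨b, hb⟩ : 2 ^ (e + 1) ∣ n := (padicValNat_dvd_iff_le hn0).2 hlt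
    set h' := 2 ^ e * b with hh'
    have hnh : 2 * h' = n := by rw [hb, hh', pow_succ]; ring
    have hwns : ¬ IsSquare (w : F) := by
      rw [FiniteField.isSquare_iff h2F w.ne_zero, hq]
      intro hpow
      have hd : 2 ^ e ∣ q / 2 := by
        rw [← hw, ← orderOf_units]; exact orderOf_dvd_of_pow_eq_one hpow
      have hd2 : 2 ^ (e + 1) ∣ q - 1 := by
        obtain ⟨c, hc⟩ := hd
        refine ⟨c, ?_⟩
        rw [pow_succ, mul_comm _ 2, mul_assoc, ← hc]
        obtain ⟨t, ht⟩ := hodd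
        omega
      exact pow_succ_padicValNat_not_dvd (show q - 1 ≠ 0 by omega) hd2
    set z : F := -(w : F)
    have hzh : (-z) ^ h' = 1 := by
      rw [neg_neg, hh', pow_mul, ← hw, ← orderOf_units, pow_orderOf_eq_one, one_pow]
    let ee : Fin 2 × Fin h' ≃ Fin n := finProdFinEquiv.trans (finCongr hnh)
    let M : Matrix (Fin n) (Fin n) F := Matrix.reindex ee ee (Matrix.blockDiagonal fun _ : Fin h' => !![0, z; 1, 0])
    obtain ⟨x, hx⟩ : ∃ x : Matrix.SpecialLinearGroup (Fin n) F, (x : Matrix (Fin n) (Fin n) F) = M := by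
      refine ⟨⟨M, ?_⟩, rfl⟩
      rw [Matrix.det_reindex_self, Matrix.det_blockDiagonal]
      simp [Matrix.det_fin_two_of, hzh]
    have hMM : M * M = z • 1 := by
      rw [show M * M = Matrix.reindex ee ee ((Matrix.blockDiagonal fun _ : Fin h' => !![0, z; 1, 0]) *
        Matrix.blockDiagonal fun _ : Fin h' => !![0, z; 1, 0]) by simp [M, Matrix.submatrix_mul_equiv],
        ← Matrix.blockDiagonal_mul, show (fun _ : Fin h' => !![0, z; 1, 0] * !![0, z; 1, 0]) = fun _ => z • (1 : Matrix (Fin 2) (Fin 2) F) from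
          funext fun _ => by ext i j; fin_cases i <;> fin_cases j <;> simp [Matrix.mul_apply, Fin.sum_univ_two],
        show (fun _ : Fin h' => z • (1 : Matrix (Fin 2) (Fin 2) F)) = z • 1 from rfl, Matrix.blockDiagonal_smul, Matrix.blockDiagonal_one]
      simp [Matrix.submatrix_smul]
    obtain ⟨P, hP⟩ := h x ⟨z, by rw [Matrix.SpecialLinearGroup.coe_pow, hx, pow_two, hMM]⟩ (fun s hs => by
      have hh0 : 0 < h' := by omega
      have := congrFun (congrFun (hx ▸ hs) (ee (1, ⟨0, hh0⟩))) (ee (0, ⟨0, hh0⟩))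
      simp [M] at this)
    obtain ⟨c, hc0, hc⟩ := Cfsg.Agent.GeomClasses.SubfieldInvolution.mul_self_mem (z := z) hn1 hP (by
      simp only [Matrix.SpecialLinearGroup.coe_mul, hx]
      have hPQ : (P : Matrix (Fin n) (Fin n) F) * ((P⁻¹ : Matrix.SpecialLinearGroup (Fin n) F) : Matrix (Fin n) (Fin n) F) = 1 := by
        rw [← Matrix.SpecialLinearGroup.coe_mul, mul_inv_cancel, Matrix.SpecialLinearGroup.coe_one]
      simp only [mul_assoc]
      rw [← mul_assoc (P : Matrix (Fin n) (Fin n) F), hPQ, one_mul, ← mul_assoc M, hMM, Matrix.smul_mul, one_mul,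
        Matrix.mul_smul, mul_eq_one_comm.1 hPQ])
    obtain ⟨s, hs⟩ := hsq _ hc (mul_ne_zero (mul_ne_zero hc0 hc0) (neg_ne_zero.2 w.ne_zero))
    obtain ⟨i, hi⟩ := hm1
    refine hwns ⟨i * s / c, ?_⟩
    field_simp
    simp only [z] at hs
    linear_combination -hs + s * s * hi
  · intro h x ⟨z, hx⟩ hns
    obtain ⟨-, hle⟩ := h hodd
    obtain ⟨hz0, hz'⟩ := hz x z hx
    by_cases hs : IsSquare z
    · obtain ⟨c, rfl⟩ := hs
      exact Cfsg.Agent.GeomClasses.SubfieldInvolution.conj_square h2 hn1 x (left_ne_zero_of_mul hz0) hz'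
    · exfalso
      obtain ⟨k, l, b, hb1, hb2⟩ := Cfsg.Agent.GeomClasses.InvolutionBlocks.exists_pairBasis
        (Matrix.mulVecLin (x : Matrix (Fin n) (Fin n) F)) z hz0 hz'
      obtain rfl : l = 0 := by
        by_contra hl
        obtain ⟨μ, hμ⟩ := hb2 ⟨0, Nat.pos_of_ne_zero hl⟩
        have h1 := hz' (b (Sum.inr ⟨0, Nat.pos_of_ne_zero hl⟩))
        simp only [Matrix.mulVecLin_apply] at hμ
        rw [hμ, Matrix.mulVec_smul, hμ, smul_smul] at h1
        exact hs ⟨μ, (smul_left_injective F (b.ne_zero _) h1).symm⟩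
      have hdim := Module.finrank_eq_card_basis b
      simp only [Module.finrank_pi, Fintype.card_fin, Fintype.card_sum, Fintype.card_prod, add_zero] at hdim
      have hdet : (-z) ^ k = 1 := by
        have h1 : LinearMap.det (Matrix.mulVecLin (x : Matrix (Fin n) (Fin n) F)) = 1 := by
          show LinearMap.det (Matrix.toLin' (x : Matrix (Fin n) (Fin n) F)) = 1
          rw [LinearMap.det_toLin', x.2]
        let e' : (Fin k × Fin 2) ⊕ Fin 0 ≃ Fin 2 × Fin k := (Equiv.sumEmpty _ _).trans (Equiv.prodComm _ _)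
        rw [← LinearMap.det_toMatrix (b.reindex e'), show LinearMap.toMatrix (b.reindex e') (b.reindex e')
            (Matrix.mulVecLin (x : Matrix (Fin n) (Fin n) F)) = Matrix.blockDiagonal fun _ : Fin k => !![0, z; 1, 0] from ?_,
          Matrix.det_blockDiagonal] at h1
        · simpa [Matrix.det_fin_two_of] using h1
        ext ⟨i, p⟩ ⟨j, p'⟩
        obtain ⟨h0, h1⟩ := hb1 p'
        rw [LinearMap.toMatrix_apply]
        fin_cases i <;> fin_cases j <;>
          simp [e', Module.Basis.repr_reindex_apply, h0, h1, map_smul, Finsupp.single_apply, Matrix.blockDiagonal_apply, eq_comm]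
      have hz'' : ¬ IsSquare (-z) := fun hh => hs (by
        obtain ⟨i, hi⟩ := hm1
        obtain ⟨s, hs'⟩ := hh
        exact ⟨i * s, by linear_combination -hs' + s * s * hi⟩)
      rw [FiniteField.isSquare_iff h2F (neg_ne_zero.2 hz0), hq] at hz''
      have hv : 2 ^ e ∣ k := by
        by_contra hnd
        apply hz''
        have ho1 : orderOf (-z) ∣ k := orderOf_dvd_of_pow_eq_one hdet
        have ho2 : orderOf (-z) ∣ q - 1 := orderOf_dvd_of_pow_eq_one
          (hq ▸ FiniteField.pow_card_sub_one_eq_one _ (neg_ne_zero.2 hz0))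
        apply orderOf_dvd_iff_pow_eq_one.1
        obtain ⟨c, hc⟩ := ho2
        rcases Nat.even_or_odd c with ⟨d, hd⟩ | hcodd
        · refine ⟨d, ?_⟩
          have h5 : q - 1 = 2 * (orderOf (-z) * d) := by rw [hc, hd]; ring
          omega
        · exfalso
          have h2e : 2 ^ e ∣ orderOf (-z) * c := hc ▸ pow_padicValNat_dvd
          exact hnd (((Nat.Coprime.pow_left e (Nat.coprime_two_left.2 hcodd)).dvd_of_dvd_mul_right h2e).trans ho1)
      obtain ⟨d, hd⟩ := hv
      have : 2 ^ (e + 1) ∣ n := ⟨d, by rw [hdim, hd, pow_succ]; ring⟩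
      have := (padicValNat_dvd_iff_le hn0).1 this
      omega

end Cfsg.Agent.S5964
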