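import Cfsg.Statements.S5965
import Cfsg.Agent.GeomClasses.SubfieldPrimeOrder
import Cfsg.Agent.GeomClasses.SubspaceDerange
import Cfsg.Agent.GeomClasses.OrthPairing

set_option autoImplicit false
open scoped MatrixGroups
open Cfsg

namespace Cfsg.Agent.S5965

/-- Elements of odd prime order r ≠ p of PSL_n(q) and subfield subgroups. Here `T = PSL_n(F)` for a field `F` with `q = p^f` elements (`n ≥ 2`, `(n, q) ≠ (2, 2), (2, 3)`), `F₀` is the subfield with `q₀` elements where `q = q₀^k` for a prime `k`, and `H` is the subgroup of matrices of determinant 1 lying in the subfield group of `F₀` (invertible matrices over `F₀` times scalars) — a maximal subgroup of type GL_n(q₀) (the case `n = 2`, `q₀ = 2` is excluded); Ω is the set of `T`-conjugates of `H` (cosets of `H`), so an element of `T` of prime order `r` (a matrix `x` of determinant 1 with `x^r` scalar, `x` not scalar) fixes a point of Ω when some conjugate of `x` by a matrix of determinant 1 lies in `H`. Let `r ≠ p` be an odd prime dividing the index of `H`, with `(n, r) ≠ (6, 3)`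 and, when `r = k` divides `q₀ − 1`, with `(n)_r ≤ (q − 1)_r`. Then every element of `T` of order `r` is conjugate in `T` into `H` if and only if `r = k`, or `k = 2`, `r = n ∈ {3, 5}` and `(q₀ + 1)_r = r`. The two excluded cases, `(n, r) = (6, 3)` and `r = k ∣ q₀ − 1` with `(n)_r > (q − 1)_r`, are ones where this criterion can fail, so they are left out. -/
theorem result {F : Type*} [Field F] [Fintype F] {p : ℕ} [Fact p.Prime] [CharP F p] {q : ℕ} (hq : Fintype.card F = q)
    (n : ℕ) (hn : 2 ≤ n) (hT : (n, q) ≠ (2, 2) ∧ (n, q) ≠ (2, 3))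
    (F₀ : Subfield F) (k q₀ : ℕ) (hk : k.Prime) (hF₀ : Nat.card ↥F₀ = q₀) (hqk : q = q₀ ^ k) (hC5 : ¬ (n = 2 ∧ q₀ = 2)) (r : ℕ) [Fact r.Prime] (hr2 : r ≠ 2) (hrp : r ≠ p) (hgap : ¬ (n = 6 ∧ r = 3)) (hgapk : r = k → r ∣ q₀ - 1 → padicValNat r n ≤ padicValNat r (q - 1)) (hΩ : r ∣ ((Cfsg.Geo.subfieldSubgroup F₀ 1).comap (Matrix.SpecialLinearGroup.toGL : Matrix.SpecialLinearGroup (Fin n) F →* GL (Fin n) F)).index) :
    (∀ x : Matrix.SpecialLinearGroup (Fin n) F,
      (∃ z : F, ((x ^ r : Matrix.SpecialLinearGroup (Fin n) F) : Matrix (Fin n) (Fin n) F) = z • (1 : Matrix (Fin n) (Fin n) F)) →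
      (∀ z : F, (x : Matrix (Fin n) (Fin n) F) ≠ z • (1 : Matrix (Fin n) (Fin n) F)) →
      ∃ P : Matrix.SpecialLinearGroup (Fin n) F, P⁻¹ * x * P ∈ ((Cfsg.Geo.subfieldSubgroup F₀ 1).comap (Matrix.SpecialLinearGroup.toGL : Matrix.SpecialLinearGroup (Fin n) F →* GL (Fin n) F))) ↔
    (r = k ∨ (k = 2 ∧ r = n ∧ (n = 3 ∨ n = 5) ∧ padicValNat r (q₀ + 1) = 1)) := by
  classical

  have hr0 := (Fact.out : r.Prime)
  have hp := (Fact.out : p.Prime)
  have hn1 : 1 ≤ n := by omega
  haveI := Fintype.ofFinite F₀
  have hF₀' : Fintype.card F₀ = q₀ := by rw [← hF₀, Nat.card_eq_fintype_card]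
  have hq0 : 1 < q₀ := hF₀' ▸ Fintype.one_lt_card
  have hq1 : 1 < q := hq ▸ Fintype.one_lt_card
  obtain ⟨f₀, -, hf₀⟩ := FiniteField.card F p
  have hnn : q = p ^ (f₀ : ℕ) := hq.symm.trans hf₀
  have hrq : ¬ r ∣ q := fun hd => hrp ((Nat.prime_dvd_prime_iff_eq hr0 hp).1 (hr0.dvd_of_dvd_pow (hnn ▸ hd)))
  have hrq0 : ¬ r ∣ q₀ := fun hd => hrq (hqk ▸ hd.trans (dvd_pow_self _ hk.ne_zero))
  have hrF : (r : F) ≠ 0 := fun hd => hrp ((Nat.prime_dvd_prime_iff_eq hp hr0).1 ((CharP.cast_eq_zero_iff F p r).1 hd)).symm
  have hrodd : Odd r := hr0.odd_of_ne_two hr2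
  set u : ZMod r := (q₀ : ZMod r) with hu
  have hu0 : u ≠ 0 := fun e => hrq0 ((ZMod.natCast_eq_zero_iff _ _).1 e)
  have hqu : (q : ZMod r) = u ^ k := by rw [hqk, Nat.cast_pow]
  have hdvd : ∀ (a j : ℕ), 1 ≤ a → (r ∣ a ^ j - 1 ↔ (a : ZMod r) ^ j = 1) := fun a j ha => by
    rw [← ZMod.natCast_eq_zero_iff, Nat.cast_sub (Nat.one_le_pow _ _ ha)]
    push_cast
    rw [sub_eq_zero]
  constructor
  · intro h
    by_contra hneg
    push_neg at hneg
    obtain ⟨hrk, hneg⟩ := hneg
    obtain ⟨m, hm2, hmn, hmq, hm0⟩ :=
      GeomClasses.SubfieldPrimeOrder.index_factor hn hq hF₀ hqk hk hrk hrq hΩ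
    rw [hdvd q m (by omega), hqu, ← pow_mul] at hmq
    rw [hdvd q₀ m (by omega)] at hm0
    have huk : orderOf (u ^ m) = k := by
      haveI := Fact.mk hk
      exact orderOf_eq_prime (by rw [← pow_mul, mul_comm]; exact hmq) hm0
    have hki : k ∣ orderOf u := huk ▸ orderOf_pow_dvd m
    set i := orderOf (q : ZMod r) with hidef
    have hi : orderOf u = k * i := by
      rw [hidef, hqu, orderOf_pow_of_dvd hk.ne_zero hki, Nat.mul_div_cancel' hki]
    have him : i ∣ m := orderOf_dvd_of_pow_eq_one (by rw [hqu, ← pow_mul]; exact hmq)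
    have hin : i ≤ n := (Nat.le_of_dvd (by omega) him).trans hmn
    obtain ⟨hi0, -⟩ := GeomClasses.SubspaceDerange.dvd_pow_sub_one hrq hidef
    have use_x : ∀ M : Matrix (Fin n) (Fin n) F, M.det = 1 → ∀ z : F, M ^ r = z • 1 → (∀ z : F, M ≠ z • 1) →
        ∃ c : F, c ≠ 0 ∧ (∀ d ∈ F₀, ∀ j, ((d * c) • M).charpoly.coeff j ∈ F₀) ∧ c ^ r * z ∈ F₀ := by
      intro M hd z hz hns
      obtain ⟨P, hP⟩ := h ⟨M, hd⟩ ⟨z, (Matrix.SpecialLinearGroup.coe_pow (⟨M, hd⟩ : Matrix.SpecialLinearGroup (Fin n) F) r).trans hz⟩ hns
      obtain ⟨c, hc, hc1, hc2⟩ := GeomClasses.SubfieldPrimeOrder.of_mem hn1 hP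
      exact ⟨c, hc, hc1, hc2 r z hz⟩
    let i0 : Fin n := ⟨0, by omega⟩
    let i1 : Fin n := ⟨1, by omega⟩
    rcases eq_or_ne i 1 with hi1 | hi1
    · rw [hi1, mul_one] at hi
      have hr1q : r ∣ q - 1 := GeomClasses.SubspaceDerange.dvd_sub_one_of_order hrq (hidef ▸ hi1)
      have hfixeq : ∀ (c a b : F) (s : ℕ), c ≠ 0 → a ≠ 0 → b ≠ 0 → a ^ r = b ^ r → (c * a) ^ (q₀ ^ s) = c * a →
          (c * b) ^ (q₀ ^ s) = c * b → ¬ k ∣ s → a = b := by
        intro c a b s hc ha hb hab hA hB hks
        set ρ := a / b with hρ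
        have hρr : ρ ^ r = 1 := by rw [hρ, div_pow, hab, div_self (pow_ne_zero _ hb)]
        have hρ0 : ρ ≠ 0 := div_ne_zero ha hb
        have hρs : ρ ^ (q₀ ^ s - 1) = 1 := mul_left_cancel₀ hρ0 (by
          rw [← pow_succ', Nat.sub_add_cancel (Nat.one_le_pow _ _ (by omega)), mul_one, hρ,
            show a / b = c * a / (c * b) from (mul_div_mul_left a b hc).symm, div_pow, hA, hB])
        have hg : Nat.gcd r (q₀ ^ s - 1) = 1 := (hr0.coprime_iff_not_dvd).2 fun hd =>
          hks (hi ▸ orderOf_dvd_of_pow_eq_one ((hdvd q₀ s (by omega)).1 hd))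
        have h1 := pow_gcd_eq_one.2 ⟨hρr, hρs⟩
        rw [hg, pow_one] at h1
        exact (div_eq_one_iff_eq hb).1 h1
      have use_diag : ∀ (d : Fin n → F) (z : F), ∏ j, d j = 1 → (∀ j, d j ^ r = z) → (∃ j l, d j ≠ d l) →
          ((∀ j l, (Finset.univ.filter fun t => d t = d j).card = (Finset.univ.filter fun t => d t = d l).card → d j = d l) ∨
            (n = 2 ∧ k ≠ 2)) → False := by
        intro d z hd hdr ⟨j, l, hjl⟩ hfib
        obtain ⟨c, hc, hco, -⟩ := use_x (Matrix.diagonal d) (by rw [Matrix.det_diagonal, hd]) z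
          (by rw [Matrix.diagonal_pow, Matrix.smul_one_eq_diagonal]; exact congrArg _ (funext hdr))
          (fun t e => hjl (by
            have e0 := congrFun (congrFun e j) j
            have e1 := congrFun (congrFun e l) l
            simp at e0 e1
            rw [e0, e1]))
        replace hco := hco 1 F₀.one_mem
        rw [one_mul, ← Matrix.diagonal_smul] at hco
        have hd0 : ∀ t, d t ≠ 0 := fun t e => by
          have := hd ▸ Finset.prod_eq_zero (Finset.mem_univ t) e
          exact one_ne_zero this
        have hperm := GeomClasses.SubfieldPrimeOrder.perm_roots hF₀ (c • d) hco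
        simp only [Pi.smul_apply, smul_eq_mul, mul_right_inj' hc] at hperm
        rcases hfib with hfib | ⟨hn2, hk2⟩
        · have hall : ∀ t, (c * d t) ^ (q₀ ^ 1) = c * d t := fun t => by
            obtain ⟨t', ht', hcard⟩ := hperm t
            rw [pow_one, ← ht', hfib t t' hcard]
          exact hjl (hfixeq c _ _ 1 hc (hd0 j) (hd0 l) ((hdr j).trans (hdr l).symm) (hall j) (hall l) hk.not_dvd_one)
        · subst n
          have htwo : ∀ t, d t = d j ∨ d t = d l := by
            intro t
            have hjl' : j ≠ l := fun e => hjl (by rw [e])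
            rcases (show t = j ∨ t = l by omega) with rfl | rfl
            · exact Or.inl rfl
            · exact Or.inr rfl
          obtain ⟨tj, htj, -⟩ := hperm j
          obtain ⟨tl, htl, -⟩ := hperm l
          have hinj : ∀ a b : F, a ^ q₀ = b ^ q₀ → a = b := fun a b e => by
            have e1 := congrArg (· ^ q₀ ^ (k - 1)) e
            simp only [← pow_mul, ← pow_succ', Nat.sub_add_cancel hk.one_le, ← hqk] at e1
            rwa [← hq, FiniteField.pow_card, FiniteField.pow_card] at e1
          have hne : ¬ d tj = d tl := fun e => hjl (mul_left_cancel₀ hc (hinj _ _ (by rw [← htj, ← htl, e])))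
          refine hjl (hfixeq c _ _ 2 hc (hd0 j) (hd0 l) ((hdr j).trans (hdr l).symm) ?_ ?_
            (fun hd2 => hk2 ((Nat.prime_dvd_prime_iff_eq hk Nat.prime_two).1 hd2))) <;>
            rw [pow_two, pow_mul]
          · rcases htwo tj with e | e <;> rw [← htj, e]
            · rw [← htj, e]
            · rcases htwo tl with e' | e'
              · rw [← htl, e']
              · exact absurd (e.trans e'.symm) hne
          · rcases htwo tl with e | e <;> rw [← htl, e]
            · rcases htwo tj with e' | e'
              · exact absurd (e'.trans e.symm) hne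
              · rw [← htj, e']
            · rw [← htl, e]
      have two : ∀ (a : ℕ) (A B z : F), 1 ≤ a → a < n → (a ≠ n - a ∨ (n = 2 ∧ k ≠ 2)) → A ≠ B →
          A ^ a * B ^ (n - a) = 1 → A ^ r = z → B ^ r = z → False := by
        intro a A B z ha han hne hAB hd hA hB
        have hc1 : (Finset.univ.filter fun j : Fin n => (j : ℕ) < a).card = a := by
          rw [Fin.card_filter_val_lt, min_eq_right han.le]
        have hc2 : (Finset.univ.filter fun j : Fin n => ¬ (j : ℕ) < a).card = n - a := by
          have := Finset.card_filter_add_card_filter_not (s := Finset.univ) (fun j : Fin n => (j : ℕ) < a)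
          rw [hc1, Finset.card_univ, Fintype.card_fin] at this
          omega
        have hf : ∀ j : Fin n, (Finset.univ.filter fun l : Fin n => (if (l : ℕ) < a then A else B) = if (j : ℕ) < a then A else B).card =
            if (j : ℕ) < a then a else n - a := fun j => by
          by_cases hj : (j : ℕ) < a <;> simp only [hj, if_true, if_false]
          · rw [Finset.filter_congr (q := fun l : Fin n => (l : ℕ) < a) fun l _ => by split_ifs <;> simp [*, Ne.symm hAB]]
            exact hc1
          · rw [Finset.filter_congr (q := fun l : Fin n => ¬ (l : ℕ) < a) fun l _ => by split_ifs <;> simp [*]]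
            exact hc2
        refine use_diag (fun j => if (j : ℕ) < a then A else B) z ?_ (fun j => by split_ifs <;> assumption)
          ⟨i0, ⟨n - 1, by omega⟩, ?_⟩ (hne.imp_left fun hne j l hjl => ?_)
        · rw [Finset.prod_ite, Finset.prod_const, Finset.prod_const, hc1, hc2, hd]
        · dsimp only [i0]
          rw [if_pos (by omega), if_neg (by omega)]
          exact hAB
        · rw [hf, hf] at hjl
          split_ifs at hjl ⊢ <;> first | rfl | omega
      obtain ⟨w, hw⟩ := exists_prime_orderOf_dvd_card' (G := Fˣ) r (by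
        rwa [Nat.card_units, Nat.card_eq_fintype_card (α := F), hq])
      set ω := (w : F) with hω
      have hωr : ω ^ r = 1 := by rw [hω, ← Units.val_pow_eq_pow_val, ← hw, pow_orderOf_eq_one, Units.val_one]
      have hωk : ∀ k, ω ^ k = 1 → r ∣ k := fun k hk => hw ▸ orderOf_dvd_of_pow_eq_one (Units.ext (by simpa [hω] using hk))
      have hω1 : ω ≠ 1 := fun e => hr0.one_lt.ne' (Nat.dvd_one.1 (hωk 1 (by rw [pow_one, e])))
      by_cases hrn : r ∣ n
      · obtain ⟨k', rfl⟩ := hrn
        by_cases hk1 : k' = 1 ∧ (r = 3 ∨ r = 5)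
        · obtain ⟨rfl, hr35⟩ := hk1
          have hk2 : k = 2 := by
            have h1 : k ∣ r - 1 := hi ▸ ZMod.orderOf_dvd_card_sub_one hu0
            rcases hr35 with rfl | rfl
            · exact (Nat.prime_dvd_prime_iff_eq hk Nat.prime_two).1 h1
            · exact (Nat.prime_dvd_prime_iff_eq hk Nat.prime_two).1 (hk.dvd_of_dvd_pow (show k ∣ 2 ^ 2 from h1))
          have hrplus : r ∣ q₀ + 1 := by
            have h1 : u ^ 2 = 1 := by
              have := pow_orderOf_eq_one u
              rwa [hi, hk2] at this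
            have h2 : u ≠ 1 := fun e => hk.one_lt.ne (by rw [← hi, e, orderOf_one])
            rw [← ZMod.natCast_eq_zero_iff]
            push_cast
            rw [← hu]
            rcases sq_eq_one_iff.1 h1 with e | e
            · exact absurd e h2
            · rw [e]; ring
          have hv : 2 ≤ padicValNat r (q₀ + 1) := by
            have h1 := one_le_padicValNat_of_dvd (by omega : q₀ + 1 ≠ 0) hrplus
            have := hneg hk2 (mul_one r).symm (by rcases hr35 with rfl | rfl <;> simp)
            omega
          have hr2d : r ^ 2 ∣ q - 1 := by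
            rw [hqk, hk2, show q₀ ^ 2 - 1 = (q₀ + 1) * (q₀ - 1) by simpa using Nat.sq_sub_sq q₀ 1]
            exact ((padicValNat_dvd_iff_le (by omega)).2 hv).mul_right _
          obtain ⟨v, hv'⟩ := IsCyclic.exists_generator (α := Fˣ)
          have hordv : orderOf v = q - 1 := by
            rw [orderOf_eq_card_of_forall_mem_zpowers hv', Nat.card_units, Nat.card_eq_fintype_card (α := F), hq]
          obtain ⟨s, hs⟩ := hr2d
          set W := v ^ s with hW
          have hWord : orderOf W = r ^ 2 := by
            rw [hW, orderOf_pow_of_dvd (fun e => by rw [e, mul_zero] at hs; omega) (by rw [hordv, hs]; exact dvd_mul_left _ _), hordv, hs,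
              Nat.mul_div_cancel _ (Nat.pos_of_ne_zero fun e => by rw [e, mul_zero] at hs; omega)]
          have hz0 : (W : F) ^ r ≠ 0 := pow_ne_zero _ W.ne_zero
          have hWr : (W : F) ^ r ≠ 1 := fun e => by
            have := orderOf_dvd_of_pow_eq_one (show W ^ r = 1 from Units.ext (by simpa using e))
            rw [hWord] at this
            exact absurd (Nat.le_of_dvd hr0.pos this) (by have := hr0.two_le; nlinarith)
          have hWrr : ((W : F) ^ r) ^ r = 1 := by
            rw [← pow_mul, ← pow_two, ← Units.val_pow_eq_pow_val, ← hWord, pow_orderOf_eq_one, Units.val_one]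
          refine two (r - 1) (W : F) ((W : F) / (W : F) ^ r) ((W : F) ^ r) ?_ ?_ ?_ ?_ ?_ rfl ?_
          all_goals simp only [mul_one] at *
          · omega
          · omega
          · exact Or.inl (by omega)
          · intro e
            rw [eq_div_iff hz0] at e
            exact hWr (mul_left_cancel₀ W.ne_zero (e.trans (mul_one _).symm))
          · rw [show r - (r - 1) = 1 by omega, pow_one, mul_div_assoc', ← pow_succ, show r - 1 + 1 = r by omega, div_self hz0]
          · rw [div_pow, hWrr, div_one]
        · have hk0 : 1 ≤ k' := Nat.one_le_iff_ne_zero.2 fun e => by rw [e, mul_zero] at hn; omega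
          by_cases h3 : r = 3
          · subst h3
            have hk3 : 3 ≤ k' := by
              by_contra hlt
              interval_cases k'
              · exact hk1 ⟨rfl, Or.inl rfl⟩
              · exact hgap ⟨rfl, rfl⟩
            exact two 3 ω 1 1 (by omega) (by omega) (Or.inl (by omega)) hω1 (by rw [one_pow, mul_one, hωr]) hωr (one_pow _)
          have hr5 : 5 ≤ r := by
            rcases hrodd with ⟨t, rfl⟩
            have := hr0.two_le
            omega
          have hn7 : 7 ≤ r * k' := by
            by_contra hlt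
            have hk : k' = 1 := by nlinarith
            subst hk
            have h55 : r = 5 := by
              rcases (show r = 5 ∨ r = 6 by omega) with h | h
              · exact h
              · rw [h] at hr0; exact absurd hr0 (by norm_num)
            exact hk1 ⟨rfl, Or.inr h55⟩
          obtain ⟨t, ht⟩ := hrodd
          set C := ω ^ t
          have hC1 : C ≠ 1 := fun e => by have := Nat.le_of_dvd (by omega) (hωk t e); omega
          have hBC : ω ≠ C := fun e => by
            have hm1 : ω ^ (t - 1) = 1 := mul_left_cancel₀ (w.ne_zero) (by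
              rw [← pow_succ', show t - 1 + 1 = t by omega, mul_one]; exact e.symm)
            have := Nat.le_of_dvd (by omega) (hωk _ hm1); omega
          let d : Fin (r * k') → F := fun j => if j = i0 then ω else if (j : ℕ) < 3 then C else 1
          let i2 : Fin (r * k') := ⟨2, by omega⟩
          have hfA : (Finset.univ.filter fun l => d l = ω) = {i0} := by
            ext l; simp only [Finset.mem_filter, Finset.mem_univ, true_and, Finset.mem_singleton, d]
            split_ifs with h1 h3'
            · simp [h1]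
            · simp only [h1, iff_false]; exact Ne.symm hBC
            · simp only [h1, iff_false]; exact Ne.symm hω1
          have hfC : (Finset.univ.filter fun l => d l = C) = {i1, i2} := by
            ext l; simp only [Finset.mem_filter, Finset.mem_univ, true_and, Finset.mem_insert, Finset.mem_singleton, d, i0, i1, i2, Fin.ext_iff]
            split_ifs with h1 h3'
            · simp [hBC, h1]
            · simp; omega
            · simp [Ne.symm hC1]; omega
          have hfB : (Finset.univ.filter fun l => d l = 1).card = r * k' - 3 := by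
            have hsub : (Finset.univ.filter fun l => d l = 1) = Finset.univ.filter fun l : Fin (r * k') => ¬ (l : ℕ) < 3 := by
              refine Finset.filter_congr fun l _ => ?_
              simp only [d, i0, Fin.ext_iff]
              split_ifs with h1 h3'
              · simp [hω1]; omega
              · simp [hC1, h3']
              · simp [h3']
            have h3c : (Finset.univ.filter fun l : Fin (r * k') => (l : ℕ) < 3).card = 3 := by
              rw [Fin.card_filter_val_lt, min_eq_right (by omega)]
            have := Finset.card_filter_add_card_filter_not (s := Finset.univ) (fun l : Fin (r * k') => (l : ℕ) < 3)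
            rw [h3c, Finset.card_univ, Fintype.card_fin] at this
            rw [hsub]; omega
          have hval : ∀ j, d j = ω ∨ d j = C ∨ d j = 1 := fun j => by simp only [d]; split_ifs <;> simp
          have hdr : ∀ j, d j ^ r = 1 := fun j => by
            rcases hval j with e | e | e <;> rw [e]
            · exact hωr
            · rw [← pow_mul, mul_comm, pow_mul, hωr, one_pow]
            · exact one_pow r
          refine use_diag d 1 ?_ hdr ⟨i0, i1, ?_⟩ (Or.inl fun j k'' hjk => ?_)
          · rw [← Finset.prod_filter_mul_prod_filter_not Finset.univ (fun l => d l = ω),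
              ← Finset.prod_filter_mul_prod_filter_not (Finset.univ.filter fun l => ¬ d l = ω) (fun l => d l = C)]
            rw [Finset.prod_congr rfl (g := fun _ => ω) fun l hl => (Finset.mem_filter.1 hl).2, hfA,
              Finset.prod_const, Finset.card_singleton, pow_one]
            rw [show ((Finset.univ.filter fun l => ¬ d l = ω).filter fun l => d l = C) = {i1, i2} by
              rw [← hfC, Finset.filter_filter]
              exact Finset.filter_congr fun l _ => ⟨fun h => h.2, fun h => ⟨by rw [h]; exact Ne.symm hBC, h⟩⟩]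
            rw [Finset.prod_congr rfl (g := fun _ => C) (s₁ := {i1, i2}) fun l hl => (Finset.mem_filter.1 ((Finset.ext_iff.1 hfC l).2 hl)).2,
              Finset.prod_const, Finset.card_pair (by simp [i1, i2, Fin.ext_iff]),
              Finset.prod_eq_one fun l hl => ?_, mul_one, ← pow_mul, ← pow_succ', ← mul_comm 2, ← ht, hωr]
            simp only [Finset.mem_filter] at hl
            rcases hval l with e | e | e
            · exact absurd e hl.1.2
            · exact absurd e hl.2
            · exact e
          · simp [d, i0, i1, Fin.ext_iff, hBC]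
          · rcases hval j with e | e | e <;> rcases hval k'' with e' | e' | e' <;> rw [e, e'] at hjk ⊢ <;>
              simp only [hfA, hfC, hfB, Finset.card_singleton] at hjk <;>
              (try rw [Finset.card_pair (by simp [i1, i2, Fin.ext_iff])] at hjk) <;> omega
      · have hB : ((ω ^ (n - 1))⁻¹) ^ r = 1 := by rw [inv_pow, ← pow_mul, mul_comm, pow_mul, hωr, one_pow, inv_one]
        refine two (n - 1) ω ((ω ^ (n - 1))⁻¹) 1 (by omega) (by omega) ?_ ?_ ?_ hωr hB
        · by_cases hn2 : n = 2
          · refine Or.inr ⟨hn2, fun hk2 => hm0 ?_⟩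
            obtain rfl : m = 2 := by omega
            exact orderOf_dvd_iff_pow_eq_one.1 (by rw [hi, hk2])
          · exact Or.inl (by omega)
        · intro e
          refine hrn (hωk n ?_)
          rw [show n = n - 1 + 1 by omega, pow_succ']
          nth_rewrite 1 [e]
          exact inv_mul_cancel₀ (pow_ne_zero _ w.ne_zero)
        · rw [show n - (n - 1) = 1 by omega, pow_one, mul_inv_cancel₀ (pow_ne_zero _ w.ne_zero)]
    -- no roots of unity of order `r`
    have hr1q : ¬ r ∣ q - 1 := GeomClasses.SubspaceDerange.not_dvd_sub_one hq (by omega)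
    have hroot : ∀ c : F, c ^ r = 1 → c = 1 := by
      intro c hc
      by_contra hc1
      have hc0 : c ≠ 0 := fun e => by rw [e, zero_pow hr0.pos.ne'] at hc; exact zero_ne_one hc
      have hord := orderOf_eq_prime (G := Fˣ) (x := Units.mk0 c hc0) (Units.ext (by simpa using hc))
        (fun e => hc1 (by simpa using congrArg Units.val e))
      refine hr1q ?_
      have := orderOf_dvd_natCard (Units.mk0 c hc0)
      rwa [hord, Nat.card_units, Nat.card_eq_fintype_card (α := F), hq] at this
    obtain ⟨f, hfm, hfi, hfd⟩ := Polynomial.exists_monic_irreducible_factor (Polynomial.cyclotomic r F)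
      (Polynomial.not_isUnit_of_natDegree_pos _ (by rw [Polynomial.natDegree_cyclotomic, Nat.totient_prime hr0]; have := hr0.two_le; omega))
    have hfdeg : f.natDegree = i := by
      rw [Polynomial.natDegree_of_dvd_cyclotomic_of_irreducible (p := p) (f := f₀) (n := r) hf₀
        ((Nat.coprime_primes hp hr0).2 (Ne.symm hrp)) hfd hfi, ← orderOf_units, ZMod.coe_unitOfCoprime, ← hnn]
    have hfX : f ∣ Polynomial.X ^ r - 1 := hfd.trans ⟨_, (Polynomial.cyclotomic_prime_mul_X_sub_one F r).symm⟩
    set P : Polynomial F := (Polynomial.X - 1) ^ (n - i) * f with hP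
    have hX1 : (Polynomial.X - 1 : Polynomial F).Monic := by
      rw [← Polynomial.C_1]; exact Polynomial.monic_X_sub_C 1
    have hPm : P.Monic := (hX1.pow _).mul hfm
    have hPdeg : P.natDegree = n := by
      rw [hP, (hX1.pow _).natDegree_mul hfm, hX1.natDegree_pow, hfdeg, ← Polynomial.C_1, Polynomial.natDegree_X_sub_C]
      omega
    have hP0 : P.coeff 0 ≠ 0 := by
      intro e
      rw [hP, Polynomial.mul_coeff_zero, mul_eq_zero] at e
      rcases e with e | e
      · rw [Polynomial.coeff_zero_eq_eval_zero] at e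
        simp at e
      · have h1 : (Polynomial.X ^ r - 1 : Polynomial F).coeff 0 = 0 := by
          obtain ⟨g, hg⟩ := hfX
          rw [hg, Polynomial.mul_coeff_zero, e, zero_mul]
        simp [hr0.pos.ne] at h1
    obtain ⟨a, m', hm', ha, hca⟩ := Forms.exists_semisimple_charpoly n P hPm hPdeg hP0
    set M := LinearMap.toMatrix' a with hM
    have hMc : M.charpoly = P := by rw [hM, ← Matrix.charpoly_toLin', Matrix.toLin'_toMatrix', hca]
    have hMr : M ^ r = 1 := by
      have h1 : minpoly F M ∣ Polynomial.X ^ m' - 1 := minpoly.dvd F M (by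
        rw [map_sub, map_pow, Polynomial.aeval_X, map_one, hM,
          show LinearMap.toMatrix' a ^ m' = LinearMap.toMatrix' (a ^ m') from (map_pow LinearMap.toMatrixAlgEquiv' a m').symm,
          ha, LinearMap.toMatrix'_one, sub_self])
      have hsq : Squarefree (minpoly F M) := by
        refine Squarefree.squarefree_of_dvd h1 ?_
        have := (Polynomial.separable_X_pow_sub_C (1 : F) hm' one_ne_zero).squarefree
        rwa [Polynomial.C_1] at this
      have h2 : minpoly F M ∣ (Polynomial.X ^ r - 1) ^ (n - i + 1) := by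
        refine (Matrix.minpoly_dvd_charpoly M).trans ?_
        rw [hMc, hP, pow_succ]
        exact mul_dvd_mul (pow_dvd_pow_of_dvd ⟨_, (mul_geom_sum Polynomial.X r).symm⟩ _) hfX
      obtain ⟨g, hg⟩ := (hsq.dvd_pow_iff_dvd (Nat.succ_ne_zero _)).1 h2
      have h3 := congrArg (Polynomial.aeval M) hg
      rw [map_mul, minpoly.aeval, zero_mul, map_sub, map_pow, Polynomial.aeval_X, map_one, sub_eq_zero] at h3
      exact h3
    have hMd : M.det = 1 := hroot _ (by rw [← Matrix.det_pow, hMr, Matrix.det_one])
    have hns : ∀ l : F, M ≠ l • 1 := by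
      intro l e
      have h1 : f ∣ (Polynomial.X - Polynomial.C l) ^ n := by
        have h2 : M.charpoly = (Polynomial.X - Polynomial.C l) ^ n := by
          rw [e, Matrix.smul_one_eq_diagonal, Matrix.charpoly_diagonal, Finset.prod_const, Finset.card_univ, Fintype.card_fin]
        rw [← h2, hMc]
        exact dvd_mul_left _ _
      have h3 := Polynomial.natDegree_le_of_dvd (hfi.prime.dvd_of_dvd_pow h1) (Polynomial.X_sub_C_ne_zero l)
      rw [Polynomial.natDegree_X_sub_C, hfdeg] at h3
      omega
    obtain ⟨c, hc, hco, hcr⟩ := use_x M hMd 1 (by rw [one_smul, hMr]) hns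
    rw [mul_one] at hcr
    have hcF : c ∈ F₀ := by
      rw [GeomClasses.SubfieldPrimeOrder.mem_iff hF₀]
      have h1 := (GeomClasses.SubfieldPrimeOrder.mem_iff hF₀ _).1 hcr
      have h2 : (c ^ q₀ / c) ^ r = 1 := by
        rw [div_pow, ← pow_mul, mul_comm, pow_mul, h1, div_self (pow_ne_zero _ hc)]
      exact (div_eq_one_iff_eq hc).1 (hroot _ h2)
    let σ : F →+* F := (FiniteField.frobeniusAlgHom F₀ F).toRingHom
    have hσ : ∀ b, σ b = b ^ q₀ := fun b => by
      show FiniteField.frobeniusAlgHom F₀ F b = _
      rw [FiniteField.coe_frobeniusAlgHom, hF₀']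
    have hPσ : P.map σ = P := by
      ext j
      rw [Polynomial.coeff_map, hσ, ← hMc]
      have h1 := hco c⁻¹ (F₀.inv_mem hcF) j
      rw [inv_mul_cancel₀ hc, one_smul] at h1
      exact (GeomClasses.SubfieldPrimeOrder.mem_iff hF₀ _).1 h1
    have hbij : Function.Bijective σ := Finite.injective_iff_bijective.1 σ.injective
    have hfσi : Irreducible (f.map σ) :=
      (MulEquiv.irreducible_iff (f := (Polynomial.mapEquiv (RingEquiv.ofBijective σ hbij)))).2 hfi
    have hfσ : f.map σ = f := by
      have h1 : f.map σ ∣ P := hPσ ▸ Polynomial.map_dvd σ (dvd_mul_left _ _)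
      rcases hfσi.prime.dvd_or_dvd h1 with h1 | h1
      · exfalso
        have h3 := Polynomial.natDegree_le_of_dvd (hfσi.prime.dvd_of_dvd_pow h1) hX1.ne_zero
        rw [Polynomial.natDegree_map, ← Polynomial.C_1, Polynomial.natDegree_X_sub_C, hfdeg] at h3
        omega
      · exact Polynomial.eq_of_monic_of_dvd_of_natDegree_le (hfm.map σ) hfm h1 (by rw [Polynomial.natDegree_map]) |>.symm
    obtain ⟨g, hg, hgdeg, hgm⟩ := Polynomial.lifts_and_degree_eq_and_monic
      ((Polynomial.lifts_iff_coeff_lifts _).2 fun j => ⟨⟨f.coeff j, (GeomClasses.SubfieldPrimeOrder.mem_iff hF₀ _).2 (by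
        conv_rhs => rw [← hfσ]
        rw [Polynomial.coeff_map, hσ])⟩, rfl⟩ : f ∈ Polynomial.lifts F₀.subtype) hfm
    have hgi : Irreducible g := hgm.irreducible_of_irreducible_map F₀.subtype g (hg ▸ hfi)
    have hgd : g.natDegree = i := (Polynomial.natDegree_eq_of_degree_eq hgdeg).trans hfdeg
    haveI := Fact.mk hgi
    haveI : Module.Finite F₀ (AdjoinRoot g) := (AdjoinRoot.powerBasis hgi.ne_zero).finite
    haveI : Finite (AdjoinRoot g) := Module.finite_of_finite F₀
    have hgX : g ∣ Polynomial.X ^ r - 1 := (Polynomial.map_dvd_map F₀.subtype F₀.subtype.injective hgm).1 (by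
      rw [hg, Polynomial.map_sub, Polynomial.map_pow, Polynomial.map_X, Polynomial.map_one]; exact hfX)
    set θ := AdjoinRoot.root g with hθ
    have hθr : θ ^ r = 1 := by
      have h1 := (AdjoinRoot.mk_eq_zero).2 hgX
      rwa [map_sub, map_pow, AdjoinRoot.mk_X, map_one, sub_eq_zero] at h1
    have hθ1 : θ ≠ 1 := fun e => by
      have h1 : g ∣ Polynomial.X - 1 := (AdjoinRoot.mk_eq_zero).1 (by rw [map_sub, AdjoinRoot.mk_X, map_one, ← hθ, e, sub_self])
      have h3 := Polynomial.natDegree_le_of_dvd h1 (by rw [← Polynomial.C_1]; exact Polynomial.X_sub_C_ne_zero 1)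
      rw [hgd, ← Polynomial.C_1, Polynomial.natDegree_X_sub_C] at h3
      omega
    have hθ0 : θ ≠ 0 := fun e => by rw [e, zero_pow hr0.pos.ne'] at hθr; exact zero_ne_one hθr
    have hord := orderOf_eq_prime (G := (AdjoinRoot g)ˣ) (x := Units.mk0 θ hθ0) (Units.ext (by simpa using hθr))
      (fun e => hθ1 (by simpa using congrArg Units.val e))
    have h1 := orderOf_dvd_natCard (Units.mk0 θ hθ0)
    rw [hord, Nat.card_units, Module.natCard_eq_pow_finrank (K := F₀), hF₀, (AdjoinRoot.powerBasis hgi.ne_zero).finrank,
      AdjoinRoot.powerBasis_dim, hgd, hdvd q₀ i (by omega)] at h1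
    have h2 := Nat.le_of_dvd (by omega) (orderOf_dvd_of_pow_eq_one h1)
    rw [hi] at h2
    have := hk.two_le
    nlinarith
  · intro hrhs x ⟨z, hz⟩ hns
    rw [Matrix.SpecialLinearGroup.coe_pow] at hz
    haveI : Nonempty (Fin n) := ⟨⟨0, hn1⟩⟩
    have hz0 : z ≠ 0 := by
      rintro rfl
      have := congrArg Matrix.det hz
      rw [Matrix.det_pow, x.2, one_pow, zero_smul, Matrix.det_zero] at this
      exact one_ne_zero this
    have hT : Matrix.toLin' (x : Matrix (Fin n) (Fin n) F) ^ r = z • 1 := by
      show Matrix.toLinAlgEquiv' (x : Matrix (Fin n) (Fin n) F) ^ r = _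
      rw [← map_pow, hz, map_smul, map_one]
    rcases hrhs with rfl | ⟨rfl, rfl, hr35, hv⟩
    · -- `k = r`
      have hqq : q₀ % r = q % r := by
        rw [hqk]
        exact ((ZMod.natCast_eq_natCast_iff' _ _ _).1 (by rw [Nat.cast_pow, ZMod.pow_card])).symm
      obtain ⟨b, hb⟩ : ∃ b : F, b ^ r = z := by
        by_contra hz'
        push_neg at hz'
        obtain ⟨k', hk', hdet, -⟩ := GeomClasses.SubspaceDerange.nonpower hz' hT
        rw [Module.finrank_pi, Fintype.card_fin] at hk'
        rw [LinearMap.det_toLin', x.2, show ((-1 : F)) ^ (r + 1) = 1 from (Nat.even_add_one.2 (Nat.not_even_iff_odd.2 hrodd)).neg_one_pow,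
          one_mul] at hdet
        have hr1q : r ∣ q - 1 := by
          by_contra hd
          have hco : (Nat.card Fˣ).Coprime r := by
            rw [Nat.card_units, Nat.card_eq_fintype_card (α := F), hq]
            exact ((hr0.coprime_iff_not_dvd).2 hd).symm
          obtain ⟨y, hy⟩ := (powCoprime hco).surjective (Units.mk0 z hz0)
          exact hz' y (by simpa using congrArg Units.val hy)
        have hr10 : r ∣ q₀ - 1 := by
          rw [← Nat.modEq_iff_dvd' (by omega : 1 ≤ q)] at hr1q
          rw [← Nat.modEq_iff_dvd' (by omega : 1 ≤ q₀)]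
          exact hr1q.trans hqq.symm
        have hle := hgapk rfl hr10
        have hk'0 : k' ≠ 0 := by rintro rfl; omega
        rw [hk', padicValNat.mul hr0.ne_zero hk'0, padicValNat.self hr0.one_lt] at hle
        obtain ⟨t, ht⟩ := Nat.gcd_dvd_right k' (q - 1)
        have hg := Nat.gcd_dvd_left k' (q - 1)
        have hg0 : Nat.gcd k' (q - 1) ≠ 0 := Nat.gcd_ne_zero_left hk'0
        have hrt : r ∣ t := by
          by_contra hrt
          have h1 : padicValNat r (q - 1) = padicValNat r (Nat.gcd k' (q - 1)) := by
            conv_lhs => rw [ht]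
            rw [padicValNat.mul hg0 (fun e => hrt (by rw [e]; exact dvd_zero r)), padicValNat.eq_zero_of_not_dvd hrt, add_zero]
          have h2 : padicValNat r (Nat.gcd k' (q - 1)) ≤ padicValNat r k' :=
            (padicValNat_dvd_iff_le hk'0).1 (pow_padicValNat_dvd.trans hg)
          omega
        obtain ⟨y, hy⟩ := (GeomClasses.SubspaceDerange.exists_root_iff hq hr1q hz0).2 (by
          obtain ⟨t', rfl⟩ := hrt
          rw [ht, mul_left_comm, Nat.mul_div_cancel_left _ hr0.pos, pow_mul,
            pow_gcd_eq_one.2 ⟨hdet.symm, hq ▸ FiniteField.pow_card_sub_one_eq_one z hz0⟩, one_pow])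
        exact hz' y hy
      have hb0 : b ≠ 0 := fun e => hz0 (by rw [← hb, e, zero_pow hr0.pos.ne'])
      have hY : (b⁻¹ • (x : Matrix (Fin n) (Fin n) F)) ^ r = 1 := by
        rw [_root_.smul_pow, hz, smul_smul, inv_pow, hb, inv_mul_cancel₀ hz0, one_smul]
      exact GeomClasses.SubfieldPrimeOrder.conj_of_charpoly hn1 x (inv_ne_zero hb0) hrF hY
        (GeomClasses.SubfieldPrimeOrder.coeff_mem hF₀ hq hqq hr0.pos hY)
    · -- `k = 2`, `n = r`
      have hrplus : r ∣ q₀ + 1 := dvd_of_one_le_padicValNat (by omega)
      have hqm : q - 1 = (q₀ + 1) * (q₀ - 1) := by rw [hqk]; simpa using Nat.sq_sub_sq q₀ 1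
      have hrminus : ¬ r ∣ q₀ - 1 := fun hd => by
        have h := Nat.dvd_sub hrplus hd
        rw [show q₀ + 1 - (q₀ - 1) = 2 by omega] at h
        rcases hr35 with rfl | rfl <;> norm_num at h
      have hv2 : padicValNat r (q - 1) = 1 := by
        rw [hqm, padicValNat.mul (by omega) (by omega), padicValNat.eq_zero_of_not_dvd hrminus, hv]
      set X := (x : Matrix (Fin r) (Fin r) F)
      have hdetx : X.det = 1 := x.2
      have hzr : z ^ r = 1 := by
        have := congrArg Matrix.det hz
        rwa [Matrix.det_pow, hdetx, one_pow, Matrix.det_smul, Matrix.det_one, Fintype.card_fin, mul_one, eq_comm] at this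
      have hz1 : z = 1 := by
        by_contra hz1
        have hnoroot : ∀ c : F, c ^ r ≠ z := by
          intro c hc
          have hc0 : c ≠ 0 := fun e => by
            rw [e, zero_pow hr0.pos.ne'] at hc; exact hz0 hc.symm
          have hord : orderOf (Units.mk0 c hc0) = r ^ (1 + 1) := by
            refine orderOf_eq_prime_pow (fun e => hz1 ?_) (Units.ext ?_)
            · have := congrArg Units.val e
              simpa [hc] using this
            · rw [Units.val_pow_eq_pow_val, Units.val_mk0, show r ^ (1 + 1) = r * r by ring, pow_mul, hc, hzr, Units.val_one]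
          have hd := orderOf_dvd_natCard (Units.mk0 c hc0)
          rw [hord, Nat.card_units, Nat.card_eq_fintype_card (α := F), hq, padicValNat_dvd_iff_le (by omega), hv2] at hd
          omega
        obtain ⟨k', hk', hdet, -⟩ := GeomClasses.SubspaceDerange.nonpower hnoroot hT
        rw [Module.finrank_pi, Fintype.card_fin] at hk'
        obtain rfl : k' = 1 := (Nat.eq_of_mul_eq_mul_left hr0.pos (by rw [mul_one]; exact hk')).symm
        rw [LinearMap.det_toLin', hdetx, show ((-1 : F)) ^ (r + 1) = 1 from (Nat.even_add_one.2 (Nat.not_even_iff_odd.2 hrodd)).neg_one_pow,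
          one_mul, pow_one] at hdet
        exact hz1 hdet.symm
      rw [hz1, one_smul] at hz
      obtain ⟨w, hw⟩ := exists_prime_orderOf_dvd_card' (G := Fˣ) r (by
        rw [Nat.card_units, Nat.card_eq_fintype_card (α := F), hq, hqm]; exact hrplus.mul_right _)
      have hω : IsPrimitiveRoot (w : F) r := by
        rw [IsPrimitiveRoot.coe_units_iff, ← hw]; exact IsPrimitiveRoot.orderOf w
      obtain ⟨b, e, hb⟩ := GeomClasses.OrthPreserveDerange.exists_eigen_basis hr0.pos hrF hω hz
      have hdiag : ∀ c : F, LinearMap.toMatrix b b (Matrix.toLin' (c • X)) = Matrix.diagonal fun j => c * (w : F) ^ e j := by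
        intro c
        ext i j
        rw [LinearMap.toMatrix_apply, Matrix.toLin'_apply, Matrix.smul_mulVec, hb, smul_smul, map_smul, Finsupp.smul_apply,
          b.repr_self, Finsupp.single_apply, Matrix.diagonal_apply]
        by_cases h : i = j
        · subst h; simp
        · simp [h, Ne.symm h]
      have hsum : (∑ j, (e j : ZMod r)) = 0 := by
        rw [← Nat.cast_sum, ZMod.natCast_eq_zero_iff, ← hω.pow_eq_one_iff_dvd, ← Finset.prod_pow_eq_pow_sum]
        rw [← hdetx, ← LinearMap.det_toLin', ← LinearMap.det_toMatrix b, show Matrix.toLin' X = Matrix.toLin' ((1 : F) • X) by rw [one_smul],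
          hdiag, Matrix.det_diagonal]
        simp
      obtain ⟨φ, hφ, μ, hμ⟩ := GeomClasses.OrthPairing.exists_pairing hr35 (fun j => (e j : ZMod r)) hsum
      set t := (r + 1) / 2 * μ.val with ht
      have ht2 : ((2 * t : ℕ) : ZMod r) = μ := by
        rw [ht, ← mul_assoc, Nat.mul_div_cancel' (by obtain ⟨s, hs⟩ := hrodd; exact ⟨s + 1, by omega⟩), Nat.cast_mul, Nat.cast_add,
          ZMod.natCast_self, zero_add, Nat.cast_one, one_mul, ZMod.natCast_val, ZMod.cast_id]
      set c : F := ((w : F) ^ t)⁻¹ with hcdef
      have hc : c ≠ 0 := inv_ne_zero (pow_ne_zero _ w.ne_zero)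
      have hcr : c ^ r = 1 := by rw [hcdef, inv_pow, ← pow_mul, mul_comm, pow_mul, hω.pow_eq_one, one_pow, inv_one]
      refine GeomClasses.SubfieldPrimeOrder.conj_of_charpoly hn1 x hc hrF (m := r) (by rw [_root_.smul_pow, hz, hcr, one_smul]) ?_
      intro j
      set ν : Fin r → F := fun j => c * (w : F) ^ e j with hν
      have hch : (c • X).charpoly = ∏ j, (Polynomial.X - Polynomial.C (ν j)) := by
        rw [← Matrix.charpoly_toLin', ← LinearMap.charpoly_toMatrix _ b, hdiag, Matrix.charpoly_diagonal]
      have hνφ : ∀ j, ν j ^ q₀ = ν (φ j) := by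
        intro j
        have hν0 : ν j ≠ 0 := mul_ne_zero hc (pow_ne_zero _ w.ne_zero)
        refine mul_right_cancel₀ hν0 ?_
        have hνr : ν j ^ r = 1 := by rw [hν, mul_pow, hcr, one_mul, ← pow_mul, mul_comm, pow_mul, hω.pow_eq_one, one_pow]
        obtain ⟨s, hs⟩ := hrplus
        rw [← pow_succ, hs, pow_mul, hνr, one_pow, hν, mul_mul_mul_comm, hcdef, ← mul_inv, ← pow_add, ← pow_add,
          show (w : F) ^ (e (φ j) + e j) = (w : F) ^ (t + t) from ?_, inv_mul_cancel₀ (pow_ne_zero _ w.ne_zero)]
        rw [pow_eq_pow_mod _ hω.pow_eq_one, pow_eq_pow_mod (t + t) hω.pow_eq_one]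
        congr 1
        rw [← ZMod.natCast_eq_natCast_iff', Nat.cast_add (e (φ j)), add_comm, hμ j, ← ht2, two_mul]
      rw [GeomClasses.SubfieldPrimeOrder.mem_iff hF₀, hch]
      let σ : F →+* F := (FiniteField.frobeniusAlgHom F₀ F).toRingHom
      have hσ : ∀ b, σ b = b ^ q₀ := fun b => by
        show FiniteField.frobeniusAlgHom F₀ F b = _
        rw [FiniteField.coe_frobeniusAlgHom, hF₀']
      rw [← hσ, ← Polynomial.coeff_map]
      congr 1
      rw [Polynomial.map_prod]
      simp only [Polynomial.map_sub, Polynomial.map_X, Polynomial.map_C, hσ, hνφ]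
      exact Equiv.prod_comp (Function.Involutive.toPerm φ hφ) fun j => Polynomial.X - Polynomial.C (ν j)

end Cfsg.Agent.S5965
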