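import Cfsg.Statements.S5966
import Cfsg.Agent.GeomClasses.SubfieldInvolution
import Cfsg.Agent.KnownA.Jordan.UnipotentClasses

set_option autoImplicit false
open scoped MatrixGroups
open Cfsg
open Matrix

namespace Cfsg.Agent.S5966

/-- Elements of order 3 of PSL_n(q) in characteristic 3 and subfield subgroups. Here `T = PSL_n(F)` for a field `F` with `q` elements, `q` a power of 3 (`n ≥ 2`, `(n, q) ≠ (2, 2), (2, 3)`), `F₀` is the subfield with `q₀` elements where `q = q₀^k` for a prime `k`, and `H` is the subgroup of matrices of determinant 1 lying in the subfield group of `F₀` (invertible matrices over `F₀` times scalars) — a maximal subgroup of type GL_n(q₀) (the case `n = 2`, `q₀ = 2` is excluded); Ω is the set of `T`-conjugates of `H` (cosets of `H`), so an element of `T` of prime order `r` (a matrix `x` of determinant 1 with `x^r` scalar, `x` not scalar) fixes a point of Ω when some conjugate of `x` by a matrix of determinant 1 lies in `H`. Suppose 3 divides the index of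 `H`. Then every element of `T` of order 3 is conjugate in `T` into `H` if and only if `n` is odd, or `n` is even and `k > 2`. -/
theorem result {F : Type*} [Field F] [Fintype F] [CharP F 3] {q : ℕ} (hq : Fintype.card F = q)
    (n : ℕ) (hn : 2 ≤ n) (hT : (n, q) ≠ (2, 3))
    (F₀ : Subfield F) (k q₀ : ℕ) (hk : k.Prime) (hF₀ : Nat.card ↥F₀ = q₀) (hqk : q = q₀ ^ k) (hC5 : ¬ (n = 2 ∧ q₀ = 2)) (hΩ : 3 ∣ ((Cfsg.Geo.subfieldSubgroup F₀ 1).comap (Matrix.SpecialLinearGroup.toGL : Matrix.SpecialLinearGroup (Fin n) F →* GL (Fin n) F)).index) :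
    (∀ x : Matrix.SpecialLinearGroup (Fin n) F,
      (∃ z : F, ((x ^ 3 : Matrix.SpecialLinearGroup (Fin n) F) : Matrix (Fin n) (Fin n) F) = z • (1 : Matrix (Fin n) (Fin n) F)) →
      (∀ z : F, (x : Matrix (Fin n) (Fin n) F) ≠ z • (1 : Matrix (Fin n) (Fin n) F)) →
      ∃ P : Matrix.SpecialLinearGroup (Fin n) F, P⁻¹ * x * P ∈ ((Cfsg.Geo.subfieldSubgroup F₀ 1).comap (Matrix.SpecialLinearGroup.toGL : Matrix.SpecialLinearGroup (Fin n) F →* GL (Fin n) F))) ↔
    (Odd n ∨ (Even n ∧ 2 < k)) := by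
  classical
  have : Fact (Nat.Prime 3) := ⟨Nat.prime_three⟩
  have hn1 : 1 ≤ n := by omega
  haveI : Nonempty (Fin n) := ⟨⟨0, by omega⟩⟩
  have h2F : ringChar F ≠ 2 := by rw [ringChar.eq F 3]; norm_num
  have hroot : ∀ s : F, ∃ u : F, u ^ 3 = s := fun s => (bijective_frobenius F 3).2 s
  constructor
  · intro H
    rcases Nat.even_or_odd n with ⟨h, hh⟩ | ho
    swap
    · exact Or.inl ho
    refine Or.inr ⟨⟨h, hh⟩, lt_of_le_of_ne hk.two_le fun hk2 => ?_⟩
    subst hk2
    have hh0 : 0 < h := by omega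
    obtain ⟨s, hs⟩ := FiniteField.exists_nonsquare h2F
    have hs0 : s ≠ 0 := fun h0 => hs (h0 ▸ IsSquare.zero)
    let e : Fin h ⊕ Fin h ≃ Fin n := finSumFinEquiv.trans (finCongr hh.symm)
    let φ := Matrix.reindexAlgEquiv F F e
    set E0 : Matrix (Fin h ⊕ Fin h) (Fin h ⊕ Fin h) F := Matrix.fromBlocks 0 0 1 0 with hE0
    have hEE : E0 * E0 = 0 := by
      rw [hE0, Matrix.fromBlocks_multiply]; simp
    set E := φ E0 with hE
    have hE2 : E * E = 0 := by rw [hE, ← map_mul, hEE, map_zero]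
    set A : Matrix (Fin n) (Fin n) F := 1 + E with hA
    have hdA : A.det = 1 := by
      rw [hA, hE, ← map_one φ, ← map_add, Matrix.det_reindexAlgEquiv, hE0, ← Matrix.fromBlocks_one,
        Matrix.fromBlocks_add]
      simp
    have hA3 : A ^ 3 = 1 := by
      rw [hA, add_pow_char_of_commute 3 (Commute.one_left _), one_pow, pow_succ, pow_two, hE2, zero_mul, add_zero]
    set P0 : Matrix (Fin n) (Fin n) F := Matrix.diagonal (fun i => if i = ⟨0, by omega⟩ then s else 1) with hP0
    have hdP : P0.det = s := by simp [hP0, Matrix.det_diagonal]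
    have hPu : IsUnit P0.det := by rw [hdP]; exact isUnit_iff_ne_zero.2 hs0
    obtain ⟨x, hx⟩ : ∃ x : Matrix.SpecialLinearGroup (Fin n) F, (x : Matrix (Fin n) (Fin n) F) = P0 * A * P0⁻¹ :=
      ⟨⟨P0 * A * P0⁻¹, by rw [Matrix.det_mul, Matrix.det_mul, hdA, mul_one, ← Matrix.det_mul, Matrix.mul_nonsing_inv _ hPu, Matrix.det_one]⟩, rfl⟩
    have hx3 : ((x ^ 3 : Matrix.SpecialLinearGroup (Fin n) F) : Matrix (Fin n) (Fin n) F) = 1 := by
      rw [Matrix.SpecialLinearGroup.coe_pow, hx, pow_succ, pow_two]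
      calc P0 * A * P0⁻¹ * (P0 * A * P0⁻¹) * (P0 * A * P0⁻¹)
          = P0 * (A * (P0⁻¹ * P0) * A * (P0⁻¹ * P0) * A) * P0⁻¹ := by simp only [Matrix.mul_assoc]
        _ = 1 := by
          rw [Matrix.nonsing_inv_mul _ hPu, mul_one, mul_one, ← pow_two, ← pow_succ, hA3, mul_one,
            Matrix.mul_nonsing_inv _ hPu]
    have hEne : E ≠ 0 := fun h0 => by
      have h0' := φ.injective (h0.trans (map_zero φ).symm)
      have := congrFun (congrFun h0' (Sum.inr ⟨0, hh0⟩)) (Sum.inl ⟨0, hh0⟩)
      simp [hE0] at this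
    have hxA : P0⁻¹ * (x : Matrix (Fin n) (Fin n) F) * P0 = A := by
      rw [hx, show P0⁻¹ * (P0 * A * P0⁻¹) * P0 = P0⁻¹ * P0 * A * (P0⁻¹ * P0) by simp only [Matrix.mul_assoc],
        Matrix.nonsing_inv_mul _ hPu, one_mul, mul_one]
    obtain ⟨P, hP⟩ := H x ⟨1, by rw [hx3, one_smul]⟩ (fun c hc => hEne (by
      have h1 : A = c • 1 := by
        rw [← hxA, hc, Matrix.mul_smul, mul_one, Matrix.smul_mul, Matrix.nonsing_inv_mul _ hPu]
      have h2 : E = (c - 1) • 1 := by rw [sub_smul, one_smul, ← h1, hA, add_sub_cancel_left]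
      have h3 := hE2
      rw [h2, Matrix.smul_mul, one_mul, smul_smul] at h3
      have h4 := congrFun (congrFun h3 ⟨0, by omega⟩) ⟨0, by omega⟩
      simp at h4
      rw [h2, h4, zero_smul]))
    rw [Subgroup.mem_comap, Cfsg.Agent.GeomClasses.SubfieldScaled.mem_subfieldSubgroup_iff, inv_one, one_mul, mul_one] at hP
    obtain ⟨c, hc0, hc⟩ := Cfsg.Agent.GeomClasses.SubfieldScaled.scaled_of_mem F₀ hP
    set G : Matrix (Fin n) (Fin n) F := ((P⁻¹ * x * P : Matrix.SpecialLinearGroup (Fin n) F) : Matrix (Fin n) (Fin n) F) with hG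
    have hc' : ∀ i j, c * G i j ∈ F₀ := hc
    have hG3 : G ^ 3 = 1 := by
      rw [hG, ← Matrix.SpecialLinearGroup.coe_pow, show (P⁻¹ * x * P) ^ 3 = P⁻¹ * x ^ 3 * P by simpa using conj_pow (a := P⁻¹) (b := x) (i := 3),
        Matrix.SpecialLinearGroup.coe_mul, Matrix.SpecialLinearGroup.coe_mul, hx3, mul_one,
        ← Matrix.SpecialLinearGroup.coe_mul, inv_mul_cancel, Matrix.SpecialLinearGroup.coe_one]
    have hcF : c ∈ F₀ := by
      have h3 : c ^ 3 ∈ F₀ := by
        have h : (c ^ 3 • G ^ 3) (⟨0, by omega⟩ : Fin n) (⟨0, by omega⟩ : Fin n) = c ^ 3 := by rw [hG3]; simp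
        rw [← h, ← smul_pow]
        let B : Matrix (Fin n) (Fin n) F₀ := Matrix.of fun i j => ⟨c * G i j, hc' i j⟩
        have hB : c • G = B.map (F₀.subtype : F₀ →+* F) := by ext i j; simp [B]
        rw [hB, ← Matrix.map_pow]
        exact ((B ^ 3) _ _).2
      obtain ⟨⟨w, hw⟩, hw3⟩ := (bijective_frobenius F₀ 3).2 ⟨c ^ 3, h3⟩
      have hw' : w ^ 3 = c ^ 3 := congrArg Subtype.val hw3
      exact frobenius_inj F 3 (show frobenius F 3 w = frobenius F 3 c from hw') ▸ hw
    have hGrat : ∀ i j, G i j ∈ F₀ := fun i j => by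
      have := F₀.mul_mem (F₀.inv_mem hcF) (hc' i j)
      rwa [← mul_assoc, inv_mul_cancel₀ hc0, one_mul] at this
    have hPd : (P : Matrix (Fin n) (Fin n) F).det = 1 := P.2
    set T : Matrix (Fin n) (Fin n) F := P0⁻¹ * (P : Matrix (Fin n) (Fin n) F) with hT
    have hPP : (P : Matrix (Fin n) (Fin n) F) * ((P⁻¹ : Matrix.SpecialLinearGroup (Fin n) F) : Matrix (Fin n) (Fin n) F) = 1 := by
      rw [← Matrix.SpecialLinearGroup.coe_mul, mul_inv_cancel, Matrix.SpecialLinearGroup.coe_one]
    have hAT : A * T = T * G := by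
      rw [hT, hG, ← hxA, Matrix.SpecialLinearGroup.coe_mul, Matrix.SpecialLinearGroup.coe_mul]
      simp only [Matrix.mul_assoc]
      rw [← Matrix.mul_assoc P0 P0⁻¹, Matrix.mul_nonsing_inv _ hPu, one_mul,
        ← Matrix.mul_assoc (P : Matrix (Fin n) (Fin n) F) _ (_ * _), hPP, one_mul]
    have hdT : T.det = s⁻¹ := by
      rw [hT, Matrix.det_mul, hPd, mul_one, Matrix.det_nonsing_inv, hdP, Ring.inverse_eq_inv']
    have hTu : IsUnit T.det := by rw [hdT]; exact isUnit_iff_ne_zero.2 (inv_ne_zero hs0)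
    set N : Matrix (Fin n) (Fin n) F := G - 1 with hN
    have hET : E * T = T * N := by rw [hN, mul_sub, mul_one, ← hAT, hA, add_mul, one_mul, add_sub_cancel_left]
    have hNN : N * N = 0 := by
      have h1 : T * (N * N) = 0 := by rw [← Matrix.mul_assoc, ← hET, Matrix.mul_assoc, ← hET, ← Matrix.mul_assoc, hE2, zero_mul]
      rw [← one_mul (N * N), ← Matrix.nonsing_inv_mul _ hTu, Matrix.mul_assoc, h1, mul_zero]
    have hrank : N.rank = h := by
      have h1 : (T * N).rank = N.rank := Matrix.rank_mul_eq_right_of_isUnit_det T N hTu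
      rw [← h1, ← hET, Matrix.rank_mul_eq_left_of_isUnit_det T E hTu]
      rw [hE, Matrix.reindexAlgEquiv_apply, Matrix.rank_reindex]
      refine le_antisymm ?_ ?_
      · have e1 : E0 = (Matrix.of fun (i : Fin h ⊕ Fin h) (k : Fin h) => Sum.elim (fun _ => (0 : F)) (fun l => if l = k then 1 else 0) i) *
            (Matrix.of fun (k : Fin h) (j : Fin h ⊕ Fin h) => Sum.elim (fun l => if k = l then (1 : F) else 0) (fun _ => 0) j) := by
          ext (i | i) (j | j) <;> simp [hE0, Matrix.mul_apply, Matrix.one_apply]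
        rw [e1]
        exact (Matrix.rank_mul_le_left _ _).trans ((Matrix.rank_le_card_width _).trans (by simp))
      · have h2 := Matrix.rank_submatrix_le E0 Sum.inr (Sum.inl : Fin h → Fin h ⊕ Fin h)
        have h3 : E0.submatrix Sum.inr (Sum.inl : Fin h → Fin h ⊕ Fin h) = 1 := by
          ext i j; simp [hE0, Matrix.one_apply]
        rw [h3, Matrix.rank_one, Fintype.card_fin] at h2
        exact h2
    obtain ⟨f, hf1, hf2, hf3⟩ := Submodule.exists_fun_fin_finrank_span_eq F (Set.range N.col)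
    have hfr : Module.finrank F (Submodule.span F (Set.range N.col)) = h := by
      rw [← Matrix.rank_eq_finrank_span_cols, hrank]
    choose g hg using hf1
    let cols : Fin h ⊕ Fin h → Fin n → F := Sum.elim (fun k => Pi.single (g (Fin.cast hfr.symm k)) 1) (fun k => f (Fin.cast hfr.symm k))
    have hNe : ∀ j, N *ᵥ Pi.single j 1 = N.col j := fun j => by
      ext i; simp [Matrix.mulVec_single, Matrix.col_apply]
    have hN1 : ∀ k : Fin h, N *ᵥ cols (Sum.inl k) = cols (Sum.inr k) := fun k => by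
      simp only [cols, Sum.elim_inl, Sum.elim_inr, hNe, hg]
    have hN2 : ∀ k : Fin h, N *ᵥ cols (Sum.inr k) = 0 := fun k => by
      rw [← hN1, Matrix.mulVec_mulVec, hNN, Matrix.zero_mulVec]
    have hli : LinearIndependent F cols := by
      rw [Fintype.linearIndependent_iff]
      intro a ha
      rw [Fintype.sum_sum_type] at ha
      have hf' : LinearIndependent F (fun k : Fin h => cols (Sum.inr k)) :=
        hf3.comp _ (Fin.cast_injective _)
      have h1 : ∀ k, a (Sum.inl k) = 0 := by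
        refine Fintype.linearIndependent_iff.1 hf' _ ?_
        have := congrArg (N *ᵥ ·) ha
        simpa [Matrix.mulVec_add, Matrix.mulVec_sum, Matrix.mulVec_smul, hN1, hN2] using this
      intro i
      rcases i with k | k
      · exact h1 k
      · refine Fintype.linearIndependent_iff.1 hf' (fun k => a (Sum.inr k)) ?_ k
        simpa [h1] using ha
    let Q : Matrix (Fin n) (Fin n) F := Matrix.of fun i j => cols (e.symm j) i
    have hQrat : ∀ i j, Q i j ∈ F₀ := by
      intro i j
      show cols (e.symm j) i ∈ F₀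
      rcases e.symm j with k | k
      · exact Cfsg.Agent.GeomClasses.SubfieldScaled.rat_single' F₀ _ i
      · rw [← hN1, show cols (Sum.inl k) = Pi.single (g (Fin.cast hfr.symm k)) 1 from rfl, hNe, Matrix.col_apply]
        show G i _ - (1 : Matrix (Fin n) (Fin n) F) i _ ∈ F₀
        rw [Matrix.one_apply]
        exact F₀.sub_mem (hGrat _ _) (by split_ifs; exacts [F₀.one_mem, F₀.zero_mem])
    have hQu : IsUnit Q.det := by
      rw [← Matrix.isUnit_iff_isUnit_det]
      exact Matrix.linearIndependent_cols_iff_isUnit.1 (hli.comp _ e.symm.injective)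
    have hNQ : N * Q = Q * E := by
      ext i j
      obtain ⟨j, rfl⟩ := e.surjective j
      have hl : (N * Q) i (e j) = (N *ᵥ cols j) i := by
        simp [Matrix.mul_apply, Matrix.mulVec, dotProduct, Q]
      rw [hl, hE, Matrix.mul_apply, ← e.sum_comp, Fintype.sum_sum_type]
      simp only [φ, Matrix.reindexAlgEquiv_apply, Matrix.reindex_apply, Matrix.submatrix_apply, Equiv.symm_apply_apply]
      rcases j with k | k
      · rw [hN1]; simp [hE0, Q, Matrix.one_apply]
      · rw [hN2]; simp [hE0]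
    set C := T * Q with hC
    have hEC : E * C = C * E := by rw [hC, ← Matrix.mul_assoc, hET, Matrix.mul_assoc, hNQ]; simp only [hT, Matrix.mul_assoc]
    obtain ⟨a, b, c', d', hC0⟩ : ∃ a b c' d', φ.symm C = Matrix.fromBlocks a b c' d' :=
      ⟨_, _, _, _, (Matrix.fromBlocks_toBlocks (φ.symm C)).symm⟩
    have hcomm : E0 * φ.symm C = φ.symm C * E0 := by
      apply φ.injective
      simp only [map_mul, AlgEquiv.apply_symm_apply, ← hE]
      exact hEC
    rw [hC0, hE0, Matrix.fromBlocks_multiply, Matrix.fromBlocks_multiply, Matrix.fromBlocks_inj] at hcomm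
    obtain ⟨hb, -, hd, -⟩ := hcomm
    simp at hb hd
    subst hb hd
    have hdet : C.det = a.det * a.det := by
      rw [← φ.apply_symm_apply C, Matrix.det_reindexAlgEquiv, hC0, Matrix.det_fromBlocks_zero₁₂]
    have hQd : Q.det ∈ F₀ := by
      let Q0 : Matrix (Fin n) (Fin n) F₀ := Matrix.of fun i j => ⟨Q i j, hQrat i j⟩
      have : Q = Q0.map (F₀.subtype : F₀ →+* F) := by ext i j; rfl
      rw [this, ← RingHom.mapMatrix_apply, ← RingHom.map_det]
      exact Q0.det.2
    obtain ⟨u, hu⟩ : IsSquare Q.det := by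
      rw [FiniteField.isSquare_iff h2F (isUnit_iff_ne_zero.1 hQu), hq, hqk]
      have hodd3 : Odd q₀ := by
        have h3 : Fintype.card F % 2 = 1 := FiniteField.odd_card_of_char_ne_two h2F
        rw [hq, hqk, Nat.odd_iff.symm, Nat.odd_pow_iff two_ne_zero] at h3
        exact h3
      obtain ⟨t, rfl⟩ := hodd3
      rw [show (2 * t + 1) ^ 2 / 2 = (2 * t + 1 - 1) * (t + 1) by
        rw [Nat.add_sub_cancel, show (2 * t + 1) ^ 2 = 2 * (2 * t * (t + 1)) + 1 by ring]; omega, pow_mul]
      have : Fintype F₀ := Fintype.ofFinite _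
      have := FiniteField.pow_card_sub_one_eq_one (⟨Q.det, hQd⟩ : F₀) (fun h0 => hQu.ne_zero (congrArg Subtype.val h0))
      rw [← Nat.card_eq_fintype_card, hF₀] at this
      rw [show Q.det ^ (2 * t + 1 - 1) = 1 from congrArg Subtype.val this, one_pow]
    refine hs ⟨u / a.det, ?_⟩
    have h1 : Q.det / s = a.det * a.det := by rw [← hdet, hC, Matrix.det_mul, hdT, div_eq_inv_mul]
    have ha0 : a.det ≠ 0 := fun h0 => by
      rw [h0, mul_zero, div_eq_zero_iff] at h1
      exact h1.elim hQu.ne_zero hs0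
    field_simp at h1 ⊢
    linear_combination -h1 + hu
  · intro hcond x ⟨z, hz⟩ _
    have hz0 : z ≠ 0 := by
      rintro rfl
      have h1 := congrArg Matrix.det hz
      rw [Matrix.SpecialLinearGroup.det_coe, zero_smul, Matrix.det_zero] at h1
      exact one_ne_zero h1
    obtain ⟨μ, hμ⟩ := hroot z
    have hμ0 : μ ≠ 0 := by rintro rfl; exact hz0 (by rw [← hμ]; simp)
    obtain ⟨y, hy⟩ : ∃ y : GL (Fin n) F, (y : Matrix (Fin n) (Fin n) F) = μ⁻¹ • (x : Matrix (Fin n) (Fin n) F) :=
      ⟨Matrix.GeneralLinearGroup.mkOfDetNeZero (μ⁻¹ • (x : Matrix (Fin n) (Fin n) F)) (by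
        rw [Matrix.det_smul, Matrix.SpecialLinearGroup.det_coe, mul_one]; exact pow_ne_zero _ (inv_ne_zero hμ0)), rfl⟩
    have hy3 : y ^ 3 = 1 := Units.ext (by
      rw [Units.val_pow_eq_pow_val, hy, smul_pow, ← Matrix.SpecialLinearGroup.coe_pow, hz, smul_smul, inv_pow, hμ,
        inv_mul_cancel₀ hz0, one_smul, Units.val_one])
    have hnil := (Cfsg.Agent.KnownA.Jordan.pow_eq_one_iff 3 1 y).1 (by rwa [pow_one])
    obtain ⟨ν, hν⟩ := Cfsg.Agent.KnownA.Jordan.exists_isConj_model ⟨3 ^ 1, hnil⟩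
    have hle : ∀ a ∈ ν.parts, a ≤ 3 := by
      rw [← Cfsg.Agent.KnownA.Jordan.model_pow_eq_zero F ν 3, ← Cfsg.Agent.KnownA.Jordan.nilPart_model]
      have h' := (Cfsg.Agent.KnownA.Jordan.pow_eq_one_iff 3 1 (Cfsg.Agent.KnownA.Jordan.modelGL F ν)).1 (by
        obtain ⟨c, hc⟩ := isConj_iff.1 hν
        rw [← hc, conj_pow, pow_one, hy3, mul_one, mul_inv_cancel])
      rwa [pow_one] at h'
    obtain ⟨cc, hcc⟩ := isConj_iff.1 hν
    set A := Cfsg.Agent.KnownA.Jordan.modelGL F ν
    set M : Matrix (Fin n) (Fin n) F := (A : Matrix (Fin n) (Fin n) F)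
    set idx := Cfsg.Agent.KnownA.Jordan.modelIdx ν with hidx
    let L := Cfsg.Agent.KnownA.Jordan.blockLen ν
    have hM : ∀ i j, (M i j ∈ F₀) ∧ ((idx.symm i).1 ≠ (idx.symm j).1 → M i j = 0) := by
      intro i j
      have h1 : M i j = ((1 : Matrix (Fin n) (Fin n) F) i j) +
          (Cfsg.Agent.KnownA.Jordan.model F ν (Pi.single j 1)) i := by
        have : M = 1 + Matrix.toLinAlgEquiv'.symm (Cfsg.Agent.KnownA.Jordan.model F ν) := rfl
        rw [this, Matrix.add_apply]
        congr 1
      have h2 := Cfsg.Agent.KnownA.Jordan.model_chain F ν (idx.symm j).1 (idx.symm j).2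
      have hb : ∀ t, Cfsg.Agent.KnownA.Jordan.modelBasis F ν t = Pi.single (idx t) 1 := fun t => by
        simp [Cfsg.Agent.KnownA.Jordan.modelBasis, hidx]
      simp only [hb, Sigma.eta, Equiv.apply_symm_apply] at h2
      rw [h1, h2]
      split_ifs with h3
      · constructor
        · refine F₀.add_mem ?_ (Cfsg.Agent.GeomClasses.SubfieldScaled.rat_single' F₀ _ i)
          rw [Matrix.one_apply]; split_ifs; exacts [F₀.one_mem, F₀.zero_mem]
        · intro hne
          rw [Matrix.one_apply_ne (fun h' => hne (by rw [h'])), zero_add, Pi.single_eq_of_ne]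
          intro h'
          exact hne (by rw [h', Equiv.symm_apply_apply])
      · simp only [Pi.zero_apply, add_zero]
        constructor
        · rw [Matrix.one_apply]; split_ifs; exacts [F₀.one_mem, F₀.zero_mem]
        · intro hne; exact Matrix.one_apply_ne (fun h' => hne (by rw [h']))
    set P0 : Matrix (Fin n) (Fin n) F := ((cc⁻¹ : GL (Fin n) F) : Matrix (Fin n) (Fin n) F)
    have hxP : (x : Matrix (Fin n) (Fin n) F) * P0 = P0 * (μ • M) := by
      have h1 : y * cc⁻¹ = cc⁻¹ * A := by rw [← hcc]; group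
      have h2 := congrArg Units.val h1
      rw [Units.val_mul, Units.val_mul, hy, Matrix.smul_mul] at h2
      rw [Matrix.mul_smul, ← h2, smul_smul, mul_inv_cancel₀ hμ0, one_smul]
    have hP0 : P0.det ≠ 0 := (cc⁻¹).det_ne_zero
    obtain ⟨bb, u, w, hw, hw0, hdet⟩ : ∃ (bb : Fin ν.parts.toList.length) (u w : F), w ∈ F₀ ∧ w ≠ 0 ∧
        u ^ L bb * w = P0.det⁻¹ := by
      have hsum := Cfsg.Agent.KnownA.Jordan.sum_blockLen ν
      by_cases hodd : ∃ bb, L bb ≠ 2
      · obtain ⟨bb, hbb⟩ := hodd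
        have h1 := hle _ ((Cfsg.Agent.KnownA.Jordan.mem_blockLen ν _).2 ⟨bb, rfl⟩)
        have h2 := ν.parts_pos ((Cfsg.Agent.KnownA.Jordan.mem_blockLen ν _).2 ⟨bb, rfl⟩)
        rcases (show L bb = 1 ∨ L bb = 3 by simp only [L] at *; omega) with h | h
        · exact ⟨bb, P0.det⁻¹, 1, F₀.one_mem, one_ne_zero, by rw [h, pow_one, mul_one]⟩
        · obtain ⟨u, hu⟩ := hroot P0.det⁻¹
          exact ⟨bb, u, 1, F₀.one_mem, one_ne_zero, by rw [h, hu, mul_one]⟩
      · push_neg at hodd
        have hne : ν.parts.toList.length * 2 = n := by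
          conv_rhs => rw [← hsum]
          simp only [L] at hodd
          simp [hodd]
        have hk2 : 2 < k := by
          rcases hcond with ⟨t, ht⟩ | ⟨-, h⟩
          · omega
          · exact h
        have bb : Fin ν.parts.toList.length := ⟨0, by omega⟩
        have hkodd : Odd k := (hk.eq_two_or_odd').resolve_left (by omega)
        have hq0odd : Odd q₀ := by
          have h3 : Fintype.card F % 2 = 1 := FiniteField.odd_card_of_char_ne_two h2F
          rw [hq, hqk, Nat.odd_iff.symm, Nat.odd_pow_iff (by omega)] at h3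
          exact h3
        obtain ⟨sF, hsF, hfac⟩ := Cfsg.Agent.GeomClasses.SubfieldInvolution.odd_factor hq0odd hkodd
        have : Fintype F₀ := Fintype.ofFinite _
        have : CharP F₀ 3 := inferInstance
        have h20 : ringChar F₀ ≠ 2 := by rw [ringChar.eq F₀ 3]; norm_num
        obtain ⟨w, hwns⟩ := FiniteField.exists_nonsquare h20
        have hw0 : w ≠ 0 := fun h0 => hwns (h0 ▸ IsSquare.zero)
        have hwF : ¬ IsSquare (w : F) := by
          rw [FiniteField.isSquare_iff h2F (by simpa using hw0), hq]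
          rw [FiniteField.isSquare_iff h20 hw0, ← Nat.card_eq_fintype_card, hF₀] at hwns
          have hw1 := (FiniteField.pow_dichotomy h20 hw0).resolve_left (by rwa [← Nat.card_eq_fintype_card, hF₀])
          rw [← Nat.card_eq_fintype_card, hF₀] at hw1
          have hw1' : (w : F) ^ (q₀ / 2) = -1 := by simpa using congrArg Subtype.val hw1
          obtain ⟨t, rfl⟩ := hq0odd
          rw [Nat.add_sub_cancel] at hfac
          rw [hqk, show (2 * t + 1) ^ k / 2 = (2 * t + 1) / 2 * sF by
            have h1k : 1 ≤ (2 * t + 1) ^ k := Nat.one_le_pow _ _ (by omega)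
            rw [show (2 * t + 1) ^ k = 2 * (t * sF) + 1 by rw [← mul_assoc]; omega, show (2 * t + 1) / 2 = t by omega]
            omega, pow_mul, hw1', hsF.neg_one_pow]
          exact fun h1 => (Ring.neg_one_ne_one_of_char_ne_two h2F) h1
        by_cases hsq : IsSquare P0.det⁻¹
        · obtain ⟨u, hu⟩ := hsq
          exact ⟨bb, u, 1, F₀.one_mem, one_ne_zero, by rw [hodd bb, pow_two, mul_one, hu]⟩
        · obtain ⟨u, hu⟩ : IsSquare (P0.det⁻¹ / (w : F)) := by
            rw [FiniteField.isSquare_iff h2F (inv_ne_zero hP0)] at hsq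
            rw [FiniteField.isSquare_iff h2F (by simpa using hw0)] at hwF
            rw [FiniteField.isSquare_iff h2F (div_ne_zero (inv_ne_zero hP0) (by simpa using hw0)), div_pow,
              (FiniteField.pow_dichotomy h2F (inv_ne_zero hP0)).resolve_left hsq,
              (FiniteField.pow_dichotomy h2F (by simpa using hw0)).resolve_left hwF, div_self (by simp)]
          exact ⟨bb, u, w, w.2, by simpa using hw0, by rw [hodd bb, pow_two, ← hu, div_mul_cancel₀ _ (by simpa using hw0)]⟩
    set i0 : Fin n := ⟨0, by omega⟩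
    set D : Matrix (Fin n) (Fin n) F := Matrix.diagonal fun i => if (idx.symm i).1 = bb then u else 1
    set R : Matrix (Fin n) (Fin n) F := Matrix.diagonal fun i => if i = i0 then w else 1
    set R' : Matrix (Fin n) (Fin n) F := Matrix.diagonal fun i => if i = i0 then w⁻¹ else 1
    have hRR : R * R' = 1 := by
      rw [Matrix.diagonal_mul_diagonal, ← Matrix.diagonal_one]
      congr 1
      funext i
      split_ifs
      · exact mul_inv_cancel₀ hw0
      · exact one_mul 1
    have hMD : M * D = D * M := by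
      ext i j
      rw [Matrix.mul_diagonal, Matrix.diagonal_mul]
      by_cases h : (idx.symm i).1 = (idx.symm j).1
      · rw [h, mul_comm]
      · rw [(hM i j).2 h, zero_mul, mul_zero]
    have hDdet : D.det = u ^ L bb := by
      rw [Matrix.det_diagonal, ← idx.prod_comp, Fintype.prod_sigma]
      simp [Finset.prod_ite_eq', L]
    obtain ⟨P, hPm⟩ : ∃ P : Matrix.SpecialLinearGroup (Fin n) F, (P : Matrix (Fin n) (Fin n) F) = P0 * D * R :=
      ⟨⟨P0 * D * R, by
        rw [Matrix.det_mul, Matrix.det_mul, hDdet, show R.det = w by simp [R], mul_assoc, hdet, mul_inv_cancel₀ hP0]⟩, rfl⟩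
    refine ⟨P, ?_⟩
    have hg : ((P⁻¹ * x * P : Matrix.SpecialLinearGroup (Fin n) F) : Matrix (Fin n) (Fin n) F) = μ • (R' * M * R) := by
      have h1 : (x : Matrix (Fin n) (Fin n) F) * (P : Matrix (Fin n) (Fin n) F) = (P : Matrix (Fin n) (Fin n) F) * (μ • (R' * M * R)) := by
        rw [hPm, ← Matrix.mul_assoc, ← Matrix.mul_assoc, hxP, Matrix.mul_smul, Matrix.mul_smul, Matrix.smul_mul, Matrix.smul_mul]
        congr 1
        calc P0 * M * D * R = P0 * D * (1 * M) * R := by simp only [Matrix.mul_assoc, one_mul]; rw [← Matrix.mul_assoc M, hMD, Matrix.mul_assoc]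
          _ = P0 * D * ((R * R') * M) * R := by rw [hRR]
          _ = _ := by simp only [Matrix.mul_assoc]
      rw [mul_assoc, Matrix.SpecialLinearGroup.coe_mul, Matrix.SpecialLinearGroup.coe_mul, h1, ← Matrix.mul_assoc,
        ← Matrix.SpecialLinearGroup.coe_mul, inv_mul_cancel, Matrix.SpecialLinearGroup.coe_one, one_mul]
    rw [Subgroup.mem_comap, Cfsg.Agent.GeomClasses.SubfieldScaled.mem_subfieldSubgroup_iff, inv_one, one_mul, mul_one]
    set gg := Matrix.SpecialLinearGroup.toGL (P⁻¹ * x * P)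
    let sc : GL (Fin n) F := Units.map (Matrix.scalar (Fin n) : F →+* Matrix (Fin n) (Fin n) F).toMonoidHom (Units.mk0 μ hμ0)
    have hsc : ((sc⁻¹ : GL (Fin n) F) : Matrix (Fin n) (Fin n) F) = μ⁻¹ • 1 := by
      rw [Matrix.smul_one_eq_diagonal]
      rfl
    rw [show gg = sc * (sc⁻¹ * gg) by group]
    refine mul_mem (Subgroup.mem_sup_right ⟨_, rfl⟩) (Subgroup.mem_sup_left ?_)
    refine Cfsg.Agent.GeomClasses.SubfieldSp.mem_range_of_rat' fun i j => ?_
    rw [Units.val_mul, hsc, show (gg : Matrix (Fin n) (Fin n) F) = μ • (R' * M * R) from hg, Matrix.smul_mul, one_mul,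
      smul_smul, inv_mul_cancel₀ hμ0, one_smul, Matrix.mul_diagonal, Matrix.diagonal_mul]
    refine F₀.mul_mem (F₀.mul_mem ?_ (hM i j).1) ?_ <;> split_ifs
    exacts [F₀.inv_mem hw, F₀.one_mem, hw, F₀.one_mem]

end Cfsg.Agent.S5966
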