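import Cfsg.Statements.S5967
import Cfsg.Agent.GeomClasses.SympInvolution

set_option autoImplicit false
open scoped MatrixGroups
open Cfsg

namespace Cfsg.Agent.S5967

/-- Involutions of PSL_n(q) and the symplectic-type subgroups. Here `T = PSL_n(F)` for a field `F` with `q` elements, `n ≥ 4` even, `f` is a nondegenerate alternating form on `F^n`, and `H` is the subgroup of matrices of determinant 1 preserving `f` up to a scalar — a maximal subgroup of type Sp_n(q); Ω is the set of `T`-conjugates of `H` (cosets of `H`), so an element of `T` of prime order `r` (a matrix `x` of determinant 1 with `x^r` scalar, `x` not scalar) fixes a point of Ω when some conjugate of `x` by a matrix of determinant 1 preserves `f` up to a scalar. Suppose the index of `H` is even. Then every involution of `T` is conjugate in `T` into `H` if and only if `(q − 1)_2 ≤ (n)_2`. -/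
theorem result {F : Type*} [Field F] [Fintype F] {p : ℕ} [Fact p.Prime] [CharP F p] {q : ℕ} (hq : Fintype.card F = q)
    (n : ℕ) (hn : 4 ≤ n) (he : Even n) (f : (Fin n → F) → (Fin n → F) → F) (hf : Cfsg.Geo.IsSymplecticForm f)
    (hΩ : 2 ∣ ((Cfsg.Geo.similarityGroup f).comap (Matrix.SpecialLinearGroup.toGL : Matrix.SpecialLinearGroup (Fin n) F →* GL (Fin n) F)).index) :
    (∀ x : Matrix.SpecialLinearGroup (Fin n) F,
      (∃ z : F, ((x ^ 2 : Matrix.SpecialLinearGroup (Fin n) F) : Matrix (Fin n) (Fin n) F) = z • (1 : Matrix (Fin n) (Fin n) F)) →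
      (∀ z : F, (x : Matrix (Fin n) (Fin n) F) ≠ z • (1 : Matrix (Fin n) (Fin n) F)) →
      ∃ P : Matrix.SpecialLinearGroup (Fin n) F, P⁻¹ * x * P ∈ ((Cfsg.Geo.similarityGroup f).comap (Matrix.SpecialLinearGroup.toGL : Matrix.SpecialLinearGroup (Fin n) F →* GL (Fin n) F))) ↔
    padicValNat 2 (q - 1) ≤ padicValNat 2 n := by
  classical
  have hp := (Fact.out : p.Prime)
  have hq1 : 1 < q := hq ▸ Fintype.one_lt_card
  have hn0 : n ≠ 0 := by omega
  have hz : ∀ (x : Matrix.SpecialLinearGroup (Fin n) F) (z : F),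
      ((x ^ 2 : Matrix.SpecialLinearGroup (Fin n) F) : Matrix (Fin n) (Fin n) F) = z • (1 : Matrix (Fin n) (Fin n) F) →
      z ≠ 0 ∧ ∀ v, Matrix.mulVec (x : Matrix (Fin n) (Fin n) F) (Matrix.mulVec (x : Matrix (Fin n) (Fin n) F) v) = z • v := by
    intro x z hx
    refine ⟨fun h => ?_, fun v => ?_⟩
    · have := congrArg Matrix.det hx
      haveI hne : Nonempty (Fin n) := ⟨⟨0, by omega⟩⟩
      rw [(x ^ 2).2, h, zero_smul, Matrix.det_zero] at this
      exact one_ne_zero this
    · rw [Matrix.SpecialLinearGroup.coe_pow, pow_two] at hx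
      rw [Matrix.mulVec_mulVec, hx, Matrix.smul_mulVec, Matrix.one_mulVec]
  constructor
  · intro h
    by_contra hlt
    push_neg at hlt
    set v := padicValNat 2 n
    have hdvd : 2 ^ (v + 1) ∣ q - 1 := (padicValNat_dvd_iff_le (show q - 1 ≠ 0 by omega)).2 hlt
    have hp2 : p ≠ 2 := by
      rintro rfl
      obtain ⟨nn, -, hnn⟩ := FiniteField.card F 2
      have h2q : 2 ∣ q := by rw [← hq, hnn]; exact dvd_pow_self 2 (PNat.ne_zero nn)
      have : 2 ∣ q - 1 := (dvd_pow_self 2 (by omega)).trans hdvd
      omega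
    have h2 : (2 : F) ≠ 0 := fun e => hp2 ((Nat.prime_dvd_prime_iff_eq hp Nat.prime_two).1
      ((CharP.cast_eq_zero_iff F p 2).1 (by exact_mod_cast e)))
    obtain ⟨u, hu⟩ := IsCyclic.exists_ofOrder_eq_natCard (α := Fˣ)
    rw [Nat.card_units, Nat.card_eq_fintype_card, hq] at hu
    obtain ⟨a, ha⟩ := hdvd
    set w := u ^ a
    have hw : orderOf w = 2 ^ (v + 1) := by
      have ha0 : a ≠ 0 := fun e => by rw [e, mul_zero] at ha; omega
      rw [orderOf_pow' u ha0, hu, ha, Nat.gcd_mul_left_left, Nat.mul_div_cancel _ (Nat.pos_of_ne_zero ha0)]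
    set l : F := (w : F) with hl
    have hl0 : l ≠ 0 := w.ne_zero
    have hlord : orderOf l = 2 ^ (v + 1) := by rw [hl, orderOf_units, hw]
    have hln : l ^ n = -1 := by
      have h1 : l ^ 2 ^ v * l ^ 2 ^ v = 1 := by
        rw [← pow_add, ← two_mul, ← pow_succ', ← hlord, pow_orderOf_eq_one]
      have h3 : l ^ 2 ^ v = -1 := (mul_self_eq_one_iff.1 h1).resolve_left fun e => by
        have := Nat.le_of_dvd (by positivity) (hlord ▸ orderOf_dvd_of_pow_eq_one e)
        rw [pow_succ] at this
        have := pow_pos (show 0 < 2 by norm_num) v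
        omega
      obtain ⟨b, hb⟩ : 2 ^ v ∣ n := pow_padicValNat_dvd
      have hbodd : Odd b := Nat.not_even_iff_odd.1 fun ⟨c, hc⟩ => by
        have hd : 2 ^ (v + 1) ∣ n := ⟨c, by rw [hb, hc, pow_succ]; ring⟩
        exact pow_succ_padicValNat_not_dvd hn0 hd
      rw [hb, pow_mul, h3, hbodd.neg_one_pow]
    let i0 : Fin n := ⟨0, by omega⟩
    let d : Fin n → F := fun i => if i = i0 then -l else l
    obtain ⟨x, hx⟩ : ∃ x : Matrix.SpecialLinearGroup (Fin n) F, (x : Matrix (Fin n) (Fin n) F) = Matrix.diagonal d := by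
      refine ⟨⟨Matrix.diagonal d, ?_⟩, rfl⟩
      rw [Matrix.det_diagonal, show d = fun i => (if i = i0 then -1 else 1) * l from funext fun i => by
        simp only [d]; split_ifs <;> ring, Finset.prod_mul_distrib, Finset.prod_const, Finset.card_univ, Fintype.card_fin, hln]
      simp
    obtain ⟨P, c, hc⟩ := h x ⟨l * l, by
      rw [Matrix.SpecialLinearGroup.coe_pow, hx, Matrix.diagonal_pow, Matrix.smul_one_eq_diagonal]
      congr 1
      funext i
      simp only [Pi.pow_apply, d]
      split_ifs <;> ring⟩ (fun z e => by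
        have e0 := congrFun (congrFun (hx ▸ e) i0) i0
        have e1 := congrFun (congrFun (hx ▸ e) ⟨1, by omega⟩) ⟨1, by omega⟩
        simp [d, i0] at e0 e1
        exact mul_ne_zero h2 hl0 (by linear_combination e1 - e0))
    set g := ((P⁻¹ * x * P : Matrix.SpecialLinearGroup (Fin n) F) : Matrix (Fin n) (Fin n) F) with hg
    have hgp : ∀ u v, f (Matrix.mulVec g u) (Matrix.mulVec g v) = (c : F) * f u v := hc
    have hPQ : (P : Matrix (Fin n) (Fin n) F) * ((P⁻¹ : Matrix.SpecialLinearGroup (Fin n) F) : Matrix (Fin n) (Fin n) F) = 1 := by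
      rw [← Matrix.SpecialLinearGroup.coe_mul, mul_inv_cancel, Matrix.SpecialLinearGroup.coe_one]
    have hgeq : g = ((P⁻¹ : Matrix.SpecialLinearGroup (Fin n) F) : Matrix (Fin n) (Fin n) F) * Matrix.diagonal d * P := by
      rw [hg]; simp only [Matrix.SpecialLinearGroup.coe_mul, hx]
    have hrk : ∀ t : F, (g - t • 1).rank = (Finset.univ.filter fun i => d i ≠ t).card := by
      intro t
      rw [Cfsg.Agent.GeomClasses.SympFormDerange.rank_conj hPQ hgeq, Matrix.smul_one_eq_diagonal, Matrix.diagonal_sub,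
        Matrix.rank_diagonal, Fintype.card_subtype]
      exact congrArg _ (Finset.filter_congr fun i _ => sub_ne_zero)
    have hml : -l ≠ l := fun e => mul_ne_zero h2 hl0 (by linear_combination -e)
    have hr1 : (g - l • 1).rank = 1 := by
      rw [hrk, show (Finset.univ.filter fun i => d i ≠ l) = {i0} from ?_, Finset.card_singleton]
      ext i
      simp only [d, Finset.mem_filter, Finset.mem_univ, true_and, Finset.mem_singleton]
      split_ifs with e <;> simp [e, hml]
    have hcl : (c : F) = l * l := by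
      by_contra hne
      have h3 := Cfsg.Agent.GeomClasses.SympFormDerange.rank_eq hf hgp hl0 c.ne_zero
      rw [hr1, hrk] at h3
      have h4 : (Finset.univ.erase i0) ⊆ Finset.univ.filter fun i => d i ≠ (c : F) / l := by
        intro i hi
        simp only [d, Finset.mem_filter, Finset.mem_univ, true_and, if_neg (Finset.ne_of_mem_erase hi)]
        exact fun e => hne ((div_eq_iff hl0).1 e.symm)
      have := Finset.card_le_card h4
      rw [Finset.card_erase_of_mem (Finset.mem_univ _), Finset.card_univ, Fintype.card_fin, ← h3] at this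
      omega
    have hh : Even ((l⁻¹ • g) - 1).rank := by
      refine Cfsg.Agent.GeomClasses.SympFormDerange.rank_even hf (fun u v => ?_) (r := 2) ?_ (by exact_mod_cast h2)
      · rw [Matrix.smul_mulVec, Matrix.smul_mulVec, hf.bilinear.smul_left, hf.skew, hf.bilinear.smul_left, hgp, hcl,
          hf.skew u v]
        field_simp
      · rw [pow_two, Matrix.smul_mul, Matrix.mul_smul, smul_smul, hgeq]
        simp only [mul_assoc]
        rw [← mul_assoc (P : Matrix (Fin n) (Fin n) F), hPQ, one_mul, ← mul_assoc (Matrix.diagonal d),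
          Matrix.diagonal_mul_diagonal, show (fun i => d i * d i) = fun _ => l * l from funext fun i => by
            simp only [d]; split_ifs <;> ring, ← Matrix.smul_one_eq_diagonal, Matrix.smul_mul, one_mul, Matrix.mul_smul,
          mul_eq_one_comm.1 hPQ, smul_smul]
        rw [show l⁻¹ * l⁻¹ * (l * l) = 1 by field_simp, one_smul]
    have hr2 : ((l⁻¹ • g) - 1).rank = (g - l • 1).rank := by
      have e : g - l • 1 = Matrix.diagonal (fun _ => l) * ((l⁻¹ • g) - 1) := by
        rw [← Matrix.smul_one_eq_diagonal, Matrix.smul_mul, one_mul, smul_sub, smul_smul, mul_inv_cancel₀ hl0, one_smul]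
      rw [e, Matrix.rank_mul_eq_right_of_isUnit_det _ _ (by simp [Matrix.det_diagonal, hl0])]
    rw [hr2, hr1] at hh
    exact Nat.not_even_one hh
  · intro hle x ⟨z, hx⟩ hns
    obtain ⟨hz0, hz'⟩ := hz x z hx
    by_cases hp2 : p = 2
    · subst hp2
      exact Cfsg.Agent.GeomClasses.SympInvolution.square_conj_into hf (by omega) he x hz0 hz'
    · have h2 : (2 : F) ≠ 0 := fun e => hp2 ((Nat.prime_dvd_prime_iff_eq hp Nat.prime_two).1
        ((CharP.cast_eq_zero_iff F p 2).1 (by exact_mod_cast e)))
      refine Cfsg.Agent.GeomClasses.SympInvolution.square_conj_into_odd h2 hf (by omega) he x hz0 hz' fun c hc hcn => ?_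
      set v := padicValNat 2 n
      obtain ⟨b, hb⟩ : 2 ^ v ∣ n := pow_padicValNat_dvd
      have hc0 : c ≠ 0 := fun e => hz0 (by rw [← hc, e, zero_mul])
      have hne : (-1 : F) ≠ 1 := fun e => h2 (by linear_combination -e)
      have hord : orderOf (c ^ b) = 2 ^ (v + 1) := by
        refine orderOf_eq_prime_pow ?_ ?_
        · rw [← pow_mul, mul_comm, ← hb, hcn]; exact hne
        · rw [← pow_mul, mul_comm, pow_succ, mul_right_comm, ← hb, pow_mul, hcn, neg_one_sq]
      have hd : 2 ^ (v + 1) ∣ q - 1 := hord ▸ orderOf_dvd_of_pow_eq_one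
        (hq ▸ FiniteField.pow_card_sub_one_eq_one _ (pow_ne_zero _ hc0))
      have := (padicValNat_dvd_iff_le (show q - 1 ≠ 0 by omega)).1 hd
      omega

end Cfsg.Agent.S5967
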