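import Cfsg.Statements.S5968
import Cfsg.Agent.GeomClasses.SympFormDerange

set_option autoImplicit false
open scoped MatrixGroups
open Cfsg

namespace Cfsg.Agent.S5968

/-- Derangements of odd prime order of PSL_n(q) on the cosets of a symplectic-type subgroup. Here `T = PSL_n(F)` for a field `F` with `q` elements, `n ≥ 4` even, `f` is a nondegenerate alternating form on `F^n`, and `H` is the subgroup of matrices of determinant 1 preserving `f` up to a scalar — a maximal subgroup of type Sp_n(q); Ω is the set of `T`-conjugates of `H` (cosets of `H`), so an element of `T` of prime order `r` (a matrix `x` of determinant 1 with `x^r` scalar, `x` not scalar) fixes a point of Ω when some conjugate of `x` by a matrix of determinant 1 preserves `f` up to a scalar. For every odd prime `r` dividing the index of `H`, with `(n, r) ≠ (6, 3)`, there is an element of `T` of order `r` with no conjugate in `H`. (For `n = 6`, `r = 3` this can fail: when `(q − 1)_3 = 3` every element of order 3 is conjugate into `H`.) -/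
theorem result {F : Type*} [Field F] [Fintype F] {p : ℕ} [Fact p.Prime] [CharP F p] {q : ℕ} (hq : Fintype.card F = q)
    (n : ℕ) (hn : 4 ≤ n) (he : Even n) (f : (Fin n → F) → (Fin n → F) → F) (hf : Cfsg.Geo.IsSymplecticForm f)
    (r : ℕ) [Fact r.Prime] (hr2 : r ≠ 2) (hgap : ¬ (n = 6 ∧ r = 3)) (hΩ : r ∣ ((Cfsg.Geo.similarityGroup f).comap (Matrix.SpecialLinearGroup.toGL : Matrix.SpecialLinearGroup (Fin n) F →* GL (Fin n) F)).index) :
    ∃ x : Matrix.SpecialLinearGroup (Fin n) F,
      (∃ z : F, ((x ^ r : Matrix.SpecialLinearGroup (Fin n) F) : Matrix (Fin n) (Fin n) F) = z • (1 : Matrix (Fin n) (Fin n) F)) ∧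
      (∀ z : F, (x : Matrix (Fin n) (Fin n) F) ≠ z • (1 : Matrix (Fin n) (Fin n) F)) ∧
      ∀ P : Matrix.SpecialLinearGroup (Fin n) F, P⁻¹ * x * P ∉ ((Cfsg.Geo.similarityGroup f).comap (Matrix.SpecialLinearGroup.toGL : Matrix.SpecialLinearGroup (Fin n) F →* GL (Fin n) F)) := by
  classical
  have hr := (Fact.out : r.Prime)
  have hp := (Fact.out : p.Prime)
  have hr3 : 3 ≤ r := by have := hr.two_le; omega
  set H := (Cfsg.Geo.similarityGroup f).comap
    (Matrix.SpecialLinearGroup.toGL : Matrix.SpecialLinearGroup (Fin n) F →* GL (Fin n) F) with hH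
  -- reduction to a statement on matrices
  suffices hm : ∃ x : Matrix (Fin n) (Fin n) F, x.det = 1 ∧ x ^ r = 1 ∧ (∀ z : F, x ≠ z • 1) ∧
      ∀ (g P Q : Matrix (Fin n) (Fin n) F) (c : F), c ≠ 0 → P * Q = 1 → g = Q * x * P → g ^ r = 1 →
        (∀ u v, f (Matrix.mulVec g u) (Matrix.mulVec g v) = c * f u v) → False by
    obtain ⟨x, hdet, hxr, hns, hder⟩ := hm
    obtain ⟨s, hs⟩ : ∃ s : Matrix.SpecialLinearGroup (Fin n) F, (s : Matrix (Fin n) (Fin n) F) = x := ⟨⟨x, hdet⟩, rfl⟩
    have hsr : s ^ r = 1 := Subtype.ext (by rw [Matrix.SpecialLinearGroup.coe_pow, hs]; exact hxr)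
    refine ⟨s, ⟨1, by rw [hsr, one_smul, Matrix.SpecialLinearGroup.coe_one]⟩, fun z => hs ▸ hns z, fun P hP => ?_⟩
    obtain ⟨c, hc⟩ := hP
    have hPQ : (P : Matrix (Fin n) (Fin n) F) * ((P⁻¹ : Matrix.SpecialLinearGroup (Fin n) F) : Matrix (Fin n) (Fin n) F) = 1 := by
      rw [← Matrix.SpecialLinearGroup.coe_mul, mul_inv_cancel, Matrix.SpecialLinearGroup.coe_one]
    refine hder ((P⁻¹ * s * P : Matrix.SpecialLinearGroup (Fin n) F) : Matrix (Fin n) (Fin n) F) _ _ c c.ne_zero hPQ
      (by simp only [Matrix.SpecialLinearGroup.coe_mul, hs]) ?_ hc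
    have h2 : (P⁻¹ * s * P) ^ r = 1 := by
      have h := conj_pow (i := r) (a := P⁻¹) (b := s)
      rw [inv_inv] at h
      rw [h, hsr, mul_one, inv_mul_cancel]
    rw [← Matrix.SpecialLinearGroup.coe_pow, h2, Matrix.SpecialLinearGroup.coe_one]
  by_cases hrp : r = p
  · -- a Jordan block of length three
    subst hrp
    let i0 : Fin n := ⟨0, by omega⟩
    let i1 : Fin n := ⟨1, by omega⟩
    let i2 : Fin n := ⟨2, by omega⟩
    have h01 : i0 ≠ i1 := by simp [i0, i1, Fin.ext_iff]
    have h12 : i1 ≠ i2 := by simp [i1, i2, Fin.ext_iff]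
    have h02 : i0 ≠ i2 := by simp [i0, i2, Fin.ext_iff]
    let N : Matrix (Fin n) (Fin n) F := Matrix.single i0 i1 1 + Matrix.single i1 i2 1
    have hNN : N * N = Matrix.single i0 i2 1 := by
      simp [N, add_mul, mul_add, h01.symm, h12.symm, h02.symm, h01, h12, h02]
    have hN3 : N * (N * N) = 0 := by
      rw [hNN]; simp [N, add_mul, h01.symm, h02.symm, h12.symm, h01, h02, h12]
    refine ⟨1 + N, ?_, ?_, ?_, ?_⟩
    · have htri : (1 + N).BlockTriangular id := by
        intro i j (hij : j < i)
        simp only [Matrix.add_apply, Matrix.one_apply_ne hij.ne', N, Matrix.single_apply]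
        rw [if_neg (by rintro ⟨rfl, rfl⟩; exact absurd hij (by simp [i0, i1, Fin.lt_def])),
          if_neg (by rintro ⟨rfl, rfl⟩; exact absurd hij (by simp [i1, i2, Fin.lt_def]))]
        simp
      rw [Matrix.det_of_upperTriangular htri]
      refine Finset.prod_eq_one fun i _ => ?_
      simp only [Matrix.add_apply, Matrix.one_apply_eq, N, Matrix.single_apply]
      rw [if_neg (fun h => h01 (h.1.trans h.2.symm)), if_neg (fun h => h12 (h.1.trans h.2.symm))]
      simp
    · haveI : CharP (Matrix (Fin n) (Fin n) F) r := by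
        haveI : Nonempty (Fin n) := ⟨i0⟩
        infer_instance
      rw [add_pow_char_of_commute _ (Commute.one_left N), one_pow, show r = (r - 3) + 3 by omega, pow_add,
        pow_three, hN3, mul_zero, add_zero]
    · intro z h
      have := congrFun (congrFun h i0) i1
      simp [N, Matrix.single_apply, h01, h12, h01.symm] at this
    · intro g P Q c hc0 hPQ hg hgr hgp
      have hc1 : c = 1 := by
        have h := Cfsg.Agent.GeomClasses.SympFormDerange.multiplier_pow hf (by omega) hgp hgr
        have h' : (c - 1) ^ r = 0 := by rw [sub_pow_char, one_pow, h, sub_self]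
        exact sub_eq_zero.1 (eq_zero_of_pow_eq_zero h')
      subst hc1
      have hQP : Q * P = 1 := mul_eq_one_comm.1 hPQ
      have hg' : g = 1 + Q * N * P := by rw [hg, mul_add, add_mul, mul_one, hQP]
      set M := Q * N * P with hM
      have hmm : ∀ a b, Q * a * P * (Q * b * P) = Q * (a * b) * P := fun a b => by
        simp only [mul_assoc]
        rw [← mul_assoc P Q, hPQ, one_mul]
      have hMM : M * M = Q * (N * N) * P := hmm N N
      have hM3 : M * (M * M) = 0 := by rw [hMM, hM, hmm, hN3, mul_zero, zero_mul]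
      let φ : (Fin n → F) →ₗ[F] F := (LinearMap.proj i2).comp (Matrix.mulVecLin P)
      refine Cfsg.Agent.GeomClasses.SympFormDerange.no_three_block hf hM3
        (fun u v => by rw [← hg', hgp, one_mul]) (φ := φ) (a := Matrix.mulVec Q (Pi.single i0 1)) (fun u => ?_) ?_ ?_ ?_
      · rw [Matrix.mulVec_mulVec, hMM, hNN, ← Matrix.mulVec_mulVec, ← Matrix.mulVec_mulVec, ← Matrix.mulVec_smul]
        congr 1
        funext k
        simp [φ, Matrix.mulVec, dotProduct, Matrix.single_apply, Pi.single_apply, eq_comm, ite_and]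
      · intro h
        have := LinearMap.congr_fun h (Matrix.mulVec Q (Pi.single i2 1))
        simp only [φ, LinearMap.comp_apply, LinearMap.proj_apply, Matrix.mulVecLin_apply, Matrix.mulVec_mulVec, hPQ,
          Matrix.one_mulVec, LinearMap.zero_apply, Pi.single_eq_same] at this
        exact one_ne_zero this
      · intro h
        have := congrArg (Matrix.mulVec P) h
        rw [Matrix.mulVec_mulVec, hPQ, Matrix.one_mulVec, Matrix.mulVec_zero] at this
        simpa using congrFun this i0
      · intro h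
        have : r ∣ 2 := (CharP.cast_eq_zero_iff F r 2).1 (by exact_mod_cast h)
        have := Nat.le_of_dvd (by norm_num) this
        omega
  obtain ⟨nn, -, hnn⟩ := FiniteField.card F p
  have hrq : ¬ r ∣ q := by
    rw [← hq, hnn]
    exact fun h => hrp ((Nat.prime_dvd_prime_iff_eq hr hp).1 (hr.dvd_of_dvd_pow h))
  have hrF : (r : F) ≠ 0 := fun h => hrp ((Nat.prime_dvd_prime_iff_eq hp hr).1
    ((CharP.cast_eq_zero_iff F p r).1 h)).symm
  obtain ⟨j, hjodd, hjn, hj⟩ := Cfsg.Agent.GeomClasses.SympFormDerange.odd_dvd hq he f hf hr hrq hΩ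
  have hq1 : 1 < q := hq ▸ Fintype.one_lt_card
  have hq0 : (q : ZMod r) ≠ 0 := fun h => hrq ((ZMod.natCast_eq_zero_iff _ _).1 h)
  have hiff : ∀ k, r ∣ q ^ k - 1 ↔ orderOf (q : ZMod r) ∣ k := by
    intro k
    rw [orderOf_dvd_iff_pow_eq_one, ← ZMod.natCast_eq_zero_iff, Nat.cast_sub (Nat.one_le_pow _ _ (by omega)),
      Nat.cast_pow, Nat.cast_one, sub_eq_zero]
  set i := orderOf (q : ZMod r) with hi
  have hij : i ∣ j := (hiff j).1 hj
  have hiodd : Odd i := hjodd.of_dvd_nat hij
  have hile : i ≤ n := (Nat.le_of_dvd hjodd.pos hij).trans hjn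
  have hi1 : 1 ≤ i := hiodd.pos
  have hunit : ∀ d : F, d ^ r = 1 → ¬ r ∣ q - 1 → d = 1 := by
    intro d hd hnd
    have hd0 : d ≠ 0 := fun e => by rw [e, zero_pow hr.ne_zero] at hd; exact zero_ne_one hd
    have h1 : orderOf d ∣ r := orderOf_dvd_of_pow_eq_one hd
    have h2 : orderOf d ∣ q - 1 := orderOf_dvd_of_pow_eq_one (hq ▸ FiniteField.pow_card_sub_one_eq_one d hd0)
    rcases (Nat.dvd_prime hr).1 h1 with e | e
    · exact orderOf_eq_one_iff.1 e
    · exact absurd (e ▸ h2) hnd
  by_cases hi2 : i = 1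
  · -- a diagonal element
    have hdvd : r ∣ q - 1 := by have := (hiff 1).2 (dvd_of_eq hi2); rwa [pow_one] at this
    obtain ⟨ζu, hζu⟩ := exists_prime_orderOf_dvd_card' (G := Fˣ) r (by
      rwa [Nat.card_units, Nat.card_eq_fintype_card, hq])
    set ζ : F := (ζu : F) with hζdef
    have hζord : orderOf ζ = r := by rw [hζdef, orderOf_units, hζu]
    have hζ0 : ζ ≠ 0 := ζu.ne_zero
    have hζpow : ∀ k, 0 < k → k < r → ζ ^ k ≠ 1 := fun k hk hkr h => by
      have := Nat.le_of_dvd hk (hζord ▸ orderOf_dvd_of_pow_eq_one h)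
      omega
    set η : F := (ζ * ζ)⁻¹ with hη
    have hηr : η ^ r = 1 := by rw [hη, inv_pow, mul_pow, ← hζord, pow_orderOf_eq_one, one_mul, inv_one]
    let d : Fin n → F := fun k => if (k : ℕ) < 2 then ζ else if (k : ℕ) = 2 then η else 1
    let cnt : F → ℕ := fun l => (Finset.univ.filter fun k => d k = l).card
    have hrank : ∀ l : F, (Matrix.diagonal d - l • 1).rank + cnt l = n := by
      intro l
      rw [Matrix.smul_one_eq_diagonal, Matrix.diagonal_sub, Matrix.rank_diagonal, Fintype.card_subtype]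
      have h := Finset.card_filter_add_card_filter_not (s := (Finset.univ : Finset (Fin n))) (fun k => d k = l)
      rw [Finset.card_univ, Fintype.card_fin] at h
      have e : (Finset.univ.filter fun k => d k - l ≠ 0) = Finset.univ.filter fun k => ¬ d k = l :=
        Finset.filter_congr fun k _ => sub_ne_zero
      simp only [cnt]
      simp only [ne_eq] at e ⊢
      rw [e]
      omega
    have hsum : ∀ l : F, cnt l = (if ζ = l then 2 else 0) + (if η = l then 1 else 0) + (if (1 : F) = l then n - 3 else 0) := by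
      intro l
      obtain ⟨k, rfl⟩ : ∃ k, n = 3 + k := ⟨n - 3, by omega⟩
      have hd1 : ∀ x : Fin k, d (Fin.natAdd 3 x) = 1 := fun x => by
        simp only [d, Fin.val_natAdd]; rw [if_neg (by omega), if_neg (by omega)]
      have hd0 : d (Fin.castAdd k 0) = ζ ∧ d (Fin.castAdd k 1) = ζ ∧ d (Fin.castAdd k 2) = η := by
        simp [d]
      simp only [cnt, Finset.card_filter]
      rw [Fin.sum_univ_add, Fin.sum_univ_three]
      simp only [hd1, hd0, Finset.sum_const, Finset.card_univ, Fintype.card_fin, smul_eq_mul, Nat.add_sub_cancel_left]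
      split_ifs <;> simp
    refine ⟨Matrix.diagonal d, ?_, ?_, ?_, ?_⟩
    · rw [Matrix.det_diagonal]
      obtain ⟨k, rfl⟩ : ∃ k, n = 3 + k := ⟨n - 3, by omega⟩
      have hd1 : ∀ x : Fin k, d (Fin.natAdd 3 x) = 1 := fun x => by
        simp only [d, Fin.val_natAdd]; rw [if_neg (by omega), if_neg (by omega)]
      have hd0 : d (Fin.castAdd k 0) = ζ ∧ d (Fin.castAdd k 1) = ζ ∧ d (Fin.castAdd k 2) = η := by
        simp [d]
      rw [Fin.prod_univ_add, Fin.prod_univ_three]
      simp only [hd1, hd0, Finset.prod_const_one, mul_one, hη]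
      exact mul_inv_cancel₀ (mul_ne_zero hζ0 hζ0)
    · rw [Matrix.diagonal_pow, ← Matrix.diagonal_one]
      congr 1
      funext k
      simp only [Pi.pow_apply, d]
      split_ifs
      · rw [← hζord, pow_orderOf_eq_one]
      · exact hηr
      · exact one_pow r
    · intro z h
      have e0 := congrFun (congrFun h ⟨0, by omega⟩) ⟨0, by omega⟩
      have e3 := congrFun (congrFun h ⟨3, by omega⟩) ⟨3, by omega⟩
      simp [d] at e0 e3
      exact hζpow 1 one_pos (by omega) (by rw [pow_one, e0, e3])
    · intro g P Q c hc0 hPQ hg hgr hgp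
      have hcnt : ∀ l : F, l ≠ 0 → cnt (c / l) = cnt l := by
        intro l hl
        have h1 := Cfsg.Agent.GeomClasses.SympFormDerange.rank_eq hf hgp hl hc0
        rw [Cfsg.Agent.GeomClasses.SympFormDerange.rank_conj hPQ hg,
          Cfsg.Agent.GeomClasses.SympFormDerange.rank_conj hPQ hg] at h1
        have h2 := hrank l
        have h3 := hrank (c / l)
        omega
      have h1ζ : (1 : F) ≠ ζ := fun e => hζpow 1 one_pos (by omega) (by rw [pow_one, ← e])
      have h1η : (1 : F) ≠ η := fun e => hζpow 2 two_pos (by omega) (by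
        rw [pow_two]; rw [hη, eq_comm, inv_eq_one] at e; exact e)
      obtain ⟨half, hhalf⟩ := id he
      by_cases hr3' : r = 3
      · have hηζ : η = ζ := by
          rw [hη, inv_eq_iff_eq_inv, ← mul_eq_one_iff_eq_inv₀ hζ0, ← pow_two, ← pow_succ, show 2 + 1 = r by omega,
            ← hζord, pow_orderOf_eq_one]
        have hn6 : n ≠ 6 := fun e => hgap ⟨e, hr3'⟩
        simp only [hsum, hηζ] at hcnt
        have hc := hcnt 1 one_ne_zero
        simp only [div_one, if_neg h1ζ.symm, if_pos rfl, if_true, if_pos rfl, h1ζ.symm, h1η.symm, h1ζ, if_false] at hc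
        rcases eq_or_ne (1 : F) c with rfl | hc1
        · have h := hcnt ζ hζ0
          simp only [one_div, if_pos rfl, if_neg h1ζ, if_true, if_pos rfl, h1ζ.symm, h1η.symm, h1ζ, if_false] at h
          have e1 : ζ ≠ ζ⁻¹ := fun e => hζpow 2 two_pos (by omega) (by
            rw [pow_two]; exact mul_eq_one_iff_eq_inv₀ hζ0 |>.2 e)
          have e2 : (1 : F) ≠ ζ⁻¹ := fun e => h1ζ (inv_eq_one.1 e.symm).symm
          simp only [if_neg e1, if_neg e2, if_true, if_pos rfl, h1ζ.symm, h1η.symm, h1ζ, if_false] at h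
          omega
        · simp only [if_neg hc1] at hc
          split_ifs at hc <;> omega
      · have hηζ : η ≠ ζ := fun e => hζpow 3 (by norm_num) (by omega) (by
          rw [hη, inv_eq_iff_eq_inv, ← mul_eq_one_iff_eq_inv₀ hζ0] at e
          rw [pow_succ, pow_two]; exact e)
        simp only [hsum] at hcnt
        have hc := hcnt 1 one_ne_zero
        simp only [div_one, if_neg h1ζ.symm, if_neg h1η.symm, if_pos rfl, if_true, if_pos rfl, h1ζ.symm, h1η.symm, h1ζ, if_false] at hc
        have h := hcnt ζ hζ0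
        simp only [if_pos rfl, if_neg hηζ, if_neg h1ζ, if_true, if_pos rfl, h1ζ.symm, h1η.symm, h1ζ, if_false] at h
        rcases eq_or_ne (1 : F) c with rfl | hc1
        · rw [one_div] at h
          have e1 : ζ ≠ ζ⁻¹ := fun e => hζpow 2 two_pos (by omega) (by
            rw [pow_two]; exact mul_eq_one_iff_eq_inv₀ hζ0 |>.2 e)
          have e2 : (1 : F) ≠ ζ⁻¹ := fun e => h1ζ (inv_eq_one.1 e.symm).symm
          simp only [if_neg e1, if_neg e2, if_true, if_pos rfl, h1ζ.symm, h1η.symm, h1ζ, if_false] at h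
          split_ifs at h <;> omega
        · simp only [if_neg hc1] at hc
          have hηc : η = c := by
            by_contra hne
            rw [if_neg hne] at hc
            split_ifs at hc <;> omega
          have hn4 : n = 4 := by
            rw [if_pos hηc, if_neg (fun e => hηζ (hηc.trans e.symm))] at hc
            omega
          rw [← hηc] at h
          have e1 : ζ ≠ η / ζ := fun e => by
            rw [eq_div_iff hζ0, hη, ← mul_eq_one_iff_eq_inv₀ (mul_ne_zero hζ0 hζ0)] at e
            rcases lt_or_eq_of_le (show 4 ≤ r by omega) with h4 | h4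
            · exact hζpow 4 (by norm_num) h4 (by rw [← e]; ring)
            · exact absurd (h4 ▸ hr) (by norm_num)
          have e2 : η ≠ η / ζ := fun e => by
            rw [eq_div_iff hζ0, mul_eq_left₀ (inv_ne_zero (mul_ne_zero hζ0 hζ0))] at e
            exact h1ζ e.symm
          simp only [if_neg e1, if_neg e2] at h
          split_ifs at h <;> omega
  · -- an element moving an odd-dimensional subspace
    have hnd : ¬ r ∣ q - 1 := fun h => hi2 (Nat.dvd_one.1 ((hiff 1).1 (by rwa [pow_one])))
    obtain ⟨x, hxr, hrk⟩ := Cfsg.Agent.GeomClasses.SympFormDerange.exists_small (n := n) hq hrq hrF hi1 hile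
      ((hiff i).2 dvd_rfl) (fun k hk hki hd => absurd (Nat.le_of_dvd hk ((hiff k).1 hd)) (not_le.2 hki))
    refine ⟨x, hunit _ (by rw [← Matrix.det_pow, hxr, Matrix.det_one]) hnd, hxr, ?_, ?_⟩
    · intro z hz
      have hz1 : z = 1 := by
        refine hunit z ?_ hnd
        have := congrFun (congrFun hxr ⟨0, by omega⟩) ⟨0, by omega⟩
        rw [hz, smul_pow, one_pow] at this
        simpa using this
      rw [hz, hz1, one_smul, sub_self, Matrix.rank_zero] at hrk
      omega
    · intro g P Q c hc0 hPQ hg hgr hgp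
      have hc1 := hunit c (Cfsg.Agent.GeomClasses.SympFormDerange.multiplier_pow hf (by omega) hgp hgr) hnd
      have he' := Cfsg.Agent.GeomClasses.SympFormDerange.rank_even hf
        (fun u v => by rw [hgp, hc1, one_mul]) hgr hrF
      have h1 := Cfsg.Agent.GeomClasses.SympFormDerange.rank_conj hPQ hg 1
      rw [one_smul] at h1
      rw [h1, hrk] at he'
      exact (Nat.not_even_iff_odd.2 hiodd) he'

end Cfsg.Agent.S5968
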