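import Cfsg.Statements.S5969
import Cfsg.Agent.GeomClasses.QuadExtInvolution
import Cfsg.Agent.GeomClasses.EigenBasisTwo

set_option autoImplicit false
open scoped MatrixGroups
open Cfsg

namespace Cfsg.Agent.S5969

/-- Involutions of PSL_n(q) and extension-field subgroups of degree 2. Here `T = PSL_n(F)` for a field `F` with `q = p^f` elements (`n ≥ 2`, `(n, q) ≠ (2, 2), (2, 3)`), `k` is a prime dividing `n`, `K` is a subalgebra of the `n × n` matrices that is a field of degree `k` over `F` (an extension-field structure F_{q^k} on `F^n`), and `H` is the subgroup of matrices of determinant 1 normalizing `K` — a subgroup of type GL_{n/k}(q^k) (maximal except in some small cases; maximality is not assumed); Ω is the set of cosets of `H` in `T`, so an element of `T` of prime order `r` (a matrix `x` of determinant 1 with `x^r` scalar, `x` not scalar) fixes a point of Ω when some conjugate of `x` by a matrix of determinant 1 normalizes `K`. Take `k = 2` and suppose the index of `H` is even. Then every involution of `T` is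 conjugate in `T` into `H` if and only if `n = 2`, or `q` is odd and `(q − 1)_2 ≤ (n)_2`. -/
theorem result {F : Type*} [Field F] [Fintype F] {p : ℕ} [Fact p.Prime] [CharP F p] {q : ℕ} (hq : Fintype.card F = q)
    (n : ℕ) (hn : 2 ≤ n) (hT : (n, q) ≠ (2, 2) ∧ (n, q) ≠ (2, 3))
    (k : ℕ) (hk : k.Prime) (hkn : k ∣ n) (K : Subalgebra F (Matrix (Fin n) (Fin n) F)) (hK : Cfsg.Geo.IsFieldSubalgebra k K) (hk2 : k = 2) (hΩ : 2 ∣ ((Cfsg.Geo.subalgebraNormalizer K).comap (Matrix.SpecialLinearGroup.toGL : Matrix.SpecialLinearGroup (Fin n) F →* GL (Fin n) F)).index) :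
    (∀ x : Matrix.SpecialLinearGroup (Fin n) F,
      (∃ z : F, ((x ^ 2 : Matrix.SpecialLinearGroup (Fin n) F) : Matrix (Fin n) (Fin n) F) = z • (1 : Matrix (Fin n) (Fin n) F)) →
      (∀ z : F, (x : Matrix (Fin n) (Fin n) F) ≠ z • (1 : Matrix (Fin n) (Fin n) F)) →
      ∃ P : Matrix.SpecialLinearGroup (Fin n) F, P⁻¹ * x * P ∈ ((Cfsg.Geo.subalgebraNormalizer K).comap (Matrix.SpecialLinearGroup.toGL : Matrix.SpecialLinearGroup (Fin n) F →* GL (Fin n) F))) ↔
    (n = 2 ∨ (Odd q ∧ padicValNat 2 (q - 1) ≤ padicValNat 2 n)) := by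
  classical
  subst hk2
  obtain ⟨h', hh'⟩ := hkn
  have hp := (Fact.out : p.Prime)
  have hq1 : 1 < q := hq ▸ Fintype.one_lt_card
  have hn1 : 1 ≤ n := by omega
  have hn0 : n ≠ 0 := by omega
  haveI hne : Nonempty (Fin n) := ⟨⟨0, hn1⟩⟩
  let i0 : Fin n := ⟨0, by omega⟩
  let i1 : Fin n := ⟨1, by omega⟩
  have h01 : i0 ≠ i1 := by simp [i0, i1, Fin.ext_iff]
  have hz : ∀ (x : Matrix.SpecialLinearGroup (Fin n) F) (z : F),
      ((x ^ 2 : Matrix.SpecialLinearGroup (Fin n) F) : Matrix (Fin n) (Fin n) F) = z • (1 : Matrix (Fin n) (Fin n) F) →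
      z ≠ 0 ∧ (x : Matrix (Fin n) (Fin n) F) * x = z • 1 ∧
        ∀ v, Matrix.mulVec (x : Matrix (Fin n) (Fin n) F) (Matrix.mulVec (x : Matrix (Fin n) (Fin n) F) v) = z • v := by
    intro x z hx
    refine ⟨fun h => ?_, ?_, fun v => ?_⟩
    · have := congrArg Matrix.det hx
      rw [(x ^ 2).2, h, zero_smul, Matrix.det_zero] at this
      exact one_ne_zero this
    · rwa [Matrix.SpecialLinearGroup.coe_pow, pow_two] at hx
    · rw [Matrix.SpecialLinearGroup.coe_pow, pow_two] at hx
      rw [Matrix.mulVec_mulVec, hx, Matrix.smul_mulVec, Matrix.one_mulVec]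
  set v := padicValNat 2 n
  have hq2 : p = 2 ↔ ¬ Odd q := by
    obtain ⟨nn, -, hnn⟩ := FiniteField.card F p
    rw [← hq, hnn]
    constructor
    · rintro rfl; exact Nat.not_odd_iff_even.2 ((even_two).pow_of_ne_zero (PNat.ne_zero nn))
    · intro h; by_contra hp2; exact h (hp.odd_of_ne_two hp2).pow
  constructor
  · intro h
    by_contra hc
    rw [not_or, not_and] at hc
    obtain ⟨hn2, hc⟩ := hc
    have main : ∀ (x : Matrix.SpecialLinearGroup (Fin n) F) (l : F), l ≠ 0 →
        ((x : Matrix (Fin n) (Fin n) F) - l • 1).rank = 1 →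
        (∃ z : F, ((x ^ 2 : Matrix.SpecialLinearGroup (Fin n) F) : Matrix (Fin n) (Fin n) F) = z • 1) → False := by
      intro x l hl hrk hz
      obtain ⟨P, hP⟩ := h x hz (fun c e => by
        rw [e, ← sub_smul] at hrk
        by_cases hcl : c - l = 0
        · rw [hcl, zero_smul, Matrix.rank_zero] at hrk; exact zero_ne_one hrk
        · rw [Matrix.rank_of_isUnit _ (IsUnit.of_mul_eq_one ((c - l)⁻¹ • 1) (by
            rw [Matrix.smul_mul, one_mul, smul_smul, mul_inv_cancel₀ hcl, one_smul])), Fintype.card_fin] at hrk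
          omega)
      refine Cfsg.Agent.GeomClasses.QuadExtInvolution.no_rank_one (by omega) hK hP hl ?_
      have hPQ : (P : Matrix (Fin n) (Fin n) F) * ((P⁻¹ : Matrix.SpecialLinearGroup (Fin n) F) : Matrix (Fin n) (Fin n) F) = 1 := by
        rw [← Matrix.SpecialLinearGroup.coe_mul, mul_inv_cancel, Matrix.SpecialLinearGroup.coe_one]
      show (((P⁻¹ * x * P : Matrix.SpecialLinearGroup (Fin n) F) : Matrix (Fin n) (Fin n) F) - l • 1).rank = 1
      rw [Cfsg.Agent.GeomClasses.SympFormDerange.rank_conj (x := (x : Matrix (Fin n) (Fin n) F)) hPQ (by simp only [Matrix.SpecialLinearGroup.coe_mul]) l, hrk]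
    by_cases hodd : Odd q
    · have hlt := not_le.1 (hc hodd)
      have hdvd : 2 ^ (v + 1) ∣ q - 1 := (padicValNat_dvd_iff_le (show q - 1 ≠ 0 by omega)).2 hlt
      have h2 : (2 : F) ≠ 0 := fun e => (hq2.1 ((Nat.prime_dvd_prime_iff_eq hp Nat.prime_two).1
        ((CharP.cast_eq_zero_iff F p 2).1 (by exact_mod_cast e)))) hodd
      obtain ⟨u, hu⟩ := IsCyclic.exists_ofOrder_eq_natCard (α := Fˣ)
      rw [Nat.card_units, Nat.card_eq_fintype_card, hq] at hu
      obtain ⟨a, ha⟩ := hdvd
      set w := u ^ a
      have hw : orderOf w = 2 ^ (v + 1) := by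
        have ha0 : a ≠ 0 := fun e => by rw [e, mul_zero] at ha; omega
        rw [orderOf_pow' u ha0, hu, ha, Nat.gcd_mul_left_left, Nat.mul_div_cancel _ (Nat.pos_of_ne_zero ha0)]
      set l : F := (w : F) with hl
      have hl0 : l ≠ 0 := w.ne_zero
      have hlord : orderOf l = 2 ^ (v + 1) := by rw [hl, orderOf_units, hw]
      have hln : l ^ n = -1 := by
        have h1 : l ^ 2 ^ v * l ^ 2 ^ v = 1 := by
          rw [← pow_add, ← two_mul, ← pow_succ', ← hlord, pow_orderOf_eq_one]
        have h3 : l ^ 2 ^ v = -1 := (mul_self_eq_one_iff.1 h1).resolve_left fun e => by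
          have := Nat.le_of_dvd (by positivity) (hlord ▸ orderOf_dvd_of_pow_eq_one e)
          rw [pow_succ] at this
          have := pow_pos (show 0 < 2 by norm_num) v
          omega
        obtain ⟨b, hb⟩ : 2 ^ v ∣ n := pow_padicValNat_dvd
        have hbodd : Odd b := Nat.not_even_iff_odd.1 fun ⟨c, hc⟩ => by
          have hd : 2 ^ (v + 1) ∣ n := ⟨c, by rw [hb, hc, pow_succ]; ring⟩
          exact pow_succ_padicValNat_not_dvd hn0 hd
        rw [hb, pow_mul, h3, hbodd.neg_one_pow]
      let d : Fin n → F := fun i => if i = i0 then -l else l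
      obtain ⟨x, hx⟩ : ∃ x : Matrix.SpecialLinearGroup (Fin n) F, (x : Matrix (Fin n) (Fin n) F) = Matrix.diagonal d := by
        refine ⟨⟨Matrix.diagonal d, ?_⟩, rfl⟩
        rw [Matrix.det_diagonal, show d = fun i => (if i = i0 then -1 else 1) * l from funext fun i => by
          simp only [d]; split_ifs <;> ring, Finset.prod_mul_distrib, Finset.prod_const, Finset.card_univ, Fintype.card_fin, hln]
        simp
      refine main x l hl0 ?_ ⟨l * l, by
        rw [Matrix.SpecialLinearGroup.coe_pow, hx, Matrix.diagonal_pow, Matrix.smul_one_eq_diagonal]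
        congr 1
        funext i
        simp only [Pi.pow_apply, d]
        split_ifs <;> ring⟩
      have hml : -l - l ≠ 0 := fun e => mul_ne_zero h2 hl0 (by linear_combination -e)
      rw [hx, Matrix.smul_one_eq_diagonal, Matrix.diagonal_sub, Matrix.rank_diagonal, Fintype.card_eq_one_iff]
      refine ⟨⟨i0, by simp only [d, if_pos, ne_eq]; exact hml⟩, fun ⟨i, hi⟩ => Subtype.ext ?_⟩
      by_contra hne
      simp only [d, if_neg hne, sub_self, ne_eq, not_true_eq_false] at hi
    · obtain rfl := hq2.2 hodd
      obtain ⟨x, hx⟩ : ∃ x : Matrix.SpecialLinearGroup (Fin n) F, (x : Matrix (Fin n) (Fin n) F) = 1 + Matrix.single i0 i1 1 :=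
        ⟨⟨1 + Matrix.single i0 i1 1, Matrix.det_transvection_of_ne i0 i1 h01 (1 : F)⟩, rfl⟩
      refine main x 1 one_ne_zero ?_ ⟨1, ?_⟩
      · rw [hx, one_smul, add_sub_cancel_left]
        refine le_antisymm ?_ (Nat.one_le_iff_ne_zero.2 fun e => ?_)
        · rw [show Matrix.single i0 i1 (1 : F) = Matrix.vecMulVec (Pi.single i0 1) (Pi.single i1 1) from ?_]
          · exact Matrix.rank_vecMulVec_le _ _
          ext i j
          simp only [Matrix.vecMulVec_apply, Matrix.single_apply, Pi.single_apply, eq_comm, ite_and]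
          split_ifs <;> simp
        · have h0 : LinearMap.range (Matrix.single i0 i1 (1 : F)).mulVecLin = ⊥ := Submodule.finrank_eq_zero.1 e
          have h1 : (Matrix.single i0 i1 (1 : F)).mulVecLin (Pi.single i1 1) = 0 :=
            (Submodule.mem_bot F).1 (h0 ▸ LinearMap.mem_range_self _ _)
          have h2 := congrFun h1 i0
          simp [Matrix.single_apply] at h2
      · rw [Matrix.SpecialLinearGroup.coe_pow, hx, one_smul, pow_two]
        simp [add_mul, mul_add, h01.symm, CharTwo.add_self_eq_zero, add_assoc]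
  · intro hR x ⟨z, hx⟩ hns
    obtain ⟨hz0, hxx, hz'⟩ := hz x z hx
    obtain ⟨w, c, d, hw, hww, hno, hspan, hc1, hc2⟩ := Cfsg.Agent.GeomClasses.QuadExtInvolution.exists_gen hn1 hK
    by_cases hodd : Odd q
    swap
    · -- characteristic two in dimension two
      obtain rfl := hq2.2 hodd
      have hn2 : n = 2 := hR.resolve_right fun e => hodd e.1
      subst hn2
      have h2F : (2 : F) = 0 := CharTwo.two_eq_zero
      obtain rfl := hc2 h2F
      obtain ⟨k, l, b, hb1, hb2⟩ := Cfsg.Agent.GeomClasses.InvolutionBlocks.exists_pairBasis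
        (Matrix.mulVecLin (x : Matrix (Fin 2) (Fin 2) F)) z hz0 hz'
      obtain ⟨t, ht⟩ := FiniteField.isSquare_of_char_two (ringChar.eq F 2) z
      have ht0 : t ≠ 0 := fun h => hz0 (by rw [ht, h, zero_mul])
      have hdim := Module.finrank_eq_card_basis b
      simp only [Module.finrank_pi, Fintype.card_fin, Fintype.card_sum, Fintype.card_prod] at hdim
      obtain rfl : k = 1 := by
        by_contra hk
        obtain rfl : k = 0 := by omega
        refine hns t (Matrix.toLin'.injective (b.ext fun i => ?_))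
        rcases i with ⟨i, -⟩ | i
        · exact i.elim0
        · obtain ⟨μ, hμ⟩ := hb2 i
          have h1 := hz' (b (Sum.inr i))
          simp only [Matrix.mulVecLin_apply] at hμ
          rw [hμ, Matrix.mulVec_smul, hμ, smul_smul] at h1
          have h3 := smul_left_injective F (b.ne_zero _) h1
          rw [CharTwo.sq_inj.1 (show μ ^ 2 = t ^ 2 by rw [pow_two, pow_two, ← ht]; exact h3)] at hμ
          rw [Matrix.toLin'_apply, Matrix.toLin'_apply, hμ, Matrix.smul_mulVec, Matrix.one_mulVec]
      obtain rfl : l = 0 := by omega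
      obtain ⟨h0, h1⟩ := hb1 0
      simp only [Matrix.mulVecLin_apply] at h0 h1
      let e := b (Sum.inl (0, 0))
      let u := e + t⁻¹ • b (Sum.inl (0, 1))
      have hu : Matrix.mulVec (x : Matrix (Fin 2) (Fin 2) F) u = t • u := by
        simp only [u, e, Matrix.mulVec_add, Matrix.mulVec_smul, h0, h1, ht, smul_add, smul_smul, mul_inv_cancel₀ ht0, one_smul]
        rw [show t⁻¹ * (t * t) = t by field_simp]
        abel
      have he : Matrix.mulVec (x : Matrix (Fin 2) (Fin 2) F) e = t • u + t • e := by
        simp only [u, e, h0, smul_add, smul_smul, mul_inv_cancel₀ ht0, one_smul]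
        rw [add_comm (t • b (Sum.inl (0, 0))), add_assoc, ← add_smul, CharTwo.add_self_eq_zero, zero_smul, add_zero]
      have hli : LinearIndependent F ![u, e] := by
        refine LinearIndependent.pair_iff.2 fun a a' h => ?_
        have h5 := congrArg b.repr h
        have e1 := congrArg (fun f => f (Sum.inl (0, 1))) h5
        have e0 := congrArg (fun f => f (Sum.inl (0, 0))) h5
        simp [u, e, ht0] at e1 e0
        subst e1
        exact ⟨rfl, by simpa using e0⟩
      let e2 : Fin 2 ≃ Fin 1 × Fin 2 := (Equiv.uniqueProd (Fin 2) (Fin 1)).symm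
      have hE : Module.finrank F (Fin 2 → F) = Fintype.card (Fin 2) := by simp
      let bx := (basisOfLinearIndependentOfCardEqFinrank' ![u, e] hli hE.symm).reindex e2
      let v0 : Fin 2 → F := Pi.single 0 1
      have hliw : LinearIndependent F ![v0, Matrix.mulVec w v0] := by
        refine LinearIndependent.pair_iff.2 fun a a' h => ?_
        by_cases ha' : a' = 0
        · subst ha'
          rw [zero_smul, add_zero] at h
          exact ⟨(smul_eq_zero.1 h).resolve_right (by simp [v0]), rfl⟩
        · exfalso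
          have h3 : Matrix.mulVec w v0 = (-(a / a')) • v0 := by
            have h4 := congrArg (fun y => a'⁻¹ • y) h
            simp only [smul_add, smul_smul, inv_mul_cancel₀ ha', one_smul, smul_zero] at h4
            rw [eq_neg_of_add_eq_zero_right h4, neg_smul, div_eq_inv_mul]
          have h4 : Matrix.mulVec (w * w) v0 = ((-(a / a')) * (-(a / a'))) • v0 := by
            rw [← Matrix.mulVec_mulVec, h3, Matrix.mulVec_smul, h3, smul_smul]
          rw [hww, Matrix.add_mulVec, Matrix.smul_mulVec, Matrix.smul_mulVec, Matrix.one_mulVec, h3, smul_smul, ← add_smul] at h4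
          exact hno _ (smul_left_injective F (by simp [v0]) h4).symm
      let bw := (basisOfLinearIndependentOfCardEqFinrank' ![v0, Matrix.mulVec w v0] hliw hE.symm).reindex e2
      refine Cfsg.Agent.GeomClasses.QuadExtInvolution.conj_into hw hspan bw bx (c := 1) (d := d) (fun p => ?_) x
        (fun _ => !![t, t; 0, t]) (fun p k => ?_) (ε := 1) (η := 1) one_ne_zero (fun p => ?_) (fun s hs => ?_)
      · obtain rfl := Subsingleton.elim p 0
        have b0 : bw (0, 0) = v0 := by simp [bw, e2, Equiv.uniqueProd]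
        have b1 : bw (0, 1) = Matrix.mulVec w v0 := by simp [bw, e2, Equiv.uniqueProd]
        rw [b0, b1]
        refine ⟨rfl, ?_⟩
        rw [Matrix.mulVec_mulVec, hww, Matrix.add_mulVec, one_smul, one_smul, Matrix.smul_mulVec, Matrix.one_mulVec, add_comm]
      · obtain rfl := Subsingleton.elim p 0
        fin_cases k <;> simp [bx, e2, Equiv.uniqueProd, hu, he]
      · ext i j
        fin_cases i <;> fin_cases j <;> simp [Matrix.mul_apply, Fin.sum_univ_two, mul_add] <;>
          first
          | exact Or.inl (by rw [one_add_one_eq_two, h2F])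
          | linear_combination (norm := (ring_nf; simp [h2F])) (-d * t) * h2F
      · obtain ⟨r, hr⟩ := FiniteField.isSquare_of_char_two (ringChar.eq F 2) s
        exact ⟨r • 1, by rw [Matrix.det_smul, Matrix.det_one, Fintype.card_fin, mul_one, pow_two, hr],
          by rw [Matrix.smul_mul, one_mul, Matrix.mul_smul, mul_one]⟩
    have h2 : (2 : F) ≠ 0 := fun e => (hq2.1 ((Nat.prime_dvd_prime_iff_eq hp Nat.prime_two).1
      ((CharP.cast_eq_zero_iff F p 2).1 (by exact_mod_cast e)))) hodd
    obtain rfl := hc1 h2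
    have hd : ∀ t : F, t * t ≠ d := fun t e => hno t (by rw [e, zero_mul, zero_add])
    have hd0 : d ≠ 0 := fun e => hd 0 (by rw [e, zero_mul])
    have hww' : w * w = d • 1 := by rw [hww, zero_smul, zero_add]
    obtain ⟨m, bw, hbw⟩ := Cfsg.Agent.GeomClasses.QuadExtInvolution.exists_basis hww' hd
    have hcard : m * 2 = n := by
      have := Module.finrank_eq_card_basis bw
      simp at this
      omega
    have hbw' : ∀ p, Matrix.mulVec w (bw (p, 0)) = bw (p, 1) ∧
        Matrix.mulVec w (bw (p, 1)) = d • bw (p, 0) + (0 : F) • bw (p, 1) := fun p => by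
      rw [zero_smul, add_zero]; exact hbw p
    have hdetC : ∀ s : F, s ≠ 0 → ∃ C : Matrix (Fin n) (Fin n) F, C.det = s ∧ C * w = w * C := fun s _ =>
      Cfsg.Agent.GeomClasses.QuadExtInvolution.exists_det_odd h2 (by omega) hd0 bw hbw s
    by_cases hsq : IsSquare z
    · obtain ⟨t, rfl⟩ := hsq
      obtain ⟨a, b, bb, hba, hbb, hdet, hab⟩ := Cfsg.Agent.GeomClasses.EigenBasisTwo.exists_eigen_basis h2
        (x : Matrix (Fin n) (Fin n) F) (left_ne_zero_of_mul hz0) hz'
      rw [x.2] at hdet
      rcases Nat.even_or_odd b with ⟨b', hb'⟩ | hbodd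
      · obtain ⟨a', ha'⟩ : ∃ a', a = a' + a' := ⟨h' - b', by omega⟩
        subst ha' hb'
        let idx : (Fin a' ⊕ Fin b') × Fin 2 → Fin (a' + a') ⊕ Fin (b' + b') := fun i =>
          if i.2 = 0 then Sum.map (Fin.castAdd a') (Fin.castAdd b') i.1 else Sum.map (Fin.natAdd a') (Fin.natAdd b') i.1
        have hidx : Function.Bijective idx := by
          rw [Fintype.bijective_iff_injective_and_card]
          refine ⟨?_, by simp; ring⟩
          rintro ⟨(i | i), k⟩ ⟨(j | j), k'⟩ he <;> fin_cases k <;> fin_cases k' <;>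
            simp [idx] at he ⊢ <;> simp only [Fin.ext_iff, Fin.val_castAdd, Fin.val_natAdd, Fin.val_addNat] at he ⊢ <;> omega
        let e := (Equiv.ofBijective idx hidx).symm
        have hbe : ∀ i, bb.reindex e i = bb (idx i) := fun i => by simp [e]
        let eκ : Fin m ≃ Fin a' ⊕ Fin b' := Fintype.equivOfCardEq (by simp; omega)
        refine Cfsg.Agent.GeomClasses.QuadExtInvolution.conj_into hw hspan bw
          ((bb.reindex e).reindex (eκ.symm.prodCongr (Equiv.refl _))) hbw' x
          (fun p => Sum.elim (fun _ => t • 1) (fun _ => (-t) • 1) (eκ p)) (fun p k => ?_) (ε := 1) (η := 0) one_ne_zero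
          (fun p => ?_) hdetC
        · have hb : ∀ k, ((bb.reindex e).reindex (eκ.symm.prodCongr (Equiv.refl _))) (p, k) = bb (idx (eκ p, k)) :=
            fun k => by simp [e]
          simp only [hb]
          rcases hi : eκ p with i | i <;> fin_cases k <;> simp [idx, hba, hbb]
        · rw [zero_smul, add_zero, one_smul]
          rcases eκ p with i | i <;> simp
      · have hn2 : n = 2 := hR.resolve_right fun ⟨_, hle⟩ => by
          have htn : t ^ n = -1 := by
            rw [neg_pow, hbodd.neg_one_pow, mul_left_comm, ← pow_add, hab] at hdet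
            linear_combination hdet
          obtain ⟨b0, hb0⟩ : 2 ^ v ∣ n := pow_padicValNat_dvd
          have hne' : (-1 : F) ≠ 1 := fun e => h2 (by linear_combination -e)
          have hord : orderOf (t ^ b0) = 2 ^ (v + 1) := by
            refine orderOf_eq_prime_pow ?_ ?_
            · rw [← pow_mul, mul_comm, ← hb0, htn]; exact hne'
            · rw [← pow_mul, mul_comm, pow_succ, mul_right_comm, ← hb0, pow_mul, htn, neg_one_sq]
          have hdv : 2 ^ (v + 1) ∣ q - 1 := hord ▸ orderOf_dvd_of_pow_eq_one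
            (hq ▸ FiniteField.pow_card_sub_one_eq_one _ (pow_ne_zero _ (left_ne_zero_of_mul hz0)))
          have := (padicValNat_dvd_iff_le (show q - 1 ≠ 0 by omega)).1 hdv
          omega
        obtain ⟨b', hb'⟩ := hbodd
        obtain rfl : b = 1 := by omega
        obtain rfl : a = 1 := by omega
        obtain rfl : m = 1 := by omega
        let e : Fin 1 ⊕ Fin 1 ≃ Fin 1 × Fin 2 :=
          ((Equiv.uniqueProd (Fin 2) (Fin 1)).trans (finSumFinEquiv (m := 1) (n := 1)).symm).symm
        refine Cfsg.Agent.GeomClasses.QuadExtInvolution.conj_into hw hspan bw (bb.reindex e) hbw' x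
          (fun _ => !![t, 0; 0, -t]) (fun p k => ?_) (ε := -1) (η := 0) (neg_ne_zero.2 one_ne_zero) (fun p => ?_) hdetC
        · obtain rfl := Subsingleton.elim p 0
          fin_cases k
          · have h0 : bb.reindex e (0, 0) = bb (Sum.inl 0) := by simp [e, Equiv.uniqueProd]; rfl
            simp [h0, hba]
          · have h0 : bb.reindex e (0, 1) = bb (Sum.inr 0) := by simp [e, Equiv.uniqueProd]; rfl
            simp [h0, hbb]
        · ext i j; fin_cases i <;> fin_cases j <;> simp [Matrix.mul_apply, Fin.sum_univ_two] <;> ring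
    · have hzn : ∀ s : F, s * s ≠ z := fun s e => hsq ⟨s, e.symm⟩
      obtain ⟨k, bz, hbz⟩ := Cfsg.Agent.GeomClasses.QuadExtInvolution.exists_basis hxx hzn
      obtain rfl : k = m := by
        have := Module.finrank_eq_card_basis bz
        simp at this
        omega
      obtain ⟨s, hs⟩ : IsSquare (d / z) := by
        have h2F : ringChar F ≠ 2 := fun e => hq2.1 ((ringChar.eq F p).symm.trans e) hodd
        rw [FiniteField.isSquare_iff h2F (div_ne_zero hd0 hz0), div_pow]
        have hd' := (FiniteField.pow_dichotomy h2F hd0).resolve_left fun e => by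
          obtain ⟨s, hs⟩ := (FiniteField.isSquare_iff h2F hd0).2 e; exact hd s hs.symm
        have hz'' := (FiniteField.pow_dichotomy h2F hz0).resolve_left fun e =>
          hsq ((FiniteField.isSquare_iff h2F hz0).2 e)
        rw [hd', hz'', div_self (neg_ne_zero.2 one_ne_zero)]
      have hs0 : s ≠ 0 := fun e => div_ne_zero hd0 hz0 (by rw [hs, e, zero_mul])
      let bx := bz.unitsSMul fun i => if i.2 = 1 then Units.mk0 s hs0 else 1
      refine Cfsg.Agent.GeomClasses.QuadExtInvolution.conj_into hw hspan bw bx hbw' x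
        (fun _ => !![0, s⁻¹ * d; s⁻¹, 0]) (fun p j => ?_) (ε := 1) (η := 0) one_ne_zero (fun p => ?_) hdetC
      · obtain ⟨h0, h1⟩ := hbz p
        fin_cases j <;> simp [bx, Module.Basis.unitsSMul_apply, Units.smul_def, Matrix.mulVec_smul, h0, h1, smul_smul, hs0]
        congr 1
        field_simp at hs ⊢
        linear_combination -hs
      · rw [zero_smul, add_zero, one_smul]
        ext i j; fin_cases i <;> fin_cases j <;> simp [Matrix.mul_apply, Fin.sum_univ_two] <;> ring

end Cfsg.Agent.S5969
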