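import Cfsg.Statements.S5970
import Cfsg.Agent.GeomClasses.PrimeSinger

set_option autoImplicit false
open scoped MatrixGroups
open Cfsg

namespace Cfsg.Agent.S5970

/-- Elements of order `n` of PSL_n(q), `n` prime, and the normalizer of a Singer cycle. Here `T = PSL_n(F)` for a field `F` with `q = p^f` elements (`n ≥ 2`, `(n, q) ≠ (2, 2), (2, 3)`), `k` is a prime dividing `n`, `K` is a subalgebra of the `n × n` matrices that is a field of degree `k` over `F` (an extension-field structure F_{q^k} on `F^n`), and `H` is the subgroup of matrices of determinant 1 normalizing `K` — a subgroup of type GL_{n/k}(q^k) (maximal except in some small cases; maximality is not assumed); Ω is the set of cosets of `H` in `T`, so an element of `T` of prime order `r` (a matrix `x` of determinant 1 with `x^r` scalar, `x` not scalar) fixes a point of Ω when some conjugate of `x` by a matrix of determinant 1 normalizes `K`. Take `k = n > 3` prime with `n ≠ p` (so `H` is the normalizer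 of a Singer cycle), and suppose `n` divides the index of `H`. Then every element of `T` of order `n` is conjugate in `T` into `H` if and only if the multiplicative order of `q` modulo `n` is `n − 1`. -/
theorem result {F : Type*} [Field F] [Fintype F] {p : ℕ} [Fact p.Prime] [CharP F p] {q : ℕ} (hq : Fintype.card F = q)
    (n : ℕ) (hn : 2 ≤ n) (hT : (n, q) ≠ (2, 2) ∧ (n, q) ≠ (2, 3))
    (k : ℕ) (hk : k.Prime) (hkn : k ∣ n) (K : Subalgebra F (Matrix (Fin n) (Fin n) F)) (hK : Cfsg.Geo.IsFieldSubalgebra k K) (hkn' : k = n) (hn3 : 3 < n) (hnp : n ≠ p) (hΩ : n ∣ ((Cfsg.Geo.subalgebraNormalizer K).comap (Matrix.SpecialLinearGroup.toGL : Matrix.SpecialLinearGroup (Fin n) F →* GL (Fin n) F)).index) :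
    (∀ x : Matrix.SpecialLinearGroup (Fin n) F,
      (∃ z : F, ((x ^ n : Matrix.SpecialLinearGroup (Fin n) F) : Matrix (Fin n) (Fin n) F) = z • (1 : Matrix (Fin n) (Fin n) F)) →
      (∀ z : F, (x : Matrix (Fin n) (Fin n) F) ≠ z • (1 : Matrix (Fin n) (Fin n) F)) →
      ∃ P : Matrix.SpecialLinearGroup (Fin n) F, P⁻¹ * x * P ∈ ((Cfsg.Geo.subalgebraNormalizer K).comap (Matrix.SpecialLinearGroup.toGL : Matrix.SpecialLinearGroup (Fin n) F →* GL (Fin n) F))) ↔
    orderOf (q : ZMod n) = n - 1 := by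
  classical
  subst hkn'
  have hn' : k.Prime := hk
  haveI : Fact k.Prime := ⟨hk⟩
  haveI : NeZero k := ⟨hk.ne_zero⟩
  have hp := (Fact.out : p.Prime)
  have hq1 : 1 < q := hq ▸ Fintype.one_lt_card
  have hkF : (k : F) ≠ 0 := fun e => hnp ((Nat.prime_dvd_prime_iff_eq hp hk).1
    ((CharP.cast_eq_zero_iff F p k).1 e)).symm
  obtain ⟨nn, -, hnn⟩ := FiniteField.card F p
  have hkq : ¬ k ∣ q := by
    rw [← hq, hnn]
    exact fun h => hnp ((Nat.prime_dvd_prime_iff_eq hk hp).1 (hk.dvd_of_dvd_pow h))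
  have hq0 : (q : ZMod k) ≠ 0 := fun h => hkq ((ZMod.natCast_eq_zero_iff _ _).1 h)
  set i := orderOf (q : ZMod k) with hi
  have hidvd : i ∣ k - 1 := orderOf_dvd_of_pow_eq_one (ZMod.pow_card_sub_one_eq_one hq0)
  have hiff : ∀ j, k ∣ q ^ j - 1 ↔ i ∣ j := by
    intro j
    rw [hi, orderOf_dvd_iff_pow_eq_one, ← ZMod.natCast_eq_zero_iff, Nat.cast_sub (Nat.one_le_pow _ _ (by omega)),
      Nat.cast_pow, Nat.cast_one, sub_eq_zero]
  have hi1 : 1 ≤ i := Nat.pos_of_dvd_of_pos hidvd (by omega)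
  have hunit : i ≠ 1 → ∀ d : F, d ^ k = 1 → d = 1 := by
    intro hne d hd
    have hd0 : d ≠ 0 := fun e => by rw [e, zero_pow hk.ne_zero] at hd; exact zero_ne_one hd
    have h1 : orderOf d ∣ k := orderOf_dvd_of_pow_eq_one hd
    have h2 : orderOf d ∣ q - 1 := orderOf_dvd_of_pow_eq_one (hq ▸ FiniteField.pow_card_sub_one_eq_one d hd0)
    rcases (Nat.dvd_prime hk).1 h1 with e | e
    · exact orderOf_eq_one_iff.1 e
    · exact absurd (Nat.dvd_one.1 ((hiff 1).1 (by rw [pow_one]; exact e ▸ h2))) hne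
  constructor
  · intro h
    by_contra hne
    obtain ⟨x, hdet, hxk, hrk1, hrk2⟩ : ∃ x : Matrix (Fin k) (Fin k) F, x.det = 1 ∧ x ^ k = 1 ∧
        1 ≤ (x - 1).rank ∧ (x - 1).rank < k - 1 := by
      by_cases h1 : i = 1
      · obtain ⟨ζu, hζu⟩ := exists_prime_orderOf_dvd_card' (G := Fˣ) k (by
          rw [Nat.card_units, Nat.card_eq_fintype_card, hq, ← pow_one q]
          exact (hiff 1).2 (dvd_of_eq h1))
        set ζ : F := (ζu : F) with hζdef
        have hζord : orderOf ζ = k := by rw [hζdef, orderOf_units, hζu]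
        have hζ1 : ζ ≠ 1 := fun e => hk.one_lt.ne (by rw [← hζord, e, orderOf_one])
        let i0 : Fin k := ⟨0, by omega⟩
        let i1 : Fin k := ⟨1, by omega⟩
        have h01 : i0 ≠ i1 := by simp [i0, i1, Fin.ext_iff]
        let d : Fin k → F := fun j => if j = i0 then ζ else if j = i1 then ζ⁻¹ else 1
        refine ⟨Matrix.diagonal d, ?_, ?_, ?_⟩
        · rw [Matrix.det_diagonal, Finset.prod_eq_mul i0 i1 h01]
          · simp [d, h01.symm, hζdef, ζu.ne_zero]
          · intro c _ hc; simp [d, hc.1, hc.2]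
          · simp
          · simp
        · rw [Matrix.diagonal_pow, ← Matrix.diagonal_one]
          congr 1
          funext j
          simp only [Pi.pow_apply, d]
          split_ifs
          · rw [← hζord, pow_orderOf_eq_one]
          · rw [inv_pow, ← hζord, pow_orderOf_eq_one, inv_one]
          · exact one_pow k
        · rw [← Matrix.diagonal_one, Matrix.diagonal_sub, Matrix.rank_diagonal, Fintype.card_subtype,
            show (Finset.univ.filter fun j => d j - 1 ≠ 0) = {i0, i1} from ?_, Finset.card_pair h01]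
          · omega
          ext j
          by_cases e0 : j = i0
          · subst e0; simp [d, sub_eq_zero, hζ1]
          · by_cases e1 : j = i1
            · subst e1; simp [d, sub_eq_zero, hζ1, h01.symm]
            · simp [d, e0, e1]
      · have hlt : i < k - 1 := lt_of_le_of_ne (Nat.le_of_dvd (by omega) hidvd) hne
        obtain ⟨x, hxk, hrk⟩ := Cfsg.Agent.GeomClasses.SympFormDerange.exists_small (n := k) hq (r := k) hkq hkF hi1
          (by omega) ((hiff i).2 dvd_rfl) (fun j hj hji hd => absurd (Nat.le_of_dvd hj ((hiff j).1 hd)) (not_le.2 hji))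
        exact ⟨x, hunit h1 _ (by rw [← Matrix.det_pow, hxk, Matrix.det_one]), hxk, by omega, by omega⟩
    obtain ⟨s, hs⟩ : ∃ s : Matrix.SpecialLinearGroup (Fin k) F, (s : Matrix (Fin k) (Fin k) F) = x := ⟨⟨x, hdet⟩, rfl⟩
    obtain ⟨P, hP⟩ := h s ⟨1, by rw [Matrix.SpecialLinearGroup.coe_pow, hs, one_smul]; exact hxk⟩ (fun c e => by
      rw [hs] at e
      have e2 : x - 1 = (c - 1) • 1 := by rw [e, sub_smul, one_smul]
      rw [e2] at hrk1 hrk2
      by_cases hc : c - 1 = 0
      · rw [hc, zero_smul, Matrix.rank_zero] at hrk1; omega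
      · rw [Matrix.rank_of_isUnit _ (IsUnit.of_mul_eq_one ((c - 1)⁻¹ • 1) (by
          rw [Matrix.smul_mul, one_mul, smul_smul, mul_inv_cancel₀ hc, one_smul])), Fintype.card_fin] at hrk2
        omega)
    have hPQ : (P : Matrix (Fin k) (Fin k) F) * ((P⁻¹ : Matrix.SpecialLinearGroup (Fin k) F) : Matrix (Fin k) (Fin k) F) = 1 := by
      rw [← Matrix.SpecialLinearGroup.coe_mul, mul_inv_cancel, Matrix.SpecialLinearGroup.coe_one]
    set g := Matrix.SpecialLinearGroup.toGL (P⁻¹ * s * P) with hg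
    have hge : ((g : GL (Fin k) F) : Matrix (Fin k) (Fin k) F) =
        ((P⁻¹ : Matrix.SpecialLinearGroup (Fin k) F) : Matrix (Fin k) (Fin k) F) * x * P := by
      rw [hg, ← hs, ← Matrix.SpecialLinearGroup.coe_mul, ← Matrix.SpecialLinearGroup.coe_mul]; rfl
    have hrank := Cfsg.Agent.GeomClasses.SympFormDerange.rank_conj hPQ hge 1
    rw [one_smul] at hrank
    have := Cfsg.Agent.GeomClasses.PrimeSinger.rank_dichotomy hK hk (g := g) hP (fun e => by
      rw [e, sub_self, Matrix.rank_zero] at hrank; omega)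
    omega
  · intro hord x ⟨z, hx⟩ hns
    have hine : i ≠ 1 := by omega
    have hz0 : z ≠ 0 := fun e => by
      have := congrArg Matrix.det hx
      haveI hne : Nonempty (Fin k) := ⟨⟨0, by omega⟩⟩
      rw [(x ^ k).2, e, zero_smul, Matrix.det_zero] at this
      exact one_ne_zero this
    have hcop : (Nat.card Fˣ).Coprime k := by
      rw [Nat.card_units, Nat.card_eq_fintype_card, hq]
      refine (hk.coprime_iff_not_dvd.2 fun h => ?_).symm
      exact hine (Nat.dvd_one.1 ((hiff 1).1 (by rwa [pow_one])))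
    obtain ⟨l, hl⟩ := (powCoprime hcop).surjective (Units.mk0 z hz0)
    have hl' : (l : F) ^ k = z := by rw [← Units.val_pow_eq_pow_val]; exact congrArg Units.val hl
    set y : Matrix (Fin k) (Fin k) F := (l : F)⁻¹ • (x : Matrix (Fin k) (Fin k) F) with hy
    have hyk : y ^ k = 1 := by
      rw [hy, smul_pow, ← Matrix.SpecialLinearGroup.coe_pow, hx, smul_smul, inv_pow, hl', inv_mul_cancel₀ hz0, one_smul]
    have hxy : (x : Matrix (Fin k) (Fin k) F) = (l : F) • y := by rw [hy, smul_smul, mul_inv_cancel₀ l.ne_zero, one_smul]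
    have hy1 : y ≠ 1 := fun e => hns l (by rw [hxy, e])
    obtain ⟨g₀, hg₀, hg₀k, hg₀1, -⟩ := Cfsg.Agent.GeomClasses.PrimeSinger.exists_frobenius hK hk (p := p) hq
    obtain ⟨Py, hPy, hyP⟩ := Cfsg.Agent.GeomClasses.PrimeSinger.exists_cyclic hk hq hkF (by omega) hord hyk hy1
    obtain ⟨Pg, hPg, hgP⟩ := Cfsg.Agent.GeomClasses.PrimeSinger.exists_cyclic hk hq hkF (by omega) hord
      (y := (g₀ : Matrix (Fin k) (Fin k) F)) (by rw [← Units.val_pow_eq_pow_val, hg₀k, Units.val_one]) hg₀1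
    set S := Matrix.of (fun a b : Fin k => if a = b + 1 then (1 : F) else 0)
    obtain ⟨C, hC, hCS⟩ := Cfsg.Agent.GeomClasses.PrimeSinger.exists_det_commute (n := k) hkF (Pg.det / Py.det)
    have hPg' : Pg * Pg⁻¹ = 1 := Matrix.mul_nonsing_inv _ (isUnit_iff_ne_zero.2 hPg)
    have hPg'' : Pg⁻¹ * Pg = 1 := Matrix.nonsing_inv_mul _ (isUnit_iff_ne_zero.2 hPg)
    have hyPQ : y * (Py * C * Pg⁻¹) = Py * C * Pg⁻¹ * (g₀ : Matrix (Fin k) (Fin k) F) := by
      have e1 : Pg⁻¹ * (g₀ : Matrix (Fin k) (Fin k) F) = S * Pg⁻¹ := by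
        calc Pg⁻¹ * (g₀ : Matrix (Fin k) (Fin k) F) = Pg⁻¹ * ((g₀ : Matrix (Fin k) (Fin k) F) * Pg) * Pg⁻¹ := by
              simp only [mul_assoc, hPg', mul_one]
          _ = _ := by rw [hgP, ← mul_assoc, hPg'', one_mul]
      rw [← mul_assoc, ← mul_assoc, hyP, mul_assoc (Py * C) Pg⁻¹, e1, ← mul_assoc, mul_assoc Py S C, ← hCS, ← mul_assoc]
    obtain ⟨P, hP⟩ : ∃ P : Matrix.SpecialLinearGroup (Fin k) F, (P : Matrix (Fin k) (Fin k) F) = Py * C * Pg⁻¹ :=
      ⟨⟨Py * C * Pg⁻¹, by
        rw [Matrix.det_mul, Matrix.det_mul, hC, Matrix.det_nonsing_inv, Ring.inverse_eq_inv']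
        field_simp⟩, rfl⟩
    refine ⟨P, ?_⟩
    let L : GL (Fin k) F := Units.map (Matrix.scalar (Fin k) : F →+* Matrix (Fin k) (Fin k) F).toMonoidHom l
    have hL : (L : Matrix (Fin k) (Fin k) F) = (l : F) • 1 := by rw [Matrix.smul_one_eq_diagonal]; rfl
    have hval : Matrix.SpecialLinearGroup.toGL (P⁻¹ * x * P) = L * g₀ := by
      rw [mul_assoc]
      apply Units.ext
      show ((P⁻¹ * (x * P) : Matrix.SpecialLinearGroup (Fin k) F) : Matrix (Fin k) (Fin k) F) = _
      rw [Units.val_mul, hL, Matrix.SpecialLinearGroup.coe_mul, Matrix.SpecialLinearGroup.coe_mul, hxy, hP,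
        Matrix.smul_mul, hyPQ, Matrix.smul_mul, one_mul, Matrix.mul_smul, ← hP, ← mul_assoc,
        ← Matrix.SpecialLinearGroup.coe_mul, inv_mul_cancel, Matrix.SpecialLinearGroup.coe_one, one_mul]
    show Matrix.SpecialLinearGroup.toGL (P⁻¹ * x * P) ∈ Cfsg.Geo.subalgebraNormalizer K
    rw [hval]
    refine mul_mem (fun a => ?_) hg₀
    have hLL : ((L⁻¹ : GL (Fin k) F) : Matrix (Fin k) (Fin k) F) = ((l⁻¹ : Fˣ) : F) • 1 := by
      rw [Matrix.smul_one_eq_diagonal]; rfl
    rw [hL, hLL, Matrix.smul_mul, one_mul, Matrix.mul_smul, mul_one, smul_smul, ← Units.val_mul, inv_mul_cancel,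
      Units.val_one, one_smul]

end Cfsg.Agent.S5970
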