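import Cfsg.Statements.S5971
import Cfsg.Agent.GeomClasses.PrimeSingerThree
import Cfsg.Agent.GeomClasses.SubfieldInvolution

set_option autoImplicit false
open scoped MatrixGroups
open Cfsg

namespace Cfsg.Agent.S5971

/-- Elements of order 3 of PSL_3(q) and the normalizer of a Singer cycle. Here `T = PSL_n(F)` for a field `F` with `q = p^f` elements (`n ≥ 2`, `(n, q) ≠ (2, 2), (2, 3)`), `k` is a prime dividing `n`, `K` is a subalgebra of the `n × n` matrices that is a field of degree `k` over `F` (an extension-field structure F_{q^k} on `F^n`), and `H` is the subgroup of matrices of determinant 1 normalizing `K` — a subgroup of type GL_{n/k}(q^k) (maximal except in some small cases; maximality is not assumed); Ω is the set of cosets of `H` in `T`, so an element of `T` of prime order `r` (a matrix `x` of determinant 1 with `x^r` scalar, `x` not scalar) fixes a point of Ω when some conjugate of `x` by a matrix of determinant 1 normalizes `K`. Take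 `n = k = 3` and suppose 3 divides the index of `H`. Then every element of `T` of order 3 is conjugate in `T` into `H` if and only if `q ≡ 4, 7` or `8 (mod 9)`. -/
theorem result {F : Type*} [Field F] [Fintype F] {p : ℕ} [Fact p.Prime] [CharP F p] {q : ℕ} (hq : Fintype.card F = q)
    (n : ℕ) (hn : n = 3) (k : ℕ) (hk : k.Prime) (hkn : k ∣ n) (K : Subalgebra F (Matrix (Fin n) (Fin n) F)) (hK : Cfsg.Geo.IsFieldSubalgebra k K) (hk3 : k = 3) (hΩ : 3 ∣ ((Cfsg.Geo.subalgebraNormalizer K).comap (Matrix.SpecialLinearGroup.toGL : Matrix.SpecialLinearGroup (Fin n) F →* GL (Fin n) F)).index) :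
    (∀ x : Matrix.SpecialLinearGroup (Fin n) F,
      (∃ z : F, ((x ^ 3 : Matrix.SpecialLinearGroup (Fin n) F) : Matrix (Fin n) (Fin n) F) = z • (1 : Matrix (Fin n) (Fin n) F)) →
      (∀ z : F, (x : Matrix (Fin n) (Fin n) F) ≠ z • (1 : Matrix (Fin n) (Fin n) F)) →
      ∃ P : Matrix.SpecialLinearGroup (Fin n) F, P⁻¹ * x * P ∈ ((Cfsg.Geo.subalgebraNormalizer K).comap (Matrix.SpecialLinearGroup.toGL : Matrix.SpecialLinearGroup (Fin n) F →* GL (Fin n) F))) ↔
    (q % 9 = 4 ∨ q % 9 = 7 ∨ q % 9 = 8) := by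
  classical
  subst hn
  subst hk3
  haveI : Fact (Nat.Prime 3) := ⟨Nat.prime_three⟩
  have hp := (Fact.out : p.Prime)
  have hq1 : 1 < q := hq ▸ Fintype.one_lt_card
  obtain ⟨nn, -, hnn⟩ := FiniteField.card F p
  rw [hq] at hnn
  have hp3 : p = 3 ↔ 3 ∣ q := by
    constructor
    · rintro rfl; rw [hnn]; exact dvd_pow_self 3 (PNat.ne_zero nn)
    · intro h; rw [hnn] at h; exact ((Nat.prime_dvd_prime_iff_eq Nat.prime_three hp).1 (Nat.prime_three.dvd_of_dvd_pow h)).symm
  have h3F : ¬ 3 ∣ q → (3 : F) ≠ 0 := fun h e => h (hp3.1 ((Nat.prime_dvd_prime_iff_eq hp Nat.prime_three).1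
    ((CharP.cast_eq_zero_iff F p 3).1 (by exact_mod_cast e))))
  have hsc : ∀ l : Fˣ, Units.map (Matrix.scalar (Fin 3) : F →+* Matrix (Fin 3) (Fin 3) F).toMonoidHom l ∈
      Cfsg.Geo.subalgebraNormalizer K := by
    intro l a
    rw [show ((Units.map (Matrix.scalar (Fin 3) : F →+* Matrix (Fin 3) (Fin 3) F).toMonoidHom l : GL (Fin 3) F) :
        Matrix (Fin 3) (Fin 3) F) = (l : F) • 1 by rw [Matrix.smul_one_eq_diagonal]; rfl,
      show (((Units.map (Matrix.scalar (Fin 3) : F →+* Matrix (Fin 3) (Fin 3) F).toMonoidHom l)⁻¹ : GL (Fin 3) F) :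
        Matrix (Fin 3) (Fin 3) F) = ((l⁻¹ : Fˣ) : F) • 1 by rw [Matrix.smul_one_eq_diagonal]; rfl,
      Matrix.smul_mul, one_mul, Matrix.mul_smul, mul_one, smul_smul, ← Units.val_mul, inv_mul_cancel, Units.val_one, one_smul]
  constructor
  · intro h
    have main : ∀ (x : Matrix.SpecialLinearGroup (Fin 3) F) (l : Fˣ), ((x : Matrix (Fin 3) (Fin 3) F) - (l : F) • 1).rank = 1 →
        (∃ z : F, ((x ^ 3 : Matrix.SpecialLinearGroup (Fin 3) F) : Matrix (Fin 3) (Fin 3) F) = z • 1) → False := by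
      intro x l hrk hz
      obtain ⟨P, hP⟩ := h x hz (fun c e => by
        rw [e, ← sub_smul] at hrk
        by_cases hcl : c - (l : F) = 0
        · rw [hcl, zero_smul, Matrix.rank_zero] at hrk; exact zero_ne_one hrk
        · rw [Matrix.rank_of_isUnit _ (IsUnit.of_mul_eq_one ((c - l)⁻¹ • 1) (by
            rw [Matrix.smul_mul, one_mul, smul_smul, mul_inv_cancel₀ hcl, one_smul])), Fintype.card_fin] at hrk
          omega)
      have hPQ : (P : Matrix (Fin 3) (Fin 3) F) * ((P⁻¹ : Matrix.SpecialLinearGroup (Fin 3) F) : Matrix (Fin 3) (Fin 3) F) = 1 := by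
        rw [← Matrix.SpecialLinearGroup.coe_mul, mul_inv_cancel, Matrix.SpecialLinearGroup.coe_one]
      set g := (Units.map (Matrix.scalar (Fin 3) : F →+* Matrix (Fin 3) (Fin 3) F).toMonoidHom l)⁻¹ *
        Matrix.SpecialLinearGroup.toGL (P⁻¹ * x * P)
      have hge : (g : Matrix (Fin 3) (Fin 3) F) - 1 = ((l⁻¹ : Fˣ) : F) •
          (((P⁻¹ * x * P : Matrix.SpecialLinearGroup (Fin 3) F) : Matrix (Fin 3) (Fin 3) F) - (l : F) • 1) := by
        rw [smul_sub, smul_smul, ← Units.val_mul, inv_mul_cancel, Units.val_one, one_smul]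
        simp only [g, Units.val_mul]
        rw [show (((Units.map (Matrix.scalar (Fin 3) : F →+* Matrix (Fin 3) (Fin 3) F).toMonoidHom l)⁻¹ : GL (Fin 3) F) :
          Matrix (Fin 3) (Fin 3) F) = ((l⁻¹ : Fˣ) : F) • 1 by rw [Matrix.smul_one_eq_diagonal]; rfl, Matrix.smul_mul, one_mul]
        rfl
      have hr1 : ((g : Matrix (Fin 3) (Fin 3) F) - 1).rank = 1 := by
        rw [hge, ← one_mul (((P⁻¹ * x * P : Matrix.SpecialLinearGroup (Fin 3) F) : Matrix (Fin 3) (Fin 3) F) - (l : F) • 1),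
          ← Matrix.smul_mul, Matrix.rank_mul_eq_right_of_isUnit_det _ _ (by simp [Matrix.det_smul]),
          Cfsg.Agent.GeomClasses.SympFormDerange.rank_conj (x := (x : Matrix (Fin 3) (Fin 3) F)) hPQ
            (by simp only [Matrix.SpecialLinearGroup.coe_mul]) (l : F), hrk]
      have := Cfsg.Agent.GeomClasses.PrimeSinger.rank_dichotomy hK Nat.prime_three (g := g)
        (mul_mem (inv_mem (hsc l)) hP) (fun e => by rw [e, sub_self, Matrix.rank_zero] at hr1; omega)
      omega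
    by_contra hneg
    have hcases : q % 3 = 0 ∨ q % 9 = 1 ∨ q % 9 = 2 ∨ q % 9 = 5 := by omega
    rcases hcases with h0 | h1 | h25
    · obtain rfl := hp3.2 (Nat.dvd_of_mod_eq_zero h0)
      obtain ⟨x, hx⟩ : ∃ x : Matrix.SpecialLinearGroup (Fin 3) F,
          (x : Matrix (Fin 3) (Fin 3) F) = 1 + Matrix.single 0 1 1 :=
        ⟨⟨1 + Matrix.single 0 1 1, Matrix.det_transvection_of_ne (0 : Fin 3) 1 (by decide) (1 : F)⟩, rfl⟩
      refine main x 1 ?_ ⟨1, ?_⟩
      · rw [hx, Units.val_one, one_smul, add_sub_cancel_left]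
        refine le_antisymm ?_ (Nat.one_le_iff_ne_zero.2 fun e => ?_)
        · rw [show Matrix.single (0 : Fin 3) (1 : Fin 3) (1 : F) = Matrix.vecMulVec (Pi.single 0 1) (Pi.single 1 1) from ?_]
          · exact Matrix.rank_vecMulVec_le _ _
          ext i j
          fin_cases i <;> fin_cases j <;> simp [Matrix.vecMulVec_apply]
        · have h0' : LinearMap.range (Matrix.single (0 : Fin 3) (1 : Fin 3) (1 : F)).mulVecLin = ⊥ := Submodule.finrank_eq_zero.1 e
          have h1' : (Matrix.single (0 : Fin 3) (1 : Fin 3) (1 : F)).mulVecLin (Pi.single 1 1) = 0 :=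
            (Submodule.mem_bot F).1 (h0' ▸ LinearMap.mem_range_self _ _)
          have h2' := congrFun h1' 0
          simp at h2'
      · haveI : CharP (Matrix (Fin 3) (Fin 3) F) 3 := inferInstance
        rw [Matrix.SpecialLinearGroup.coe_pow, hx, one_smul, add_pow_char_of_commute _ (Commute.one_left _), one_pow,
          pow_three]
        simp
    · obtain ⟨ζu, hζu⟩ : ∃ u : Fˣ, orderOf u = 9 := by
        obtain ⟨u, hu⟩ := IsCyclic.exists_ofOrder_eq_natCard (α := Fˣ)
        rw [Nat.card_units, Nat.card_eq_fintype_card, hq] at hu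
        obtain ⟨a, ha⟩ : 9 ∣ q - 1 := by omega
        refine ⟨u ^ a, ?_⟩
        rw [orderOf_pow' u (by omega), hu, ha, Nat.gcd_mul_left_left, Nat.mul_div_cancel _ (by omega)]
      have h9 : (ζu : F) ^ 9 = 1 := by rw [← Units.val_pow_eq_pow_val, ← hζu, pow_orderOf_eq_one, Units.val_one]
      obtain ⟨x, hx⟩ : ∃ x : Matrix.SpecialLinearGroup (Fin 3) F,
          (x : Matrix (Fin 3) (Fin 3) F) = Matrix.diagonal ![(ζu : F), (ζu : F), (ζu : F) ^ 7] :=
        ⟨⟨Matrix.diagonal ![(ζu : F), (ζu : F), (ζu : F) ^ 7], by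
          rw [Matrix.det_diagonal, Fin.prod_univ_three]; simp; linear_combination h9⟩, rfl⟩
      refine main x ζu ?_ ⟨(ζu : F) ^ 3, ?_⟩
      · have h67 : (ζu : F) ^ 7 - ζu ≠ 0 := fun e => by
          have h6 : (ζu : F) ^ 6 = 1 := mul_left_cancel₀ ζu.ne_zero (by linear_combination e)
          have := orderOf_dvd_of_pow_eq_one (show ζu ^ 6 = 1 from Units.ext (by simpa using h6))
          rw [hζu] at this
          exact absurd (Nat.le_of_dvd (by norm_num) this) (by norm_num)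
        rw [hx, Matrix.smul_one_eq_diagonal, Matrix.diagonal_sub, Matrix.rank_diagonal, Fintype.card_eq_one_iff]
        refine ⟨⟨2, by simpa using h67⟩, fun ⟨i, hi⟩ => Subtype.ext ?_⟩
        fin_cases i <;> simp at hi ⊢
      · rw [Matrix.SpecialLinearGroup.coe_pow, hx, Matrix.diagonal_pow, Matrix.smul_one_eq_diagonal]
        congr 1
        funext i
        fin_cases i <;> simp
        linear_combination (ζu : F) ^ 3 * ((ζu : F) ^ 9 + 1) * h9
    · obtain ⟨g₀, hg₀, hg₀3, hg₀1, hg₀ns⟩ := Cfsg.Agent.GeomClasses.PrimeSinger.exists_frobenius hK Nat.prime_three (p := p) hq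
      have hd1 : (g₀ : Matrix (Fin 3) (Fin 3) F).det = 1 := by
        have h3 : (g₀ : Matrix (Fin 3) (Fin 3) F).det ^ 3 = 1 := by
          rw [← Matrix.det_pow, ← Units.val_pow_eq_pow_val, hg₀3, Units.val_one, Matrix.det_one]
        have hd0 : (g₀ : Matrix (Fin 3) (Fin 3) F).det ≠ 0 := fun e => by rw [e] at h3; simp at h3
        have hd : orderOf (g₀ : Matrix (Fin 3) (Fin 3) F).det ∣ Nat.gcd 3 (q - 1) :=
          Nat.dvd_gcd (orderOf_dvd_of_pow_eq_one h3) (orderOf_dvd_of_pow_eq_one (hq ▸ FiniteField.pow_card_sub_one_eq_one _ hd0))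
        rw [(Nat.prime_three.coprime_iff_not_dvd.2 (show ¬ 3 ∣ q - 1 by omega)).gcd_eq_one] at hd
        exact orderOf_eq_one_iff.1 (Nat.dvd_one.1 hd)
      obtain ⟨s, hs⟩ : ∃ s : Matrix.SpecialLinearGroup (Fin 3) F, (s : Matrix (Fin 3) (Fin 3) F) = g₀ := ⟨⟨g₀, hd1⟩, rfl⟩
      set H := (Cfsg.Geo.subalgebraNormalizer K).comap
        (Matrix.SpecialLinearGroup.toGL : Matrix.SpecialLinearGroup (Fin 3) F →* GL (Fin 3) F)
      have hsH : s ∈ H := by
        show Matrix.SpecialLinearGroup.toGL s ∈ Cfsg.Geo.subalgebraNormalizer K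
        rwa [show Matrix.SpecialLinearGroup.toGL s = g₀ from Units.ext hs]
      have hord : orderOf (⟨s, hsH⟩ : H) = 3 := by
        refine orderOf_eq_prime (Subtype.ext (Subtype.ext ?_)) fun e => hg₀1 ?_
        · show ((s ^ 3 : Matrix.SpecialLinearGroup (Fin 3) F) : Matrix (Fin 3) (Fin 3) F) = 1
          rw [Matrix.SpecialLinearGroup.coe_pow, hs, ← Units.val_pow_eq_pow_val, hg₀3, Units.val_one]
        · rw [← hs, show s = 1 from congrArg Subtype.val e, Matrix.SpecialLinearGroup.coe_one]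
      have h9 : 9 ∣ Nat.card (Matrix.SpecialLinearGroup (Fin 3) F) * (q - 1) := by
        refine Dvd.dvd.mul_right ?_ _
        rw [← H.card_mul_index]
        exact Nat.mul_dvd_mul (hord ▸ orderOf_dvd_natCard _) hΩ
      rw [Cfsg.Agent.GeomClasses.SubfieldInvolution.card_SL (by norm_num) hq, Finset.prod_range_succ, Finset.prod_range_succ,
        Finset.prod_range_succ, Finset.prod_range_zero, one_mul] at h9
      obtain ⟨m, hm⟩ : ∃ m, q = 9 * m + q % 9 := ⟨q / 9, (Nat.div_add_mod q 9).symm⟩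
      have e2 : q ^ 1 ≤ q ^ 3 := Nat.pow_le_pow_right (by omega) (by norm_num)
      have e3 : q ^ 2 ≤ q ^ 3 := Nat.pow_le_pow_right (by omega) (by norm_num)
      have e1 : q ^ 0 ≤ q ^ 3 := Nat.pow_le_pow_right (by omega) (by norm_num)
      rw [← ZMod.natCast_eq_zero_iff] at h9
      push_cast [Nat.cast_sub e1, Nat.cast_sub e2, Nat.cast_sub e3] at h9
      have hq9 : (q : ZMod 9) = ((q % 9 : ℕ) : ZMod 9) := (ZMod.natCast_mod q 9).symm
      rw [hq9] at h9
      rcases h25 with e | e <;> rw [e] at h9 <;> revert h9 <;> decide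
  · intro hq9 x ⟨z, hx⟩ hns
    have hq3 : ¬ 3 ∣ q := by omega
    have h3 := h3F hq3
    have hz0 : z ≠ 0 := fun e => by
      have := congrArg Matrix.det hx
      rw [(x ^ 3).2, e, zero_smul, Matrix.det_zero] at this
      exact one_ne_zero this
    rw [Matrix.SpecialLinearGroup.coe_pow] at hx
    obtain ⟨g₀, hg₀, hg₀3, hg₀1, hg₀ns⟩ := Cfsg.Agent.GeomClasses.PrimeSinger.exists_frobenius hK Nat.prime_three (p := p) hq
    have hg₀3' : (g₀ : Matrix (Fin 3) (Fin 3) F) ^ 3 = 1 := by rw [← Units.val_pow_eq_pow_val, hg₀3, Units.val_one]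
    -- conjugating the cube roots of a cube
    have cube : ∀ (l : Fˣ) (S Py Pg : Matrix (Fin 3) (Fin 3) F), Py.det ≠ 0 → Pg.det ≠ 0 →
        ((l⁻¹ : Fˣ) : F) • (x : Matrix (Fin 3) (Fin 3) F) * Py = Py * S → (g₀ : Matrix (Fin 3) (Fin 3) F) * Pg = Pg * S →
        (∀ s : F, ∃ C : Matrix (Fin 3) (Fin 3) F, C.det = s ∧ C * S = S * C) →
        ∃ P : Matrix.SpecialLinearGroup (Fin 3) F, P⁻¹ * x * P ∈ (Cfsg.Geo.subalgebraNormalizer K).comap
          (Matrix.SpecialLinearGroup.toGL : Matrix.SpecialLinearGroup (Fin 3) F →* GL (Fin 3) F) := by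
      intro l S Py Pg hPy hPg hyP hgP hC
      set L := Units.map (Matrix.scalar (Fin 3) : F →+* Matrix (Fin 3) (Fin 3) F).toMonoidHom l
      have hL : ((L * g₀ : GL (Fin 3) F) : Matrix (Fin 3) (Fin 3) F) = (l : F) • (g₀ : Matrix (Fin 3) (Fin 3) F) := by
        rw [Units.val_mul, show (L : Matrix (Fin 3) (Fin 3) F) = (l : F) • 1 by rw [Matrix.smul_one_eq_diagonal]; rfl,
          Matrix.smul_mul, one_mul]
      have hu : Pg * Pg⁻¹ = 1 := Matrix.mul_nonsing_inv _ (isUnit_iff_ne_zero.2 hPg)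
      have hu' : Pg⁻¹ * Pg = 1 := Matrix.nonsing_inv_mul _ (isUnit_iff_ne_zero.2 hPg)
      have e1 : Pg⁻¹ * (g₀ : Matrix (Fin 3) (Fin 3) F) = S * Pg⁻¹ := by
        calc Pg⁻¹ * (g₀ : Matrix (Fin 3) (Fin 3) F) = Pg⁻¹ * ((g₀ : Matrix (Fin 3) (Fin 3) F) * Pg) * Pg⁻¹ := by
              simp only [mul_assoc, hu, mul_one]
          _ = _ := by rw [hgP, ← mul_assoc, hu', one_mul]
      refine Cfsg.Agent.GeomClasses.PrimeSingerThree.conj_into x (mul_mem (hsc l) hg₀) (P₀ := Py * Pg⁻¹)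
        (by rw [Matrix.det_mul, Matrix.det_nonsing_inv, Ring.inverse_eq_inv']; exact mul_ne_zero hPy (inv_ne_zero hPg)) ?_ ?_
      · rw [hL, Matrix.mul_smul, mul_assoc Py Pg⁻¹, e1, ← mul_assoc, ← mul_assoc, ← hyP, Matrix.smul_mul, Matrix.smul_mul,
          smul_smul, ← Units.val_mul, mul_inv_cancel, Units.val_one, one_smul]
      · intro s _
        obtain ⟨C, hCd, hCS⟩ := hC s
        refine ⟨Pg * C * Pg⁻¹, ?_, ?_⟩
        · rw [Matrix.det_mul, Matrix.det_mul, hCd, Matrix.det_nonsing_inv, Ring.inverse_eq_inv']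
          field_simp
        · rw [hL, Matrix.mul_smul, Matrix.smul_mul]
          congr 1
          rw [mul_assoc (Pg * C) Pg⁻¹, e1, ← mul_assoc, mul_assoc Pg C S, hCS, ← mul_assoc, ← hgP]
          simp only [mul_assoc]
    have hroot : ∀ l : Fˣ, (l : F) ^ 3 = z →
        (((l⁻¹ : Fˣ) : F) • (x : Matrix (Fin 3) (Fin 3) F)) ^ 3 = 1 := fun l hl => by
      rw [smul_pow, hx, smul_smul, ← hl, ← mul_pow, ← Units.val_mul, inv_mul_cancel, Units.val_one, one_pow, one_smul]
    have hns' : ∀ (l : Fˣ) (t : F), ((l⁻¹ : Fˣ) : F) • (x : Matrix (Fin 3) (Fin 3) F) ≠ t • 1 := fun l t e => by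
      refine hns ((l : F) * t) ?_
      rw [← smul_smul, ← e, smul_smul, ← Units.val_mul, mul_inv_cancel, Units.val_one, one_smul]
    by_cases hq8 : q % 9 = 8
    · have hcop : (Nat.card Fˣ).Coprime 3 := by
        rw [Nat.card_units, Nat.card_eq_fintype_card, hq]
        exact (Nat.prime_three.coprime_iff_not_dvd.2 (by omega)).symm
      obtain ⟨l, hl⟩ := (powCoprime hcop).surjective (Units.mk0 z hz0)
      have hl' : (l : F) ^ 3 = z := by rw [← Units.val_pow_eq_pow_val]; exact congrArg Units.val hl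
      have hord : orderOf (q : ZMod 3) = 3 - 1 := by
        have e : (q : ZMod 3) = 2 := by
          rw [← ZMod.natCast_mod q 3, show q % 3 = 2 by omega]; rfl
        rw [e]
        exact orderOf_eq_prime (p := 2) rfl (fun h => absurd (congrArg ZMod.val h) (show ¬ ((2 : Fin 3) : ℕ) = ((1 : Fin 3) : ℕ) by decide))
      obtain ⟨Py, hPy, hyP⟩ := Cfsg.Agent.GeomClasses.PrimeSinger.exists_cyclic (n := 3) Nat.prime_three hq
        (by exact_mod_cast h3) (by norm_num) hord (hroot l hl') (fun e => hns' l 1 (by rw [e, one_smul]))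
      obtain ⟨Pg, hPg, hgP⟩ := Cfsg.Agent.GeomClasses.PrimeSinger.exists_cyclic (n := 3) Nat.prime_three hq
        (by exact_mod_cast h3) (by norm_num) hord hg₀3' hg₀1
      exact cube l _ Py Pg hPy hPg hyP hgP (Cfsg.Agent.GeomClasses.PrimeSinger.exists_det_commute (by exact_mod_cast h3))
    have hq47 : q % 9 = 4 ∨ q % 9 = 7 := by omega
    obtain ⟨wu, hwu⟩ := exists_prime_orderOf_dvd_card' (G := Fˣ) 3 (by
      rw [Nat.card_units, Nat.card_eq_fintype_card, hq]; omega)
    have hw : (wu : F) ^ 3 = 1 := by rw [← Units.val_pow_eq_pow_val, ← hwu, pow_orderOf_eq_one, Units.val_one]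
    have hw1 : (wu : F) ≠ 1 := fun e => by
      rw [Units.val_eq_one.1 e, orderOf_one] at hwu; exact absurd hwu (by norm_num)
    by_cases hcz : ∃ l : F, l ^ 3 = z
    · obtain ⟨l0, hl0⟩ := hcz
      obtain ⟨l, rfl⟩ : ∃ l : Fˣ, (l : F) = l0 := ⟨Units.mk0 l0 (fun e => hz0 (by rw [← hl0, e]; simp)), rfl⟩
      set y := ((l⁻¹ : Fˣ) : F) • (x : Matrix (Fin 3) (Fin 3) F) with hy
      have hdy : y.det = ((l⁻¹ : Fˣ) : F) ^ 3 := by rw [hy, Matrix.det_smul, x.2, mul_one, Fintype.card_fin]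
      have hdy1 : y.det = 1 := by
        have h1 : y.det ^ 3 = 1 := by rw [← Matrix.det_pow, hroot l hl0, Matrix.det_one]
        rw [hdy, ← pow_mul] at h1
        have h2 := orderOf_dvd_of_pow_eq_one (show (l⁻¹ : Fˣ) ^ 9 = 1 from Units.ext (by simpa using h1))
        have h3' : orderOf (l⁻¹ : Fˣ) ∣ q - 1 := by
          have := orderOf_dvd_natCard (l⁻¹ : Fˣ)
          rwa [Nat.card_units, Nat.card_eq_fintype_card, hq] at this
        have h4 : orderOf (l⁻¹ : Fˣ) ∣ Nat.gcd 9 (q - 1) := Nat.dvd_gcd h2 h3'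
        have h5 : Nat.gcd 9 (q - 1) = 3 := by
          rw [Nat.gcd_rec, show (q - 1) % 9 = q % 9 - 1 by omega]
          rcases hq47 with e | e <;> rw [e] <;> rfl
        rw [h5] at h4
        rw [hdy, ← Units.val_pow_eq_pow_val, orderOf_dvd_iff_pow_eq_one.1 h4, Units.val_one]
      have hr : ∀ i : Fin 3, 2 ≤ (y - (wu : F) ^ (i : ℕ) • 1).rank := fun i =>
        Cfsg.Agent.GeomClasses.PrimeSingerThree.rank_two_le h3 (hroot l hl0) hdy1
          (by rw [← pow_mul, mul_comm, pow_mul, hw, one_pow]) (hns' l _)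
      have hrg : ∀ i : Fin 3, 2 ≤ ((g₀ : Matrix (Fin 3) (Fin 3) F) - (wu : F) ^ (i : ℕ) • 1).rank := by
        intro i
        set t : Fˣ := wu ^ (i : ℕ) with ht
        have htv : ((t : Fˣ) : F) = (wu : F) ^ (i : ℕ) := by rw [ht, Units.val_pow_eq_pow_val]
        set T := Units.map (Matrix.scalar (Fin 3) : F →+* Matrix (Fin 3) (Fin 3) F).toMonoidHom t
        have hT : ((T⁻¹ * g₀ : GL (Fin 3) F) : Matrix (Fin 3) (Fin 3) F) = ((t⁻¹ : Fˣ) : F) • (g₀ : Matrix (Fin 3) (Fin 3) F) := by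
          rw [Units.val_mul, show ((T⁻¹ : GL (Fin 3) F) : Matrix (Fin 3) (Fin 3) F) = ((t⁻¹ : Fˣ) : F) • 1 by
            rw [Matrix.smul_one_eq_diagonal]; rfl, Matrix.smul_mul, one_mul]
        have h1 := Cfsg.Agent.GeomClasses.PrimeSinger.rank_dichotomy hK Nat.prime_three (g := T⁻¹ * g₀)
          (mul_mem (inv_mem (hsc t)) hg₀) (fun e => by
            rw [hT] at e
            have hgs : (g₀ : Matrix (Fin 3) (Fin 3) F) = (t : F) • 1 := by
              rw [← e, smul_smul, ← Units.val_mul, mul_inv_cancel, Units.val_one, one_smul]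
            -- a scalar of order three is ruled out by the Frobenius action
            obtain ⟨k0, hk0, hk1⟩ : ∃ k0 : Fˣ, (g₀ : Matrix (Fin 3) (Fin 3) F) = (k0 : F) • 1 ∧ k0 = t := ⟨t, hgs, rfl⟩
            exact hg₀ns _ hk0)
        rw [hT] at h1
        have e2 : ((t⁻¹ : Fˣ) : F) • (g₀ : Matrix (Fin 3) (Fin 3) F) - 1 =
            (((t⁻¹ : Fˣ) : F) • (1 : Matrix (Fin 3) (Fin 3) F)) * ((g₀ : Matrix (Fin 3) (Fin 3) F) - (wu : F) ^ (i : ℕ) • 1) := by
          rw [Matrix.smul_mul, one_mul, smul_sub, smul_smul, ← htv, ← Units.val_mul, inv_mul_cancel, Units.val_one, one_smul]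
        rw [e2, Matrix.rank_mul_eq_right_of_isUnit_det _ _ (by simp [Matrix.det_smul])] at h1
        exact h1
      obtain ⟨Py, hPy, hyP⟩ := Cfsg.Agent.GeomClasses.PrimeSingerThree.exists_diag (hroot l hl0) hw hw1 hr
      obtain ⟨Pg, hPg, hgP⟩ := Cfsg.Agent.GeomClasses.PrimeSingerThree.exists_diag hg₀3' hw hw1 hrg
      refine cube l _ Py Pg hPy hPg hyP hgP fun s => ⟨Matrix.diagonal ![s, 1, 1], ?_, ?_⟩
      · simp [Matrix.det_diagonal, Fin.prod_univ_three]
      · rw [Matrix.diagonal_mul_diagonal, Matrix.diagonal_mul_diagonal]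
        congr 1; funext i; rw [mul_comm]
    · push_neg at hcz
      haveI := Cfsg.Agent.GeomClasses.PrimeSinger.noZeroDivisors hK
      haveI : IsDomain K := NoZeroDivisors.to_isDomain _
      letI : CommRing K := { (inferInstance : Ring K) with mul_comm := fun a b => Subtype.ext (hK.comm a a.2 b b.2) }
      obtain ⟨u, hu⟩ := IsCyclic.exists_ofOrder_eq_natCard (α := Kˣ)
      rw [Cfsg.Agent.GeomClasses.PrimeSinger.card_units hK hq (by norm_num)] at hu
      obtain ⟨Z, hZ⟩ : ∃ Z : Kˣ, ((Z : K) : Matrix (Fin 3) (Fin 3) F) = z • 1 :=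
        ⟨Units.map (algebraMap F K).toMonoidHom (Units.mk0 z hz0), Algebra.algebraMap_eq_smul_one z⟩
      obtain ⟨a, ha⟩ := (Subgroup.mem_zpowers_iff.1 ((Subgroup.eq_top_of_card_eq (Subgroup.zpowers u) (by
        rw [Nat.card_zpowers, hu, Cfsg.Agent.GeomClasses.PrimeSinger.card_units hK hq (by norm_num)])) ▸ Subgroup.mem_top Z))
      have hdiv : (q - 1) * (q * q + q + 1) = q ^ 3 - 1 := by
        obtain ⟨t, rfl⟩ : ∃ t, q = t + 1 := ⟨q - 1, by omega⟩
        simp only [Nat.add_sub_cancel]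
        refine (Nat.sub_eq_of_eq_add ?_).symm
        ring
      have h3dvd : (3 : ℤ) ∣ a := by
        have hZq : Z ^ (q - 1) = 1 := by
          refine Units.ext (Subtype.ext ?_)
          rw [Units.val_pow_eq_pow_val, SubmonoidClass.coe_pow, hZ, smul_pow, one_pow,
            ← hq, FiniteField.pow_card_sub_one_eq_one _ hz0, one_smul]
          rfl
        rw [← ha, ← zpow_natCast, ← zpow_mul] at hZq
        have h1 := orderOf_dvd_iff_zpow_eq_one.2 hZq
        rw [hu, ← hdiv] at h1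
        push_cast at h1
        rw [mul_comm a] at h1
        have h2 := Int.dvd_of_mul_dvd_mul_left (show ((q - 1 : ℕ) : ℤ) ≠ 0 by omega) h1
        refine dvd_trans ?_ h2
        obtain ⟨t, ht⟩ : ∃ t, q = 3 * t + 1 := ⟨q / 3, by omega⟩
        exact ⟨3 * (t : ℤ) * t + 3 * t + 1, by rw [ht]; push_cast; ring⟩
      obtain ⟨b, rfl⟩ := h3dvd
      obtain ⟨g, hg⟩ : ∃ g : GL (Fin 3) F, g = Units.map (K.val : K →* Matrix (Fin 3) (Fin 3) F) (u ^ b) := ⟨_, rfl⟩
      have hgK : (g : Matrix (Fin 3) (Fin 3) F) ∈ K := by rw [hg]; exact ((u ^ b : Kˣ) : K).2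
      have hgiK : ((g⁻¹ : GL (Fin 3) F) : Matrix (Fin 3) (Fin 3) F) ∈ K := by rw [hg, ← map_inv]; exact (((u ^ b)⁻¹ : Kˣ) : K).2
      have hgN : g ∈ Cfsg.Geo.subalgebraNormalizer K := by
        intro k
        constructor
        · exact fun hk => K.mul_mem (K.mul_mem hgK hk) hgiK
        · intro hk
          have := K.mul_mem (K.mul_mem hgiK hk) hgK
          rwa [← mul_assoc, ← mul_assoc, ← Units.val_mul, inv_mul_cancel, Units.val_one, one_mul, mul_assoc,
            ← Units.val_mul, inv_mul_cancel, Units.val_one, mul_one] at this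
      have hg3 : (g : Matrix (Fin 3) (Fin 3) F) ^ 3 = z • 1 := by
        rw [hg, ← Units.val_pow_eq_pow_val, ← map_pow, ← hZ, ← ha, ← zpow_natCast, ← zpow_mul, mul_comm b]
        rfl
      obtain ⟨Py, hPy, hyP⟩ := Cfsg.Agent.GeomClasses.PrimeSingerThree.exists_companion hcz hx
      obtain ⟨Pg, hPg, hgP⟩ := Cfsg.Agent.GeomClasses.PrimeSingerThree.exists_companion hcz hg3
      have hu1 : Pg * Pg⁻¹ = 1 := Matrix.mul_nonsing_inv _ (isUnit_iff_ne_zero.2 hPg)
      have hu2 : Pg⁻¹ * Pg = 1 := Matrix.nonsing_inv_mul _ (isUnit_iff_ne_zero.2 hPg)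
      have e1 : Pg⁻¹ * (g : Matrix (Fin 3) (Fin 3) F) = !![0, 0, z; 1, 0, 0; 0, 1, 0] * Pg⁻¹ := by
        calc Pg⁻¹ * (g : Matrix (Fin 3) (Fin 3) F) = Pg⁻¹ * ((g : Matrix (Fin 3) (Fin 3) F) * Pg) * Pg⁻¹ := by
              simp only [mul_assoc, hu1, mul_one]
          _ = _ := by rw [hgP, ← mul_assoc, hu2, one_mul]
      refine Cfsg.Agent.GeomClasses.PrimeSingerThree.conj_into x hgN (P₀ := Py * Pg⁻¹)
        (by rw [Matrix.det_mul, Matrix.det_nonsing_inv, Ring.inverse_eq_inv']; exact mul_ne_zero hPy (inv_ne_zero hPg))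
        (by rw [mul_assoc Py Pg⁻¹, e1, ← mul_assoc, ← mul_assoc, hyP]) ?_
      intro s hs
      have hgd : (g : Matrix (Fin 3) (Fin 3) F).det = z := by
        have h1 := congrArg Matrix.det hgP
        rw [Matrix.det_mul, Matrix.det_mul, mul_comm] at h1
        rw [mul_left_cancel₀ hPg h1]
        simp [Matrix.det_fin_three]
      -- the powers of `z` meet every class modulo cubes
      obtain ⟨j, c, hjc⟩ : ∃ (j : ℕ) (c : F), s = c ^ 3 * z ^ j := by
        obtain ⟨v, hv⟩ := IsCyclic.exists_ofOrder_eq_natCard (α := Fˣ)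
        rw [Nat.card_units, Nat.card_eq_fintype_card, hq] at hv
        have htop : Subgroup.zpowers v = ⊤ := Subgroup.eq_top_of_card_eq _ (by
          rw [Nat.card_zpowers, hv, Nat.card_units, Nat.card_eq_fintype_card, hq])
        obtain ⟨e, he⟩ := Subgroup.mem_zpowers_iff.1 (htop ▸ Subgroup.mem_top (Units.mk0 s hs))
        obtain ⟨f, hf⟩ := Subgroup.mem_zpowers_iff.1 (htop ▸ Subgroup.mem_top (Units.mk0 z hz0))
        have hf3 : ¬ (3 : ℤ) ∣ f := by
          rintro ⟨f', rfl⟩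
          refine hcz ((v ^ f' : Fˣ) : F) ?_
          rw [← Units.val_pow_eq_pow_val, ← zpow_natCast, ← zpow_mul, mul_comm f', show ((3 : ℕ) : ℤ) = 3 by rfl, hf]
          rfl
        obtain ⟨j, c, hec⟩ : ∃ (j : ℕ) (c : ℤ), e = 3 * c + f * j := by
          have hf' : f % 3 = 1 ∨ f % 3 = 2 := by omega
          rcases hf' with h' | h'
          · exact ⟨(e % 3).toNat, e / 3 - (f / 3) * (e % 3), by
              rw [Int.toNat_of_nonneg (by omega)]
              linear_combination -(Int.emod_add_mul_ediv e 3) + (e % 3) * (Int.emod_add_mul_ediv f 3) - (e % 3) * h'⟩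
          · exact ⟨(2 * (e % 3)).toNat, e / 3 - (2 * (f / 3) + 1) * (e % 3), by
              rw [Int.toNat_of_nonneg (by omega)]
              linear_combination -(Int.emod_add_mul_ediv e 3) + 2 * (e % 3) * (Int.emod_add_mul_ediv f 3) - 2 * (e % 3) * h'⟩
        refine ⟨j, ((v ^ c : Fˣ) : F), ?_⟩
        rw [hec, zpow_add, zpow_mul', zpow_mul, hf] at he
        have := congrArg Units.val he
        simpa using this.symm
      refine ⟨c • (g : Matrix (Fin 3) (Fin 3) F) ^ j, ?_, ?_⟩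
      · rw [Matrix.det_smul, Matrix.det_pow, hgd, Fintype.card_fin, hjc]
      · rw [Matrix.smul_mul, Matrix.mul_smul, ← pow_succ, ← pow_succ']

end Cfsg.Agent.S5971
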