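import Cfsg.Statements.S5972
import Cfsg.Agent.Linear.OrthDerangeOdd
-- import your own Cfsg.Agent.* helpers here

set_option autoImplicit false
open scoped MatrixGroups
open Cfsg

namespace Cfsg.Agent.S5972

/-- Elements of prime order of Ω_n(q), n = 2d+1 ≥ 7, q odd, with no fixed totally singular `m`-space. Here `T = Ω_n(q)` is realised as the commutator subgroup of the isometry group of the quadratic form `x₀² + Σ xᵢyᵢ` over the field `F` with `q` elements (it has trivial centre, so its elements of prime order `r` are used directly); let `1 ≤ m ≤ d` and let `r` be a prime dividing the number of totally singular `m`-spaces. For `r ≠ p` let `i` be the multiplicative order of `q` modulo `r`, `c = i` for `i` even and `c = 2i` for `i` odd, and write `k = n mod c`, `ℓ = m mod i`, `n' = ⌊n/i⌋`, `m' = ⌊m/i⌋`, `t = (r−1)/i`. Then every element of `T` of order `r` fixes some totally singular `m`-space if and only if either (i) `r = 2`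 and (`m < (n−1)/2` or `q ≡ 1 (mod 4)`); or (ii) `r ≠ p` is odd, `i ≤ m`, `k > 2ℓ`, and (`i` is odd or `n' − 2m' ≥ t`). -/
theorem result {F : Type*} [Field F] [Fintype F] {p : ℕ} [Fact p.Prime] [CharP F p] {q : ℕ} (hq : Fintype.card F = q) (hqodd : Odd q)
    (d m : ℕ) (hd : 3 ≤ d) (hm : 1 ≤ m) (hmd : m ≤ d)
    (r : ℕ) [Fact r.Prime]
    (hrΩ : r ∣ Nat.card {W : Submodule F (Unit ⊕ (Fin d ⊕ Fin d) → F) // Module.finrank F ↥W = m ∧ (∀ w ∈ W, Cfsg.quadFormOdd d F w = 0)})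
    (i c : ℕ) (hi : i = orderOf (q : ZMod r)) (hc : c = if Even i then i else 2 * i) :
    (∀ x : GL (Unit ⊕ (Fin d ⊕ Fin d)) F, x ∈ Cfsg.Geo.omegaGL (Cfsg.quadFormOdd d F) → orderOf x = r →
      ∃ W : Submodule F (Unit ⊕ (Fin d ⊕ Fin d) → F), Module.finrank F ↥W = m ∧ (∀ w ∈ W, Cfsg.quadFormOdd d F w = 0) ∧
        W.map (Matrix.toLin' (x : Matrix (Unit ⊕ (Fin d ⊕ Fin d)) (Unit ⊕ (Fin d ⊕ Fin d)) F)) ≤ W) ↔
    ((r = 2 ∧ (m < d ∨ q % 4 = 1)) ∨
     (r ≠ p ∧ 2 < r ∧ i ≤ m ∧ 2 * (m % i) < (2 * d + 1) % c ∧ (Odd i ∨ (r - 1) / i + 2 * (m / i) ≤ (2 * d + 1) / i))) := by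
  classical
  have hr : r.Prime := Fact.out
  have hp : p.Prime := Fact.out
  have h2 := Cfsg.Agent.Forms.two_ne_zero_of_odd hq hqodd
  have hQ := Cfsg.Agent.Forms.qOdd_nondegenerate (m := d) h2
  have hV : Module.finrank F (Unit ⊕ (Fin d ⊕ Fin d) → F) = 2 * d + 1 := by
    rw [Module.finrank_pi, Fintype.card_sum, Fintype.card_sum, Fintype.card_fin, Fintype.card_unit]; omega
  have hdvd : r ∣ Nat.card {W : Submodule F (Unit ⊕ (Fin d ⊕ Fin d) → F) // Module.finrank F W = m ∧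
      Cfsg.Agent.Linear.OrthSpaces.Sing (Cfsg.Agent.Forms.qOdd d F) W} := by
    simpa only [Cfsg.Agent.Linear.OrthSpaces.Sing, Cfsg.Agent.Forms.coe_qOdd] using hrΩ
  have hrp : r ≠ p := by
    rintro rfl
    have h1 := Cfsg.Agent.Linear.SingCount.card_mod (p := r) hq m (Cfsg.Agent.Forms.qOdd d F) hQ (by omega)
    rw [(ZMod.natCast_eq_zero_iff _ _).2 hdvd] at h1
    exact zero_ne_one h1
  have key : ∀ (x : GL (Unit ⊕ (Fin d ⊕ Fin d)) F) (W : Submodule F (Unit ⊕ (Fin d ⊕ Fin d) → F)),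
      W.map (Matrix.toLin' (x : Matrix _ _ F)) ≤ W ↔ ∀ w ∈ W, Matrix.toLin' (x : Matrix _ _ F) w ∈ W :=
    fun x W => Submodule.map_le_iff_le_comap
  simp only [key, ← Cfsg.Agent.Forms.coe_qOdd]
  rcases eq_or_ne r 2 with rfl | hr2
  · refine (Cfsg.Agent.Linear.OrthDerangeOdd.two hq hqodd hQ (by
      rw [Fintype.card_sum, Fintype.card_sum, Fintype.card_fin, Fintype.card_unit]; omega) (by omega) hmd).trans
      ⟨fun h => Or.inl ⟨rfl, h⟩, fun h => h.elim (fun h => h.2) fun h => absurd h.2.1 (lt_irrefl _)⟩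
  · obtain ⟨S, hS, ht⟩ := Cfsg.Agent.Linear.OrthFree.exists_ctx (p := p) hq hr hr2 hrp hi
    rw [← hS.hScard] at ht
    have h := Cfsg.Agent.Linear.OrthDerangeOdd.odd_r hS hQ ht hV hmd hdvd
    have hcc : Cfsg.Agent.Linear.OrthFree.cc i = c := hc.symm
    rw [hcc, hS.hScard] at h
    constructor
    · intro H
      refine Or.inr ⟨hrp, lt_of_le_of_ne hr.two_le (Ne.symm hr2), h.1 fun T hT hTQ hT1 => ?_⟩
      obtain ⟨x, hx, hxT, hxr⟩ := Cfsg.Agent.Linear.OmegaElem.exists_of_odd hQ (by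
        rw [Fintype.card_sum, Fintype.card_sum, Fintype.card_fin, Fintype.card_unit]; omega)
        (hr.odd_of_ne_two hr2) hT hTQ
      obtain ⟨W, h1, h2', h3⟩ := H x hx (orderOf_eq_prime hxr fun h1 => hT1 (by
        rw [← hxT, h1, Units.val_one, Matrix.toLin'_one]; rfl))
      exact ⟨W, h1, h2', fun w hw => hxT ▸ h3 w hw⟩
    · intro hor x hx hxr
      refine h.2 (hor.resolve_left fun h' => hr2 h'.1).2.2 _
        (Cfsg.Agent.Linear.OrthDerangeBase.toLin_pow (hxr ▸ pow_orderOf_eq_one x))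
        (Cfsg.Agent.Linear.OmegaElem.preserves hx) fun h1 => ?_
      rw [Cfsg.Agent.Linear.OrthDerangeBase.toLin_inj h1, orderOf_one] at hxr
      exact hr.one_lt.ne hxr

end Cfsg.Agent.S5972
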