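import Cfsg.Statements.S5974
import Cfsg.Agent.Linear.NdEvenCases
import Cfsg.Agent.Linear.NdTwoTwo
-- import your own Cfsg.Agent.* helpers here

set_option autoImplicit false
open scoped MatrixGroups
open Cfsg

namespace Cfsg.Agent.S5974

/-- Elements of prime order of PΩ⁺_n(q), n = 2d ≥ 8, with no fixed nondegenerate hyperbolic `m`-space. Here `T = PΩ⁺_n(q)` is realised through `Ω⁺_n(q)`, the commutator subgroup of the isometry group of `Q = Σ xᵢyᵢ` over the field `F` with `q` elements; an element of `T` of prime order `r` is an element `x` of `Ω⁺_n(q)` with `x^r` scalar and `x` not scalar. A hyperbolic `m`-space is a subspace `W` of even dimension `m` on which the polar form of `Q` is nondegenerate and which contains a totally singular subspace of dimension `m/2`. Let `m` be even with `2 ≤ m < n/2`, and let `r` be a prime dividing the number of hyperbolic `m`-spaces, with `r = 2` or `r ≠ p`. For `r ≠ p` let `i` be the multiplicative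 order of `q` modulo `r`, `c = i` for `i` even and `c = 2i` for `i` odd, and write `k = n mod c`, `ℓ' = m mod c`. Then every element of `T` of order `r` fixes some hyperbolic `m`-space if and only if one of: (i) `r = 2` and (`n ≡ 2 (mod 4)`, or `m ≡ 0 (mod 4)`, or `q ≡ 1 (mod 4)`); (ii) `r ≠ p` odd, `i` odd, `c ≤ m` and `k ≥ ℓ'`; (iii) `r ≠ p` odd, `i` even, and either `k = 0` and (`n/i` odd, or `ℓ' = 0` and `m/i` even), or `i ≤ m` and (`k > ℓ' > 0`, or `k = ℓ' > 0` and `(n + m − 2k)/i` even, or `k > ℓ' = 0` and `m/i` even). -/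
theorem result {F : Type*} [Field F] [Fintype F] {p : ℕ} [Fact p.Prime] [CharP F p] {q : ℕ} (hq : Fintype.card F = q)
    (d m : ℕ) (hd : 4 ≤ d) (hm : 2 ≤ m) (hme : Even m) (hmd : m < d)
    (r : ℕ) [Fact r.Prime] (hr : r = 2 ∨ r ≠ p)
    (hrΩ : r ∣ Nat.card {W : Submodule F (Fin d ⊕ Fin d → F) // (Module.finrank F ↥W = m ∧ (∀ u ∈ W, u ≠ 0 → ∃ v ∈ W, QuadraticMap.polar (Cfsg.quadFormPlus d F) u v ≠ 0) ∧
          ∃ U : Submodule F (Fin d ⊕ Fin d → F), U ≤ W ∧ 2 * Module.finrank F ↥U = m ∧ ∀ u ∈ U, Cfsg.quadFormPlus d F u = 0)})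
    (i c : ℕ) (hi : i = orderOf (q : ZMod r)) (hc : c = if Even i then i else 2 * i) :
    (∀ x : GL (Fin d ⊕ Fin d) F, x ∈ Cfsg.Geo.omegaGL (Cfsg.quadFormPlus d F) →
      (∃ z : F, ((x ^ r : GL (Fin d ⊕ Fin d) F) : Matrix (Fin d ⊕ Fin d) (Fin d ⊕ Fin d) F) = z • (1 : Matrix (Fin d ⊕ Fin d) (Fin d ⊕ Fin d) F)) →
      (∀ z : F, (x : Matrix (Fin d ⊕ Fin d) (Fin d ⊕ Fin d) F) ≠ z • (1 : Matrix (Fin d ⊕ Fin d) (Fin d ⊕ Fin d) F)) →
      ∃ W : Submodule F (Fin d ⊕ Fin d → F), (Module.finrank F ↥W = m ∧ (∀ u ∈ W, u ≠ 0 → ∃ v ∈ W, QuadraticMap.polar (Cfsg.quadFormPlus d F) u v ≠ 0) ∧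
          ∃ U : Submodule F (Fin d ⊕ Fin d → F), U ≤ W ∧ 2 * Module.finrank F ↥U = m ∧ ∀ u ∈ U, Cfsg.quadFormPlus d F u = 0) ∧
        W.map (Matrix.toLin' (x : Matrix (Fin d ⊕ Fin d) (Fin d ⊕ Fin d) F)) ≤ W) ↔
    ((r = 2 ∧ ((2 * d) % 4 = 2 ∨ m % 4 = 0 ∨ q % 4 = 1)) ∨
     (r ≠ p ∧ 2 < r ∧ Odd i ∧ c ≤ m ∧ m % c ≤ (2 * d) % c) ∨
     (r ≠ p ∧ 2 < r ∧ Even i ∧
       (((2 * d) % c = 0 ∧ (Odd ((2 * d) / i) ∨ (m % c = 0 ∧ Even (m / i)))) ∨
        (i ≤ m ∧ ((m % c < (2 * d) % c ∧ 0 < m % c) ∨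
                  ((2 * d) % c = m % c ∧ 0 < m % c ∧ Even ((2 * d + m - 2 * ((2 * d) % c)) / i)) ∨
                  (0 < (2 * d) % c ∧ m % c = 0 ∧ Even (m / i))))))) := by
  classical
  have hr' : r.Prime := Fact.out
  have hp : p.Prime := Fact.out
  have hQ := Cfsg.Agent.Forms.qPlus_nondegenerate (m := d) (F := F)
  have hn : Fintype.card (Fin d ⊕ Fin d) = 2 * d := by
    rw [Fintype.card_sum, Fintype.card_fin]; omega
  have hV : Module.finrank F (Fin d ⊕ Fin d → F) = 2 * d := by rw [Module.finrank_pi, hn]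
  have hplus := Cfsg.Agent.Linear.OrthDerangeProj.plus_qPlus (F := F) (w := d)
  have key : ∀ (x : GL (Fin d ⊕ Fin d) F) (W : Submodule F (Fin d ⊕ Fin d → F)),
      W.map (Matrix.toLin' (x : Matrix _ _ F)) ≤ W ↔ ∀ w ∈ W, Matrix.toLin' (x : Matrix _ _ F) w ∈ W :=
    fun x W => Submodule.map_le_iff_le_comap
  obtain ⟨w, hw⟩ := hme
  rw [← Cfsg.Agent.Forms.coe_qPlus] at hrΩ ⊢
  simp only [key, and_assoc, Cfsg.Agent.Linear.NdBridge.typed_inline] at hrΩ ⊢
  rcases eq_or_ne r p with rfl | hrp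
  · obtain rfl : r = 2 := hr.resolve_right fun h => h rfl
    constructor
    · intro H
      refine Or.inl ⟨rfl, ?_⟩
      by_contra hcon
      obtain ⟨x, hx, hz, hns, hx0⟩ := Cfsg.Agent.Linear.NdEvenCases.plus_derange (p := 2) hQ hn hd hplus
      obtain ⟨W, ⟨hWd, hWn, -⟩, hWi⟩ := H x hx hz hns
      have hodd := ((hx0 W hWn hWi).2 w (by omega)).2
      simp only [Nat.odd_iff] at hodd
      omega
    · rintro (⟨-, hc⟩ | ⟨h1, -⟩ | ⟨h1, -⟩)
      swap; · exact absurd rfl h1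
      swap; · exact absurd rfl h1
      intro x hx hz _
      rw [show m = 2 * w by omega]
      refine Cfsg.Agent.Linear.NdTwoTwo.exists_plus hQ hn (by omega) (by omega) ?_ hx hz
      simp only [hplus, true_iff, Nat.even_iff, Nat.odd_iff]
      obtain ⟨e, -, he⟩ := FiniteField.card F 2
      have : q % 4 ≠ 1 := by
        rw [← hq, he]
        have := (dvd_pow_self 2 e.ne_zero)
        omega
      omega
  have h2p : r = 2 → p ≠ 2 := fun h h' => hrp (h.trans h'.symm)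
  rcases eq_or_ne r 2 with rfl | hr2
  · obtain ⟨n, -, hn'⟩ := FiniteField.card F p
    have hqodd : Odd q := hq ▸ hn' ▸ (hp.odd_of_ne_two (h2p rfl)).pow
    have hq2 := Nat.odd_iff.1 hqodd
    rw [show m = 2 * w by omega]
    refine (Cfsg.Agent.Linear.NdTwo.two_even hq hqodd hQ hn (by omega) (by omega)).trans ?_
    rw [Cfsg.Agent.Linear.NdEvenCases.quarter_iff hq hqodd, Cfsg.Agent.Linear.NdEvenCases.half_iff hq hqodd]
    simp only [hplus, h2p rfl, ne_eq, not_false_eq_true, true_iff, false_iff, lt_irrefl, false_and, and_false, or_false,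
      true_and, Nat.even_iff, Nat.odd_iff]
    omega
  · obtain ⟨S, hS, ht⟩ := Cfsg.Agent.Linear.OrthFree.exists_ctx (p := p) hq hr' hr2 hrp hi
    rw [← hS.hScard] at ht
    refine (Cfsg.Agent.Linear.NdEvenCases.odd_bridge hQ hn (by omega) (hr'.odd_of_ne_two hr2)).trans
      ((Cfsg.Agent.Linear.NdDerangeEven.crit_iff hS hQ ht hV ⟨w, hw⟩ hm (by omega) hrΩ).trans ?_)
    have hgap := Cfsg.Agent.Linear.NdDerangeEven.le_of_gap hS hQ ht hV ⟨w, hw⟩ hm (by omega) hrΩ
    have hcc : Cfsg.Agent.Linear.OrthFree.cc i = c := hc.symm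
    have hc0 : 0 < c := hcc ▸ Cfsg.Agent.Linear.OrthFree.cc_pos hS.hi0
    have h2r : 2 < r := lt_of_le_of_ne hr'.two_le (Ne.symm hr2)
    rw [Cfsg.Agent.Linear.NdDerangeEven.Crit, hcc]
    rw [hcc] at hgap
    have hmc := Nat.mod_add_div m c
    have hnc := Nat.mod_add_div (2 * d) c
    have hml := Nat.mod_lt m hc0
    have hdiv : m % c = 0 → c ≤ m := fun h0 => Nat.le_of_dvd (by omega) (Nat.dvd_of_mod_eq_zero h0)
    rcases Nat.even_or_odd i with hie | hio
    · have hno : ¬ Odd i := Nat.not_odd_iff_even.2 hie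
      have hci : c = i := by rw [hc, if_pos hie]
      subst hci
      have hsum : m % c = 2 * d % c → (2 * d + m - 2 * (2 * d % c)) / c = 2 * d / c + m / c := fun h0 => by
        refine Nat.div_eq_of_eq_mul_left hc0 ?_
        rw [add_mul, mul_comm (2 * d / c), mul_comm (m / c)]
        omega
      simp only [Cfsg.Agent.Linear.OrthSingDerange.FixPlus, Cfsg.Agent.Linear.NdDerangeEven.FreePlus, hplus, hno,
        hr2, hrp, hie, h2r, ne_eq, not_false_eq_true, false_and, and_false, false_or, or_false, true_and, true_iff,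
        Nat.even_iff, Nat.odd_iff] at hgap ⊢
      constructor
      · rintro ⟨hcm, h⟩
        rcases h with h | h | ⟨h1, h3, h4⟩ | ⟨h1, h3⟩
        · exact Or.inl ⟨h.1, Or.inl (by omega)⟩
        · exact Or.inr ⟨hcm, Or.inl ⟨h.2, h.1⟩⟩
        · refine Or.inr ⟨hcm, Or.inr (Or.inl ⟨h3.symm, h1, ?_⟩)⟩
          rw [hsum h3]
          omega
        · rcases Nat.eq_zero_or_pos (2 * d % c) with hk | hk
          · exact Or.inl ⟨hk, Or.inr ⟨h1, h3⟩⟩
          · exact Or.inr ⟨hcm, Or.inr (Or.inr ⟨hk, h1, h3⟩)⟩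
      · rintro (⟨hk, hN⟩ | ⟨hcm, h | ⟨h1, h3, h4⟩ | ⟨hk, h1, h3⟩⟩)
        · rcases hN with hN | ⟨h1, h3⟩
          · exact ⟨hgap hk (by omega), Or.inl ⟨hk, by omega⟩⟩
          · exact ⟨hdiv h1, Or.inr (Or.inr (Or.inr ⟨h1, h3⟩))⟩
        · exact ⟨hcm, Or.inr (Or.inl ⟨h.2, h.1⟩)⟩
        · refine ⟨hcm, Or.inr (Or.inr (Or.inl ⟨h3, h1.symm, ?_⟩))⟩
          rw [hsum h1.symm] at h4
          omega
        · exact ⟨hcm, Or.inr (Or.inr (Or.inr ⟨h1, h3⟩))⟩
    · have hne : ¬ Even i := Nat.not_even_iff_odd.2 hio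
      simp only [Cfsg.Agent.Linear.OrthSingDerange.FixPlus, Cfsg.Agent.Linear.NdDerangeEven.FreePlus, hplus, hio,
        hr2, hrp, hne, h2r, ne_eq, not_false_eq_true, false_and, and_false, false_or, or_false, true_and, true_or,
        not_true, iff_true, iff_false, true_iff, false_iff]
      simp only [and_true]
      omega

end Cfsg.Agent.S5974
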