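import Cfsg.Statements.S5975
import Cfsg.Agent.GeomClasses.SympFieldExtDerange
import Cfsg.Agent.GeomClasses.SympFieldExtFour
import Cfsg.Agent.GeomClasses.SympDecompDerange

set_option autoImplicit false
open scoped MatrixGroups
open scoped Matrix
open Cfsg Matrix

namespace Cfsg.Agent.S5975

/-- Elements of prime order of PSp_n(q) and the field-extension subgroups of type Sp_{n/k}(q^k). Here `T = PSp_{2d}(F)` for a field `F` with `q` elements (`d ≥ 2`, `(d, q) ≠ (2, 2)`), realised through the matrices preserving the standard alternating form `f`; `k` is a prime and `K` is a subalgebra of the `2d × 2d` matrices that is a field of degree `k` over `F` whose elements are self-adjoint for `f` and satisfy `f(a v, v) = 0` (so `F^{2d}` becomes a vector space over `K ≅ F_{q^k}` on which `f` is the trace of a `K`-bilinear alternating form); `H` is the subgroup of `T` normalizing `K` — the symplectic maps that are `K`-linear or `K`-semilinear, a subgroup of type Sp_{2d/k}(q^k) (maximality is not assumed). Ω is the set of cosets of `H` in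 `T`, so an element of `T` of prime order `r` (`x ∈ T` with `x^r` scalar, `x` not scalar) fixes a point of Ω exactly when some `T`-conjugate of `x` normalizes `K`. Let `r` be a prime dividing the index of `H`. Then every element of `T` of order `r` fixes a point of Ω if and only if `r = 2`, `d = 2`, `k = 2` and `q` is odd. -/
theorem result {F : Type*} [Field F] [Fintype F] {p : ℕ} [Fact p.Prime] [CharP F p] {q : ℕ} (hq : Fintype.card F = q)
    (d : ℕ) (hd : 2 ≤ d) (hT : (d, q) ≠ (2, 2)) (k : ℕ) (hk : k.Prime)
    (K : Subalgebra F (Matrix (Fin d ⊕ Fin d) (Fin d ⊕ Fin d) F)) (hK : Cfsg.Geo.IsFieldSubalgebra k K)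
    (hKf : Cfsg.Geo.IsSelfAdjointFor (Cfsg.sympForm d F) K) (hKalt : ∀ a ∈ K, ∀ v : Fin d ⊕ Fin d → F, Cfsg.sympForm d F (a *ᵥ v) v = 0)
    (r : ℕ) [Fact r.Prime]
    (hΩ : r ∣ (Cfsg.Geo.subalgebraNormalizer K).relIndex (Cfsg.spGL d F)) :
    (∀ x ∈ Cfsg.spGL d F, (∃ z : F, ((x ^ r : GL (Fin d ⊕ Fin d) F) : Matrix (Fin d ⊕ Fin d) (Fin d ⊕ Fin d) F) = z • (1 : Matrix (Fin d ⊕ Fin d) (Fin d ⊕ Fin d) F)) →
      (∀ z : F, (x : Matrix (Fin d ⊕ Fin d) (Fin d ⊕ Fin d) F) ≠ z • (1 : Matrix (Fin d ⊕ Fin d) (Fin d ⊕ Fin d) F)) →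
      ∃ g ∈ Cfsg.spGL d F, g⁻¹ * x * g ∈ Cfsg.Geo.subalgebraNormalizer K) ↔
    (r = 2 ∧ d = 2 ∧ k = 2 ∧ Odd q) := by
  classical
  have hr : r.Prime := Fact.out
  have hp : p.Prime := Fact.out
  obtain ⟨f₀, -, hf₀⟩ := FiniteField.card F p
  rw [hq] at hf₀
  let B := Cfsg.Agent.Forms.sympB d F
  have hA : B.IsAlt := Cfsg.Agent.Forms.sympB_isAlt
  have hB : B.Nondegenerate := Cfsg.Agent.Forms.sympB_nondegenerate
  have hV : Module.finrank F (Fin d ⊕ Fin d → F) = 2 * d := by
    rw [Module.finrank_pi, Fintype.card_sum, Fintype.card_fin]; omega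
  let i0 : Fin d := ⟨0, by omega⟩
  haveI : Nonempty (Fin d ⊕ Fin d) := ⟨Sum.inl i0⟩
  have hsquare : ∀ z : F, (∀ u v, B (z • u) (z • v) = B u v) → z * z = 1 := by
    intro z h
    have h1 := h (Pi.single (Sum.inr i0) 1) (Pi.single (Sum.inl i0) 1)
    simpa [B, Cfsg.Agent.Forms.sympForm_eq, Pi.single_apply, mul_assoc] using h1
  obtain ⟨j, μ, hj, hE, hspan⟩ := GeomClasses.SympFieldExt.exists_ext (by omega) hk hK hKf hKalt
  constructor
  · intro H
    by_contra hcon
    -- the conjugate field attached to an element with a fixed point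
    have key : ∀ T : Module.End F (Fin d ⊕ Fin d → F), T ^ r = 1 → (∀ u v, B (T u) (T v) = B u v) → (∀ e : F, T ≠ e • 1) →
        ∃ J : Module.End F (Fin d ⊕ Fin d → F), GeomClasses.SympFieldExt.Ext J μ k ∧
          ((∀ v, J (T v) = T (J v)) ∨ (r = k ∧ k * Module.finrank F (LinearMap.ker (T - 1)) ≤ 2 * d)) := by
      intro T hTr hTB hns
      have hinj : Function.Injective T := fun a b h => by
        have := congrArg (T ^ (r - 1)) h
        rwa [← Module.End.mul_apply, ← Module.End.mul_apply, ← pow_succ, Nat.sub_add_cancel hr.one_lt.le, hTr,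
          Module.End.one_apply, Module.End.one_apply] at this
      obtain ⟨x, hx, hxT⟩ := GeomClasses.SympQuadExt.exists_gl
        (LinearEquiv.ofBijective T ⟨hinj, LinearMap.injective_iff_surjective.1 hinj⟩) hTB
      have hxT' : ∀ v, (x : Matrix (Fin d ⊕ Fin d) (Fin d ⊕ Fin d) F) *ᵥ v = T v := hxT
      have hxk : ∀ (n : ℕ) v, ((x ^ n : GL (Fin d ⊕ Fin d) F) : Matrix (Fin d ⊕ Fin d) (Fin d ⊕ Fin d) F) *ᵥ v =
          (T ^ n) v := by
        intro n
        induction n with
        | zero => intro v; simp
        | succ n ih =>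
          intro v
          rw [pow_succ', Units.val_mul, ← Matrix.mulVec_mulVec, ih, hxT', pow_succ', Module.End.mul_apply]
      have hxr : x ^ r = 1 := Units.ext (Cfsg.Agent.Forms.matrix_ext_mulVec fun v => by
        rw [hxk, hTr, Units.val_one, Matrix.one_mulVec]; rfl)
      obtain ⟨g, hg, hy⟩ := H x hx ⟨1, by rw [hxr, one_smul, Units.val_one]⟩ fun z hz => hns z (LinearMap.ext fun v => by
        rw [← hxT', hz, Matrix.smul_mulVec, Matrix.one_mulVec]; rfl)
      have hyr : (g⁻¹ * x * g) ^ r = 1 := by
        have := conj_pow (i := r) (a := g⁻¹) (b := x)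
        rwa [inv_inv, hxr, mul_one, inv_mul_cancel] at this
      -- transport the generator
      let E := Cfsg.Agent.Forms.glEquiv (Fin d ⊕ Fin d) F g
      let J : Module.End F (Fin d ⊕ Fin d → F) := E.conjAlgEquiv F (Matrix.toLin' j)
      have hJv : ∀ v, J v = E (Matrix.toLin' j (E.symm v)) := fun v => rfl
      have hEB : ∀ u v, B (E u) (E v) = B u v := fun u v => by
        simp only [E, Cfsg.Agent.Forms.glEquiv_apply]
        exact GeomClasses.mem_spGL_iff.1 hg u v
      have hJP : ∀ (P : Polynomial F) v, Polynomial.aeval J P v = E (Polynomial.aeval (Matrix.toLin' j) P (E.symm v)) :=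
        fun P v => by
          rw [show Polynomial.aeval J P = E.conjAlgEquiv F (Polynomial.aeval (Matrix.toLin' j) P) from
            Polynomial.aeval_algHom_apply (E.conjAlgEquiv F).toAlgHom (Matrix.toLin' j) P]
          rfl
      refine ⟨J, ⟨hE.monic, hE.irr, hE.deg, ?_, fun u v => ?_, fun P v => ?_⟩, ?_⟩
      · refine LinearMap.ext fun v => ?_
        rw [hJP, hE.root, LinearMap.zero_apply, map_zero, LinearMap.zero_apply]
      · obtain ⟨u, rfl⟩ := E.surjective u
        obtain ⟨v, rfl⟩ := E.surjective v
        rw [hJv, hJv, E.symm_apply_apply, E.symm_apply_apply]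
        show B (E (Matrix.toLin' j u)) (E v) = B (E u) (E (Matrix.toLin' j v))
        rw [hEB, hEB]
        exact hE.sa u v
      · obtain ⟨v, rfl⟩ := E.surjective v
        rw [hJP, E.symm_apply_apply]
        show B (E _) (E v) = 0
        rw [hEB]
        exact hE.alt P v
      rcases GeomClasses.SympFieldExt.commute_or_semilinear hK (by omega) hk hj hspan hy hr hyr with hc | ⟨hrk, hdim⟩
      · left
        intro v
        obtain ⟨w, rfl⟩ := E.surjective v
        have hEw : ∀ w, E w = (g : Matrix (Fin d ⊕ Fin d) (Fin d ⊕ Fin d) F) *ᵥ w :=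
          fun w => Cfsg.Agent.Forms.glEquiv_apply g w
        have hTE : ∀ w, T (E w) = E (((g⁻¹ * x * g : GL (Fin d ⊕ Fin d) F) : Matrix (Fin d ⊕ Fin d) (Fin d ⊕ Fin d) F) *ᵥ w) := by
          intro w
          rw [← hxT', hEw, hEw, Matrix.mulVec_mulVec, Matrix.mulVec_mulVec, ← Units.val_mul, ← Units.val_mul,
            mul_assoc g⁻¹, mul_inv_cancel_left]
        rw [hTE, hJv, hJv, E.symm_apply_apply, E.symm_apply_apply, hTE, Matrix.toLin'_apply, Matrix.toLin'_apply,
          Matrix.mulVec_mulVec, Matrix.mulVec_mulVec, hc]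
      · right
        refine ⟨hrk, le_trans (Nat.mul_le_mul_left _ (le_of_eq ?_)) hdim⟩
        refine (LinearEquiv.finrank_map_eq E.symm _).symm.trans (congrArg (fun W : Submodule F (Fin d ⊕ Fin d → F) =>
          Module.finrank F W) (le_antisymm ?_ ?_))
        · rintro _ ⟨v, hv, rfl⟩
          have hv' : T v = v := sub_eq_zero.1 hv
          refine sub_eq_zero.2 ?_
          simp only [E, Matrix.toLin'_apply, Module.End.one_apply, LinearEquiv.coe_coe]
          rw [show (Cfsg.Agent.Forms.glEquiv (Fin d ⊕ Fin d) F g).symm v =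
            ((g⁻¹ : GL (Fin d ⊕ Fin d) F) : Matrix (Fin d ⊕ Fin d) (Fin d ⊕ Fin d) F) *ᵥ v from
              (LinearEquiv.symm_apply_eq _).2 (by
                rw [Cfsg.Agent.Forms.glEquiv_apply, Matrix.mulVec_mulVec, ← Units.val_mul, mul_inv_cancel, Units.val_one,
                  Matrix.one_mulVec]), Matrix.mulVec_mulVec, ← Units.val_mul, show g⁻¹ * x * g * g⁻¹ = g⁻¹ * x by group,
            Units.val_mul, ← Matrix.mulVec_mulVec, hxT', hv']
        · intro w hw
          refine ⟨E w, ?_, E.symm_apply_apply w⟩
          have hw' : ((g⁻¹ * x * g : GL (Fin d ⊕ Fin d) F) : Matrix (Fin d ⊕ Fin d) (Fin d ⊕ Fin d) F) *ᵥ w = w :=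
            sub_eq_zero.1 hw
          refine sub_eq_zero.2 ?_
          rw [Module.End.one_apply]
          simp only [E, Cfsg.Agent.Forms.glEquiv_apply]
          rw [← hxT']
          conv_rhs => rw [← hw']
          rw [Matrix.mulVec_mulVec, Matrix.mulVec_mulVec, ← Units.val_mul, ← Units.val_mul, mul_assoc g⁻¹,
            mul_inv_cancel_left]
    have hk2 := hk.two_le
    by_cases hrp : r = p
    · -- a transvection
      set u : Fin d ⊕ Fin d → F := Pi.single (Sum.inl i0) 1
      set w : Fin d ⊕ Fin d → F := Pi.single (Sum.inr i0) 1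
      have huu : B u u = 0 := hA u
      have hwu : B w u = 1 := by simp [B, u, w, Cfsg.Agent.Forms.sympForm_eq, Pi.single_apply]
      have hu0 : u ≠ 0 := by simp [u]
      let T : Module.End F (Fin d ⊕ Fin d → F) := 1 + (B.flip u).smulRight u
      have hT : ∀ v, T v = v + B v u • u := fun v => rfl
      have hTk : ∀ (n : ℕ) v, (T ^ n) v = v + ((n : F) * B v u) • u := by
        intro n
        induction n with
        | zero => intro v; simp
        | succ n ih =>
          intro v
          rw [pow_succ', Module.End.mul_apply, ih, hT]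
          simp only [map_add, map_smul, LinearMap.add_apply, LinearMap.smul_apply, huu, smul_eq_mul, mul_zero, add_zero,
            Nat.cast_add, Nat.cast_one, add_mul, one_mul, add_smul]
          abel
      have hTr : T ^ r = 1 := LinearMap.ext fun v => by
        rw [hTk, hrp, CharP.cast_eq_zero, zero_mul, zero_smul, add_zero]; rfl
      have hTB : ∀ a b, B (T a) (T b) = B a b := fun a b => by
        simp only [hT, map_add, map_smul, LinearMap.add_apply, LinearMap.smul_apply, smul_eq_mul, huu]
        rw [← LinearMap.IsAlt.neg hA b u]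
        ring
      obtain ⟨J, hJ, hcase⟩ := key T hTr hTB fun e he => by
        have h := congrFun (LinearMap.congr_fun he w) (Sum.inl i0)
        rw [hT, hwu, one_smul] at h
        simp [u, w, Pi.single_apply] at h
      rcases hcase with hc | ⟨hrk, hdim⟩
      · have h := hc w
        rw [hT, hT, map_add, map_smul, hwu, one_smul] at h
        have hJu : J u = B (J w) u • u := add_left_cancel h
        have hroot : ∀ P : Polynomial F, Polynomial.aeval J P u = P.eval (B (J w) u) • u := by
          intro P
          induction P using Polynomial.induction_on with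
          | C a => simp [Module.algebraMap_end_apply]
          | add A C hA' hC' => simp [hA', hC', add_smul]
          | monomial n a ih =>
            rw [pow_succ, ← mul_assoc, map_mul, Polynomial.aeval_X, Module.End.mul_apply, hJu, map_smul, ih, smul_smul,
              Polynomial.eval_mul (q := Polynomial.X), Polynomial.eval_X, mul_comm]
        have h0 := hroot μ
        rw [hJ.root, LinearMap.zero_apply] at h0
        have := Polynomial.natDegree_eq_of_degree_eq_some
          (Polynomial.degree_eq_one_of_irreducible_of_root hJ.irr ((smul_eq_zero.1 h0.symm).resolve_right hu0))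
        rw [hJ.deg] at this
        exact hk.ne_one this
      · have hker : LinearMap.ker (T - 1) = LinearMap.ker (B.flip u) := Submodule.ext fun v => by
          simp [hT, hu0]
        have h1 := Module.Dual.finrank_ker_add_one_of_ne_zero (f := B.flip u) (fun e => by
          have h' : B w u = 0 := LinearMap.congr_fun e w
          rw [hwu] at h'
          exact one_ne_zero h')
        rw [hker] at hdim
        rw [hV] at h1
        have := Nat.mul_le_mul_right (Module.finrank F (LinearMap.ker (B.flip u))) hk2
        omega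
    have hrF : (r : F) ≠ 0 := fun h =>
      hrp ((Nat.prime_dvd_prime_iff_eq hp hr).1 ((CharP.cast_eq_zero_iff F p r).1 h)).symm
    have hrq : ¬ r ∣ q := fun h => hrp ((Nat.prime_dvd_prime_iff_eq hr hp).1 (hr.dvd_of_dvd_pow (hf₀ ▸ h)))
    have hq1 : 1 < q := hq ▸ Fintype.one_lt_card
    set i := orderOf (q : ZMod r) with hi
    obtain ⟨hi0, -⟩ := GeomClasses.SubspaceDerange.dvd_pow_sub_one hrq hi
    set c := if Even i then i else 2 * i with hc
    have hc0 : 0 < c := by rw [hc]; split_ifs <;> omega
    have hns : ∀ T : Module.End F (Fin d ⊕ Fin d → F), T ^ r = 1 → (∀ u v, B (T u) (T v) = B u v) →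
        0 < Module.finrank F (LinearMap.ker (T - 1)) → Module.finrank F (LinearMap.ker (T - 1)) < 2 * d →
        ∀ e : F, T ≠ e • 1 := by
      intro T _ _ hlo hhi e he
      by_cases he1 : e = 1
      · rw [he, he1, one_smul, sub_self, LinearMap.ker_zero, finrank_top, hV] at hhi
        exact lt_irrefl _ hhi
      · rw [he, show e • (1 : Module.End F (Fin d ⊕ Fin d → F)) - 1 = (e - 1) • 1 by ext v; simp [sub_smul],
          LinearMap.ker_smul _ _ (sub_ne_zero.2 he1), Module.End.one_eq_id, LinearMap.ker_id, finrank_bot] at hlo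
        exact lt_irrefl _ hlo
    by_cases hr2 : r = 2
    · subst hr2
      have hq2 : Odd q := Nat.not_even_iff_odd.1 fun h => hrq (even_iff_two_dvd.1 h)
      have h2 : (2 : F) ≠ 0 := by exact_mod_cast hrF
      have hi1 : i = 1 := by
        rw [hi, (ZMod.natCast_eq_one_iff_odd.2 hq2 : (q : ZMod 2) = 1), orderOf_one]
      have hc2 : c = 2 := by rw [hc, hi1]; rfl
      obtain ⟨T, hTr, hTB, hker⟩ := GeomClasses.SympDecompDerange.exists_moving (r := 2) hA hB hrF hq hrq hi hc (j := 1)
        (by rw [hV, hc2]; omega)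
      rw [hV, one_mul, hc2] at hker
      obtain ⟨J, hJ, hcase⟩ := key T hTr hTB (hns T hTr hTB (by rw [hker]; omega) (by rw [hker]; omega))
      rcases hcase with hcomm | ⟨hrk, hdim⟩
      · have hKn : GeomClasses.SympStructure.Nd B (LinearMap.ker (T - 1)) := by
          have := GeomClasses.SympStructure.nd_fixed hA hTB hTr hrF (W := ⊤) (fun _ _ => trivial)
            (GeomClasses.SympStructure.nd_top hB)
          rwa [top_inf_eq] at this
        set Kf := LinearMap.ker (T - 1)
        set R := B.orthogonal Kf
        have hRn : GeomClasses.SympStructure.Nd B R := by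
          have := (GeomClasses.SympStructure.nd_split hA hKn (GeomClasses.SympStructure.nd_top hB) le_top).1
          rwa [top_inf_eq] at this
        have hRd : Module.finrank F R = 2 := by
          rw [LinearMap.BilinForm.finrank_orthogonal hB, hker, hV]; omega
        have hJK : ∀ v ∈ Kf, J v ∈ Kf := fun v hv => by
          show (T - 1) (J v) = 0
          rw [LinearMap.sub_apply, Module.End.one_apply, ← hcomm, show T v = v from sub_eq_zero.1 hv, sub_self]
        have hJR : ∀ v ∈ R, J v ∈ R := fun v hv w hw => by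
          show B w (J v) = 0
          exact (hJ.sa w v).symm.trans (hv _ (hJK w hw))
        have hk' : k = 2 := le_antisymm (Nat.le_of_dvd (by norm_num) (hRd ▸ hJ.dvd_finrank hJR)) hk2
        obtain ⟨v, hv, hv0⟩ := (Submodule.ne_bot_iff R).1 fun e => by rw [e, finrank_bot] at hRd; omega
        have hli : LinearIndependent F ![v, J v] := by
          refine LinearIndependent.pair_iff.mpr fun s t h => ?_
          by_cases ht : t = 0
          · rw [ht, zero_smul, add_zero] at h
            exact ⟨(smul_eq_zero.1 h).resolve_right hv0, ht⟩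
          exfalso
          let P : Polynomial F := Polynomial.C s + Polynomial.C t * Polynomial.X
          have hPv : Polynomial.aeval J P v = 0 := by simp [P, Module.algebraMap_end_apply, h]
          have hP0 : P ≠ 0 := fun e => ht (by
            have := congrArg (fun Q => Polynomial.coeff Q 1) e
            simpa [P] using this)
          have hnd : ¬ μ ∣ P := fun hd' => by
            have h1 := Polynomial.natDegree_le_of_dvd hd' hP0
            have h2' : P.natDegree ≤ 1 := by
              refine (Polynomial.natDegree_add_le _ _).trans (max_le (by simp) ?_)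
              exact (Polynomial.natDegree_C_mul_le _ _).trans Polynomial.natDegree_X_le
            rw [hJ.deg] at h1
            omega
          obtain ⟨a, b, hab⟩ := hJ.irr.coprime_iff_not_dvd.2 hnd
          have h' := congrArg (fun Q => Polynomial.aeval J Q v) hab
          simp only [map_add, map_mul, hJ.root, mul_zero, zero_add, Module.End.mul_apply, hPv, map_zero, map_one,
            Module.End.one_apply] at h'
          exact hv0 h'.symm
        refine hv0 (hRn v hv fun y hy => ?_)
        have hspanR : Submodule.span F (Set.range ![v, J v]) = R := Submodule.eq_of_le_of_finrank_eq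
          (Submodule.span_le.2 (by rintro _ ⟨a, rfl⟩; fin_cases a <;> first | exact hv | exact hJR v hv))
          (by rw [finrank_span_eq_card hli, Fintype.card_fin, hRd])
        obtain ⟨cf, rfl⟩ := (Submodule.mem_span_range_iff_exists_fun F).1 (hspanR ▸ hy)
        have e1 : B v (J v) = 0 := by
          rw [← LinearMap.IsAlt.neg hA, neg_eq_zero]
          simpa [B] using hJ.alt Polynomial.X v
        simp [Fin.sum_univ_two, e1, hA v, -Cfsg.Agent.Forms.sympB_apply]
      · refine hcon ⟨rfl, ?_, hrk.symm, hq2⟩
        rw [← hrk, hker] at hdim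
        omega
    · -- a single atom
      have hir : i ∣ r - 1 := by
        refine orderOf_dvd_of_pow_eq_one (ZMod.pow_card_sub_one_eq_one fun h => hrq ((ZMod.natCast_eq_zero_iff q r).1 h))
      set h := if Even i then i / 2 else i with hh
      have hch : c = 2 * h := by
        rw [hc, hh]; split_ifs with hie
        · obtain ⟨a, ha⟩ := hie; omega
        · rfl
      have hone : ∀ l, r ∣ q ^ (2 * l) - 1 → h ∣ l := fun l hl => by
        have h' := (ZMod.natCast_eq_zero_iff _ r).2 hl
        rw [Nat.cast_sub (Nat.one_le_pow _ _ (by omega)), Nat.cast_pow, Nat.cast_one, sub_eq_zero] at h'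
        have hd' : i ∣ 2 * l := orderOf_dvd_of_pow_eq_one h'
        rw [hh]; split_ifs with hie
        · obtain ⟨a, ha⟩ := hie
          rw [show i / 2 = a by omega]
          exact Nat.dvd_of_mul_dvd_mul_left (by omega : 0 < 2) (by rwa [show 2 * a = i by omega])
        · exact (Nat.coprime_two_right.2 (Nat.not_even_iff_odd.1 hie)).dvd_of_dvd_mul_left hd'
      have hfacts : ¬ k ∣ h ∧ h ≤ d := by
        obtain ⟨e, hde, t, ht⟩ := GeomClasses.SympFieldExt.exists_dvd_card hq hE hspan
        have hidx := Subgroup.card_mul_index ((Cfsg.Geo.subalgebraNormalizer K).subgroupOf (Cfsg.spGL d F))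
        rw [← Subgroup.inf_subgroupOf_right, Nat.card_congr (Subgroup.subgroupOfEquivOfLe inf_le_right).toEquiv,
          Subgroup.inf_subgroupOf_right, Nat.card_congr (Cfsg.Agent.Forms.spGLEquiv (m := d) (F := F)).toEquiv,
          ← Nat.card_congr (Cfsg.Agent.Forms.spEquiv d F).toEquiv, Cfsg.Agent.Forms.card_symplecticGroup hq, ht] at hidx
        change _ * (Cfsg.Geo.subalgebraNormalizer K).relIndex (Cfsg.spGL d F) = _ at hidx
        refine ⟨fun hkh => ?_, ?_⟩
        · set S := (Finset.range e).image fun a => k * (a + 1) - 1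
          have hsub : S ⊆ Finset.range d := fun l hl => by
            obtain ⟨a, ha, rfl⟩ := Finset.mem_image.1 hl
            have := Nat.mul_le_mul_left k (Finset.mem_range.1 ha)
            have := Nat.mul_pos hk.pos a.succ_pos
            rw [Finset.mem_range, hde]
            simp only [Nat.succ_eq_add_one] at *
            omega
          have hS : ∏ l ∈ S, (q ^ (2 * (l + 1)) - 1) = ∏ a ∈ Finset.range e, ((q ^ k) ^ (2 * (a + 1)) - 1) := by
            rw [Finset.prod_image]
            · refine Finset.prod_congr rfl fun a _ => ?_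
              have := Nat.mul_pos hk.pos a.succ_pos
              rw [show k * (a + 1) - 1 + 1 = k * (a + 1) by simp only [Nat.succ_eq_add_one] at this; omega, ← pow_mul,
                Nat.mul_left_comm]
            · intro a _ b _ hab
              have := Nat.mul_pos hk.pos a.succ_pos
              have := Nat.mul_pos hk.pos b.succ_pos
              simp only [Nat.succ_eq_add_one] at *
              have := Nat.eq_of_mul_eq_mul_left hk.pos (show k * (a + 1) = k * (b + 1) by omega)
              omega
          rw [← Finset.prod_sdiff hsub, hS] at hidx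
          have hpos : 0 < ∏ a ∈ Finset.range e, ((q ^ k) ^ (2 * (a + 1)) - 1) :=
            Finset.prod_pos fun a _ => Nat.sub_pos_of_lt (Nat.one_lt_pow (by omega) (Nat.one_lt_pow hk.ne_zero hq1))
          have heq : (q ^ k) ^ e ^ 2 * t * (Cfsg.Geo.subalgebraNormalizer K).relIndex (Cfsg.spGL d F) =
              q ^ d ^ 2 * ∏ l ∈ Finset.range d \ S, (q ^ (2 * (l + 1)) - 1) :=
            Nat.eq_of_mul_eq_mul_right hpos (by linear_combination hidx)
          have hdvd := (hr.dvd_mul.1 (heq ▸ hΩ.mul_left _)).resolve_left fun h => hrq (hr.dvd_of_dvd_pow h)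
          obtain ⟨l, hl, hl'⟩ := (hr.prime.dvd_finsetProd_iff _).1 hdvd
          rw [Finset.mem_sdiff, Finset.mem_range] at hl
          obtain ⟨a, ha⟩ := hkh.trans (hone _ hl')
          have ha1 : 1 ≤ a := Nat.pos_of_ne_zero fun e0 => by rw [e0, mul_zero] at ha; omega
          refine hl.2 (Finset.mem_image.2 ⟨a - 1, Finset.mem_range.2 ?_, ?_⟩)
          · have := Nat.le_of_mul_le_mul_left (show k * a ≤ k * e by omega) hk.pos
            omega
          · rw [Nat.sub_add_cancel ha1]; omega
        · have hdvd := (hr.dvd_mul.1 (hidx ▸ hΩ.mul_left _)).resolve_left fun h => hrq (hr.dvd_of_dvd_pow h)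
          obtain ⟨l, hl, hl'⟩ := (hr.prime.dvd_finsetProd_iff _).1 hdvd
          rw [Finset.mem_range] at hl
          have := Nat.le_of_dvd (by omega) (hone _ hl')
          omega
      obtain ⟨hkh, hhd⟩ := hfacts
      have hcd : c ≤ 2 * d := by omega
      obtain ⟨T, hTr, hTB, hker⟩ := GeomClasses.SympDecompDerange.exists_moving (r := r) hA hB hrF hq hrq hi hc (j := 1)
        (by rw [hV, one_mul]; exact hcd)
      rw [hV, one_mul] at hker
      have hnsT : ∀ e : F, T ≠ e • 1 := by
        intro e he
        obtain ⟨s, hs⟩ := hr.odd_of_ne_two hr2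
        have hee : e * e = 1 := hsquare e fun u v => by
          have := hTB u v
          simpa only [he, LinearMap.smul_apply, Module.End.one_apply] using this
        have her : e ^ r = 1 := by
          have h := congrArg (fun f : Module.End F (Fin d ⊕ Fin d → F) => f (Pi.single (Sum.inl i0) 1) (Sum.inl i0)) hTr
          simpa [he, _root_.smul_pow] using h
        rw [hs, pow_succ, pow_mul, pow_two, hee, one_pow, one_mul] at her
        rw [he, her, one_smul, sub_self, LinearMap.ker_zero, finrank_top, hV] at hker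
        omega
      obtain ⟨J, hJ, hcase⟩ := key T hTr hTB hnsT
      rcases hcase with hcomm | ⟨hrk, hdim⟩
      · exact hkh (GeomClasses.SympFieldExtDerange.dvd_half hq hrF hr2 hrq hi hc hTr hTB hcd hker hJ hcomm)
      · obtain ⟨e, hde, -⟩ := GeomClasses.SympFieldExt.exists_dvd_card hq hE hspan
        have hck : c ≤ k - 1 := by
          rw [← hrk]
          obtain ⟨t, ht⟩ := hir
          have hev : Even (r - 1) := by obtain ⟨s, hs⟩ := hr.odd_of_ne_two hr2; exact ⟨s, by omega⟩
          have hr3 := hr.two_le
          have ht0 : 1 ≤ t := Nat.pos_of_ne_zero fun e0 => by rw [e0, mul_zero] at ht; omega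
          rw [hc]
          split_ifs with hie
          · have := Nat.le_mul_of_pos_right i ht0; omega
          · have ht2 : 2 ≤ t := by
              by_contra hlt
              obtain rfl : t = 1 := by omega
              exact hie (by rw [mul_one] at ht; rwa [ht] at hev)
            have := Nat.mul_le_mul_left i ht2
            omega
        rw [hker, Nat.mul_sub, Nat.sub_le_iff_le_add] at hdim
        have hkc := Nat.mul_le_mul_left k hck
        rw [Nat.mul_sub, mul_one] at hkc
        have hkd : k ≤ d := hde ▸ Nat.le_mul_of_pos_right k (Nat.pos_of_ne_zero fun e0 => by rw [e0, mul_zero] at hde; omega)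
        have h4 := Nat.mul_le_mul_right d hk2
        have hkk : k * k ≤ k * d := Nat.mul_le_mul_left k hkd
        rw [Nat.mul_left_comm k 2 d] at hdim
        omega
  · rintro ⟨rfl, rfl, rfl, hodd⟩ x hx ⟨z, hz⟩ hns
    have h2 : (2 : F) ≠ 0 := fun h => by
      have hp2 : p = 2 := (Nat.prime_dvd_prime_iff_eq hp Nat.prime_two).1
        ((CharP.cast_eq_zero_iff F p 2).1 (by exact_mod_cast h))
      rw [hf₀, hp2, Nat.odd_pow_iff f₀.pos.ne'] at hodd
      exact absurd hodd (by decide)
    -- normalise the generator
    obtain ⟨a, b, hμ⟩ : ∃ a b : F, μ = Polynomial.X ^ 2 + Polynomial.C a * Polynomial.X + Polynomial.C b := by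
      refine ⟨μ.coeff 1, μ.coeff 0, ?_⟩
      conv_lhs => rw [hE.monic.as_sum, hE.deg]
      simp [Finset.sum_range_succ, add_assoc, add_comm (Polynomial.C (μ.coeff 0))]
    have hroot : j * j + a • j + b • (1 : Matrix (Fin 2 ⊕ Fin 2) (Fin 2 ⊕ Fin 2) F) = 0 := by
      have h := hE.root
      rw [GeomClasses.SympFieldExt.aeval_toLin, map_eq_zero_iff _ Matrix.toLin'.injective, hμ] at h
      simpa [pow_two, Algebra.algebraMap_eq_smul_one] using h
    set j' : Matrix (Fin 2 ⊕ Fin 2) (Fin 2 ⊕ Fin 2) F := (2 : F) • j + a • (1 : Matrix (Fin 2 ⊕ Fin 2) (Fin 2 ⊕ Fin 2) F)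
      with hj'def
    set δ : F := a * a - 4 * b with hδ
    have hj'K : j' ∈ K := K.add_mem (K.smul_mem hj 2) (K.smul_mem K.one_mem a)
    have hjj : j' * j' = δ • (1 : Matrix (Fin 2 ⊕ Fin 2) (Fin 2 ⊕ Fin 2) F) := by
      simp only [hj'def, hδ, mul_add, add_mul, smul_mul_assoc, mul_smul_comm, one_mul, mul_one]
      linear_combination (norm := module) (4 : F) • hroot
    have hnsq : ∀ c : F, c * c ≠ δ := fun c hc => by
      have h0 : μ.IsRoot ((c - a) / 2) := by
        simp only [Polynomial.IsRoot.def, hμ, Polynomial.eval_add, Polynomial.eval_mul, Polynomial.eval_pow,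
          Polynomial.eval_X, Polynomial.eval_C]
        field_simp
        rw [hδ] at hc
        linear_combination hc
      have := Polynomial.natDegree_eq_of_degree_eq_some (Polynomial.degree_eq_one_of_irreducible_of_root hE.irr h0)
      rw [hE.deg] at this
      norm_num at this
    have hspan' : ∀ y ∈ K, ∃ s t : F, y = s • (1 : Matrix (Fin 2 ⊕ Fin 2) (Fin 2 ⊕ Fin 2) F) + t • j' := by
      intro y hy
      obtain ⟨P, rfl⟩ := hspan y hy
      have hjK0 : Polynomial.aeval j μ = 0 := by
        have h := hE.root
        rwa [GeomClasses.SympFieldExt.aeval_toLin, map_eq_zero_iff _ Matrix.toLin'.injective] at h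
      have hne : μ ≠ 1 := hE.irr.ne_one
      have hdeg := Polynomial.natDegree_modByMonic_lt P hE.monic hne
      rw [hE.deg] at hdeg
      have hP2 : P %ₘ μ = Polynomial.C ((P %ₘ μ).coeff 1) * Polynomial.X + Polynomial.C ((P %ₘ μ).coeff 0) :=
        Polynomial.eq_X_add_C_of_natDegree_le_one (by omega)
      obtain ⟨c₁, c₀, hst⟩ : ∃ c₁ c₀ : F, P %ₘ μ = Polynomial.C c₁ * Polynomial.X + Polynomial.C c₀ := ⟨_, _, hP2⟩
      refine ⟨c₀ - c₁ * (a / 2), c₁ / 2, ?_⟩
      rw [← Polynomial.aeval_modByMonic_eq_self_of_root hjK0, hst]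
      simp only [map_add, map_mul, Polynomial.aeval_C, Polynomial.aeval_X, Algebra.algebraMap_eq_smul_one, smul_mul_assoc,
        one_mul, hj'def, smul_add, smul_smul]
      match_scalars <;> field_simp <;> ring
    have hJ : GeomClasses.SympFieldExtFour.SA (Matrix.toLin' j') δ := by
      refine ⟨fun v => by simp [Matrix.mulVec_mulVec, hjj, Matrix.smul_mulVec], fun u v => ?_⟩
      simp only [Matrix.toLin'_apply, Cfsg.Agent.Forms.sympB_apply]
      exact hKf j' hj'K u v
    set T : Module.End F (Fin 2 ⊕ Fin 2 → F) := Matrix.toLin' (x : Matrix (Fin 2 ⊕ Fin 2) (Fin 2 ⊕ Fin 2) F) with hTdef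
    have hTB : ∀ u v, B (T u) (T v) = B u v := fun u v => by
      simp only [hTdef, Matrix.toLin'_apply]
      exact GeomClasses.mem_spGL_iff.1 hx u v
    have hT2 : ∀ v, T (T v) = z • v := fun v => by
      rw [pow_two, Units.val_mul] at hz
      simp only [hTdef, Matrix.toLin'_apply, Matrix.mulVec_mulVec, hz, Matrix.smul_mulVec, Matrix.one_mulVec]
    have hzz : z * z = 1 := hsquare z fun u v => by rw [← hT2, ← hT2, hTB, hTB]
    obtain ⟨J, β, hJs, hβ, hJT⟩ := GeomClasses.SympFieldExtFour.exists_compatible h2 hTB (mul_self_eq_one_iff.1 hzz) hT2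
      (fun c hc => hns c (Matrix.toLin'.injective (by rw [← hTdef, hc, map_smul, Matrix.toLin'_one]; rfl))) δ
    obtain ⟨g, hg, hgJ⟩ := GeomClasses.SympFieldExtFour.exists_conj hJ hJs h2 hnsq
    refine ⟨g, hg, GeomClasses.SympQuadExt.mem_normalizer hj'K hspan' hβ (Cfsg.Agent.Forms.matrix_ext_mulVec fun v => ?_)⟩
    have hinv : ∀ w, (g : Matrix (Fin 2 ⊕ Fin 2) (Fin 2 ⊕ Fin 2) F) *ᵥ
        (((g⁻¹ : GL (Fin 2 ⊕ Fin 2) F) : Matrix (Fin 2 ⊕ Fin 2) (Fin 2 ⊕ Fin 2) F) *ᵥ w) = w := fun w => by
      rw [Matrix.mulVec_mulVec, ← Units.val_mul, mul_inv_cancel, Units.val_one, Matrix.one_mulVec]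
    refine Matrix.mulVec_injective_iff_isUnit.2 g.isUnit ?_
    simp only [Matrix.toLin'_apply] at hgJ
    have hJT' : ∀ v, (x : Matrix (Fin 2 ⊕ Fin 2) (Fin 2 ⊕ Fin 2) F) *ᵥ J v =
        β • J ((x : Matrix (Fin 2 ⊕ Fin 2) (Fin 2 ⊕ Fin 2) F) *ᵥ v) := fun v => by
      simpa [hTdef, Matrix.toLin'_apply] using hJT v
    simp only [Units.val_mul, ← Matrix.mulVec_mulVec, Matrix.smul_mulVec, Matrix.mulVec_smul, hinv, hgJ, hJT']

end Cfsg.Agent.S5975
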