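import Cfsg.Statements.S5976
import Cfsg.Agent.GeomClasses.SympQuadExtInvolution
import Cfsg.Agent.GeomClasses.SympQuadExtDerange
import Cfsg.Agent.GeomClasses.SympDecompDerange

set_option autoImplicit false
open scoped MatrixGroups
open Cfsg Matrix

namespace Cfsg.Agent.S5976

/-- Elements of prime order of PSp_n(q), q odd, and the subgroups of type GU_{n/2}(q). Here `T = PSp_{2d}(F)` for a field `F` with `q` elements, `q` odd, `d ≥ 2`, realised through the matrices preserving the standard alternating form `f`; `K` is a subalgebra of the `2d × 2d` matrices that is a field of degree 2 over `F`, closed under taking adjoints for `f` but not consisting of self-adjoint elements (so `F^{2d}` becomes a `d`-dimensional space over `K ≅ F_{q²}` on which `f` is the trace of a multiple of a non-degenerate hermitian form); `H` is the subgroup of `T` normalizing `K` — the symplectic maps that are `K`-linear or `K`-semilinear, a subgroup of type GU_d(q) (maximality is not assumed). Ω is the set of cosets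 of `H` in `T`, so an element of `T` of prime order `r` (`x ∈ T` with `x^r` scalar, `x` not scalar) fixes a point of Ω exactly when some `T`-conjugate of `x` normalizes `K`. Let `r` be a prime dividing the index of `H`. Then every element of `T` of order `r` fixes a point of Ω if and only if `r = 2`. -/
theorem result {F : Type*} [Field F] [Fintype F] {p : ℕ} [Fact p.Prime] [CharP F p] {q : ℕ} (hq : Fintype.card F = q)
    (hodd : Odd q) (d : ℕ) (hd : 2 ≤ d)
    (K : Subalgebra F (Matrix (Fin d ⊕ Fin d) (Fin d ⊕ Fin d) F)) (hK : Cfsg.Geo.IsFieldSubalgebra 2 K)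
    (hKf : Cfsg.Geo.IsAdjointClosedFor (Cfsg.sympForm d F) K) (hKns : ¬ Cfsg.Geo.IsSelfAdjointFor (Cfsg.sympForm d F) K)
    (r : ℕ) [Fact r.Prime]
    (hΩ : r ∣ (Cfsg.Geo.subalgebraNormalizer K).relIndex (Cfsg.spGL d F)) :
    (∀ x ∈ Cfsg.spGL d F, (∃ z : F, ((x ^ r : GL (Fin d ⊕ Fin d) F) : Matrix (Fin d ⊕ Fin d) (Fin d ⊕ Fin d) F) = z • (1 : Matrix (Fin d ⊕ Fin d) (Fin d ⊕ Fin d) F)) →
      (∀ z : F, (x : Matrix (Fin d ⊕ Fin d) (Fin d ⊕ Fin d) F) ≠ z • (1 : Matrix (Fin d ⊕ Fin d) (Fin d ⊕ Fin d) F)) →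
      ∃ g ∈ Cfsg.spGL d F, g⁻¹ * x * g ∈ Cfsg.Geo.subalgebraNormalizer K) ↔ r = 2 := by
  classical
  have hr : r.Prime := Fact.out
  have hp : p.Prime := Fact.out
  obtain ⟨f₀, -, hf₀⟩ := FiniteField.card F p
  rw [hq] at hf₀
  have hd1 : 1 ≤ d := by omega
  have h2 : (2 : F) ≠ 0 := fun h => by
    have hp2 : p = 2 := (Nat.prime_dvd_prime_iff_eq hp Nat.prime_two).1
      ((CharP.cast_eq_zero_iff F p 2).1 (by exact_mod_cast h))
    rw [hf₀, hp2, Nat.odd_pow_iff f₀.pos.ne'] at hodd
    exact absurd hodd (by decide)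
  let B := Cfsg.Agent.Forms.sympB d F
  have hA : B.IsAlt := Cfsg.Agent.Forms.sympB_isAlt
  have hB : B.Nondegenerate := Cfsg.Agent.Forms.sympB_nondegenerate
  have hV : Module.finrank F (Fin d ⊕ Fin d → F) = 2 * d := by
    rw [Module.finrank_pi, Fintype.card_sum, Fintype.card_fin]; omega
  let i0 : Fin d := ⟨0, by omega⟩
  haveI : Nonempty (Fin d ⊕ Fin d) := ⟨Sum.inl i0⟩
  have hsquare : ∀ z : F, (∀ u v, B (z • u) (z • v) = B u v) → z * z = 1 := by
    intro z h
    have h1 := h (Pi.single (Sum.inr i0) 1) (Pi.single (Sum.inl i0) 1)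
    simpa [B, Cfsg.Agent.Forms.sympForm_eq, Pi.single_apply, mul_assoc] using h1
  obtain ⟨j, δ, hj, hnsq, hJ, hspan⟩ := GeomClasses.SympQuadExt.exists_str hd1 h2 K hK hKf hKns
  have hδ0 : δ ≠ 0 := fun h => hnsq 0 (by rw [h, zero_mul])
  constructor
  · intro H
    by_contra hr2
    have hro : Odd r := hr.odd_of_ne_two hr2
    have key : ∀ x ∈ Cfsg.spGL d F, x ^ r = 1 →
        (∀ z : F, (x : Matrix (Fin d ⊕ Fin d) (Fin d ⊕ Fin d) F) ≠ z • (1 : Matrix (Fin d ⊕ Fin d) (Fin d ⊕ Fin d) F)) →
        ∃ J : Module.End F (Fin d ⊕ Fin d → F), GeomClasses.SympQuadExt.Skew J δ ∧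
          ∀ v, J ((x : Matrix (Fin d ⊕ Fin d) (Fin d ⊕ Fin d) F) *ᵥ v) =
            (x : Matrix (Fin d ⊕ Fin d) (Fin d ⊕ Fin d) F) *ᵥ J v := by
      intro x hx hxr hns
      obtain ⟨g, hg, hy⟩ := H x hx ⟨1, by rw [hxr, one_smul, Units.val_one]⟩ hns
      have hyr : (g⁻¹ * x * g) ^ r = 1 := by
        have := conj_pow (i := r) (a := g⁻¹) (b := x)
        rwa [inv_inv, hxr, mul_one, inv_mul_cancel] at this
      have hc := GeomClasses.SympQuadExt.commute_of_mem hd1 h2 hnsq hJ hj hspan hy hro (z := 1)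
        (by rw [hyr, one_smul, Units.val_one])
      refine ⟨Matrix.toLin' ((g : Matrix (Fin d ⊕ Fin d) (Fin d ⊕ Fin d) F) * j *
        ((g⁻¹ : GL (Fin d ⊕ Fin d) F) : Matrix (Fin d ⊕ Fin d) (Fin d ⊕ Fin d) F)), ⟨fun v => ?_, fun u v => ?_⟩, fun v => ?_⟩
      · have hjj := hJ.sq
        simp only [Matrix.toLin'_apply] at hjj
        simp only [Matrix.toLin'_apply, ← Matrix.mulVec_mulVec]
        rw [Matrix.mulVec_mulVec _ (((g⁻¹ : GL (Fin d ⊕ Fin d) F) : Matrix (Fin d ⊕ Fin d) (Fin d ⊕ Fin d) F)),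
          ← Units.val_mul, inv_mul_cancel, Units.val_one, Matrix.one_mulVec, hjj, Matrix.mulVec_smul,
          Matrix.mulVec_mulVec, ← Units.val_mul, mul_inv_cancel, Units.val_one, Matrix.one_mulVec]
      · have hgi := GeomClasses.mem_spGL_iff.1 (Subgroup.inv_mem _ hg)
        have hjs := hJ.skew
        simp only [Matrix.toLin'_apply] at hjs
        simp only [Matrix.toLin'_apply, ← Matrix.mulVec_mulVec]
        rw [← hgi, Matrix.mulVec_mulVec _ (((g⁻¹ : GL (Fin d ⊕ Fin d) F) : Matrix (Fin d ⊕ Fin d) (Fin d ⊕ Fin d) F)),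
          ← Units.val_mul, inv_mul_cancel, Units.val_one, Matrix.one_mulVec, hjs, ← hgi u,
          Matrix.mulVec_mulVec _ (((g⁻¹ : GL (Fin d ⊕ Fin d) F) : Matrix (Fin d ⊕ Fin d) (Fin d ⊕ Fin d) F)),
          ← Units.val_mul, inv_mul_cancel, Units.val_one, Matrix.one_mulVec]
      · simp only [Matrix.toLin'_apply, Matrix.mulVec_mulVec]
        congr 1
        have h := congrArg (fun A : Matrix (Fin d ⊕ Fin d) (Fin d ⊕ Fin d) F =>
          (g : Matrix (Fin d ⊕ Fin d) (Fin d ⊕ Fin d) F) * A *
            ((g⁻¹ : GL (Fin d ⊕ Fin d) F) : Matrix (Fin d ⊕ Fin d) (Fin d ⊕ Fin d) F)) hc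
        simp only [Units.val_mul, mul_assoc] at h
        rw [← Units.val_mul g g⁻¹, mul_inv_cancel, Units.val_one, mul_one] at h
        simp only [← mul_assoc] at h ⊢
        rw [← Units.val_mul g g⁻¹, mul_inv_cancel, Units.val_one, one_mul] at h
        exact h.symm
    by_cases hrp : r = p
    · set u : Fin d ⊕ Fin d → F := Pi.single (Sum.inl i0) 1
      set w : Fin d ⊕ Fin d → F := Pi.single (Sum.inr i0) 1
      have huu : B u u = 0 := hA u
      have hwu : B w u = 1 := by simp [B, u, w, Cfsg.Agent.Forms.sympForm_eq, Pi.single_apply]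
      set x := GeomClasses.spT u (1 : F)
      have hx : ∀ v, (x : Matrix (Fin d ⊕ Fin d) (Fin d ⊕ Fin d) F) *ᵥ v = v + B v u • u := fun v => by
        rw [GeomClasses.spT_mulVec, one_mul]
      have hxk : ∀ (k : ℕ) v, ((x ^ k : GL (Fin d ⊕ Fin d) F) : Matrix (Fin d ⊕ Fin d) (Fin d ⊕ Fin d) F) *ᵥ v =
          v + ((k : F) * B v u) • u := by
        intro k
        induction k with
        | zero => intro v; simp
        | succ k ih =>
          intro v
          rw [pow_succ', Units.val_mul, ← Matrix.mulVec_mulVec, ih, hx]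
          simp only [map_add, map_smul, LinearMap.add_apply, LinearMap.smul_apply, huu, smul_eq_mul, mul_zero, add_zero,
            Nat.cast_add, Nat.cast_one, add_mul, one_mul, add_smul]
          abel
      have hxr : x ^ r = 1 := Units.ext (Cfsg.Agent.Forms.matrix_ext_mulVec fun v => by
        rw [hxk, hrp, CharP.cast_eq_zero, zero_mul, zero_smul, add_zero, Units.val_one, Matrix.one_mulVec])
      obtain ⟨J, hJs, hJx⟩ := key x (GeomClasses.spT_mem u 1) hxr (fun z hz => by
        have h := congrFun (hx w) (Sum.inl i0)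
        rw [hz, Matrix.smul_mulVec, Matrix.one_mulVec, hwu, one_smul] at h
        simp [u, w, Pi.single_apply] at h)
      have h := hJx w
      rw [hx, hx, map_add, map_smul, hwu, one_smul] at h
      have hJu : J u = B (J w) u • u := add_left_cancel h
      have h1 := hJs.sq u
      rw [hJu, map_smul, hJu, smul_smul] at h1
      exact hnsq _ (smul_left_injective F (show u ≠ 0 by simp [u]) h1)
    · have hrF : (r : F) ≠ 0 := fun h =>
        hrp ((Nat.prime_dvd_prime_iff_eq hp hr).1 ((CharP.cast_eq_zero_iff F p r).1 h)).symm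
      have hrq : ¬ r ∣ q := fun h => hrp ((Nat.prime_dvd_prime_iff_eq hr hp).1 (hr.dvd_of_dvd_pow (hf₀ ▸ h)))
      have hq1 : 1 < q := hq ▸ Fintype.one_lt_card
      set i := orderOf (q : ZMod r) with hi
      obtain ⟨hi0, -⟩ := GeomClasses.SubspaceDerange.dvd_pow_sub_one hrq hi
      have hone : ∀ l, r ∣ q ^ l - 1 → i ∣ l := fun l h => orderOf_dvd_of_pow_eq_one (by
        have h' := (ZMod.natCast_eq_zero_iff _ r).2 h
        rwa [Nat.cast_sub (Nat.one_le_pow _ _ (by omega)), Nat.cast_pow, Nat.cast_one, sub_eq_zero] at h')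
      have hidx := Subgroup.card_mul_index ((Cfsg.Geo.subalgebraNormalizer K).subgroupOf (Cfsg.spGL d F))
      rw [← Subgroup.inf_subgroupOf_right, Nat.card_congr (Subgroup.subgroupOfEquivOfLe inf_le_right).toEquiv,
        Subgroup.inf_subgroupOf_right, Nat.card_congr (Cfsg.Agent.Forms.spGLEquiv (m := d) (F := F)).toEquiv,
        ← Nat.card_congr (Cfsg.Agent.Forms.spEquiv d F).toEquiv, Cfsg.Agent.Forms.card_symplecticGroup hq] at hidx
      obtain ⟨k, hk⟩ := GeomClasses.SympQuadExt.dvd_card_normalizer hq h2 hnsq hJ hj hspan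
      set g' : ℕ → ℕ := fun n => if Even n then q ^ (n + 1) + 1 else q ^ (n + 1) - 1
      set h' : ℕ → ℕ := fun n => if Even n then q ^ (n + 1) - 1 else q ^ (n + 1) + 1
      have hgh : ∀ n, q ^ (2 * (n + 1)) - 1 = g' n * h' n := fun n => by
        have e : q ^ (2 * (n + 1)) - 1 = (q ^ (n + 1) + 1) * (q ^ (n + 1) - 1) := by
          rw [← Nat.sq_sub_sq, one_pow, ← pow_mul, mul_comm]
        by_cases hn : Even n
        · simp only [g', h', if_pos hn, e]
        · simp only [g', h', if_neg hn]; rw [e, Nat.mul_comm]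
      have hle : d * (d - 1) / 2 ≤ d ^ 2 := by
        have h₁ := Nat.div_le_self (d * (d - 1)) 2
        have h₂ := Nat.mul_le_mul_left d (Nat.sub_le d 1)
        rw [sq]; omega
      rw [hk, Finset.prod_congr rfl fun n _ => hgh n, Finset.prod_mul_distrib,
        ← Nat.add_sub_cancel' hle, pow_add] at hidx
      have hpos : 0 < q ^ (d * (d - 1) / 2) * ∏ n ∈ Finset.range d, g' n := by
        refine Nat.mul_pos (pow_pos (by omega) _) (Finset.prod_pos fun n _ => ?_)
        have := Nat.one_lt_pow (n := n + 1) (by omega) hq1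
        simp only [g']; split_ifs <;> omega
      have hki : k * (Cfsg.Geo.subalgebraNormalizer K).relIndex (Cfsg.spGL d F) =
          q ^ (d ^ 2 - d * (d - 1) / 2) * ∏ n ∈ Finset.range d, h' n :=
        Nat.eq_of_mul_eq_mul_left hpos (by
          rw [Subgroup.relIndex]
          linear_combination hidx)
      have hdvd := (hr.dvd_mul.1 (hki ▸ hΩ.mul_left k)).resolve_left fun h => hrq (hr.dvd_of_dvd_pow h)
      obtain ⟨n, hn, hn'⟩ := (hr.prime.dvd_finsetProd_iff _).1 hdvd
      rw [Finset.mem_range] at hn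
      have hi2 : i ∣ 2 * (n + 1) := hone _ (hgh n ▸ hn'.mul_left _)
      have hcase : i % 4 ≠ 2 ∧ (Odd i → i ∣ n + 1) := by
        refine ⟨fun h4 => ?_, fun hio => (Nat.coprime_two_right.2 hio).dvd_of_dvd_mul_left hi2⟩
        by_cases hne : Even n
        · simp only [h', if_pos hne] at hn'
          obtain ⟨t, ht⟩ := hone _ hn'
          obtain ⟨s, hs⟩ := hne
          have := congrArg (· % 2) ht
          simp [Nat.mul_mod, show i % 2 = 0 by omega] at this
          omega
        · simp only [h', if_neg hne] at hn'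
          have hkk : i / 2 ∣ n + 1 := Nat.dvd_of_mul_dvd_mul_left (by omega : 0 < 2)
            (by rwa [show 2 * (i / 2) = i by omega])
          have hev : 2 ∣ n + 1 := by obtain ⟨s, hs⟩ := Nat.not_even_iff_odd.1 hne; omega
          have hin : i ∣ n + 1 := by
            have h := Nat.Coprime.mul_dvd_of_dvd_of_dvd
              (Nat.coprime_two_left.2 (Nat.odd_iff.2 (show i / 2 % 2 = 1 by omega))) hev hkk
            rwa [show 2 * (i / 2) = i by omega] at h
          have e := (ZMod.natCast_eq_zero_iff _ r).2 hn'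
          rw [Nat.cast_add, Nat.cast_pow, Nat.cast_one, orderOf_dvd_iff_pow_eq_one.1 hin, one_add_one_eq_two] at e
          have := Nat.le_of_dvd (by omega) ((ZMod.natCast_eq_zero_iff 2 r).1 (by exact_mod_cast e))
          have := hr.two_le
          omega
      set c := if Even i then i else 2 * i with hc
      have hcd : c ≤ 2 * d := by
        rw [hc]
        split_ifs with hie
        · have := Nat.le_of_dvd (by omega) hi2; omega
        · have := Nat.le_of_dvd (by omega) (hcase.2 (Nat.not_even_iff_odd.1 hie)); omega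
      have hc0 : 0 < c := by rw [hc]; split_ifs <;> omega
      obtain ⟨T, hTr, hTB, hker⟩ := GeomClasses.SympDecompDerange.exists_moving (r := r) hA hB hrF hq hrq hi hc (j := 1)
        (by rw [hV, one_mul]; exact hcd)
      rw [hV, one_mul] at hker
      have hinj : Function.Injective T := fun a b h => by
        have := congrArg (T ^ (r - 1)) h
        rwa [← Module.End.mul_apply, ← Module.End.mul_apply, ← pow_succ, Nat.sub_add_cancel hr.one_lt.le, hTr,
          Module.End.one_apply, Module.End.one_apply] at this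
      obtain ⟨x, hx, hxT⟩ := GeomClasses.SympQuadExt.exists_gl
        (LinearEquiv.ofBijective T ⟨hinj, LinearMap.injective_iff_surjective.1 hinj⟩) hTB
      have hxk : ∀ (k : ℕ) v, ((x ^ k : GL (Fin d ⊕ Fin d) F) : Matrix (Fin d ⊕ Fin d) (Fin d ⊕ Fin d) F) *ᵥ v =
          (T ^ k) v := by
        intro k
        induction k with
        | zero => intro v; simp
        | succ k ih =>
          intro v
          rw [pow_succ', Units.val_mul, ← Matrix.mulVec_mulVec, ih, hxT, pow_succ', Module.End.mul_apply]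
          rfl
      obtain ⟨J, hJs, hJx⟩ := key x hx (Units.ext (Cfsg.Agent.Forms.matrix_ext_mulVec fun v => by
        rw [hxk, hTr, Units.val_one, Matrix.one_mulVec]; rfl)) (fun z hz => by
        have hTz : ∀ v, T v = z • v := fun v => by
          have := hxT v
          rw [hz, Matrix.smul_mulVec, Matrix.one_mulVec] at this
          exact this.symm
        have hzz : z * z = 1 := hsquare z fun u v => by simp only [← hTz]; exact hTB u v
        have hzk : ∀ k : ℕ, ∀ v, (T ^ k) v = z ^ k • v := fun k => by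
          induction k with
          | zero => intro v; simp
          | succ k ih => intro v; rw [pow_succ', Module.End.mul_apply, ih, map_smul, hTz, smul_smul, pow_succ]
        obtain ⟨s, hs⟩ := hro
        have hz1 := congrFun ((hzk r (Pi.single (Sum.inl i0) 1)).symm.trans (by rw [hTr, Module.End.one_apply])) (Sum.inl i0)
        rw [hs, pow_succ, pow_mul, pow_two, hzz, one_pow, one_mul] at hz1
        simp at hz1
        rw [show T = 1 from LinearMap.ext fun v => by rw [hTz, hz1, one_smul]; rfl, sub_self, LinearMap.ker_zero,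
          finrank_top, hV] at hker
        omega)
      refine GeomClasses.SympQuadExtDerange.not_commute hq hrF hr2 hrq hi hcase.1 hc h2 hTr hTB hcd hker hJs hnsq
        fun v => ?_
      have := hJx v
      rw [hxT, hxT] at this
      exact this
  · rintro rfl x hx ⟨z, hz⟩ -
    set T : Module.End F (Fin d ⊕ Fin d → F) := Matrix.toLin' (x : Matrix (Fin d ⊕ Fin d) (Fin d ⊕ Fin d) F) with hTdef
    have hTB : ∀ u v, B (T u) (T v) = B u v := fun u v => by
      simp only [hTdef, Matrix.toLin'_apply]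
      exact GeomClasses.mem_spGL_iff.1 hx u v
    have hT2 : ∀ v, T (T v) = z • v := fun v => by
      rw [pow_two, Units.val_mul] at hz
      simp only [hTdef, Matrix.toLin'_apply, Matrix.mulVec_mulVec, hz, Matrix.smul_mulVec, Matrix.one_mulVec]
    have hzz : z * z = 1 := hsquare z fun u v => by rw [← hT2, ← hT2, hTB, hTB]
    obtain ⟨J, β, hJs, hβ, hJT⟩ : ∃ (J : Module.End F (Fin d ⊕ Fin d → F)) (β : F),
        GeomClasses.SympQuadExt.Skew J δ ∧ (β = 1 ∨ β = -1) ∧ ∀ v, T (J v) = β • J (T v) := by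
      rcases mul_self_eq_one_iff.1 hzz with rfl | rfl
      · obtain ⟨J, hJs, hJT⟩ := GeomClasses.SympQuadExtInvolution.exists_commute h2 hTB
          (fun v => by rw [hT2, one_smul]) δ
        exact ⟨J, 1, hJs, Or.inl rfl, fun v => by rw [one_smul, hJT]⟩
      · obtain ⟨J, hJs, hJT⟩ := GeomClasses.SympQuadExtInvolution.exists_anticommute h2 hTB
          (fun v => by rw [hT2, neg_one_smul]) δ
        exact ⟨J, -1, hJs, Or.inr rfl, fun v => by rw [neg_one_smul, hJT, neg_neg]⟩
    obtain ⟨g, hg, hgJ⟩ := GeomClasses.SympQuadExt.exists_conj hJ hJs h2 hδ0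
    refine ⟨g, hg, GeomClasses.SympQuadExt.mem_normalizer hj hspan hβ (Cfsg.Agent.Forms.matrix_ext_mulVec fun v => ?_)⟩
    have hinv : ∀ w, (g : Matrix (Fin d ⊕ Fin d) (Fin d ⊕ Fin d) F) *ᵥ
        (((g⁻¹ : GL (Fin d ⊕ Fin d) F) : Matrix (Fin d ⊕ Fin d) (Fin d ⊕ Fin d) F) *ᵥ w) = w := fun w => by
      rw [Matrix.mulVec_mulVec, ← Units.val_mul, mul_inv_cancel, Units.val_one, Matrix.one_mulVec]
    refine Matrix.mulVec_injective_iff_isUnit.2 g.isUnit ?_
    simp only [Matrix.toLin'_apply] at hgJ
    have hJT' : ∀ v, (x : Matrix (Fin d ⊕ Fin d) (Fin d ⊕ Fin d) F) *ᵥ J v =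
        β • J ((x : Matrix (Fin d ⊕ Fin d) (Fin d ⊕ Fin d) F) *ᵥ v) := fun v => by
      simpa [hTdef, Matrix.toLin'_apply] using hJT v
    simp only [Units.val_mul, ← Matrix.mulVec_mulVec, Matrix.smul_mulVec, Matrix.mulVec_smul, hinv, hgJ, hJT']

end Cfsg.Agent.S5976
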