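import Cfsg.Statements.S5979
import Cfsg.Agent.GeomClasses.TensorDerange
import Cfsg.Agent.GeomClasses.QuadExtInvolution

set_option autoImplicit false
open scoped MatrixGroups
open Cfsg

namespace Cfsg.Agent.S5979

/-- Elements of prime order of PSL_n(q) and the stabilizers of tensor decompositions with factors of different dimensions. Here `T = PSL_n(F)` for a field `F` with `q` elements and `n = a·b` with `2 ≤ a < b`; a tensor decomposition `F^n ≅ F^a ⊗ F^b` is given by a bijection `e` of index sets and a change of basis `P`, and `H` is the subgroup of matrices of determinant 1 in its stabilizer (the conjugate by `P` of the group of Kronecker products `g₁ ⊗ g₂`) — a subgroup of type GL_a(q) ⊗ GL_b(q) (maximality is not assumed); Ω is the set of cosets of `H` in `T`, so an element of `T` of prime order `r` (a matrix `x` of determinant 1 with `x^r` scalar, `x` not scalar) fixes a point of Ω exactly when some conjugate of `x` by a matrix of determinant 1 lies in `H`. Let `r` be a prime dividing the index of `H`. Then every element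 of `T` of order `r` fixes a point of Ω if and only if `r = 2`, `a = 2`, `q` is odd and `(q − 1)_2 ≤ (n)_2` (2-parts). -/
theorem result {F : Type*} [Field F] [Fintype F] {p : ℕ} [Fact p.Prime] [CharP F p] {q : ℕ} (hq : Fintype.card F = q)
    (n a b : ℕ) (hab : n = a * b) (ha : 2 ≤ a) (hlt : a < b) (e : Fin n ≃ Fin a × Fin b) (P : GL (Fin n) F)
    (r : ℕ) [Fact r.Prime]
    (hΩ : r ∣ (Cfsg.Geo.tensorProductSubgroup a b e P).relIndex (Cfsg.Geo.specialLinear (Fin n) F)) :
    (∀ x ∈ Cfsg.Geo.specialLinear (Fin n) F, (∃ z : F, ((x ^ r : GL (Fin n) F) : Matrix (Fin n) (Fin n) F) = z • (1 : Matrix (Fin n) (Fin n) F)) →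
      (∀ z : F, (x : Matrix (Fin n) (Fin n) F) ≠ z • (1 : Matrix (Fin n) (Fin n) F)) →
      ∃ g ∈ Cfsg.Geo.specialLinear (Fin n) F, g⁻¹ * x * g ∈ Cfsg.Geo.tensorProductSubgroup a b e P) ↔
    (r = 2 ∧ a = 2 ∧ Odd q ∧ padicValNat 2 (q - 1) ≤ padicValNat 2 n) := by
  classical
  have hr := (Fact.out : r.Prime)
  have hp := (Fact.out : p.Prime)
  have hq1 : 1 < q := hq ▸ Fintype.one_lt_card
  have hb : 3 ≤ b := by omega
  have hn6 : 6 ≤ n := by rw [hab]; exact le_trans (by norm_num) (Nat.mul_le_mul ha hb)
  have hn0 : n ≠ 0 := by omega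
  haveI hne : Nonempty (Fin n) := ⟨⟨0, by omega⟩⟩
  obtain ⟨nn, -, hnn⟩ := FiniteField.card F p
  rw [hq] at hnn
  have hsl : ∀ g : GL (Fin n) F, g ∈ Cfsg.Geo.specialLinear (Fin n) F ↔ (g : Matrix (Fin n) (Fin n) F).det = 1 := fun g => by
    simp [Cfsg.Geo.specialLinear, MonoidHom.mem_ker, Units.ext_iff]
  set v := padicValNat 2 n
  let i0 : Fin n := ⟨0, by omega⟩
  let i1 : Fin n := ⟨1, by omega⟩
  have h01 : i0 ≠ i1 := by simp [i0, i1, Fin.ext_iff]
  constructor
  · intro h
    by_contra hneg
    have use_x : ∀ x : Matrix (Fin n) (Fin n) F, x.det = 1 → (∃ z : F, x ^ r = z • 1) → (∀ z : F, x ≠ z • 1) →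
        (∀ g : GL (Fin n) F, (∀ l : F, ((g : Matrix (Fin n) (Fin n) F) - l • 1).rank = (x - l • 1).rank) →
          (x ^ r = 1 → g ^ r = 1) → g ∉ Cfsg.Geo.tensorProductSubgroup a b e P) → False := by
      intro x hdet ⟨z, hz⟩ hns hder
      obtain ⟨g, -, hg⟩ := h (Matrix.GeneralLinearGroup.mkOfDetNeZero x (by rw [hdet]; exact one_ne_zero))
        ((hsl _).2 hdet) ⟨z, by rw [Units.val_pow_eq_pow_val]; exact hz⟩ hns
      refine hder _ (fun l => ?_) (fun hx1 => ?_) hg
      · rw [Units.val_mul, Units.val_mul]
        exact Cfsg.Agent.GeomClasses.SympFormDerange.rank_conj (P := (g : Matrix (Fin n) (Fin n) F))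
          (by rw [← Units.val_mul, mul_inv_cancel, Units.val_one]) rfl l
      · have h1 : (Matrix.GeneralLinearGroup.mkOfDetNeZero x (by rw [hdet]; exact one_ne_zero) : GL (Fin n) F) ^ r = 1 :=
          Units.ext (by rw [Units.val_pow_eq_pow_val]; exact hx1)
        have h2 := conj_pow (i := r) (a := g⁻¹) (b := (Matrix.GeneralLinearGroup.mkOfDetNeZero x (by rw [hdet]; exact one_ne_zero) : GL (Fin n) F))
        rw [inv_inv] at h2
        rw [h2, h1, mul_one, inv_mul_cancel]
    -- elements with two small or indivisible ranks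
    have use_diag : ∀ (d : Fin n → F) (l₁ l₂ : F), ∏ j, d j = 1 → (∀ j, d j ^ r = d i0 ^ r) → (∃ j, d j ≠ d i0) →
        (Finset.univ.filter fun j => d j ≠ l₁).card < b → ¬ a ∣ (Finset.univ.filter fun j => d j ≠ l₂).card → False := by
      intro d l₁ l₂ hd hpow ⟨j, hj⟩ h1 h2
      have hrk : ∀ l : F, (Matrix.diagonal d - l • 1).rank = (Finset.univ.filter fun j => d j ≠ l).card := fun l => by
        rw [Matrix.smul_one_eq_diagonal, Matrix.diagonal_sub, Matrix.rank_diagonal, Fintype.card_subtype]
        exact congrArg _ (Finset.filter_congr fun j _ => sub_ne_zero)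
      refine use_x (Matrix.diagonal d) (by rw [Matrix.det_diagonal, hd]) ⟨d i0 ^ r, ?_⟩ (fun z e => ?_) fun g hg _ => ?_
      · rw [Matrix.diagonal_pow, Matrix.smul_one_eq_diagonal]
        exact congrArg _ (funext hpow)
      · refine hj ?_
        have e0 := congrFun (congrFun e i0) i0
        have e1 := congrFun (congrFun e j) j
        simp at e0 e1
        rw [e0, e1]
      · exact Cfsg.Agent.GeomClasses.TensorDerange.not_mem_of_ranks l₁ l₂ (by rw [hg, hrk]; exact h1) (by rw [hg, hrk]; exact h2)
    by_cases hrp : r = p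
    · subst hrp
      haveI : CharP (Matrix (Fin n) (Fin n) F) r := inferInstance
      refine use_x (1 + Matrix.single i0 i1 1) (Matrix.det_transvection_of_ne i0 i1 h01 (1 : F)) ⟨1, ?_⟩ (fun z e => ?_)
        fun g hg _ => ?_
      · rw [add_pow_char_of_commute _ (Commute.one_left _), one_pow, one_smul, show r = (r - 2) + 2 by
          have := hr.two_le; omega, pow_add, pow_two]
        simp [h01.symm]
      · have := congrFun (congrFun e i0) i1
        simp [h01] at this
      · have hrk : ((g : Matrix (Fin n) (Fin n) F) - (1 : F) • 1).rank = 1 := by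
          rw [hg, one_smul, add_sub_cancel_left]
          refine le_antisymm ?_ (Nat.one_le_iff_ne_zero.2 fun e => ?_)
          · rw [show Matrix.single i0 i1 (1 : F) = Matrix.vecMulVec (Pi.single i0 1) (Pi.single i1 1) from ?_]
            · exact Matrix.rank_vecMulVec_le _ _
            ext i j
            simp only [Matrix.vecMulVec_apply, Matrix.single_apply, Pi.single_apply, eq_comm, ite_and]
            split_ifs <;> simp
          · have h0 : LinearMap.range (Matrix.single i0 i1 (1 : F)).mulVecLin = ⊥ := Submodule.finrank_eq_zero.1 e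
            have h1 : (Matrix.single i0 i1 (1 : F)).mulVecLin (Pi.single i1 1) = 0 :=
              (Submodule.mem_bot F).1 (h0 ▸ LinearMap.mem_range_self _ _)
            have h2 := congrFun h1 i0
            simp [Matrix.single_apply] at h2
        exact Cfsg.Agent.GeomClasses.TensorDerange.not_mem_of_ranks 1 1 (by omega)
          (by rw [hrk]; exact fun hd => absurd (Nat.le_of_dvd one_pos hd) (by omega))
    have hrq : ¬ r ∣ q := fun hd => hrp ((Nat.prime_dvd_prime_iff_eq hr hp).1 (hr.dvd_of_dvd_pow (hnn ▸ hd)))
    have hrF : (r : F) ≠ 0 := fun hd => hrp ((Nat.prime_dvd_prime_iff_eq hp hr).1 ((CharP.cast_eq_zero_iff F p r).1 hd)).symm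
    by_cases hr2 : r = 2
    · subst hr2
      have h2 : (2 : F) ≠ 0 := by exact_mod_cast hrF
      have hm1 : (-1 : F) ≠ 1 := fun e => h2 (by linear_combination -e)
      have hqodd : Odd q := Nat.odd_iff.2 (by omega)
      by_cases ha3 : 3 ≤ a
      · refine use_diag (fun j => if j = i0 ∨ j = i1 then -1 else 1) 1 1 ?_ (fun j => ?_) ⟨⟨2, by omega⟩, ?_⟩ ?_ ?_
        · rw [Finset.prod_eq_mul i0 i1 h01]
          · simp
          · intro c _ hc; simp [hc.1, hc.2]
          · simp
          · simp
        · split_ifs <;> simp_all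
        · simp [i0, i1, Fin.ext_iff]; exact hm1.symm
        all_goals
          rw [show (Finset.univ.filter fun j : Fin n => (if j = i0 ∨ j = i1 then (-1 : F) else 1) ≠ 1) = {i0, i1} from ?_,
            Finset.card_pair h01]
        · omega
        · ext j; by_cases hj : j = i0 ∨ j = i1 <;> simp [hj, hm1] <;> tauto
        · exact fun hd => absurd (Nat.le_of_dvd two_pos hd) (by omega)
        · ext j; by_cases hj : j = i0 ∨ j = i1 <;> simp [hj, hm1] <;> tauto
      · have hlt : v < padicValNat 2 (q - 1) := by
          by_contra hc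
          exact hneg ⟨rfl, by omega, hqodd, not_lt.1 hc⟩
        have hdvd : 2 ^ (v + 1) ∣ q - 1 := (padicValNat_dvd_iff_le (show q - 1 ≠ 0 by omega)).2 hlt
        obtain ⟨u, hu⟩ := IsCyclic.exists_ofOrder_eq_natCard (α := Fˣ)
        rw [Nat.card_units, Nat.card_eq_fintype_card, hq] at hu
        obtain ⟨c, hc⟩ := hdvd
        set w := u ^ c
        have hw : orderOf w = 2 ^ (v + 1) := by
          have hc0 : c ≠ 0 := fun e => by rw [e, mul_zero] at hc; omega
          rw [orderOf_pow' u hc0, hu, hc, Nat.gcd_mul_left_left, Nat.mul_div_cancel _ (Nat.pos_of_ne_zero hc0)]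
        set l : F := (w : F) with hl
        have hlord : orderOf l = 2 ^ (v + 1) := by rw [hl, orderOf_units, hw]
        have hln : l ^ n = -1 := by
          have h1 : l ^ 2 ^ v * l ^ 2 ^ v = 1 := by
            rw [← pow_add, ← two_mul, ← pow_succ', ← hlord, pow_orderOf_eq_one]
          have h3 : l ^ 2 ^ v = -1 := (mul_self_eq_one_iff.1 h1).resolve_left fun e => by
            have := Nat.le_of_dvd (by positivity) (hlord ▸ orderOf_dvd_of_pow_eq_one e)
            rw [pow_succ] at this
            have := pow_pos (show 0 < 2 by norm_num) v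
            omega
          obtain ⟨m, hm⟩ : 2 ^ v ∣ n := pow_padicValNat_dvd
          have hmodd : Odd m := Nat.not_even_iff_odd.1 fun ⟨c, hc⟩ => by
            have hd : 2 ^ (v + 1) ∣ n := ⟨c, by rw [hm, hc, pow_succ]; ring⟩
            exact pow_succ_padicValNat_not_dvd hn0 hd
          rw [hm, pow_mul, h3, hmodd.neg_one_pow]
        have hml : -l ≠ l := fun e => mul_ne_zero h2 w.ne_zero (by linear_combination -e)
        refine use_diag (fun j => if j = i0 then -l else l) l l ?_ (fun j => ?_) ⟨i1, ?_⟩ ?_ ?_
        · rw [show (fun j => if j = i0 then -l else l) = fun j => (if j = i0 then -1 else 1) * l from funext fun j => by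
            split_ifs <;> ring, Finset.prod_mul_distrib, Finset.prod_const, Finset.card_univ, Fintype.card_fin, hln]
          simp
        · simp only [if_pos]; split_ifs <;> ring
        · simp [h01.symm]; exact hml.symm
        all_goals
          rw [show (Finset.univ.filter fun j : Fin n => (if j = i0 then -l else l) ≠ l) = {i0} from ?_, Finset.card_singleton]
        · omega
        · ext j; by_cases hj : j = i0 <;> simp [hj, hml]
        · exact fun hd => absurd (Nat.le_of_dvd one_pos hd) (by omega)
        · ext j; by_cases hj : j = i0 <;> simp [hj, hml]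
    have hq0 : (q : ZMod r) ≠ 0 := fun e => hrq ((ZMod.natCast_eq_zero_iff _ _).1 e)
    set i := orderOf (q : ZMod r) with hi
    have hiff : ∀ j, r ∣ q ^ j - 1 ↔ i ∣ j := by
      intro j
      rw [hi, orderOf_dvd_iff_pow_eq_one, ← ZMod.natCast_eq_zero_iff, Nat.cast_sub (Nat.one_le_pow _ _ (by omega)),
        Nat.cast_pow, Nat.cast_one, sub_eq_zero]
    by_cases hi1 : i = 1
    · obtain ⟨ζu, hζu⟩ := exists_prime_orderOf_dvd_card' (G := Fˣ) r (by
        rw [Nat.card_units, Nat.card_eq_fintype_card, hq, ← pow_one q]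
        exact (hiff 1).2 (dvd_of_eq hi1))
      set ζ : F := (ζu : F) with hζdef
      have hζord : orderOf ζ = r := by rw [hζdef, orderOf_units, hζu]
      have hζ1 : ζ ≠ 1 := fun e => hr.one_lt.ne (by rw [← hζord, e, orderOf_one])
      have hζ2 : ζ⁻¹ ≠ ζ := fun e => hr2 (by
        have h2 : ζ ^ 2 = 1 := by rw [pow_two]; nth_rw 1 [← e]; exact inv_mul_cancel₀ ζu.ne_zero
        exact ((Nat.prime_dvd_prime_iff_eq hr Nat.prime_two).1 (hζord ▸ orderOf_dvd_of_pow_eq_one h2)))
      let d : Fin n → F := fun j => if j = i0 then ζ else if j = i1 then ζ⁻¹ else 1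
      refine use_diag d 1 ζ ?_ (fun j => ?_) ⟨i1, ?_⟩ ?_ ?_
      · rw [Finset.prod_eq_mul i0 i1 h01]
        · simp [d, h01.symm, hζdef, ζu.ne_zero]
        · intro c _ hc; simp [d, hc.1, hc.2]
        · simp
        · simp
      · have hz : ζ ^ r = 1 := by rw [← hζord, pow_orderOf_eq_one]
        simp only [d, if_pos, hz]
        split_ifs
        · exact hz
        · rw [inv_pow, hz, inv_one]
        · exact one_pow r
      · simp [d, h01.symm]; exact hζ2
      · rw [show (Finset.univ.filter fun j => d j ≠ 1) = {i0, i1} from ?_, Finset.card_pair h01]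
        · omega
        ext j
        by_cases e0 : j = i0
        · subst e0; simp [d, hζ1]
        · by_cases e1 : j = i1
          · subst e1; simp [d, hζ1, h01.symm]
          · simp [d, e0, e1]
      · rw [show (Finset.univ.filter fun j => d j ≠ ζ) = Finset.univ.erase i0 from ?_,
          Finset.card_erase_of_mem (Finset.mem_univ _), Finset.card_univ, Fintype.card_fin]
        · intro hd
          have hd' : a ∣ n := ⟨b, hab⟩
          have := Nat.dvd_sub hd' hd
          rw [show n - (n - 1) = 1 by omega] at this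
          exact absurd (Nat.le_of_dvd one_pos this) (by omega)
        ext j
        by_cases e0 : j = i0
        · subst e0; simp [d]
        · by_cases e1 : j = i1
          · subst e1; simp [d, hζ2, h01.symm]
          · simp [d, e0, e1, hζ1.symm]
    · have hi0 : 0 < i := Nat.pos_of_dvd_of_pos (orderOf_dvd_of_pow_eq_one (ZMod.pow_card_sub_one_eq_one hq0))
        (by have := hr.two_le; omega)
      have hin : i ≤ n := by
        have hd : r ∣ Nat.card (GL (Fin n) F) :=
          (hΩ.trans (Subgroup.index_dvd_card _)).trans (Subgroup.card_subgroup_dvd_card _)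
        rw [Matrix.card_GL_field, hq] at hd
        obtain ⟨k, -, hk⟩ := hr.prime.exists_mem_finset_dvd hd
        rw [show q ^ n - q ^ (k : ℕ) = q ^ (k : ℕ) * (q ^ (n - k) - 1) by
          rw [Nat.mul_sub, mul_one, ← pow_add, Nat.add_sub_cancel' k.2.le]] at hk
        rcases hr.dvd_mul.1 hk with h' | h'
        · exact absurd (hr.dvd_of_dvd_pow h') hrq
        · have := Nat.le_of_dvd (by have := k.2; omega) ((hiff _).1 h')
          omega
      have hmin : ∀ k, 1 ≤ k → k < i → ¬ r ∣ q ^ k - 1 := fun k hk hki hd =>
        absurd (Nat.le_of_dvd hk ((hiff k).1 hd)) (not_le.2 hki)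
      obtain ⟨x, hxr, hrk⟩ := Cfsg.Agent.GeomClasses.SympFormDerange.exists_small (n := n) hq hrq hrF hi0 hin ((hiff i).2 dvd_rfl) hmin
      have hunit : ∀ d : F, d ^ r = 1 → d = 1 := by
        intro d hd
        have hd0 : d ≠ 0 := fun e => by rw [e, zero_pow hr.ne_zero] at hd; exact zero_ne_one hd
        rcases (Nat.dvd_prime hr).1 (orderOf_dvd_of_pow_eq_one hd) with e | e
        · exact orderOf_eq_one_iff.1 e
        · refine absurd (Nat.dvd_one.1 ((hiff 1).1 ?_)) hi1
          rw [pow_one, ← e, ← hq]
          exact orderOf_dvd_of_pow_eq_one (FiniteField.pow_card_sub_one_eq_one d hd0)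
      refine use_x x (hunit _ (by rw [← Matrix.det_pow, hxr, Matrix.det_one])) ⟨1, by rw [one_smul, hxr]⟩ (fun z hz => ?_)
        fun g hg hgr => ?_
      · have hz1 : z = 1 := hunit z (by
          have := congrFun (congrFun hxr i0) i0
          rw [hz, smul_pow, one_pow] at this
          simpa using this)
        rw [hz, hz1, one_smul, sub_self, Matrix.rank_zero] at hrk
        omega
      · have hrk' : ((g : Matrix (Fin n) (Fin n) F) - 1).rank = i := by
          have := hg 1
          rwa [one_smul, hrk] at this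
        exact Cfsg.Agent.GeomClasses.TensorDerange.not_mem_small ha hlt hq hrq hrF (by omega) hmin (hgr hxr) hrk'
  · rintro ⟨rfl, rfl, hodd, hle⟩ x hxS ⟨z, hz⟩ hns
    have hp2 : p ≠ 2 := fun e => by
      rw [hnn, e] at hodd
      exact absurd ((even_two).pow_of_ne_zero (PNat.ne_zero nn)) (Nat.not_even_iff_odd.2 hodd)
    have h2 : (2 : F) ≠ 0 := fun e => hp2 ((Nat.prime_dvd_prime_iff_eq hp Nat.prime_two).1
      ((CharP.cast_eq_zero_iff F p 2).1 (by exact_mod_cast e)))
    have hdet := (hsl x).1 hxS
    have hxx : (x : Matrix (Fin n) (Fin n) F) * x = z • 1 := by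
      rwa [Units.val_pow_eq_pow_val, pow_two] at hz
    have hz' : ∀ w, Matrix.mulVec (x : Matrix (Fin n) (Fin n) F) (Matrix.mulVec (x : Matrix (Fin n) (Fin n) F) w) = z • w :=
      fun w => by rw [Matrix.mulVec_mulVec, hxx, Matrix.smul_mulVec, Matrix.one_mulVec]
    have hz0 : z ≠ 0 := fun e0 => by
      have := congrArg Matrix.det hxx
      rw [Matrix.det_mul, hdet, e0, zero_smul, Matrix.det_zero, mul_one] at this
      exact one_ne_zero this
    by_cases hsq : IsSquare z
    · obtain ⟨t, rfl⟩ := hsq
      have ht0 : t ≠ 0 := left_ne_zero_of_mul hz0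
      obtain ⟨c, d, bb, hbc, hbd, hdd, hcd⟩ := Cfsg.Agent.GeomClasses.EigenBasisTwo.exists_eigen_basis h2
        (x : Matrix (Fin n) (Fin n) F) ht0 hz'
      rw [hdet] at hdd
      obtain ⟨d', hd'⟩ : Even d := by
        by_contra hodd'
        rw [neg_pow, (Nat.not_even_iff_odd.1 hodd').neg_one_pow, mul_left_comm, ← pow_add, hcd] at hdd
        have htn : t ^ n = -1 := by linear_combination hdd
        obtain ⟨b0, hb0⟩ : 2 ^ v ∣ n := pow_padicValNat_dvd
        have hne' : (-1 : F) ≠ 1 := fun e => h2 (by linear_combination -e)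
        have hord : orderOf (t ^ b0) = 2 ^ (v + 1) := by
          refine orderOf_eq_prime_pow ?_ ?_
          · rw [← pow_mul, mul_comm, ← hb0, htn]; exact hne'
          · rw [← pow_mul, mul_comm, pow_succ, mul_right_comm, ← hb0, pow_mul, htn, neg_one_sq]
        have hdv : 2 ^ (v + 1) ∣ q - 1 := hord ▸ orderOf_dvd_of_pow_eq_one
          (hq ▸ FiniteField.pow_card_sub_one_eq_one _ (pow_ne_zero _ ht0))
        have := (padicValNat_dvd_iff_le (show q - 1 ≠ 0 by omega)).1 hdv
        omega
      obtain ⟨c', hc'⟩ : ∃ c', c = c' + c' := ⟨b - d', by omega⟩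
      subst hc' hd'
      let eb : Fin c' ⊕ Fin d' ≃ Fin b := finSumFinEquiv.trans (finCongr (by omega))
      let idx : Fin 2 × Fin b → Fin (c' + c') ⊕ Fin (d' + d') := fun i =>
        if i.1 = 0 then Sum.map (Fin.castAdd c') (Fin.castAdd d') (eb.symm i.2) else Sum.map (Fin.natAdd c') (Fin.natAdd d') (eb.symm i.2)
      have hidx : Function.Bijective idx := by
        rw [Fintype.bijective_iff_injective_and_card]
        refine ⟨?_, by simp; omega⟩
        rintro ⟨k, i⟩ ⟨k', j⟩ he
        obtain ⟨i, rfl⟩ := eb.surjective i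
        obtain ⟨j, rfl⟩ := eb.surjective j
        rcases i with i | i <;> rcases j with j | j <;> fin_cases k <;> fin_cases k' <;>
          simp [idx] at he ⊢ <;> simp only [Fin.ext_iff, Fin.val_castAdd, Fin.val_natAdd, Fin.val_addNat] at he ⊢ <;> omega
      let e' := (Equiv.ofBijective idx hidx).symm
      let mu : Fin b → F := fun j => Sum.elim (fun _ => t) (fun _ => -t) (eb.symm j)
      have hmu : ∀ j, mu j ≠ 0 := fun j => by
        simp only [mu]; rcases eb.symm j with i | i <;> simp [ht0]
      refine Cfsg.Agent.GeomClasses.TensorDerange.conj_into (bb.reindex e') 1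
        (Matrix.GeneralLinearGroup.mkOfDetNeZero (Matrix.diagonal mu) (by simp [Matrix.det_diagonal, Finset.prod_ne_zero_iff, hmu]))
        (fun q' => ?_) (fun s hs => ?_)
      · obtain ⟨k, j⟩ := q'
        rw [Finset.sum_eq_single (k, j)]
        · rw [show bb.reindex e' (k, j) = bb (idx (k, j)) by simp [e']]
          obtain ⟨i, rfl⟩ := eb.surjective j
          rcases i with i | i <;> fin_cases k <;>
            simp [idx, mu, hbc, hbd, Matrix.GeneralLinearGroup.mkOfDetNeZero]
        · rintro ⟨k', j'⟩ - hne'
          by_cases hk : k' = k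
          · subst hk
            have hj : j' ≠ j := fun e => hne' (by rw [e])
            simp [Matrix.GeneralLinearGroup.mkOfDetNeZero, hj]
          · simp [Matrix.one_apply, hk]
        · simp
      · let C' : (Fin n → F) →ₗ[F] (Fin n → F) :=
          bb.constr F fun k => (if k = Classical.choice (bb.index_nonempty) then s else 1) • bb k
        have hC' : ∀ k, C' (bb k) = (if k = Classical.choice (bb.index_nonempty) then s else 1) • bb k := fun k =>
          bb.constr_basis F _ _
        refine ⟨LinearMap.toMatrix' C', ?_, ?_⟩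
        · rw [LinearMap.det_toMatrix', ← LinearMap.det_toMatrix bb, show LinearMap.toMatrix bb bb C' =
            Matrix.diagonal fun k => if k = Classical.choice (bb.index_nonempty) then s else 1 from ?_, Matrix.det_diagonal]
          · simp
          ext i j
          rw [LinearMap.toMatrix_apply, hC', map_smul, Finsupp.smul_apply, bb.repr_self, Finsupp.single_apply, Matrix.diagonal_apply]
          by_cases hij : i = j
          · subst hij; simp
          · simp [hij, Ne.symm hij]
        · apply Matrix.toLin'.injective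
          refine bb.ext fun k => ?_
          simp only [Matrix.toLin'_apply, ← Matrix.mulVec_mulVec, LinearMap.toMatrix'_mulVec]
          rcases k with k | k
          · rw [hbc, map_smul, hC', Matrix.mulVec_smul, hbc, smul_comm]
          · rw [hbd, map_smul, hC', Matrix.mulVec_smul, hbd, smul_comm]
    · have hzn : ∀ s : F, s * s ≠ z := fun s e => hsq ⟨s, e.symm⟩
      obtain ⟨m, bz, hbz⟩ := Cfsg.Agent.GeomClasses.QuadExtInvolution.exists_basis hxx hzn
      obtain rfl : m = b := by
        have := Module.finrank_eq_card_basis bz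
        simp at this
        omega
      refine Cfsg.Agent.GeomClasses.TensorDerange.conj_into (bz.reindex (Equiv.prodComm _ _))
        (Matrix.GeneralLinearGroup.mkOfDetNeZero !![0, z; 1, 0] (by simp [Matrix.det_fin_two, hz0])) 1 (fun q' => ?_)
        (fun s _ => Cfsg.Agent.GeomClasses.QuadExtInvolution.exists_det_odd h2 (by omega) hz0 bz hbz s)
      obtain ⟨k, j⟩ := q'
      obtain ⟨h0, h1⟩ := hbz j
      rw [Fintype.sum_prod_type, Fin.sum_univ_two, Finset.sum_eq_single j, Finset.sum_eq_single j]
      · fin_cases k <;> simp [Matrix.GeneralLinearGroup.mkOfDetNeZero, h0, h1]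
      all_goals first
        | (intro c _ hc; simp [Matrix.one_apply, hc])
        | simp

end Cfsg.Agent.S5979
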