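import Cfsg.Statements.S5980
import Cfsg.Agent.GeomClasses.SympTensorInvolution
import Cfsg.Agent.GeomClasses.SympAtomFactor
import Cfsg.Agent.GeomClasses.SympDecompDerange

set_option autoImplicit false
open scoped MatrixGroups
open Cfsg Matrix
open scoped Kronecker

namespace Cfsg.Agent.S5980

/-- Elements of prime order of PSp_n(q), q odd, and the stabilizers of tensor decompositions Sp_a(q) ⊗ O_b(q). Here `T = PSp_{2d}(F)` for a field `F` with `q` elements, `q` odd, `d ≥ 2`, realised through the matrices preserving the standard alternating form `f`; `2d = a·b` with `a` even, `b ≥ 3`, and the bijection `e` and change of basis `P` exhibit `f` as a non-zero scalar multiple of the tensor product of a non-degenerate alternating form `f₁` on `F^a` and a non-degenerate symmetric bilinear form `f₂` on `F^b`; `H` is the subgroup of `T` stabilizing this tensor decomposition (the elements of `T` in the conjugate by `P` of the group of Kronecker products) — a subgroup of type Sp_a(q) ⊗ O^ε_b(q) (maximality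 is not assumed). Ω is the set of cosets of `H` in `T`, so an element of `T` of prime order `r` (`x ∈ T` with `x^r` scalar, `x` not scalar) fixes a point of Ω exactly when some `T`-conjugate of `x` lies in `H`. Let `r` be a prime dividing the index of `H`. Then every element of `T` of order `r` fixes a point of Ω if and only if `r = 2` and `a = 2`. -/
theorem result {F : Type*} [Field F] [Fintype F] {p : ℕ} [Fact p.Prime] [CharP F p] {q : ℕ} (hq : Fintype.card F = q)
    (hodd : Odd q) (d : ℕ) (hd : 2 ≤ d) (a b : ℕ) (hab : 2 * d = a * b) (ha : Even a) (ha2 : 2 ≤ a) (hb : 3 ≤ b)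
    (e : (Fin d ⊕ Fin d) ≃ Fin a × Fin b) (P : GL (Fin d ⊕ Fin d) F)
    (f₁ : (Fin a → F) → (Fin a → F) → F) (f₂ : (Fin b → F) → (Fin b → F) → F)
    (hf₁ : Cfsg.Geo.IsSymplecticForm f₁) (hf₂ : Cfsg.Geo.IsSymmetricForm f₂)
    (hS : Cfsg.Geo.IsTensorFormStructure id (Cfsg.sympForm d F) f₁ f₂ e P)
    (r : ℕ) [Fact r.Prime]
    (hΩ : r ∣ (Cfsg.Geo.tensorProductSubgroup a b e P).relIndex (Cfsg.spGL d F)) :
    (∀ x ∈ Cfsg.spGL d F, (∃ z : F, ((x ^ r : GL (Fin d ⊕ Fin d) F) : Matrix (Fin d ⊕ Fin d) (Fin d ⊕ Fin d) F) = z • (1 : Matrix (Fin d ⊕ Fin d) (Fin d ⊕ Fin d) F)) →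
      (∀ z : F, (x : Matrix (Fin d ⊕ Fin d) (Fin d ⊕ Fin d) F) ≠ z • (1 : Matrix (Fin d ⊕ Fin d) (Fin d ⊕ Fin d) F)) →
      ∃ g ∈ Cfsg.spGL d F, g⁻¹ * x * g ∈ Cfsg.Geo.tensorProductSubgroup a b e P) ↔ (r = 2 ∧ a = 2) := by
  classical
  have hr : r.Prime := Fact.out
  have hp : p.Prime := Fact.out
  obtain ⟨f₀, -, hf₀⟩ := FiniteField.card F p
  rw [hq] at hf₀
  have h2 : (2 : F) ≠ 0 := fun h => by
    have hp2 : p = 2 := (Nat.prime_dvd_prime_iff_eq hp Nat.prime_two).1
      ((CharP.cast_eq_zero_iff F p 2).1 (by exact_mod_cast h))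
    rw [hf₀, hp2, Nat.odd_pow_iff f₀.pos.ne'] at hodd
    exact absurd hodd (by decide)
  let B := Cfsg.Agent.Forms.sympB d F
  have hA : B.IsAlt := Cfsg.Agent.Forms.sympB_isAlt
  have hB : B.Nondegenerate := Cfsg.Agent.Forms.sympB_nondegenerate
  have hV : Module.finrank F (Fin d ⊕ Fin d → F) = 2 * d := by
    rw [Module.finrank_pi, Fintype.card_sum, Fintype.card_fin]; omega
  let i0 : Fin d := ⟨0, by omega⟩
  haveI : Nonempty (Fin d ⊕ Fin d) := ⟨Sum.inl i0⟩
  have hsquare : ∀ z : F, (∀ u v, B (z • u) (z • v) = B u v) → z * z = 1 := by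
    intro z h
    have h1 := h (Pi.single (Sum.inr i0) 1) (Pi.single (Sum.inl i0) 1)
    simpa [B, Cfsg.Agent.Forms.sympForm_eq, Pi.single_apply, mul_assoc] using h1
  have haev : ∀ S : Module.End F (Fin d ⊕ Fin d → F),
      Module.finrank F (LinearMap.ker (Polynomial.aeval S (Polynomial.X - Polynomial.C (1 : F)))) =
        Module.finrank F (LinearMap.ker (S - 1)) := fun S =>
    congrArg (fun W : Module.End F (Fin d ⊕ Fin d → F) => Module.finrank F (LinearMap.ker W)) (by simp)
  constructor
  · intro H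
    by_contra hcon
    -- transport to an element of the subgroup
    have key : ∀ T : Module.End F (Fin d ⊕ Fin d → F), T ^ r = 1 → (∀ u v, B (T u) (T v) = B u v) → (∀ e : F, T ≠ e • 1) →
        ∃ g ∈ Cfsg.Geo.tensorProductSubgroup a b e P, g ^ r = 1 ∧ ∀ f : Polynomial F,
          Module.finrank F (LinearMap.ker (Polynomial.aeval
            (Matrix.toLin' (g : Matrix (Fin d ⊕ Fin d) (Fin d ⊕ Fin d) F)) f)) =
            Module.finrank F (LinearMap.ker (Polynomial.aeval T f)) := by
      intro T hTr hTB hns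
      have hinj : Function.Injective T := fun a b h => by
        have := congrArg (T ^ (r - 1)) h
        rwa [← Module.End.mul_apply, ← Module.End.mul_apply, ← pow_succ, Nat.sub_add_cancel hr.one_lt.le, hTr,
          Module.End.one_apply, Module.End.one_apply] at this
      obtain ⟨x, hx, hxT⟩ := GeomClasses.SympQuadExt.exists_gl
        (LinearEquiv.ofBijective T ⟨hinj, LinearMap.injective_iff_surjective.1 hinj⟩) hTB
      have hxT' : Matrix.toLin' (x : Matrix (Fin d ⊕ Fin d) (Fin d ⊕ Fin d) F) = T := LinearMap.ext fun v => hxT v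
      have hxr : x ^ r = 1 := Units.ext (Matrix.toLin'.injective (by
        rw [Units.val_pow_eq_pow_val, Matrix.toLin'_pow, hxT', hTr, Units.val_one, Matrix.toLin'_one]; rfl))
      obtain ⟨g, hg, hy⟩ := H x hx ⟨1, by rw [hxr, one_smul, Units.val_one]⟩ fun z hz => hns z (by
        rw [← hxT', hz, map_smul, Matrix.toLin'_one]; rfl)
      refine ⟨_, hy, ?_, fun f => ?_⟩
      · have := conj_pow (i := r) (a := g⁻¹) (b := x)
        rwa [inv_inv, hxr, mul_one, inv_mul_cancel] at this
      · let E := Cfsg.Agent.Forms.glEquiv (Fin d ⊕ Fin d) F g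
        have hT' : Matrix.toLin' ((g⁻¹ * x * g : GL (Fin d ⊕ Fin d) F) : Matrix (Fin d ⊕ Fin d) (Fin d ⊕ Fin d) F) =
            E.symm.conjAlgEquiv F T := LinearMap.ext fun v => by
          show _ = E.symm (T (E v))
          rw [LinearEquiv.eq_symm_apply, ← hxT']
          simp only [E, Cfsg.Agent.Forms.glEquiv_apply, Matrix.toLin'_apply, Matrix.mulVec_mulVec, ← Units.val_mul]
          congr 2
          group
        rw [hT', show Polynomial.aeval (E.symm.conjAlgEquiv F T) f = E.symm.conjAlgEquiv F (Polynomial.aeval T f) from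
          Polynomial.aeval_algHom_apply (E.symm.conjAlgEquiv F).toAlgHom T f]
        refine (congrArg (fun W : Submodule F (Fin d ⊕ Fin d → F) => Module.finrank F W) ?_).trans
          (LinearEquiv.finrank_map_eq E.symm _)
        ext v
        constructor
        · intro hv
          exact ⟨E v, E.symm.map_eq_zero_iff.1 hv, E.symm_apply_apply v⟩
        · rintro ⟨w, hw, rfl⟩
          show E.symm (Polynomial.aeval T f (E (E.symm w))) = 0
          rw [E.apply_symm_apply, LinearMap.mem_ker.1 hw, map_zero]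
    have small : ∀ (T : Module.End F (Fin d ⊕ Fin d → F)) (n : ℕ), T ^ r = 1 → (∀ u v, B (T u) (T v) = B u v) →
        (∀ e : F, T ≠ e • 1) → Module.finrank F (LinearMap.ker (T - 1)) + n = 2 * d → n < b → ¬ a ∣ n → False := by
      intro T n hTr hTB hns hker hnb hna
      obtain ⟨g, hg, -, hf⟩ := key T hTr hTB hns
      obtain ⟨A, C, Φ, hΦ⟩ := GeomClasses.SympTensorDerange.exists_kron hg
      have h := GeomClasses.SympTensorDerange.finrank_ker_aeval hΦ (Polynomial.X - Polynomial.C 1)
      rw [hf, haev] at h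
      simp only [map_sub, Polynomial.aeval_X, map_one] at h
      rw [← hab] at h
      replace h : Module.finrank F (LinearMap.ker (T - 1)) +
          ((A : Matrix (Fin a) (Fin a) F) ⊗ₖ (C : Matrix (Fin b) (Fin b) F) - 1).rank = 2 * d := h
      by_cases hsc : ∃ c : F, (A : Matrix (Fin a) (Fin a) F) = c • 1
      · obtain ⟨c, hc⟩ := hsc
        rw [hc, show (c • (1 : Matrix (Fin a) (Fin a) F)) ⊗ₖ (C : Matrix (Fin b) (Fin b) F) - 1 =
          (1 : Matrix (Fin a) (Fin a) F) ⊗ₖ (c • (C : Matrix (Fin b) (Fin b) F) - 1) by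
          simpa using GeomClasses.TensorDerange.scalar_kron (a := a) c 1 (C : Matrix (Fin b) (Fin b) F),
          GeomClasses.TensorDerange.rank_one_kron] at h
        exact hna ⟨(c • (C : Matrix (Fin b) (Fin b) F) - 1).rank, by omega⟩
      · push_neg at hsc
        have := GeomClasses.TensorDerange.rank_nonscalar hsc (Units.isUnit C) 1
        rw [one_smul] at this
        omega
    by_cases hrp : r = p
    · set u : Fin d ⊕ Fin d → F := Pi.single (Sum.inl i0) 1
      set w : Fin d ⊕ Fin d → F := Pi.single (Sum.inr i0) 1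
      have huu : B u u = 0 := hA u
      have hwu : B w u = 1 := by simp [B, u, w, Cfsg.Agent.Forms.sympForm_eq, Pi.single_apply]
      have hu0 : u ≠ 0 := by simp [u]
      let T : Module.End F (Fin d ⊕ Fin d → F) := 1 + (B.flip u).smulRight u
      have hT : ∀ v, T v = v + B v u • u := fun v => rfl
      have hTk : ∀ (n : ℕ) v, (T ^ n) v = v + ((n : F) * B v u) • u := by
        intro n
        induction n with
        | zero => intro v; simp
        | succ n ih =>
          intro v
          rw [pow_succ', Module.End.mul_apply, ih, hT]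
          simp only [map_add, map_smul, LinearMap.add_apply, LinearMap.smul_apply, huu, smul_eq_mul, mul_zero, add_zero,
            Nat.cast_add, Nat.cast_one, add_mul, one_mul, add_smul]
          abel
      have hTr : T ^ r = 1 := LinearMap.ext fun v => by
        rw [hTk, hrp, CharP.cast_eq_zero, zero_mul, zero_smul, add_zero]; rfl
      have hTB : ∀ a b, B (T a) (T b) = B a b := fun a b => by
        simp only [hT, map_add, map_smul, LinearMap.add_apply, LinearMap.smul_apply, smul_eq_mul, huu]
        rw [← LinearMap.IsAlt.neg hA b u]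
        ring
      have hker : LinearMap.ker (T - 1) = LinearMap.ker (B.flip u) := Submodule.ext fun v => by
        simp [hT, hu0]
      have h1 := Module.Dual.finrank_ker_add_one_of_ne_zero (f := B.flip u) (fun e => by
        have h' : B w u = 0 := LinearMap.congr_fun e w
        rw [hwu] at h'
        exact one_ne_zero h')
      rw [hV, ← hker] at h1
      refine small T 1 hTr hTB (fun e he => ?_) h1 (by omega) fun h => by have := Nat.le_of_dvd one_pos h; omega
      have h := congrFun (LinearMap.congr_fun he w) (Sum.inl i0)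
      rw [hT, hwu, one_smul] at h
      simp [u, w, Pi.single_apply] at h
    have hrF : (r : F) ≠ 0 := fun h =>
      hrp ((Nat.prime_dvd_prime_iff_eq hp hr).1 ((CharP.cast_eq_zero_iff F p r).1 h)).symm
    have hrq : ¬ r ∣ q := fun h => hrp ((Nat.prime_dvd_prime_iff_eq hr hp).1 (hr.dvd_of_dvd_pow (hf₀ ▸ h)))
    have hq1 : 1 < q := hq ▸ Fintype.one_lt_card
    set i := orderOf (q : ZMod r) with hi
    obtain ⟨hi0, -⟩ := GeomClasses.SubspaceDerange.dvd_pow_sub_one hrq hi
    set c := if Even i then i else 2 * i with hc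
    have hns : ∀ (T : Module.End F (Fin d ⊕ Fin d → F)) (n : ℕ), T ^ r = 1 → (∀ u v, B (T u) (T v) = B u v) →
        Module.finrank F (LinearMap.ker (T - 1)) = 2 * d - n → 0 < n → (n < 2 * d ∨ r ≠ 2) → ∀ e : F, T ≠ e • 1 := by
      intro T n hTr hTB hker hn0 hor e he
      by_cases he1 : e = 1
      · rw [he, he1, one_smul, sub_self, LinearMap.ker_zero, finrank_top, hV] at hker
        omega
      rcases hor with hn | hr2
      · rw [he, show e • (1 : Module.End F (Fin d ⊕ Fin d → F)) - 1 = (e - 1) • 1 by ext v; simp [sub_smul],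
          LinearMap.ker_smul _ _ (sub_ne_zero.2 he1), Module.End.one_eq_id, LinearMap.ker_id, finrank_bot] at hker
        omega
      · obtain ⟨s, hs⟩ := hr.odd_of_ne_two hr2
        have hee : e * e = 1 := hsquare e fun u v => by
          have := hTB u v
          simpa only [he, LinearMap.smul_apply, Module.End.one_apply] using this
        have her : e ^ r = 1 := by
          have h := congrArg (fun f : Module.End F (Fin d ⊕ Fin d → F) => f (Pi.single (Sum.inl i0) 1) (Sum.inl i0)) hTr
          simpa [he, _root_.smul_pow] using h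
        rw [hs, pow_succ, pow_mul, pow_two, hee, one_pow, one_mul] at her
        exact he1 her
    by_cases hr2 : r = 2
    · subst hr2
      have hq2 : Odd q := hodd
      have hi1 : i = 1 := by
        rw [hi, (ZMod.natCast_eq_one_iff_odd.2 hq2 : (q : ZMod 2) = 1), orderOf_one]
      have hc2 : c = 2 := by rw [hc, hi1]; rfl
      have ha4 : 4 ≤ a := by
        have : a ≠ 2 := fun h => hcon ⟨rfl, h⟩
        obtain ⟨t, ht⟩ := ha
        omega
      obtain ⟨T, hTr, hTB, hker⟩ := GeomClasses.SympDecompDerange.exists_moving (r := 2) hA hB hrF hq hrq hi hc (j := 1)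
        (by rw [hV, hc2]; omega)
      rw [hV, one_mul, hc2] at hker
      exact small T 2 hTr hTB (hns T 2 hTr hTB hker two_pos (Or.inl (by omega))) (by rw [hker]; omega) (by omega)
        fun h => by have := Nat.le_of_dvd two_pos h; omega
    have hcd : c ≤ 2 * d := by
      have hcard : Nat.card (Cfsg.spGL d F) = q ^ (d ^ 2) * ∏ l ∈ Finset.range d, (q ^ (2 * (l + 1)) - 1) := by
        rw [Nat.card_congr (Cfsg.Agent.Forms.spGLEquiv (m := d) (F := F)).toEquiv,
          ← Nat.card_congr (Cfsg.Agent.Forms.spEquiv d F).toEquiv, Cfsg.Agent.Forms.card_symplecticGroup hq]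
      have hd' := hΩ.trans (Subgroup.index_dvd_card _)
      rw [hcard] at hd'
      obtain ⟨l, hl, hl'⟩ := (hr.prime.dvd_finsetProd_iff _).1 ((hr.dvd_mul.1 hd').resolve_left fun h => hrq (hr.dvd_of_dvd_pow h))
      rw [Finset.mem_range] at hl
      have h' := (ZMod.natCast_eq_zero_iff _ r).2 hl'
      rw [Nat.cast_sub (Nat.one_le_pow _ _ (by omega)), Nat.cast_pow, Nat.cast_one, sub_eq_zero] at h'
      have hd2 : i ∣ 2 * (l + 1) := orderOf_dvd_of_pow_eq_one h'
      rw [hc]
      split_ifs with hie
      · have := Nat.le_of_dvd (by omega) hd2; omega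
      · have := Nat.le_of_dvd (by omega) ((Nat.coprime_two_right.2 (Nat.not_even_iff_odd.1 hie)).dvd_of_dvd_mul_left hd2)
        omega
    obtain ⟨T, hTr, hTB, hker⟩ := GeomClasses.SympDecompDerange.exists_moving (r := r) hA hB hrF hq hrq hi hc (j := 1)
      (by rw [hV, one_mul]; exact hcd)
    rw [hV, one_mul] at hker
    obtain ⟨g, hg, hgr, hf⟩ := key T hTr hTB (hns T c hTr hTB hker (by rw [hc]; split_ifs <;> omega) (Or.inr hr2))
    refine GeomClasses.SympTensorDerange.not_mem_atom hq hrq hrF hr2 hi hc ha ha2 hb (hab ▸ hcd) hgr ?_ (fun hie => ?_) hg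
    · exact ((haev _).symm.trans ((hf (Polynomial.X - Polynomial.C 1)).trans (haev T))).trans (hker.trans (by rw [hab]))
    · obtain ⟨f, hff⟩ := GeomClasses.SympAtomFactor.exists_poly hq hrF hr2 hrq hi hc hie hTr hTB hcd hker
      exact ⟨f, (hf f).trans hff⟩
  · rintro ⟨rfl, rfl⟩ x hx ⟨z, hz⟩ hns
    set T : Module.End F (Fin d ⊕ Fin d → F) := Matrix.toLin' (x : Matrix (Fin d ⊕ Fin d) (Fin d ⊕ Fin d) F) with hTdef
    have hTB : ∀ u v, B (T u) (T v) = B u v := fun u v => by
      simp only [hTdef, Matrix.toLin'_apply]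
      exact GeomClasses.mem_spGL_iff.1 hx u v
    have hT2 : ∀ v, T (T v) = z • v := fun v => by
      rw [pow_two, Units.val_mul] at hz
      simp only [hTdef, Matrix.toLin'_apply, Matrix.mulVec_mulVec, hz, Matrix.smul_mulVec, Matrix.one_mulVec]
    have hzz : z * z = 1 := hsquare z fun u v => by rw [← hT2, ← hT2, hTB, hTB]
    suffices ∃ y ∈ Cfsg.Geo.tensorProductSubgroup 2 b e P, ∃ g ∈ Cfsg.spGL d F, ∀ v,
        (g : Matrix (Fin d ⊕ Fin d) (Fin d ⊕ Fin d) F) *ᵥ ((y : Matrix (Fin d ⊕ Fin d) (Fin d ⊕ Fin d) F) *ᵥ v) =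
          T ((g : Matrix (Fin d ⊕ Fin d) (Fin d ⊕ Fin d) F) *ᵥ v) by
      obtain ⟨y, hy, g, hg, hgy⟩ := this
      refine ⟨g, hg, ?_⟩
      rwa [show g⁻¹ * x * g = y by
        rw [mul_assoc, inv_mul_eq_iff_eq_mul]
        refine Units.ext (Cfsg.Agent.Forms.matrix_ext_mulVec fun v => ?_)
        rw [Units.val_mul, Units.val_mul, ← Matrix.mulVec_mulVec, ← Matrix.mulVec_mulVec, hgy, hTdef, Matrix.toLin'_apply]]
    rcases mul_self_eq_one_iff.1 hzz with rfl | rfl
    · simp only [one_smul] at hT2
      have hKn : GeomClasses.SympStructure.Nd B (LinearMap.ker (T - 1)) := by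
        have := GeomClasses.SympStructure.nd_fixed (r := 2) hA hTB (T := T)
          (LinearMap.ext fun v => by rw [pow_two]; exact hT2 v) (by exact_mod_cast h2) (W := ⊤) (fun _ _ => trivial)
          (GeomClasses.SympStructure.nd_top hB)
        rwa [top_inf_eq] at this
      obtain ⟨t, ht⟩ := GeomClasses.SympStructure.nd_even hA hKn
      have htle : Module.finrank F (LinearMap.ker (T - 1)) ≤ 2 * d := hV ▸ Submodule.finrank_le _
      obtain ⟨R, hRR, hRG, hRrk⟩ := GeomClasses.SympTensorInvolution.exists_reflection h2 hf₂ (s := d - t) (by omega)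
      let RG : GL (Fin b) F := ⟨R, R, hRR, hRR⟩
      obtain ⟨y, hy, hySp, Φ, hΦ⟩ := GeomClasses.SympTensorInvolution.exists_elem hS 1 RG (by simp) hRG
      have hY2 : ∀ v, Matrix.toLin' (y : Matrix (Fin d ⊕ Fin d) (Fin d ⊕ Fin d) F)
          (Matrix.toLin' (y : Matrix (Fin d ⊕ Fin d) (Fin d ⊕ Fin d) F) v) = v := fun v => by
        rw [← Module.End.mul_apply, ← hΦ, ← map_mul]
        rw [show ((RG : Matrix (Fin b) (Fin b) F)) = R from rfl]
        rw [show Matrix.toLin' (((1 : GL (Fin 2) F) : Matrix (Fin 2) (Fin 2) F) ⊗ₖ R) *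
            Matrix.toLin' (((1 : GL (Fin 2) F) : Matrix (Fin 2) (Fin 2) F) ⊗ₖ R) = 1 from by
          rw [Module.End.mul_eq_comp, ← Matrix.toLin'_mul, ← Matrix.mul_kronecker_mul, hRR, Units.val_one, one_mul,
            Matrix.one_kronecker_one, Matrix.toLin'_one]; rfl, map_one]
        rfl
      have hYB : ∀ u v, B (Matrix.toLin' (y : Matrix (Fin d ⊕ Fin d) (Fin d ⊕ Fin d) F) u)
          (Matrix.toLin' (y : Matrix (Fin d ⊕ Fin d) (Fin d ⊕ Fin d) F) v) = B u v := fun u v => by
        simp only [Matrix.toLin'_apply]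
        exact GeomClasses.mem_spGL_iff.1 hySp u v
      have hkerY : Module.finrank F (LinearMap.ker (Matrix.toLin' (y : Matrix (Fin d ⊕ Fin d) (Fin d ⊕ Fin d) F) - 1)) =
          Module.finrank F (LinearMap.ker (T - 1)) := by
        have h := GeomClasses.SympTensorDerange.finrank_ker_aeval hΦ (Polynomial.X - Polynomial.C 1)
        rw [haev] at h
        simp only [map_sub, Polynomial.aeval_X, map_one] at h
        rw [Units.val_one, show (1 : Matrix (Fin 2) (Fin 2) F) ⊗ₖ ((RG : Matrix (Fin b) (Fin b) F)) - 1 =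
          (1 : Matrix (Fin 2) (Fin 2) F) ⊗ₖ (R - 1) by
            simpa using GeomClasses.TensorDerange.scalar_kron (a := 2) (1 : F) 1 R,
          GeomClasses.TensorDerange.rank_one_kron, hRrk] at h
        replace h : Module.finrank F (LinearMap.ker
            (Matrix.toLin' (y : Matrix (Fin d ⊕ Fin d) (Fin d ⊕ Fin d) F) - 1)) + 2 * (d - t) = 2 * b := h
        omega
      obtain ⟨g, hg, hgy⟩ := GeomClasses.SympTensorInvolution.exists_conj h2 hYB hTB hY2 hT2 hkerY
      exact ⟨y, hy, g, hg, fun v => by simpa only [Matrix.toLin'_apply] using hgy v⟩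
    · simp only [neg_one_smul] at hT2
      have hTs : GeomClasses.SympQuadExt.Skew T (-1) := ⟨fun v => by rw [hT2, neg_one_smul], fun u v => by
        show B (T u) v = -B u (T v)
        rw [← hTB u (T v), hT2, map_neg, neg_neg]⟩
      let A : GL (Fin 2) F := ⟨!![0, -1; 1, 0], !![0, 1; -1, 0],
        by ext i j; fin_cases i <;> fin_cases j <;> simp, by ext i j; fin_cases i <;> fin_cases j <;> simp⟩
      obtain ⟨y, hy, hySp, Φ, hΦ⟩ := GeomClasses.SympTensorInvolution.exists_elem hS A 1
        (by rw [GeomClasses.SympTensorInvolution.gram_two hf₁]; simp [A, Matrix.det_fin_two]) (by simp)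
      set Y : Module.End F (Fin d ⊕ Fin d → F) := Matrix.toLin' (y : Matrix (Fin d ⊕ Fin d) (Fin d ⊕ Fin d) F)
      have hY2 : ∀ v, Y (Y v) = (-1 : F) • v := fun v => by
        rw [← Module.End.mul_apply, ← hΦ, ← map_mul]
        rw [show Matrix.toLin' ((A : Matrix (Fin 2) (Fin 2) F) ⊗ₖ ((1 : GL (Fin b) F) : Matrix (Fin b) (Fin b) F)) *
            Matrix.toLin' ((A : Matrix (Fin 2) (Fin 2) F) ⊗ₖ ((1 : GL (Fin b) F) : Matrix (Fin b) (Fin b) F)) =
            (-1 : F) • 1 from by
          rw [Module.End.mul_eq_comp, ← Matrix.toLin'_mul, ← Matrix.mul_kronecker_mul, Units.val_one, one_mul,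
            show (A : Matrix (Fin 2) (Fin 2) F) * (A : Matrix (Fin 2) (Fin 2) F) = (-1 : F) • 1 by
              ext i j; fin_cases i <;> fin_cases j <;> simp [A], Matrix.smul_kronecker, Matrix.one_kronecker_one,
            map_smul, Matrix.toLin'_one]; rfl, map_smul, map_one]
        rfl
      have hYB : ∀ u v, B (Y u) (Y v) = B u v := fun u v => by
        simp only [Y, Matrix.toLin'_apply]
        exact GeomClasses.mem_spGL_iff.1 hySp u v
      have hYs : GeomClasses.SympQuadExt.Skew Y (-1) := ⟨hY2, fun u v => by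
        show B (Y u) v = -B u (Y v)
        rw [← hYB u (Y v), hY2, neg_one_smul, map_neg, neg_neg]⟩
      obtain ⟨g, hg, hgy⟩ := GeomClasses.SympQuadExt.exists_conj hYs hTs h2 (neg_ne_zero.2 one_ne_zero)
      exact ⟨y, hy, g, hg, fun v => by simpa only [Y, Matrix.toLin'_apply] using hgy v⟩

end Cfsg.Agent.S5980
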