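import Cfsg.Statements.S5981
import Cfsg.Agent.GeomClasses.OrthPreserveDerange
import Cfsg.Agent.GeomClasses.OrthPairing

set_option autoImplicit false
open scoped MatrixGroups
open Cfsg Matrix

namespace Cfsg.Agent.S5981

/-- Elements of prime order of PSL_n(q), q odd, and the subgroups of orthogonal type. Here `T = PSL_n(F)` for a field `F` with `q` elements, `q` odd, `n ≥ 3`; `Q` is a non-degenerate quadratic form on `F^n` (of either type when `n` is even) and `H` is the subgroup of matrices of determinant 1 that preserve `Q` up to a scalar — a subgroup of type O^ε_n(q) (maximality is not assumed); Ω is the set of cosets of `H` in `T`, so an element of `T` of prime order `r` (a matrix `x` of determinant 1 with `x^r` scalar, `x` not scalar) fixes a point of Ω exactly when some conjugate of `x` by a matrix of determinant 1 preserves `Q` up to a scalar. Let `r` be a prime dividing the index of `H`, with `(n, r) ≠ (6, 3)`. Then every element of `T` of order `r` fixes a point of Ω if and only if `r = 2`, or `r ∈ {3, 5}`, `n = r` and `(q − 1)_r = r` (the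 `r`-part of `q − 1` is exactly `r`). The case `(n, r) = (6, 3)` is not covered by this statement. -/
theorem result {F : Type*} [Field F] [Fintype F] {p : ℕ} [Fact p.Prime] [CharP F p] {q : ℕ} (hq : Fintype.card F = q)
    (hodd : Odd q) (n : ℕ) (hn : 3 ≤ n) (Q : (Fin n → F) → F) (hQ : Cfsg.Geo.IsNondegenerateQuadraticForm Q)
    (r : ℕ) [Fact r.Prime] (hgap : ¬ (n = 6 ∧ r = 3))
    (hΩ : r ∣ (Cfsg.Geo.quadSimilarityGroup Q).relIndex (Cfsg.Geo.specialLinear (Fin n) F)) :
    (∀ x ∈ Cfsg.Geo.specialLinear (Fin n) F, (∃ z : F, ((x ^ r : GL (Fin n) F) : Matrix (Fin n) (Fin n) F) = z • (1 : Matrix (Fin n) (Fin n) F)) →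
      (∀ z : F, (x : Matrix (Fin n) (Fin n) F) ≠ z • (1 : Matrix (Fin n) (Fin n) F)) →
      ∃ g ∈ Cfsg.Geo.specialLinear (Fin n) F, g⁻¹ * x * g ∈ Cfsg.Geo.quadSimilarityGroup Q) ↔
    (r = 2 ∨ ((r = 3 ∨ r = 5) ∧ n = r ∧ padicValNat r (q - 1) = 1)) := by
  classical
  have hr := (Fact.out : r.Prime)
  have hp := (Fact.out : p.Prime)
  have hq1 : 1 < q := hq ▸ Fintype.one_lt_card
  have h2 : (2 : F) ≠ 0 := Cfsg.Agent.Forms.two_ne_zero_of_odd hq hodd
  have hn1 : 1 ≤ n := by omega
  set QF := GeomClasses.toQuadForm hQ with hQFdef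
  have hQF : (QuadraticMap.polarBilin QF).Nondegenerate := GeomClasses.polarBilin_nondegenerate hQ
  have hsl : ∀ {g : GL (Fin n) F}, g ∈ Cfsg.Geo.specialLinear (Fin n) F ↔ (g : Matrix (Fin n) (Fin n) F).det = 1 :=
    GeomClasses.OrthPreserve.mem_sl
  obtain ⟨f₀, -, hf₀⟩ := FiniteField.card F p
  have hnn : q = p ^ (f₀ : ℕ) := hq.symm.trans hf₀
  constructor
  · intro h
    have use_x : ∀ x : Matrix (Fin n) (Fin n) F, x.det = 1 → ∀ z : F, x ^ r = z • 1 → (∀ z : F, x ≠ z • 1) →
        ∃ (g : GL (Fin n) F) (hx : x.det ≠ 0) (c : F), g⁻¹ * Matrix.GeneralLinearGroup.mkOfDetNeZero x hx * g ∈ Cfsg.Geo.quadSimilarityGroup ⇑QF ∧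
          c ^ r = z * z ∧
          (∀ v, QF ((((g⁻¹ : GL (Fin n) F) : Matrix (Fin n) (Fin n) F) * x * (g : Matrix (Fin n) (Fin n) F)) *ᵥ v) = c * QF v) ∧
          (((g⁻¹ : GL (Fin n) F) : Matrix (Fin n) (Fin n) F) * x * (g : Matrix (Fin n) (Fin n) F)) ^ r = z • 1 := by
      intro x hdet z hz hns
      have hx0 : x.det ≠ 0 := by rw [hdet]; exact one_ne_zero
      obtain ⟨g, -, hg⟩ := h (Matrix.GeneralLinearGroup.mkOfDetNeZero x hx0) (hsl.2 hdet)
        ⟨z, by rw [Units.val_pow_eq_pow_val]; exact hz⟩ hns
      obtain ⟨c, hc⟩ := id hg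
      have hpow : (((g⁻¹ : GL (Fin n) F) : Matrix (Fin n) (Fin n) F) * x * (g : Matrix (Fin n) (Fin n) F)) ^ r = z • 1 := by
        rw [Units.conj_pow', hz, Matrix.mul_smul, Matrix.smul_mul, mul_one, ← Units.val_mul, inv_mul_cancel, Units.val_one]
      refine ⟨g, hx0, c, hg, ?_, hc, hpow⟩
      exact GeomClasses.OrthPreserveDerange.multiplier_pow hn1 hQF hc hpow
    by_contra hneg
    push_neg at hneg
    obtain ⟨hr2, hneg⟩ := hneg
    have hrodd : Odd r := hr.odd_of_ne_two hr2
    let i0 : Fin n := ⟨0, by omega⟩
    let i1 : Fin n := ⟨1, by omega⟩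
    have h01 : i0 ≠ i1 := by simp [i0, i1, Fin.ext_iff]
    by_cases hrp : r = p
    · subst hrp
      haveI : CharP (Matrix (Fin n) (Fin n) F) r := by
        haveI : Nonempty (Fin n) := ⟨i0⟩
        exact Matrix.charP r
      obtain ⟨g, -, c, -, hcr, hcQ, -⟩ := use_x (1 + Matrix.single i0 i1 1) (Matrix.det_transvection_of_ne i0 i1 h01 (1 : F)) 1
        (by rw [add_pow_char_of_commute _ (Commute.one_left _), one_pow, one_smul, show r = (r - 2) + 2 by
              have := hr.two_le; omega, pow_add, pow_two]
            simp [h01.symm])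
        (fun z e => by have := congrFun (congrFun e i0) i1; simp [h01] at this)
      have hc1 : c = 1 := by
        have h' : (c - 1) ^ r = 0 := by rw [sub_pow_char, hcr, one_pow, mul_one, sub_self]
        exact sub_eq_zero.1 (eq_zero_of_pow_eq_zero h')
      subst hc1
      set G := (g : Matrix (Fin n) (Fin n) F)
      set Gi := ((g⁻¹ : GL (Fin n) F) : Matrix (Fin n) (Fin n) F)
      have hGi : ∀ v, G *ᵥ (Gi *ᵥ v) = v := fun v => by
        rw [Matrix.mulVec_mulVec, ← Units.val_mul, mul_inv_cancel, Units.val_one, Matrix.one_mulVec]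
      have hiG : ∀ v, Gi *ᵥ (G *ᵥ v) = v := fun v => by
        rw [Matrix.mulVec_mulVec, ← Units.val_mul, inv_mul_cancel, Units.val_one, Matrix.one_mulVec]
      set u := Gi *ᵥ Pi.single i0 1 with hu
      have hh : ∀ v, (G *ᵥ v) i1 * QuadraticMap.polar QF v u + (G *ᵥ v) i1 ^ 2 * QF u = 0 := fun v => by
        have h' := hcQ v
        rw [← Matrix.mulVec_mulVec, ← Matrix.mulVec_mulVec, Matrix.add_mulVec, Matrix.one_mulVec,
          show Matrix.single i0 i1 (1 : F) *ᵥ (G *ᵥ v) = ((G *ᵥ v) i1) • Pi.single i0 1 from funext fun l => by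
            simp only [Matrix.single_mulVec, Function.update_apply, Pi.smul_apply, Pi.single_apply, Pi.zero_apply, smul_eq_mul]
            split_ifs <;> simp,
          Matrix.mulVec_add, hiG, Matrix.mulVec_smul, ← hu, QuadraticMap.map_add QF, QuadraticMap.map_smul,
          QuadraticMap.polar_smul_right, smul_eq_mul, smul_eq_mul, one_mul] at h'
        linear_combination h'
      set v1 := Gi *ᵥ Pi.single i1 1 with hv1
      have hφ1 : (G *ᵥ v1) i1 = 1 := by rw [hv1, hGi]; simp
      have hφu : (G *ᵥ u) i1 = 0 := by rw [hu, hGi]; simp [h01.symm]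
      have hQu : QF u = 0 := by
        have ha := hh v1
        have hb := hh (v1 + u)
        rw [Matrix.mulVec_add, Pi.add_apply, hφ1, hφu, QuadraticMap.polar_add_left, QuadraticMap.polar_self,
          nsmul_eq_mul] at hb
        rw [hφ1] at ha
        exact (mul_eq_zero.1 (show (2 : F) * QF u = 0 by push_cast at hb; linear_combination hb - ha)).resolve_left h2
      have hu0 : u ≠ 0 := fun e => by
        rw [hu] at e
        have := congrArg (fun w => (G *ᵥ w) i0) e
        simp only [hGi, Matrix.mulVec_zero, Pi.single_eq_same, Pi.zero_apply] at this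
        exact one_ne_zero this
      have hone : ∀ v, (G *ᵥ v) i1 = 1 → QuadraticMap.polar QF v u = 0 := fun v hv => by
        have := hh v
        rwa [hv, one_mul, hQu, mul_zero, add_zero] at this
      refine hu0 (hQF.2 u fun v => ?_)
      have h' := hone (v + (1 - (G *ᵥ v) i1) • v1) (by
        rw [Matrix.mulVec_add, Matrix.mulVec_smul, Pi.add_apply, Pi.smul_apply, hφ1]; simp)
      rw [QuadraticMap.polar_add_left, QuadraticMap.polar_smul_left, hone v1 hφ1, smul_zero, add_zero] at h'
      exact h'
    obtain ⟨S, hS, -⟩ := Linear.OrthFree.exists_ctx (p := p) (F := F) hq hr hr2 hrp rfl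
    set i := orderOf (q : ZMod r) with hidef
    have hi0 : 0 < i := hS.hi0
    have hrq := hS.hrq
    have hrF := hS.hrF
    have hpw : ∀ j, r ∣ q ^ j - 1 ↔ i ∣ j := fun j => by
      rw [hidef, orderOf_dvd_iff_pow_eq_one, ← ZMod.natCast_eq_zero_iff, Nat.cast_sub (Nat.one_le_pow _ _ (by omega)),
        Nat.cast_pow, Nat.cast_one, sub_eq_zero]
    have hmin : ∀ k, 1 ≤ k → k < i → ¬ r ∣ q ^ k - 1 := fun k hk hki hd => by
      have := Nat.le_of_dvd hk ((hpw k).1 hd); omega
    rcases eq_or_ne i 1 with hi1 | hi1
    · -- eigenvalues of different multiplicities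
      have hr1 : r ∣ q - 1 := by simpa using (hpw 1).2 (hi1 ▸ dvd_refl _)
      obtain ⟨w, hw⟩ := exists_prime_orderOf_dvd_card' (G := Fˣ) r (by
        rwa [Nat.card_units, Nat.card_eq_fintype_card (α := F), hq])
      set ω := (w : F) with hω
      have hωr : ω ^ r = 1 := by rw [hω, ← Units.val_pow_eq_pow_val, ← hw, pow_orderOf_eq_one, Units.val_one]
      have hωk : ∀ k, ω ^ k = 1 → r ∣ k := fun k hk => hw ▸ orderOf_dvd_of_pow_eq_one (Units.ext (by simpa [hω] using hk))
      have use_diag : ∀ (d : Fin n → F) (z : F), ∏ j, d j = 1 → (∀ j, d j ^ r = z) → (∃ j k, d j ≠ d k) →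
          (∀ j k, (Finset.univ.filter fun l => d l = d j).card = (Finset.univ.filter fun l => d l = d k).card → d j = d k) →
          False := by
        intro d z hd hdr ⟨j, k, hjk⟩ hfib
        obtain ⟨g, hx0, c, hg, -, -, -⟩ := use_x (Matrix.diagonal d) (by rw [Matrix.det_diagonal, hd]) z
          (by rw [Matrix.diagonal_pow, Matrix.smul_one_eq_diagonal]; exact congrArg _ (funext hdr))
          (fun l e => hjk (by
            have e0 := congrFun (congrFun e j) j
            have e1 := congrFun (congrFun e k) k
            simp at e0 e1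
            rw [e0, e1]))
        obtain ⟨c', σ, hσ⟩ := GeomClasses.OrthPreserveDerange.exists_perm hQF (lam := d) rfl hg
        have hd0 : ∀ l, d l ≠ 0 := fun l e => by
          have := hd ▸ Finset.prod_eq_zero (Finset.mem_univ l) e
          exact one_ne_zero this
        have hsq := (GeomClasses.OrthPreserveDerange.sq_eq hd0 σ hσ hfib j).trans
          (GeomClasses.OrthPreserveDerange.sq_eq hd0 σ hσ hfib k).symm
        obtain ⟨m, hm⟩ := hrodd
        have h' := (hdr j).trans (hdr k).symm
        rw [hm, pow_succ, pow_succ, pow_mul, pow_mul, pow_two, pow_two, hsq] at h'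
        exact hjk (mul_left_cancel₀ (pow_ne_zero _ (mul_ne_zero (hd0 k) (hd0 k))) h')
      have two : ∀ (a : ℕ) (A B z : F), 1 ≤ a → a < n → a ≠ n - a → A ≠ B → A ^ a * B ^ (n - a) = 1 → A ^ r = z → B ^ r = z →
          False := by
        intro a A B z ha han hne hAB hd hA hB
        have hc1 : (Finset.univ.filter fun j : Fin n => (j : ℕ) < a).card = a := by
          rw [Fin.card_filter_val_lt, min_eq_right han.le]
        have hc2 : (Finset.univ.filter fun j : Fin n => ¬ (j : ℕ) < a).card = n - a := by
          have := Finset.card_filter_add_card_filter_not (s := Finset.univ) (fun j : Fin n => (j : ℕ) < a)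
          rw [hc1, Finset.card_univ, Fintype.card_fin] at this
          omega
        have hf : ∀ j : Fin n, (Finset.univ.filter fun l : Fin n => (if (l : ℕ) < a then A else B) = if (j : ℕ) < a then A else B).card =
            if (j : ℕ) < a then a else n - a := fun j => by
          by_cases hj : (j : ℕ) < a <;> simp only [hj, if_true, if_false]
          · rw [Finset.filter_congr (q := fun l : Fin n => (l : ℕ) < a) fun l _ => by split_ifs <;> simp [*, Ne.symm hAB]]
            exact hc1
          · rw [Finset.filter_congr (q := fun l : Fin n => ¬ (l : ℕ) < a) fun l _ => by split_ifs <;> simp [*]]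
            exact hc2
        refine use_diag (fun j => if (j : ℕ) < a then A else B) z ?_ (fun j => by split_ifs <;> assumption)
          ⟨i0, ⟨n - 1, by omega⟩, ?_⟩ fun j k hjk => ?_
        · rw [Finset.prod_ite, Finset.prod_const, Finset.prod_const, hc1, hc2, hd]
        · dsimp only [i0]
          rw [if_pos (by omega), if_neg (by omega)]
          exact hAB
        · rw [hf, hf] at hjk
          split_ifs at hjk ⊢ <;> first | rfl | omega
      have hω1 : ω ≠ 1 := fun e => hr.one_lt.ne' (Nat.dvd_one.1 (hωk 1 (by rw [pow_one, e])))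
      by_cases hrn : r ∣ n
      · obtain ⟨k, rfl⟩ := hrn
        by_cases hk1 : k = 1 ∧ (r = 3 ∨ r = 5)
        · obtain ⟨rfl, hr35⟩ := hk1
          have hv : 2 ≤ padicValNat r (q - 1) := by
            have h1 := one_le_padicValNat_of_dvd (by omega : q - 1 ≠ 0) hr1
            have := hneg hr35 (mul_one r)
            omega
          have hr2d : r ^ 2 ∣ q - 1 := (padicValNat_dvd_iff_le (by omega)).2 hv
          obtain ⟨v, hv'⟩ := IsCyclic.exists_generator (α := Fˣ)
          have hordv : orderOf v = q - 1 := by
            rw [orderOf_eq_card_of_forall_mem_zpowers hv', Nat.card_units, Nat.card_eq_fintype_card (α := F), hq]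
          obtain ⟨m, hm⟩ := hr2d
          set W := v ^ m with hW
          have hWord : orderOf W = r ^ 2 := by
            rw [hW, orderOf_pow_of_dvd (fun e => by rw [e, mul_zero] at hm; omega) (by rw [hordv, hm]; exact dvd_mul_left _ _), hordv, hm,
              Nat.mul_div_cancel _ (Nat.pos_of_ne_zero fun e => by rw [e, mul_zero] at hm; omega)]
          have hz0 : (W : F) ^ r ≠ 0 := pow_ne_zero _ W.ne_zero
          have hWr : (W : F) ^ r ≠ 1 := fun e => by
            have := orderOf_dvd_of_pow_eq_one (show W ^ r = 1 from Units.ext (by simpa using e))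
            rw [hWord] at this
            exact absurd (Nat.le_of_dvd hr.pos this) (by have := hr.two_le; nlinarith)
          have hWrr : ((W : F) ^ r) ^ r = 1 := by
            rw [← pow_mul, ← pow_two, ← Units.val_pow_eq_pow_val, ← hWord, pow_orderOf_eq_one, Units.val_one]
          refine two (r - 1) (W : F) ((W : F) / (W : F) ^ r) ((W : F) ^ r) ?_ ?_ ?_ ?_ ?_ rfl ?_
          all_goals simp only [mul_one] at *
          · omega
          · omega
          · omega
          · intro e
            rw [eq_div_iff hz0] at e
            exact hWr (mul_left_cancel₀ W.ne_zero (e.trans (mul_one _).symm))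
          · rw [show r - (r - 1) = 1 by omega, pow_one, mul_div_assoc', ← pow_succ, show r - 1 + 1 = r by omega, div_self hz0]
          · rw [div_pow, hWrr, div_one]
        · have hk0 : 1 ≤ k := Nat.one_le_iff_ne_zero.2 fun e => by rw [e, mul_zero] at hn; omega
          by_cases h3 : r = 3
          · subst h3
            have hk3 : 3 ≤ k := by
              by_contra hlt
              interval_cases k
              · exact hk1 ⟨rfl, Or.inl rfl⟩
              · exact hgap ⟨rfl, rfl⟩
            refine two 3 ω 1 1 (by omega) (by omega) (by omega) hω1 (by rw [one_pow, mul_one, hωr]) hωr (one_pow _)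
          have hr5 : 5 ≤ r := by
            rcases hrodd with ⟨m, rfl⟩
            have := hr.two_le
            omega
          have hn7 : 7 ≤ r * k := by
            by_contra hlt
            have hk : k = 1 := by nlinarith
            subst hk
            have h6 : r ≤ 6 := by omega
            have h55 : r = 5 := by
              rcases (show r = 5 ∨ r = 6 by omega) with h | h
              · exact h
              · rw [h] at hr; exact absurd hr (by norm_num)
            exact hk1 ⟨rfl, Or.inr h55⟩
          obtain ⟨m, hm⟩ := hrodd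
          set C := ω ^ m
          have hC1 : C ≠ 1 := fun e => by have := Nat.le_of_dvd (by omega) (hωk m e); omega
          have hBC : ω ≠ C := fun e => by
            have hm1 : ω ^ (m - 1) = 1 := mul_left_cancel₀ (w.ne_zero) (by
              rw [← pow_succ', show m - 1 + 1 = m by omega, mul_one]; exact e.symm)
            have := Nat.le_of_dvd (by omega) (hωk _ hm1); omega
          let d : Fin (r * k) → F := fun j => if j = i0 then ω else if (j : ℕ) < 3 then C else 1
          let i2 : Fin (r * k) := ⟨2, by omega⟩
          have hfA : (Finset.univ.filter fun l => d l = ω) = {i0} := by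
            ext l; simp only [Finset.mem_filter, Finset.mem_univ, true_and, Finset.mem_singleton, d]
            split_ifs with h1 h3'
            · simp [h1]
            · simp only [h1, iff_false]; exact Ne.symm hBC
            · simp only [h1, iff_false]; exact Ne.symm hω1
          have hfC : (Finset.univ.filter fun l => d l = C) = {i1, i2} := by
            ext l; simp only [Finset.mem_filter, Finset.mem_univ, true_and, Finset.mem_insert, Finset.mem_singleton, d, i0, i1, i2, Fin.ext_iff]
            split_ifs with h1 h3'
            · simp [hBC, h1]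
            · simp; omega
            · simp [Ne.symm hC1]; omega
          have hfB : (Finset.univ.filter fun l => d l = 1).card = r * k - 3 := by
            have hsub : (Finset.univ.filter fun l => d l = 1) = Finset.univ.filter fun l : Fin (r * k) => ¬ (l : ℕ) < 3 := by
              refine Finset.filter_congr fun l _ => ?_
              simp only [d, i0, Fin.ext_iff]
              split_ifs with h1 h3'
              · simp [hω1]; omega
              · simp [hC1, h3']
              · simp [h3']
            have h3c : (Finset.univ.filter fun l : Fin (r * k) => (l : ℕ) < 3).card = 3 := by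
              rw [Fin.card_filter_val_lt, min_eq_right (by omega)]
            have := Finset.card_filter_add_card_filter_not (s := Finset.univ) (fun l : Fin (r * k) => (l : ℕ) < 3)
            rw [h3c, Finset.card_univ, Fintype.card_fin] at this
            rw [hsub]; omega
          have hval : ∀ j, d j = ω ∨ d j = C ∨ d j = 1 := fun j => by simp only [d]; split_ifs <;> simp
          refine use_diag d 1 ?_ (fun j => ?_) ⟨i0, i1, ?_⟩ fun j k' hjk => ?_
          · rw [← Finset.prod_filter_mul_prod_filter_not Finset.univ (fun l => d l = ω),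
              ← Finset.prod_filter_mul_prod_filter_not (Finset.univ.filter fun l => ¬ d l = ω) (fun l => d l = C)]
            rw [Finset.prod_congr rfl (g := fun _ => ω) fun l hl => (Finset.mem_filter.1 hl).2, hfA,
              Finset.prod_const, Finset.card_singleton, pow_one]
            rw [show ((Finset.univ.filter fun l => ¬ d l = ω).filter fun l => d l = C) = {i1, i2} by
              rw [← hfC, Finset.filter_filter]
              exact Finset.filter_congr fun l _ => ⟨fun h => h.2, fun h => ⟨by rw [h]; exact Ne.symm hBC, h⟩⟩]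
            rw [Finset.prod_congr rfl (g := fun _ => C) (s₁ := {i1, i2}) fun l hl => (Finset.mem_filter.1 ((Finset.ext_iff.1 hfC l).2 hl)).2,
              Finset.prod_const, Finset.card_pair (by simp [i1, i2, Fin.ext_iff]),
              Finset.prod_eq_one fun l hl => ?_, mul_one, ← pow_mul, ← pow_succ', ← mul_comm 2, ← hm, hωr]
            simp only [Finset.mem_filter] at hl
            rcases hval l with e | e | e
            · exact absurd e hl.1.2
            · exact absurd e hl.2
            · exact e
          · rcases hval j with e | e | e <;> rw [e]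
            · exact hωr
            · rw [← pow_mul, mul_comm, pow_mul, hωr, one_pow]
            · exact one_pow r
          · simp [d, i0, i1, Fin.ext_iff, hBC]
          · rcases hval j with e | e | e <;> rcases hval k' with e' | e' | e' <;> rw [e, e'] at hjk ⊢ <;>
              simp only [hfA, hfC, hfB, Finset.card_singleton] at hjk <;>
              (try rw [Finset.card_pair (by simp [i1, i2, Fin.ext_iff])] at hjk) <;> omega
      · refine two (n - 1) ω ((ω ^ (n - 1))⁻¹) 1 (by omega) (by omega) (by omega) ?_ ?_ hωr ?_
        · intro e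
          refine hrn (hωk n ?_)
          rw [show n = n - 1 + 1 by omega, pow_succ']
          nth_rewrite 1 [e]
          exact inv_mul_cancel₀ (pow_ne_zero _ w.ne_zero)
        · rw [show n - (n - 1) = 1 by omega, pow_one, mul_inv_cancel₀ (pow_ne_zero _ w.ne_zero)]
        · rw [inv_pow, ← pow_mul, mul_comm, pow_mul, hωr, one_pow, inv_one]
    -- no roots of unity of order `r`
    have hr1 : ¬ r ∣ q - 1 := fun hd => hi1 (Nat.dvd_one.1 ((hpw 1).1 (by simpa using hd)))
    have hroot : ∀ c : F, c ^ r = 1 → c = 1 := by
      intro c hc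
      by_contra hc1
      have hc0 : c ≠ 0 := fun e => by rw [e, zero_pow hr.pos.ne'] at hc; exact zero_ne_one hc
      have hord := orderOf_eq_prime (G := Fˣ) (x := Units.mk0 c hc0) (Units.ext (by simpa using hc))
        (fun e => hc1 (by simpa using congrArg Units.val e))
      refine hr1 ?_
      have := orderOf_dvd_natCard (Units.mk0 c hc0)
      rwa [hord, Nat.card_units, Nat.card_eq_fintype_card (α := F), hq] at this
    have free : ∀ (x : Matrix (Fin n) (Fin n) F), x ^ r = 1 → (x - 1).rank ≠ 0 →
        ∃ J, n - (x - 1).rank + Linear.OrthFree.cc i * J = n ∧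
          ((x - 1).rank = n → (Linear.OrthSpaces.Plus QF (⊤ : Submodule F (Fin n → F)) ↔ (Odd i ∨ Even J))) := by
      intro x hx hxk
      have hd : x.det = 1 := hroot _ (by rw [← Matrix.det_pow, hx, Matrix.det_one])
      obtain ⟨g, -, c, -, hcr, hcQ, hpow⟩ := use_x x hd 1 (by rw [one_smul, hx]) (fun l e => by
        have hl : l = 1 := hroot l (by
          have h' := hx
          rw [e, smul_pow, one_pow] at h'
          have h0 := congrFun (congrFun h' i0) i0
          simpa using h0)
        exact hxk (by rw [e, hl, one_smul, sub_self, Matrix.rank_zero]))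
      rw [mul_one] at hcr
      obtain rfl := hroot c hcr
      set H := ((g⁻¹ : GL (Fin n) F) : Matrix (Fin n) (Fin n) F) * x * (g : Matrix (Fin n) (Fin n) F) with hH
      have hT : (Matrix.toLin' H) ^ r = 1 := by rw [← Matrix.toLin'_pow, hpow, one_smul, Matrix.toLin'_one]; rfl
      have hTQ : ∀ v, QF (Matrix.toLin' H v) = QF v := fun v => by rw [Matrix.toLin'_apply, hcQ, one_mul]
      have hrk : (H - 1).rank = (x - 1).rank := by
        have := GeomClasses.SympFormDerange.rank_conj (P := (g : Matrix (Fin n) (Fin n) F))
          (Q := ((g⁻¹ : GL (Fin n) F) : Matrix (Fin n) (Fin n) F)) (g := H) (x := x)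
          (by rw [← Units.val_mul, mul_inv_cancel, Units.val_one]) hH (1 : F)
        simpa using this
      have hker : Module.finrank F (LinearMap.ker (Matrix.toLin' H - 1)) = n - (x - 1).rank := by
        have h1 := LinearMap.finrank_range_add_finrank_ker (Matrix.toLin' (H - 1))
        rw [Module.finrank_fin_fun, map_sub, Matrix.toLin'_one] at h1
        have h2' : Module.finrank F (LinearMap.range (Matrix.toLin' H - LinearMap.id)) = (H - 1).rank := by
          rw [Matrix.rank, ← Matrix.toLin'_apply', map_sub, Matrix.toLin'_one]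
        rw [h2', hrk] at h1
        show Module.finrank F (LinearMap.ker (Matrix.toLin' H - LinearMap.id)) = _
        omega
      obtain ⟨R, hR, L, J, -, -, -, -, hsup, hdim, -, -, -, -, -, htyp, -⟩ := Linear.OrthFree.structure_of hS hQF hT hTQ
      rw [hker, Module.finrank_fin_fun] at hdim
      refine ⟨J, hdim, fun hfull => ?_⟩
      have hbot : LinearMap.ker (Matrix.toLin' H - 1) = ⊥ := Submodule.finrank_eq_zero.1 (by rw [hker, hfull]; omega)
      rw [hbot, bot_sup_eq] at hsup
      subst hsup
      exact htyp
    have hrel : r ∣ (Cfsg.Geo.quadSimilarityGroup ⇑QF).relIndex (Cfsg.Geo.specialLinear (Fin n) F) := hΩ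
    have hin : i ≤ n := by
      have h1 : r ∣ Nat.card (Cfsg.Geo.specialLinear (Fin n) F) * (q - 1) :=
        (hrel.trans (Subgroup.index_dvd_card _)).mul_right _
      have hcard : Nat.card (Cfsg.Geo.specialLinear (Fin n) F) * (q - 1) = ∏ i ∈ Finset.range n, (q ^ n - q ^ i) := by
        rw [← GeomClasses.SubfieldInvolution.card_SL (F := F) hn1 hq]
        congr 1
        exact Nat.card_congr
          { toFun := fun g => (⟨((g : GL (Fin n) F) : Matrix (Fin n) (Fin n) F), hsl.1 g.2⟩ : Matrix.SpecialLinearGroup (Fin n) F)
            invFun := fun s => ⟨Matrix.SpecialLinearGroup.toGL s, hsl.2 s.2⟩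
            left_inv := fun g => Subtype.ext (Units.ext rfl)
            right_inv := fun s => rfl }
      obtain ⟨N, hN⟩ := GeomClasses.OrthPreserveDerange.prod_gl q n
      rw [hcard, hN] at h1
      obtain ⟨j, hj, hj'⟩ := (hr.prime.dvd_finsetProd_iff _).1 ((hr.dvd_mul.1 h1).resolve_left fun hd => hrq (hr.dvd_of_dvd_pow hd))
      rw [Finset.mem_range] at hj
      have := Nat.le_of_dvd (by omega) ((hpw _).1 hj')
      omega
    rcases Nat.even_or_odd i with hie | hio
    · have hbad : i ∣ n ∧ ¬ (Linear.OrthSpaces.Plus QF (⊤ : Submodule F (Fin n → F)) ↔ Even (n / i)) := by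
        by_contra hh
        refine GeomClasses.OrthPreserveDerange.not_dvd_relIndex hQF hn1 hq hr2 hrq rfl hie (fun hd => ?_) hrel
        by_contra hh'
        exact hh ⟨hd, hh'⟩
      obtain ⟨⟨k, rfl⟩, hbad⟩ := hbad
      have hk : 0 < k := Nat.pos_of_mul_pos_left (a := i) (by omega)
      obtain ⟨T, hTr, hTk⟩ := GeomClasses.SympFormDerange.exists_small (n := i) hq hrq hrF hi0 le_rfl ((hpw i).2 dvd_rfl) hmin
      have hT1 : (T - 1).det ≠ 0 := fun e => by
        obtain ⟨v, hv, hv'⟩ := Matrix.exists_mulVec_eq_zero_iff.2 e
        have h1 := LinearMap.finrank_range_add_finrank_ker (T - 1).mulVecLin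
        rw [Module.finrank_fin_fun] at h1
        have h3 : Module.finrank F (LinearMap.ker (T - 1).mulVecLin) ≠ 0 := fun e' => by
          have h4 : v ∈ LinearMap.ker (T - 1).mulVecLin := hv'
          rw [Submodule.finrank_eq_zero.1 e', Submodule.mem_bot] at h4
          exact hv h4
        have h5 : Module.finrank F (LinearMap.range (T - 1).mulVecLin) = i := hTk
        omega
      set R := Matrix.reindexAlgEquiv F F (finProdFinEquiv : Fin i × Fin k ≃ Fin (i * k))
      set x := R (Matrix.blockDiagonal fun _ : Fin k => T)
      have hx : x ^ r = 1 := by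
        rw [← map_pow, ← Matrix.blockDiagonal_pow,
          show (fun _ : Fin k => T) ^ r = 1 from funext fun _ => by rw [Pi.pow_apply, hTr]; rfl, Matrix.blockDiagonal_one, map_one]
      have hx1 : (x - 1).rank = i * k := by
        have he : x - 1 = R (Matrix.blockDiagonal fun _ : Fin k => (T - 1)) := by
          rw [show (fun _ : Fin k => T - 1) = (fun _ : Fin k => T) - 1 from rfl, Matrix.blockDiagonal_sub, Matrix.blockDiagonal_one,
            map_sub, map_one]
        rw [Matrix.rank_of_isUnit, Fintype.card_fin]
        rw [Matrix.isUnit_iff_isUnit_det, isUnit_iff_ne_zero, he, Matrix.det_reindexAlgEquiv, Matrix.det_blockDiagonal,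
          Finset.prod_const]
        exact pow_ne_zero _ hT1
      obtain ⟨J, hJ, htyp⟩ := free x hx (by rw [hx1]; omega)
      rw [hx1, Nat.sub_self, zero_add] at hJ
      have hJk : J = k := by
        rw [Linear.OrthFree.cc, if_pos hie] at hJ
        exact Nat.eq_of_mul_eq_mul_left hi0 hJ
      refine hbad ?_
      rw [htyp hx1, Nat.mul_div_cancel_left _ hi0, hJk]
      simp [Nat.not_odd_iff_even.2 hie]
    · obtain ⟨x, hx, hxk⟩ := GeomClasses.SympFormDerange.exists_small (n := n) hq hrq hrF hi0 hin ((hpw i).2 dvd_rfl) hmin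
      obtain ⟨J, hJ, -⟩ := free x hx (by rw [hxk]; omega)
      rw [hxk, Linear.OrthFree.cc, if_neg (Nat.not_even_iff_odd.2 hio)] at hJ
      rcases J with _ | J
      · omega
      · rw [mul_add, mul_one] at hJ; omega
  · intro hrhs x hxs ⟨z, hz⟩ hns
    rw [Units.val_pow_eq_pow_val] at hz
    rcases hrhs with rfl | ⟨hr35, hnr, hv⟩
    · exact GeomClasses.OrthPreserve.conj_two h2 hn1 hQF x (z := z) (by rw [← pow_two]; exact hz)
    subst n
    set X := (x : Matrix (Fin r) (Fin r) F)
    have hdetx : X.det = 1 := hsl.1 hxs
    have hrodd : Odd r := by rcases hr35 with rfl | rfl <;> decide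
    have hr1 : r ∣ q - 1 := dvd_of_one_le_padicValNat (by omega)
    have hzr : z ^ r = 1 := by
      have := congrArg Matrix.det hz
      rwa [Matrix.det_pow, hdetx, one_pow, Matrix.det_smul, Matrix.det_one, Fintype.card_fin, mul_one, eq_comm] at this
    have hz1 : z = 1 := by
      by_contra hz1
      have hnoroot : ∀ c : F, c ^ r ≠ z := by
        intro c hc
        have hc0 : c ≠ 0 := fun e => by
          rw [e, zero_pow hr.pos.ne'] at hc; rw [← hc, zero_pow hr.pos.ne'] at hzr; exact zero_ne_one hzr
        have hord : orderOf (Units.mk0 c hc0) = r ^ (1 + 1) := by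
          refine orderOf_eq_prime_pow (fun e => hz1 ?_) (Units.ext ?_)
          · have := congrArg Units.val e
            simpa [hc] using this
          · rw [Units.val_pow_eq_pow_val, Units.val_mk0, show r ^ (1 + 1) = r * r by ring, pow_mul, hc, hzr, Units.val_one]
        have hd := orderOf_dvd_natCard (Units.mk0 c hc0)
        rw [hord, Nat.card_units, Nat.card_eq_fintype_card (α := F), hq, padicValNat_dvd_iff_le (by omega), hv] at hd
        omega
      have hirr : Irreducible (Polynomial.X ^ r - Polynomial.C z : Polynomial F) := X_pow_sub_C_irreducible_of_prime hr hnoroot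
      have hmin : minpoly F X = Polynomial.X ^ r - Polynomial.C z := by
        refine (minpoly.eq_of_irreducible_of_monic hirr ?_ (Polynomial.monic_X_pow_sub_C z hr.pos.ne')).symm
        rw [map_sub, map_pow, Polynomial.aeval_X, Polynomial.aeval_C, hz, Algebra.algebraMap_eq_smul_one, sub_self]
      have hch : X.charpoly = Polynomial.X ^ r - Polynomial.C z := by
        refine Polynomial.eq_of_monic_of_dvd_of_natDegree_le (Polynomial.monic_X_pow_sub_C z hr.pos.ne') X.charpoly_monic
          (hmin ▸ Matrix.minpoly_dvd_charpoly X) ?_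
        rw [Matrix.charpoly_natDegree_eq_dim, Polynomial.natDegree_X_pow_sub_C, Fintype.card_fin]
      have hd := Matrix.det_eq_sign_charpoly_coeff X
      rw [hdetx, hch, Fintype.card_fin, hrodd.neg_one_pow] at hd
      simp [hr.pos.ne', Ne.symm hr.pos.ne'] at hd
      exact hz1 hd.symm
    rw [hz1, one_smul] at hz
    obtain ⟨w, hw⟩ := exists_prime_orderOf_dvd_card' (G := Fˣ) r (by
      rwa [Nat.card_units, Nat.card_eq_fintype_card (α := F), hq])
    have hω : IsPrimitiveRoot (w : F) r := by
      rw [IsPrimitiveRoot.coe_units_iff, ← hw]; exact IsPrimitiveRoot.orderOf w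
    have hrF : (r : F) ≠ 0 := fun e => by
      have hrp : p = r := (Nat.prime_dvd_prime_iff_eq hp hr).1 ((CharP.cast_eq_zero_iff F p r).1 e)
      have h1 : r ∣ q := by rw [hnn, hrp]; exact dvd_pow_self _ f₀.ne_zero
      have h' := Nat.dvd_sub h1 hr1
      rw [show q - (q - 1) = 1 by omega] at h'
      exact hr.one_lt.ne' (Nat.dvd_one.1 h')
    obtain ⟨b, e, hb⟩ := GeomClasses.OrthPreserveDerange.exists_eigen_basis hr.pos hrF hω hz
    have hsum : (∑ j, (e j : ZMod r)) = 0 := by
      rw [← Nat.cast_sum, ZMod.natCast_eq_zero_iff, ← hω.pow_eq_one_iff_dvd, ← Finset.prod_pow_eq_pow_sum]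
      rw [← hdetx, ← LinearMap.det_toLin', ← LinearMap.det_toMatrix b,
        show LinearMap.toMatrix b b (Matrix.toLin' X) = Matrix.diagonal fun j => (w : F) ^ e j from ?_, Matrix.det_diagonal]
      ext i j
      rw [LinearMap.toMatrix_apply, Matrix.toLin'_apply, hb, map_smul, Finsupp.smul_apply, b.repr_self,
        Finsupp.single_apply, Matrix.diagonal_apply]
      by_cases h : i = j
      · subst h; simp
      · simp [h, Ne.symm h]
    obtain ⟨f, hf, m, hm⟩ := GeomClasses.OrthPairing.exists_pairing hr35 (fun j => (e j : ZMod r)) hsum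
    refine GeomClasses.OrthPreserve.conj_of_pairing h2 hrodd hQF b hb f hf (m := (w : F) ^ m.val)
      (pow_ne_zero _ w.ne_zero) fun j => ?_
    rw [← pow_add, ← hm j, ← Nat.cast_add, ZMod.val_natCast]
    exact pow_eq_pow_mod _ hω.pow_eq_one

end Cfsg.Agent.S5981
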