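import Cfsg.Statements.S5982
import Cfsg.Agent.GeomClasses.UnitaryPreserveDerange
import Cfsg.Agent.GeomClasses.OrthPairing
import Cfsg.Agent.GeomClasses.QuadExtInvolution

set_option autoImplicit false
open scoped MatrixGroups
open Cfsg Matrix

namespace Cfsg.Agent.S5982

/-- Elements of prime order of PSL_n(q), q = q₀², and the subgroups of unitary type. Here `T = PSL_n(F)` for a field `F` with `q = q₀²` elements (`n ≥ 3`), `f` is a non-degenerate unitary form on `F^n` for the involutory automorphism `x ↦ x^{q₀}`, and `H` is the subgroup of matrices of determinant 1 that preserve `f` up to a scalar — a subgroup of type GU_n(q₀) (maximality is not assumed); Ω is the set of cosets of `H` in `T`, so an element of `T` of prime order `r` (a matrix `x` of determinant 1 with `x^r` scalar, `x` not scalar) fixes a point of Ω exactly when some conjugate of `x` by a matrix of determinant 1 preserves `f` up to a scalar. Let `r` be a prime dividing the index of `H`, with `r = 2` or `r` different from the characteristic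 `p`, and with `(n, r) ≠ (6, 3)`. Then every element of `T` of order `r` fixes a point of Ω if and only if either `r = 2` and (`p = 2` or `(n)_2 ≤ (q − 1)_2`), or `r ∈ {3, 5}`, `n = r` and `(q₀ − 1)_r = r`. (Odd `r = p` and the case `(n, r) = (6, 3)` are not covered by this statement.) -/
theorem result {F : Type*} [Field F] [Fintype F] {p : ℕ} [Fact p.Prime] [CharP F p] {q : ℕ} (hq : Fintype.card F = q)
    (q₀ : ℕ) (hq₀ : q = q₀ ^ 2) (n : ℕ) (hn : 3 ≤ n) (f : (Fin n → F) → (Fin n → F) → F) (hf : Cfsg.Geo.IsUnitaryFormPow q₀ f)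
    (r : ℕ) [Fact r.Prime] (hr : r = 2 ∨ r ≠ p) (hgap : ¬ (n = 6 ∧ r = 3))
    (hΩ : r ∣ (Cfsg.Geo.similarityGroup f).relIndex (Cfsg.Geo.specialLinear (Fin n) F)) :
    (∀ x ∈ Cfsg.Geo.specialLinear (Fin n) F, (∃ z : F, ((x ^ r : GL (Fin n) F) : Matrix (Fin n) (Fin n) F) = z • (1 : Matrix (Fin n) (Fin n) F)) →
      (∀ z : F, (x : Matrix (Fin n) (Fin n) F) ≠ z • (1 : Matrix (Fin n) (Fin n) F)) →
      ∃ g ∈ Cfsg.Geo.specialLinear (Fin n) F, g⁻¹ * x * g ∈ Cfsg.Geo.similarityGroup f) ↔
    ((r = 2 ∧ (p = 2 ∨ padicValNat 2 n ≤ padicValNat 2 (q - 1))) ∨ ((r = 3 ∨ r = 5) ∧ n = r ∧ padicValNat r (q₀ - 1) = 1)) := by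
  classical
  subst hq₀
  have hr0 := (Fact.out : r.Prime)
  have hp := (Fact.out : p.Prime)
  have hq2 := Cfsg.Agent.Forms.two_le_q hq
  have hn1 : 1 ≤ n := by omega
  have hq1 : 4 ≤ q₀ ^ 2 := by nlinarith
  obtain ⟨f₀, -, hf₀⟩ := FiniteField.card F p
  have hnn : q₀ ^ 2 = p ^ (f₀ : ℕ) := hq.symm.trans hf₀
  -- transport to the standard form
  have hbij : Function.Bijective (Cfsg.Agent.Forms.frobQ hq) :=
    Function.Involutive.bijective (fun a => Cfsg.Agent.Forms.frobQ_frobQ hq a)
  let σ : F ≃+* F := RingEquiv.ofBijective (Cfsg.Agent.Forms.frobQ hq) hbij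
  have hfu : Cfsg.Geo.IsUnitaryForm σ f :=
    ⟨fun e => Cfsg.Agent.Forms.frobQ_ne_id hq (RingHom.ext fun a => DFunLike.congr_fun e a),
      fun a => Cfsg.Agent.Forms.frobQ_frobQ hq a, hf.add_left, hf.smul_left, hf.herm, hf.nondegenerate⟩
  obtain ⟨q', P, hF', hP⟩ := GeomClasses.Unitary.exists_congr_std hfu
  obtain rfl : q₀ = q' := Nat.pow_left_injective two_ne_zero (hq.symm.trans hF')
  have hmem : ∀ y : GL (Fin n) F, y ∈ Cfsg.Geo.similarityGroup f ↔
      P * y * P⁻¹ ∈ Cfsg.Geo.similarityGroup (Cfsg.hermForm n F q₀) := by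
    intro y
    have key : ∀ v, ((P * y * P⁻¹ : GL (Fin n) F) : Matrix (Fin n) (Fin n) F) *ᵥ ((P : Matrix (Fin n) (Fin n) F) *ᵥ v)
        = (P : Matrix (Fin n) (Fin n) F) *ᵥ ((y : Matrix (Fin n) (Fin n) F) *ᵥ v) := fun v => by
      rw [Matrix.mulVec_mulVec, Matrix.mulVec_mulVec, ← Units.val_mul, ← Units.val_mul, inv_mul_cancel_right]
    have hu : ∀ u, (P : Matrix (Fin n) (Fin n) F) *ᵥ (((P⁻¹ : GL (Fin n) F) : Matrix (Fin n) (Fin n) F) *ᵥ u) = u :=
      fun u => by rw [Matrix.mulVec_mulVec, ← Units.val_mul, mul_inv_cancel, Units.val_one, Matrix.one_mulVec]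
    constructor
    · rintro ⟨c, hc⟩
      refine ⟨c, fun u v => ?_⟩
      have h1 := hc (((P⁻¹ : GL (Fin n) F) : Matrix (Fin n) (Fin n) F) *ᵥ u) (((P⁻¹ : GL (Fin n) F) : Matrix (Fin n) (Fin n) F) *ᵥ v)
      rwa [hP, hP, ← key, ← key, hu, hu] at h1
    · rintro ⟨c, hc⟩
      refine ⟨c, fun u v => ?_⟩
      rw [hP, hP, ← key, ← key]
      exact hc _ _
  constructor
  · intro h
    have use_x : ∀ x : Matrix (Fin n) (Fin n) F, x.det = 1 → ∀ z : F, x ^ r = z • 1 → (∀ z : F, x ≠ z • 1) →
        ∃ (g : GL (Fin n) F) (hx : x.det ≠ 0) (c : F),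
          g⁻¹ * Matrix.GeneralLinearGroup.mkOfDetNeZero x hx * g ∈ Cfsg.Geo.similarityGroup (Cfsg.hermForm n F q₀) ∧
          c ^ q₀ = c ∧ c ^ r = z * z ^ q₀ ∧
          (∀ u v, Cfsg.hermForm n F q₀ ((((g⁻¹ : GL (Fin n) F) : Matrix (Fin n) (Fin n) F) * x * (g : Matrix (Fin n) (Fin n) F)) *ᵥ u)
            ((((g⁻¹ : GL (Fin n) F) : Matrix (Fin n) (Fin n) F) * x * (g : Matrix (Fin n) (Fin n) F)) *ᵥ v) =
              c * Cfsg.hermForm n F q₀ u v) ∧
          (((g⁻¹ : GL (Fin n) F) : Matrix (Fin n) (Fin n) F) * x * (g : Matrix (Fin n) (Fin n) F)) ^ r = z • 1 := by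
      intro x hdet z hz hns
      have hx0 : x.det ≠ 0 := by rw [hdet]; exact one_ne_zero
      obtain ⟨g, -, hg⟩ := h (Matrix.GeneralLinearGroup.mkOfDetNeZero x hx0) (GeomClasses.OrthPreserve.mem_sl.2 hdet)
        ⟨z, by rw [Units.val_pow_eq_pow_val]; exact hz⟩ hns
      have hg' : (g * P⁻¹)⁻¹ * Matrix.GeneralLinearGroup.mkOfDetNeZero x hx0 * (g * P⁻¹) ∈
          Cfsg.Geo.similarityGroup (Cfsg.hermForm n F q₀) := by
        have h' := (hmem _).1 hg
        rwa [show P * (g⁻¹ * Matrix.GeneralLinearGroup.mkOfDetNeZero x hx0 * g) * P⁻¹ =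
          (g * P⁻¹)⁻¹ * Matrix.GeneralLinearGroup.mkOfDetNeZero x hx0 * (g * P⁻¹) by group] at h'
      set G := g * P⁻¹
      obtain ⟨c, hc⟩ := id hg'
      have hpow : (((G⁻¹ : GL (Fin n) F) : Matrix (Fin n) (Fin n) F) * x * (G : Matrix (Fin n) (Fin n) F)) ^ r = z • 1 := by
        rw [Units.conj_pow', hz, Matrix.mul_smul, Matrix.smul_mul, mul_one, ← Units.val_mul, inv_mul_cancel, Units.val_one]
      exact ⟨G, hx0, c, hg', (GeomClasses.UnitaryPreserveDerange.multiplier hq hn1 hc hpow).1,
        (GeomClasses.UnitaryPreserveDerange.multiplier hq hn1 hc hpow).2, hc, hpow⟩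
    by_contra hneg
    push_neg at hneg
    obtain ⟨hneg2, hneg⟩ := hneg
    by_cases hr2 : r = 2
    · subst hr2
      obtain ⟨hp2, hv⟩ := hneg2 rfl
      have hodd : Odd (q₀ ^ 2) := by rw [hnn]; exact (hp.odd_of_ne_two hp2).pow
      have hq0odd : Odd q₀ := (Nat.odd_pow_iff two_ne_zero).1 hodd
      have h2 : (2 : F) ≠ 0 := Cfsg.Agent.Forms.two_ne_zero_of_odd hq hodd
      have hchar : ringChar F ≠ 2 := by rw [ringChar.eq F p]; exact hp2
      set a := padicValNat 2 (q₀ ^ 2 - 1) with ha_def
      have ha : 1 ≤ a := one_le_padicValNat_of_dvd (by omega) (by obtain ⟨t, ht⟩ := hodd; exact ⟨t, by omega⟩)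
      have hn2 : 2 ^ (a + 1) ∣ n := (padicValNat_dvd_iff_le (by omega)).2 hv
      obtain ⟨k, rfl⟩ : 2 ∣ n := (dvd_pow_self 2 (by omega)).trans hn2
      have hk : 2 ^ a ∣ k := Nat.dvd_of_mul_dvd_mul_left two_pos (by rwa [← pow_succ'])
      obtain ⟨g₁, hg₁⟩ := IsCyclic.exists_generator (α := Fˣ)
      have hord : orderOf g₁ = q₀ ^ 2 - 1 := by
        rw [orderOf_eq_card_of_forall_mem_zpowers hg₁, Nat.card_units, Nat.card_eq_fintype_card (α := F), hq]
      obtain ⟨t, ht⟩ : 2 ^ a ∣ q₀ ^ 2 - 1 := pow_padicValNat_dvd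
      have ht0 : t ≠ 0 := fun e => by rw [e, mul_zero] at ht; omega
      set W := g₁ ^ t with hW
      have hWord : orderOf W = 2 ^ a := by
        rw [hW, orderOf_pow_of_dvd ht0 (by rw [hord, ht]; exact dvd_mul_left _ _), hord, ht,
          Nat.mul_div_cancel _ (Nat.pos_of_ne_zero ht0)]
      set z : F := -(W : F) with hz_def
      have hzk : (-z) ^ k = 1 := by
        obtain ⟨s, rfl⟩ := hk
        rw [hz_def, neg_neg, pow_mul, ← Units.val_pow_eq_pow_val, ← hWord, pow_orderOf_eq_one, Units.val_one, one_pow]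
      let R := Matrix.reindexAlgEquiv F F (finProdFinEquiv : Fin 2 × Fin k ≃ Fin (2 * k))
      set G₀ : Fin k → Matrix (Fin 2) (Fin 2) F := fun _ => !![0, z; 1, 0] with hG₀
      set x := R (Matrix.blockDiagonal G₀) with hx_def
      have hdet : x.det = 1 := by
        rw [hx_def, Matrix.det_reindexAlgEquiv, Matrix.det_blockDiagonal, hG₀, Finset.prod_const, Finset.card_univ,
          Fintype.card_fin, Matrix.det_fin_two_of, zero_mul, mul_one, zero_sub, hzk]
      have hxx : x ^ 2 = z • 1 := by
        rw [hx_def, ← map_pow, ← Matrix.blockDiagonal_pow, show G₀ ^ 2 = z • (1 : Fin k → Matrix (Fin 2) (Fin 2) F) from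
          funext fun i => by ext u v; fin_cases u <;> fin_cases v <;> simp [hG₀, pow_two],
          Matrix.blockDiagonal_smul, Matrix.blockDiagonal_one, map_smul, map_one]
      have hns : ∀ l : F, x ≠ l • 1 := fun l e => by
        have h0 := congrFun (congrFun e (finProdFinEquiv (1, (⟨0, by omega⟩ : Fin k)))) (finProdFinEquiv (0, (⟨0, by omega⟩ : Fin k)))
        have hne : finProdFinEquiv ((1 : Fin 2), (⟨0, by omega⟩ : Fin k)) ≠ finProdFinEquiv ((0 : Fin 2), (⟨0, by omega⟩ : Fin k)) :=
          fun e => by simpa using congrArg Prod.fst (finProdFinEquiv.injective e)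
        rw [hx_def] at h0
        simp [R, Matrix.reindexAlgEquiv_apply, Matrix.blockDiagonal_apply, hG₀, Matrix.one_apply, hne] at h0
      obtain ⟨g, -, c, -, hcq, hcz, -, -⟩ := use_x x hdet z hxx hns
      have hz0 : z ≠ 0 := neg_ne_zero.2 W.ne_zero
      have hc0 : c ≠ 0 := fun e => by
        rw [e, zero_pow two_ne_zero, eq_comm] at hcz
        exact mul_ne_zero hz0 (pow_ne_zero _ hz0) hcz
      have hc1 : c ^ (q₀ - 1) = 1 := mul_left_cancel₀ hc0 (by
        rw [← pow_succ', show q₀ - 1 + 1 = q₀ by omega, hcq, mul_one])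
      have hsq : IsSquare z := by
        rw [FiniteField.isSquare_iff hchar hz0, hq]
        obtain ⟨s, hs⟩ := hq0odd
        have e1 : q₀ ^ 2 / 2 = (q₀ + 1) * ((q₀ - 1) / 2) := by
          rw [hs, show (2 * s + 1 - 1) / 2 = s by omega]
          have : (2 * s + 1) ^ 2 = 2 * ((2 * s + 1 + 1) * s) + 1 := by ring
          omega
        rw [e1, pow_mul, pow_succ', ← hcz, ← pow_mul, show 2 * ((q₀ - 1) / 2) = q₀ - 1 by omega, hc1]
      have hneg1 : IsSquare (-1 : F) := FiniteField.isSquare_neg_one_iff.2 (by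
        rw [hq, Nat.pow_mod]; rcases Nat.odd_iff.1 hq0odd, (show q₀ % 4 < 4 from Nat.mod_lt _ (by omega)) with ⟨h1, h4⟩
        have : q₀ % 4 = 1 ∨ q₀ % 4 = 3 := by omega
        rcases this with h' | h' <;> rw [h'] <;> norm_num)
      have hWsq : IsSquare (W : F) := by
        have := hneg1.mul hsq
        rwa [hz_def, neg_one_mul, neg_neg] at this
      obtain ⟨u, hu⟩ := hWsq
      have hu0 : u ≠ 0 := fun e => W.ne_zero (by rw [hu, e, mul_zero])
      have hWu : W = Units.mk0 u hu0 ^ 2 := Units.ext (by rw [hu, Units.val_pow_eq_pow_val, Units.val_mk0, pow_two])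
      have h1 : W ^ ((q₀ ^ 2 - 1) / 2) = 1 := by
        have h2dvd : 2 ∣ q₀ ^ 2 - 1 := (dvd_pow_self 2 (by omega)).trans ⟨t, ht⟩
        rw [hWu, ← pow_mul, Nat.mul_div_cancel' h2dvd, ← hord, hord]
        have := pow_card_eq_one' (G := Fˣ) (x := Units.mk0 u hu0)
        rwa [Nat.card_units, Nat.card_eq_fintype_card (α := F), hq] at this
      have h3 := orderOf_dvd_of_pow_eq_one h1
      rw [hWord] at h3
      have h2dvd : 2 ∣ q₀ ^ 2 - 1 := (dvd_pow_self 2 (by omega)).trans ⟨t, ht⟩
      have h4 : 2 ^ (a + 1) ∣ q₀ ^ 2 - 1 := by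
        rw [pow_succ', ← Nat.mul_div_cancel' h2dvd]
        exact mul_dvd_mul_left 2 h3
      exact (Nat.lt_irrefl a) ((padicValNat_dvd_iff_le (by omega)).1 h4 : a + 1 ≤ a)
    have hrp : r ≠ p := hr.resolve_left hr2
    have hrq : ¬ r ∣ q₀ := fun hd => hrp ((Nat.prime_dvd_prime_iff_eq hr0 hp).1
      (hr0.dvd_of_dvd_pow (hnn ▸ hd.trans (dvd_pow_self _ two_ne_zero))))
    have hrQ : ¬ r ∣ q₀ ^ 2 := fun hd => hrq (hr0.dvd_of_dvd_pow hd)
    have hrF : (r : F) ≠ 0 := fun hd => hrp ((Nat.prime_dvd_prime_iff_eq hp hr0).1 ((CharP.cast_eq_zero_iff F p r).1 hd)).symm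
    haveI : Fact (2 < r) := ⟨by have := hr0.two_le; omega⟩
    have hrodd : Odd r := hr0.odd_of_ne_two hr2
    set i := orderOf ((q₀ ^ 2 : ℕ) : ZMod r) with hidef
    obtain ⟨hi0, -⟩ := GeomClasses.SubspaceDerange.dvd_pow_sub_one hrQ hidef
    have hpw : ∀ j, r ∣ (q₀ ^ 2) ^ j - 1 ↔ i ∣ j := fun j => by
      rw [hidef, orderOf_dvd_iff_pow_eq_one, ← ZMod.natCast_eq_zero_iff, Nat.cast_sub (Nat.one_le_pow _ _ (by omega))]
      push_cast
      rw [sub_eq_zero]
    have hmin : ∀ k, 1 ≤ k → k < i → ¬ r ∣ (q₀ ^ 2) ^ k - 1 := fun k hk hki hd => by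
      have := Nat.le_of_dvd hk ((hpw k).1 hd); omega
    have hrel : r ∣ (Cfsg.Geo.similarityGroup (Cfsg.hermForm n F q₀)).relIndex (Cfsg.Geo.specialLinear (Fin n) F) := by
      haveI : (Cfsg.Geo.specialLinear (Fin n) F).Normal := MonoidHom.normal_ker _
      have h1 : (Cfsg.Geo.similarityGroup (Cfsg.hermForm n F q₀)).comap (MulAut.conj P).toMonoidHom = Cfsg.Geo.similarityGroup f := by
        ext y; exact (hmem y).symm
      have h2 : (Cfsg.Geo.specialLinear (Fin n) F).map (MulAut.conj P).toMonoidHom = Cfsg.Geo.specialLinear (Fin n) F :=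
        by
          ext y
          rw [Subgroup.mem_map]
          constructor
          · rintro ⟨u, hu, rfl⟩
            exact Subgroup.Normal.conj_mem inferInstance u hu P
          · intro hy
            refine ⟨P⁻¹ * y * P, by simpa using Subgroup.Normal.conj_mem inferInstance y hy P⁻¹, ?_⟩
            show MulAut.conj P _ = y
            rw [MulAut.conj_apply]; group
      rwa [← h1, Subgroup.relIndex_comap, h2] at hΩ
    have hE : (-(q₀ : ZMod r)) ^ i ≠ 1 := fun hE =>
      GeomClasses.UnitaryPreserveDerange.not_dvd_relIndex hq hn1 hr2 hrq hidef hE hrel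
    let i0 : Fin n := ⟨0, by omega⟩
    let i1 : Fin n := ⟨1, by omega⟩
    rcases eq_or_ne i 1 with hi1 | hi1
    · have hr1q : r ∣ q₀ ^ 2 - 1 := by simpa using (hpw 1).2 (hi1 ▸ dvd_refl _)
      have hqm : q₀ ^ 2 - 1 = (q₀ + 1) * (q₀ - 1) := by simpa using Nat.sq_sub_sq q₀ 1
      have hr1 : r ∣ q₀ - 1 := by
        refine (hr0.dvd_mul.1 (hqm ▸ hr1q)).resolve_left fun hd => hE ?_
        rw [← ZMod.natCast_eq_zero_iff, Nat.cast_add, Nat.cast_one] at hd
        rw [hi1, pow_one]
        linear_combination -hd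
      have fix : ∀ l : F, l ^ (q₀ - 1) = 1 → l ^ q₀ = l := fun l hl => by
        rw [show q₀ = q₀ - 1 + 1 by omega, pow_succ, hl, one_mul]
      obtain ⟨w, hw⟩ := exists_prime_orderOf_dvd_card' (G := Fˣ) r (by
        rwa [Nat.card_units, Nat.card_eq_fintype_card (α := F), hq])
      set ω := (w : F) with hω
      have hωr : ω ^ r = 1 := by rw [hω, ← Units.val_pow_eq_pow_val, ← hw, pow_orderOf_eq_one, Units.val_one]
      have hωk : ∀ k, ω ^ k = 1 → r ∣ k := fun k hk => hw ▸ orderOf_dvd_of_pow_eq_one (Units.ext (by simpa [hω] using hk))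
      have rfix : ∀ l : F, l ^ r = 1 → l ^ (q₀ - 1) = 1 := fun l hl => by
        obtain ⟨t, ht⟩ := hr1
        rw [ht, pow_mul, hl, one_pow]
      have use_diag : ∀ (d : Fin n → F) (z : F), ∏ j, d j = 1 → (∀ j, d j ^ r = z) → (∀ j, d j ^ (q₀ - 1) = 1) →
          (∃ j k, d j ≠ d k) →
          (∀ j k, (Finset.univ.filter fun l => d l = d j).card = (Finset.univ.filter fun l => d l = d k).card → d j = d k) →
          False := by
        intro d z hd hdr hdq ⟨j, k, hjk⟩ hfib
        obtain ⟨g, hx0, c, hg, -, -, -, -⟩ := use_x (Matrix.diagonal d) (by rw [Matrix.det_diagonal, hd]) z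
          (by rw [Matrix.diagonal_pow, Matrix.smul_one_eq_diagonal]; exact congrArg _ (funext hdr))
          (fun l e => hjk (by
            have e0 := congrFun (congrFun e j) j
            have e1 := congrFun (congrFun e k) k
            simp at e0 e1
            rw [e0, e1]))
        obtain ⟨c', σ', hσ'⟩ := GeomClasses.UnitaryPreserveDerange.exists_perm hq (lam := d) rfl hg
        have hσ : ∀ l, d (σ' l) * d l = c' := fun l => by rw [← hσ' l, fix _ (hdq l)]
        have hd0 : ∀ l, d l ≠ 0 := fun l e => by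
          have := hd ▸ Finset.prod_eq_zero (Finset.mem_univ l) e
          exact one_ne_zero this
        have hsq := (GeomClasses.OrthPreserveDerange.sq_eq hd0 σ' hσ hfib j).trans
          (GeomClasses.OrthPreserveDerange.sq_eq hd0 σ' hσ hfib k).symm
        obtain ⟨m, hm⟩ := hrodd
        have h' := (hdr j).trans (hdr k).symm
        rw [hm, pow_succ, pow_succ, pow_mul, pow_mul, pow_two, pow_two, hsq] at h'
        exact hjk (mul_left_cancel₀ (pow_ne_zero _ (mul_ne_zero (hd0 k) (hd0 k))) h')
      have two : ∀ (a : ℕ) (A B z : F), 1 ≤ a → a < n → a ≠ n - a → A ≠ B → A ^ a * B ^ (n - a) = 1 → A ^ r = z → B ^ r = z →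
          A ^ (q₀ - 1) = 1 → B ^ (q₀ - 1) = 1 → False := by
        intro a A B z ha han hne hAB hd hA hB hA' hB'
        have hc1 : (Finset.univ.filter fun j : Fin n => (j : ℕ) < a).card = a := by
          rw [Fin.card_filter_val_lt, min_eq_right han.le]
        have hc2 : (Finset.univ.filter fun j : Fin n => ¬ (j : ℕ) < a).card = n - a := by
          have := Finset.card_filter_add_card_filter_not (s := Finset.univ) (fun j : Fin n => (j : ℕ) < a)
          rw [hc1, Finset.card_univ, Fintype.card_fin] at this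
          omega
        have hf : ∀ j : Fin n, (Finset.univ.filter fun l : Fin n => (if (l : ℕ) < a then A else B) = if (j : ℕ) < a then A else B).card =
            if (j : ℕ) < a then a else n - a := fun j => by
          by_cases hj : (j : ℕ) < a <;> simp only [hj, if_true, if_false]
          · rw [Finset.filter_congr (q := fun l : Fin n => (l : ℕ) < a) fun l _ => by split_ifs <;> simp [*, Ne.symm hAB]]
            exact hc1
          · rw [Finset.filter_congr (q := fun l : Fin n => ¬ (l : ℕ) < a) fun l _ => by split_ifs <;> simp [*]]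
            exact hc2
        refine use_diag (fun j => if (j : ℕ) < a then A else B) z ?_ (fun j => by split_ifs <;> assumption)
          (fun j => by split_ifs <;> assumption) ⟨i0, ⟨n - 1, by omega⟩, ?_⟩ fun j k hjk => ?_
        · rw [Finset.prod_ite, Finset.prod_const, Finset.prod_const, hc1, hc2, hd]
        · dsimp only [i0]
          rw [if_pos (by omega), if_neg (by omega)]
          exact hAB
        · rw [hf, hf] at hjk
          split_ifs at hjk ⊢ <;> first | rfl | omega
      have hω1 : ω ≠ 1 := fun e => hr0.one_lt.ne' (Nat.dvd_one.1 (hωk 1 (by rw [pow_one, e])))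
      have hωq : ω ^ (q₀ - 1) = 1 := rfix _ hωr
      by_cases hrn : r ∣ n
      · obtain ⟨k, rfl⟩ := hrn
        by_cases hk1 : k = 1 ∧ (r = 3 ∨ r = 5)
        · obtain ⟨rfl, hr35⟩ := hk1
          have hv : 2 ≤ padicValNat r (q₀ - 1) := by
            have h1 := one_le_padicValNat_of_dvd (by omega : q₀ - 1 ≠ 0) hr1
            have := hneg hr35 (mul_one r)
            omega
          have hr2d : r ^ 2 ∣ q₀ - 1 := (padicValNat_dvd_iff_le (by omega)).2 hv
          obtain ⟨v, hv'⟩ := IsCyclic.exists_generator (α := Fˣ)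
          have hordv : orderOf v = q₀ ^ 2 - 1 := by
            rw [orderOf_eq_card_of_forall_mem_zpowers hv', Nat.card_units, Nat.card_eq_fintype_card (α := F), hq]
          obtain ⟨m, hm⟩ : r ^ 2 ∣ q₀ ^ 2 - 1 := hqm ▸ hr2d.mul_left (q₀ + 1)
          set W := v ^ m with hW
          have hWord : orderOf W = r ^ 2 := by
            rw [hW, orderOf_pow_of_dvd (fun e => by rw [e, mul_zero] at hm; omega) (by rw [hordv, hm]; exact dvd_mul_left _ _), hordv, hm,
              Nat.mul_div_cancel _ (Nat.pos_of_ne_zero fun e => by rw [e, mul_zero] at hm; omega)]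
          have hWq : (W : F) ^ (q₀ - 1) = 1 := by
            obtain ⟨s, hs⟩ := hr2d
            rw [hs, pow_mul, ← Units.val_pow_eq_pow_val, ← hWord, pow_orderOf_eq_one, Units.val_one, one_pow]
          have hz0 : (W : F) ^ r ≠ 0 := pow_ne_zero _ W.ne_zero
          have hWr : (W : F) ^ r ≠ 1 := fun e => by
            have := orderOf_dvd_of_pow_eq_one (show W ^ r = 1 from Units.ext (by simpa using e))
            rw [hWord] at this
            exact absurd (Nat.le_of_dvd hr0.pos this) (by have := hr0.two_le; nlinarith)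
          have hWrr : ((W : F) ^ r) ^ r = 1 := by
            rw [← pow_mul, ← pow_two, ← Units.val_pow_eq_pow_val, ← hWord, pow_orderOf_eq_one, Units.val_one]
          refine two (r - 1) (W : F) ((W : F) / (W : F) ^ r) ((W : F) ^ r) ?_ ?_ ?_ ?_ ?_ rfl ?_ hWq ?_
          all_goals simp only [mul_one] at *
          · omega
          · omega
          · omega
          · intro e
            rw [eq_div_iff hz0] at e
            exact hWr (mul_left_cancel₀ W.ne_zero (e.trans (mul_one _).symm))
          · rw [show r - (r - 1) = 1 by omega, pow_one, mul_div_assoc', ← pow_succ, show r - 1 + 1 = r by omega, div_self hz0]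
          · rw [div_pow, hWrr, div_one]
          · rw [div_pow, hWq, rfix _ hWrr, div_one]
        · have hk0 : 1 ≤ k := Nat.one_le_iff_ne_zero.2 fun e => by rw [e, mul_zero] at hn; omega
          by_cases h3 : r = 3
          · subst h3
            have hk3 : 3 ≤ k := by
              by_contra hlt
              interval_cases k
              · exact hk1 ⟨rfl, Or.inl rfl⟩
              · exact hgap ⟨rfl, rfl⟩
            refine two 3 ω 1 1 (by omega) (by omega) (by omega) hω1 (by rw [one_pow, mul_one, hωr]) hωr (one_pow _) hωq (one_pow _)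
          have hr5 : 5 ≤ r := by
            rcases hrodd with ⟨m, rfl⟩
            have := hr0.two_le
            omega
          have hn7 : 7 ≤ r * k := by
            by_contra hlt
            have hk : k = 1 := by nlinarith
            subst hk
            have h6 : r ≤ 6 := by omega
            have h55 : r = 5 := by
              rcases (show r = 5 ∨ r = 6 by omega) with h | h
              · exact h
              · rw [h] at hr0; exact absurd hr0 (by norm_num)
            exact hk1 ⟨rfl, Or.inr h55⟩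
          obtain ⟨m, hm⟩ := hrodd
          set C := ω ^ m
          have hC1 : C ≠ 1 := fun e => by have := Nat.le_of_dvd (by omega) (hωk m e); omega
          have hBC : ω ≠ C := fun e => by
            have hm1 : ω ^ (m - 1) = 1 := mul_left_cancel₀ (w.ne_zero) (by
              rw [← pow_succ', show m - 1 + 1 = m by omega, mul_one]; exact e.symm)
            have := Nat.le_of_dvd (by omega) (hωk _ hm1); omega
          let d : Fin (r * k) → F := fun j => if j = i0 then ω else if (j : ℕ) < 3 then C else 1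
          let i2 : Fin (r * k) := ⟨2, by omega⟩
          have hfA : (Finset.univ.filter fun l => d l = ω) = {i0} := by
            ext l; simp only [Finset.mem_filter, Finset.mem_univ, true_and, Finset.mem_singleton, d]
            split_ifs with h1 h3'
            · simp [h1]
            · simp only [h1, iff_false]; exact Ne.symm hBC
            · simp only [h1, iff_false]; exact Ne.symm hω1
          have hfC : (Finset.univ.filter fun l => d l = C) = {i1, i2} := by
            ext l; simp only [Finset.mem_filter, Finset.mem_univ, true_and, Finset.mem_insert, Finset.mem_singleton, d, i0, i1, i2, Fin.ext_iff]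
            split_ifs with h1 h3'
            · simp [hBC, h1]
            · simp; omega
            · simp [Ne.symm hC1]; omega
          have hfB : (Finset.univ.filter fun l => d l = 1).card = r * k - 3 := by
            have hsub : (Finset.univ.filter fun l => d l = 1) = Finset.univ.filter fun l : Fin (r * k) => ¬ (l : ℕ) < 3 := by
              refine Finset.filter_congr fun l _ => ?_
              simp only [d, i0, Fin.ext_iff]
              split_ifs with h1 h3'
              · simp [hω1]; omega
              · simp [hC1, h3']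
              · simp [h3']
            have h3c : (Finset.univ.filter fun l : Fin (r * k) => (l : ℕ) < 3).card = 3 := by
              rw [Fin.card_filter_val_lt, min_eq_right (by omega)]
            have := Finset.card_filter_add_card_filter_not (s := Finset.univ) (fun l : Fin (r * k) => (l : ℕ) < 3)
            rw [h3c, Finset.card_univ, Fintype.card_fin] at this
            rw [hsub]; omega
          have hval : ∀ j, d j = ω ∨ d j = C ∨ d j = 1 := fun j => by simp only [d]; split_ifs <;> simp
          have hdr : ∀ j, d j ^ r = 1 := fun j => by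
            rcases hval j with e | e | e <;> rw [e]
            · exact hωr
            · rw [← pow_mul, mul_comm, pow_mul, hωr, one_pow]
            · exact one_pow r
          refine use_diag d 1 ?_ hdr (fun j => rfix _ (hdr j)) ⟨i0, i1, ?_⟩ fun j k' hjk => ?_
          · rw [← Finset.prod_filter_mul_prod_filter_not Finset.univ (fun l => d l = ω),
              ← Finset.prod_filter_mul_prod_filter_not (Finset.univ.filter fun l => ¬ d l = ω) (fun l => d l = C)]
            rw [Finset.prod_congr rfl (g := fun _ => ω) fun l hl => (Finset.mem_filter.1 hl).2, hfA,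
              Finset.prod_const, Finset.card_singleton, pow_one]
            rw [show ((Finset.univ.filter fun l => ¬ d l = ω).filter fun l => d l = C) = {i1, i2} by
              rw [← hfC, Finset.filter_filter]
              exact Finset.filter_congr fun l _ => ⟨fun h => h.2, fun h => ⟨by rw [h]; exact Ne.symm hBC, h⟩⟩]
            rw [Finset.prod_congr rfl (g := fun _ => C) (s₁ := {i1, i2}) fun l hl => (Finset.mem_filter.1 ((Finset.ext_iff.1 hfC l).2 hl)).2,
              Finset.prod_const, Finset.card_pair (by simp [i1, i2, Fin.ext_iff]),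
              Finset.prod_eq_one fun l hl => ?_, mul_one, ← pow_mul, ← pow_succ', ← mul_comm 2, ← hm, hωr]
            simp only [Finset.mem_filter] at hl
            rcases hval l with e | e | e
            · exact absurd e hl.1.2
            · exact absurd e hl.2
            · exact e
          · simp [d, i0, i1, Fin.ext_iff, hBC]
          · rcases hval j with e | e | e <;> rcases hval k' with e' | e' | e' <;> rw [e, e'] at hjk ⊢ <;>
              simp only [hfA, hfC, hfB, Finset.card_singleton] at hjk <;>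
              (try rw [Finset.card_pair (by simp [i1, i2, Fin.ext_iff])] at hjk) <;> omega
      · have hB : ((ω ^ (n - 1))⁻¹) ^ r = 1 := by rw [inv_pow, ← pow_mul, mul_comm, pow_mul, hωr, one_pow, inv_one]
        refine two (n - 1) ω ((ω ^ (n - 1))⁻¹) 1 (by omega) (by omega) (by omega) ?_ ?_ hωr hB hωq (rfix _ hB)
        · intro e
          refine hrn (hωk n ?_)
          rw [show n = n - 1 + 1 by omega, pow_succ']
          nth_rewrite 1 [e]
          exact inv_mul_cancel₀ (pow_ne_zero _ w.ne_zero)
        · rw [show n - (n - 1) = 1 by omega, pow_one, mul_inv_cancel₀ (pow_ne_zero _ w.ne_zero)]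
    -- no roots of unity of order `r`
    have hr1 : ¬ r ∣ q₀ ^ 2 - 1 := fun hd => hi1 (Nat.dvd_one.1 ((hpw 1).1 (by simpa using hd)))
    have hroot : ∀ c : F, c ^ r = 1 → c = 1 := by
      intro c hc
      by_contra hc1
      have hc0 : c ≠ 0 := fun e => by rw [e, zero_pow hr0.pos.ne'] at hc; exact zero_ne_one hc
      have hord := orderOf_eq_prime (G := Fˣ) (x := Units.mk0 c hc0) (Units.ext (by simpa using hc))
        (fun e => hc1 (by simpa using congrArg Units.val e))
      refine hr1 ?_
      have := orderOf_dvd_natCard (Units.mk0 c hc0)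
      rwa [hord, Nat.card_units, Nat.card_eq_fintype_card (α := F), hq] at this
    have hin : i ≤ n := by
      have h1 : r ∣ Nat.card (Cfsg.Geo.specialLinear (Fin n) F) * (q₀ ^ 2 - 1) :=
        (hrel.trans (Subgroup.index_dvd_card _)).mul_right _
      have hcard : Nat.card (Cfsg.Geo.specialLinear (Fin n) F) * (q₀ ^ 2 - 1) =
          ∏ i ∈ Finset.range n, ((q₀ ^ 2) ^ n - (q₀ ^ 2) ^ i) := by
        rw [← GeomClasses.SubfieldInvolution.card_SL (F := F) hn1 hq]
        congr 1
        exact Nat.card_congr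
          { toFun := fun g => (⟨((g : GL (Fin n) F) : Matrix (Fin n) (Fin n) F), GeomClasses.OrthPreserve.mem_sl.1 g.2⟩ :
              Matrix.SpecialLinearGroup (Fin n) F)
            invFun := fun s => ⟨Matrix.SpecialLinearGroup.toGL s, GeomClasses.OrthPreserve.mem_sl.2 s.2⟩
            left_inv := fun g => Subtype.ext (Units.ext rfl)
            right_inv := fun s => rfl }
      obtain ⟨N, hN⟩ := GeomClasses.OrthPreserveDerange.prod_gl (q₀ ^ 2) n
      rw [hcard, hN] at h1
      obtain ⟨j, hj, hj'⟩ := (hr0.prime.dvd_finsetProd_iff _).1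
        ((hr0.dvd_mul.1 h1).resolve_left fun hd => hrQ (hr0.dvd_of_dvd_pow hd))
      rw [Finset.mem_range] at hj
      have := Nat.le_of_dvd (by omega) ((hpw _).1 hj')
      omega
    obtain ⟨x, hx, hxk⟩ := GeomClasses.SympFormDerange.exists_small (n := n) hq hrQ hrF hi0 hin ((hpw i).2 dvd_rfl) hmin
    have hd : x.det = 1 := hroot _ (by rw [← Matrix.det_pow, hx, Matrix.det_one])
    obtain ⟨g, -, c, -, -, hcr, hiso, hpow⟩ := use_x x hd 1 (by rw [one_smul, hx]) (fun l e => by
      have hl : l = 1 := hroot l (by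
        have h' := hx
        rw [e, smul_pow, one_pow] at h'
        have h0 := congrFun (congrFun h' i0) i0
        simpa using h0)
      rw [e, hl, one_smul, sub_self, Matrix.rank_zero] at hxk
      omega)
    rw [one_pow, mul_one] at hcr
    obtain rfl := hroot c hcr
    refine GeomClasses.UnitaryPreserveDerange.no_small hq hrF hrq hidef hi0 hE (by rw [hpow, one_smul])
      (fun u v => by rw [hiso, one_mul]) ?_
    rw [← hxk]
    have := GeomClasses.SympFormDerange.rank_conj (P := (g : Matrix (Fin n) (Fin n) F))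
      (Q := ((g⁻¹ : GL (Fin n) F) : Matrix (Fin n) (Fin n) F))
      (g := ((g⁻¹ : GL (Fin n) F) : Matrix (Fin n) (Fin n) F) * x * (g : Matrix (Fin n) (Fin n) F)) (x := x)
      (by rw [← Units.val_mul, mul_inv_cancel, Units.val_one]) rfl (1 : F)
    simpa using this
  · intro hrhs x hxs ⟨z, hz⟩ hns
    rw [Units.val_pow_eq_pow_val] at hz
    have hPd : (P : Matrix (Fin n) (Fin n) F).det ≠ 0 := (Matrix.GeneralLinearGroup.det P).ne_zero
    have hdetx : (x : Matrix (Fin n) (Fin n) F).det = 1 := GeomClasses.OrthPreserve.mem_sl.1 hxs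
    suffices ∃ g : GL (Fin n) F, (g : Matrix (Fin n) (Fin n) F).det = ((P : Matrix (Fin n) (Fin n) F).det)⁻¹ ∧
        g⁻¹ * x * g ∈ Cfsg.Geo.similarityGroup (Cfsg.hermForm n F q₀) by
      obtain ⟨g, hgd, hg⟩ := this
      refine ⟨g * P, GeomClasses.OrthPreserve.mem_sl.2 (by rw [Units.val_mul, Matrix.det_mul, hgd, inv_mul_cancel₀ hPd]), ?_⟩
      rwa [hmem, show P * ((g * P)⁻¹ * x * (g * P)) * P⁻¹ = g⁻¹ * x * g by group]
    rcases hrhs with ⟨rfl, hrhs⟩ | ⟨hr35, hnr, hv⟩
    · suffices hzsq : IsSquare z by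
        obtain ⟨w, rfl⟩ := hzsq
        exact GeomClasses.UnitaryPreserve.conj_two hq hn1 x (by rw [← pow_two]; exact hz) (inv_ne_zero hPd)
      by_cases hp2 : p = 2
      · exact FiniteField.isSquare_of_char_two (by rw [ringChar.eq F p]; exact hp2) z
      have hv := hrhs.resolve_left hp2
      have hodd : Odd (q₀ ^ 2) := by rw [hnn]; exact (hp.odd_of_ne_two hp2).pow
      have h2 : (2 : F) ≠ 0 := Cfsg.Agent.Forms.two_ne_zero_of_odd hq hodd
      have hchar : ringChar F ≠ 2 := by rw [ringChar.eq F p]; exact hp2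
      by_contra hzs
      obtain ⟨k, b, hb⟩ := GeomClasses.QuadExtInvolution.exists_basis (w := (x : Matrix (Fin n) (Fin n) F))
        (by rw [← pow_two]; exact hz) (fun t ht => hzs ⟨t, ht.symm⟩)
      have hnk : n = k * 2 := by
        have h := Module.finrank_eq_card_basis b
        simpa using h
      let bb := b.reindex (Equiv.prodComm _ _)
      have hx0 : ∀ p', (x : Matrix (Fin n) (Fin n) F) *ᵥ bb (0, p') = bb (1, p') := fun p' => by simp [bb, (hb p').1]
      have hx1 : ∀ p', (x : Matrix (Fin n) (Fin n) F) *ᵥ bb (1, p') = z • bb (0, p') := fun p' => by simp [bb, (hb p').2]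
      have hdk : (-z) ^ k = 1 := by
        rw [← hdetx, ← LinearMap.det_toLin', ← LinearMap.det_toMatrix bb,
          show LinearMap.toMatrix bb bb (Matrix.toLin' (x : Matrix (Fin n) (Fin n) F)) =
            Matrix.blockDiagonal (fun _ : Fin k => !![0, z; 1, 0]) from ?_, Matrix.det_blockDiagonal, Finset.prod_const]
        · simp [Matrix.det_fin_two_of]
        ext ⟨u, p'⟩ ⟨v, p''⟩
        rw [LinearMap.toMatrix_apply, Matrix.toLin'_apply]
        fin_cases v
        · rw [Fin.zero_eta, hx0, bb.repr_self, Finsupp.single_apply, Matrix.blockDiagonal_apply]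
          fin_cases u <;> by_cases h : p' = p'' <;> simp [h, Ne.symm]
        · rw [Fin.mk_one, hx1, map_smul, Finsupp.smul_apply, bb.repr_self, Finsupp.single_apply, Matrix.blockDiagonal_apply]
          fin_cases u <;> by_cases h : p' = p'' <;> simp [h, Ne.symm]
      have hz0 : z ≠ 0 := fun e => hzs (e ▸ IsSquare.zero)
      set W : Fˣ := Units.mk0 (-z) (neg_ne_zero.2 hz0) with hW
      have hk0 : k ≠ 0 := by omega
      have hord : orderOf W ∣ k := orderOf_dvd_of_pow_eq_one (Units.ext (by rw [Units.val_pow_eq_pow_val]; exact hdk))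
      set a := padicValNat 2 (q₀ ^ 2 - 1) with ha_def
      have hcard : orderOf W ∣ q₀ ^ 2 - 1 := by
        have := orderOf_dvd_natCard W
        rwa [Nat.card_units, Nat.card_eq_fintype_card (α := F), hq] at this
      have hvk : padicValNat 2 k + 1 ≤ a := by
        refine le_trans (le_of_eq ?_) hv
        rw [hnk, padicValNat.mul hk0 two_ne_zero, padicValNat.self one_lt_two]
      have hhalf : orderOf W ∣ (q₀ ^ 2 - 1) / 2 := by
        obtain ⟨s, hs⟩ := hodd
        have h2dvd : 2 ∣ q₀ ^ 2 - 1 := ⟨s, by omega⟩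
        have h1 := Nat.dvd_gcd hord hcard
        refine h1.trans ?_
        have hg := Nat.gcd_dvd_left k (q₀ ^ 2 - 1)
        obtain ⟨t, ht⟩ := Nat.gcd_dvd_right k (q₀ ^ 2 - 1)
        have h2t : 2 ∣ t := by
          by_contra h
          have hg0 : Nat.gcd k (q₀ ^ 2 - 1) ≠ 0 := Nat.gcd_ne_zero_left hk0
          have h5 : a = padicValNat 2 (Nat.gcd k (q₀ ^ 2 - 1)) := by
            rw [ha_def, ht, padicValNat.mul hg0 (fun e => h (by rw [e]; exact dvd_zero 2)), padicValNat.eq_zero_of_not_dvd h, add_zero,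
              ← ht]
          have h6 : padicValNat 2 (Nat.gcd k (q₀ ^ 2 - 1)) ≤ padicValNat 2 k :=
            (padicValNat_dvd_iff_le hk0).1 (pow_padicValNat_dvd.trans hg)
          omega
        obtain ⟨t', ht'⟩ := h2t
        refine ⟨t', Nat.div_eq_of_eq_mul_left two_pos (ht.trans ?_)⟩
        rw [ht']; ring
      have hWsq : IsSquare (-z) := by
        rw [FiniteField.isSquare_iff hchar (neg_ne_zero.2 hz0), hq, show q₀ ^ 2 / 2 = (q₀ ^ 2 - 1) / 2 by
          obtain ⟨s, hs⟩ := hodd; omega]
        have h9 := orderOf_dvd_iff_pow_eq_one.1 hhalf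
        simpa [hW] using congrArg Units.val h9
      have hneg1 : IsSquare (-1 : F) := FiniteField.isSquare_neg_one_iff.2 (by
        rw [hq, Nat.pow_mod]
        obtain ⟨s, hs⟩ := (Nat.odd_pow_iff two_ne_zero).1 hodd
        have : q₀ % 4 = 1 ∨ q₀ % 4 = 3 := by omega
        rcases this with h' | h' <;> rw [h'] <;> norm_num)
      refine hzs ?_
      have := hneg1.mul hWsq
      rwa [neg_one_mul, neg_neg] at this
    subst n
    have hrodd : Odd r := by rcases hr35 with rfl | rfl <;> decide
    have hr1 : r ∣ q₀ - 1 := dvd_of_one_le_padicValNat (by omega)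
    have hrplus : ¬ r ∣ q₀ + 1 := fun hd => by
      have h := Nat.dvd_sub hd hr1
      rw [show q₀ + 1 - (q₀ - 1) = 2 by omega] at h
      rcases hr35 with rfl | rfl <;> norm_num at h
    have hqm : q₀ ^ 2 - 1 = (q₀ + 1) * (q₀ - 1) := by simpa using Nat.sq_sub_sq q₀ 1
    have hv2 : padicValNat r (q₀ ^ 2 - 1) = 1 := by
      rw [hqm, padicValNat.mul (by omega) (by omega), padicValNat.eq_zero_of_not_dvd hrplus, hv]
    set X := (x : Matrix (Fin r) (Fin r) F)
    have hzr : z ^ r = 1 := by
      have := congrArg Matrix.det hz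
      rwa [Matrix.det_pow, hdetx, one_pow, Matrix.det_smul, Matrix.det_one, Fintype.card_fin, mul_one, eq_comm] at this
    have hz1 : z = 1 := by
      by_contra hz1
      have hnoroot : ∀ c : F, c ^ r ≠ z := by
        intro c hc
        have hc0 : c ≠ 0 := fun e => by
          rw [e, zero_pow hr0.pos.ne'] at hc; rw [← hc, zero_pow hr0.pos.ne'] at hzr; exact zero_ne_one hzr
        have hord : orderOf (Units.mk0 c hc0) = r ^ (1 + 1) := by
          refine orderOf_eq_prime_pow (fun e => hz1 ?_) (Units.ext ?_)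
          · have := congrArg Units.val e
            simpa [hc] using this
          · rw [Units.val_pow_eq_pow_val, Units.val_mk0, show r ^ (1 + 1) = r * r by ring, pow_mul, hc, hzr, Units.val_one]
        have hd := orderOf_dvd_natCard (Units.mk0 c hc0)
        rw [hord, Nat.card_units, Nat.card_eq_fintype_card (α := F), hq, padicValNat_dvd_iff_le (by omega), hv2] at hd
        omega
      have hirr : Irreducible (Polynomial.X ^ r - Polynomial.C z : Polynomial F) := X_pow_sub_C_irreducible_of_prime hr0 hnoroot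
      have hmin : minpoly F X = Polynomial.X ^ r - Polynomial.C z := by
        refine (minpoly.eq_of_irreducible_of_monic hirr ?_ (Polynomial.monic_X_pow_sub_C z hr0.pos.ne')).symm
        rw [map_sub, map_pow, Polynomial.aeval_X, Polynomial.aeval_C, hz, Algebra.algebraMap_eq_smul_one, sub_self]
      have hch : X.charpoly = Polynomial.X ^ r - Polynomial.C z := by
        refine Polynomial.eq_of_monic_of_dvd_of_natDegree_le (Polynomial.monic_X_pow_sub_C z hr0.pos.ne') X.charpoly_monic
          (hmin ▸ Matrix.minpoly_dvd_charpoly X) ?_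
        rw [Matrix.charpoly_natDegree_eq_dim, Polynomial.natDegree_X_pow_sub_C, Fintype.card_fin]
      have hd := Matrix.det_eq_sign_charpoly_coeff X
      rw [hdetx, hch, Fintype.card_fin, hrodd.neg_one_pow] at hd
      simp [hr0.pos.ne', Ne.symm hr0.pos.ne'] at hd
      exact hz1 hd.symm
    rw [hz1, one_smul] at hz
    obtain ⟨w, hw⟩ := exists_prime_orderOf_dvd_card' (G := Fˣ) r (by
      rw [Nat.card_units, Nat.card_eq_fintype_card (α := F), hq, hqm]; exact hr1.mul_left _)
    have hω : IsPrimitiveRoot (w : F) r := by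
      rw [IsPrimitiveRoot.coe_units_iff, ← hw]; exact IsPrimitiveRoot.orderOf w
    have hrF : (r : F) ≠ 0 := fun e => by
      have hrp : p = r := (Nat.prime_dvd_prime_iff_eq hp hr0).1 ((CharP.cast_eq_zero_iff F p r).1 e)
      have h1 : r ∣ q₀ := hr0.dvd_of_dvd_pow (show r ∣ q₀ ^ 2 by rw [hnn, hrp]; exact dvd_pow_self _ f₀.ne_zero)
      have h' := Nat.dvd_sub h1 hr1
      rw [show q₀ - (q₀ - 1) = 1 by omega] at h'
      exact hr0.one_lt.ne' (Nat.dvd_one.1 h')
    obtain ⟨b, e, hb⟩ := GeomClasses.OrthPreserveDerange.exists_eigen_basis hr0.pos hrF hω hz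
    have hsum : (∑ j, (e j : ZMod r)) = 0 := by
      rw [← Nat.cast_sum, ZMod.natCast_eq_zero_iff, ← hω.pow_eq_one_iff_dvd, ← Finset.prod_pow_eq_pow_sum]
      rw [← hdetx, ← LinearMap.det_toLin', ← LinearMap.det_toMatrix b,
        show LinearMap.toMatrix b b (Matrix.toLin' X) = Matrix.diagonal fun j => (w : F) ^ e j from ?_, Matrix.det_diagonal]
      ext i j
      rw [LinearMap.toMatrix_apply, Matrix.toLin'_apply, hb, map_smul, Finsupp.smul_apply, b.repr_self,
        Finsupp.single_apply, Matrix.diagonal_apply]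
      by_cases h : i = j
      · subst h; simp
      · simp [h, Ne.symm h]
    obtain ⟨φ, hφ, m, hm⟩ := GeomClasses.OrthPairing.exists_pairing hr35 (fun j => (e j : ZMod r)) hsum
    haveI : Nonempty (Fin r) := ⟨⟨0, hr0.pos⟩⟩
    refine GeomClasses.UnitaryPreserve.conj_of_pairing hq b hb φ hφ (m := (w : F) ^ m.val)
      (pow_ne_zero _ w.ne_zero) (fun j => ?_) (inv_ne_zero hPd)
    have hwfix : (w : F) ^ q₀ = w := by
      obtain ⟨s, hs⟩ := hr1
      rw [show q₀ = r * s + 1 by omega, pow_succ, pow_mul, hω.pow_eq_one, one_pow, one_mul]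
    rw [← pow_mul (w : F), mul_comm (e (φ j)), pow_mul, hwfix, ← pow_add, ← hm j, ← Nat.cast_add, ZMod.val_natCast]
    exact pow_eq_pow_mod _ hω.pow_eq_one

end Cfsg.Agent.S5982
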