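import Cfsg.Statements.S5983
import Cfsg.Agent.GeomClasses.SympQuadPoint

set_option autoImplicit false
open scoped MatrixGroups
open Cfsg

namespace Cfsg.Agent.S5983

/-- Elements of prime order of PSp_n(q), q even, and the subgroups of orthogonal type. Here `T = Sp_{2d}(F)` for a field `F` of characteristic 2 with `q` elements (`d ≥ 2`, `(d, q) ≠ (2, 2)`), realised as the invertible matrices preserving the standard alternating form; `Q` is a non-degenerate quadratic form on `F^{2d}` whose polar form is that alternating form, and `H` is the subgroup of `T` preserving `Q` up to a scalar (equivalently preserving `Q`) — a subgroup of type O^±_{2d}(q) (maximality is not assumed); `Q` is of plus type when `F^{2d}` contains a `d`-dimensional subspace on which `Q` vanishes, of minus type otherwise. Ω is the set of cosets of `H` in `T`, so an element of `T` of prime order `r` (`x ∈ T` with `x^r` scalar, `x` not scalar) fixes a point of Ω exactly when some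 `T`-conjugate of `x` preserves `Q`. Let `r` be a prime dividing the index of `H`. Then every element of `T` of order `r` fixes a point of Ω if and only if `r = 2` and either `Q` is of plus type or `d` is odd. -/
theorem result {F : Type*} [Field F] [Fintype F] {p : ℕ} [Fact p.Prime] [CharP F p] {q : ℕ} (hq : Fintype.card F = q)
    (hp : p = 2) (d : ℕ) (hd : 2 ≤ d) (hT : (d, q) ≠ (2, 2)) (Q : (Fin d ⊕ Fin d → F) → F) (hQ : Cfsg.Geo.IsNondegenerateQuadraticForm Q)
    (hQf : ∀ u v, QuadraticMap.polar Q u v = Cfsg.sympForm d F u v)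
    (r : ℕ) [Fact r.Prime]
    (hΩ : r ∣ (Cfsg.Geo.quadSimilarityGroup Q).relIndex (Cfsg.spGL d F)) :
    (∀ x ∈ Cfsg.spGL d F, (∃ z : F, ((x ^ r : GL (Fin d ⊕ Fin d) F) : Matrix (Fin d ⊕ Fin d) (Fin d ⊕ Fin d) F) = z • (1 : Matrix (Fin d ⊕ Fin d) (Fin d ⊕ Fin d) F)) →
      (∀ z : F, (x : Matrix (Fin d ⊕ Fin d) (Fin d ⊕ Fin d) F) ≠ z • (1 : Matrix (Fin d ⊕ Fin d) (Fin d ⊕ Fin d) F)) →
      ∃ g ∈ Cfsg.spGL d F, g⁻¹ * x * g ∈ Cfsg.Geo.quadSimilarityGroup Q) ↔
    (r = 2 ∧ (Cfsg.Geo.IsPlusTypeOn Q ⊤ ∨ Odd d)) := by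
  subst hp
  classical
  obtain ⟨Q, rfl⟩ : ∃ Q' : QuadraticForm F (Fin d ⊕ Fin d → F), ⇑Q' = Q :=
    ⟨Cfsg.Agent.GeomClasses.toQuadForm hQ, rfl⟩
  have hr := (Fact.out : r.Prime)
  obtain ⟨u₀, w₀, huw⟩ := Cfsg.Agent.GeomClasses.SympQuadPoint.exists_symp_pair (F := F) (show 1 ≤ d by omega)
  open Cfsg.Agent.GeomClasses.SympQuadPoint in
  open Cfsg.Agent.Forms in
  (constructor
   · intro h
     by_cases hr2 : r = 2
     · refine ⟨hr2, ?_⟩
       by_contra hc
       push_neg at hc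
       obtain ⟨hnp, hev⟩ := hc
       have he : Even d := Nat.not_odd_iff_even.1 hev
       obtain ⟨x, ⟨-, hpres⟩, hx2, hfix⟩ := Cfsg.Agent.GeomClasses.NonsingPoint.exists_plus_involution_core (F := F) (d := d) (by omega) he
       have hxs := ((preserves_iff polar_qPlus).2 hpres).2
       obtain ⟨g, hg, hgx⟩ := h x hxs ⟨1, by rw [hr2, hx2, one_smul, Units.val_one]⟩
         (fun z hz => by
           have h1 := hpres
           obtain ⟨u, hu⟩ : ∃ u : Fin d ⊕ Fin d → F, qPlus d F u ≠ 0 :=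
             ⟨Pi.single (Sum.inl ⟨0, by omega⟩) 1 + Pi.single (Sum.inr ⟨0, by omega⟩) 1, by
               simp [Cfsg.quadFormPlus, Pi.single_apply, add_mul, mul_add]⟩
           exact Cfsg.Agent.GeomClasses.NonsingPoint.not_scalar ⟨u, hu⟩ hpres hfix z hz)
       obtain ⟨Q', hQ', htype, hx'⟩ := (fixes_iff hQf (by omega) hxs).1 ⟨g, hg, hgx⟩
       exact hnp (htype.1 (plus_of_ts_fixed polar_qPlus hQ' hpres hx' hx2 hfix))
     · exfalso
       have hodd : Odd r := hr.eq_two_or_odd'.resolve_left hr2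
       obtain ⟨hip, him⟩ := index_mul hQf hq (by omega)
       have hrq : ¬ r ∣ q ^ d := fun hd' => by
         obtain ⟨n, -, hn⟩ := FiniteField.card F 2
         rw [hq] at hn
         rw [hn, ← pow_mul] at hd'
         exact hr2 ((Nat.prime_dvd_prime_iff_eq hr Nat.prime_two).1 (hr.dvd_of_dvd_pow hd'))
       have hz : ∀ x : GL (Fin d ⊕ Fin d) F, x ∈ Cfsg.spGL d F → (∀ v, (x : Matrix (Fin d ⊕ Fin d) (Fin d ⊕ Fin d) F).mulVec v = v → v = 0) →
           ∀ z : F, (x : Matrix (Fin d ⊕ Fin d) (Fin d ⊕ Fin d) F) ≠ z • 1 := fun x hx hfix z =>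
         not_scalar hx huw (fun v hv => by rw [hfix v hv, ← sympB_apply, map_zero]) z
       by_cases hp : Cfsg.Geo.IsPlusTypeOn (⇑Q) ⊤
       · have hdvd : r ∣ q ^ d + 1 := (hr.dvd_mul.1 (hip hp ▸ hΩ.mul_left 2)).resolve_left hrq
         obtain ⟨x, hx, hxr, hfix, Q₀, hQ₀, hnp, hQ₀x⟩ := exists_minus_symp hq (d := d) (by omega) hr hodd hdvd
         obtain ⟨Q', hQ', htype, hx'⟩ := (fixes_iff hQf (by omega) hx).1
           (h x hx ⟨1, by rw [hxr, one_smul, Units.val_one]⟩ (hz x hx hfix))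
         exact hnp (form_unique hx hfix hQ₀ hQ' hQ₀x hx' ▸ htype.2 hp)
       · have hdvd : r ∣ q ^ d - 1 := (hr.dvd_mul.1 (him hp ▸ hΩ.mul_left 2)).resolve_left hrq
         obtain ⟨x, ⟨-, hpres⟩, hxr, hfix⟩ := Cfsg.Agent.GeomClasses.NonsingPoint.exists_plus_element_core hq (d := d) (by omega) hr hodd hdvd
         have hx := ((preserves_iff polar_qPlus).2 hpres).2
         obtain ⟨Q', hQ', htype, hx'⟩ := (fixes_iff hQf (by omega) hx).1
           (h x hx ⟨1, by rw [hxr, one_smul, Units.val_one]⟩ (hz x hx hfix))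
         refine hp (htype.1 ?_)
         rw [← form_unique hx hfix polar_qPlus hQ' hpres hx']
         refine ⟨coreSub F (Sum.inl : Fin d → Fin d ⊕ Fin d), le_top, (qPlus_core d).zero, ?_⟩
         rw [coreSub, finrank_comap_equiv _ Sum.inl_injective]
         simp
         omega
   · rintro ⟨rfl, htype⟩ x hx ⟨z, hz⟩ -
     have hsq : ∀ v : Fin d ⊕ Fin d → F, (x : Matrix (Fin d ⊕ Fin d) (Fin d ⊕ Fin d) F).mulVec
         ((x : Matrix (Fin d ⊕ Fin d) (Fin d ⊕ Fin d) F).mulVec v) = z • v := fun v => by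
       rw [Matrix.mulVec_mulVec, ← Units.val_mul, ← pow_two, hz, Matrix.smul_mulVec, Matrix.one_mulVec]
     have hz1 : z = 1 := by
       have h : Cfsg.sympForm d F ((x : Matrix (Fin d ⊕ Fin d) (Fin d ⊕ Fin d) F).mulVec
           ((x : Matrix (Fin d ⊕ Fin d) (Fin d ⊕ Fin d) F).mulVec u₀))
           ((x : Matrix (Fin d ⊕ Fin d) (Fin d ⊕ Fin d) F).mulVec
           ((x : Matrix (Fin d ⊕ Fin d) (Fin d ⊕ Fin d) F).mulVec w₀)) = Cfsg.sympForm d F u₀ w₀ :=
         (hx _ _).trans (hx u₀ w₀)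
       simp only [hsq, ← sympB_apply, map_smul, LinearMap.smul_apply, smul_eq_mul, ← mul_assoc] at h
       rw [← sympB_apply] at huw
       have hzz : z * z = 1 := mul_right_cancel₀ huw (h.trans (one_mul _).symm)
       have h3 : (z + 1) ^ 2 = 0 := by rw [CharTwo.add_sq, sq, hzz, one_pow, CharTwo.add_self_eq_zero]
       exact CharTwo.add_eq_zero.1 (pow_eq_zero_iff two_ne_zero |>.1 h3)
     subst hz1
     simp only [one_smul] at hsq
     obtain ⟨⟨Qp, hQp, hpp, hxp⟩, hminus⟩ := exists_form hx hsq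
     refine (fixes_iff hQf (by omega) hx).2 ?_
     by_cases hp : Cfsg.Geo.IsPlusTypeOn (⇑Q) ⊤
     · exact ⟨Qp, hQp, iff_of_true hpp hp, hxp⟩
     · obtain ⟨Qm, hQm, hpm, hxm⟩ := hminus (htype.resolve_left hp)
       exact ⟨Qm, hQm, iff_of_false hpm hp, hxm⟩)

end Cfsg.Agent.S5983
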