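import Cfsg.Statements.S5984
import Cfsg.Agent.GeomClasses.HalvesDerange

set_option autoImplicit false
open scoped MatrixGroups
open Cfsg Matrix

namespace Cfsg.Agent.S5984

/-- Elements of prime order of PSU_n(q) and the stabilizers of pairs of complementary totally singular subspaces. Here `T = PSU_n(q)` is realised through `SU_n(q)`, the matrices of determinant 1 over the field `F` with `q²` elements preserving the hermitian form `Σ uᵢ vᵢ^q`, with `n ≥ 4` even; `D` is a pair of complementary subspaces of dimension `n/2` on each of which the form vanishes identically, and `H` is the subgroup of `SU_n(q)` fixing or interchanging the two members — a subgroup of type GL_{n/2}(q²).2 (maximality is not assumed). Ω is the set of cosets of `H`, so an element of `T` of prime order `r` (`x ∈ SU_n(q)` with `x^r` scalar, `x` not scalar) fixes a point of Ω exactly when some `SU_n(q)`-conjugate of `x` lies in `H`. Let `r` be a prime dividing the index of `H`. Then every element of `T` of order `r` fixes a point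 of Ω if and only if `r = 2`, `q` is odd and `(q + 1)_2 ≤ (n)_2` (2-parts). -/
theorem result {F : Type*} [Field F] [Fintype F] {p : ℕ} [Fact p.Prime] [CharP F p] {q : ℕ} (hq : Fintype.card F = q ^ 2)
    (n : ℕ) (hn : 4 ≤ n) (he : Even n) (D : Fin 2 → Submodule F (Fin n → F)) (hD : Cfsg.Geo.IsMDecomposition (n / 2) D)
    (hDs : ∀ i, Cfsg.Geo.IsTotallySingularFor (Cfsg.hermForm n F q) (D i))
    (r : ℕ) [Fact r.Prime]
    (hΩ : r ∣ (Cfsg.Geo.decompositionStabilizer D).relIndex (Cfsg.GU n F q ⊓ Cfsg.Geo.specialLinear (Fin n) F)) :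
    (∀ x ∈ Cfsg.GU n F q ⊓ Cfsg.Geo.specialLinear (Fin n) F, (∃ z : F, ((x ^ r : GL (Fin n) F) : Matrix (Fin n) (Fin n) F) = z • (1 : Matrix (Fin n) (Fin n) F)) →
      (∀ z : F, (x : Matrix (Fin n) (Fin n) F) ≠ z • (1 : Matrix (Fin n) (Fin n) F)) →
      ∃ g ∈ Cfsg.GU n F q ⊓ Cfsg.Geo.specialLinear (Fin n) F, g⁻¹ * x * g ∈ Cfsg.Geo.decompositionStabilizer D) ↔
    (r = 2 ∧ Odd q ∧ padicValNat 2 (q + 1) ≤ padicValNat 2 n) := by
  classical
  obtain ⟨k, hk⟩ := he
  obtain ⟨hD', hts⟩ : Cfsg.Geo.IsMDecomposition k D ∧ ∀ i, ∀ x ∈ D i, ∀ y ∈ D i, Cfsg.hermForm n F q x y = 0 :=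
    ⟨by rwa [show n / 2 = k by omega] at hD, hDs⟩
  have hr : r.Prime := Fact.out
  have hp : p.Prime := Fact.out
  have hq2 := Cfsg.Agent.Forms.two_le_q hq
  have hX := hΩ.trans (GeomClasses.HalvesDerange.index_dvd hq hD' hts)
  have hsingle : ∀ (i : Fin n) (v : Fin n → F), Cfsg.hermForm n F q v (Pi.single i 1) = v i := fun i v => by
    simp [Cfsg.hermForm, Pi.single_apply, ite_pow, zero_pow (show q ≠ 0 by omega)]
  let e0 : Fin n := ⟨0, by omega⟩
  let e1 : Fin n := ⟨1, by omega⟩
  let e2 : Fin n := ⟨2, by omega⟩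
  have h01 : e0 ≠ e1 := by simp [e0, e1]
  constructor
  · intro H
    have key : ∀ x : GL (Fin n) F, x ∈ Cfsg.GU n F q → Matrix.det (x : Matrix (Fin n) (Fin n) F) = 1 → ∀ z : F,
        ((x ^ r : GL (Fin n) F) : Matrix (Fin n) (Fin n) F) = z • (1 : Matrix (Fin n) (Fin n) F) →
        (∀ z : F, (x : Matrix (Fin n) (Fin n) F) ≠ z • (1 : Matrix (Fin n) (Fin n) F)) →
        ∃ g ∈ GeomClasses.Unitary.SUgl n F q, g⁻¹ * x * g ∈ Cfsg.Geo.decompositionStabilizer D :=
      fun x hx hd z hz hns => H x ⟨hx, Cfsg.Agent.GeomClasses.mem_specialLinear_iff.mpr hd⟩ ⟨z, hz⟩ hns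
    have rankone : ∀ (x : GL (Fin n) F) (c : F) (u : Fin n → F) (φ : (Fin n → F) →ₗ[F] F),
        (∀ v, (x : Matrix (Fin n) (Fin n) F) *ᵥ v = c • v + φ v • u) → (∃ v, φ v ≠ 0) →
        (∀ W : Submodule F (Fin n → F), (∀ a ∈ W, ∀ b ∈ W, Cfsg.hermForm n F q a b = 0) → u ∈ W → ∀ w ∈ W, φ w = 0) →
        ¬ ∃ g ∈ GeomClasses.Unitary.SUgl n F q, g⁻¹ * x * g ∈ Cfsg.Geo.decompositionStabilizer D := by
      rintro x c u φ hx ⟨v₀, hv₀⟩ hW ⟨g, hg, h⟩
      obtain ⟨W, hWs, hWk, htop, hbot, σ, hσ⟩ := GeomClasses.HalvesDerange.invariant_of_conj hq hD' hts hg.1 h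
      by_cases hfix : σ 0 = 0
      · have hfix1 : σ 1 = 1 := (show ∀ a : Fin 2, a ≠ 0 → a = 1 by decide) _ (fun h' => absurd (σ.injective (h'.trans hfix.symm)) (by decide))
        have hsub : ∀ i, σ i = i → W i ≤ LinearMap.ker φ := by
          intro i hi w hw
          by_contra hne
          have hxw : (x : Matrix (Fin n) (Fin n) F) *ᵥ w ∈ W i := by
            have := hσ i
            rw [hi] at this
            exact this ▸ ⟨w, hw, rfl⟩
          rw [hx] at hxw
          have hu : φ w • u ∈ W i := ((W i).add_mem_iff_right ((W i).smul_mem c hw)).1 hxw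
          exact hne (hW (W i) (hWs i) (((W i).smul_mem_iff hne).1 hu) w hw)
        exact hv₀ ((eq_top_iff.1 (eq_top_iff.2 (htop ▸ sup_le (hsub 0 hfix) (hsub 1 hfix1))) : (⊤ : Submodule F (Fin n → F)) ≤ _) Submodule.mem_top)
      · have h1 : σ 0 = 1 := (show ∀ a : Fin 2, a ≠ 0 → a = 1 by decide) _ hfix
        have hinj : Function.Injective (φ.comp (W 0).subtype) := by
          rw [← LinearMap.ker_eq_bot, eq_bot_iff]
          intro w hw
          have hxw : (x : Matrix (Fin n) (Fin n) F) *ᵥ (w : Fin n → F) ∈ W 1 := by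
            have := hσ 0
            rw [h1] at this
            exact this ▸ ⟨w, w.2, rfl⟩
          have hxw0 : (x : Matrix (Fin n) (Fin n) F) *ᵥ (w : Fin n → F) = c • (w : Fin n → F) := by
            rw [hx, show φ (w : Fin n → F) = 0 from hw, zero_smul, add_zero]
          have : (x : Matrix (Fin n) (Fin n) F) *ᵥ (w : Fin n → F) ∈ W 0 ⊓ W 1 := ⟨hxw0 ▸ (W 0).smul_mem c w.2, hxw⟩
          rw [hbot, Submodule.mem_bot] at this
          have h' := congrArg ((x⁻¹ : GL (Fin n) F) : Matrix (Fin n) (Fin n) F).mulVec this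
          rw [Matrix.mulVec_mulVec, ← Units.val_mul, inv_mul_cancel, Units.val_one, Matrix.one_mulVec, Matrix.mulVec_zero] at h'
          exact (Submodule.mem_bot F).2 (Subtype.ext h')
        have := LinearMap.finrank_le_finrank_of_injective hinj
        rw [hWk, Module.finrank_self] at this
        omega
    by_cases hrp : r = p
    · -- transvection
      exfalso
      obtain ⟨c, hc⟩ := GeomClasses.Unitary.exists_norm hq (-1 : F) (GeomClasses.Unitary.pow_neg_q hq 1 |>.trans (by rw [one_pow]))
      obtain ⟨τ, hτ0, hτ⟩ := GeomClasses.Unitary.exists_trace_zero hq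
      let u : Fin n → F := Pi.single e0 1 + c • Pi.single e1 1
      have hv : ∀ v : Fin n → F, Cfsg.hermForm n F q v u = v e0 + c ^ q * v e1 := fun v => by
        rw [GeomClasses.Unitary.hh_add_right hq, GeomClasses.Unitary.hh_smul_right hq, hsingle, hsingle]
      have huu : Cfsg.hermForm n F q u u = 0 := by
        rw [hv]
        simp [u, h01, h01.symm, mul_comm (c ^ q) c, hc]
      set x := GeomClasses.Unitary.uT u τ huu
      have hmem := GeomClasses.Unitary.uT_mem hq u τ huu hτ
      have hxv : ∀ v, (x : Matrix (Fin n) (Fin n) F) *ᵥ v = v + (τ * Cfsg.hermForm n F q v u) • u :=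
        GeomClasses.Unitary.uT_mulVec u τ huu
      have hpow : ∀ (m : ℕ) v, ((x ^ m : GL (Fin n) F) : Matrix (Fin n) (Fin n) F) *ᵥ v =
          v + ((m : F) * (τ * Cfsg.hermForm n F q v u)) • u := by
        intro m
        induction m with
        | zero => intro v; simp
        | succ m ih =>
          intro v
          rw [pow_succ, Units.val_mul, ← Matrix.mulVec_mulVec, hxv, ih, GeomClasses.Unitary.hh_add_left hq,
            GeomClasses.Unitary.hh_smul_left hq, huu, mul_zero, add_zero, Nat.cast_succ, add_mul, one_mul, add_smul]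
          abel
      have hxr : ((x ^ r : GL (Fin n) F) : Matrix (Fin n) (Fin n) F) = (1 : F) • 1 := by
        refine Matrix.ext_iff_mulVec.mpr fun v => ?_
        rw [hpow, hrp, CharP.cast_eq_zero, zero_mul, zero_smul, add_zero, one_smul, Matrix.one_mulVec]
      let φ : (Fin n → F) →ₗ[F] F := τ • Cfsg.Agent.Forms.hermB n hq u
      refine rankone x 1 u φ (fun v => by rw [hxv, one_smul]; rfl) ⟨Pi.single e0 1, ?_⟩ ?_
        (key x hmem.1 (Cfsg.Agent.GeomClasses.mem_specialLinear_iff.mp hmem.2) 1 hxr fun z hz => ?_)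
      · show τ * Cfsg.hermForm n F q (Pi.single e0 1) u ≠ 0
        simp [hv, h01.symm, hτ0]
      · intro W hW hu w hw
        show τ * Cfsg.hermForm n F q w u = 0
        rw [hW w hw u hu, mul_zero]
      · have hz2 := congrFun ((hxv (Pi.single e2 1)).symm.trans (by rw [hz, Matrix.smul_mulVec, Matrix.one_mulVec])) e2
        have hz0 := congrFun ((hxv (Pi.single e0 1)).symm.trans (by rw [hz, Matrix.smul_mulVec, Matrix.one_mulVec])) e0
        simp [u, hv, e0, e1, e2] at hz2
        simp [u, hv, e0, e1, ← hz2, hτ0] at hz0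
    obtain ⟨nn, -, hnn⟩ := FiniteField.card F p
    have hrq : ¬ r ∣ q := fun h => hrp ((Nat.prime_dvd_prime_iff_eq hr hp).1 (hr.dvd_of_dvd_pow
      (show r ∣ p ^ (nn : ℕ) by rw [← hnn, hq]; exact dvd_pow h two_ne_zero)))
    obtain ⟨j, hj, hjd⟩ : ∃ i, i < k ∧ r ∣ q ^ (2 * i + 1) + 1 := by
      obtain ⟨i, hi, hdi⟩ := hr.prime.exists_mem_finset_dvd ((hr.dvd_mul.1 hX).resolve_left fun h => hrq (hr.dvd_of_dvd_pow h))
      exact ⟨i, Finset.mem_range.1 hi, hdi⟩
    have diag : ∀ d : Fin n → F, (∀ i, d i * d i ^ q = 1) → ∏ i, d i = 1 →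
        ∃ x : GL (Fin n) F, x ∈ Cfsg.GU n F q ∧ Matrix.det (x : Matrix (Fin n) (Fin n) F) = 1 ∧ (x : Matrix (Fin n) (Fin n) F) = Matrix.diagonal d := by
      intro d hd hd1
      have hdet : (Matrix.diagonal d).det = 1 := by rw [Matrix.det_diagonal, hd1]
      let x := Matrix.GeneralLinearGroup.mkOfDetNeZero (Matrix.diagonal d) (by rw [hdet]; exact one_ne_zero)
      exact ⟨x, GeomClasses.UnitaryEigenFrame.diag_mem hq rfl hd, hdet, rfl⟩
    rcases eq_or_ne r 2 with rfl | hr2
    · have hodd : Odd q := (Nat.even_or_odd q).resolve_left fun h => hrq h.two_dvd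
      refine ⟨rfl, hodd, ?_⟩
      by_contra hlt
      set v := padicValNat 2 n
      have hdvd : 2 ^ (v + 1) ∣ q + 1 := (pow_dvd_pow 2 (show v + 1 ≤ padicValNat 2 (q + 1) by omega)).trans pow_padicValNat_dvd
      obtain ⟨g, hg⟩ := IsCyclic.exists_generator (α := Fˣ)
      have hord : orderOf g = q ^ 2 - 1 := by
        rw [orderOf_eq_card_of_forall_mem_zpowers hg, Nat.card_units, Nat.card_eq_fintype_card, hq]
      have hdvd2 : 2 ^ (v + 1) ∣ orderOf g := hdvd.trans ⟨q - 1, by rw [hord]; simpa using Nat.sq_sub_sq q 1⟩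
      have hg0 : orderOf g ≠ 0 := by rw [hord]; nlinarith [Nat.sub_add_cancel (show 1 ≤ q ^ 2 by nlinarith)]
      set u : Fˣ := g ^ (orderOf g / 2 ^ (v + 1))
      have hu : orderOf u = 2 ^ (v + 1) := orderOf_pow_orderOf_div hg0 hdvd2
      have hneg : (u : F) ^ (2 ^ v) = -1 := by
        have h1 : ((u : F) ^ (2 ^ v)) * (u : F) ^ (2 ^ v) = 1 := by
          rw [← pow_add, ← two_mul, ← pow_succ', ← Units.val_pow_eq_pow_val, ← hu, pow_orderOf_eq_one, Units.val_one]
        rcases mul_self_eq_one_iff.1 h1 with h | h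
        · have h' : u ^ (2 ^ v) = 1 := Units.ext (by simpa using h)
          have := Nat.le_of_dvd (by positivity) (orderOf_dvd_of_pow_eq_one h')
          rw [hu, pow_succ] at this
          have := Nat.two_pow_pos v
          omega
        · exact h
      obtain ⟨m, hm⟩ : (2 ^ v) ∣ n := pow_padicValNat_dvd
      have hmodd : Odd m := by
        refine (Nat.even_or_odd m).resolve_left fun h => ?_
        obtain ⟨l, hl⟩ := h
        have : 2 ^ (v + 1) ∣ n := ⟨l, by rw [hm, hl, pow_succ]; ring⟩
        have h2 := (padicValNat_dvd_iff_le (p := 2) (by omega : n ≠ 0)).1 this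
        omega
      have hμn : (u : F) ^ n = -1 := by rw [hm, pow_mul, hneg, hmodd.neg_one_pow]
      have hμq : (u : F) * (u : F) ^ q = 1 := by
        obtain ⟨l, hl⟩ := hdvd
        rw [← pow_succ', hl, pow_mul, ← Units.val_pow_eq_pow_val u, ← hu, pow_orderOf_eq_one, Units.val_one, one_pow]
      let d : Fin n → F := Function.update (fun _ => (u : F)) e0 (-(u : F))
      have hd : ∀ i, d i * d i ^ q = 1 := fun i => by
        simp only [d, Function.update_apply]
        split_ifs
        · rw [hodd.neg_pow, neg_mul_neg]; exact hμq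
        · exact hμq
      obtain ⟨x, hxU, hxd, hxv⟩ := diag d hd (by
        have h : ∀ i, d i = (if i = e0 then (-1 : F) else 1) * (u : F) := fun i => by
          simp only [d, Function.update_apply]; split_ifs <;> ring
        simp only [h, Finset.prod_mul_distrib, Finset.prod_ite_eq', Finset.mem_univ, if_true, Finset.prod_const, Finset.card_univ,
          Fintype.card_fin, hμn]
        ring)
      have hx2 : ((x ^ 2 : GL (Fin n) F) : Matrix (Fin n) (Fin n) F) = ((u : F) * (u : F)) • 1 := by
        rw [pow_two, Units.val_mul, hxv, Matrix.diagonal_mul_diagonal, Matrix.smul_one_eq_diagonal]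
        congr 1; funext i
        simp only [d, Function.update_apply]; split_ifs <;> ring
      have h2F : (2 : F) ≠ 0 := fun h => hrp ((Nat.prime_dvd_prime_iff_eq hp Nat.prime_two).1
        ((CharP.cast_eq_zero_iff F p 2).1 (by exact_mod_cast h))).symm
      refine rankone x (u : F) (Pi.single e0 1) ((-2 * (u : F)) • LinearMap.proj e0) (fun w => funext fun i => ?_)
        ⟨Pi.single e0 1, by simp [h2F]⟩ (fun W hW hu w hw => ?_) (key x hxU hxd _ hx2 fun z hz => ?_)
      · rw [hxv, Matrix.mulVec_diagonal]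
        by_cases hi : i = e0 <;> simp [d, hi]
        ring
      · exfalso
        have := hW _ hu _ hu
        rw [hsingle] at this
        simp at this
      · have a0 := congrFun (congrFun hz e0) e0
        have a1 := congrFun (congrFun hz e1) e1
        simp [hxv, d, h01.symm] at a0 a1
        exact h2F ((mul_eq_zero.1 (show (2 : F) * (u : F) = 0 by linear_combination a1 - a0)).resolve_right u.ne_zero)
    exfalso
    have hodd := hr.odd_of_ne_two hr2
    by_cases h1 : r ∣ q + 1
    · obtain ⟨g, hg⟩ := exists_prime_orderOf_dvd_card' (G := Fˣ) r (by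
        rw [Nat.card_units, Nat.card_eq_fintype_card, hq]
        exact h1.trans ⟨q - 1, by simpa using Nat.sq_sub_sq q 1⟩)
      have hg1 : (g : F) ^ r = 1 := by rw [← Units.val_pow_eq_pow_val, ← hg, pow_orderOf_eq_one, Units.val_one]
      have hgne : (g : F) ≠ 1 := fun h => hr.one_lt.ne' (by rw [← hg, Units.ext (h.trans Units.val_one.symm), orderOf_one])
      have hgne2 : (g : F) ≠ (g : F)⁻¹ := fun h => by
        obtain ⟨l, hl⟩ := hodd
        have h2 : (g : F) ^ 2 = 1 := by rw [pow_two]; nth_rw 2 [h]; exact mul_inv_cancel₀ g.ne_zero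
        rw [hl, pow_succ, pow_mul, h2, one_pow, one_mul] at hg1
        exact hgne hg1
      let d : Fin n → F := Function.update (Function.update (fun _ => 1) e1 (g : F)⁻¹) e0 (g : F)
      have hgq : (g : F) * (g : F) ^ q = 1 := by
        obtain ⟨l, hl⟩ := h1
        rw [← pow_succ', hl, pow_mul, hg1, one_pow]
      obtain ⟨x, hxU, hxd, hxv⟩ := diag d (fun i => by
        simp only [d, Function.update_apply]
        split_ifs
        · exact hgq
        · rw [inv_pow, ← mul_inv, hgq, inv_one]
        · rw [one_pow, one_mul]) (by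
        have h : ∀ i, d i = (if i = e0 then (g : F) else 1) * (if i = e1 then (g : F)⁻¹ else 1) := fun i => by
          simp only [d, Function.update_apply]
          by_cases h : i = e0
          · simp [h, h01]
          · simp [h]
        simp only [h, Finset.prod_mul_distrib, Finset.prod_ite_eq', Finset.mem_univ, if_true]
        exact mul_inv_cancel₀ g.ne_zero)
      have hxr : x ^ r = 1 := Units.ext (by
        rw [Units.val_pow_eq_pow_val, hxv, Matrix.diagonal_pow, Units.val_one, ← Matrix.diagonal_one]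
        congr 1; funext i
        simp only [Pi.pow_apply, d, Function.update_apply]
        split_ifs
        · exact hg1
        · rw [inv_pow, hg1, inv_one]
        · exact one_pow r)
      refine GeomClasses.HalvesDerange.derangement hq hD' hts hodd hxr (K := LinearMap.ker (LinearMap.proj e0)) (fun h => ?_) ?_
        (key x hxU hxd 1 (by rw [hxr, Units.val_one, one_smul]) fun z hz => ?_)
      · have h' := (h.ge Submodule.mem_top : (Pi.single e0 1 : Fin n → F) ∈ _)
        simp at h'
      · intro W hW hinv w hw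
        have hy : (x : Matrix (Fin n) (Fin n) F) *ᵥ w - w ∈ W := W.sub_mem (hinv w hw) hw
        have hy2 := W.sub_mem (hinv _ hy) (W.smul_mem (g : F)⁻¹ hy)
        have he : (x : Matrix (Fin n) (Fin n) F) *ᵥ ((x : Matrix (Fin n) (Fin n) F) *ᵥ w - w) - (g : F)⁻¹ • ((x : Matrix (Fin n) (Fin n) F) *ᵥ w - w)
            = ((((g : F) - (g : F)⁻¹) * ((g : F) - 1)) * w e0) • Pi.single e0 1 := by
          funext i
          simp only [hxv, Matrix.mulVec_diagonal, Pi.sub_apply, Pi.smul_apply, smul_eq_mul, d, Function.update_apply, Pi.single_apply]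
          by_cases hi : i = e0
          · subst hi; simp; ring
          · by_cases hi' : i = e1
            · subst hi'; simp [h01.symm]
            · simp [hi, hi']
        rw [he] at hy2
        by_contra hne
        have hne' : (((g : F) - (g : F)⁻¹) * ((g : F) - 1)) * w e0 ≠ 0 :=
          mul_ne_zero (mul_ne_zero (sub_ne_zero.2 hgne2) (sub_ne_zero.2 hgne)) hne
        have h1' := (W.smul_mem_iff hne').1 hy2
        have := hW _ h1' _ h1'
        rw [hsingle] at this
        simp at this
      · have a0 := congrFun (congrFun hz e0) e0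
        have a2 := congrFun (congrFun hz e2) e2
        simp [hxv, d, e0, e1, e2] at a0 a2
        exact hgne (a0.trans a2.symm)
    -- irreducible block of odd dimension
    set o := orderOf ((q ^ 2 : ℕ) : ZMod r) with ho
    have hqj : (q : ZMod r) ^ (2 * j + 1) = -1 := by
      have : ((q ^ (2 * j + 1) + 1 : ℕ) : ZMod r) = 0 := (ZMod.natCast_eq_zero_iff _ _).2 hjd
      push_cast at this
      exact eq_neg_of_add_eq_zero_left this
    have hoj : o ∣ 2 * j + 1 := orderOf_dvd_of_pow_eq_one (by push_cast; rw [← pow_mul, mul_comm, pow_mul, hqj]; ring)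
    obtain ⟨mo, hmo⟩ := hoj
    have hqo : (q : ZMod r) ^ o = -1 := by
      have hsq : (q : ZMod r) ^ o * (q : ZMod r) ^ o = 1 := by
        rw [← mul_pow, ← pow_two, ← Nat.cast_pow, ho]; exact pow_orderOf_eq_one _
      rcases mul_self_eq_one_iff.1 hsq with h | h
      · exfalso
        rw [hmo, pow_mul, h, one_pow] at hqj
        have : ((2 : ℕ) : ZMod r) = 0 := by push_cast; linear_combination hqj
        exact hr2 ((Nat.prime_dvd_prime_iff_eq hr Nat.prime_two).1 ((ZMod.natCast_eq_zero_iff _ _).1 this))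
      · exact h
    have hodo : r ∣ q ^ o + 1 := (ZMod.natCast_eq_zero_iff _ _).1 (by push_cast; rw [hqo, neg_add_cancel])
    have hoodd : Odd o := (Nat.odd_mul.1 (hmo ▸ odd_two_mul_add_one j : Odd (o * mo))).1
    have hon : o ≤ n := le_trans (Nat.le_of_dvd (by omega) ⟨mo, hmo⟩) (by omega)
    have ho1 : o ≠ 1 := fun h => h1 (by rw [h, pow_one] at hodo; exact hodo)
    obtain ⟨x₀, hx₀⟩ := exists_prime_orderOf_dvd_card' (G := ↥(Cfsg.GU o F q)) r (by
      rw [Cfsg.Agent.Forms.card_GU hq o]
      refine dvd_mul_of_dvd_right (dvd_trans ?_ (Finset.dvd_prod_of_mem _ (Finset.mem_range.2 (show o - 1 < o by have := hoodd.pos; omega)))) _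
      rw [if_pos (Nat.Odd.sub_odd hoodd odd_one), Nat.sub_add_cancel hoodd.pos]
      exact hodo)
    set M : Matrix (Fin o) (Fin o) F := ((x₀ : GL (Fin o) F) : Matrix (Fin o) (Fin o) F) with hM
    have hMr : M ^ r = 1 := by
      rw [hM, ← Units.val_pow_eq_pow_val, ← SubgroupClass.coe_pow, ← hx₀, pow_orderOf_eq_one]; rfl
    have hM1 : M ≠ 1 := fun h => hr.one_lt.ne' (by
      rw [← hx₀, show x₀ = 1 from Subtype.ext (Units.ext h), orderOf_one])
    have hMdet : M.det = 1 := by
      have h1' := congrArg Matrix.det hMr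
      rw [Matrix.det_pow, Matrix.det_one] at h1'
      exact (pow_one M.det).symm.trans ((Nat.coprime_iff_gcd_eq_one.1 (hr.coprime_iff_not_dvd.2 h1)) ▸
        (pow_gcd_eq_one.2 ⟨h1', GeomClasses.HalvesDerange.det_norm hq x₀.2⟩))
    set T : Module.End F (Fin o → F) := Matrix.toLinAlgEquiv' M with hT'
    have hTr : T ^ r = 1 := by rw [hT', ← map_pow, hMr, map_one]
    have hqq : ¬ r ∣ q ^ 2 := fun h => hrq (hr.dvd_of_dvd_pow h)
    have hfree : ∀ U : Submodule F (Fin o → F), (∀ a ∈ U, T a ∈ U) → Module.finrank F U ≡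
        Module.finrank F ↥(U ⊓ LinearMap.ker (T - 1)) [MOD o] :=
      fun U hU => GeomClasses.SubspaceDerange.dim_mod hq hqq ho hTr hU
    have hker : LinearMap.ker (T - 1) = ⊥ := by
      have h := hfree ⊤ (fun _ _ => trivial)
      rw [top_inf_eq, finrank_top, Module.finrank_fin_fun, Nat.ModEq, Nat.mod_self] at h
      have hle := (Submodule.finrank_le (LinearMap.ker (T - 1))).trans_eq (Module.finrank_fin_fun F)
      rcases hle.lt_or_eq with hlt | heq
      · rw [Nat.mod_eq_of_lt hlt] at h
        exact Submodule.finrank_eq_zero.1 h.symm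
      · have htop : T = 1 := sub_eq_zero.1 (LinearMap.ker_eq_top.1 (Submodule.eq_top_of_finrank_eq (by simpa using heq)))
        exact absurd (Matrix.toLinAlgEquiv'.injective (htop.trans (map_one _).symm)) hM1
    obtain ⟨R, hR⟩ : ∃ R, n = o + R := ⟨n - o, by omega⟩
    let ε : Fin o ⊕ Fin R ≃ Fin n := finSumFinEquiv.trans (finCongr hR.symm)
    let X : Matrix (Fin n) (Fin n) F := Matrix.reindex ε ε (Matrix.fromBlocks M 0 0 1)
    have hXl : ∀ v l, (X *ᵥ v) (ε (Sum.inl l)) = (M *ᵥ fun m => v (ε (Sum.inl m))) l := fun v l => by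
      simp [X, Matrix.mulVec, dotProduct, ← ε.sum_comp, Fintype.sum_sum_type]
    have hXr : ∀ v l, (X *ᵥ v) (ε (Sum.inr l)) = v (ε (Sum.inr l)) := fun v l => by
      simp [X, Matrix.mulVec, dotProduct, ← ε.sum_comp, Fintype.sum_sum_type, Matrix.one_apply]
    have hsplit : ∀ a b : Fin n → F, Cfsg.hermForm n F q a b = Cfsg.hermForm o F q (fun m => a (ε (Sum.inl m))) (fun m => b (ε (Sum.inl m))) +
        ∑ l, a (ε (Sum.inr l)) * b (ε (Sum.inr l)) ^ q := fun a b => by
      simp only [Cfsg.hermForm]
      rw [← ε.sum_comp, Fintype.sum_sum_type]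
    have hXdet : X.det = 1 := by simp [X, hMdet]
    let x : GL (Fin n) F := Matrix.GeneralLinearGroup.mkOfDetNeZero X (by rw [hXdet]; exact one_ne_zero)
    have hxv : (x : Matrix (Fin n) (Fin n) F) = X := rfl
    have hxU : x ∈ Cfsg.GU n F q := GeomClasses.Unitary.mem_GU_iff.mpr fun a b => by
      rw [hxv, hsplit, hsplit a b]
      simp only [hXl, hXr]
      exact congrArg (· + _) (x₀.2 _ _)
    have hxr : x ^ r = 1 := Units.ext (by
      rw [Units.val_pow_eq_pow_val, hxv, Units.val_one]
      have h' : ∀ m : ℕ, X ^ m = Matrix.reindex ε ε (Matrix.fromBlocks (M ^ m) 0 0 1) := fun m => by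
        induction m with
        | zero => simp [Matrix.fromBlocks_one]
        | succ m ih =>
          rw [pow_succ, ih]
          simp [X, Matrix.fromBlocks_multiply, pow_succ]
      rw [h', hMr]; simp [Matrix.fromBlocks_one])
    have hop : 0 < o := hoodd.pos
    let π : (Fin n → F) →ₗ[F] (Fin o → F) := LinearMap.funLeft F F (fun m => ε (Sum.inl m))
    refine GeomClasses.HalvesDerange.derangement hq hD' hts hodd hxr (K := LinearMap.ker π) (fun h => ?_) ?_
      (key x hxU hXdet 1 (by rw [hxr, Units.val_one, one_smul]) fun z hz => ?_)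
    · have h' := congrFun (LinearMap.congr_fun (LinearMap.ker_eq_top.1 h) (Pi.single (ε (Sum.inl ⟨0, hop⟩)) 1)) ⟨0, hop⟩
      simp [π, LinearMap.funLeft] at h'
    · intro W hW hinv w hw
      let ι : (Fin o → F) →ₗ[F] (Fin n → F) :=
        { toFun := fun a i => Sum.elim a (fun _ => 0) (ε.symm i)
          map_add' := fun a b => funext fun i => by rcases h : ε.symm i with l | l <;> simp [h]
          map_smul' := fun s a => funext fun i => by rcases h : ε.symm i with l | l <;> simp [h] }
      have hιl : ∀ a l, ι a (ε (Sum.inl l)) = a l := fun a l => by simp [ι]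
      have hιr : ∀ a l, ι a (ε (Sum.inr l)) = 0 := fun a l => by simp [ι]
      have hXι : ∀ a, X *ᵥ ι a = ι (T a) := fun a => funext fun i => by
        obtain ⟨l | l, rfl⟩ := ε.surjective i
        · rw [hXl, hιl]; simp [hιl, T]
        · rw [hXr, hιr, hιr]
      have hU : ∀ a ∈ W.comap ι, T a ∈ W.comap ι := fun a ha => by
        show ι (T a) ∈ W
        rw [← hXι]; exact hinv _ ha
      have hUs : ∀ a ∈ W.comap ι, ∀ b ∈ W.comap ι, Cfsg.hermForm o F q a b = 0 := fun a ha b hb => by
        have h' := hW _ ha _ hb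
        rw [hsplit] at h'
        simpa [hιl, hιr] using h'
      have hU0 : W.comap ι = ⊥ := by
        have h' := hfree _ hU
        rw [hker, inf_bot_eq, finrank_bot] at h'
        have h4 := (Cfsg.Agent.Forms.isForm_herm (n := o) hq).finrank_le_of_le_perp (X := W.comap ι)
          (fun b hb => (GeomClasses.Unitary.mem_perp_iff hq).2 fun a ha => hUs b hb a ha)
        rw [Module.finrank_fin_fun] at h4
        refine Submodule.finrank_eq_zero.1 ?_
        rw [Nat.ModEq, Nat.mod_eq_of_lt (by omega), Nat.zero_mod] at h'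
        exact h'
      have hd' : ι (T (π w) - π w) = X *ᵥ w - w := funext fun i => by
        obtain ⟨l | l, rfl⟩ := ε.surjective i
        · rw [hιl]; simp [hXl, T, π, LinearMap.funLeft, Function.comp_def]
        · rw [hιr]; simp [hXr]
      have h' : T (π w) - π w ∈ W.comap ι := by
        show ι _ ∈ W
        rw [hd']; exact W.sub_mem (hinv w hw) hw
      rw [hU0, Submodule.mem_bot] at h'
      have h'' : π w ∈ LinearMap.ker (T - 1) := h'
      rwa [hker, Submodule.mem_bot] at h''
    · have hz2 : M = z • 1 := by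
        ext a b
        have h' := congrFun (congrFun hz (ε (Sum.inl a))) (ε (Sum.inl b))
        simpa [hxv, X, Matrix.one_apply, ε.injective.eq_iff] using h'
      by_cases hR0 : R = 0
      · have hzr : z ^ r = 1 := by
          have h' := congrFun (congrFun hMr ⟨0, hop⟩) ⟨0, hop⟩
          rw [hz2, smul_pow, one_pow] at h'
          simpa using h'
        have hzq : z * z ^ q = 1 := by
          have h' : Cfsg.hermForm o F q (M *ᵥ _) (M *ᵥ _) = _ := x₀.2 (Pi.single ⟨0, hop⟩ 1) (Pi.single ⟨0, hop⟩ 1)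
          rw [hz2, Matrix.smul_mulVec, Matrix.one_mulVec] at h'
          simpa [Cfsg.hermForm, Pi.single_apply, Matrix.smul_mulVec, ite_pow, zero_pow (show q ≠ 0 by omega)] using h'
        have : z = 1 := (pow_one z).symm.trans ((Nat.coprime_iff_gcd_eq_one.1 (hr.coprime_iff_not_dvd.2 h1)) ▸
          (pow_gcd_eq_one.2 ⟨hzr, by rw [pow_succ']; exact hzq⟩))
        exact hM1 (by rw [hz2, this, one_smul])
      · have h' := congrFun (congrFun hz (ε (Sum.inr ⟨0, by omega⟩))) (ε (Sum.inr ⟨0, by omega⟩))
        simp [hxv, X] at h'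
        exact hM1 (by rw [hz2, ← h', one_smul])
  · rintro ⟨rfl, hodd, hle⟩ x hx ⟨z, hz⟩ -
    have h2F : (2 : F) ≠ 0 := fun h => by
      obtain ⟨nn, -, hnn⟩ := FiniteField.card F p
      obtain rfl := (Nat.prime_dvd_prime_iff_eq hp Nat.prime_two).1 ((CharP.cast_eq_zero_iff F p 2).1 (by exact_mod_cast h))
      exact (Nat.not_even_iff_odd.2 (hodd.pow (n := 2))) (by rw [← hq, hnn]; exact (Nat.even_pow' nn.ne_zero).2 even_two)
    set X := (x : Matrix (Fin n) (Fin n) F) with hX'
    have hXU : ∀ a b, Cfsg.hermForm n F q (X *ᵥ a) (X *ᵥ b) = Cfsg.hermForm n F q a b := hx.1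
    have hXX : ∀ v, X *ᵥ (X *ᵥ v) = z • v := fun v => by
      rw [Matrix.mulVec_mulVec, hX', ← Units.val_mul, ← pow_two, hz, Matrix.smul_mulVec, Matrix.one_mulVec]
    have hzU : z * z ^ q = 1 := by
      have h := (hXU _ _).trans (hXU (Pi.single e0 1) (Pi.single e0 1))
      rw [hXX, GeomClasses.Unitary.hh_smul_left hq, GeomClasses.Unitary.hh_smul_right hq, hsingle] at h
      simpa using h
    have hz0 : z ≠ 0 := fun h => by rw [h, zero_mul] at hzU; exact zero_ne_one hzU
    obtain ⟨μ, hμ⟩ : IsSquare z := by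
      refine (FiniteField.isSquare_iff (fun h => h2F ?_) hz0).2 ?_
      · have := ringChar.Nat.cast_ringChar (R := F)
        rw [h] at this; exact_mod_cast this
      · obtain ⟨l, hl⟩ := hodd
        rw [hq, show q ^ 2 / 2 = (q + 1) * l by
          have e : q ^ 2 = 2 * ((q + 1) * l) + 1 := by rw [hl]; ring
          omega, pow_mul, pow_succ', hzU, one_pow]
    have hμ0 : μ ≠ 0 := fun h => hz0 (by rw [hμ, h, mul_zero])
    have hμμ : μ * μ ^ q = 1 ∨ μ * μ ^ q = -1 := mul_self_eq_one_iff.1 (by rw [mul_mul_mul_comm, ← mul_pow, ← hμ, hzU])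
    have hsplit2 : ∀ v, ∃ a b, X *ᵥ a = μ • a ∧ X *ᵥ b = (-μ) • b ∧ a + b = v := fun v => by
      refine ⟨(2 : F)⁻¹ • (v + μ⁻¹ • (X *ᵥ v)), (2 : F)⁻¹ • (v - μ⁻¹ • (X *ᵥ v)), ?_, ?_, ?_⟩
      · rw [Matrix.mulVec_smul, Matrix.mulVec_add, Matrix.mulVec_smul, hXX, hμ]
        match_scalars <;> field_simp
      · rw [Matrix.mulVec_smul, Matrix.mulVec_sub, Matrix.mulVec_smul, hXX, hμ]
        match_scalars <;> field_simp
      · match_scalars <;> field_simp <;> ring
    have finish : ∀ W : Fin 2 → Submodule F (Fin n → F), (∀ i, ∀ a ∈ W i, ∀ b ∈ W i, Cfsg.hermForm n F q a b = 0) →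
        W 0 ⊔ W 1 = ⊤ → (∀ i, ∀ v ∈ W i, X *ᵥ v ∈ W i) →
        ∃ g ∈ Cfsg.GU n F q ⊓ Cfsg.Geo.specialLinear (Fin n) F, g⁻¹ * x * g ∈ Cfsg.Geo.decompositionStabilizer D := by
      intro W hs htop hinv
      refine GeomClasses.HalvesDerange.conj_of_pair hq hD' hts (GeomClasses.HalvesDerange.pair_decomp hq (by omega) (by omega) hs htop) hs 1 fun i => ?_
      refine Submodule.eq_of_le_of_finrank_eq (by rintro _ ⟨v, hv, rfl⟩; exact hinv i v hv) ?_
      refine (Submodule.equivMapOfInjective _ (fun a b hab => ?_) (W i)).finrank_eq.symm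
      have h' := congrArg ((x⁻¹ : GL (Fin n) F) : Matrix (Fin n) (Fin n) F).mulVec hab
      simpa [Matrix.toLin'_apply, Matrix.mulVec_mulVec, hX'] using h'
    rcases hμμ with hμ1 | hμ1
    · have hμn : μ ^ n = 1 := by
        have hdet : X.det = 1 := Cfsg.Agent.GeomClasses.mem_specialLinear_iff.mp hx.2
        have h1 : μ ^ n * μ ^ n = 1 := by
          have h' := congrArg Matrix.det hz
          rw [pow_two, Units.val_mul, Matrix.det_mul, hdet, mul_one, Matrix.det_smul, Matrix.det_one, mul_one, Fintype.card_fin, hμ, mul_pow] at h'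
          exact h'.symm
        set u : Fˣ := Units.mk0 μ hμ0
        set o := orderOf u
        have d1 : o ∣ q + 1 := orderOf_dvd_of_pow_eq_one (Units.ext (by simpa [u, pow_succ'] using hμ1))
        have d2 : o ∣ n * 2 := orderOf_dvd_of_pow_eq_one (Units.ext (by simpa [u, pow_mul, pow_two] using h1))
        by_contra hne
        have d3 : ¬ o ∣ n := fun h => hne (by simpa [u] using congrArg Units.val (orderOf_dvd_iff_pow_eq_one.1 h))
        have ho0 : o ≠ 0 := fun h => by rw [h, Nat.zero_dvd] at d1; omega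
        obtain ⟨m, hm⟩ := (pow_padicValNat_dvd : 2 ^ padicValNat 2 o ∣ o)
        have hm2 : ¬ 2 ∣ m := fun ⟨l, hl⟩ => by
          have h' : 2 ^ (padicValNat 2 o + 1) ∣ o := ⟨l, by rw [pow_succ, mul_assoc, ← hl, ← hm]⟩
          have := (padicValNat_dvd_iff_le (p := 2) ho0).1 h'
          omega
        have hmn : m ∣ n := (Nat.prime_two.coprime_iff_not_dvd.2 hm2).symm.dvd_of_dvd_mul_right ((Dvd.intro_left _ hm.symm).trans d2)
        refine d3 (hm ▸ Nat.Coprime.mul_dvd_of_dvd_of_dvd ((Nat.prime_two.coprime_iff_not_dvd.2 hm2).pow_left _) ?_ hmn)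
        have := (padicValNat_dvd_iff_le (p := 2) (by omega : q + 1 ≠ 0)).1 ((pow_padicValNat_dvd (n := o) (p := 2)).trans d1)
        exact (pow_dvd_pow 2 (this.trans hle)).trans pow_padicValNat_dvd
      obtain ⟨d, g, hg, hdE, hxg⟩ := GeomClasses.UnitaryEigenFrame.exists_frame hq hXU {μ, -μ} (by
        rintro c (rfl | rfl)
        · exact hμ1
        · rw [hodd.neg_pow, neg_mul_neg]; exact hμ1) (by
        refine eq_top_iff.2 fun v _ => ?_
        obtain ⟨a, b, ha, hb, rfl⟩ := hsplit2 v
        exact Submodule.add_mem _ (Submodule.subset_span ⟨μ, Or.inl rfl, ha⟩) (Submodule.subset_span ⟨-μ, Or.inr rfl, hb⟩))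
      set G := (g : Matrix (Fin n) (Fin n) F) with hG
      let S := Finset.univ.filter fun i => d i = -μ
      have hμneg : -μ ≠ μ := fun h => hμ0 ((mul_eq_zero.1 (show (2 : F) * μ = 0 by linear_combination -h)).resolve_left h2F)
      have hdS : ∀ i, d i = (if i ∈ S then (-1 : F) else 1) * μ := fun i => by
        rcases hdE i with h | h <;> simp [S, Set.mem_singleton_iff.1 h, hμneg.symm, h] <;> ring
      have hSe : Even S.card := by
        have h' := congrArg Matrix.det hxg
        rw [Matrix.det_mul, Matrix.det_mul, show X.det = 1 from Cfsg.Agent.GeomClasses.mem_specialLinear_iff.mp hx.2, one_mul, Matrix.det_diagonal] at h'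
        have h1 := mul_eq_left₀ ((Matrix.isUnit_iff_isUnit_det G).1 g.isUnit).ne_zero |>.1 h'.symm
        simp only [hdS, Finset.prod_mul_distrib, Finset.prod_const, Finset.card_univ, Fintype.card_fin, hμn, mul_one,
          Finset.prod_ite_mem, Finset.univ_inter] at h1
        rcases Nat.even_or_odd S.card with h | h
        · exact h
        · rw [h.neg_one_pow] at h1
          exact absurd (show (2 : F) = 0 by linear_combination -h1) h2F
      obtain ⟨j, hj⟩ := hSe
      obtain ⟨l, hl⟩ : Even Sᶜ.card := by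
        rw [Finset.card_compl, Fintype.card_fin, hj, hk]; exact ⟨k - j, by omega⟩
      let e : (Fin j ⊕ Fin l) × Fin 2 ≃ Fin n :=
        (Equiv.sumProdDistrib _ _ _).trans (((Equiv.sumCongr (finProdFinEquiv.trans (S.equivFinOfCardEq (by omega)).symm)
          (finProdFinEquiv.trans (Sᶜ.equivFinOfCardEq (by omega)).symm)).trans
          (Equiv.sumCongr (Equiv.refl _) (Equiv.subtypeEquivRight (fun i => Finset.mem_compl)))).trans (Equiv.sumCompl fun i => i ∈ S))
      have hed : ∀ J a b, d (e (J, a)) = d (e (J, b)) := by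
        intro J a b
        rw [hdS, hdS]
        have hmem : ∀ x : ↥Sᶜ, (x : Fin n) ∉ S := fun x => Finset.mem_compl.1 x.2
        rcases J with J | J <;> simp [e, hmem]
      let f : Fin n → Fin n → F := fun i => G *ᵥ Pi.single i 1
      have hf : ∀ i i', Cfsg.hermForm n F q (f i) (f i') = if i = i' then 1 else 0 := fun i i' => by
        rw [GeomClasses.Unitary.mem_GU_iff.1 hg, hsingle]
        simp [Pi.single_apply, eq_comm]
      have hXf : ∀ i, X *ᵥ f i = d i • f i := fun i => by
        simp only [f]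
        rw [Matrix.mulVec_mulVec, hxg, ← Matrix.mulVec_mulVec, ← Matrix.mulVec_smul]
        congr 1
        funext i'
        simp [Pi.single_apply]
      obtain ⟨c, hc⟩ := GeomClasses.Unitary.exists_norm hq (-1 : F) (GeomClasses.Unitary.pow_neg_q hq 1 |>.trans (by rw [one_pow]))
      let s : Fin 2 → F := ![c, -c]
      let W : Fin 2 → Submodule F (Fin n → F) := fun i => Submodule.span F (Set.range fun J => f (e (J, 0)) + s i • f (e (J, 1)))
      have hs : ∀ i, s i * s i ^ q = -1 := fun i => by
        fin_cases i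
        · exact hc
        · show -c * (-c) ^ q = -1
          rw [hodd.neg_pow, neg_mul_neg, hc]
      refine finish W (fun i a ha b hb => ?_) (eq_top_iff.2 ?_) (fun i v hv => ?_)
      · obtain ⟨α, rfl⟩ := Submodule.mem_span_range_iff_exists_fun (R := F) |>.1 ha
        obtain ⟨β, rfl⟩ := Submodule.mem_span_range_iff_exists_fun (R := F) |>.1 hb
        simp only [GeomClasses.HalvesDerange.hh_sum_left hq, GeomClasses.HalvesDerange.hh_sum_right hq,
          GeomClasses.Unitary.hh_smul_left hq, GeomClasses.Unitary.hh_smul_right hq, GeomClasses.Unitary.hh_add_left hq,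
          GeomClasses.Unitary.hh_add_right hq, hf, e.apply_eq_iff_eq, Prod.mk.injEq]
        refine Finset.sum_eq_zero fun J _ => Finset.sum_eq_zero fun J' _ => ?_
        by_cases hJ : J = J'
        · simp [hJ]
          right; right
          linear_combination hs i
        · simp [hJ]
      · have hcol : ∀ i, f i ∈ W 0 ⊔ W 1 := by
          intro i
          obtain ⟨⟨J, a⟩, rfl⟩ := e.surjective i
          have h0 : f (e (J, 0)) + c • f (e (J, 1)) ∈ W 0 ⊔ W 1 := Submodule.mem_sup_left (Submodule.subset_span ⟨J, rfl⟩)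
          have h1 : f (e (J, 0)) + (-c) • f (e (J, 1)) ∈ W 0 ⊔ W 1 := Submodule.mem_sup_right (Submodule.subset_span ⟨J, rfl⟩)
          have hc0 : c ≠ 0 := fun h => by rw [h, zero_mul] at hc; exact one_ne_zero (neg_eq_zero.1 hc.symm)
          rcases (show a = 0 ∨ a = 1 by omega) with rfl | rfl
          · have := Submodule.smul_mem _ (2 : F)⁻¹ (Submodule.add_mem _ h0 h1)
            convert this using 1
            match_scalars <;> field_simp <;> ring
          · have := Submodule.smul_mem _ (2 * c)⁻¹ (Submodule.sub_mem _ h0 h1)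
            convert this using 1
            match_scalars <;> field_simp <;> ring
        intro v _
        have hv : v = G *ᵥ (((g⁻¹ : GL (Fin n) F) : Matrix (Fin n) (Fin n) F) *ᵥ v) := by
          rw [Matrix.mulVec_mulVec, hG, ← Units.val_mul, mul_inv_cancel, Units.val_one, Matrix.one_mulVec]
        rw [hv, ← Finset.univ_sum_single (((g⁻¹ : GL (Fin n) F) : Matrix (Fin n) (Fin n) F) *ᵥ v), Matrix.mulVec_sum]
        refine Submodule.sum_mem _ fun i _ => ?_
        rw [← mul_one ((((g⁻¹ : GL (Fin n) F) : Matrix (Fin n) (Fin n) F) *ᵥ v) i), ← smul_eq_mul, Pi.single_smul, Matrix.mulVec_smul]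
        exact Submodule.smul_mem _ _ (hcol i)
      · refine (show (W i).map (Matrix.mulVecLin X) ≤ W i from ?_) ⟨v, hv, rfl⟩
        rw [Submodule.map_span_le]
        rintro _ ⟨J, rfl⟩
        rw [Matrix.mulVecLin_apply, Matrix.mulVec_add, Matrix.mulVec_smul, hXf, hXf, hed J 1 0, smul_comm (s i), ← smul_add]
        exact Submodule.smul_mem _ _ (Submodule.subset_span ⟨J, rfl⟩)
    · let ν : Fin 2 → F := ![μ, -μ]
      refine finish (fun i => LinearMap.ker (Matrix.mulVecLin X - ν i • 1)) (fun i a ha b hb => ?_) (eq_top_iff.2 fun v _ => ?_) (fun i v hv => ?_)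
      · have ha' : X *ᵥ a = ν i • a := sub_eq_zero.1 (by simpa using ha)
        have hb' : X *ᵥ b = ν i • b := sub_eq_zero.1 (by simpa using hb)
        have hν : ν i * ν i ^ q = -1 := by
          fin_cases i
          · exact hμ1
          · show -μ * (-μ) ^ q = -1
            rw [hodd.neg_pow, neg_mul_neg, hμ1]
        have h' := hXU a b
        rw [ha', hb', GeomClasses.Unitary.hh_smul_left hq, GeomClasses.Unitary.hh_smul_right hq] at h'
        exact (mul_eq_zero.1 (show (2 : F) * Cfsg.hermForm n F q a b = 0 by linear_combination -h' + Cfsg.hermForm n F q a b * hν)).resolve_left h2F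
      · obtain ⟨a, b, ha, hb, rfl⟩ := hsplit2 v
        exact Submodule.add_mem_sup (by simp [ν, ha]) (by simp [ν, hb])
      · have hv' : X *ᵥ v = ν i • v := sub_eq_zero.1 (by simpa using hv)
        rw [hv']
        exact Submodule.smul_mem _ _ hv

end Cfsg.Agent.S5984
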