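import Cfsg.Statements.S5985
import Cfsg.Agent.GeomClasses.NonsingPoint

set_option autoImplicit false
open scoped MatrixGroups
open Cfsg

namespace Cfsg.Agent.S5985

/-- Elements of prime order of Ω⁺_n(q), q even, with no fixed nonsingular 1-space. Here `T = PΩ⁺_n(F)`, `n = 2d ≥ 8`, realised through `Ω⁺_n(q)`, the commutator subgroup of the isometry group of `Q = Σ xᵢyᵢ` over the field `F` with `q` elements; an element of `T` of prime order `r` is an element `x` of `Ω⁺_n(q)` with `x^r` scalar and `x` not scalar; `q` is even (so the centre is trivial). Let Ω be the set of 1-dimensional subspaces spanned by a vector `v` with `Q(v) ≠ 0`, and let `r` be a prime dividing their number. Then every element of `T` of order `r` fixes some nonsingular 1-space if and only if `r = 2` and `n ≡ 2 (mod 4)` (that is, `d` is odd). -/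
theorem result {F : Type*} [Field F] [Fintype F] {p : ℕ} [Fact p.Prime] [CharP F p] {q : ℕ} (hq : Fintype.card F = q)
    (hp : p = 2) (d : ℕ) (hd : 4 ≤ d) (r : ℕ) [Fact r.Prime]
    (hrΩ : r ∣ Nat.card {W : Submodule F (Fin d ⊕ Fin d → F) // Module.finrank F ↥W = 1 ∧ ∃ v ∈ W, Cfsg.quadFormPlus d F v ≠ 0}) :
    (∀ x : GL (Fin d ⊕ Fin d) F, x ∈ Cfsg.Geo.omegaGL (Cfsg.quadFormPlus d F) →
      (∃ z : F, ((x ^ r : GL (Fin d ⊕ Fin d) F) : Matrix (Fin d ⊕ Fin d) (Fin d ⊕ Fin d) F) = z • (1 : Matrix (Fin d ⊕ Fin d) (Fin d ⊕ Fin d) F)) →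
      (∀ z : F, (x : Matrix (Fin d ⊕ Fin d) (Fin d ⊕ Fin d) F) ≠ z • (1 : Matrix (Fin d ⊕ Fin d) (Fin d ⊕ Fin d) F)) →
      ∃ W : Submodule F (Fin d ⊕ Fin d → F), (Module.finrank F ↥W = 1 ∧ ∃ v ∈ W, Cfsg.quadFormPlus d F v ≠ 0) ∧ W.map (Matrix.toLin' (x : Matrix (Fin d ⊕ Fin d) (Fin d ⊕ Fin d) F)) ≤ W) ↔ (r = 2 ∧ Odd d) := by
  subst hp
  classical
  open Cfsg.Agent.GeomClasses.NonsingPoint in
  open Cfsg.Agent.Forms in
  (rw [← coe_qPlus] at hrΩ ⊢
   have hnd := qPlus_nondegenerate (m := d) (F := F)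
   have hcard : 5 ≤ Fintype.card (Fin d ⊕ Fin d) := by simp; omega
   constructor
   · intro h
     by_cases hr2 : r = 2
     · refine ⟨hr2, Nat.not_even_iff_odd.1 fun he => ?_⟩
       obtain ⟨x, hx, hx2, hfix⟩ := exists_plus_involution (F := F) (d := d) (by omega) he
       have hpres := Cfsg.Agent.GeomClasses.omegaGL_preserves _ hx
       obtain ⟨v, hv, hxv⟩ := (line_iff hpres).1 (h x hx ⟨1, by rw [hr2, hx2, one_smul, Units.val_one]⟩
         (not_scalar (⟨Pi.single (Sum.inl ⟨0, by omega⟩) 1 + Pi.single (Sum.inr ⟨0, by omega⟩) 1, by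
           simp [Cfsg.quadFormPlus, Pi.single_apply, add_mul, mul_add]⟩) hpres hfix))
       exact hv (hfix v hxv)
     · exfalso
       have hr := (Fact.out : r.Prime)
       have hodd : Odd r := hr.eq_two_or_odd'.resolve_left hr2
       rw [card_points_plus hq (by omega)] at hrΩ
       have hdvd : r ∣ q ^ d - 1 := (hr.dvd_mul.1 hrΩ).resolve_left fun hd' => by
         obtain ⟨n, -, hn⟩ := FiniteField.card F 2
         rw [hq] at hn
         rw [hn, ← pow_mul] at hd'
         exact hr2 ((Nat.prime_dvd_prime_iff_eq hr Nat.prime_two).1 (hr.dvd_of_dvd_pow hd'))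
       obtain ⟨x, hx, hxr, hfix⟩ := exists_plus_element hq (d := d) (by omega) hr hodd hdvd
       have hpres := Cfsg.Agent.GeomClasses.omegaGL_preserves _ hx
       obtain ⟨v, hv, hxv⟩ := (line_iff hpres).1 (h x hx ⟨1, by rw [hxr, one_smul, Units.val_one]⟩
         (not_scalar (⟨Pi.single (Sum.inl ⟨0, by omega⟩) 1 + Pi.single (Sum.inr ⟨0, by omega⟩) 1, by
           simp [Cfsg.quadFormPlus, Pi.single_apply, add_mul, mul_add]⟩) hpres
           (fun v hv => by rw [hfix v hv, QuadraticMap.map_zero])))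
       exact hv (by rw [hfix v hxv, QuadraticMap.map_zero])
   · rintro ⟨rfl, hodd⟩ x hx ⟨z, hz⟩ -
     have hpres := Cfsg.Agent.GeomClasses.omegaGL_preserves _ hx
     exact (line_iff hpres).2 (exists_fixed_involution hnd hcard hx hz (d := d) (w := d) (by simp; omega)
       (fun U hU => finrank_singular_plus hU) (Or.inr ⟨rfl, hodd⟩)))

end Cfsg.Agent.S5985
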