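import Cfsg.Statements.S5986
import Cfsg.Agent.GeomClasses.NonsingPoint

set_option autoImplicit false
open scoped MatrixGroups
open Cfsg

namespace Cfsg.Agent.S5986

/-- Elements of prime order of Ω⁻_n(q), q even, with no fixed nonsingular 1-space. Here `T = PΩ⁻_n(F)`, `n = 2d ≥ 8`, realised through `Ω⁻_n(q)`, the commutator subgroup of the isometry group of `Q = Σ_{i<d−1} xᵢyᵢ + z₁² + a z₁z₂ + b z₂²` with `z₁² + a z₁z₂ + b z₂²` anisotropic, over the field `F` with `q` elements; an element of `T` of prime order `r` is an element `x` of `Ω⁻_n(q)` with `x^r` scalar and `x` not scalar; `q` is even (so the centre is trivial). Let Ω be the set of 1-dimensional subspaces spanned by a vector `v` with `Q(v) ≠ 0`, and let `r` be a prime dividing their number. Then every element of `T` of order `r` fixes some nonsingular 1-space if and only if `r = 2`. -/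
theorem result {F : Type*} [Field F] [Fintype F] {p : ℕ} [Fact p.Prime] [CharP F p] {q : ℕ} (hq : Fintype.card F = q)
    (hp : p = 2) (d : ℕ) (hd : 4 ≤ d) (a b : F) (hab : ∀ x y : F, x ^ 2 + a * x * y + b * y ^ 2 = 0 → x = 0 ∧ y = 0) (r : ℕ) [Fact r.Prime]
    (hrΩ : r ∣ Nat.card {W : Submodule F ((Fin (d - 1) ⊕ Fin (d - 1)) ⊕ Fin 2 → F) // Module.finrank F ↥W = 1 ∧ ∃ v ∈ W, Cfsg.quadFormMinus (d - 1) F a b v ≠ 0}) :
    (∀ x : GL ((Fin (d - 1) ⊕ Fin (d - 1)) ⊕ Fin 2) F, x ∈ Cfsg.Geo.omegaGL (Cfsg.quadFormMinus (d - 1) F a b) →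
      (∃ z : F, ((x ^ r : GL ((Fin (d - 1) ⊕ Fin (d - 1)) ⊕ Fin 2) F) : Matrix ((Fin (d - 1) ⊕ Fin (d - 1)) ⊕ Fin 2) ((Fin (d - 1) ⊕ Fin (d - 1)) ⊕ Fin 2) F) = z • (1 : Matrix ((Fin (d - 1) ⊕ Fin (d - 1)) ⊕ Fin 2) ((Fin (d - 1) ⊕ Fin (d - 1)) ⊕ Fin 2) F)) →
      (∀ z : F, (x : Matrix ((Fin (d - 1) ⊕ Fin (d - 1)) ⊕ Fin 2) ((Fin (d - 1) ⊕ Fin (d - 1)) ⊕ Fin 2) F) ≠ z • (1 : Matrix ((Fin (d - 1) ⊕ Fin (d - 1)) ⊕ Fin 2) ((Fin (d - 1) ⊕ Fin (d - 1)) ⊕ Fin 2) F)) →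
      ∃ W : Submodule F ((Fin (d - 1) ⊕ Fin (d - 1)) ⊕ Fin 2 → F), (Module.finrank F ↥W = 1 ∧ ∃ v ∈ W, Cfsg.quadFormMinus (d - 1) F a b v ≠ 0) ∧ W.map (Matrix.toLin' (x : Matrix ((Fin (d - 1) ⊕ Fin (d - 1)) ⊕ Fin 2) ((Fin (d - 1) ⊕ Fin (d - 1)) ⊕ Fin 2) F)) ≤ W) ↔ r = 2 := by
  subst hp
  classical
  open Cfsg.Agent.GeomClasses.NonsingPoint in
  open Cfsg.Agent.Forms in
  (rw [← coe_qMinus] at hrΩ ⊢
   have hnd := qMinus_nondegenerate (m := d - 1) a b (disc_ne_zero hab)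
   have hcard : 5 ≤ Fintype.card ((Fin (d - 1) ⊕ Fin (d - 1)) ⊕ Fin 2) := by simp; omega
   constructor
   · intro h
     by_contra hr2
     have hr := (Fact.out : r.Prime)
     have hodd : Odd r := hr.eq_two_or_odd'.resolve_left hr2
     rw [card_points_minus hq (by omega) hab] at hrΩ
     have hdvd : r ∣ q ^ d + 1 := (hr.dvd_mul.1 hrΩ).resolve_left fun hd' => by
       obtain ⟨n, -, hn⟩ := FiniteField.card F 2
       rw [hq] at hn
       rw [hn, ← pow_mul] at hd'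
       exact hr2 ((Nat.prime_dvd_prime_iff_eq hr Nat.prime_two).1 (hr.dvd_of_dvd_pow hd'))
     obtain ⟨x, hx, hxr, hfix⟩ := exists_minus_element hq (d := d) (by omega) hr hodd hdvd hab
     have hpres := Cfsg.Agent.GeomClasses.omegaGL_preserves _ hx
     obtain ⟨v, hv, hxv⟩ := (line_iff hpres).1 (h x hx ⟨1, by rw [hxr, one_smul, Units.val_one]⟩
       (not_scalar (⟨Pi.single (Sum.inr 0) 1, by
         simp [Cfsg.quadFormMinus, Pi.single_apply]⟩) hpres
         (fun v hv => by rw [hfix v hv, QuadraticMap.map_zero])))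
     exact hv (by rw [hfix v hxv, QuadraticMap.map_zero])
   · rintro rfl x hx ⟨z, hz⟩ -
     have hpres := Cfsg.Agent.GeomClasses.omegaGL_preserves _ hx
     exact (line_iff hpres).2 (exists_fixed_involution hnd hcard hx hz (d := d) (w := d - 1) (by simp; omega)
       (fun U hU => finrank_singular_minus hab (by simpa using hU)) (Or.inl (by omega))))

end Cfsg.Agent.S5986
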