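import Cfsg.Statements.S5987
import Cfsg.Agent.Linear.OrthDerangeProj
-- import your own Cfsg.Agent.* helpers here

set_option autoImplicit false
open scoped MatrixGroups
open Cfsg

namespace Cfsg.Agent.S5987

/-- Elements of prime order of PΩ⁻_n(q) with no fixed totally singular `m`-space. Here `T = PΩ⁻_n(F)`, `n = 2d ≥ 8`, realised through `Ω⁻_n(q)`, the commutator subgroup of the isometry group of `Q = Σ_{i<d−1} xᵢyᵢ + z₁² + a z₁z₂ + b z₂²` with `z₁² + a z₁z₂ + b z₂²` anisotropic, over the field `F` with `q` elements; an element of `T` of prime order `r` is an element `x` of `Ω⁻_n(q)` with `x^r` scalar and `x` not scalar. Let `1 ≤ m ≤ d − 1` and let `r` be a prime dividing the number of totally singular `m`-spaces (subspaces of dimension `m` on which `Q` vanishes); for `r ≠ p` let `i` be the multiplicative order of `q` modulo `r`, `c = i` for `i` even and `c = 2i` for `i`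 odd, and write `k = n mod c`, `ℓ = m mod i`, `n' = ⌊n/i⌋`, `m' = ⌊m/i⌋`, `t = (r−1)/i`. Then every element of `T` of order `r` fixes some totally singular `m`-space if and only if one of: (i) `r = 2 ≠ p` and (`n ≡ 0 (mod 4)`, or `m` is even, or `q ≢ 7 (mod 8)`); (ii) `r ≠ p` odd, `i` odd, `i ≤ m` and (`k = 0` or `k > 2ℓ`); (iii) `r ≠ p` odd, `i` even, `i ≤ m`, `n' − 2m' ≥ t`, and one of: (a) `i ≥ 2ℓ`, `k = 0`, `n/i` even and `n' − 2m' > t` (all four); (b) `k ≥ 2ℓ` and `n'` odd; (c) `k > 2ℓ` and `n'` even. -/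
theorem result {F : Type*} [Field F] [Fintype F] {p : ℕ} [Fact p.Prime] [CharP F p] {q : ℕ} (hq : Fintype.card F = q)
    (d m : ℕ) (hd : 4 ≤ d) (hm : 1 ≤ m) (hmd : m + 1 ≤ d) (a b : F) (hab : ∀ x y : F, x ^ 2 + a * x * y + b * y ^ 2 = 0 → x = 0 ∧ y = 0)
    (r : ℕ) [Fact r.Prime]
    (hrΩ : r ∣ Nat.card {W : Submodule F ((Fin (d - 1) ⊕ Fin (d - 1)) ⊕ Fin 2 → F) // Module.finrank F ↥W = m ∧ Cfsg.Geo.IsTotallySingularQuad (Cfsg.quadFormMinus (d - 1) F a b) W})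
    (i c : ℕ) (hi : i = orderOf (q : ZMod r)) (hc : c = if Even i then i else 2 * i) :
    (∀ x : GL ((Fin (d - 1) ⊕ Fin (d - 1)) ⊕ Fin 2) F, x ∈ Cfsg.Geo.omegaGL (Cfsg.quadFormMinus (d - 1) F a b) →
      (∃ z : F, ((x ^ r : GL ((Fin (d - 1) ⊕ Fin (d - 1)) ⊕ Fin 2) F) : Matrix ((Fin (d - 1) ⊕ Fin (d - 1)) ⊕ Fin 2) ((Fin (d - 1) ⊕ Fin (d - 1)) ⊕ Fin 2) F) = z • (1 : Matrix ((Fin (d - 1) ⊕ Fin (d - 1)) ⊕ Fin 2) ((Fin (d - 1) ⊕ Fin (d - 1)) ⊕ Fin 2) F)) →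
      (∀ z : F, (x : Matrix ((Fin (d - 1) ⊕ Fin (d - 1)) ⊕ Fin 2) ((Fin (d - 1) ⊕ Fin (d - 1)) ⊕ Fin 2) F) ≠ z • (1 : Matrix ((Fin (d - 1) ⊕ Fin (d - 1)) ⊕ Fin 2) ((Fin (d - 1) ⊕ Fin (d - 1)) ⊕ Fin 2) F)) →
      ∃ W : Submodule F ((Fin (d - 1) ⊕ Fin (d - 1)) ⊕ Fin 2 → F), (Module.finrank F ↥W = m ∧ Cfsg.Geo.IsTotallySingularQuad (Cfsg.quadFormMinus (d - 1) F a b) W) ∧ W.map (Matrix.toLin' (x : Matrix ((Fin (d - 1) ⊕ Fin (d - 1)) ⊕ Fin 2) ((Fin (d - 1) ⊕ Fin (d - 1)) ⊕ Fin 2) F)) ≤ W) ↔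
    ((r = 2 ∧ p ≠ 2 ∧ (Even d ∨ Even m ∨ q % 8 ≠ 7)) ∨
     (r ≠ p ∧ 2 < r ∧ Odd i ∧ i ≤ m ∧ ((2 * d) % c = 0 ∨ 2 * (m % i) < (2 * d) % c)) ∨
     (r ≠ p ∧ 2 < r ∧ Even i ∧ i ≤ m ∧ (r - 1) / i + 2 * (m / i) ≤ (2 * d) / i ∧
       ((2 * (m % i) ≤ i ∧ (2 * d) % c = 0 ∧ Even ((2 * d) / i) ∧ (r - 1) / i + 2 * (m / i) < (2 * d) / i) ∨
        (2 * (m % i) ≤ (2 * d) % c ∧ Odd ((2 * d) / i)) ∨
        (2 * (m % i) < (2 * d) % c ∧ Even ((2 * d) / i))))) := by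
  classical
  have hr : r.Prime := Fact.out
  have hp : p.Prime := Fact.out
  have hQ := Cfsg.Agent.Forms.qMinus_nondegenerate (m := d - 1) a b (Cfsg.Agent.Forms.disc_ne_zero hab)
  have hn : Fintype.card ((Fin (d - 1) ⊕ Fin (d - 1)) ⊕ Fin 2) = 2 * d := by
    rw [Fintype.card_sum, Fintype.card_sum, Fintype.card_fin, Fintype.card_fin]; omega
  have hV : Module.finrank F ((Fin (d - 1) ⊕ Fin (d - 1)) ⊕ Fin 2 → F) = 2 * d := by rw [Module.finrank_pi, hn]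
  have hplus := Cfsg.Agent.Linear.OrthDerangeProj.not_plus_qMinus hab hQ
  have hdvd : r ∣ Nat.card {W : Submodule F ((Fin (d - 1) ⊕ Fin (d - 1)) ⊕ Fin 2 → F) // Module.finrank F W = m ∧
      Cfsg.Agent.Linear.OrthSpaces.Sing (Cfsg.Agent.Forms.qMinus (d - 1) F a b) W} := by
    simpa only [Cfsg.Agent.Linear.OrthSpaces.Sing, Cfsg.Geo.IsTotallySingularQuad, Cfsg.Agent.Forms.coe_qMinus] using hrΩ
  have hrp : r ≠ p := by
    rintro rfl
    have h1 := Cfsg.Agent.Linear.SingCount.card_mod (p := r) hq m (Cfsg.Agent.Forms.qMinus (d - 1) F a b) hQ (by omega)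
    rw [(ZMod.natCast_eq_zero_iff _ _).2 hdvd] at h1
    exact zero_ne_one h1
  have key : ∀ (x : GL ((Fin (d - 1) ⊕ Fin (d - 1)) ⊕ Fin 2) F) (W : Submodule F ((Fin (d - 1) ⊕ Fin (d - 1)) ⊕ Fin 2 → F)),
      W.map (Matrix.toLin' (x : Matrix _ _ F)) ≤ W ↔ ∀ w ∈ W, Matrix.toLin' (x : Matrix _ _ F) w ∈ W :=
    fun x W => Submodule.map_le_iff_le_comap
  simp only [key, Cfsg.Geo.IsTotallySingularQuad, and_assoc, ← Cfsg.Agent.Forms.coe_qMinus]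
  rcases eq_or_ne r 2 with rfl | hr2
  · obtain ⟨n, -, hn'⟩ := FiniteField.card F p
    have hqodd : Odd q := hq ▸ hn' ▸ (hp.odd_of_ne_two (Ne.symm hrp)).pow
    refine (Cfsg.Agent.Linear.OrthDerangeTwo.two hq hqodd hQ hn (by omega) hmd).trans ?_
    constructor
    · rintro ⟨-, h2⟩
      exact Or.inl ⟨rfl, Ne.symm hrp, h2 hplus⟩
    · rintro (⟨-, -, h⟩ | ⟨-, h, -⟩ | ⟨-, h, -⟩)
      · exact ⟨fun h' => absurd h' hplus, fun _ => h⟩
      all_goals omega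
  · obtain ⟨S, hS, ht⟩ := Cfsg.Agent.Linear.OrthFree.exists_ctx (p := p) hq hr hr2 hrp hi
    rw [← hS.hScard] at ht
    refine (Cfsg.Agent.Linear.OrthDerangeProj.odd_bridge hQ hn (by omega) (hr.odd_of_ne_two hr2)).trans ?_
    have hcc : Cfsg.Agent.Linear.OrthFree.cc i = c := hc.symm
    have h2r : 2 < r := lt_of_le_of_ne hr.two_le (Ne.symm hr2)
    have hcrit : Cfsg.Agent.Linear.OrthDerangeEven.Crit (Cfsg.Agent.Forms.qMinus (d - 1) F a b) i S.card d m ↔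
        ((r ≠ p ∧ 2 < r ∧ Odd i ∧ i ≤ m ∧ ((2 * d) % c = 0 ∨ 2 * (m % i) < (2 * d) % c)) ∨
         (r ≠ p ∧ 2 < r ∧ Even i ∧ i ≤ m ∧ (r - 1) / i + 2 * (m / i) ≤ (2 * d) / i ∧
           ((2 * (m % i) ≤ i ∧ (2 * d) % c = 0 ∧ Even ((2 * d) / i) ∧ (r - 1) / i + 2 * (m / i) < (2 * d) / i) ∨
            (2 * (m % i) ≤ (2 * d) % c ∧ Odd ((2 * d) / i)) ∨
            (2 * (m % i) < (2 * d) % c ∧ Even ((2 * d) / i))))) := by
      rw [Cfsg.Agent.Linear.OrthDerangeEven.Crit, hS.hScard, hcc]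
      rcases Nat.even_or_odd i with hie | hio
      · have hno : ¬ Odd i := Nat.not_odd_iff_even.2 hie
        simp only [Cfsg.Agent.Linear.OrthSingDerange.FixPlus, hplus, hno, hie, hrp, h2r, true_and, false_and,
          false_or, false_iff, not_not, not_false_eq_true, Nat.not_even_iff_odd, Nat.not_odd_iff_even, ne_eq,
          and_false]
      · have hne : ¬ Even i := Nat.not_even_iff_odd.2 hio
        simp only [hplus, hio, hne, hrp, h2r, true_and, false_and, or_false, false_or, not_true, ne_eq,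
          not_false_eq_true, and_false]
    constructor
    · intro H
      exact Or.inr (hcrit.1 (Cfsg.Agent.Linear.OrthDerangeEven.crit_of hS hQ ht hV hmd hdvd H))
    · intro hor T hT hTQ _
      exact Cfsg.Agent.Linear.OrthDerangeEven.of_crit hS hQ hV hmd (hcrit.2 (hor.resolve_left fun h' => hr2 h'.1))
        hT hTQ

end Cfsg.Agent.S5987
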