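import Cfsg.Statements.S5989
import Cfsg.Agent.Linear.NdEvenCases
import Cfsg.Agent.Linear.NdOddClass
import Cfsg.Agent.Linear.NdOddR
-- import your own Cfsg.Agent.* helpers here

set_option autoImplicit false
open scoped MatrixGroups
open Cfsg

namespace Cfsg.Agent.S5989

/-- Elements of prime order of PΩ⁺_n(q), q odd, with no fixed nondegenerate `m`-space of odd dimension. Here `T = PΩ⁺_n(F)`, `n = 2d ≥ 8`, realised through `Ω⁺_n(q)`, the commutator subgroup of the isometry group of `Q = Σ xᵢyᵢ` over the field `F` with `q` elements; an element of `T` of prime order `r` is an element `x` of `Ω⁺_n(q)` with `x^r` scalar and `x` not scalar; `q` and `m` are odd, `1 ≤ m < n/2`. The nondegenerate `m`-spaces (subspaces on which the polar form is nondegenerate) fall into two isometry classes, each an orbit of `T`, and the two actions are equivalent; fix one such space `W₀` and let Ω be the set of nondegenerate `m`-spaces isometric to `W₀`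 (some linear isomorphism preserves `Q`). Let `r` be a prime dividing the size of Ω; for `r ≠ p` let `i` be the multiplicative order of `q` modulo `r`, `c = i` for `i` even and `c = 2i` for `i` odd, and write `k = n mod c`, `ℓ = m mod i`, `ℓ' = m mod c`, `n' = ⌊n/i⌋`, `m' = ⌊m/i⌋`, `t = (r−1)/i`. Then every element of `T` of order `r` fixes a member of Ω if and only if one of: (i) `r = 2`, `n ≡ 2 (mod 4)` and `q ≢ 1 (mod 8)`; (ii) `r ≠ p` odd, `i` odd, `c ≤ m` and `k > ℓ' > 0`; (iii) `r ≠ p` odd, `i` even, and either `k = 0` and `n/i` odd, or `i ≤ m` and `k > ℓ' > 0`. (For `r = p` there is always an element of order `p` fixing no member of Ω.) -/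
theorem result {F : Type*} [Field F] [Fintype F] {p : ℕ} [Fact p.Prime] [CharP F p] {q : ℕ} (hq : Fintype.card F = q)
    (hodd : Odd q) (d m : ℕ) (hd : 4 ≤ d) (hm : Odd m) (hmd : m < d)
    (W₀ : Submodule F (Fin d ⊕ Fin d → F)) (hW₀ : Module.finrank F ↥W₀ = m ∧ Cfsg.Geo.IsNondegenerateOn (QuadraticMap.polar (Cfsg.quadFormPlus d F)) W₀)
    (r : ℕ) [Fact r.Prime]
    (hrΩ : r ∣ Nat.card {W : Submodule F (Fin d ⊕ Fin d → F) // Module.finrank F ↥W = m ∧ Cfsg.Geo.IsNondegenerateOn (QuadraticMap.polar (Cfsg.quadFormPlus d F)) W ∧ Cfsg.Geo.AreIsometricFor (Cfsg.quadFormPlus d F) W W₀})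
    (i c : ℕ) (hi : i = orderOf (q : ZMod r)) (hc : c = if Even i then i else 2 * i) :
    (∀ x : GL (Fin d ⊕ Fin d) F, x ∈ Cfsg.Geo.omegaGL (Cfsg.quadFormPlus d F) →
      (∃ z : F, ((x ^ r : GL (Fin d ⊕ Fin d) F) : Matrix (Fin d ⊕ Fin d) (Fin d ⊕ Fin d) F) = z • (1 : Matrix (Fin d ⊕ Fin d) (Fin d ⊕ Fin d) F)) →
      (∀ z : F, (x : Matrix (Fin d ⊕ Fin d) (Fin d ⊕ Fin d) F) ≠ z • (1 : Matrix (Fin d ⊕ Fin d) (Fin d ⊕ Fin d) F)) →
      ∃ W : Submodule F (Fin d ⊕ Fin d → F), (Module.finrank F ↥W = m ∧ Cfsg.Geo.IsNondegenerateOn (QuadraticMap.polar (Cfsg.quadFormPlus d F)) W ∧ Cfsg.Geo.AreIsometricFor (Cfsg.quadFormPlus d F) W W₀) ∧ W.map (Matrix.toLin' (x : Matrix (Fin d ⊕ Fin d) (Fin d ⊕ Fin d) F)) ≤ W) ↔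
    ((r = 2 ∧ Odd d ∧ q % 8 ≠ 1) ∨
     (r ≠ p ∧ 2 < r ∧ Odd i ∧ c ≤ m ∧ 0 < m % c ∧ m % c < (2 * d) % c) ∨
     (r ≠ p ∧ 2 < r ∧ Even i ∧ (((2 * d) % c = 0 ∧ Odd ((2 * d) / i)) ∨ (i ≤ m ∧ 0 < m % c ∧ m % c < (2 * d) % c)))) := by
  classical
  have hr' : r.Prime := Fact.out
  have hp : p.Prime := Fact.out
  have hQ := Cfsg.Agent.Forms.qPlus_nondegenerate (m := d) (F := F)
  have hn : Fintype.card (Fin d ⊕ Fin d) = 2 * d := by
    rw [Fintype.card_sum, Fintype.card_fin]; omega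
  have hV : Module.finrank F (Fin d ⊕ Fin d → F) = 2 * d := by rw [Module.finrank_pi, hn]
  have hplus := Cfsg.Agent.Linear.OrthDerangeProj.plus_qPlus (F := F) (w := d)
  have key : ∀ (x : GL (Fin d ⊕ Fin d) F) (W : Submodule F ((Fin d ⊕ Fin d) → F)),
      W.map (Matrix.toLin' (x : Matrix _ _ F)) ≤ W ↔ ∀ w ∈ W, Matrix.toLin' (x : Matrix _ _ F) w ∈ W :=
    fun x W => Submodule.map_le_iff_le_comap
  rw [← Cfsg.Agent.Forms.coe_qPlus] at hrΩ hW₀ ⊢
  simp only [key, Cfsg.Agent.Linear.NdBridge.typed_iso] at hrΩ ⊢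
  rw [Cfsg.Agent.Linear.NdBridge.nd_iff] at hW₀
  obtain ⟨hW₀d, hW₀n⟩ := hW₀
  have hm2 := Nat.odd_iff.1 hm
  rcases eq_or_ne r 2 with rfl | hr2
  · refine (Cfsg.Agent.Linear.NdTwo.two_odd hq hodd hQ hn (by omega) hm hW₀d hW₀n).trans ?_
    rw [Cfsg.Agent.Linear.NdEvenCases.quarter_iff hq hodd]
    have hq2 := Nat.odd_iff.1 hodd
    simp only [hplus, lt_irrefl, false_and, and_false, or_false, true_and, true_iff, false_iff,
      Nat.even_iff, Nat.odd_iff]
    omega
  have h2r : 2 < r := lt_of_le_of_ne hr'.two_le (Ne.symm hr2)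
  refine (Cfsg.Agent.Linear.NdEvenCases.odd_bridge hQ hn (by omega) (hr'.odd_of_ne_two hr2)).trans ?_
  rcases eq_or_ne r p with rfl | hrp
  · exact iff_of_false (Cfsg.Agent.Linear.NdOddClass.p_derange (p := r) hq hodd hQ hV hd hm hmd hW₀d hW₀n)
      (by rintro (⟨h1, -⟩ | ⟨h1, -⟩ | ⟨h1, -⟩) <;> first | exact hr2 h1 | exact h1 rfl)
  obtain ⟨S, hS, ht⟩ := Cfsg.Agent.Linear.OrthFree.exists_ctx (p := p) hq hr' hr2 hrp hi
  rw [← hS.hScard] at ht
  obtain ⟨hiff, hgap⟩ := Cfsg.Agent.Linear.NdOddR.crit_iff hS hQ hodd ht hV hm (by omega) hW₀d hW₀n hrΩ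
  refine hiff.trans ?_
  have hcc : Cfsg.Agent.Linear.OrthFree.cc i = c := hc.symm
  have hce := Nat.even_iff.1 (hcc ▸ Cfsg.Agent.Linear.OrthFree.cc_even i)
  have hc0 : 0 < c := hcc ▸ Cfsg.Agent.Linear.OrthFree.cc_pos hS.hi0
  rw [hcc] at hgap ⊢
  have hml : 0 < m % c := by
    have h1 := Nat.mod_add_div m c
    have h2 : c * (m / c) % 2 = 0 := by rw [Nat.mul_mod, hce, zero_mul, Nat.zero_mod]
    omega
  rcases Nat.even_or_odd i with hie | hio
  · have hno : ¬ Odd i := Nat.not_odd_iff_even.2 hie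
    obtain rfl : c = i := by rw [hc, if_pos hie]
    simp only [Cfsg.Agent.Linear.OrthSingDerange.FixPlus, hplus, hno, hr2, hrp, hie, h2r, hml, ne_eq,
      not_false_eq_true, false_and, and_false, false_or, or_false, true_and, true_iff, false_iff,
      Nat.even_iff, Nat.odd_iff, not_not] at hgap ⊢
    omega
  · have hne : ¬ Even i := Nat.not_even_iff_odd.2 hio
    simp only [Cfsg.Agent.Linear.OrthSingDerange.FixPlus, hplus, hio, hr2, hrp, hne, h2r, hml, ne_eq,
      not_false_eq_true, false_and, and_false, false_or, or_false, true_and, true_or, not_true, true_iff,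
      false_iff, and_true, imp_false, forall_const] at hgap ⊢


end Cfsg.Agent.S5989
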