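import Cfsg.Statements.S5993
import Cfsg.Agent.Linear.NdDerangeOdd
import Cfsg.Agent.Linear.NdBridge
import Cfsg.Agent.Linear.UnipMinus
-- import your own Cfsg.Agent.* helpers here

set_option autoImplicit false
open scoped MatrixGroups
open Cfsg

namespace Cfsg.Agent.S5993

/-- Elements of prime order of Ω_n(q), nq odd, with no fixed elliptic `m`-space. Here `T = Ω_n(F)`, `n = 2d+1 ≥ 7`, `q` odd, realised as the commutator subgroup of the isometry group of `Q = x₀² + Σ xᵢyᵢ` over the field `F` with `q` elements (trivial centre, so its elements of prime order `r` are used directly); a nondegenerate `m`-space (even `m`) is a subspace on which the polar form of `Q` is nondegenerate; it is hyperbolic if it contains an `m/2`-dimensional subspace on which `Q` vanishes, elliptic otherwise. Let `m` be even with `2 ≤ m ≤ n − 1` (no restriction `m < n/2`) and let `r` be a prime dividing the number of elliptic `m`-spaces; for `r ≠ p` let `i` be the multiplicative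 order of `q` modulo `r`, `c = i` for `i` even and `c = 2i` for `i` odd, and write `k = n mod c`, `ℓ' = m mod c`. Then every element of `T` of order `r` fixes some elliptic `m`-space if and only if `r = 2`, or `r ≠ p` is odd and one of: (i) `i` odd, `c ≤ m` and `k > ℓ' > 0`; (ii) `i` even, `i ≤ m`, `k > ℓ'`, and `m/i` odd whenever `ℓ' = 0`. (For `r = p` there is always an element of order `p` fixing no elliptic `m`-space.) -/
theorem result {F : Type*} [Field F] [Fintype F] {p : ℕ} [Fact p.Prime] [CharP F p] {q : ℕ} (hq : Fintype.card F = q) (hqodd : Odd q)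
    (d m : ℕ) (hd : 3 ≤ d) (hm : 2 ≤ m) (hme : Even m) (hmn : m ≤ 2 * d)
    (r : ℕ) [Fact r.Prime]
    (hrΩ : r ∣ Nat.card {W : Submodule F (Unit ⊕ (Fin d ⊕ Fin d) → F) // Module.finrank F ↥W = m ∧ Cfsg.Geo.IsNondegenerateOn (QuadraticMap.polar (Cfsg.quadFormOdd d F)) W ∧ ¬ Cfsg.Geo.IsPlusTypeOn (Cfsg.quadFormOdd d F) W})
    (i c : ℕ) (hi : i = orderOf (q : ZMod r)) (hc : c = if Even i then i else 2 * i) :
    (∀ x : GL (Unit ⊕ (Fin d ⊕ Fin d)) F, x ∈ Cfsg.Geo.omegaGL (Cfsg.quadFormOdd d F) → orderOf x = r →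
      ∃ W : Submodule F (Unit ⊕ (Fin d ⊕ Fin d) → F), (Module.finrank F ↥W = m ∧ Cfsg.Geo.IsNondegenerateOn (QuadraticMap.polar (Cfsg.quadFormOdd d F)) W ∧ ¬ Cfsg.Geo.IsPlusTypeOn (Cfsg.quadFormOdd d F) W) ∧ W.map (Matrix.toLin' (x : Matrix (Unit ⊕ (Fin d ⊕ Fin d)) (Unit ⊕ (Fin d ⊕ Fin d)) F)) ≤ W) ↔
    (r = 2 ∨
     (r ≠ p ∧ 2 < r ∧ Odd i ∧ c ≤ m ∧ 0 < m % c ∧ m % c < (2 * d + 1) % c) ∨
     (r ≠ p ∧ 2 < r ∧ Even i ∧ i ≤ m ∧ m % c < (2 * d + 1) % c ∧ (0 < m % c ∨ Odd (m / i)))) := by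
  classical
  have hr : r.Prime := Fact.out
  have hp : p.Prime := Fact.out
  have h2 := Cfsg.Agent.Forms.two_ne_zero_of_odd hq hqodd
  have hQ := Cfsg.Agent.Forms.qOdd_nondegenerate (m := d) h2
  have hn : Fintype.card (Unit ⊕ (Fin d ⊕ Fin d)) = 2 * d + 1 := by
    rw [Fintype.card_sum, Fintype.card_sum, Fintype.card_fin, Fintype.card_unit]; omega
  have hV : Module.finrank F (Unit ⊕ (Fin d ⊕ Fin d) → F) = 2 * d + 1 := by rw [Module.finrank_pi, hn]
  have key : ∀ (x : GL (Unit ⊕ (Fin d ⊕ Fin d)) F) (W : Submodule F (Unit ⊕ (Fin d ⊕ Fin d) → F)),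
      W.map (Matrix.toLin' (x : Matrix _ _ F)) ≤ W ↔ ∀ w ∈ W, Matrix.toLin' (x : Matrix _ _ F) w ∈ W :=
    fun x W => Submodule.map_le_iff_le_comap
  rw [← Cfsg.Agent.Forms.coe_qOdd] at hrΩ ⊢
  simp only [key, Cfsg.Agent.Linear.NdBridge.typed_minus] at hrΩ ⊢
  rcases eq_or_ne r 2 with rfl | hr2
  · exact iff_of_true (fun x hx hx2 => Cfsg.Agent.Linear.NdDerangeOdd.two hq hqodd hQ hn hme hm hmn hx hx2)
      (Or.inl rfl)
  rcases eq_or_ne r p with rfl | hrp
  · refine iff_of_false (fun H => ?_) (by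
      rintro (h | ⟨h, -⟩ | ⟨h, -⟩)
      exacts [hr2 h, h rfl, h rfl])
    obtain ⟨ε, N, hε, hTp, hTQ, hN1, hN2⟩ := Cfsg.Agent.Linear.UnipMinus.exists_N (F := F) (p := r) h2 d
    obtain ⟨x, hx, hxT, hxr⟩ := Cfsg.Agent.Linear.OmegaElem.exists_of_odd hQ (by omega) (hr.odd_of_ne_two hr2) hTp hTQ
    have hx1 : x ≠ 1 := fun h1 => by
      have hN : N = 0 := by
        rw [h1, Units.val_one, Matrix.toLin'_one] at hxT
        exact left_eq_add.1 hxT
      rw [hN, LinearMap.range_zero, finrank_bot] at hN1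
      omega
    obtain ⟨W, ⟨hWd, hWn, hWt⟩, hWi⟩ := H x hx (orderOf_eq_prime hxr hx1)
    exact hWt.1 (Cfsg.Agent.Linear.UnipMinus.plus_of_rank h2 hQ hV hε
      (Cfsg.Agent.Linear.OrthFree.injective_of_pow hr.pos hTp) hTQ hN1 hN2 hWn (hWd.symm ▸ hme)
      fun w hw => hxT ▸ hWi w hw)
  · obtain ⟨S, hS, ht⟩ := Cfsg.Agent.Linear.OrthFree.exists_ctx (p := p) hq hr hr2 hrp hi
    rw [← hS.hScard] at ht
    have h := Cfsg.Agent.Linear.NdDerangeOdd.odd_r hS hQ ht hV hme hm hmn hrΩ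
    have hcc : Cfsg.Agent.Linear.OrthFree.cc i = c := hc.symm
    rw [hcc] at h
    have hc0 : 0 < c := hcc ▸ Cfsg.Agent.Linear.OrthFree.cc_pos hS.hi0
    have hkc := Nat.mod_lt (2 * d + 1) hc0
    have hk0 : 0 < (2 * d + 1) % c := by
      obtain ⟨u, hu⟩ := Cfsg.Agent.Linear.OrthFree.cc_even i
      obtain ⟨v, hv⟩ := (Cfsg.Agent.Linear.OrthFree.cc_even i).mul_right ((2 * d + 1) / c)
      rw [hcc] at hv
      have := Nat.mod_add_div (2 * d + 1) c
      omega
    have h2r : 2 < r := lt_of_le_of_ne hr.two_le (Ne.symm hr2)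
    refine ((Cfsg.Agent.Linear.NdDerangeOdd.bridge hQ hn (by omega) hr hr2).trans h).trans ?_
    rcases Nat.even_or_odd i with hie | hio
    · have hno : ¬ Odd i := Nat.not_odd_iff_even.2 hie
      have hci : c = i := by rw [hc, if_pos hie]
      simp only [hr2, hno, hie, h2r, hci, hrp, ne_eq, not_false_eq_true, false_and, and_false, false_or, true_and, false_iff, Nat.not_even_iff_odd]
      refine and_congr_right fun _ => and_congr_right fun _ => ⟨fun h' => ?_, fun h' he => h'.resolve_left (by omega)⟩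
      exact (Nat.eq_zero_or_pos (m % i)).elim (fun e => Or.inr (h' e)) Or.inl
    · have hne : ¬ Even i := Nat.not_even_iff_odd.2 hio
      simp only [hr2, hio, hne, h2r, hrp, ne_eq, not_false_eq_true, false_and, and_false, or_false, false_or, true_and, true_or, not_true, false_iff, imp_false]
      omega

end Cfsg.Agent.S5993
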