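import Cfsg.Statements.S5994
import Cfsg.Agent.Linear.UnipPartition
-- import your own Cfsg.Agent.* helpers here

set_option autoImplicit false
open scoped MatrixGroups
open Cfsg

namespace Cfsg.Agent.S5994

/-- A necessary condition for every element of order p of PΩ⁻_n(q), q odd, to fix an elliptic `m`-space. Here `T = PΩ⁻_n(F)`, `n = 2d ≥ 8`, realised through `Ω⁻_n(q)`, the commutator subgroup of the isometry group of `Q = Σ_{i<d−1} xᵢyᵢ + z₁² + a z₁z₂ + b z₂²` with `z₁² + a z₁z₂ + b z₂²` anisotropic, over the field `F` with `q` elements; an element of `T` of prime order `r` is an element `x` of `Ω⁻_n(q)` with `x^r` scalar and `x` not scalar; `q` is odd; a nondegenerate `m`-space (even `m`) is a subspace on which the polar form of `Q` is nondegenerate; it is hyperbolic if it contains an `m/2`-dimensional subspace on which `Q` vanishes, elliptic otherwise. Let `m` be even with `2 ≤ m ≤ n − 2` and suppose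 `p` divides the number of elliptic `m`-spaces. If every element of `T` of order `p` fixes some elliptic `m`-space, then `n ≡ m (mod 4)` and every partition of `n` into parts of size at most `p` in which every even part has even multiplicity contains (as a sub-multiset) a partition of `m` in which every even part has even multiplicity. -/
theorem result {F : Type*} [Field F] [Fintype F] {p : ℕ} [Fact p.Prime] [CharP F p] {q : ℕ} (hq : Fintype.card F = q) (hqodd : Odd q)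
    (d m : ℕ) (hd : 4 ≤ d) (hm : 2 ≤ m) (hme : Even m) (hmn : m + 2 ≤ 2 * d) (a b : F) (hab : ∀ x y : F, x ^ 2 + a * x * y + b * y ^ 2 = 0 → x = 0 ∧ y = 0)
    (hpΩ : p ∣ Nat.card {W : Submodule F ((Fin (d - 1) ⊕ Fin (d - 1)) ⊕ Fin 2 → F) // Module.finrank F ↥W = m ∧ Cfsg.Geo.IsNondegenerateOn (QuadraticMap.polar (Cfsg.quadFormMinus (d - 1) F a b)) W ∧ ¬ Cfsg.Geo.IsPlusTypeOn (Cfsg.quadFormMinus (d - 1) F a b) W}) :
    (∀ x : GL ((Fin (d - 1) ⊕ Fin (d - 1)) ⊕ Fin 2) F, x ∈ Cfsg.Geo.omegaGL (Cfsg.quadFormMinus (d - 1) F a b) →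
      (∃ z : F, ((x ^ p : GL ((Fin (d - 1) ⊕ Fin (d - 1)) ⊕ Fin 2) F) : Matrix ((Fin (d - 1) ⊕ Fin (d - 1)) ⊕ Fin 2) ((Fin (d - 1) ⊕ Fin (d - 1)) ⊕ Fin 2) F) = z • (1 : Matrix ((Fin (d - 1) ⊕ Fin (d - 1)) ⊕ Fin 2) ((Fin (d - 1) ⊕ Fin (d - 1)) ⊕ Fin 2) F)) →
      (∀ z : F, (x : Matrix ((Fin (d - 1) ⊕ Fin (d - 1)) ⊕ Fin 2) ((Fin (d - 1) ⊕ Fin (d - 1)) ⊕ Fin 2) F) ≠ z • (1 : Matrix ((Fin (d - 1) ⊕ Fin (d - 1)) ⊕ Fin 2) ((Fin (d - 1) ⊕ Fin (d - 1)) ⊕ Fin 2) F)) →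
      ∃ W : Submodule F ((Fin (d - 1) ⊕ Fin (d - 1)) ⊕ Fin 2 → F), (Module.finrank F ↥W = m ∧ Cfsg.Geo.IsNondegenerateOn (QuadraticMap.polar (Cfsg.quadFormMinus (d - 1) F a b)) W ∧ ¬ Cfsg.Geo.IsPlusTypeOn (Cfsg.quadFormMinus (d - 1) F a b) W) ∧ W.map (Matrix.toLin' (x : Matrix ((Fin (d - 1) ⊕ Fin (d - 1)) ⊕ Fin 2) ((Fin (d - 1) ⊕ Fin (d - 1)) ⊕ Fin 2) F)) ≤ W) →
    ((2 * d) % 4 = m % 4 ∧ (∀ μ : Multiset ℕ, (∀ e ∈ μ, 0 < e ∧ e ≤ p) → (∀ e : ℕ, Even e → Even (μ.count e)) → μ.sum = 2 * d →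
        ∃ ν : Multiset ℕ, ν ≤ μ ∧ ν.sum = m ∧ ∀ e : ℕ, Even e → Even (ν.count e))) := by
  classical
  intro H
  have hp : p.Prime := Fact.out
  have h2 := Cfsg.Agent.Forms.two_ne_zero_of_odd hq hqodd
  have hp2 : p ≠ 2 := fun h => h2 (by subst h; exact_mod_cast CharP.cast_eq_zero F 2)
  have hp3 : 3 ≤ p := lt_of_le_of_ne hp.two_le (Ne.symm hp2)
  have hQ := Cfsg.Agent.Forms.qMinus_nondegenerate (m := d - 1) a b (Cfsg.Agent.Forms.disc_ne_zero hab)
  have hn : Fintype.card ((Fin (d - 1) ⊕ Fin (d - 1)) ⊕ Fin 2) = 2 * d := by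
    rw [Fintype.card_sum, Fintype.card_sum, Fintype.card_fin, Fintype.card_fin]; omega
  have hV : Module.finrank F ((Fin (d - 1) ⊕ Fin (d - 1)) ⊕ Fin 2 → F) = 2 * d := by rw [Module.finrank_pi, hn]
  haveI : Nontrivial ((Fin (d - 1) ⊕ Fin (d - 1)) ⊕ Fin 2 → F) := Module.nontrivial_of_finrank_pos (R := F) (by omega)
  rw [← Cfsg.Agent.Forms.coe_qMinus] at H
  have part : ∀ μ : Multiset ℕ, (∀ e ∈ μ, 0 < e ∧ e ≤ p) → Cfsg.Agent.Linear.UnipPartition.Good μ →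
      μ.sum = 2 * d → ∃ ν : Multiset ℕ, ν ≤ μ ∧ ν.sum = m ∧ Cfsg.Agent.Linear.UnipPartition.Good ν := by
    intro μ h1 h3 h4
    refine Cfsg.Agent.Linear.UnipPartition.exists_nu (p := p) h2 hQ (m := m)
      (P := fun W => Module.finrank F W = m ∧ Cfsg.Agent.Linear.OrthSpaces.Nd (Cfsg.Agent.Forms.qMinus (d - 1) F a b) W)
      (fun W h => h) hme (by omega)
      ((Cfsg.Agent.Linear.NdEvenCases.odd_bridge hQ hn (by omega) (hp.odd_of_ne_two hp2)).1 fun x hx hz hns => ?_)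
      h1 h3 (h4.trans hV.symm)
    obtain ⟨W, ⟨hWd, hWn, -⟩, hWi⟩ := H x hx hz hns
    exact ⟨W, ⟨hWd, Cfsg.Agent.Linear.NdBridge.nd_iff.1 hWn⟩, fun w hw => hWi ⟨w, hw, rfl⟩⟩
  refine ⟨?_, part⟩
  rcases Nat.even_or_odd d with hde | hdo
  · obtain ⟨d', hd'⟩ := hde
    obtain ⟨ν, h1, h3, h4⟩ := part (3 ::ₘ 1 ::ₘ Multiset.replicate (d - 2) 2) (fun e he => by
        rcases Multiset.mem_cons.1 he with rfl | he
        · omega
        rcases Multiset.mem_cons.1 he with rfl | he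
        · omega
        · rw [Multiset.eq_of_mem_replicate he]; omega)
      (by rw [← Multiset.singleton_add, ← Multiset.singleton_add, ← add_assoc]
          exact Cfsg.Agent.Linear.UnipPartition.good_small ⟨d' - 1, by omega⟩ (fun x hx => by
            simp only [Multiset.mem_add, Multiset.mem_singleton] at hx
            rcases hx with rfl | rfl <;> decide))
      (by rw [Multiset.sum_cons, Multiset.sum_cons, Multiset.sum_replicate, smul_eq_mul]; omega)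
    have := Cfsg.Agent.Linear.UnipPartition.three_one hme h1 h3 h4
    omega
  · obtain ⟨w, hw⟩ := hme
    by_contra hcon
    rw [Nat.odd_iff] at hdo
    obtain ⟨L, hL, hrk⟩ := Cfsg.Agent.Linear.UnipSkew.exists_skew hQ (k := d / 2) (Or.inl (by rw [hV]; omega))
    obtain ⟨x, hx, hz, hns, hxT⟩ := Cfsg.Agent.Linear.NdEvenCases.exists_unip (p := p) hQ hn hd (by omega) hL hrk
    obtain ⟨W, ⟨hWd, hWn, hWt⟩, hWi⟩ := H x hx hz hns
    exact hWt (((hL.restrictions hQ hV hrk (by omega) (Cfsg.Agent.Linear.NdBridge.nd_iff.1 hWn)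
      fun v hv => hxT ▸ hWi ⟨v, hv, rfl⟩).2 w (by omega)).1 (Nat.even_iff.2 (by omega)))

end Cfsg.Agent.S5994
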