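import Cfsg.Statements.S5995
import Cfsg.Agent.Linear.UnipPartition
-- import your own Cfsg.Agent.* helpers here

set_option autoImplicit false
open scoped MatrixGroups
open Cfsg

namespace Cfsg.Agent.S5995

/-- A necessary condition for every element of order p of Ω_n(q), nq odd, to fix a hyperbolic `m`-space. Here `T = Ω_n(F)`, `n = 2d+1 ≥ 7`, `q` odd, realised as the commutator subgroup of the isometry group of `Q = x₀² + Σ xᵢyᵢ` over the field `F` with `q` elements (trivial centre, so its elements of prime order `r` are used directly); a nondegenerate `m`-space (even `m`) is a subspace on which the polar form of `Q` is nondegenerate; it is hyperbolic if it contains an `m/2`-dimensional subspace on which `Q` vanishes, elliptic otherwise. Let `m` be even with `2 ≤ m ≤ n − 1` and suppose `p` divides the number of hyperbolic `m`-spaces. If every element of `T` of order `p` fixes some hyperbolic `m`-space, then `m ≡ 0 (mod 4)` and every partition of `n` into parts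 of size at most `p` in which every even part has even multiplicity contains (as a sub-multiset) a partition of `m` in which every even part has even multiplicity. -/
theorem result {F : Type*} [Field F] [Fintype F] {p : ℕ} [Fact p.Prime] [CharP F p] {q : ℕ} (hq : Fintype.card F = q) (hqodd : Odd q)
    (d m : ℕ) (hd : 3 ≤ d) (hm : 2 ≤ m) (hme : Even m) (hmn : m ≤ 2 * d)
    (hpΩ : p ∣ Nat.card {W : Submodule F (Unit ⊕ (Fin d ⊕ Fin d) → F) // Module.finrank F ↥W = m ∧ Cfsg.Geo.IsNondegenerateOn (QuadraticMap.polar (Cfsg.quadFormOdd d F)) W ∧ Cfsg.Geo.IsPlusTypeOn (Cfsg.quadFormOdd d F) W}) :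
    (∀ x : GL (Unit ⊕ (Fin d ⊕ Fin d)) F, x ∈ Cfsg.Geo.omegaGL (Cfsg.quadFormOdd d F) → orderOf x = p →
      ∃ W : Submodule F (Unit ⊕ (Fin d ⊕ Fin d) → F), (Module.finrank F ↥W = m ∧ Cfsg.Geo.IsNondegenerateOn (QuadraticMap.polar (Cfsg.quadFormOdd d F)) W ∧ Cfsg.Geo.IsPlusTypeOn (Cfsg.quadFormOdd d F) W) ∧ W.map (Matrix.toLin' (x : Matrix (Unit ⊕ (Fin d ⊕ Fin d)) (Unit ⊕ (Fin d ⊕ Fin d)) F)) ≤ W) →
    (m % 4 = 0 ∧ (∀ μ : Multiset ℕ, (∀ e ∈ μ, 0 < e ∧ e ≤ p) → (∀ e : ℕ, Even e → Even (μ.count e)) → μ.sum = 2 * d + 1 →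
        ∃ ν : Multiset ℕ, ν ≤ μ ∧ ν.sum = m ∧ ∀ e : ℕ, Even e → Even (ν.count e))) := by
  classical
  intro H
  have hp : p.Prime := Fact.out
  have h2 := Cfsg.Agent.Forms.two_ne_zero_of_odd hq hqodd
  have hp2 : p ≠ 2 := fun h => h2 (by subst h; exact_mod_cast CharP.cast_eq_zero F 2)
  have hp3 : 3 ≤ p := lt_of_le_of_ne hp.two_le (Ne.symm hp2)
  have hQ := Cfsg.Agent.Forms.qOdd_nondegenerate (m := d) h2
  have hn : Fintype.card (Unit ⊕ (Fin d ⊕ Fin d)) = 2 * d + 1 := by
    rw [Fintype.card_sum, Fintype.card_sum, Fintype.card_fin, Fintype.card_unit]; omega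
  have hV : Module.finrank F (Unit ⊕ (Fin d ⊕ Fin d) → F) = 2 * d + 1 := by rw [Module.finrank_pi, hn]
  rw [← Cfsg.Agent.Forms.coe_qOdd] at H
  have part : ∀ μ : Multiset ℕ, (∀ e ∈ μ, 0 < e ∧ e ≤ p) → Cfsg.Agent.Linear.UnipPartition.Good μ →
      μ.sum = 2 * d + 1 → ∃ ν : Multiset ℕ, ν ≤ μ ∧ ν.sum = m ∧ Cfsg.Agent.Linear.UnipPartition.Good ν := by
    intro μ h1 h3 h4
    refine Cfsg.Agent.Linear.UnipPartition.exists_nu (p := p) h2 hQ (m := m)
      (P := fun W => Module.finrank F W = m ∧ Cfsg.Agent.Linear.OrthSpaces.Nd (Cfsg.Agent.Forms.qOdd d F) W)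
      (fun W h => h) hme (by omega) (fun T hTp hTQ hT1 => ?_) h1 h3 (h4.trans hV.symm)
    obtain ⟨x, hx, hxT, hxr⟩ := Cfsg.Agent.Linear.OmegaElem.exists_of_odd hQ (by omega) (hp.odd_of_ne_two hp2) hTp hTQ
    have hx1 : x ≠ 1 := fun h => hT1 (by rw [← hxT, h, Units.val_one, Matrix.toLin'_one]; rfl)
    obtain ⟨W, ⟨hWd, hWn, -⟩, hWi⟩ := H x hx (orderOf_eq_prime hxr hx1)
    exact ⟨W, ⟨hWd, Cfsg.Agent.Linear.NdBridge.nd_iff.1 hWn⟩, fun w hw => hxT ▸ hWi ⟨w, hw, rfl⟩⟩
  refine ⟨?_, part⟩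
  rcases Nat.even_or_odd d with hde | hdo
  · obtain ⟨ν, h1, h3, h4⟩ := part (1 ::ₘ Multiset.replicate d 2) (fun e he => by
        rcases Multiset.mem_cons.1 he with rfl | he
        · omega
        · rw [Multiset.eq_of_mem_replicate he]; omega)
      (by rw [← Multiset.singleton_add]
          exact Cfsg.Agent.Linear.UnipPartition.good_small hde (fun x hx => by
            rw [Multiset.mem_singleton.1 hx]; exact odd_one))
      (by rw [Multiset.sum_cons, Multiset.sum_replicate, smul_eq_mul]; omega)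
    exact Cfsg.Agent.Linear.UnipPartition.one_odd odd_one hme h1 h3 h4
  · obtain ⟨d', rfl⟩ := hdo
    obtain ⟨ν, h1, h3, h4⟩ := part (3 ::ₘ Multiset.replicate (2 * d') 2) (fun e he => by
        rcases Multiset.mem_cons.1 he with rfl | he
        · omega
        · rw [Multiset.eq_of_mem_replicate he]; omega)
      (by rw [← Multiset.singleton_add]
          exact Cfsg.Agent.Linear.UnipPartition.good_small (even_two_mul d') (fun x hx => by
            rw [Multiset.mem_singleton.1 hx]; exact ⟨1, rfl⟩))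
      (by rw [Multiset.sum_cons, Multiset.sum_replicate, smul_eq_mul]; omega)
    exact Cfsg.Agent.Linear.UnipPartition.one_odd ⟨1, rfl⟩ hme h1 h3 h4

end Cfsg.Agent.S5995
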