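import Cfsg.Statements.S5997
import Cfsg.Agent.GeomClasses.QuatTwo

set_option autoImplicit false
open scoped MatrixGroups
open Cfsg

namespace Cfsg.Agent.S5997

/-- Elements of prime order of PSL_2(p) and the normalizer of a quaternion subgroup. Here `T = PSL_2(F)` for the field `F` with `p` elements, `p ≥ 5` prime; `R` is a subgroup of GL_2(F) isomorphic to the quaternion group of order 8 (an absolutely irreducible 2-group of symplectic type), and `H` is the subgroup of matrices of determinant 1 normalizing `R` — a subgroup of type 2^{1+2}.O₂⁻(2), isomorphic modulo scalars to A₄ or S₄ (maximality is not assumed). Ω is the set of cosets of `H` in `T`, so an element of `T` of prime order `r` (a matrix `x` of determinant 1 with `x^r` scalar, `x` not scalar) fixes a point of Ω exactly when some conjugate of `x` by a matrix of determinant 1 normalizes `R`. Let `r` be a prime dividing the index of `H`. Then every element of `T` of order `r` fixes a point of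 Ω if and only if `r = 2` or `r = 3`. -/
theorem result {F : Type*} [Field F] [Fintype F] {p : ℕ} [Fact p.Prime] [CharP F p] (hF : Fintype.card F = p) (hp : 5 ≤ p)
    (R : Subgroup (GL (Fin 2) F)) (hR : Nonempty (↥R ≃* QuaternionGroup 2))
    (r : ℕ) [Fact r.Prime]
    (hΩ : r ∣ (Cfsg.Geo.subgroupNormalizer R).relIndex (Cfsg.Geo.specialLinear (Fin 2) F)) :
    (∀ x ∈ Cfsg.Geo.specialLinear (Fin 2) F, (∃ z : F, ((x ^ r : GL (Fin 2) F) : Matrix (Fin 2) (Fin 2) F) = z • (1 : Matrix (Fin 2) (Fin 2) F)) →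
      (∀ z : F, (x : Matrix (Fin 2) (Fin 2) F) ≠ z • (1 : Matrix (Fin 2) (Fin 2) F)) →
      ∃ g ∈ Cfsg.Geo.specialLinear (Fin 2) F, g⁻¹ * x * g ∈ Cfsg.Geo.subgroupNormalizer R) ↔ (r = 2 ∨ r = 3) := by
  classical
  obtain ⟨e⟩ := hR
  have hr := (Fact.out : r.Prime)
  have hcast : ∀ m : ℕ, 0 < m → m < p → (m : F) ≠ 0 := fun m hm hmp h =>
    absurd (Nat.le_of_dvd hm ((CharP.cast_eq_zero_iff F p m).1 h)) (not_le.2 hmp)
  have h2 : (2 : F) ≠ 0 := by simpa using hcast 2 (by norm_num) (by omega)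
  have h3 : (3 : F) ≠ 0 := by simpa using hcast 3 (by norm_num) (by omega)
  have hsl : ∀ g : GL (Fin 2) F, g ∈ Cfsg.Geo.specialLinear (Fin 2) F ↔ (g : Matrix (Fin 2) (Fin 2) F).det = 1 := fun g => by
    simp [Cfsg.Geo.specialLinear, MonoidHom.mem_ker, Units.ext_iff]
  obtain ⟨A, B, hA, hB, hgen, hAA, hBB, hBA, hAt, hAd, hBt, hBd⟩ := Cfsg.Agent.GeomClasses.QuatTwo.quaternion_data h2 R e
  obtain ⟨Y, hYt, hYd, hYn⟩ := Cfsg.Agent.GeomClasses.QuatTwo.exists_three h2 hA hB hgen hAA hBB hBA hAt hBt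
  constructor
  · intro h
    by_contra hc
    push_neg at hc
    have hr5 : 5 ≤ r := by
      by_contra hlt
      have := hr.two_le
      have h4 : r = 4 := by omega
      rw [h4] at hr
      norm_num at hr
    obtain ⟨⟨x, hxS⟩, hx⟩ := exists_prime_orderOf_dvd_card' (G := Cfsg.Geo.specialLinear (Fin 2) F) r
      (hΩ.trans (Subgroup.index_dvd_card _))
    have hxr : x ^ r = 1 := by
      have h1 := pow_orderOf_eq_one (⟨x, hxS⟩ : Cfsg.Geo.specialLinear (Fin 2) F)
      rw [hx] at h1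
      simpa using congrArg Subtype.val h1
    have hns : ∀ z : F, (x : Matrix (Fin 2) (Fin 2) F) ≠ z • (1 : Matrix (Fin 2) (Fin 2) F) := by
      intro z hz
      have hz2 : z ^ 2 = 1 := by
        have := (hsl x).1 hxS
        rw [hz, Matrix.det_smul, Matrix.det_one, mul_one, Fintype.card_fin] at this
        exact this
      have hxx : x ^ 2 = 1 := Units.ext (by
        rw [Units.val_pow_eq_pow_val, hz, smul_pow, one_pow, hz2, one_smul, Units.val_one])
      have hle := Nat.le_of_dvd (by norm_num) (orderOf_dvd_of_pow_eq_one (show (⟨x, hxS⟩ : Cfsg.Geo.specialLinear (Fin 2) F) ^ 2 = 1 from Subtype.ext hxx))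
      omega
    obtain ⟨g, -, hg⟩ := h x hxS ⟨1, by rw [hxr, one_smul, Units.val_one]⟩ hns
    have hyr : (g⁻¹ * x * g) ^ r = 1 := by
      have := conj_pow (i := r) (a := g⁻¹) (b := x)
      rw [inv_inv] at this
      rw [this, hxr, mul_one, inv_mul_cancel]
    have hc' := Cfsg.Agent.GeomClasses.QuatTwo.centralises e hr5 hg (fun k _ => by rw [hyr, one_mul, mul_one])
    set y := g⁻¹ * x * g with hy
    rcases Cfsg.Agent.GeomClasses.QuatTwo.scalar_or_commute
      (Z := (y : Matrix (Fin 2) (Fin 2) F)) (M := (A : Matrix (Fin 2) (Fin 2) F)) (N := (B : Matrix (Fin 2) (Fin 2) F))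
      (by rw [← Units.val_mul, ← Units.val_mul, hc' A hA]) (by rw [← Units.val_mul, ← Units.val_mul, hc' B hB]) with ⟨z, hz⟩ | hcm
    · refine hns z ?_
      have : x = g * y * g⁻¹ := by rw [hy]; group
      rw [this, Units.val_mul, Units.val_mul, hz, Matrix.mul_smul, mul_one, Matrix.smul_mul, ← Units.val_mul,
        mul_inv_cancel, Units.val_one]
    · rw [hBA] at hcm
      have h0 : (2 : F) • ((A : Matrix (Fin 2) (Fin 2) F) * B) = 0 := by rw [two_smul]; nth_rw 1 [hcm]; exact neg_add_cancel _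
      have h1 : ((A * B : GL (Fin 2) F) : Matrix (Fin 2) (Fin 2) F) = 0 := (smul_eq_zero.1 h0).resolve_left h2
      exact not_isUnit_zero (h1 ▸ Units.isUnit (A * B))
  · intro hr23 x hxS ⟨z, hz⟩ hns
    set X := (x : Matrix (Fin 2) (Fin 2) F) with hXdef
    have hdet := (hsl x).1 hxS
    have hcy := Cfsg.Agent.GeomClasses.QuatTwo.cayley X
    rw [hdet, one_smul] at hcy
    have hYneg : (-Y) ∈ Subgroup.normalizer (R : Set (GL (Fin 2) F)) := by
      rw [Subgroup.mem_normalizer_iff] at hYn ⊢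
      intro g
      rw [hYn g, show -Y * g * (-Y)⁻¹ = Y * g * Y⁻¹ by simp]
    obtain ⟨T, hTS, hTn, hTt, ht4⟩ : ∃ T ∈ Cfsg.Geo.specialLinear (Fin 2) F,
        T ∈ Subgroup.normalizer (R : Set (GL (Fin 2) F)) ∧ (T : Matrix (Fin 2) (Fin 2) F).trace = X.trace ∧
        X.trace ^ 2 ≠ 4 := by
      rcases hr23 with rfl | rfl
      · have ht : X.trace = 0 := by
          refine (Cfsg.Agent.GeomClasses.QuatTwo.eq_zero_of_smul hns (b := z + 1) ?_).1
          rw [pow_two, Units.val_mul, hcy] at hz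
          rw [add_smul, one_smul, ← hz]; abel
        refine ⟨A, (hsl A).2 hAd, Subgroup.le_normalizer hA, by rw [hAt, ht], ?_⟩
        rw [ht]
        intro h
        exact h2 (mul_self_eq_zero.1 (show (2 : F) * 2 = 0 by linear_combination -h))
      · have hs : (X.trace ^ 2 - 1) • X = (z + X.trace) • (1 : Matrix (Fin 2) (Fin 2) F) := by
          rw [show (3 : ℕ) = 2 + 1 from rfl, pow_succ, pow_two, Units.val_mul, Units.val_mul, hcy, sub_mul, Matrix.smul_mul, hcy, one_mul] at hz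
          rw [add_smul, ← hz]
          module
        have ht := (Cfsg.Agent.GeomClasses.QuatTwo.eq_zero_of_smul hns hs).1
        have h4 : X.trace ^ 2 ≠ 4 := fun h => h3 (by linear_combination -h + ht)
        rcases sq_eq_one_iff.1 (sub_eq_zero.1 ht) with h1 | h1
        · refine ⟨-Y, (hsl _).2 ?_, hYneg, ?_, h4⟩
          · rw [Units.val_neg, Matrix.det_neg, hYd, Fintype.card_fin]; norm_num
          · rw [Units.val_neg, Matrix.trace_neg, hYt, h1, neg_neg]
        · exact ⟨Y, (hsl _).2 hYd, hYn, by rw [hYt, h1], h4⟩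
    obtain ⟨P, hP, hPX⟩ := Cfsg.Agent.GeomClasses.QuatTwo.exists_conj h2 hdet ht4
    obtain ⟨P', hP', hPT⟩ := Cfsg.Agent.GeomClasses.QuatTwo.exists_conj h2 ((hsl T).1 hTS) (hTt ▸ ht4)
    let Pu : GL (Fin 2) F := Matrix.GeneralLinearGroup.mkOfDetNeZero P (by rw [hP]; exact one_ne_zero)
    let Pu' : GL (Fin 2) F := Matrix.GeneralLinearGroup.mkOfDetNeZero P' (by rw [hP']; exact one_ne_zero)
    let C : Matrix (Fin 2) (Fin 2) F := !![0, -1; 1, X.trace]
    refine ⟨Pu * Pu'⁻¹, mul_mem ((hsl _).2 hP) (inv_mem ((hsl _).2 hP')), ?_⟩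
    have hx' : (x : Matrix (Fin 2) (Fin 2) F) * Pu = (Pu : Matrix (Fin 2) (Fin 2) F) * C := hPX
    have hT' : (T : Matrix (Fin 2) (Fin 2) F) * Pu' = (Pu' : Matrix (Fin 2) (Fin 2) F) * C := by
      show (T : Matrix (Fin 2) (Fin 2) F) * P' = _
      rw [hPT, hTt]; rfl
    have hC : Pu⁻¹ * x * Pu = Pu'⁻¹ * T * Pu' := Units.ext (by
      rw [Units.val_mul, Units.val_mul, Units.val_mul, Units.val_mul, mul_assoc, mul_assoc, hx', hT',
        ← mul_assoc, ← mul_assoc, ← Units.val_mul, ← Units.val_mul, inv_mul_cancel, inv_mul_cancel])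
    show (Pu * Pu'⁻¹)⁻¹ * x * (Pu * Pu'⁻¹) ∈ Subgroup.normalizer (R : Set (GL (Fin 2) F))
    rw [show (Pu * Pu'⁻¹)⁻¹ * x * (Pu * Pu'⁻¹) = Pu' * (Pu⁻¹ * x * Pu) * Pu'⁻¹ by group, hC,
      show Pu' * (Pu'⁻¹ * T * Pu') * Pu'⁻¹ = T by group]
    exact hTn

end Cfsg.Agent.S5997
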