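import Cfsg.Statements.S5998
import Cfsg.Agent.GeomClasses.ExtraspecialThree
import Cfsg.Agent.GeomClasses.EigenBasisTwo
import Cfsg.Agent.GeomClasses.SubspaceDerange

set_option autoImplicit false
open scoped MatrixGroups
open Cfsg
open Matrix

namespace Cfsg.Agent.S5998

/-- Elements of prime order of PSL_3(p), p ≡ 1 (mod 3), and the normalizer of an extraspecial subgroup of order 27. Here `T = PSL_3(F)` for the field `F` with `p` elements, `p` a prime with `p ≡ 1 (mod 3)`; `R` is a non-abelian subgroup of GL_3(F) of order 27 and exponent 3 (an extraspecial group 3^{1+2}, acting absolutely irreducibly), and `H` is the subgroup of matrices of determinant 1 normalizing `R` — a subgroup of type 3^{1+2}.Sp₂(3) (maximality is not assumed). Ω is the set of cosets of `H` in `T`, so an element of `T` of prime order `r` (a matrix `x` of determinant 1 with `x^r` scalar, `x` not scalar) fixes a point of Ω exactly when some conjugate of `x` by a matrix of determinant 1 normalizes `R`. Let `r` be a prime dividing the index of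 `H`. Then every element of `T` of order `r` fixes a point of Ω if and only if `r = 2`, or `r = 3` and `p ≡ 1 (mod 9)`. -/
theorem result {F : Type*} [Field F] [Fintype F] {p : ℕ} [Fact p.Prime] [CharP F p] (hF : Fintype.card F = p) (hp3 : p % 3 = 1)
    (R : Subgroup (GL (Fin 3) F)) (hR : Nat.card R = 27) (hRe : Monoid.exponent R = 3) (hRna : ¬ IsMulCommutative R)
    (r : ℕ) [Fact r.Prime]
    (hΩ : r ∣ (Cfsg.Geo.subgroupNormalizer R).relIndex (Cfsg.Geo.specialLinear (Fin 3) F)) :
    (∀ x ∈ Cfsg.Geo.specialLinear (Fin 3) F, (∃ z : F, ((x ^ r : GL (Fin 3) F) : Matrix (Fin 3) (Fin 3) F) = z • (1 : Matrix (Fin 3) (Fin 3) F)) →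
      (∀ z : F, (x : Matrix (Fin 3) (Fin 3) F) ≠ z • (1 : Matrix (Fin 3) (Fin 3) F)) →
      ∃ g ∈ Cfsg.Geo.specialLinear (Fin 3) F, g⁻¹ * x * g ∈ Cfsg.Geo.subgroupNormalizer R) ↔ (r = 2 ∨ (r = 3 ∧ p % 9 = 1)) := by
  classical
  have hp : p.Prime := Fact.out
  have hr : r.Prime := Fact.out
  have hp7 : 7 ≤ p := by
    have := hp.two_le
    by_contra h
    interval_cases p <;> first | omega | exact absurd hp (by decide)
  have h3 : (3 : F) ≠ 0 := fun h => by
    have h' : p ∣ 3 := (CharP.cast_eq_zero_iff F p 3).1 (by exact_mod_cast h)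
    have := Nat.le_of_dvd (by norm_num) h'
    omega
  have h2 : (2 : F) ≠ 0 := fun h => by
    have h' : p ∣ 2 := (CharP.cast_eq_zero_iff F p 2).1 (by exact_mod_cast h)
    have := Nat.le_of_dvd (by norm_num) h'
    omega
  have hdvd3 : 3 ∣ Nat.card Fˣ := by rw [Nat.card_eq_fintype_card, Fintype.card_units, hF]; omega
  obtain ⟨w, A, B, C, P, hw, hw1, hA, hB, hC, hP, hCw, hAB, hAP, hBP⟩ :=
    GeomClasses.ExtraspecialThree.structure_basis R hR hRe hRna h3 hdvd3
  have hw0 : w ≠ 0 := fun h => by rw [h] at hw; simp at hw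
  have hPu : IsUnit P.det := isUnit_iff_ne_zero.2 hP
  have hPP : P * P⁻¹ = 1 := Matrix.mul_nonsing_inv _ hPu
  have hPP' : P⁻¹ * P = 1 := Matrix.nonsing_inv_mul _ hPu
  have hAm : (A : Matrix (Fin 3) (Fin 3) F) = P * GeomClasses.ExtraspecialThree.D w * P⁻¹ := by
    rw [← hAP, Matrix.mul_assoc, hPP, mul_one]
  have hBm : (B : Matrix (Fin 3) (Fin 3) F) = P * GeomClasses.ExtraspecialThree.S * P⁻¹ := by
    rw [← hBP, Matrix.mul_assoc, hPP, mul_one]
  have hco : ∀ X Y : Matrix (Fin 3) (Fin 3) F, P * X * P⁻¹ * (P * Y * P⁻¹) = P * (X * Y) * P⁻¹ := fun X Y => by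
    calc P * X * P⁻¹ * (P * Y * P⁻¹) = P * X * (P⁻¹ * P) * Y * P⁻¹ := by simp only [Matrix.mul_assoc]
      _ = _ := by rw [hPP', mul_one]; simp only [Matrix.mul_assoc]
  have hdA : ∀ g ∈ R, Matrix.GeneralLinearGroup.det g = 1 := by
    have hDS : ∀ g : GL (Fin 3) F, g = A ∨ g = B → Matrix.GeneralLinearGroup.det g = 1 := by
      rintro g (rfl | rfl) <;> apply Units.ext <;>
        rw [Matrix.GeneralLinearGroup.val_det_apply, Units.val_one]
      · rw [hAm, Matrix.det_mul, Matrix.det_mul, Matrix.det_nonsing_inv, Ring.inverse_eq_inv',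
          show (GeomClasses.ExtraspecialThree.D w).det = 1 by
            simp [GeomClasses.ExtraspecialThree.D, Matrix.det_diagonal, Fin.prod_univ_three]; linear_combination hw,
          mul_one, mul_inv_cancel₀ hP]
      · rw [hBm, Matrix.det_mul, Matrix.det_mul, Matrix.det_nonsing_inv, Ring.inverse_eq_inv',
          show (GeomClasses.ExtraspecialThree.S : Matrix (Fin 3) (Fin 3) F).det = 1 by
            simp [GeomClasses.ExtraspecialThree.S, Matrix.det_fin_three],
          mul_one, mul_inv_cancel₀ hP]
    have hle : R ≤ Subgroup.closure {A, B} := by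
      have hc : Subgroup.closure {A, B} ≤ R := (Subgroup.closure_le R).2 (Set.insert_subset hA (Set.singleton_subset_iff.2 hB))
      refine (Subgroup.eq_of_le_of_card_ge hc ?_).ge
      have : Fact (Nat.Prime 3) := ⟨Nat.prime_three⟩
      set H := Subgroup.closure {A, B}
      have hA' : A ∈ H := Subgroup.subset_closure (Set.mem_insert _ _)
      have hB' : B ∈ H := Subgroup.subset_closure (Set.mem_insert_of_mem _ rfl)
      obtain ⟨k, hk, hk'⟩ := (Nat.dvd_prime_pow Nat.prime_three).1
        (show Nat.card H ∣ 3 ^ 3 by rw [show (3 : ℕ) ^ 3 = 27 by norm_num, ← hR]; exact Subgroup.card_dvd_of_le hc)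
      rcases (show k = 0 ∨ k = 1 ∨ k = 2 ∨ k = 3 by omega) with rfl | rfl | rfl | rfl
      · exfalso
        have := (Nat.card_eq_one_iff_unique.1 hk').1
        exact hAB (congrArg Subtype.val (Subsingleton.elim ((⟨A, hA'⟩ : H) * ⟨B, hB'⟩) (⟨B, hB'⟩ * ⟨A, hA'⟩)))
      · exfalso
        have : IsCyclic H := isCyclic_of_prime_card (p := 3) (by simpa using hk')
        exact hAB (congrArg Subtype.val (IsCyclic.commGroup.mul_comm (⟨A, hA'⟩ : H) ⟨B, hB'⟩))
      · exfalso
        exact hAB (congrArg Subtype.val ((IsPGroup.isMulCommutative_of_card_eq_prime_sq hk').is_comm.comm (⟨A, hA'⟩ : H) ⟨B, hB'⟩))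
      · rw [hk', hR]; norm_num
    intro g hg
    exact (show Subgroup.closure {A, B} ≤ (Matrix.GeneralLinearGroup.det : GL (Fin 3) F →* Fˣ).ker from
      (Subgroup.closure_le _).2 fun y hy => hDS y (by simpa using hy)) (hle hg)
  constructor
  · intro H
    by_cases hr2 : r = 2
    · exact Or.inl hr2
    set SL := Cfsg.Geo.specialLinear (Fin 3) F
    set N := Cfsg.Geo.subgroupNormalizer R
    have hidx : N.relIndex SL ∣ Nat.card SL := Subgroup.index_dvd_card _
    by_cases hr3 : r = 3
    · subst hr3
      refine Or.inr ⟨rfl, ?_⟩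
      by_contra h9
      have hRle : R ≤ N ⊓ SL := fun g hg => ⟨Subgroup.le_normalizer hg, hdA g hg⟩
      have h1 : Nat.card (N.subgroupOf SL) * N.relIndex SL = Nat.card SL := Subgroup.card_mul_index _
      have h2 : 27 ∣ Nat.card (N.subgroupOf SL) := by
        have e : Nat.card ((N ⊓ SL).subgroupOf SL) = Nat.card ↥(N ⊓ SL) :=
          Nat.card_congr (Subgroup.subgroupOfEquivOfLe inf_le_right).toEquiv
        rw [Subgroup.inf_subgroupOf_right] at e
        rw [e, ← hR]
        exact Subgroup.card_dvd_of_le hRle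
      have h81 : 81 ∣ Nat.card SL := h1 ▸ (show 81 = 27 * 3 by norm_num) ▸ mul_dvd_mul h2 hΩ
      have hGL : Nat.card SL * (Matrix.GeneralLinearGroup.det : GL (Fin 3) F →* Fˣ).ker.index = Nat.card (GL (Fin 3) F) :=
        Subgroup.card_mul_index _
      have hidx3 : 3 ∣ (Matrix.GeneralLinearGroup.det : GL (Fin 3) F →* Fˣ).ker.index := by
        rw [Subgroup.index_ker, MonoidHom.range_eq_top.2 (fun u => ?_), Subgroup.card_top]
        · exact hdvd3
        · exact ⟨Matrix.GeneralLinearGroup.mkOfDetNeZero (Matrix.diagonal ![(u : F), 1, 1]) (by simp [Matrix.det_diagonal, Fin.prod_univ_three]),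
            Units.ext (by rw [Matrix.GeneralLinearGroup.val_det_apply]; simp [Matrix.GeneralLinearGroup.mkOfDetNeZero, Matrix.det_diagonal, Fin.prod_univ_three])⟩
      have h243 : 243 ∣ Nat.card (GL (Fin 3) F) := hGL ▸ (show 243 = 81 * 3 by norm_num) ▸ mul_dvd_mul h81 hidx3
      rw [Matrix.card_GL_field, hF, Fin.prod_univ_three] at h243
      obtain ⟨k, e, he, rfl⟩ : ∃ k e, (e = 1 ∨ e = 2) ∧ p = 9 * k + 3 * e + 1 :=
        ⟨p / 9, (p % 9) / 3, by omega, by omega⟩
      set P' := 9 * k + 3 * e + 1
      have hfac : (P' ^ 3 - 1) * (P' ^ 3 - P') * (P' ^ 3 - P' ^ 2) =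
          81 * (P' ^ 3 * (3 * k + e) ^ 3 * (P' + 1) * (27 * k ^ 2 + 18 * k * e + 9 * k + 3 * e ^ 2 + 3 * e + 1)) := by
        have e1 : P' ^ 3 - 1 = (9 * k + 3 * e) * (P' ^ 2 + P' + 1) := Nat.sub_eq_of_eq_add (by simp only [P']; ring)
        have e2 : P' ^ 3 - P' = P' * ((9 * k + 3 * e) * (P' + 1)) := Nat.sub_eq_of_eq_add (by simp only [P']; ring)
        have e3 : P' ^ 3 - P' ^ 2 = P' ^ 2 * (9 * k + 3 * e) := Nat.sub_eq_of_eq_add (by simp only [P']; ring)
        rw [e1, e2, e3]; simp only [P']; ring
      simp only [Fin.val_zero, Fin.val_one, Fin.val_two, pow_zero, pow_one] at h243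
      rw [hfac, show 243 = 81 * 3 by norm_num] at h243
      have h3M := (ZMod.natCast_eq_zero_iff _ 3).2 (Nat.dvd_of_mul_dvd_mul_left (by norm_num) h243)
      simp only [P', Nat.cast_mul, Nat.cast_add, Nat.cast_pow, Nat.cast_ofNat, Nat.cast_one,
        show (3 : ZMod 3) = 0 from rfl, show (9 : ZMod 3) = 0 from rfl, show (27 : ZMod 3) = 0 from rfl,
        show (18 : ZMod 3) = 0 from rfl, zero_mul, zero_add, add_zero, one_pow, one_mul, mul_one] at h3M
      rcases he with rfl | rfl <;> norm_num at h3M <;> first | (have := (ZMod.natCast_eq_zero_iff 2 3).1 (by exact_mod_cast h3M); omega) | (have := (ZMod.natCast_eq_zero_iff 16 3).1 (by exact_mod_cast h3M); omega)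
    · exfalso
      have hr5 : 5 ≤ r := by
        have := hr.two_le
        by_contra h
        interval_cases r <;> first | omega | exact absurd hr (by decide)
      obtain ⟨x, hx⟩ := exists_prime_orderOf_dvd_card' (G := SL) r (hΩ.trans hidx)
      have hxo : orderOf (x : GL (Fin 3) F) = r := (Subgroup.orderOf_coe x).trans hx
      have hxr : (x : GL (Fin 3) F) ^ r = 1 := hxo ▸ pow_orderOf_eq_one _
      have hscal : ∀ y : GL (Fin 3) F, Matrix.GeneralLinearGroup.det y = 1 → orderOf y = r →
          ∀ z : F, (y : Matrix (Fin 3) (Fin 3) F) ≠ z • 1 := by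
        intro y hy hyo z hz
        have hd : z ^ 3 = 1 := by
          have := congrArg Units.val hy
          rw [Matrix.GeneralLinearGroup.val_det_apply, hz] at this
          simpa [Matrix.det_smul] using this
        have h3' : y ^ 3 = 1 := Units.ext (by
          rw [Units.val_pow_eq_pow_val, hz, smul_pow, one_pow, hd, one_smul, Units.val_one])
        have := Nat.le_of_dvd (by norm_num) (hyo ▸ orderOf_dvd_of_pow_eq_one h3')
        omega
      obtain ⟨g, hg, hy⟩ := H x x.2 ⟨1, by rw [hxr, Units.val_one, one_smul]⟩ (hscal x x.2 hxo)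
      set y := g⁻¹ * (x : GL (Fin 3) F) * g
      have hyo : orderOf y = r := by
        rw [show y = MulAut.conj g⁻¹ (x : GL (Fin 3) F) by simp [y]]
        exact (orderOf_injective (MulAut.conj g⁻¹).toMonoidHom (MulAut.conj g⁻¹).injective _).trans hxo
      have hyS : Matrix.GeneralLinearGroup.det y = 1 := SL.mul_mem (SL.mul_mem (SL.inv_mem hg) x.2) hg
      let φ : Function.End R := fun a => ⟨y * a * y⁻¹, (Subgroup.mem_normalizer_iff.1 hy a).1 a.2⟩
      have hφ : ∀ (k : ℕ) (a : R), ((φ ^ k) a : GL (Fin 3) F) = y ^ k * a * (y ^ k)⁻¹ := by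
        intro k
        induction k with
        | zero => intro a; simp; rfl
        | succ k ih =>
          intro a
          rw [pow_succ]
          show ((φ ^ k) (φ a) : GL (Fin 3) F) = _
          rw [ih (φ a)]
          show y ^ k * (y * a * y⁻¹) * (y ^ k)⁻¹ = _
          rw [pow_succ y k]
          group
      have hyr : y ^ r = 1 := hyo ▸ pow_orderOf_eq_one y
      have hmod := Equiv.Perm.card_fixedPoints_modEq (f := φ) (p := r) (n := 1)
        (by rw [pow_one]; funext a; exact Subtype.ext (by rw [hφ, hyr]; simp; rfl))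
      set T : Subgroup R := (Subgroup.centralizer {y}).subgroupOf R
      have hfix : Fintype.card ↥(Function.fixedPoints φ) = Nat.card T := by
        rw [← Nat.card_eq_fintype_card]
        refine Nat.card_congr (Equiv.subtypeEquivRight fun a => ?_)
        show φ a = a ↔ (a : GL (Fin 3) F) ∈ Subgroup.centralizer {y}
        rw [Subgroup.mem_centralizer_singleton_iff]
        refine ⟨fun h => ?_, fun h => Subtype.ext ?_⟩
        · have h' : y * (a : GL (Fin 3) F) * y⁻¹ = a := congrArg Subtype.val h
          exact (mul_inv_eq_iff_eq_mul.1 h').symm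
        · show y * (a : GL (Fin 3) F) * y⁻¹ = a
          rw [← h, mul_inv_cancel_right]
      rw [← Nat.card_eq_fintype_card, hR, hfix] at hmod
      have hCy : C ∈ Subgroup.centralizer {y} := by
        rw [Subgroup.mem_centralizer_singleton_iff]
        apply Units.ext
        simp [hCw]
      have hT1 : Nat.card T ≠ 1 := fun h => by
        have hsub := (Nat.card_eq_one_iff_unique.1 h).1
        have hC1 : C = 1 := congrArg (fun t : T => ((t : R) : GL (Fin 3) F))
          (Subsingleton.elim (⟨⟨C, hC⟩, hCy⟩ : T) 1)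
        rw [hC1, Units.val_one] at hCw
        exact hw1 (by simpa using (congrFun (congrFun hCw 0) 0).symm)
      obtain ⟨k, hk, hk'⟩ := (Nat.dvd_prime_pow Nat.prime_three).1
        (show Nat.card T ∣ 3 ^ 3 by rw [show (3 : ℕ) ^ 3 = 27 by norm_num, ← hR]; exact Subgroup.card_subgroup_dvd_card T)
      have hk3 : k = 3 := by
        rw [hk'] at hmod hT1
        have hd := (Nat.modEq_iff_dvd' (show 3 ^ k ≤ 27 from le_trans (Nat.pow_le_pow_right (by norm_num) hk) (by norm_num))).1 hmod.symm
        rcases (show k = 0 ∨ k = 1 ∨ k = 2 ∨ k = 3 by omega) with rfl | rfl | rfl | rfl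
        · simp at hT1
        · have hd' : r ∣ 2 ^ 3 * 3 := by simpa using hd
          rcases hr.dvd_mul.1 hd' with h | h
          · have := (Nat.prime_dvd_prime_iff_eq hr Nat.prime_two).1 (hr.dvd_of_dvd_pow h); omega
          · have := Nat.le_of_dvd (by norm_num) h; omega
        · have hd' : r ∣ 2 * 3 ^ 2 := by simpa using hd
          rcases hr.dvd_mul.1 hd' with h | h
          · have := Nat.le_of_dvd (by norm_num) h; omega
          · have := Nat.le_of_dvd (by norm_num) (hr.dvd_of_dvd_pow h); omega
        · rfl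
      have hTtop : T = ⊤ := Subgroup.eq_top_of_card_eq T (by rw [hk', hk3, hR]; norm_num)
      have hcom : ∀ a ∈ R, (y : Matrix (Fin 3) (Fin 3) F) * (a : Matrix (Fin 3) (Fin 3) F) = (a : Matrix (Fin 3) (Fin 3) F) * y := by
        intro a ha
        have h1 : (⟨a, ha⟩ : R) ∈ T := hTtop ▸ Subgroup.mem_top _
        have h2 : a ∈ Subgroup.centralizer {y} := h1
        rw [Subgroup.mem_centralizer_singleton_iff] at h2
        simpa using congrArg Units.val h2.symm
      set Y := P⁻¹ * (y : Matrix (Fin 3) (Fin 3) F) * P with hY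
      have hcc : ∀ (a : GL (Fin 3) F) (X : Matrix (Fin 3) (Fin 3) F), a ∈ R →
          (a : Matrix (Fin 3) (Fin 3) F) * P = P * X → Y * X = X * Y := by
        intro a X ha hX
        have hX' : X = P⁻¹ * (a : Matrix (Fin 3) (Fin 3) F) * P := by rw [Matrix.mul_assoc, hX, ← Matrix.mul_assoc, hPP', one_mul]
        have key : ∀ U V : Matrix (Fin 3) (Fin 3) F, P⁻¹ * U * P * (P⁻¹ * V * P) = P⁻¹ * (U * V) * P := fun U V => by
          calc P⁻¹ * U * P * (P⁻¹ * V * P) = P⁻¹ * U * (P * P⁻¹) * V * P := by simp only [Matrix.mul_assoc]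
            _ = _ := by rw [hPP, mul_one]; simp only [Matrix.mul_assoc]
        rw [hY, hX', key, key, hcom a ha]
      have hYD := hcc A _ hA hAP
      have hYS := hcc B _ hB hBP
      have hw2 : w * w ≠ 1 := fun h => hw1 (by linear_combination hw - w * h)
      have hww : w * w ≠ w := fun h => hw1 (mul_left_cancel₀ hw0 (by rw [h, mul_one]))
      have e : ∀ i j : Fin 3, Y i j * (![1, w, w * w] j - ![1, w, w * w] i) = 0 := fun i j => by
        have := congrFun (congrFun hYD i) j
        rw [GeomClasses.ExtraspecialThree.D, Matrix.mul_diagonal, Matrix.diagonal_mul] at this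
        linear_combination this
      have hoff : ∀ i j : Fin 3, i ≠ j → Y i j = 0 := fun i j hij => by
        refine (mul_eq_zero.1 (e i j)).resolve_right ?_
        fin_cases i <;> fin_cases j <;> first
          | exact absurd rfl hij
          | exact sub_ne_zero.2 hw1
          | exact sub_ne_zero.2 hw1.symm
          | exact sub_ne_zero.2 hw2
          | exact sub_ne_zero.2 hw2.symm
          | exact sub_ne_zero.2 hww
          | exact sub_ne_zero.2 hww.symm
      have hdiag : Y 1 1 = Y 0 0 ∧ Y 2 2 = Y 0 0 := by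
        have f10 := congrFun (congrFun hYS 1) 0
        have f21 := congrFun (congrFun hYS 2) 1
        simp [GeomClasses.ExtraspecialThree.S, Matrix.mul_apply, Fin.sum_univ_three] at f10 f21
        exact ⟨f10, f21.trans f10⟩
      have hYs : Y = Y 0 0 • 1 := by
        ext i j
        rcases eq_or_ne i j with rfl | h
        · fin_cases i <;> simp [hdiag.1, hdiag.2]
        · simp [hoff i j h, Matrix.one_apply_ne h]
      refine hscal y hyS hyo (Y 0 0) ?_
      calc (y : Matrix (Fin 3) (Fin 3) F) = (P * P⁻¹) * y * (P * P⁻¹) := by rw [hPP, one_mul, mul_one]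
        _ = P * Y * P⁻¹ := by rw [hY]; simp only [Matrix.mul_assoc]
        _ = _ := by
          conv_lhs => rw [hYs]
          rw [Matrix.mul_smul, mul_one, Matrix.smul_mul, hPP]
  · intro hcond x hx ⟨z, hz⟩ hns
    have hxd : (x : Matrix (Fin 3) (Fin 3) F).det = 1 := by
      simpa [Matrix.GeneralLinearGroup.val_det_apply] using congrArg Units.val (show Matrix.GeneralLinearGroup.det x = 1 from hx)
    have conj : ∀ (μ : F) (M h : Matrix (Fin 3) (Fin 3) F), μ ≠ 0 → h.det ≠ 0 → M.det ≠ 0 →
        (x : Matrix (Fin 3) (Fin 3) F) * h = h * (μ • M) → (∀ s : F, s ≠ 0 → ∃ Cm, Cm.det = s ∧ Cm * M = M * Cm) →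
        (∃ X ∈ R, M * GeomClasses.ExtraspecialThree.D w = (P⁻¹ * (X : Matrix (Fin 3) (Fin 3) F) * P) * M) →
        (∃ X ∈ R, M * GeomClasses.ExtraspecialThree.S = (P⁻¹ * (X : Matrix (Fin 3) (Fin 3) F) * P) * M) →
        ∃ g ∈ Cfsg.Geo.specialLinear (Fin 3) F, g⁻¹ * x * g ∈ Cfsg.Geo.subgroupNormalizer R := by
      intro μ M h hμ hh hM hxh hCs ⟨XA, hXA, hMA⟩ ⟨XB, hXB, hMB⟩
      obtain ⟨Cm, hCd, hCc⟩ := hCs (P.det / h.det) (div_ne_zero hP hh)
      set G : Matrix (Fin 3) (Fin 3) F := h * Cm * P⁻¹
      have hG : G.det = 1 := by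
        rw [Matrix.det_mul, Matrix.det_mul, hCd, Matrix.det_nonsing_inv, Ring.inverse_eq_inv']
        field_simp
      obtain ⟨g, hg⟩ : ∃ g : GL (Fin 3) F, (g : Matrix (Fin 3) (Fin 3) F) = G :=
        ⟨Matrix.GeneralLinearGroup.mkOfDetNeZero G (by rw [hG]; exact one_ne_zero), rfl⟩
      refine ⟨g, ?_, ?_⟩
      · show Matrix.GeneralLinearGroup.det g = 1
        exact Units.ext (by rw [Matrix.GeneralLinearGroup.val_det_apply, hg, hG, Units.val_one])
      · set y := g⁻¹ * x * g
        have hy : (y : Matrix (Fin 3) (Fin 3) F) = P * (μ • M) * P⁻¹ := by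
          have h1 : (x : Matrix (Fin 3) (Fin 3) F) * G = G * (P * (μ • M) * P⁻¹) := by
            calc (x : Matrix (Fin 3) (Fin 3) F) * G = ((x : Matrix (Fin 3) (Fin 3) F) * h) * Cm * P⁻¹ := by simp only [G, Matrix.mul_assoc]
              _ = h * (μ • (M * Cm)) * P⁻¹ := by rw [hxh, Matrix.mul_assoc h, Matrix.smul_mul]
              _ = h * (μ • (Cm * (P⁻¹ * P) * M)) * P⁻¹ := by rw [← hCc, hPP', mul_one]
              _ = _ := by simp only [G, Matrix.mul_assoc, Matrix.mul_smul, Matrix.smul_mul]
          rw [show y = g⁻¹ * (x * g) by simp [y, mul_assoc], Units.val_mul, Units.val_mul, hg, h1, ← Matrix.mul_assoc, ← hg,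
            ← Units.val_mul, inv_mul_cancel, Units.val_one, one_mul]
        have hmem : ∀ (a X : GL (Fin 3) F) (Z : Matrix (Fin 3) (Fin 3) F), (a : Matrix (Fin 3) (Fin 3) F) = P * Z * P⁻¹ →
            X ∈ R → M * Z = (P⁻¹ * (X : Matrix (Fin 3) (Fin 3) F) * P) * M → y * a * y⁻¹ ∈ R := by
          intro a X Z ha hX hMZ
          have : y * a = X * y := Units.ext (by
            show (y : Matrix (Fin 3) (Fin 3) F) * (a : Matrix (Fin 3) (Fin 3) F) = (X : Matrix (Fin 3) (Fin 3) F) * (y : Matrix (Fin 3) (Fin 3) F)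
            rw [hy, ha, hco, Matrix.smul_mul, hMZ]
            simp only [← Matrix.mul_assoc, Matrix.mul_smul, Matrix.smul_mul, hPP, one_mul])
          rw [this, mul_inv_cancel_right]
          exact hX
        exact GeomClasses.ExtraspecialThree.mem_normalizer R hR hA hB hAB (hmem A XA _ hAm hXA hMA) (hmem B XB _ hBm hXB hMB)
    have hAc : P⁻¹ * (A : Matrix (Fin 3) (Fin 3) F) * P = GeomClasses.ExtraspecialThree.D w := by
      rw [Matrix.mul_assoc, hAP, ← Matrix.mul_assoc, hPP', one_mul]
    have hBc : P⁻¹ * (B : Matrix (Fin 3) (Fin 3) F) * P = GeomClasses.ExtraspecialThree.S := by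
      rw [Matrix.mul_assoc, hBP, ← Matrix.mul_assoc, hPP', one_mul]
    have hmul : ∀ U V : Matrix (Fin 3) (Fin 3) F, P⁻¹ * (U * V) * P = P⁻¹ * U * P * (P⁻¹ * V * P) := fun U V => by
      calc P⁻¹ * (U * V) * P = P⁻¹ * U * (P * P⁻¹) * V * P := by rw [hPP, mul_one]; simp only [Matrix.mul_assoc]
        _ = _ := by simp only [Matrix.mul_assoc]
    rcases hcond with rfl | ⟨rfl, h9⟩
    · -- involutions
      have hx2 : ∀ v, (x : Matrix (Fin 3) (Fin 3) F) *ᵥ ((x : Matrix (Fin 3) (Fin 3) F) *ᵥ v) = z • v := fun v => by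
        rw [Matrix.mulVec_mulVec, ← pow_two, ← Units.val_pow_eq_pow_val, hz, Matrix.smul_mulVec, Matrix.one_mulVec]
      have hz3 : z ^ 3 = 1 := by
        have := congrArg Matrix.det hz
        rw [Units.val_pow_eq_pow_val, Matrix.det_pow, hxd, one_pow, Matrix.det_smul, Matrix.det_one, mul_one] at this
        simpa using this.symm
      have hz0 : z ≠ 0 := fun h => by rw [h] at hz3; simp at hz3
      obtain ⟨a, b, bb, hb1, hb2, hdet, hab⟩ := GeomClasses.EigenBasisTwo.exists_eigen_basis h2 (x : Matrix (Fin 3) (Fin 3) F)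
        (c := z * z) (mul_ne_zero hz0 hz0) (fun v => by rw [hx2, show z * z * (z * z) = z by linear_combination z * hz3])
      have hc3 : (z * z) ^ 3 = 1 := by rw [mul_pow, hz3, one_mul]
      have hb : a = 1 ∧ b = 2 := by
        rcases (show (a = 0 ∧ b = 3) ∨ (a = 1 ∧ b = 2) ∨ (a = 2 ∧ b = 1) ∨ (a = 3 ∧ b = 0) by omega) with ⟨rfl, rfl⟩ | h | ⟨rfl, rfl⟩ | ⟨rfl, rfl⟩
        · rw [hxd] at hdet
          exfalso; apply h2
          linear_combination hdet - hc3
        · exact h
        · rw [hxd] at hdet
          exfalso; apply h2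
          linear_combination hdet - hc3
        · exfalso
          refine hns (z * z) (Matrix.toLin'.injective (bb.ext fun i => ?_))
          rcases i with i | i
          · rw [Matrix.toLin'_apply, hb1, map_smul, Matrix.toLin'_one]; rfl
          · exact i.elim0
      obtain ⟨rfl, rfl⟩ := hb
      set v := bb (Sum.inl 0) with hv
      set u₁ := bb (Sum.inr 0) with hu₁
      set u₂ := bb (Sum.inr 1) with hu₂
      let M2 : Matrix (Fin 3) (Fin 3) F := !![1, 0, 0; 0, 0, 1; 0, 1, 0]
      let h : Matrix (Fin 3) (Fin 3) F := Matrix.of fun i j => ![u₁, u₂ + v, u₂ - v] j i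
      have hli := bb.linearIndependent
      have hh : h.det ≠ 0 := by
        refine isUnit_iff_ne_zero.1 ((Matrix.isUnit_iff_isUnit_det h).1 (Matrix.linearIndependent_cols_iff_isUnit.1 ?_))
        show LinearIndependent F ![u₁, u₂ + v, u₂ - v]
        rw [Fintype.linearIndependent_iff]
        intro g hg
        simp [Fin.sum_univ_three] at hg
        have h' : (g 1 - g 2) • v + g 0 • u₁ + (g 1 + g 2) • u₂ = 0 := by rw [← hg]; module
        have := Fintype.linearIndependent_iff.1 hli (Sum.elim ![g 1 - g 2] ![g 0, g 1 + g 2]) (by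
          rw [← h', Fintype.sum_sum_type, Fin.sum_univ_one, Fin.sum_univ_two]; simp [hv, hu₁, hu₂, add_assoc])
        have k0 := this (Sum.inl 0)
        have k1 := this (Sum.inr 0)
        have k2 := this (Sum.inr 1)
        simp at k0 k1 k2
        intro i
        fin_cases i
        · exact k1
        · exact (mul_eq_zero.1 (show (2 : F) * g 1 = 0 by linear_combination k0 + k2)).resolve_left h2
        · exact (mul_eq_zero.1 (show (2 : F) * g 2 = 0 by linear_combination k2 - k0)).resolve_left h2
      refine conj (-(z * z)) M2 h (neg_ne_zero.2 (mul_ne_zero hz0 hz0)) hh (by simp [M2, Matrix.det_fin_three]) ?_ ?_ ?_ ?_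
      · ext i j
        have hcol : ((x : Matrix (Fin 3) (Fin 3) F) * h) i j = ((x : Matrix (Fin 3) (Fin 3) F) *ᵥ (![u₁, u₂ + v, u₂ - v] j)) i := by
          simp [h, Matrix.mul_apply, Matrix.mulVec, dotProduct]
        rw [hcol]
        fin_cases j <;>
          simp [h, M2, Matrix.mul_apply, Fin.sum_univ_three, Matrix.mulVec_add, Matrix.mulVec_sub, hv, hu₁, hu₂, hb1, hb2] <;> ring
      · exact fun s _ => ⟨Matrix.diagonal ![s, 1, 1], by simp [Matrix.det_diagonal, Fin.prod_univ_three],
          by ext i j; fin_cases i <;> fin_cases j <;> simp [M2]⟩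
      · refine ⟨A * A, mul_mem hA hA, ?_⟩
        rw [Units.val_mul, hmul, hAc]
        have hw4 : w * w * (w * w) = w := by linear_combination w * hw
        ext i j
        fin_cases i <;> fin_cases j <;>
          simp [M2, GeomClasses.ExtraspecialThree.D, Matrix.mul_apply, Fin.sum_univ_three, hw4]
      · refine ⟨B * B, mul_mem hB hB, ?_⟩
        rw [Units.val_mul, hmul, hBc]
        ext i j
        fin_cases i <;> fin_cases j <;>
          simp [M2, GeomClasses.ExtraspecialThree.S, Matrix.mul_apply, Fin.sum_univ_three]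
    · -- elements of order three
      have hz1 : z ^ 3 = 1 := by
        have := congrArg Matrix.det hz
        rw [Units.val_pow_eq_pow_val, Matrix.det_pow, hxd, one_pow, Matrix.det_smul, Matrix.det_one, mul_one] at this
        simpa using this.symm
      obtain ⟨b, hb⟩ : ∃ b : F, b ^ 3 = z := by
        by_contra hc
        push_neg at hc
        obtain ⟨k, hk, hd, -⟩ := GeomClasses.SubspaceDerange.nonpower (r := 3) hc
          (T := Matrix.toLin' (x : Matrix (Fin 3) (Fin 3) F)) (by
            rw [← Matrix.toLin'_pow, ← Units.val_pow_eq_pow_val, hz, map_smul, Matrix.toLin'_one]; rfl)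
        rw [Module.finrank_fin_fun] at hk
        obtain rfl : k = 1 := by omega
        rw [LinearMap.det_toLin', hxd] at hd
        exact hc 1 (by rw [one_pow, hd]; ring)
      have hb0 : b ≠ 0 := fun h => by rw [← hb, h] at hz1; simp at hz1
      set y : Matrix (Fin 3) (Fin 3) F := b⁻¹ • (x : Matrix (Fin 3) (Fin 3) F) with hy
      have hy3 : y ^ 3 = 1 := by
        rw [hy, smul_pow, ← Units.val_pow_eq_pow_val, hz, smul_smul, inv_pow, hb, inv_mul_cancel₀, one_smul]
        exact fun h => by rw [h] at hz1; simp at hz1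
      have hxy : (x : Matrix (Fin 3) (Fin 3) F) = b • y := by rw [hy, smul_smul, mul_inv_cancel₀ hb0, one_smul]
      have hroots : ∀ s : F, s ^ 3 = 1 → s = 1 ∨ s = w ∨ s = w * w := by
        intro s hs
        have hw2 : w * w + w + 1 = 0 :=
          (mul_eq_zero.1 (show (w - 1) * (w * w + w + 1) = 0 by linear_combination hw)).resolve_left (sub_ne_zero.2 hw1)
        have : (s - 1) * ((s - w) * (s - w * w)) = 0 := by linear_combination hs + (s * w - s ^ 2) * hw2 - hw
        simpa [sub_eq_zero] using this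
      have hdiagC : ∀ (d : Fin 3 → F) (s : F), s ≠ 0 → ∃ Cm, Cm.det = s ∧ Cm * Matrix.diagonal d = Matrix.diagonal d * Cm :=
        fun d s _ => ⟨Matrix.diagonal ![s, 1, 1], by simp [Matrix.det_diagonal, Fin.prod_univ_three], by
          rw [Matrix.diagonal_mul_diagonal, Matrix.diagonal_mul_diagonal]; exact congrArg _ (funext fun i => mul_comm _ _)⟩
      by_cases hrk : ∀ i : Fin 3, 2 ≤ (y - w ^ (i : ℕ) • 1).rank
      · obtain ⟨h, hh, hyh⟩ := GeomClasses.PrimeSingerThree.exists_diag hy3 hw hw1 hrk
        have hd : (Matrix.diagonal fun i : Fin 3 => w ^ (i : ℕ)) = GeomClasses.ExtraspecialThree.D w := by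
          rw [GeomClasses.ExtraspecialThree.D]; congr 1; funext i; fin_cases i <;> simp [pow_two]
        rw [hd] at hyh
        refine conj b (GeomClasses.ExtraspecialThree.D w) h hb0 hh (by simp [GeomClasses.ExtraspecialThree.D, Matrix.det_diagonal, Fin.prod_univ_three, hw0]) (by rw [hxy, Matrix.smul_mul, hyh, Matrix.mul_smul]) (hdiagC _) ⟨A, hA, by rw [hAc]⟩
          ⟨C * B, mul_mem hC hB, ?_⟩
        rw [Units.val_mul, hmul, hBc, hCw, Matrix.mul_smul, mul_one, Matrix.smul_mul, hPP']
        ext i j
        fin_cases i <;> fin_cases j <;>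
          simp [GeomClasses.ExtraspecialThree.S, GeomClasses.ExtraspecialThree.D, Matrix.mul_apply, Fin.sum_univ_three]
        linear_combination -hw
      · push_neg at hrk
        obtain ⟨i, hi⟩ := hrk
        set t := w ^ (i : ℕ) with ht
        have ht3 : t ^ 3 = 1 := by rw [ht, ← pow_mul, mul_comm, pow_mul, hw, one_pow]
        have ht0 : t ≠ 0 := fun h => by rw [h] at ht3; simp at ht3
        set N := y - t • (1 : Matrix (Fin 3) (Fin 3) F) with hN
        have hN0 : N ≠ 0 := fun h => hns (b * t) (by rw [hxy, sub_eq_zero.1 h, smul_smul])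
        have hr1 : Module.finrank F (LinearMap.range N.mulVecLin) = 1 := by
          refine le_antisymm (Nat.lt_succ_iff.1 hi) (Nat.one_le_iff_ne_zero.2 fun h0 => hN0 ?_)
          have h00 := LinearMap.range_eq_bot.1 (Submodule.finrank_eq_zero.1 h0)
          exact Matrix.toLin'.injective (by rw [map_zero]; exact h00)
        obtain ⟨⟨a, ha⟩, hane, hgen⟩ := finrank_eq_one_iff'.1 hr1
        have ha0 : a ≠ 0 := fun h => hane (Subtype.ext h)
        obtain ⟨κ, hκ⟩ := hgen ⟨N *ᵥ a, ⟨a, rfl⟩⟩
        have hκ' : N *ᵥ a = κ • a := (congrArg Subtype.val hκ).symm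
        set s := κ + t with hs
        have hya : y *ᵥ a = s • a := by
          rw [show y = N + t • 1 by rw [hN, sub_add_cancel], Matrix.add_mulVec, hκ', Matrix.smul_mulVec,
            Matrix.one_mulVec, hs, add_smul]
        have hst : s ≠ t := by
          intro hst
          have hκ0 : κ = 0 := by simpa [hs] using hst
          have hNN : N * N = 0 := by
            apply Matrix.toLin'.injective
            refine LinearMap.ext fun v => ?_
            obtain ⟨c, hc⟩ := hgen ⟨N *ᵥ v, ⟨v, rfl⟩⟩
            have hc' : N *ᵥ v = c • a := (congrArg Subtype.val hc).symm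
            rw [map_zero, LinearMap.zero_apply, Matrix.toLin'_apply, ← Matrix.mulVec_mulVec, hc', Matrix.mulVec_smul, hκ', hκ0,
              zero_smul, smul_zero]
          have hy' : y = t • 1 + N := by rw [hN]; abel
          have hcube : y ^ 3 = (t ^ 3) • 1 + (3 * t ^ 2) • N := by
            rw [hy', pow_succ, pow_two]
            simp only [mul_add, add_mul, Matrix.smul_mul, Matrix.mul_smul, one_mul, mul_one, hNN, smul_zero, mul_zero, add_zero, smul_add, smul_smul]
            module
          rw [hy3, ht3, one_smul, left_eq_add, smul_eq_zero] at hcube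
          exact hN0 (hcube.resolve_left (mul_ne_zero h3 (pow_ne_zero 2 ht0)))
        have hs3 : s ^ 3 = 1 := by
          have := congrArg (fun M => M *ᵥ a) hy3
          simp only [pow_succ, pow_zero, one_mul, ← Matrix.mulVec_mulVec, hya, Matrix.mulVec_smul, Matrix.one_mulVec, smul_smul] at this
          have h' := smul_left_injective F ha0 (this.trans (one_smul F a).symm)
          linear_combination h'
        have hK : Module.finrank F (LinearMap.ker N.mulVecLin) = 2 := by
          have := LinearMap.finrank_range_add_finrank_ker N.mulVecLin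
          rw [hr1, Module.finrank_fin_fun] at this
          omega
        let kb := Module.finBasisOfFinrankEq F _ hK
        let cols : Fin 3 → Fin 3 → F := ![(kb 0 : Fin 3 → F), (kb 1 : Fin 3 → F), a]
        have hk0 : ∀ l, y *ᵥ (kb l : Fin 3 → F) = t • (kb l : Fin 3 → F) := fun l => by
          have h0 : N *ᵥ (kb l : Fin 3 → F) = 0 := (kb l).2
          have h0' : (y - t • 1) *ᵥ (kb l : Fin 3 → F) = 0 := h0
          have e0 := sub_eq_zero.1 ((Matrix.sub_mulVec y (t • 1) _).symm.trans h0')
          rw [e0, Matrix.smul_mulVec, Matrix.one_mulVec]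
        let h : Matrix (Fin 3) (Fin 3) F := Matrix.of fun i j => cols j i
        have hh : h.det ≠ 0 := by
          refine isUnit_iff_ne_zero.1 ((Matrix.isUnit_iff_isUnit_det h).1 (Matrix.linearIndependent_cols_iff_isUnit.1 ?_))
          show LinearIndependent F cols
          rw [Fintype.linearIndependent_iff]
          intro g hg
          simp [Fin.sum_univ_three, cols] at hg
          have h2' : g 2 = 0 := by
            have := congrArg (fun v => N *ᵥ v) hg
            simp only [Matrix.mulVec_add, Matrix.mulVec_smul, Matrix.mulVec_zero, hκ', smul_smul,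
              show N *ᵥ (kb 0 : Fin 3 → F) = 0 from (kb 0).2, show N *ᵥ (kb 1 : Fin 3 → F) = 0 from (kb 1).2, smul_zero, zero_add] at this
            exact (mul_eq_zero.1 ((smul_eq_zero.1 this).resolve_right ha0)).resolve_right (fun h => hst (by rw [hs, h, zero_add]))
          rw [h2', zero_smul, add_zero] at hg
          have := Fintype.linearIndependent_iff.1 kb.linearIndependent ![g 0, g 1] (Subtype.ext (by simpa [Fin.sum_univ_two] using hg))
          intro l
          fin_cases l
          · simpa using this 0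
          · simpa using this 1
          · exact h2'
        have hu3 : (s / t) ^ 3 = 1 := by rw [div_pow, hs3, ht3, div_one]
        set u := s / t
        refine conj (b * t) (Matrix.diagonal ![1, 1, u]) h (mul_ne_zero hb0 ht0) hh
          (by simp [Matrix.det_diagonal, Fin.prod_univ_three]; exact fun h => by rw [h] at hu3; simp at hu3) ?_ (hdiagC _)
          ⟨A, hA, by rw [hAc, GeomClasses.ExtraspecialThree.D, Matrix.diagonal_mul_diagonal, Matrix.diagonal_mul_diagonal]; exact congrArg _ (funext fun l => mul_comm _ _)⟩ ?_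
        · have htu : t * u = s := mul_div_cancel₀ s ht0
          ext l j
          have hcol : ((x : Matrix (Fin 3) (Fin 3) F) * h) l j = ((x : Matrix (Fin 3) (Fin 3) F) *ᵥ cols j) l := by
            simp [h, Matrix.mul_apply, Matrix.mulVec, dotProduct]
          rw [hcol, hxy, Matrix.smul_mulVec, Matrix.mul_smul, Matrix.smul_apply, Matrix.mul_diagonal]
          fin_cases j
          · simp [h, cols, hk0]; ring
          · simp [h, cols, hk0]; ring
          · simp [h, cols, hya, ← htu]; ring
        · rcases hroots u hu3 with h1 | h1 | h1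
          · exact absurd ((div_eq_one_iff_eq ht0).1 h1) hst
          · rw [h1]
            refine ⟨B * A, mul_mem hB hA, ?_⟩
            rw [Units.val_mul, hmul, hBc, hAc]
            ext l j
            fin_cases l <;> fin_cases j <;>
              simp [GeomClasses.ExtraspecialThree.S, GeomClasses.ExtraspecialThree.D, Matrix.mul_apply, Fin.sum_univ_three, Matrix.vecMul, dotProduct]
            linear_combination -hw
          · rw [h1]
            refine ⟨B * A * A, mul_mem (mul_mem hB hA) hA, ?_⟩
            rw [Units.val_mul, Units.val_mul, hmul, hmul, hBc, hAc]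
            ext l j
            fin_cases l <;> fin_cases j <;>
              simp [GeomClasses.ExtraspecialThree.S, GeomClasses.ExtraspecialThree.D, Matrix.mul_apply, Fin.sum_univ_three, Matrix.vecMul, dotProduct]
            linear_combination -(w ^ 3 + 1) * hw

end Cfsg.Agent.S5998
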