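import Cfsg.Statements.S5999
import Cfsg.Agent.GeomClasses.ExtraspecialThree
import Cfsg.Agent.GeomClasses.EigenBasisTwo
import Cfsg.Agent.GeomClasses.UnitaryEigenFrame
import Cfsg.Agent.GeomClasses.SubspaceDerange

set_option autoImplicit false
open scoped MatrixGroups
open Cfsg
open Matrix

namespace Cfsg.Agent.S5999

/-- Elements of prime order of PSU_3(p), p ≡ 2 (mod 3), and the normalizer of an extraspecial subgroup of order 27. Here `T = PSU_3(p)` for a prime `p ≥ 5` with `p ≡ 2 (mod 3)`, realised through `SU_3(p)`, the matrices of determinant 1 over the field `F` with `p²` elements preserving the hermitian form `Σ uᵢvᵢ^p`; `R` is a non-abelian subgroup of order 27 and exponent 3 of the full unitary group of that form (an extraspecial group 3^{1+2}, acting absolutely irreducibly), and `H` is the subgroup of `SU_3(p)` normalizing `R` — a subgroup of type 3^{1+2}.Sp₂(3) (maximality is not assumed). Ω is the set of cosets of `H`, so an element of `T` of prime order `r` (`x ∈ SU_3(p)` with `x^r`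 scalar, `x` not scalar) fixes a point of Ω exactly when some `SU_3(p)`-conjugate of `x` normalizes `R`. Let `r` be a prime dividing the index of `H`. Then every element of `T` of order `r` fixes a point of Ω if and only if `r = 2`, or `r = 3` and `p ≡ 8 (mod 9)`. -/
theorem result {F : Type*} [Field F] [Fintype F] {p : ℕ} [Fact p.Prime] [CharP F p] (hF : Fintype.card F = p ^ 2) (hp : 5 ≤ p) (hp3 : p % 3 = 2)
    (R : Subgroup (GL (Fin 3) F)) (hRU : R ≤ Cfsg.GU 3 F p) (hR : Nat.card R = 27) (hRe : Monoid.exponent R = 3) (hRna : ¬ IsMulCommutative R)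
    (r : ℕ) [Fact r.Prime]
    (hΩ : r ∣ (Cfsg.Geo.subgroupNormalizer R).relIndex (Cfsg.GU 3 F p ⊓ Cfsg.Geo.specialLinear (Fin 3) F)) :
    (∀ x ∈ Cfsg.GU 3 F p ⊓ Cfsg.Geo.specialLinear (Fin 3) F, (∃ z : F, ((x ^ r : GL (Fin 3) F) : Matrix (Fin 3) (Fin 3) F) = z • (1 : Matrix (Fin 3) (Fin 3) F)) →
      (∀ z : F, (x : Matrix (Fin 3) (Fin 3) F) ≠ z • (1 : Matrix (Fin 3) (Fin 3) F)) →
      ∃ g ∈ Cfsg.GU 3 F p ⊓ Cfsg.Geo.specialLinear (Fin 3) F, g⁻¹ * x * g ∈ Cfsg.Geo.subgroupNormalizer R) ↔ (r = 2 ∨ (r = 3 ∧ p % 9 = 8)) := by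
  classical
  have hpp : p.Prime := Fact.out
  have hr : r.Prime := Fact.out
  have h3 : (3 : F) ≠ 0 := fun h => by
    have h' : p ∣ 3 := (CharP.cast_eq_zero_iff F p 3).1 (by exact_mod_cast h)
    have := Nat.le_of_dvd (by norm_num) h'
    omega
  have h2 : (2 : F) ≠ 0 := fun h => by
    have h' : p ∣ 2 := (CharP.cast_eq_zero_iff F p 2).1 (by exact_mod_cast h)
    have := Nat.le_of_dvd (by norm_num) h'
    omega
  have hp1 : 3 ∣ p + 1 := by omega
  have hdvd3 : 3 ∣ Nat.card Fˣ := by
    rw [Nat.card_eq_fintype_card, Fintype.card_units, hF, show p ^ 2 - 1 = (p + 1) * (p - 1) by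
      have := Nat.sq_sub_sq p 1
      simpa using this]
    exact hp1.mul_right _
  obtain ⟨w, A, B, C, P₁, hw, hw1, hA, hB, hC, hP₁, hCw, hAB, hAP₁, hBP₁⟩ :=
    GeomClasses.ExtraspecialThree.structure_basis R hR hRe hRna h3 hdvd3
  have hw0 : w ≠ 0 := fun h => by rw [h] at hw; simp at hw
  have hnorm3 : ∀ t : F, t ^ 3 = 1 → t * t ^ p = 1 := by
    intro t ht
    obtain ⟨c, hc⟩ := hp1
    rw [← pow_succ', hc, pow_mul, ht, one_pow]
  have hnw : ∀ k : ℕ, w ^ k * (w ^ k) ^ p = 1 := fun k => hnorm3 _ (by rw [← pow_mul, mul_comm, pow_mul, hw, one_pow])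
  have hroots : ∀ s : F, s ^ 3 = 1 → s = 1 ∨ s = w ∨ s = w * w := by
    intro s hs
    have hw2 : w * w + w + 1 = 0 :=
      (mul_eq_zero.1 (show (w - 1) * (w * w + w + 1) = 0 by linear_combination hw)).resolve_left (sub_ne_zero.2 hw1)
    have : (s - 1) * ((s - w) * (s - w * w)) = 0 := by linear_combination hs + (s * w - s ^ 2) * hw2 - hw
    simpa [sub_eq_zero] using this
  have hw2ne : w * w ≠ 1 := fun h => hw1 (by linear_combination hw - w * h)
  have hww : w * w ≠ w := fun h => hw1 (mul_left_cancel₀ hw0 (by rw [h, mul_one]))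
  -- the orthonormal frame of the group
  obtain ⟨P0, hP0U, hAP, hBP⟩ : ∃ P0 : GL (Fin 3) F, P0 ∈ Cfsg.GU 3 F p ∧
      (A : Matrix (Fin 3) (Fin 3) F) * (P0 : Matrix (Fin 3) (Fin 3) F) = (P0 : Matrix (Fin 3) (Fin 3) F) * GeomClasses.ExtraspecialThree.D w ∧
      (B : Matrix (Fin 3) (Fin 3) F) * (P0 : Matrix (Fin 3) (Fin 3) F) = (P0 : Matrix (Fin 3) (Fin 3) F) * GeomClasses.ExtraspecialThree.S := by
    let c : Fin 3 → Fin 3 → F := fun j i => P₁ i j
    have hcA : ∀ j : Fin 3, (A : Matrix (Fin 3) (Fin 3) F) *ᵥ c j = (![1, w, w * w] j) • c j := fun j => by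
      ext i
      have h := congrFun (congrFun hAP₁ i) j
      rw [GeomClasses.ExtraspecialThree.D, Matrix.mul_diagonal] at h
      simpa [c, Matrix.mulVec, dotProduct, Matrix.mul_apply, mul_comm] using h
    have hcB : ∀ j : Fin 3, (B : Matrix (Fin 3) (Fin 3) F) *ᵥ c j = c (j + 1) := fun j => by
      ext i
      have h := congrFun (congrFun hBP₁ i) j
      fin_cases j <;>
        simpa [c, Matrix.mulVec, dotProduct, Matrix.mul_apply, GeomClasses.ExtraspecialThree.S, Fin.sum_univ_three] using h
    have hd : ∀ j : Fin 3, ![1, w, w * w] j = w ^ (j : ℕ) := fun j => by fin_cases j <;> simp [pow_two]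
    have horth : ∀ i j : Fin 3, i ≠ j → Cfsg.hermForm 3 F p (c i) (c j) = 0 := by
      intro i j hij
      have h := (GeomClasses.Unitary.mem_GU_iff.1 (hRU hA)) (c i) (c j)
      rw [hcA, hcA, GeomClasses.Unitary.hh_smul_left hF, GeomClasses.Unitary.hh_smul_right hF, ← mul_assoc] at h
      by_contra h0
      have h1 := (mul_eq_right₀ h0).1 h
      rw [hd, hd] at h1
      have h2' : w ^ (i : ℕ) = w ^ (j : ℕ) :=
        mul_right_cancel₀ (b := (w ^ (j : ℕ)) ^ p) (pow_ne_zero _ (pow_ne_zero _ hw0)) (h1.trans (hnw j).symm)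
      have ho : orderOf w = 3 := by
        haveI : Fact (Nat.Prime 3) := ⟨Nat.prime_three⟩
        exact orderOf_eq_prime hw hw1
      exact hij (Fin.ext (pow_injOn_Iio_orderOf (by rw [Set.mem_Iio, ho]; exact i.2) (by rw [Set.mem_Iio, ho]; exact j.2) h2'))
    have hsame : ∀ j, Cfsg.hermForm 3 F p (c (j + 1)) (c (j + 1)) = Cfsg.hermForm 3 F p (c j) (c j) := fun j => by
      rw [← hcB]
      exact GeomClasses.Unitary.mem_GU_iff.1 (hRU hB) _ _
    set ν := Cfsg.hermForm 3 F p (c 0) (c 0) with hν
    have hall : ∀ j, Cfsg.hermForm 3 F p (c j) (c j) = ν := fun j => by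
      fin_cases j
      · rfl
      · exact hsame 0
      · exact (hsame 1).trans (hsame 0)
    have hν0 : ν ≠ 0 := by
      intro h0
      obtain ⟨u, hu⟩ := (Matrix.mulVec_surjective_iff_isUnit (A := P₁)).2
        ((Matrix.isUnit_iff_isUnit_det P₁).2 (isUnit_iff_ne_zero.2 hP₁)) (Pi.single (0 : Fin 3) 1)
      have hsum : P₁ *ᵥ u = u 0 • c 0 + u 1 • c 1 + u 2 • c 2 := by
        ext i; simp [c, Matrix.mulVec, dotProduct, Fin.sum_univ_three, mul_comm]
      have h1 : Cfsg.hermForm 3 F p (P₁ *ᵥ u) (c 0) = 0 := by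
        rw [hsum, GeomClasses.Unitary.hh_add_left hF, GeomClasses.Unitary.hh_add_left hF,
          GeomClasses.Unitary.hh_smul_left hF, GeomClasses.Unitary.hh_smul_left hF, GeomClasses.Unitary.hh_smul_left hF,
          horth 1 0 (by decide), horth 2 0 (by decide), ← hν, h0]
        ring
      have hzero : ∀ l : Fin 3, c 0 l = 0 := by
        intro l
        obtain ⟨u, hu⟩ := (Matrix.mulVec_surjective_iff_isUnit (A := P₁)).2
          ((Matrix.isUnit_iff_isUnit_det P₁).2 (isUnit_iff_ne_zero.2 hP₁)) (Pi.single l 1)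
        have hsum : P₁ *ᵥ u = u 0 • c 0 + u 1 • c 1 + u 2 • c 2 := by
          ext i; simp [c, Matrix.mulVec, dotProduct, Fin.sum_univ_three, mul_comm]
        have h1 : Cfsg.hermForm 3 F p (Pi.single l 1) (c 0) = 0 := by
          rw [← hu, hsum, GeomClasses.Unitary.hh_add_left hF, GeomClasses.Unitary.hh_add_left hF,
            GeomClasses.Unitary.hh_smul_left hF, GeomClasses.Unitary.hh_smul_left hF, GeomClasses.Unitary.hh_smul_left hF,
            horth 1 0 (by decide), horth 2 0 (by decide), ← hν, h0]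
          ring
        have h2' : (c 0 l) ^ p = 0 := by simpa [Cfsg.hermForm, Pi.single_apply] using h1
        exact (pow_eq_zero_iff hpp.ne_zero).1 h2'
      exact hP₁ (Matrix.det_eq_zero_of_column_eq_zero 0 hzero)
    obtain ⟨t, ht⟩ := GeomClasses.Unitary.exists_norm hF ν⁻¹ (by rw [inv_pow, GeomClasses.Unitary.hh_self_fixed hF])
    obtain ⟨g, hg, hgf⟩ := GeomClasses.UnitaryEigenFrame.exists_mem_of_frame hF (f := fun j => t • c j) (fun i j => by
      rw [GeomClasses.Unitary.hh_smul_left hF, GeomClasses.Unitary.hh_smul_right hF, ← mul_assoc, ht]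
      rcases eq_or_ne i j with rfl | hij
      · rw [hall, inv_mul_cancel₀ hν0, if_pos rfl]
      · rw [horth i j hij, mul_zero, if_neg hij])
    have hgm : (g : Matrix (Fin 3) (Fin 3) F) = t • P₁ := by ext i j; rw [hgf]; rfl
    exact ⟨g, hg, by rw [hgm, Matrix.mul_smul, hAP₁, Matrix.smul_mul], by rw [hgm, Matrix.mul_smul, hBP₁, Matrix.smul_mul]⟩
  set P : Matrix (Fin 3) (Fin 3) F := (P0 : Matrix (Fin 3) (Fin 3) F) with hPdef
  have hP : P.det ≠ 0 := P0.det_ne_zero
  have hPu : IsUnit P.det := isUnit_iff_ne_zero.2 hP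
  have hPP : P * P⁻¹ = 1 := Matrix.mul_nonsing_inv _ hPu
  have hPP' : P⁻¹ * P = 1 := Matrix.nonsing_inv_mul _ hPu
  have hAm : (A : Matrix (Fin 3) (Fin 3) F) = P * GeomClasses.ExtraspecialThree.D w * P⁻¹ := by
    rw [← hAP, Matrix.mul_assoc, hPP, mul_one]
  have hBm : (B : Matrix (Fin 3) (Fin 3) F) = P * GeomClasses.ExtraspecialThree.S * P⁻¹ := by
    rw [← hBP, Matrix.mul_assoc, hPP, mul_one]
  have hAc : P⁻¹ * (A : Matrix (Fin 3) (Fin 3) F) * P = GeomClasses.ExtraspecialThree.D w := by
    rw [Matrix.mul_assoc, hAP, ← Matrix.mul_assoc, hPP', one_mul]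
  have hBc : P⁻¹ * (B : Matrix (Fin 3) (Fin 3) F) * P = GeomClasses.ExtraspecialThree.S := by
    rw [Matrix.mul_assoc, hBP, ← Matrix.mul_assoc, hPP', one_mul]
  have hco : ∀ X Y : Matrix (Fin 3) (Fin 3) F, P * X * P⁻¹ * (P * Y * P⁻¹) = P * (X * Y) * P⁻¹ := fun X Y => by
    calc P * X * P⁻¹ * (P * Y * P⁻¹) = P * X * (P⁻¹ * P) * Y * P⁻¹ := by simp only [Matrix.mul_assoc]
      _ = _ := by rw [hPP', mul_one]; simp only [Matrix.mul_assoc]
  have hmul : ∀ U V : Matrix (Fin 3) (Fin 3) F, P⁻¹ * (U * V) * P = P⁻¹ * U * P * (P⁻¹ * V * P) := fun U V => by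
    calc P⁻¹ * (U * V) * P = P⁻¹ * U * (P * P⁻¹) * V * P := by rw [hPP, mul_one]; simp only [Matrix.mul_assoc]
      _ = _ := by simp only [Matrix.mul_assoc]
  have hdA : ∀ g ∈ R, Matrix.GeneralLinearGroup.det g = 1 := by
    have hDS : ∀ g : GL (Fin 3) F, g = A ∨ g = B → Matrix.GeneralLinearGroup.det g = 1 := by
      rintro g (rfl | rfl) <;> apply Units.ext <;>
        rw [Matrix.GeneralLinearGroup.val_det_apply, Units.val_one]
      · rw [hAm, Matrix.det_mul, Matrix.det_mul, Matrix.det_nonsing_inv, Ring.inverse_eq_inv',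
          show (GeomClasses.ExtraspecialThree.D w).det = 1 by
            simp [GeomClasses.ExtraspecialThree.D, Matrix.det_diagonal, Fin.prod_univ_three]; linear_combination hw,
          mul_one, mul_inv_cancel₀ hP]
      · rw [hBm, Matrix.det_mul, Matrix.det_mul, Matrix.det_nonsing_inv, Ring.inverse_eq_inv',
          show (GeomClasses.ExtraspecialThree.S : Matrix (Fin 3) (Fin 3) F).det = 1 by
            simp [GeomClasses.ExtraspecialThree.S, Matrix.det_fin_three],
          mul_one, mul_inv_cancel₀ hP]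
    have hle : R ≤ Subgroup.closure {A, B} := by
      have hc : Subgroup.closure {A, B} ≤ R := (Subgroup.closure_le R).2 (Set.insert_subset hA (Set.singleton_subset_iff.2 hB))
      refine (Subgroup.eq_of_le_of_card_ge hc ?_).ge
      have : Fact (Nat.Prime 3) := ⟨Nat.prime_three⟩
      set H := Subgroup.closure {A, B}
      have hA' : A ∈ H := Subgroup.subset_closure (Set.mem_insert _ _)
      have hB' : B ∈ H := Subgroup.subset_closure (Set.mem_insert_of_mem _ rfl)
      obtain ⟨k, hk, hk'⟩ := (Nat.dvd_prime_pow Nat.prime_three).1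
        (show Nat.card H ∣ 3 ^ 3 by rw [show (3 : ℕ) ^ 3 = 27 by norm_num, ← hR]; exact Subgroup.card_dvd_of_le hc)
      rcases (show k = 0 ∨ k = 1 ∨ k = 2 ∨ k = 3 by omega) with rfl | rfl | rfl | rfl
      · exfalso
        have := (Nat.card_eq_one_iff_unique.1 hk').1
        exact hAB (congrArg Subtype.val (Subsingleton.elim ((⟨A, hA'⟩ : H) * ⟨B, hB'⟩) (⟨B, hB'⟩ * ⟨A, hA'⟩)))
      · exfalso
        have : IsCyclic H := isCyclic_of_prime_card (p := 3) (by simpa using hk')
        exact hAB (congrArg Subtype.val (IsCyclic.commGroup.mul_comm (⟨A, hA'⟩ : H) ⟨B, hB'⟩))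
      · exfalso
        exact hAB (congrArg Subtype.val ((IsPGroup.isMulCommutative_of_card_eq_prime_sq hk').is_comm.comm (⟨A, hA'⟩ : H) ⟨B, hB'⟩))
      · rw [hk', hR]; norm_num
    intro g hg
    exact (show Subgroup.closure {A, B} ≤ (Matrix.GeneralLinearGroup.det : GL (Fin 3) F →* Fˣ).ker from
      (Subgroup.closure_le _).2 fun y hy => hDS y (by simpa using hy)) (hle hg)
  constructor
  · intro H
    by_cases hr2 : r = 2
    · exact Or.inl hr2
    set SL := Cfsg.GU 3 F p ⊓ Cfsg.Geo.specialLinear (Fin 3) F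
    set N := Cfsg.Geo.subgroupNormalizer R
    have hidx : N.relIndex SL ∣ Nat.card SL := Subgroup.index_dvd_card _
    by_cases hr3 : r = 3
    · subst hr3
      refine Or.inr ⟨rfl, ?_⟩
      by_contra h9
      have hRle : R ≤ N ⊓ SL := fun g hg => ⟨Subgroup.le_normalizer hg, hRU hg, hdA g hg⟩
      have h1 : Nat.card (N.subgroupOf SL) * N.relIndex SL = Nat.card SL := Subgroup.card_mul_index _
      have h2 : 27 ∣ Nat.card (N.subgroupOf SL) := by
        have e : Nat.card ((N ⊓ SL).subgroupOf SL) = Nat.card ↥(N ⊓ SL) :=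
          Nat.card_congr (Subgroup.subgroupOfEquivOfLe inf_le_right).toEquiv
        rw [Subgroup.inf_subgroupOf_right] at e
        rw [e, ← hR]
        exact Subgroup.card_dvd_of_le hRle
      have h81 : 81 ∣ Nat.card SL := h1 ▸ (show 81 = 27 * 3 by norm_num) ▸ mul_dvd_mul h2 hΩ
      set δ := (Matrix.GeneralLinearGroup.det : GL (Fin 3) F →* Fˣ).comp (Cfsg.GU 3 F p).subtype
      have hker : Nat.card δ.ker = Nat.card SL := by
        refine Nat.card_congr ?_
        exact
          { toFun := fun g => ⟨g.1.1, g.1.2, g.2⟩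
            invFun := fun g => ⟨⟨g.1, g.2.1⟩, g.2.2⟩
            left_inv := fun g => rfl
            right_inv := fun g => rfl }
      have hidx3 : 3 ∣ δ.ker.index := by
        rw [Subgroup.index_ker]
        obtain ⟨g, hgm⟩ : ∃ g : GL (Fin 3) F, (g : Matrix (Fin 3) (Fin 3) F) = Matrix.diagonal ![w, 1, 1] :=
          ⟨Matrix.GeneralLinearGroup.mkOfDetNeZero (Matrix.diagonal ![w, 1, 1]) (by simp [Matrix.det_diagonal, Fin.prod_univ_three, hw0]), rfl⟩
        have hgU : g ∈ Cfsg.GU 3 F p := GeomClasses.UnitaryEigenFrame.diag_mem hF hgm (fun i => by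
          fin_cases i <;> simp [show w * w ^ p = 1 by simpa using hnw 1])
        have hord : orderOf (δ.rangeRestrict ⟨g, hgU⟩) = 3 := by
          rw [← Subgroup.orderOf_coe, ← orderOf_units]
          show orderOf ((Matrix.GeneralLinearGroup.det g : Fˣ) : F) = 3
          rw [Matrix.GeneralLinearGroup.val_det_apply, hgm, Matrix.det_diagonal, Fin.prod_univ_three]
          haveI : Fact (Nat.Prime 3) := ⟨Nat.prime_three⟩
          simpa using orderOf_eq_prime hw hw1
        have h' := orderOf_dvd_natCard (δ.rangeRestrict ⟨g, hgU⟩)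
        rwa [hord] at h'
      have h243 : 243 ∣ Nat.card (Cfsg.GU 3 F p) := by
        rw [← Subgroup.card_mul_index δ.ker, hker, show 243 = 81 * 3 by norm_num]
        exact mul_dvd_mul h81 hidx3
      rw [Cfsg.Agent.Forms.card_GU hF 3] at h243
      simp [Finset.prod_range_succ] at h243
      obtain ⟨k, e, he, rfl⟩ : ∃ k e, (e = 0 ∨ e = 1) ∧ p = 9 * k + 3 * e + 2 :=
        ⟨p / 9, (p % 9) / 3, by omega, by omega⟩
      set P' := 9 * k + 3 * e + 2
      have hfac : P' ^ 3 * ((P' + 1) * (P' ^ 2 - 1) * (P' ^ 3 + 1)) =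
          81 * (P' ^ 3 * (3 * k + e + 1) ^ 3 * (9 * k + 3 * e + 1) * (27 * k ^ 2 + 18 * k * e + 9 * k + 3 * e ^ 2 + 3 * e + 1)) := by
        have e1 : P' ^ 2 - 1 = (9 * k + 3 * e + 1) * (P' + 1) := Nat.sub_eq_of_eq_add (by simp only [P']; ring)
        rw [e1]; simp only [P']; ring
      rw [hfac, show 243 = 81 * 3 by norm_num] at h243
      have hM := Nat.dvd_of_mul_dvd_mul_left (by norm_num) h243
      rw [Nat.dvd_iff_mod_eq_zero] at hM
      simp only [P'] at hM
      rcases he with rfl | rfl <;> simp [Nat.mul_mod, Nat.pow_mod, Nat.add_mod] at hM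
    · exfalso
      have hr5 : 5 ≤ r := by
        have := hr.two_le
        by_contra h
        interval_cases r <;> first | omega | exact absurd hr (by decide)
      obtain ⟨x, hx⟩ := exists_prime_orderOf_dvd_card' (G := SL) r (hΩ.trans hidx)
      have hxo : orderOf (x : GL (Fin 3) F) = r := (Subgroup.orderOf_coe x).trans hx
      have hxr : (x : GL (Fin 3) F) ^ r = 1 := hxo ▸ pow_orderOf_eq_one _
      have hscal : ∀ y : GL (Fin 3) F, Matrix.GeneralLinearGroup.det y = 1 → orderOf y = r →
          ∀ z : F, (y : Matrix (Fin 3) (Fin 3) F) ≠ z • 1 := by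
        intro y hy hyo z hz
        have hd : z ^ 3 = 1 := by
          have := congrArg Units.val hy
          rw [Matrix.GeneralLinearGroup.val_det_apply, hz] at this
          simpa [Matrix.det_smul] using this
        have h3' : y ^ 3 = 1 := Units.ext (by
          rw [Units.val_pow_eq_pow_val, hz, smul_pow, one_pow, hd, one_smul, Units.val_one])
        have := Nat.le_of_dvd (by norm_num) (hyo ▸ orderOf_dvd_of_pow_eq_one h3')
        omega
      obtain ⟨g, hg, hy⟩ := H x x.2 ⟨1, by rw [hxr, Units.val_one, one_smul]⟩ (hscal x x.2.2 hxo)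
      set y := g⁻¹ * (x : GL (Fin 3) F) * g
      have hyo : orderOf y = r := by
        rw [show y = MulAut.conj g⁻¹ (x : GL (Fin 3) F) by simp [y]]
        exact (orderOf_injective (MulAut.conj g⁻¹).toMonoidHom (MulAut.conj g⁻¹).injective _).trans hxo
      have hyS : Matrix.GeneralLinearGroup.det y = 1 := (SL.mul_mem (SL.mul_mem (SL.inv_mem hg) x.2) hg).2
      let φ : Function.End R := fun a => ⟨y * a * y⁻¹, (Subgroup.mem_normalizer_iff.1 hy a).1 a.2⟩
      have hφ : ∀ (k : ℕ) (a : R), ((φ ^ k) a : GL (Fin 3) F) = y ^ k * a * (y ^ k)⁻¹ := by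
        intro k
        induction k with
        | zero => intro a; simp; rfl
        | succ k ih =>
          intro a
          rw [pow_succ]
          show ((φ ^ k) (φ a) : GL (Fin 3) F) = _
          rw [ih (φ a)]
          show y ^ k * (y * a * y⁻¹) * (y ^ k)⁻¹ = _
          rw [pow_succ y k]
          group
      have hyr : y ^ r = 1 := hyo ▸ pow_orderOf_eq_one y
      have hmod := Equiv.Perm.card_fixedPoints_modEq (f := φ) (p := r) (n := 1)
        (by rw [pow_one]; funext a; exact Subtype.ext (by rw [hφ, hyr]; simp; rfl))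
      set T : Subgroup R := (Subgroup.centralizer {y}).subgroupOf R
      have hfix : Fintype.card ↥(Function.fixedPoints φ) = Nat.card T := by
        rw [← Nat.card_eq_fintype_card]
        refine Nat.card_congr (Equiv.subtypeEquivRight fun a => ?_)
        show φ a = a ↔ (a : GL (Fin 3) F) ∈ Subgroup.centralizer {y}
        rw [Subgroup.mem_centralizer_singleton_iff]
        refine ⟨fun h => ?_, fun h => Subtype.ext ?_⟩
        · have h' : y * (a : GL (Fin 3) F) * y⁻¹ = a := congrArg Subtype.val h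
          exact (mul_inv_eq_iff_eq_mul.1 h').symm
        · show y * (a : GL (Fin 3) F) * y⁻¹ = a
          rw [← h, mul_inv_cancel_right]
      rw [← Nat.card_eq_fintype_card, hR, hfix] at hmod
      have hCy : C ∈ Subgroup.centralizer {y} := by
        rw [Subgroup.mem_centralizer_singleton_iff]
        apply Units.ext
        simp [hCw]
      have hT1 : Nat.card T ≠ 1 := fun h => by
        have hsub := (Nat.card_eq_one_iff_unique.1 h).1
        have hC1 : C = 1 := congrArg (fun t : T => ((t : R) : GL (Fin 3) F))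
          (Subsingleton.elim (⟨⟨C, hC⟩, hCy⟩ : T) 1)
        rw [hC1, Units.val_one] at hCw
        exact hw1 (by simpa using (congrFun (congrFun hCw 0) 0).symm)
      obtain ⟨k, hk, hk'⟩ := (Nat.dvd_prime_pow Nat.prime_three).1
        (show Nat.card T ∣ 3 ^ 3 by rw [show (3 : ℕ) ^ 3 = 27 by norm_num, ← hR]; exact Subgroup.card_subgroup_dvd_card T)
      have hk3 : k = 3 := by
        rw [hk'] at hmod hT1
        have hd := (Nat.modEq_iff_dvd' (show 3 ^ k ≤ 27 from le_trans (Nat.pow_le_pow_right (by norm_num) hk) (by norm_num))).1 hmod.symm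
        rcases (show k = 0 ∨ k = 1 ∨ k = 2 ∨ k = 3 by omega) with rfl | rfl | rfl | rfl
        · simp at hT1
        · have hd' : r ∣ 2 ^ 3 * 3 := by simpa using hd
          rcases hr.dvd_mul.1 hd' with h | h
          · have := (Nat.prime_dvd_prime_iff_eq hr Nat.prime_two).1 (hr.dvd_of_dvd_pow h); omega
          · have := Nat.le_of_dvd (by norm_num) h; omega
        · have hd' : r ∣ 2 * 3 ^ 2 := by simpa using hd
          rcases hr.dvd_mul.1 hd' with h | h
          · have := Nat.le_of_dvd (by norm_num) h; omega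
          · have := Nat.le_of_dvd (by norm_num) (hr.dvd_of_dvd_pow h); omega
        · rfl
      have hTtop : T = ⊤ := Subgroup.eq_top_of_card_eq T (by rw [hk', hk3, hR]; norm_num)
      have hcom : ∀ a ∈ R, (y : Matrix (Fin 3) (Fin 3) F) * (a : Matrix (Fin 3) (Fin 3) F) = (a : Matrix (Fin 3) (Fin 3) F) * y := by
        intro a ha
        have h1 : (⟨a, ha⟩ : R) ∈ T := hTtop ▸ Subgroup.mem_top _
        have h2 : a ∈ Subgroup.centralizer {y} := h1
        rw [Subgroup.mem_centralizer_singleton_iff] at h2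
        simpa using congrArg Units.val h2.symm
      set Y := P⁻¹ * (y : Matrix (Fin 3) (Fin 3) F) * P with hY
      have hcc : ∀ (a : GL (Fin 3) F) (X : Matrix (Fin 3) (Fin 3) F), a ∈ R →
          P⁻¹ * (a : Matrix (Fin 3) (Fin 3) F) * P = X → Y * X = X * Y := by
        intro a X ha hX
        rw [hY, ← hX, ← hmul, ← hmul, hcom a ha]
      have hYD := hcc A _ hA hAc
      have hYS := hcc B _ hB hBc
      have e : ∀ i j : Fin 3, Y i j * (![1, w, w * w] j - ![1, w, w * w] i) = 0 := fun i j => by
        have := congrFun (congrFun hYD i) j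
        rw [GeomClasses.ExtraspecialThree.D, Matrix.mul_diagonal, Matrix.diagonal_mul] at this
        linear_combination this
      have hoff : ∀ i j : Fin 3, i ≠ j → Y i j = 0 := fun i j hij => by
        refine (mul_eq_zero.1 (e i j)).resolve_right ?_
        fin_cases i <;> fin_cases j <;> first
          | exact absurd rfl hij
          | exact sub_ne_zero.2 hw1
          | exact sub_ne_zero.2 hw1.symm
          | exact sub_ne_zero.2 hw2ne
          | exact sub_ne_zero.2 hw2ne.symm
          | exact sub_ne_zero.2 hww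
          | exact sub_ne_zero.2 hww.symm
      have hdiag : Y 1 1 = Y 0 0 ∧ Y 2 2 = Y 0 0 := by
        have f10 := congrFun (congrFun hYS 1) 0
        have f21 := congrFun (congrFun hYS 2) 1
        simp [GeomClasses.ExtraspecialThree.S, Matrix.mul_apply, Fin.sum_univ_three] at f10 f21
        exact ⟨f10, f21.trans f10⟩
      have hYs : Y = Y 0 0 • 1 := by
        ext i j
        rcases eq_or_ne i j with rfl | h
        · fin_cases i <;> simp [hdiag.1, hdiag.2]
        · simp [hoff i j h, Matrix.one_apply_ne h]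
      refine hscal y hyS hyo (Y 0 0) ?_
      calc (y : Matrix (Fin 3) (Fin 3) F) = (P * P⁻¹) * y * (P * P⁻¹) := by rw [hPP, one_mul, mul_one]
        _ = P * Y * P⁻¹ := by rw [hY]; simp only [Matrix.mul_assoc]
        _ = _ := by
          conv_lhs => rw [hYs]
          rw [Matrix.mul_smul, mul_one, Matrix.smul_mul, hPP]
  · intro hcond x hx ⟨z, hz⟩ hns
    obtain ⟨hxU, hxS⟩ := hx
    have hxd : (x : Matrix (Fin 3) (Fin 3) F).det = 1 := by
      simpa [Matrix.GeneralLinearGroup.val_det_apply] using congrArg Units.val (show Matrix.GeneralLinearGroup.det x = 1 from hxS)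
    have hz3 : r ≤ 3 → z ^ 3 = 1 := fun _ => by
      have := congrArg Matrix.det hz
      rw [Units.val_pow_eq_pow_val, Matrix.det_pow, hxd, one_pow, Matrix.det_smul, Matrix.det_one, mul_one] at this
      simpa using this.symm
    have hstd : ∀ g : GL (Fin 3) F, g ∈ Cfsg.GU 3 F p → ∀ i j : Fin 3,
        Cfsg.hermForm 3 F p (fun k => (g : Matrix (Fin 3) (Fin 3) F) k i) (fun k => (g : Matrix (Fin 3) (Fin 3) F) k j) =
          if i = j then 1 else 0 := by
      intro g hg i j
      have h := GeomClasses.Unitary.mem_GU_iff.1 hg (Pi.single i 1) (Pi.single j 1)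
      rw [show (g : Matrix (Fin 3) (Fin 3) F) *ᵥ Pi.single i 1 = fun k => (g : Matrix (Fin 3) (Fin 3) F) k i from
          funext fun k => by simp [Matrix.mulVec_single],
        show (g : Matrix (Fin 3) (Fin 3) F) *ᵥ Pi.single j 1 = fun k => (g : Matrix (Fin 3) (Fin 3) F) k j from
          funext fun k => by simp [Matrix.mulVec_single]] at h
      rw [h]
      simp [Cfsg.hermForm, Pi.single_apply, hpp.ne_zero, eq_comm]
    have conj : ∀ (μ : F) (M : Matrix (Fin 3) (Fin 3) F) (f : Fin 3 → Fin 3 → F),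
        (∀ i j, Cfsg.hermForm 3 F p (f i) (f j) = if i = j then 1 else 0) →
        (∀ j, (x : Matrix (Fin 3) (Fin 3) F) *ᵥ f j = μ • ∑ l, M l j • f l) →
        (∀ s : F, Matrix.diagonal ![s, 1, 1] * M = M * Matrix.diagonal ![s, 1, 1]) →
        (∃ X ∈ R, M * GeomClasses.ExtraspecialThree.D w = (P⁻¹ * (X : Matrix (Fin 3) (Fin 3) F) * P) * M) →
        (∃ X ∈ R, M * GeomClasses.ExtraspecialThree.S = (P⁻¹ * (X : Matrix (Fin 3) (Fin 3) F) * P) * M) →
        ∃ g ∈ Cfsg.GU 3 F p ⊓ Cfsg.Geo.specialLinear (Fin 3) F, g⁻¹ * x * g ∈ Cfsg.Geo.subgroupNormalizer R := by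
      intro μ M f hf hxf hCs ⟨XA, hXA, hMA⟩ ⟨XB, hXB, hMB⟩
      obtain ⟨h₀, hh₀, hhf⟩ := GeomClasses.UnitaryEigenFrame.exists_mem_of_frame hF hf
      have hxh : (x : Matrix (Fin 3) (Fin 3) F) * (h₀ : Matrix (Fin 3) (Fin 3) F) = (h₀ : Matrix (Fin 3) (Fin 3) F) * (μ • M) := by
        ext i j
        have h1 : ((x : Matrix (Fin 3) (Fin 3) F) * (h₀ : Matrix (Fin 3) (Fin 3) F)) i j =
            ((x : Matrix (Fin 3) (Fin 3) F) *ᵥ f j) i := by simp [Matrix.mul_apply, Matrix.mulVec, dotProduct, hhf]
        rw [h1, hxf, Matrix.mul_smul, Matrix.smul_apply, Pi.smul_apply, Matrix.mul_apply]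
        simp [hhf, mul_comm]
      set s := (Matrix.GeneralLinearGroup.det P0 / Matrix.GeneralLinearGroup.det h₀ : Fˣ) with hs
      obtain ⟨Cg, hCg⟩ : ∃ Cg : GL (Fin 3) F, (Cg : Matrix (Fin 3) (Fin 3) F) = Matrix.diagonal ![(s : F), 1, 1] :=
        ⟨Matrix.GeneralLinearGroup.mkOfDetNeZero (Matrix.diagonal ![(s : F), 1, 1])
          (by simp [Matrix.det_diagonal, Fin.prod_univ_three]), rfl⟩
      have hdetN : ∀ g ∈ Cfsg.GU 3 F p, (g : Matrix (Fin 3) (Fin 3) F).det * (g : Matrix (Fin 3) (Fin 3) F).det ^ p = 1 := by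
        intro g hg
        set G := (g : Matrix (Fin 3) (Fin 3) F)
        have h1 : Gᵀ * G.map (fun a => a ^ p) = 1 := by
          ext i j
          rw [Matrix.mul_apply, Matrix.one_apply]
          exact hstd g hg i j
        have h2 := congrArg Matrix.det h1
        rw [Matrix.det_mul, Matrix.det_transpose, Matrix.det_one] at h2
        rwa [show G.map (fun a => a ^ p) = (frobenius F p).mapMatrix G from rfl, ← RingHom.map_det, frobenius_def] at h2
      have hsN : (s : F) * (s : F) ^ p = 1 := by
        rw [hs, Units.val_div_eq_div_val, Matrix.GeneralLinearGroup.val_det_apply, Matrix.GeneralLinearGroup.val_det_apply,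
          div_pow, div_mul_div_comm, hdetN _ hP0U, hdetN _ hh₀, div_one]
      have hCU : Cg ∈ Cfsg.GU 3 F p := GeomClasses.UnitaryEigenFrame.diag_mem hF hCg (fun i => by fin_cases i <;> simp [hsN])
      set g := h₀ * Cg * P0⁻¹
      have hgd : Matrix.GeneralLinearGroup.det g = 1 := by
        have hCd : Matrix.GeneralLinearGroup.det Cg = s := Units.ext (by
          rw [Matrix.GeneralLinearGroup.val_det_apply, hCg]; simp [Matrix.det_diagonal, Fin.prod_univ_three])
        simp only [g, map_mul, map_inv, hCd, hs]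
        rw [mul_div_cancel, mul_inv_cancel]
      refine ⟨g, ⟨mul_mem (mul_mem hh₀ hCU) ((Cfsg.GU 3 F p).inv_mem hP0U), hgd⟩, ?_⟩
      set y := g⁻¹ * x * g
      have hy : (y : Matrix (Fin 3) (Fin 3) F) = P * (μ • M) * P⁻¹ := by
        have h1 : (x : Matrix (Fin 3) (Fin 3) F) * (g : Matrix (Fin 3) (Fin 3) F) = (g : Matrix (Fin 3) (Fin 3) F) * (P * (μ • M) * P⁻¹) := by
          simp only [g, Units.val_mul, Matrix.coe_units_inv, ← hPdef, hCg]
          calc (x : Matrix (Fin 3) (Fin 3) F) * ((h₀ : Matrix (Fin 3) (Fin 3) F) * Matrix.diagonal ![(s : F), 1, 1] * P⁻¹)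
              = ((x : Matrix (Fin 3) (Fin 3) F) * h₀) * Matrix.diagonal ![(s : F), 1, 1] * P⁻¹ := by simp only [Matrix.mul_assoc]
            _ = (h₀ : Matrix (Fin 3) (Fin 3) F) * (μ • (M * Matrix.diagonal ![(s : F), 1, 1])) * P⁻¹ := by
              rw [hxh, Matrix.mul_assoc _ (μ • M), Matrix.smul_mul]
            _ = (h₀ : Matrix (Fin 3) (Fin 3) F) * (μ • (Matrix.diagonal ![(s : F), 1, 1] * (P⁻¹ * P) * M)) * P⁻¹ := by
              rw [← hCs, hPP', mul_one]
            _ = _ := by simp only [Matrix.mul_assoc, Matrix.mul_smul, Matrix.smul_mul]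
        rw [show y = g⁻¹ * (x * g) by simp [y, mul_assoc], Units.val_mul, Units.val_mul, h1, ← Matrix.mul_assoc,
          ← Units.val_mul, inv_mul_cancel, Units.val_one, one_mul]
      have hmem : ∀ (a X : GL (Fin 3) F) (Z : Matrix (Fin 3) (Fin 3) F), (a : Matrix (Fin 3) (Fin 3) F) = P * Z * P⁻¹ →
          X ∈ R → M * Z = (P⁻¹ * (X : Matrix (Fin 3) (Fin 3) F) * P) * M → y * a * y⁻¹ ∈ R := by
        intro a X Z ha hX hMZ
        have : y * a = X * y := Units.ext (by
          show (y : Matrix (Fin 3) (Fin 3) F) * (a : Matrix (Fin 3) (Fin 3) F) = (X : Matrix (Fin 3) (Fin 3) F) * (y : Matrix (Fin 3) (Fin 3) F)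
          rw [hy, ha, hco, Matrix.smul_mul, hMZ]
          simp only [← Matrix.mul_assoc, Matrix.mul_smul, Matrix.smul_mul, hPP, one_mul])
        rw [this, mul_inv_cancel_right]
        exact hX
      exact GeomClasses.ExtraspecialThree.mem_normalizer R hR hA hB hAB (hmem A XA _ hAm hXA hMA) (hmem B XB _ hBm hXB hMB)
    have hxU' := GeomClasses.Unitary.mem_GU_iff.1 hxU
    have hcolv : ∀ (g : GL (Fin 3) F) (d : Fin 3 → F), (x : Matrix (Fin 3) (Fin 3) F) * (g : Matrix (Fin 3) (Fin 3) F) =
        (g : Matrix (Fin 3) (Fin 3) F) * Matrix.diagonal d → ∀ i, (x : Matrix (Fin 3) (Fin 3) F) *ᵥ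
          (fun k => (g : Matrix (Fin 3) (Fin 3) F) k i) = d i • fun k => (g : Matrix (Fin 3) (Fin 3) F) k i := by
      intro g d h i
      ext k
      have := congrFun (congrFun h k) i
      rw [Matrix.mul_diagonal] at this
      simpa [Matrix.mulVec, dotProduct, Matrix.mul_apply, mul_comm] using this
    rcases hcond with rfl | ⟨rfl, h9⟩
    · -- involutions
      have hz1 := hz3 (by norm_num)
      have hz0 : z ≠ 0 := fun h => by rw [h] at hz1; simp at hz1
      set c := z * z with hc
      have hc0 : c ≠ 0 := mul_ne_zero hz0 hz0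
      have hc3 : c ^ 3 = 1 := by rw [hc, mul_pow, hz1, one_mul]
      have hx2 : ∀ v, (x : Matrix (Fin 3) (Fin 3) F) *ᵥ ((x : Matrix (Fin 3) (Fin 3) F) *ᵥ v) = (c * c) • v := fun v => by
        rw [Matrix.mulVec_mulVec, ← pow_two, ← Units.val_pow_eq_pow_val, hz, Matrix.smul_mulVec, Matrix.one_mulVec,
          show c * c = z by rw [hc]; linear_combination z * hz1]
      obtain ⟨a, b, bb, hb1, hb2, -, -⟩ := GeomClasses.EigenBasisTwo.exists_eigen_basis h2 (x : Matrix (Fin 3) (Fin 3) F) hc0 hx2
      have hE : ∀ e ∈ ({c, -c} : Set F), e * e ^ p = 1 := by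
        intro e he
        rcases he with rfl | rfl
        · exact hnorm3 _ hc3
        · rw [GeomClasses.Unitary.pow_neg_q hF, neg_mul_neg]; exact hnorm3 _ hc3
      obtain ⟨d, U, hU, hdE, hxU2⟩ := GeomClasses.UnitaryEigenFrame.exists_frame hF hxU' _ hE (by
        rw [eq_top_iff, ← bb.span_eq, Submodule.span_le]
        rintro _ ⟨i, rfl⟩
        rcases i with i | i
        · exact Submodule.subset_span ⟨c, Or.inl rfl, hb1 i⟩
        · exact Submodule.subset_span ⟨-c, Or.inr rfl, hb2 i⟩)
      set u : Fin 3 → Fin 3 → F := fun i k => (U : Matrix (Fin 3) (Fin 3) F) k i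
      have hu := hcolv U d hxU2
      have hprod : d 0 * d 1 * d 2 = 1 := by
        have h := congrArg Matrix.det hxU2
        rw [Matrix.det_mul, Matrix.det_mul, hxd, one_mul, Matrix.det_diagonal, Fin.prod_univ_three] at h
        exact ((mul_eq_left₀ U.det_ne_zero).1 h.symm)
      obtain ⟨σ, h0, h1', h2'⟩ : ∃ σ : Equiv.Perm (Fin 3), d (σ 0) = c ∧ d (σ 1) = -c ∧ d (σ 2) = -c := by
        rcases hdE 0 with e0 | e0 <;> rcases hdE 1 with e1 | e1 <;> rcases hdE 2 with e2 | e2 <;>
          rw [e0, e1, e2] at hprod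
        · exfalso
          refine hns c (Matrix.toLin'.injective ?_)
          refine LinearMap.ext fun v => ?_
          have hxx : (x : Matrix (Fin 3) (Fin 3) F) = c • 1 := by
            have hd' : Matrix.diagonal d = c • (1 : Matrix (Fin 3) (Fin 3) F) := by
              rw [Matrix.smul_one_eq_diagonal]; congr 1; funext i; fin_cases i <;> assumption
            rw [hd', Matrix.mul_smul, mul_one] at hxU2
            calc (x : Matrix (Fin 3) (Fin 3) F) = (x : Matrix (Fin 3) (Fin 3) F) * ((U : Matrix (Fin 3) (Fin 3) F) * ((U⁻¹ : GL (Fin 3) F) : Matrix (Fin 3) (Fin 3) F)) := by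
                  rw [Units.mul_inv, mul_one]
              _ = c • 1 := by rw [← Matrix.mul_assoc, hxU2, Matrix.smul_mul, Units.mul_inv]
          rw [hxx]
        · exfalso; apply h2; linear_combination -hprod - hc3
        · exfalso; apply h2; linear_combination -hprod - hc3
        · exact ⟨1, e0, e1, e2⟩
        · exfalso; apply h2; linear_combination -hprod - hc3
        · exact ⟨Equiv.swap 0 1, by simpa using e1, by simpa using e0, by simpa [Equiv.swap_apply_of_ne_of_ne] using e2⟩
        · exact ⟨Equiv.swap 0 2, by simpa using e2, by simpa [Equiv.swap_apply_of_ne_of_ne] using e1, by simpa using e0⟩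
        · exfalso; apply h2; linear_combination -hprod - hc3
      obtain ⟨t, ht⟩ := GeomClasses.Unitary.exists_norm hF (2 : F)⁻¹ (by
        rw [inv_pow, show (2 : F) ^ p = 2 by
          rw [← frobenius_def, show (2 : F) = ((2 : ℕ) : F) by norm_num, map_natCast]])
      have hus : ∀ i j, Cfsg.hermForm 3 F p (u i) (u j) = if i = j then 1 else 0 := hstd U hU
      let M2 : Matrix (Fin 3) (Fin 3) F := !![1, 0, 0; 0, 0, 1; 0, 1, 0]
      refine conj (-c) M2 ![u (σ 1), t • (u (σ 2) + u (σ 0)), t • (u (σ 2) - u (σ 0))] ?_ ?_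
        (fun s => by ext i j; fin_cases i <;> fin_cases j <;> simp [M2]) ⟨A * A, mul_mem hA hA, ?_⟩ ⟨B * B, mul_mem hB hB, ?_⟩
      · intro i j
        have e : ∀ a b : Fin 3, a ≠ b → Cfsg.hermForm 3 F p (u (σ a)) (u (σ b)) = 0 := fun a b hab => by
          rw [hus, if_neg (fun h => hab (σ.injective h))]
        have e' : ∀ a, Cfsg.hermForm 3 F p (u (σ a)) (u (σ a)) = 1 := fun a => by rw [hus, if_pos rfl]
        fin_cases i <;> fin_cases j <;>
          simp [GeomClasses.Unitary.hh_smul_left hF, GeomClasses.Unitary.hh_smul_right hF, GeomClasses.Unitary.hh_add_left hF,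
            GeomClasses.Unitary.hh_add_right hF, GeomClasses.Unitary.hh_sub_left hF, GeomClasses.Unitary.hh_sub_right hF,
            e 0 1 (by decide), e 0 2 (by decide), e 1 0 (by decide), e 1 2 (by decide), e 2 0 (by decide), e 2 1 (by decide), e',
            ← mul_assoc, ht] <;> field_simp <;> ring
      · intro j
        fin_cases j <;>
          simp [M2, Fin.sum_univ_three, Matrix.mulVec_add, Matrix.mulVec_sub, Matrix.mulVec_smul, u, hu, h0, h1', h2'] <;> module
      · rw [Units.val_mul, hmul, hAc]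
        have hw4 : w * w * (w * w) = w := by linear_combination w * hw
        ext i j
        fin_cases i <;> fin_cases j <;>
          simp [M2, GeomClasses.ExtraspecialThree.D, Matrix.mul_apply, Fin.sum_univ_three, hw4]
      · rw [Units.val_mul, hmul, hBc]
        ext i j
        fin_cases i <;> fin_cases j <;>
          simp [M2, GeomClasses.ExtraspecialThree.S, Matrix.mul_apply, Fin.sum_univ_three]
    · -- elements of order three
      have hz1 := hz3 le_rfl
      have hz0 : z ≠ 0 := fun h => by rw [h] at hz1; simp at hz1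
      obtain ⟨b, hb⟩ : ∃ b : F, b ^ 3 = z := by
        by_contra hc
        push_neg at hc
        obtain ⟨k, hk, hd, -⟩ := GeomClasses.SubspaceDerange.nonpower (r := 3) hc
          (T := Matrix.toLin' (x : Matrix (Fin 3) (Fin 3) F)) (by
            rw [← Matrix.toLin'_pow, ← Units.val_pow_eq_pow_val, hz, map_smul, Matrix.toLin'_one]; rfl)
        rw [Module.finrank_fin_fun] at hk
        obtain rfl : k = 1 := by omega
        rw [LinearMap.det_toLin', hxd] at hd
        exact hc 1 (by rw [one_pow, hd]; ring)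
      have hb0 : b ≠ 0 := fun h => hz0 (by rw [← hb, h]; simp)
      have hnb : b * b ^ p = 1 := by
        obtain ⟨e, he⟩ : 9 ∣ p + 1 := by omega
        rw [← pow_succ', he, show 9 * e = 3 * (3 * e) by ring, pow_mul, hb, pow_mul, hz1, one_pow]
      set E : Set F := {e | ∃ s : F, s ^ 3 = 1 ∧ e = b * s}
      have hE : ∀ e ∈ E, e * e ^ p = 1 := by
        rintro e ⟨s, hs, rfl⟩
        rw [mul_pow, mul_mul_mul_comm, hnb, hnorm3 s hs, one_mul]
      have hx3 : ∀ v, (x : Matrix (Fin 3) (Fin 3) F) *ᵥ ((x : Matrix (Fin 3) (Fin 3) F) *ᵥ ((x : Matrix (Fin 3) (Fin 3) F) *ᵥ v)) = b ^ 3 • v := fun v => by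
        rw [Matrix.mulVec_mulVec, Matrix.mulVec_mulVec, ← Units.val_mul, ← Units.val_mul,
          show x * x * x = x ^ 3 by rw [pow_succ, pow_two], hz, Matrix.smul_mulVec, Matrix.one_mulVec, hb]
      obtain ⟨d, U, hU, hdE, hxU2⟩ := GeomClasses.UnitaryEigenFrame.exists_frame hF hxU' E hE (by
        rw [eq_top_iff]
        intro v _
        set X := fun v => (x : Matrix (Fin 3) (Fin 3) F) *ᵥ v
        have hmem : ∀ s : F, s ^ 3 = 1 → (b * b) • v + (b * (s * s)) • X v + s • X (X v) ∈
            Submodule.span F {v | ∃ c ∈ E, (x : Matrix (Fin 3) (Fin 3) F) *ᵥ v = c • v} := fun s hs => by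
          refine Submodule.subset_span ⟨b * s, ⟨s, hs, rfl⟩, ?_⟩
          simp only [X, Matrix.mulVec_add, Matrix.mulVec_smul, hx3]
          match_scalars <;> first | ring1 | linear_combination -(b * b) * hs | linear_combination (b * b) * hs
        have h := add_mem (add_mem (hmem 1 (one_pow 3)) (hmem w hw)) (hmem (w * w) (by rw [mul_pow, hw, one_mul]))
        have hw2 : w * w + w + 1 = 0 :=
          (mul_eq_zero.1 (show (w - 1) * (w * w + w + 1) = 0 by linear_combination hw)).resolve_left (sub_ne_zero.2 hw1)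
        rw [show (b * b) • v + (b * (1 * 1)) • X v + (1 : F) • X (X v) + ((b * b) • v + (b * (w * w)) • X v + w • X (X v)) +
          ((b * b) • v + (b * (w * w * (w * w))) • X v + (w * w) • X (X v)) = (3 * (b * b)) • v by
            match_scalars <;> first | ring1 | linear_combination hw2 | linear_combination b * hw2 + b * w * hw] at h
        have := Submodule.smul_mem _ (3 * (b * b))⁻¹ h
        rwa [smul_smul, inv_mul_cancel₀ (mul_ne_zero h3 (mul_ne_zero hb0 hb0)), one_smul] at this)
      set u : Fin 3 → Fin 3 → F := fun i k => (U : Matrix (Fin 3) (Fin 3) F) k i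
      have hu := hcolv U d hxU2
      have hus : ∀ i j, Cfsg.hermForm 3 F p (u i) (u j) = if i = j then 1 else 0 := hstd U hU
      have hperm : ∀ σ : Equiv.Perm (Fin 3), ∀ i j, Cfsg.hermForm 3 F p (u (σ i)) (u (σ j)) = if i = j then 1 else 0 :=
        fun σ i j => by rw [hus]; simp [σ.injective.eq_iff]
      have hdC : ∀ (e : Fin 3 → F) (s : F), Matrix.diagonal ![s, 1, 1] * Matrix.diagonal e = Matrix.diagonal e * Matrix.diagonal ![s, 1, 1] :=
        fun e s => by rw [Matrix.diagonal_mul_diagonal, Matrix.diagonal_mul_diagonal]; exact congrArg _ (funext fun i => mul_comm _ _)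
      by_cases hinj : Function.Injective d
      · have hf : ∀ i, ∃ l : Fin 3, d i = b * w ^ (l : ℕ) := fun i => by
          obtain ⟨s, hs, he⟩ := hdE i
          rcases hroots s hs with rfl | rfl | rfl
          · exact ⟨0, by simp [he]⟩
          · exact ⟨1, by simp [he]⟩
          · exact ⟨2, by simp [he, pow_two]⟩
        choose l hl using hf
        have hli : Function.Injective l := fun i j h => hinj (by rw [hl, hl, h])
        set σ := (Equiv.ofBijective l ⟨hli, Finite.surjective_of_injective hli⟩).symm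
        have hσ : ∀ i, d (σ i) = b * w ^ (i : ℕ) := fun i => by
          rw [hl, show l (σ i) = i from (Equiv.ofBijective l ⟨hli, Finite.surjective_of_injective hli⟩).apply_symm_apply i]
        refine conj b (GeomClasses.ExtraspecialThree.D w) (fun i => u (σ i)) (hperm σ) ?_ (hdC _) ⟨A, hA, by rw [hAc]⟩
          ⟨C * B, mul_mem hC hB, ?_⟩
        · intro j
          have hd' : (GeomClasses.ExtraspecialThree.D w) = Matrix.diagonal (fun i : Fin 3 => w ^ (i : ℕ)) := by
            rw [GeomClasses.ExtraspecialThree.D]; congr 1; funext i; fin_cases i <;> simp [pow_two]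
          simp only [u, hu, hσ, hd', Matrix.diagonal_apply, ite_smul, zero_smul, Finset.sum_ite_eq', Finset.mem_univ, if_true, smul_smul]
        · rw [Units.val_mul, hmul, hBc, hCw, Matrix.mul_smul, mul_one, Matrix.smul_mul, hPP']
          ext i j
          fin_cases i <;> fin_cases j <;>
            simp [GeomClasses.ExtraspecialThree.S, GeomClasses.ExtraspecialThree.D, Matrix.mul_apply, Fin.sum_univ_three]
          linear_combination -hw
      · rw [Function.not_injective_iff] at hinj
        obtain ⟨i, j, hdij, hij⟩ := hinj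
        obtain ⟨k, hki, hkj⟩ := (by decide : ∀ i j : Fin 3, ∃ k, k ≠ i ∧ k ≠ j) i j
        let σf : Fin 3 → Fin 3 := ![i, j, k]
        have hσi : Function.Injective σf := by
          intro a c hac
          fin_cases a <;> fin_cases c <;> simp [σf, hij, hij.symm, hki, hki.symm, hkj, hkj.symm] at hac ⊢
        set σ := Equiv.ofBijective σf ⟨hσi, Finite.surjective_of_injective hσi⟩
        obtain ⟨s, hs, hes⟩ := hdE i
        obtain ⟨s', hs', hes'⟩ := hdE k
        have hs0 : s ≠ 0 := fun h => by rw [h] at hs; simp at hs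
        set e := s' / s
        have he3 : e ^ 3 = 1 := by rw [div_pow, hs, hs', div_one]
        refine conj (b * s) (Matrix.diagonal ![1, 1, e]) (fun a => u (σ a)) (hperm σ) ?_ (hdC _)
          ⟨A, hA, by rw [hAc, GeomClasses.ExtraspecialThree.D, Matrix.diagonal_mul_diagonal, Matrix.diagonal_mul_diagonal]; exact congrArg _ (funext fun l => mul_comm _ _)⟩ ?_
        · intro a
          simp only [u, hu, Matrix.diagonal_apply, ite_smul, zero_smul, Finset.sum_ite_eq', Finset.mem_univ, if_true, smul_smul]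
          congr 1
          fin_cases a
          · show d i = b * s * 1
            rw [hes, mul_one]
          · show d j = b * s * 1
            rw [← hdij, hes, mul_one]
          · show d k = b * s * (s' / s)
            rw [hes', mul_assoc, mul_div_cancel₀ _ hs0]
        · rcases hroots e he3 with h1 | h1 | h1
          · exfalso
            have hkk : d k = d i := by rw [hes', hes, (div_eq_one_iff_eq hs0).1 h1]
            have hall : Matrix.diagonal d = d i • (1 : Matrix (Fin 3) (Fin 3) F) := by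
              rw [Matrix.smul_one_eq_diagonal]
              congr 1
              funext a
              obtain ⟨a, rfl⟩ := σ.surjective a
              fin_cases a
              · rfl
              · exact hdij.symm
              · exact hkk
            rw [hall, Matrix.mul_smul, mul_one] at hxU2
            refine hns (d i) ?_
            calc (x : Matrix (Fin 3) (Fin 3) F) = (x : Matrix (Fin 3) (Fin 3) F) * ((U : Matrix (Fin 3) (Fin 3) F) * ((U⁻¹ : GL (Fin 3) F) : Matrix (Fin 3) (Fin 3) F)) := by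
                  rw [Units.mul_inv, mul_one]
              _ = d i • 1 := by rw [← Matrix.mul_assoc, hxU2, Matrix.smul_mul, Units.mul_inv]
          · rw [h1]
            refine ⟨B * A, mul_mem hB hA, ?_⟩
            rw [Units.val_mul, hmul, hBc, hAc]
            ext l j
            fin_cases l <;> fin_cases j <;>
              simp [GeomClasses.ExtraspecialThree.S, GeomClasses.ExtraspecialThree.D, Matrix.mul_apply, Fin.sum_univ_three, Matrix.vecMul, dotProduct]
            linear_combination -hw
          · rw [h1]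
            refine ⟨B * A * A, mul_mem (mul_mem hB hA) hA, ?_⟩
            rw [Units.val_mul, Units.val_mul, hmul, hmul, hBc, hAc]
            ext l j
            fin_cases l <;> fin_cases j <;>
              simp [GeomClasses.ExtraspecialThree.S, GeomClasses.ExtraspecialThree.D, Matrix.mul_apply, Fin.sum_univ_three, Matrix.vecMul, dotProduct]
            linear_combination -(w ^ 3 + 1) * hw

end Cfsg.Agent.S5999
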